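import Cfsg.Statements.S0821
import Cfsg.Agent.Class.InvolCent

set_option autoImplicit false
open Cfsg

namespace Cfsg.Agent.S0821

open Cfsg.Lib.Class


/-- PSp_2m(q) ≇ PΩ_(2m+1)(q) for q odd and m ≥ 3 (they have the same order). -/
theorem result {F : Type*} [Field F] [Fintype F] (hodd : Odd (Fintype.card F)) (m : ℕ) (hm : 3 ≤ m) : IsEmpty (Cfsg.PSp m F ≃* Cfsg.POmega F (Cfsg.quadFormOdd m F)) := by
  refine ⟨fun e => ?_⟩
  obtain ⟨m, rfl⟩ := Nat.exists_eq_add_of_le' (show 1 ≤ m by omega)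
  have h2 : (2 : F) ≠ 0 := two_ne_zero_of_odd_card hodd
  have hQ := quadOdd_nondegenerate h2 (m + 1)
  have hV : Module.finrank F (Unit ⊕ (Fin (m + 1) ⊕ Fin (m + 1)) → F) = 2 * m + 3 := by
    simp; ring
  obtain ⟨t, ht1, ht2, ht3⟩ := exists_involution_omega hQ hodd hV
  have hZ := Orth.center_commutator_eq_bot hQ (Orth.not_exc_of_two_ne_zero h2) (by omega)
    (Or.inr (Orth.negO_notMem_commutator hQ h2 (hV ▸ ⟨m + 1, by ring⟩)))
  rw [← coe_quadOdd] at e
  let e' := ((quotCenterEquiv (spEquivSpB (m + 1) F)).symm.trans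
    (e.trans ((Orth.pomegaEquiv _).trans (quotCenterEquivOfEqBot hZ)))).symm
  refine not_dvd_card_centralizer_psp (sympBilin_nondegenerate (m + 1)) (sympBilin_isAlt (m + 1))
    hodd (m := m) (by omega) (finrank_symp_space (m + 1)) (e' t) ?_ ?_ ?_
  · rwa [Ne, map_eq_one_iff _ e'.injective]
  · rw [← map_mul, ht2, map_one]
  · rwa [card_centralizer_mulEquiv]

end Cfsg.Agent.S0821
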