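import Cfsg.Statements.S0587
import Cfsg.Agent.Solv.CoreFree
import Cfsg.Agent.Solv.CardModEq

set_option autoImplicit false
open Cfsg

namespace Cfsg.Agent.S0587

open Lib.Solv Lib.Solv.CoreFree

/-- Let G be a finite group whose largest normal p-subgroup L is nontrivial, and M a maximal subgroup of G with trivial normal core. Then L is elementary abelian, M is a complement to L, L is a minimal normal subgroup of G, the centralizer of L is L, and for every prime q such that the largest normal q-subgroup of M is nontrivial, the order of L is congruent to 1 modulo q and q ≠ p. -/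
theorem result {G : Type*} [Group G] [Finite G] (p : ℕ) [Fact p.Prime] (hL : Cfsg.pCore p G ≠ ⊥) (M : Subgroup G) (hM : IsCoatom M) (hcore : M.normalCore = ⊥) : Cfsg.IsElementaryAbelian p (Cfsg.pCore p G) ∧ Subgroup.IsComplement' (Cfsg.pCore p G) M ∧ (∀ K : Subgroup G, K.Normal → K ≤ Cfsg.pCore p G → K = ⊥ ∨ K = Cfsg.pCore p G) ∧ Subgroup.centralizer ((Cfsg.pCore p G : Subgroup G) : Set G) = Cfsg.pCore p G ∧ ∀ (q : ℕ) [Fact q.Prime], Cfsg.pCore q ↥M ≠ ⊥ → Nat.card (Cfsg.pCore p G) % q = 1 % q ∧ q ≠ p := by
  have hp : IsPGroup p (pCore p G) := pCore_isPGroup p G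
  have hc := isMulCommutative_of_isNilpotent hM hcore hp.isNilpotent hL
  have hmin := isMinNormal_of_comm hM hcore hL
  have hcomp := isComplement'_of_comm hM hcore hL
  have hcent := centralizer_eq_self hM hcore hL
  refine ⟨hmin.elementary_of_isPGroup hp, hcomp, hmin.min, hcent, fun q _ hq => ?_⟩
  set Q : Subgroup G := (pCore q M).map M.subtype with hQ
  have hQq : IsPGroup q Q := isPGroup_map_pCore q M
  have hQM : Q ≤ M := Subgroup.map_subtype_le _
  have hQ0 : Q ≠ ⊥ := by
    rwa [Ne, Subgroup.map_eq_bot_iff, Subgroup.ker_subtype, le_bot_iff]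
  have hMQ : M ≤ Subgroup.normalizer (Q : Set G) := le_normalizer_map_subtype _
  have nt : ∀ (X : Subgroup G), X ≤ Subgroup.normalizer ((pCore p G : Subgroup G) : Set G) := by
    intro X
    rw [Subgroup.normalizer_eq_top_iff.mpr inferInstance]; exact le_top
  have hQL : ¬ Q ≤ pCore p G := fun h =>
    hQ0 (eq_bot_iff.mpr (hcomp.disjoint.eq_bot ▸ le_inf h hQM))
  have hn : (pCore p G ⊓ Subgroup.centralizer (Q : Set G)).Normal := by
    rw [← Subgroup.normalizer_eq_top_iff, eq_top_iff, ← hcomp.sup_eq_top]
    refine sup_le (le_trans ?_ (Subgroup.centralizer_le_normalizer _))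
      (le_normalizer_inf_centralizer (nt _) hMQ)
    rw [Subgroup.le_centralizer_iff]
    exact inf_le_left.trans hcent.ge
  have hb : pCore p G ⊓ Subgroup.centralizer (Q : Set G) = ⊥ := by
    refine (hmin.min _ hn inf_le_left).resolve_right fun h => hQL ?_
    rw [← hcent, Subgroup.le_centralizer_iff]
    exact inf_eq_left.mp h
  refine ⟨card_modEq_one_of_inf_centralizer_eq_bot hQq (nt _) hb, ?_⟩
  rintro rfl
  refine inf_centralizer_ne_bot_of_dvd_card hQq (nt _) ?_ hb
  rcases hp.card_eq_or_dvd with h | h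
  · exact absurd (Subgroup.card_eq_one.mp h) hL
  · exact h

end Cfsg.Agent.S0587
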