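import Cfsg.Statements.S0163
import Cfsg.Agent.Char.Artin
import Cfsg.Agent.Char.Primitive

set_option autoImplicit false
open Cfsg

namespace Cfsg.Agent.S0163

/-- Brauer's induction Theorem: every character of a finite group is a ℤ-linear combination of functions induced from linear characters (homomorphisms to ℂˣ) of elementary subgroups. -/
theorem result {G : Type*} [Group G] [Fintype G] (χ : G → ℂ) (hχ : Cfsg.IsCharacter G χ) : ∃ l : List ((E : Subgroup G) × ((E →* ℂˣ) × ℤ)), (∀ t ∈ l, ∃ p : ℕ, p.Prime ∧ Cfsg.IsElementary p t.1) ∧ χ = (l.map fun t => (t.2.2 : ℂ) • Cfsg.indFun t.1 (fun e => (t.2.1 e : ℂ))).sum := by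
  refine Cfsg.Lib.Char.Brauer.exists_list_of_mem_linSpan
    (F := fun E => ∃ p : ℕ, p.Prime ∧ Cfsg.IsElementary p E)
    (Cfsg.Lib.Char.Brauer.indSpan_le_linSpan ?_
      (Cfsg.Lib.Char.Brauer.mem_indSpan_elementary hχ.isGeneralizedCharacter))
  rintro E ⟨p, hp, hE⟩ _ ψ hψ
  haveI := Cfsg.Lib.Char.Brauer.isNilpotent_of_isElementary hp hE
  obtain ⟨U, lam, h⟩ := Cfsg.Lib.Char.exists_monoidHom_indFun_eq_of_isNilpotent hψ
  exact ⟨U, lam, ⟨p, hp, Cfsg.Lib.Char.Brauer.isElementary_of_le hp hE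
    (Subgroup.map_subtype_le _)⟩, h⟩

end Cfsg.Agent.S0163
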