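import Cfsg.Statements.S5016
import Cfsg.Agent.Class.RootSL
import Cfsg.Agent.Class.QuadSL2

set_option autoImplicit false
open Cfsg

namespace Cfsg.Agent.S5016

open Cfsg.Lib.Class Matrix

/-- For any field k, the special linear group SL₂(k) is a special rank one group with abelian unipotent subgroups, the unipotent subgroups being the group of lower unitriangular matrices and the group of upper unitriangular matrices. -/
theorem result (k : Type*) [Field k] :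
    Cfsg.IsRankOneGroup (Matrix.SpecialLinearGroup (Fin 2) k) (Cfsg.lowerUnipotentSL2 k) (Cfsg.upperUnipotentSL2 k) ∧
    Cfsg.IsSpecialRankOnePair (Cfsg.lowerUnipotentSL2 k) (Cfsg.upperUnipotentSL2 k) ∧
    Cfsg.HasAbelianUnipotents (Cfsg.lowerUnipotentSL2 k) (Cfsg.upperUnipotentSL2 k) := by
  have h1 : Cfsg.IsRankOnePair (Cfsg.lowerUnipotentSL2 k) (Cfsg.upperUnipotentSL2 k) := by
    rw [lowerUnipotentSL2_eq, upperUnipotentSL2_eq]
    exact isRankOnePair_rootSub _ _ (by simp) (by simp)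
  refine ⟨⟨by rw [sup_comm, upper_sup_lower_SL2], h1⟩, ⟨h1, ?_⟩, ⟨⟨fun a b => Subtype.ext ?_⟩⟩,
    ⟨⟨fun a b => Subtype.ext ?_⟩⟩⟩
  · intro a ha ha1 b hb hb1 h
    have h2 : b⁻¹ * a * b ∈ conjBy (Cfsg.upperUnipotentSL2 k) a⁻¹ := by
      rw [← h]
      exact ⟨a, ha, by simp⟩
    obtain ⟨c, hc, e⟩ := h2
    obtain ⟨x, rfl⟩ := mem_lowerUnipotentSL2.1 ha
    obtain ⟨y, rfl⟩ := mem_upperUnipotentSL2.1 hb
    obtain ⟨c, rfl⟩ := mem_upperUnipotentSL2.1 hc
    have hx : x ≠ 0 := fun h => ha1 (by rw [h, slV_zero])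
    have e' : (slV x)⁻¹ * slU c * slV x = (slU y)⁻¹ * slV x * slU y := by simpa using e
    have e2 := congrArg (fun g : SpecialLinearGroup (Fin 2) k => (g : Matrix (Fin 2) (Fin 2) k) 0 0) e'
    rw [← slU_neg, ← slV_neg] at e2
    change ((!![1, 0; -x, 1] : Matrix (Fin 2) (Fin 2) k) * !![1, c; 0, 1] * !![1, 0; x, 1]) 0 0 =
      ((!![1, -y; 0, 1] : Matrix (Fin 2) (Fin 2) k) * !![1, 0; x, 1] * !![1, y; 0, 1]) 0 0 at e2
    simp at e2
    have hc : c = -y := mul_right_cancel₀ hx (by linear_combination e2)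
    rw [← e', hc, slU_neg]
  · obtain ⟨x, hx⟩ := mem_lowerUnipotentSL2.1 a.2
    obtain ⟨y, hy⟩ := mem_lowerUnipotentSL2.1 b.2
    rw [Subgroup.coe_mul, Subgroup.coe_mul, hx, hy, ← slV_add, ← slV_add, add_comm]
  · obtain ⟨x, hx⟩ := mem_upperUnipotentSL2.1 a.2
    obtain ⟨y, hy⟩ := mem_upperUnipotentSL2.1 b.2
    rw [Subgroup.coe_mul, Subgroup.coe_mul, hx, hy, ← slU_add, ← slU_add, add_comm]

end Cfsg.Agent.S5016
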