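import Cfsg.Statements.S0823
import Cfsg.Agent.Class.SO3
import Cfsg.Agent.S0266

set_option autoImplicit false
open Cfsg

namespace Cfsg.Agent.S0823

open Cfsg.Lib.Class Matrix

/-- `PGL₂(3)` is the symmetric group on the four points of the projective line. -/
theorem nonempty_pgl_equiv {F : Type*} [Field F] [Fintype F] (hF : Fintype.card F = 3) :
    Nonempty (ProjGenLinGroup (Fin 2) F ≃* Equiv.Perm (Fin 4)) := by
  have hc : Nat.card (Projectivization F (Fin 2 → F)) = 4 := by
    rw [Projectivization.card_of_finrank_two F (Fin 2 → F) (by simp), Nat.card_eq_fintype_card, hF]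
  have : Finite (Projectivization F (Fin 2 → F)) := Nat.finite_of_card_ne_zero (by omega)
  have e : Projectivization F (Fin 2 → F) ≃ Fin 4 := Finite.equivFinOfCardEq hc
  have hinj : Function.Injective
      (MulAction.toPermHom (ProjGenLinGroup (Fin 2) F) (Projectivization F (Fin 2 → F))) := by
    rw [injective_iff_map_eq_one]
    intro g hg
    have h : ∀ x : Projectivization F (Fin 2 → F), g • x = x := fun x => DFunLike.congr_fun hg x
    exact S0266.result.2 g (e.symm 0) (e.symm 1) (e.symm 2) (by simp) (by simp) (by simp)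
      (h _) (h _) (h _)
  refine ⟨mulEquivOfInjectiveOfCardLe (e.permCongrHom.toMonoidHom.comp (MulAction.toPermHom _ _))
    (e.permCongrHom.injective.comp hinj) ?_⟩
  rw [S0265.result, card_SL_fin_two hF, Nat.card_perm]
  simp [Nat.factorial]

/-- SO_3(3) ≅ S_4: the determinant-one isometries of the form x_0² + x_1y_1 over the field with 3 elements form a group isomorphic to the symmetric group on 4 letters. -/
theorem result {F : Type*} [Field F] [Fintype F] (hF : Fintype.card F = 3) : Nonempty (↥(Cfsg.specialIsometryGroup F (Cfsg.quadFormOdd 1 F)) ≃* Equiv.Perm (Fin 4)) := by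
  obtain ⟨e1⟩ := nonempty_pgl_two_equiv_so3 (F := F) (by rw [hF]; decide)
  obtain ⟨e2⟩ := nonempty_pgl_equiv hF
  exact ⟨e1.symm.trans e2⟩

end Cfsg.Agent.S0823
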