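import Cfsg.Statements.S1851
import Cfsg.Agent.Local.Trace
import Cfsg.Agent.Local.FStarP
import Cfsg.Agent.Local.CharPLocal

set_option autoImplicit false
open Cfsg

namespace Cfsg.Agent.S1851

open Subgroup Cfsg.Lib Cfsg.Lib.Solv Cfsg.Lib.Local Cfsg.Lib.Local.MSS Cfsg.Lib.Trans.TJ

section
variable {G : Type*} [Group G] [Finite G]

theorem charP_over (hE : IsOfEvenCharacteristic G) (T : Sylow 2 G) {H : Subgroup G}
    (hT : (T : Subgroup G) ≤ H) (hO : pCore 2 H ≠ ⊥) : Local.CharP 2 H := by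
  have hH : H ≤ normalizer (pCoreOf 2 H : Set G) := self_le_normalizer_pCoreOf H
  have hM : Local.CharP 2 (normalizer (pCoreOf 2 H : Set G)) :=
    charP_iff.2 (hE _ ⟨_, MSS.isPGroup_pCoreOf H, fun h => hO (MSS.pCoreOf_eq_bot_iff.1 h), rfl⟩
      ⟨T, hT.trans hH⟩)
  exact hM.of_pCoreOf_le ((pCoreOf_le_sylow T (hT.trans hH)).trans hT) hH

theorem resOf_eq_of_perfect {K : Subgroup G} (h : ⁅K, K⁆ = K) : resOf 2 K = K :=
  le_antisymm (MSS.resOf_le K) (le_resOf_of_commutator_eq h)

omit [Finite G] in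
theorem oddGenerated_eq (K : Subgroup G) : oddGenerated K = resOf 2 K := by
  rw [MSS.resOf_eq_closure]
  simp only [oddGenerated, Nat.coprime_two_right]

omit [Finite G] in
theorem perfect_of_calL {T L : Subgroup G} (hL : L ∈ calL T) : ⁅L, L⁆ = L := by
  have := congrArg (Subgroup.map (L ⊔ T).subtype) hL.1.2.1
  rwa [map_commutator, map_subgroupOf_eq_of_le le_sup_left] at this

/-- For `L = O^2(L)` subnormal in `H`: `L` moves `Ω₁ Z(O_2(L))` iff it moves `Ω₁ Z(O_2(H))`. -/
theorem le_centralizer_omZ_iff {L H : Subgroup G} (hs : SubnormalIn L H) (hL : resOf 2 L = L) :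
    L ≤ centralizer (omZ 2 (pCoreOf 2 L) : Set G) ↔
      L ≤ centralizer (omZ 2 (pCoreOf 2 H) : Set G) := by
  have hRn : pCoreOf 2 H ≤ normalizer (L : Set G) := by
    have := le_normalizer_resOf_of_subnormalIn hs (MSS.pCoreOf_le H) (self_le_normalizer_pCoreOf H)
      (MSS.isPGroup_pCoreOf (p := 2) H)
    rwa [hL] at this
  have hLR : L ≤ normalizer (pCoreOf 2 H : Set G) := hs.1.trans (self_le_normalizer_pCoreOf H)
  have hle : pCoreOf 2 L ≤ pCoreOf 2 H := MSS.pCoreOf_le_of_subnormalIn hs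
  have hcomm : ⁅pCoreOf 2 H, L⁆ ≤ pCoreOf 2 L := by
    rw [MSS.pCoreOf_eq_inf_of_subnormalIn hs]
    exact commutator_le_inf_of_le_normalizer hRn hLR
  constructor
  · intro h
    have h1 : ⁅omZ 2 (pCoreOf 2 H), L⁆ ≤ omZ 2 (pCoreOf 2 H) :=
      commutator_le_left_of_le_normalizer (le_normalizer_omZ hLR)
    have h2 : ⁅omZ 2 (pCoreOf 2 H), L⁆ ≤ omZ 2 (pCoreOf 2 L) :=
      le_omZ (ea_mono (ea_omegaOne_center _) h1)
        ((commutator_mono (omZ_le _) le_rfl).trans hcomm)
        (h1.trans ((omZ_le_centralizer _).trans (centralizer_le hle)))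
    have := MSS.resOf_le_centralizer_of_commutator_le (p := 2) (E := L)
      (V := omZ 2 (pCoreOf 2 H)) (W := omZ 2 (pCoreOf 2 L))
      (ea_isPGroup (ea_omegaOne_center _)) (by rw [hL]; exact h2) (by rw [hL]; exact h)
    rwa [hL] at this
  · intro h
    have := p_times_q (p := 2) (V := omZ 2 (pCoreOf 2 L)) (R := pCoreOf 2 H) (E := L)
      (ea_isPGroup (ea_omegaOne_center _))
      (le_normalizer_omZ (MSS.le_normalizer_pCoreOf hRn))
      (by rw [hL]; exact le_normalizer_omZ (self_le_normalizer_pCoreOf L))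
      (resOf_le_of_isPGroup (MSS.isPGroup_pCoreOf H) _)
      (by rw [hL]; exact hcomm.trans (le_centralizer_omZ _))
      (by
        rw [hL]
        refine h.trans (centralizer_le ?_)
        exact le_omZ (ea_mono (ea_omegaOne_center _) inf_le_left)
          (inf_le_left.trans ((omZ_le _).trans hle)) inf_le_right)
    rwa [hL] at this

end

/-- Let G be a non-abelian finite simple QTKE-group and T a Sylow 2-subgroup of G, and let L be a member of ℒ_f(G, T) (a member of ℒ(G, T) that lies in 𝒳 — L ≠ 1, L = O²(L), F*(L) = O₂(L) — and acts nontrivially on Ω₁(Z(O₂(L)))). Then (1) every member K of ℒ(G, T) containing L is again in ℒ_f(G, T) (a sharper form of (1) also compares the modules [Ω₁(Z(R)), L] and [Ω₁(Z(R')), K] for suitable 2-subgroups R, R'; that comparison is not included); and (2) if L is maximal under inclusion among the members of ℒ_f(G, T), then L is a maximal member of ℒ(G, T), hence a member of ℒ_f*(G, T). -/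
theorem result {G : Type*} [Group G] [Finite G] [IsSimpleGroup G]
    (hG : ¬ IsMulCommutative G) (hQ : Cfsg.IsQTKE G) (T : Sylow 2 G) (L : Subgroup G)
    (hL : L ∈ Cfsg.calLf (T : Subgroup G)) :
    (∀ K ∈ Cfsg.calL (T : Subgroup G), L ≤ K → K ∈ Cfsg.calLf (T : Subgroup G)) ∧
    ((∀ K ∈ Cfsg.calLf (T : Subgroup G), L ≤ K → K = L) → L ∈ Cfsg.calLfMax (T : Subgroup G)) := by
  have key : ∀ K ∈ calL (T : Subgroup G), L ≤ K → K ∈ calLf (T : Subgroup G) := by
    intro K hK hLK
    have hKp := perfect_of_calL hK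
    have hLp := perfect_of_calL hL.1
    have hKs : SubnormalIn K (K ⊔ T) := ⟨le_sup_left, hK.1.2.2.1⟩
    have hLs : SubnormalIn L (L ⊔ T) := ⟨le_sup_left, hL.1.1.2.2.1⟩
    have hH : Local.CharP 2 (K ⊔ (T : Subgroup G)) := charP_over hQ.2.2 T le_sup_right hK.2.2
    refine ⟨hK, ⟨fun h => hL.2.1.1 (le_bot_iff.1 (h ▸ hLK)), ?_,
      charP_iff_genFitting.1 (hH.of_subnormalIn hKs)⟩, fun h => hL.2.2 ?_⟩
    · rw [oddGenerated_eq, resOf_eq_of_perfect hKp]
    · have h1 : K ≤ centralizer (omZ 2 (pCoreOf 2 K) : Set G) := by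
        rw [← commutator_eq_bot_iff_le_centralizer, Subgroup.commutator_comm]
        exact h
      have h2 := (le_centralizer_omZ_iff hKs (resOf_eq_of_perfect hKp)).1 h1
      have hle : L ⊔ (T : Subgroup G) ≤ K ⊔ T := sup_le_sup_right hLK _
      have h3 : pCoreOf 2 (K ⊔ (T : Subgroup G)) ≤ pCoreOf 2 (L ⊔ (T : Subgroup G)) :=
        pCoreOf_le_pCoreOf_of_le ((pCoreOf_le_sylow T le_sup_right).trans le_sup_right) hle
      have h4 : omZ 2 (pCoreOf 2 (L ⊔ (T : Subgroup G))) ≤
          centralizer (pCoreOf 2 (K ⊔ (T : Subgroup G)) : Set G) :=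
        (omZ_le_centralizer _).trans (centralizer_le h3)
      have h5 : omZ 2 (pCoreOf 2 (L ⊔ (T : Subgroup G))) ≤
          omZ 2 (pCoreOf 2 (K ⊔ (T : Subgroup G))) :=
        le_omZ (ea_omegaOne_center _)
          (charP_le hH (((omZ_le _).trans (MSS.pCoreOf_le _)).trans hle) h4) h4
      have h6 := (le_centralizer_omZ_iff hLs (resOf_eq_of_perfect hLp)).2
        (hLK.trans (h2.trans (centralizer_le h5)))
      rw [← commutator_eq_bot_iff_le_centralizer, Subgroup.commutator_comm] at h6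
      exact h6
  exact ⟨key, fun h => ⟨⟨hL.1, fun K hK hLK => h K (key K hK hLK) hLK⟩, hL.2⟩⟩

end Cfsg.Agent.S1851
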