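import Cfsg.Statements.S1620
import Cfsg.Agent.Spor.J2Simple

set_option autoImplicit false
open Quaternion
open Cfsg

namespace Cfsg.Agent.S1620

/-- The Hall–Janko group is simple and non-abelian. -/
theorem result : IsSimpleGroup Cfsg.Spor.J2 ∧ ∃ a b : Cfsg.Spor.J2, a * b ≠ b * a := by
  refine ⟨inferInstance, ?_⟩
  by_contra h
  have h1 := Cfsg.Lib.Spor.J2.card_centralizer_rep (r := ([0], 2, 1920)) (by decide +kernel)
  rw [(Subgroup.eq_top_iff' _).2 fun x => Subgroup.mem_centralizer_singleton_iff.2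
    (not_not.1 fun e => h ⟨_, _, e⟩), Subgroup.card_top, Cfsg.Lib.Spor.J2.card_J2] at h1
  simp at h1

end Cfsg.Agent.S1620
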