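import Cfsg.Statements.S4198
import Mathlib

set_option autoImplicit false
open Cfsg

namespace Cfsg.Agent.S4198

open Equiv Equiv.Perm

/-- possible cycle types -/
def T (n : ℕ) : Set (Multiset ℕ) := {m | m.sum ≤ n ∧ ∀ a ∈ m, 2 ≤ a}

theorem T_eq (n : ℕ) : T n = Set.range (fun g : Perm (Fin n) => g.cycleType) := by
  ext m
  simp only [T, Set.mem_ofPred_eq, Set.mem_range]
  rw [exists_with_cycleType_iff, Fintype.card_fin]

theorem T_finite (n : ℕ) : (T n).Finite := T_eq n ▸ Set.finite_range _

theorem card_conjClasses_perm (n : ℕ) : Nat.card (ConjClasses (Perm (Fin n))) = (T n).ncard := by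
  let f : ConjClasses (Perm (Fin n)) → Multiset ℕ :=
    Quotient.lift (fun g : Perm (Fin n) => g.cycleType) (fun a b h => isConj_iff_cycleType_eq.1 h)
  have hf : Function.Injective f := by
    rintro ⟨a⟩ ⟨b⟩ h
    exact Quotient.sound (isConj_iff_cycleType_eq.2 h)
  have : T n = Set.range f := by
    rw [T_eq]
    ext m
    constructor
    · rintro ⟨g, rfl⟩; exact ⟨ConjClasses.mk g, rfl⟩
    · rintro ⟨⟨g⟩, rfl⟩; exact ⟨g, rfl⟩
  rw [this, Set.ncard_range_of_injective hf]

theorem ncard_T_succ (n : ℕ) : (T (n + 1)).ncard ≤ 2 * (T n).ncard := by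
  classical
  let U : Set (Multiset ℕ) := {m | m.sum = n + 1 ∧ ∀ a ∈ m, 2 ≤ a}
  have h1 : T (n + 1) ⊆ T n ∪ U := by
    rintro m ⟨h1, h2⟩
    rcases Nat.lt_or_eq_of_le h1 with h | h
    · exact Or.inl ⟨by omega, h2⟩
    · exact Or.inr ⟨h, h2⟩
  have hU : U.Finite := (T_finite (n + 1)).subset (fun m hm => ⟨hm.1.le, hm.2⟩)
  have h2 : ∀ m, ∃ m', m ∈ U → m' ∈ T n ∧ ((m = 2 ::ₘ m' ∧ m'.sum + 1 = n) ∨
      (m'.sum = n ∧ ∃ b ∈ m', (∀ c ∈ m', b ≤ c) ∧ m = (b + 1) ::ₘ m'.erase b)) := by
    intro m
    by_cases hm : m ∈ U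
    swap
    · exact ⟨0, fun h => absurd h hm⟩
    obtain ⟨h3, h4⟩ := hm
    obtain ⟨a, ha, hmin⟩ := Multiset.exists_min_image id (s := m) (by rintro rfl; simp at h3)
    have h5 := h4 a ha
    have h6 := h3
    rw [← Multiset.cons_erase ha, Multiset.sum_cons] at h6
    by_cases ha2 : a = 2
    · subst ha2
      exact ⟨m.erase 2, fun _ => ⟨⟨by omega, fun b hb => h4 b (Multiset.mem_of_mem_erase hb)⟩,
        Or.inl ⟨(Multiset.cons_erase ha).symm, by omega⟩⟩⟩
    · refine ⟨(a - 1) ::ₘ m.erase a, fun _ => ⟨⟨by rw [Multiset.sum_cons]; omega, fun b hb => ?_⟩,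
        Or.inr ⟨by rw [Multiset.sum_cons]; omega, a - 1, Multiset.mem_cons_self _ _, fun c hc => ?_,
          ?_⟩⟩⟩
      · rcases Multiset.mem_cons.1 hb with rfl | hb
        · omega
        · exact h4 b (Multiset.mem_of_mem_erase hb)
      · rcases Multiset.mem_cons.1 hc with rfl | hc
        · exact le_rfl
        · exact (Nat.sub_le a 1).trans (hmin c (Multiset.mem_of_mem_erase hc))
      · rw [Multiset.erase_cons_head, Nat.sub_add_cancel (by omega), Multiset.cons_erase ha]
  choose f hf using h2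
  have h3 : U.ncard ≤ (T n).ncard := by
    refine Set.ncard_le_ncard_of_injOn f (fun m hm => (hf m hm).1) (fun m hm m' hm' h => ?_)
      (T_finite n)
    obtain ⟨-, h4⟩ := hf m hm
    obtain ⟨-, h5⟩ := hf m' hm'
    rw [← h] at h5
    rcases h4 with ⟨h4, h6⟩ | ⟨h6, b, hb, hmin, h4⟩ <;>
      rcases h5 with ⟨h5, h7⟩ | ⟨h7, b', hb', hmin', h5⟩
    · rw [h4, h5]
    · omega
    · omega
    · rw [h4, h5, le_antisymm (hmin b' hb') (hmin' b hb)]
  calc (T (n + 1)).ncard ≤ (T n ∪ U).ncard := Set.ncard_le_ncard h1 ((T_finite n).union hU)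
    _ ≤ (T n).ncard + U.ncard := Set.ncard_union_le _ _
    _ ≤ _ := by omega

theorem ncard_T_le (n : ℕ) (hn : 5 ≤ n) : (T n).ncard ≤ 2 ^ (n - 2) := by
  induction n, hn using Nat.le_induction with
  | base =>
    let s : Finset (Multiset ℕ) := {0, {2}, {3}, {4}, {5}, {2, 2}, {2, 3}}
    have h1 : T 5 ⊆ (s : Set (Multiset ℕ)) := by
      rintro m ⟨h1, h2⟩
      have h3 := Multiset.card_nsmul_le_sum h2
      rw [smul_eq_mul] at h3
      have h4 : m.card ≤ 2 := by omega
      interval_cases h5 : m.card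
      · rw [Multiset.card_eq_zero.1 h5]; decide
      · obtain ⟨a, rfl⟩ := Multiset.card_eq_one.1 h5
        have := h2 a (by simp)
        rw [Multiset.sum_singleton] at h1
        interval_cases a <;> decide
      · obtain ⟨a, b, rfl⟩ := Multiset.card_eq_two.1 h5
        have := h2 a (by simp)
        have := h2 b (by simp)
        simp only [Multiset.insert_eq_cons, Multiset.sum_cons, Multiset.sum_singleton] at h1
        have : a ≤ 3 := by omega
        have : b ≤ 3 := by omega
        interval_cases a <;> interval_cases b <;> first | decide | omega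
    calc (T 5).ncard ≤ (s : Set (Multiset ℕ)).ncard := Set.ncard_le_ncard h1 s.finite_toSet
      _ = s.card := Set.ncard_coe_finset s
      _ ≤ _ := by decide
  | succ n hn ih =>
    rw [show n + 1 - 2 = (n - 2) + 1 by omega, pow_succ']
    exact (ncard_T_succ n).trans (Nat.mul_le_mul_left 2 ih)


/-- For n ≥ 5 the alternating group of degree n has strictly fewer conjugacy classes than the symmetric group of degree n, and the symmetric group of degree n (whose classes correspond to the partitions of n) has at most 2^(n−2) conjugacy classes. -/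
theorem result (n : ℕ) (hn : 5 ≤ n) : Nat.card (ConjClasses (alternatingGroup (Fin n))) < Nat.card (ConjClasses (Equiv.Perm (Fin n))) ∧ Nat.card (ConjClasses (Equiv.Perm (Fin n))) ≤ 2 ^ (n - 2) := by
  classical
  refine ⟨?_, by rw [card_conjClasses_perm]; exact ncard_T_le n hn⟩
  let rep : Multiset ℕ → alternatingGroup (Fin n) := fun m =>
    if h : ∃ x : alternatingGroup (Fin n), (x : Perm (Fin n)).cycleType = m then h.choose else 1
  have hrep : ∀ x : alternatingGroup (Fin n),
      IsConj (rep (x : Perm (Fin n)).cycleType : Perm (Fin n)) x := by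
    intro x
    have h : ∃ y : alternatingGroup (Fin n), (y : Perm (Fin n)).cycleType =
      (x : Perm (Fin n)).cycleType := ⟨x, rfl⟩
    simp only [rep, dif_pos h]
    exact isConj_iff_cycleType_eq.2 h.choose_spec
  have hpar : ∀ x : Perm (Fin n), x ∈ alternatingGroup (Fin n) ↔
      Even (x.cycleType.sum + x.cycleType.card) := by
    intro x
    rw [mem_alternatingGroup, sign_of_cycleType, neg_one_pow_eq_one_iff_even (by decide)]
  -- conjugating elements of the same parity
  have hconj : ∀ (r x y : alternatingGroup (Fin n)) (g h : Perm (Fin n)), g * r * g⁻¹ = x →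
      h * r * h⁻¹ = y → sign g = sign h → IsConj x y := by
    intro r x y g h hg hh hs
    refine isConj_iff.2 ⟨⟨h * g⁻¹, by simp [mem_alternatingGroup, hs]⟩, Subtype.ext ?_⟩
    simp only [Subgroup.coe_mul, Subgroup.coe_inv]
    rw [← hg, ← hh]; group
  have hsplit : ∀ x : alternatingGroup (Fin n), ¬ IsConj (rep (x : Perm (Fin n)).cycleType) x →
      (∀ c ∈ (x : Perm (Fin n)).cycleType, Odd c) ∧ n ≤ (x : Perm (Fin n)).cycleType.sum + 1 := by
    intro x hx
    have h1 : Subgroup.centralizer {(x : Perm (Fin n))} ≤ alternatingGroup (Fin n) := by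
      intro c hc
      by_contra hc2
      obtain ⟨g, hg⟩ := isConj_iff.1 (hrep x)
      apply hx
      have hc3 := Subgroup.mem_centralizer_singleton_iff.1 hc
      rcases Int.units_eq_one_or (sign g) with h | h
      · exact hconj _ _ _ 1 g (by simp) hg (by simp [h])
      · refine hconj (rep (x : Perm (Fin n)).cycleType) _ _ 1 (c * g) (by simp) ?_ ?_
        · rw [mul_inv_rev, mul_assoc c, mul_assoc c, ← mul_assoc (g * _), hg, ← mul_assoc, hc3]
          simp
        · have := (Int.units_eq_one_or (sign c)).resolve_left hc2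
          simp [h, this]
    obtain ⟨h2, h3, -⟩ := centralizer_le_alternating_iff.1 h1
    exact ⟨h2, by simpa using h3⟩
  let R : alternatingGroup (Fin n) → Perm (Fin n) → Prop := fun x y =>
    (IsConj (rep (x : Perm (Fin n)).cycleType) x ∧ y.cycleType = (x : Perm (Fin n)).cycleType) ∨
    (¬ IsConj (rep (x : Perm (Fin n)).cycleType) x ∧ ∃ a ∈ (x : Perm (Fin n)).cycleType,
      y.cycleType = (a - 1) ::ₘ (x : Perm (Fin n)).cycleType.erase a)
  have hex : ∀ x, ∃ y, R x y := by
    intro x
    by_cases hx : IsConj (rep (x : Perm (Fin n)).cycleType) x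
    · exact ⟨x, Or.inl ⟨hx, rfl⟩⟩
    · obtain ⟨h1, h2⟩ := hsplit x hx
      obtain ⟨a, ha⟩ := Multiset.exists_mem_of_ne_zero
        (s := (x : Perm (Fin n)).cycleType) (by rintro h; rw [h] at h2; simp at h2; omega)
      obtain ⟨h3, h4⟩ := (exists_with_cycleType_iff (Fin n)).1 ⟨(x : Perm (Fin n)), rfl⟩
      obtain ⟨y, hy⟩ := (exists_with_cycleType_iff (Fin n)
        (m := (a - 1) ::ₘ (x : Perm (Fin n)).cycleType.erase a)).2 ⟨by
          rw [← Multiset.cons_erase ha, Multiset.sum_cons] at h3
          rw [Multiset.sum_cons]; omega, fun b hb => by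
          rcases Multiset.mem_cons.1 hb with rfl | hb
          · have := h4 a ha
            obtain ⟨k, hk⟩ := h1 a ha
            omega
          · exact h4 b (Multiset.mem_of_mem_erase hb)⟩
      exact ⟨y, Or.inr ⟨hx, a, ha, hy⟩⟩
  have hodd : ∀ (x : alternatingGroup (Fin n)) (a : ℕ), a ∈ (x : Perm (Fin n)).cycleType →
      ¬ Even (((a - 1) ::ₘ (x : Perm (Fin n)).cycleType.erase a).sum +
        ((a - 1) ::ₘ (x : Perm (Fin n)).cycleType.erase a).card) := by
    intro x a ha
    have h1 := (hpar x).1 x.2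
    have h2 := two_le_of_mem_cycleType ha
    rw [← Multiset.cons_erase ha] at h1
    simp only [Multiset.sum_cons, Multiset.card_cons, Nat.even_iff] at h1 ⊢
    omega
  have hinj : ∀ x x' y y', R x y → R x' y' → IsConj y y' → IsConj x x' := by
    intro x x' y y' h h' hy
    rw [isConj_iff_cycleType_eq] at hy
    rcases h with ⟨h1, h2⟩ | ⟨h1, a, ha, h2⟩ <;> rcases h' with ⟨h3, h4⟩ | ⟨h3, a', ha', h4⟩
    · rw [← h2, hy, h4] at h1
      exact h1.symm.trans h3
    · exact absurd (by rw [← h4, ← hy, h2]; exact (hpar x).1 x.2) (hodd x' a' ha')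
    · exact absurd (by rw [← h2, hy, h4]; exact (hpar x').1 x'.2) (hodd x a ha)
    · obtain ⟨h5, -⟩ := hsplit x h1
      obtain ⟨h6, -⟩ := hsplit x' h3
      rw [h2, h4] at hy
      have haa : a = a' := by
        have h7 : a - 1 ∈ (a' - 1) ::ₘ (x' : Perm (Fin n)).cycleType.erase a' := by
          rw [← hy]; exact Multiset.mem_cons_self _ _
        obtain ⟨k, hk⟩ := h5 a ha
        obtain ⟨k', hk'⟩ := h6 a' ha'
        rcases Multiset.mem_cons.1 h7 with h8 | h8
        · omega
        · obtain ⟨l, hl⟩ := h6 _ (Multiset.mem_of_mem_erase h8)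
          omega
      subst haa
      have h7 : (x : Perm (Fin n)).cycleType = (x' : Perm (Fin n)).cycleType := by
        rw [← Multiset.cons_erase ha, ← Multiset.cons_erase ha', (Multiset.cons_inj_right _).1 hy]
      obtain ⟨g, hg⟩ := isConj_iff.1 (hrep x)
      obtain ⟨g', hg'⟩ := isConj_iff.1 (hrep x')
      rw [← h7] at hg' h3
      refine hconj _ _ _ g g' hg hg' ?_
      rw [(Int.units_eq_one_or (sign g)).resolve_left
          (fun h => h1 (hconj _ _ _ 1 g (by simp) hg (by simp [h]))),
        (Int.units_eq_one_or (sign g')).resolve_left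
          (fun h => h3 (hconj _ _ _ 1 g' (by simp) hg' (by simp [h])))]
  choose F hF using hex
  haveI := Fintype.ofFinite (ConjClasses (alternatingGroup (Fin n)))
  haveI := Fintype.ofFinite (ConjClasses (Perm (Fin n)))
  obtain ⟨t, ht⟩ := (exists_with_cycleType_iff (Fin n) (m := {2})).2 ⟨by simp; omega, by simp⟩
  rw [Nat.card_eq_fintype_card, Nat.card_eq_fintype_card]
  refine Fintype.card_lt_of_injective_of_notMem
    (fun c => ConjClasses.mk (F (Quotient.out c))) (fun c c' h => ?_) (b := ConjClasses.mk t) ?_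
  · have := hinj _ _ _ _ (hF _) (hF _) (ConjClasses.mk_eq_mk_iff_isConj.1 h)
    rw [← Quotient.out_eq c, ← Quotient.out_eq c']
    exact ConjClasses.mk_eq_mk_iff_isConj.2 this
  · rintro ⟨c, hc⟩
    have h1 := isConj_iff_cycleType_eq.1 (ConjClasses.mk_eq_mk_iff_isConj.1 hc)
    rw [ht] at h1
    rcases hF (Quotient.out c) with ⟨-, h2⟩ | ⟨h2, a, ha, h3⟩
    · have := (hpar _).1 (Quotient.out c : alternatingGroup (Fin n)).2
      rw [← h2, h1] at this
      exact absurd this (by decide)
    · obtain ⟨-, h4⟩ := hsplit _ h2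
      rw [h1] at h3
      have h5 := congrArg Multiset.sum h3
      rw [← Multiset.cons_erase ha, Multiset.sum_cons] at h4
      rw [Multiset.sum_cons, Multiset.sum_singleton] at h5
      omega

end Cfsg.Agent.S4198
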