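import Cfsg.Statements.S1579
import Cfsg.Agent.Spor.Co0Order

set_option autoImplicit false
open Cfsg

namespace Cfsg.Agent.S1579

open Cfsg.Lib.Spor Cfsg.Lib.Spor.CK Cfsg.Lib.Spor.Orb MulAction

theorem mem_552 {u v : leechLattice} (hu : sqNorm (u : GolayPt → ℤ) = 48)
    (hv : sqNorm (v : GolayPt → ℤ) = 32 ∧ sqNorm ((u - v) : GolayPt → ℤ) = 32) : v ∈ C1 u 24 := by
  refine ⟨hv.1, ?_⟩
  have h := hv.2
  rw [sqNorm_sub, hu, hv.1] at h
  unfold dt; omega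

/-- The stabiliser of a vector of customary norm 6 is transitive on the 552 minimal vectors that complete it to a sum of two minimal vectors. -/
theorem result (u v v' : ↥Cfsg.leechLattice) (hu : Cfsg.sqNorm (u : Cfsg.GolayPt → ℤ) = 48) (hv : Cfsg.sqNorm (v : Cfsg.GolayPt → ℤ) = 32 ∧ Cfsg.sqNorm ((u - v) : Cfsg.GolayPt → ℤ) = 32) (hv' : Cfsg.sqNorm (v' : Cfsg.GolayPt → ℤ) = 32 ∧ Cfsg.sqNorm ((u - v') : Cfsg.GolayPt → ℤ) = 32) : ∃ g : ↥Cfsg.Co0, g • u = u ∧ g • v = v' := by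
  obtain ⟨g, hg⟩ := exists_smul_of_base (exists_vv_uu hu (mem_552 hu hv))
    (exists_vv_uu hu (mem_552 hu hv'))
  exact ⟨g, congrArg Prod.fst hg, congrArg Prod.snd hg⟩

end Cfsg.Agent.S1579
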