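import Cfsg.Statements.S0366
import Cfsg.Agent.Spor.Witt24
import Cfsg.Agent.Spor.GolayM24

set_option autoImplicit false
open Cfsg

namespace Cfsg.Agent.S0366

/-- The permutation group preserving the length-24 code is 5-transitive on the 24 points. -/
theorem result : MulAction.IsMultiplyPretransitive Cfsg.M24 Cfsg.GolayPt 5 := by
  have h := Cfsg.Lib.Spor.Witt.s24_trans (α := Cfsg.GolayPt) rfl Cfsg.Lib.Spor.octads_isSteinerSystem
  rw [← Cfsg.Lib.Spor.M24_eq_setSystemAut_octads] at h
  exact h

end Cfsg.Agent.S0366
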