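import Cfsg.Statements.S0371
import Cfsg.Agent.Spor.GolayM24

set_option autoImplicit false
open Cfsg

namespace Cfsg.Agent.S0371

/-- Multiplication by a nonzero square residue modulo 23, fixing the extra point, lies in the group of the length-24 code. -/
theorem result (u : (ZMod 23)ˣ) (hu : IsSquare u) : Equiv.optionCongr (Units.mulLeft u) ∈ Cfsg.M24 := by
  obtain ⟨r, rfl⟩ := hu
  have h : ∀ x : ZMod 23, x ≠ 0 → Cfsg.Lib.Spor.m24Check (fun i => Cfsg.Lib.Spor.ptIdx
      (Option.map (fun y => x * x * y) (Cfsg.Lib.Spor.idxPt i))) = true := by decide +kernel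
  haveI : Fact (Nat.Prime 23) := ⟨by norm_num⟩
  refine Cfsg.Lib.Spor.mem_M24_of_check _ (fun p => ?_) (h r r.ne_zero)
  rw [Cfsg.Lib.Spor.idxPt_ptIdx]
  cases p <;> rfl

end Cfsg.Agent.S0371
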