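import Cfsg.Statements.S0373
import Cfsg.Agent.Spor.GolayM24

set_option autoImplicit false
open Cfsg

namespace Cfsg.Agent.S0373

/-- The cube-twist permutation (squares t ↦ t^3/9, non-squares t ↦ 9t^3, extra point fixed) lies in the group of the length-24 code. -/
theorem result : Cfsg.cubeTwist ∈ Cfsg.M24 := by
  exact Cfsg.Lib.Spor.mem_M24_of_check (fun i => Cfsg.Lib.Spor.ptIdx (cubeTwistFun (Cfsg.Lib.Spor.idxPt i)))
    (fun p => by rw [Cfsg.Lib.Spor.idxPt_ptIdx]; rfl) (by decide +kernel)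

end Cfsg.Agent.S0373
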