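import Cfsg.Statements.S1589
import Cfsg.Agent.Class.M24Idx

set_option autoImplicit false
open scoped Pointwise
open Cfsg

namespace Cfsg.Agent.S1589

open Cfsg.Lib.Spor Cfsg.Lib.Spor.Orb Cfsg.Lib.Class.M24I MulAction

/-- Subgroups of the group of the length-24 code of index 759, 276 and 1771 are exactly the octad, duad and sextet stabilisers, and no subgroup has index 253. -/
theorem result : (∀ H : Subgroup ↥Cfsg.M24, H.index = 759 → ∃ o ∈ Cfsg.octads, H = MulAction.stabilizer Cfsg.M24 o) ∧ (∀ H : Subgroup ↥Cfsg.M24, H.index = 276 → ∃ s : Finset Cfsg.GolayPt, s.card = 2 ∧ H = MulAction.stabilizer Cfsg.M24 s) ∧ (∀ H : Subgroup ↥Cfsg.M24, H.index = 1771 → ∃ S ∈ Cfsg.sextets, H = MulAction.stabilizer Cfsg.M24 S) ∧ ∀ H : Subgroup ↥Cfsg.M24, H.index ≠ 253 := by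
  have hcard : ∀ H : Subgroup M24, Nat.card H * H.index = 244823040 := fun H =>
    (Subgroup.card_mul_index H).trans card_M24'
  refine ⟨fun H hH => ?_, fun H hH => ?_, fun H hH => ?_, fun H hH => ?_⟩
  all_goals have hc := hcard H; rw [hH] at hc
  · rcases odd_index_cases H (by omega) (by omega) (by omega) (by omega) with ⟨o, ho, h⟩ | ⟨h, -⟩
    · exact ⟨o, ho, eq_of_le_of_card h (by rw [card_stab_octad ho]; omega)⟩
    · omega
  · obtain ⟨s, hs, h⟩ := exists_duad H (by omega)
    exact ⟨s, hs, eq_of_le_of_card h (by rw [card_stab_duad hs]; omega)⟩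
  · rcases odd_index_cases H (by omega) (by omega) (by omega) (by omega) with
      ⟨o, ho, h⟩ | ⟨-, S, hS, h⟩
    · have := Subgroup.card_dvd_of_le h
      rw [card_stab_octad ho, show Nat.card H = 138240 by omega] at this
      omega
    · exact ⟨S, hS, eq_of_le_of_card h (by rw [card_stab_sextet hS]; omega)⟩
  · rcases odd_index_cases H (by omega) (by omega) (by omega) (by omega) with ⟨o, ho, h⟩ | ⟨h, -⟩
    · have := Subgroup.card_dvd_of_le h
      rw [card_stab_octad ho, show Nat.card H = 967680 by omega] at this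
      omega
    · omega

end Cfsg.Agent.S1589
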