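import Cfsg.Statements.S1564
import Cfsg.Agent.Spor.GeoSmall

set_option autoImplicit false
open scoped Pointwise
open Cfsg

namespace Cfsg.Agent.S1564

open Cfsg.Lib.Spor Cfsg.Lib.Spor.Orb MulAction

/-- The stabiliser of a set of three points (setwise) is a maximal proper subgroup of the group of the length-24 code. -/
theorem result (s : Finset Cfsg.GolayPt) (hs : s.card = 3) : IsCoatom (MulAction.stabilizer Cfsg.M24 s) := by
  exact (rank_three_three hs).isCoatom hs
    (fun y => ⟨fun hy => trans_finset (by omega) (hs.trans hy.symm),
      fun ⟨g, hg⟩ => hg ▸ smul_mem_card g hs⟩) 0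
    (by
      rw [phiU, Finset.inter_self, Finset.union_self, hs,
        four_pos (exists_octad_superset (by omega))]
      rfl) (by decide) (by decide)

end Cfsg.Agent.S1564
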