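import Cfsg.Statements.S5548
import Cfsg.Agent.Spor.GolaySub

set_option autoImplicit false
set_option linter.unusedVariables false
set_option maxRecDepth 100000
open Cfsg

namespace Cfsg.Agent.S5548

open Cfsg.Lib.Spor Cfsg.Lib.Spor.GSub

/-- For the automorphism group of the length-24 binary Golay code of the definitions (the Mathieu group of degree 24) acting on binary words of length 24 by permuting coordinates, the only invariant subspaces of the space of all words are: zero, the span of the all-ones word, the code itself, the even-weight words, and the whole space. (So the permutation module has a unique composition series.) -/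
theorem result (W : Submodule (ZMod 2) (Cfsg.GolayPt → ZMod 2)) (hW : ∀ σ ∈ Cfsg.M24, ∀ w ∈ W, (fun p => w (σ.symm p)) ∈ W) : W = ⊥ ∨ W = Submodule.span (ZMod 2) {fun _ => (1 : ZMod 2)} ∨ W = Cfsg.golayCode ∨ (W : Set (Cfsg.GolayPt → ZMod 2)) = {w | ∑ p, w p = 0} ∨ W = ⊤ := by
  by_cases h : W ≤ golayCode
  · rcases le_span_or hW h with h1 | h1
    · by_cases h2 : (fun _ => (1 : ZMod 2)) ∈ W
      · exact Or.inr (Or.inl (le_antisymm h1 ((Submodule.span_singleton_le_iff_mem _ _).2 h2)))
      · refine Or.inl (eq_bot_iff.2 fun w hw => ?_)
        rcases mem_span_one.1 (h1 hw) with e | e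
        · exact support₂_injective (e.trans support_zero.symm)
        · exact absurd (support₂_injective (e.trans support_one.symm) ▸ hw) h2
    · exact Or.inr (Or.inr (Or.inl h1))
  refine Or.inr (Or.inr (Or.inr (or_iff_not_imp_left.2 fun h1 => eq_top_iff.2 fun x _ => ?_)))
  obtain ⟨w, h2, h3⟩ : ∃ w ∈ W, ∑ p, w p ≠ 0 := by
    by_contra h2
    push Not at h2
    exact h1 (Set.Subset.antisymm h2 fun w hw => even_le hW h hw)
  by_cases h4 : ∑ p, x p = 0
  · exact even_le hW h h4
  · refine (W.add_mem_iff_left h2).1 (even_le hW h ?_)
    simp only [Pi.add_apply, Finset.sum_add_distrib]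
    generalize ∑ p, x p = a at *
    generalize ∑ p, w p = b at *
    revert a b; decide

end Cfsg.Agent.S5548
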