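import Cfsg.Statements.S0011
-- import your own Cfsg.Agent.* helpers here

set_option autoImplicit false
open Cfsg

namespace Cfsg.Agent.S0011

/-- If the Frattini quotient of a finite group is nilpotent then the group is nilpotent. -/
theorem result {G : Type*} [Group G] [Finite G]
    (h : Group.IsNilpotent (G ⧸ frattini G)) : Group.IsNilpotent G := by
  have q := (Group.isNilpotent_of_finite_tfae (G := G)).out 0 2
  rw [q]
  intro M hM
  have hle : frattini G ≤ M := frattini_le_coatom hM
  have hker : (QuotientGroup.mk' (frattini G)).ker ≤ M := by
    rw [QuotientGroup.ker_mk']; exact hle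
  have hsurj := QuotientGroup.mk'_surjective (frattini G)
  have hM' : IsCoatom (M.map (QuotientGroup.mk' (frattini G))) := by
    constructor
    · intro htop
      apply hM.1
      rw [← Subgroup.comap_map_eq_self hker, htop, Subgroup.comap_top]
    · intro K hK
      have h1 : M < K.comap (QuotientGroup.mk' (frattini G)) := by
        rw [← Subgroup.comap_map_eq_self hker]
        exact (Subgroup.comap_lt_comap_of_surjective hsurj).mpr hK
      have h2 := hM.2 _ h1
      rw [← Subgroup.map_comap_eq_self_of_surjective hsurj K, h2]
      exact Subgroup.map_top_of_surjective _ hsurj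
  have q' := (Group.isNilpotent_of_finite_tfae (G := G ⧸ frattini G)).out 0 2
  have hn := (q'.mp h) _ hM'
  rw [← Subgroup.comap_map_eq_self hker]
  exact hn.comap _

end Cfsg.Agent.S0011
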