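import Cfsg.Statements.S0031

set_option autoImplicit false
open Cfsg

namespace Cfsg.Agent.S0031

open Pointwise in
theorem aux {G : Type*} [Group G] [Finite G] (φ : G ≃* G)
    (hφ : MonoidHom.FixedPointFree (φ : G →* G)) (p : ℕ) [Fact p.Prime] :
    ∃ P : Sylow p G, (P : Subgroup G).map (φ : G →* G) = P := by
  let P : Sylow p G := default
  let Q : Sylow p G := (show MulAut G from φ) • P
  obtain ⟨g, hg⟩ := MulAction.exists_smul_eq G P Q
  obtain ⟨x', hx⟩ := hφ.commutatorMap_surjective g⁻¹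
  have hx' : x' / φ x' = g⁻¹ := hx
  set x := x'⁻¹ with hxdef
  have hg' : φ x * g = x := by
    rw [hxdef, map_inv, ← inv_inv g, ← hx', div_eq_mul_inv]
    simp
  refine ⟨x • P, ?_⟩
  have hQ : (P : Subgroup G).map (φ : G →* G) = MulAut.conj g • (P : Subgroup G) := by
    rw [← Sylow.coe_subgroup_smul, hg]
    rfl
  rw [Sylow.coe_subgroup_smul]
  ext y
  have key : ∀ z : G, z ∈ (MulAut.conj x • (P : Subgroup G)).map (φ : G →* G) ↔
      (φ x)⁻¹ * z * φ x ∈ (P : Subgroup G).map (φ : G →* G) := by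
    intro z
    simp only [Subgroup.mem_map, Subgroup.mem_pointwise_smul_iff_inv_smul_mem]
    constructor
    · rintro ⟨w, hw, rfl⟩
      refine ⟨_, hw, ?_⟩
      simp
    · rintro ⟨w, hw, h⟩
      refine ⟨x * w * x⁻¹, by simpa [mul_assoc] using hw, ?_⟩
      have : φ w = (φ x)⁻¹ * z * φ x := h
      simp [this, mul_assoc]
  rw [key, hQ]
  simp only [Subgroup.mem_pointwise_smul_iff_inv_smul_mem]
  have : (MulAut.conj g)⁻¹ • ((φ x)⁻¹ * y * φ x) = (MulAut.conj x)⁻¹ • y := by
    conv_rhs => rw [← hg']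
    simp [mul_assoc]
  rw [this]

/-- A fixed-point-free automorphism of a finite group maps some Sylow p-subgroup to itself. -/
theorem result {G : Type*} [Group G] [Finite G] (φ : G ≃* G)
    (hφ : MonoidHom.FixedPointFree (φ : G →* G)) (p : ℕ) [Fact p.Prime] :
    ∃ P : Sylow p G, (P : Subgroup G).map (φ : G →* G) = P := by
  exact aux φ hφ p

end Cfsg.Agent.S0031
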