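import Cfsg.Statements.S0038
import Cfsg.Agent.Solv.FrobeniusComplement
import Cfsg.Agent.S0035

set_option autoImplicit false
open Pointwise
open Cfsg

namespace Cfsg.Agent.S0038

open Cfsg.Lib.Solv in
theorem eq_of_le {G : Type*} [Group G] [Finite G] {H H₀ : Subgroup G}
    (hH : Cfsg.IsFrobeniusComplement H) (hH₀ : IsMalnormal H₀) (h0 : H₀ ≠ ⊥) (hle : H₀ ≤ H) :
    H₀ = H := by
  obtain ⟨N, -, hN, hc⟩ := Cfsg.Agent.S0035.result H hH
  have hm := isMalnormal_of_isFrobeniusComplement hH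
  have hN0 : N ≠ ⊥ := by
    rintro rfl
    exact hH.2.1 (by simpa using hc.sup_eq_top)
  have hHK : H ≤ Subgroup.normalizer (N : Set G) := by
    rw [Subgroup.normalizer_eq_top]; exact le_top
  obtain ⟨⟨z, hz⟩, hz1⟩ := Subgroup.ne_bot_iff_exists_ne_one.1
    (Fpf.center_ne_bot hHK hN0 (hm.fpf_of_disjoint (disjoint_iff.1 hc.disjoint)) hH.1)
  rw [Subgroup.mem_center_iff] at hz
  obtain ⟨⟨x, hx⟩, hx1⟩ := Subgroup.ne_bot_iff_exists_ne_one.1 h0
  have hzH : (z : G) ∈ H₀ := hH₀.mem_of_commute hx (fun e => hx1 (Subtype.ext e))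
    (congrArg Subtype.val (hz ⟨x, hle hx⟩)).symm
  refine le_antisymm hle fun g hg => ?_
  exact hH₀.mem_of_commute hzH (fun e => hz1 (Subtype.ext (Subtype.ext e)))
    (congrArg Subtype.val (hz ⟨g, hg⟩))

/-- All Frobenius complements of a finite group are conjugate to one another. -/
theorem result {G : Type*} [Group G] [Finite G] (H H₀ : Subgroup G)
    (hH : Cfsg.IsFrobeniusComplement H) (hH₀ : Cfsg.IsFrobeniusComplement H₀) :
    ∃ g : G, MulAut.conj g • H₀ = H := by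
  open Cfsg.Lib.Solv in
  have hm := isMalnormal_of_isFrobeniusComplement hH
  have hm₀ := Cfsg.Lib.Solv.isMalnormal_of_isFrobeniusComplement hH₀
  rcases le_total (Nat.card H₀) (Nat.card H) with hle | hle
  · obtain ⟨g, hg⟩ := hm.exists_conj_le_of_card_le hm₀ hle
    refine ⟨g⁻¹, eq_of_le hH (hm₀.conj_smul _)
      (fun h => hH₀.1 (Cfsg.Lib.Solv.conj_smul_eq_bot_iff.1 h)) ?_⟩
    exact Cfsg.Lib.Solv.conj_smul_le_iff_le_conj_inv_smul.2 (by rwa [inv_inv])
  · obtain ⟨g, hg⟩ := hm₀.exists_conj_le_of_card_le hm hle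
    have h := eq_of_le hH₀ (hm.conj_smul g⁻¹)
      (fun h => hH.1 (Cfsg.Lib.Solv.conj_smul_eq_bot_iff.1 h))
      (Cfsg.Lib.Solv.conj_smul_le_iff_le_conj_inv_smul.2 (by rwa [inv_inv]))
    exact ⟨g, by rw [← h, Cfsg.Lib.Solv.conj_smul_conj_inv_smul]⟩

end Cfsg.Agent.S0038
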