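import Cfsg.Statements.S0041
import Cfsg.Agent.Solv.FrobeniusComplement

set_option autoImplicit false
open Cfsg

namespace Cfsg.Agent.S0041

/-- A group acting on a nontrivial abelian group so that no nonidentity element has a nonidentity fixed point is cyclic, provided it is abelian or its order is a product of two (possibly equal) primes. -/
theorem result {G : Type*} [Group G] [Finite G] (A V : Subgroup G) [IsMulCommutative V]
    (hV : V ≠ ⊥) (hAV : A ≤ Subgroup.normalizer (V : Set G)) (hfpf : ∀ a ∈ A, a ≠ 1 → V ⊓ Subgroup.centralizer {a} = ⊥)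
    (hA : IsMulCommutative A ∨ ∃ p q : ℕ, p.Prime ∧ q.Prime ∧ Nat.card A = p * q) : IsCyclic A := by
  rcases hA with hA | ⟨p, q, hp, hq, hA⟩
  · exact Cfsg.Lib.Solv.Fpf.isCyclic_of_isMulCommutative hAV hV hfpf le_rfl
  · exact Cfsg.Lib.Solv.Fpf.isCyclic_of_card_eq_prime_mul_prime hAV hV hfpf le_rfl hp hq hA

end Cfsg.Agent.S0041
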