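import Cfsg.Statements.S0053

set_option autoImplicit false
open Cfsg

namespace Cfsg.Agent.S0053

open scoped Pointwise


/-- An abelian minimal normal subgroup N of a finite group is complemented exactly when N is not inside the Frattini subgroup. -/
theorem result {G : Type*} [Group G] [Finite G]
    (N : Subgroup G) [N.Normal] [IsMulCommutative N] (hN : N ≠ ⊥)
    (hmin : ∀ M : Subgroup G, M.Normal → M ≤ N → M = ⊥ ∨ M = N) :
    (∃ H : Subgroup G, Subgroup.IsComplement' N H) ↔ ¬ N ≤ frattini G := by
  constructor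
  · rintro ⟨H, hH⟩ hle
    have h1 : H ⊔ frattini G = ⊤ := by
      rw [eq_top_iff, ← hH.sup_eq_top, sup_comm]
      exact sup_le_sup_left hle H
    have h2 := frattini_nongenerating h1
    subst h2
    exact hN (Subgroup.isComplement'_top_right.mp hH)
  · intro hle
    have : ∃ M : Subgroup G, IsCoatom M ∧ ¬ N ≤ M := by
      by_contra hc
      push Not at hc
      apply hle
      unfold frattini Order.radical
      exact le_iInf₂ fun M hM => hc M hM
    obtain ⟨M, hM, hNM⟩ := this
    have hsup : N ⊔ M = ⊤ := by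
      apply hM.2
      exact lt_of_le_of_ne le_sup_right (fun h => hNM (h ▸ le_sup_left))
    have hmul : (N : Set G) * (M : Set G) = Set.univ := by
      rw [← Subgroup.normal_mul, hsup, Subgroup.coe_top]
    have hnorm : (N ⊓ M).Normal := by
      constructor
      rintro x ⟨hxN, hxM⟩ g
      refine ⟨Subgroup.Normal.conj_mem inferInstance x hxN g, ?_⟩
      have hg : g ∈ (N : Set G) * (M : Set G) := hmul ▸ Set.mem_univ g
      obtain ⟨n, hn, m, hm, rfl⟩ := hg
      have h1 : m * x * m⁻¹ ∈ N := Subgroup.Normal.conj_mem inferInstance x hxN m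
      have h2 : m * x * m⁻¹ ∈ M := M.mul_mem (M.mul_mem hm hxM) (M.inv_mem hm)
      have h3 : n * (m * x * m⁻¹) = (m * x * m⁻¹) * n :=
        congrArg Subtype.val (mul_comm' (⟨n, hn⟩ : N) ⟨_, h1⟩)
      have h4 : n * m * x * (n * m)⁻¹ = m * x * m⁻¹ := by
        calc n * m * x * (n * m)⁻¹ = n * (m * x * m⁻¹) * n⁻¹ := by group
          _ = m * x * m⁻¹ := by rw [h3]; group
      show n * m * x * (n * m)⁻¹ ∈ M
      rw [h4]; exact h2
    rcases hmin _ hnorm inf_le_left with h | h
    · exact ⟨M, Subgroup.isComplement'_of_disjoint_and_mul_eq_univ (disjoint_iff.mpr h) hmul⟩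
    · exact absurd (inf_eq_left.mp h) hNM

end Cfsg.Agent.S0053
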