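import Cfsg.Statements.S0068
import Cfsg.Agent.Solv.FixedPointFree

set_option autoImplicit false
open Cfsg

namespace Cfsg.Agent.S0068

/-- Frobenius complements of even order: if H complements a nontrivial normal subgroup K, each nonidentity element of H has trivial centraliser in K, and H has even order, then H contains a unique involution s, K is abelian, and s inverts every element of K. -/
theorem result {G : Type*} [Group G] [Finite G] (K H : Subgroup G) [K.Normal]
    (hc : Subgroup.IsComplement' K H) (hK : K ≠ ⊥) (hfpf : ∀ h ∈ H, h ≠ 1 → K ⊓ Subgroup.centralizer {h} = ⊥)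
    (heven : 2 ∣ Nat.card H) :
    (∃ s ∈ H, orderOf s = 2 ∧ (∀ t ∈ H, orderOf t = 2 → t = s) ∧ ∀ k ∈ K, s * k * s⁻¹ = k⁻¹) ∧ IsMulCommutative K := by
  have hHK : H ≤ Subgroup.normalizer (K : Set G) := by
    rw [Subgroup.normalizer_eq_top]; exact le_top
  obtain ⟨s, hs⟩ := exists_prime_orderOf_dvd_card' 2 heven
  have hs' : orderOf (s : G) = 2 := by rw [Subgroup.orderOf_coe, hs]
  have h1 : ∀ t : G, orderOf t = 2 → t ≠ 1 ∧ t * t = 1 := by
    intro t ht
    refine ⟨?_, ?_⟩
    · rintro rfl; simp at ht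
    · rw [← sq, ← ht, pow_orderOf_eq_one]
  refine ⟨⟨s, s.2, hs', fun t ht ht2 => ?_, fun k hk => ?_⟩, ?_⟩
  · exact Cfsg.Lib.Solv.Fpf.involution_unique hHK hK hfpf ht s.2 (h1 t ht2).1 (h1 s hs').1
      (h1 t ht2).2 (h1 s hs').2
  · exact Cfsg.Lib.Solv.Fpf.conj_eq_inv_of_involution (hHK s.2) (hfpf s s.2 (h1 s hs').1)
      (h1 s hs').2 hk
  · exact Cfsg.Lib.Solv.Fpf.isMulCommutative_of_involution (hHK s.2) (hfpf s s.2 (h1 s hs').1)
      (h1 s hs').2

end Cfsg.Agent.S0068
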