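import Cfsg.Statements.S0073

set_option autoImplicit false
open Cfsg

namespace Cfsg.Agent.S0073

/-- An automorphism of prime order `q` of a finite group `P`: `|P| ≡ |C_P(σ)|` mod `q`. -/
theorem exists_sub {P : Type*} [Group P] [Finite P] {q : ℕ} [Fact q.Prime] (σ : MulAut P)
    (hσ : orderOf σ = q) : ∃ H : Subgroup P, H ≠ ⊤ ∧ Nat.card P ≡ Nat.card H [MOD q] := by
  have hq : IsPGroup q (Subgroup.zpowers σ) := by
    apply IsPGroup.of_card (n := 1)
    rw [Nat.card_zpowers, hσ, pow_one]
  refine ⟨FixedPoints.subgroup (Subgroup.zpowers σ) P, ?_, ?_⟩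
  · intro h
    have : σ = 1 := by
      ext x
      have hx : x ∈ FixedPoints.subgroup (Subgroup.zpowers σ) P := h ▸ Subgroup.mem_top x
      exact hx ⟨σ, Subgroup.mem_zpowers σ⟩
    rw [this, orderOf_one] at hσ
    exact (Fact.out : q.Prime).one_lt.ne hσ
  · exact hq.card_modEq_card_fixedPoints P

/-- For a finite non-abelian simple group, either the cube of the least prime divisor of the order divides the order, or 12 does. -/
theorem result {G : Type*} [Group G] [Finite G] [IsSimpleGroup G] (hG : ∃ x y : G, x * y ≠ y * x) : (Nat.card G).minFac ^ 3 ∣ Nat.card G ∨ 12 ∣ Nat.card G := by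
  have hn : Nat.card G ≠ 1 := by
    have := Finite.one_lt_card (α := G)
    omega
  set p := (Nat.card G).minFac with hp
  have hpp : p.Prime := Nat.minFac_prime hn
  have := Fact.mk hpp
  have hpd : p ∣ Nat.card G := Nat.minFac_dvd _
  obtain ⟨P⟩ : Nonempty (Sylow p G) := inferInstance
  obtain ⟨k, hk⟩ := P.2.exists_card_eq
  by_cases hk3 : 3 ≤ k
  · left
    exact (pow_dvd_pow p hk3).trans (hk ▸ Subgroup.card_subgroup_dvd_card _)
  right
  have hk0 : k ≠ 0 := by
    rintro rfl
    have := P.dvd_card_of_dvd_card hpd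
    rw [hk, pow_zero] at this
    exact hpp.one_lt.ne' (Nat.dvd_one.mp this)
  have hcomm : IsMulCommutative P := by
    have : k = 1 ∨ k = 2 := by omega
    rcases this with rfl | rfl
    · have := isCyclic_of_prime_card (p := p) (by simpa using hk)
      exact IsCyclic.isMulCommutative
    · exact IsPGroup.isMulCommutative_of_card_eq_prime_sq hk
  by_cases hNC : Subgroup.normalizer (P : Set G) ≤ Subgroup.centralizer (P : Set G)
  · exfalso
    have hc := MonoidHom.ker_transferSylow_isComplement' P hNC
    rcases Subgroup.Normal.eq_bot_or_eq_top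
      (inferInstance : (MonoidHom.transferSylow P hNC).ker.Normal) with h | h
    · rw [h, Subgroup.isComplement'_bot_left] at hc
      obtain ⟨x, y, hxy⟩ := hG
      apply hxy
      have hall : ∀ z : G, z ∈ (P : Subgroup G) := fun z => hc ▸ Subgroup.mem_top z
      have := hcomm.is_comm.comm (⟨x, hall x⟩ : P) ⟨y, hall y⟩
      exact congrArg Subtype.val this
    · rw [h, Subgroup.isComplement'_top_left] at hc
      rw [hc, Subgroup.card_bot] at hk
      exact hk0 ((Nat.pow_eq_one.mp hk.symm).resolve_left hpp.one_lt.ne')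
  · set f := (P : Subgroup G).normalizerMonoidHom with hf
    have hr : Nat.card f.range ≠ 1 := by
      intro h
      apply hNC
      rw [Subgroup.card_eq_one, MonoidHom.range_eq_bot_iff] at h
      have hk : f.ker = ⊤ := by rw [h]; exact MonoidHom.ker_one
      rw [hf, Subgroup.normalizerMonoidHom_ker, Subgroup.subgroupOf_eq_top] at hk
      exact hk
    obtain ⟨q, hq, hqd⟩ := Nat.exists_prime_and_dvd hr
    have := Fact.mk hq
    obtain ⟨σ, hσ⟩ := exists_prime_orderOf_dvd_card' q hqd
    rw [← Subgroup.index_ker, hf, Subgroup.normalizerMonoidHom_ker, ← Subgroup.relIndex] at hqd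
    have hqi : q ∣ (P : Subgroup G).index := by
      refine hqd.trans ((Subgroup.relIndex_dvd_of_le_left _ (P : Subgroup G).le_centralizer).trans ?_)
      exact Subgroup.relIndex_dvd_index_of_le (P : Subgroup G).le_normalizer
    have hqp : q ≠ p := by
      rintro rfl
      exact P.not_dvd_index hqi
    have hqG : q ∣ Nat.card G := hqi.trans (Subgroup.index_dvd_card _)
    have hpq : p < q := lt_of_le_of_ne (Nat.minFac_le_of_dvd hq.two_le hqG) hqp.symm
    obtain ⟨H, hH, hmod⟩ := exists_sub (σ : MulAut P) (by rw [Subgroup.orderOf_coe, hσ])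
    have hHd := Subgroup.card_subgroup_dvd_card H
    rw [hk] at hHd hmod
    obtain ⟨j, hj, hHj⟩ := (Nat.dvd_prime_pow hpp).mp hHd
    have hjk : j ≠ k := by
      rintro rfl
      apply hH
      exact Subgroup.eq_top_of_card_eq H (by rw [hHj, hk])
    rw [hHj] at hmod
    have hd : q ∣ p ^ k - p ^ j := (Nat.modEq_iff_dvd' (Nat.pow_le_pow_right hpp.pos hj)).mp hmod.symm
    have h2 := hpp.two_le
    have hcases : (k = 1 ∧ j = 0) ∨ (k = 2 ∧ j = 0) ∨ (k = 2 ∧ j = 1) := by omega
    rcases hcases with ⟨rfl, rfl⟩ | ⟨rfl, rfl⟩ | ⟨rfl, rfl⟩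
    · exfalso
      have := Nat.le_of_dvd (by simp; omega) hd
      simp at this; omega
    · have he : p ^ 2 - p ^ 0 = (p + 1) * (p - 1) := by
        rw [pow_zero, ← Nat.sq_sub_sq p 1, one_pow]
      rw [he] at hd
      rcases (Nat.Prime.dvd_mul hq).mp hd with h | h
      · have h1 := Nat.le_of_dvd (by omega) h
        have hqp1 : q = p + 1 := by omega
        have hp2 : p = 2 := by
          rcases hpp.eq_two_or_odd' with h | h
          · exact h
          · exfalso
            have : Even q := hqp1 ▸ h.add_one
            rw [hq.even_iff] at this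
            omega
        have h3 : q = 3 := by omega
        have h4 : 4 ∣ Nat.card G := by
          have := Subgroup.card_subgroup_dvd_card (P : Subgroup G)
          rw [hk, hp2] at this
          exact this
        exact Nat.Coprime.mul_dvd_of_dvd_of_dvd (by norm_num : Nat.Coprime 3 4) (h3 ▸ hqG) h4
      · exfalso
        have := Nat.le_of_dvd (by omega) h
        omega
    · exfalso
      have he : p ^ 2 - p ^ 1 = p * (p - 1) := by
        rw [pow_one, Nat.mul_sub_one, sq]
      rw [he] at hd
      rcases (Nat.Prime.dvd_mul hq).mp hd with h | h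
      · have := Nat.le_of_dvd (by omega) h
        omega
      · have := Nat.le_of_dvd (by omega) h
        omega

end Cfsg.Agent.S0073
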