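import Cfsg.Statements.S0074
-- import your own Cfsg.Agent.* helpers here

set_option autoImplicit false
open Cfsg
open scoped commutatorElement

namespace Cfsg.Agent.S0074

/-- For an abelian Sylow p-subgroup P, the intersection of P with the derived subgroup of G equals its intersection with the derived subgroup of the normalizer of P. -/
theorem result {G : Type*} [Group G] [Finite G] {p : ℕ} [Fact p.Prime] (P : Sylow p G) (hP : IsMulCommutative P) : commutator G ⊓ (P : Subgroup G) = ⁅Subgroup.normalizer (P : Set G), Subgroup.normalizer (P : Set G)⁆ ⊓ (P : Subgroup G) := by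
  apply le_antisymm
  · refine le_inf ?_ inf_le_right
    rw [Subgroup.commutator_inf_eq_focalSubgroup P, Subgroup.focalSubgroup_def,
      Subgroup.closure_le]
    rintro g ⟨hg, x, hx, u, rfl⟩
    have h1 : (u⁻¹)⁻¹ * x * u⁻¹ ∈ P := by
      have h2 : (u⁻¹)⁻¹ * x * u⁻¹ = (x⁻¹ * ⁅x, u⁆)⁻¹ := by
        rw [commutatorElement_def]; group
      rw [h2]
      exact inv_mem (mul_mem (inv_mem hx) hg)
    obtain ⟨n, hn, hn2⟩ := P.conj_eq_normalizer_conj_of_mem x u⁻¹ hx h1
    have h3 : ⁅x, u⁆ = ⁅x, n⁻¹⁆ := by
      have h4 : ⁅x, u⁆ = x * ((u⁻¹)⁻¹ * x * u⁻¹)⁻¹ := by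
        rw [commutatorElement_def]; group
      rw [h4, hn2, commutatorElement_def]; group
    rw [h3]
    exact Subgroup.commutator_mem_commutator (Subgroup.le_normalizer hx) (inv_mem hn)
  · exact inf_le_inf_right _ (Subgroup.commutator_mono le_top le_top)

end Cfsg.Agent.S0074
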