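import Cfsg.Statements.S0076
-- import your own Cfsg.Agent.* helpers here

set_option autoImplicit false
open Cfsg

namespace Cfsg.Agent.S0076

/-- Two P-invariant subsets of a Sylow p-subgroup P that are conjugate in G are conjugate under the normalizer of P. -/
theorem result {G : Type*} [Group G] [Finite G] {p : ℕ} [Fact p.Prime] (P : Sylow p G) (X Y : Set G) (hXP : X ⊆ P) (hYP : Y ⊆ P) (hX : ∀ x ∈ P, (fun y => x * y * x⁻¹) '' X = X) (hY : ∀ x ∈ P, (fun y => x * y * x⁻¹) '' Y = Y) (g : G) (hg : (fun y => g * y * g⁻¹) '' X = Y) : ∃ n ∈ Subgroup.normalizer (P : Set G), (fun y => n * y * n⁻¹) '' X = Y := by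
  have key : ∀ (Z : Set G) (x : G), (fun y => x * y * x⁻¹) '' Z = Z →
      x ∈ Subgroup.normalizer Z := by
    intro Z x hx
    rw [Subgroup.mem_set_normalizer_iff]
    intro n
    constructor
    · intro hn
      rw [← hx]
      exact ⟨n, hn, rfl⟩
    · intro hn
      rw [← hx] at hn
      obtain ⟨m, hm, hmn⟩ := hn
      have : m = n := by simpa using hmn
      exact this ▸ hm
  have h1 : (P : Subgroup G) ≤ Subgroup.normalizer Y := fun x hx => key Y x (hY x hx)
  have h2 : ((g • P : Sylow p G) : Subgroup G) ≤ Subgroup.normalizer Y := by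
    rintro - ⟨z, hz, rfl⟩
    apply key
    rw [← hg]
    conv_rhs => rw [← hX z hz]
    simp only [Set.image_image]
    congr 1
    ext y
    simp [mul_assoc]
  obtain ⟨h, hh⟩ :=
    MulAction.exists_smul_eq (Subgroup.normalizer Y) ((g • P).subtype h2) (P.subtype h1)
  simp_rw [Sylow.smul_subtype, Subgroup.smul_def, smul_smul] at hh
  refine ⟨h * g, Sylow.smul_eq_iff_mem_normalizer.mp (Sylow.subtype_injective hh), ?_⟩
  have hh2 := Subgroup.mem_set_normalizer_iff.mp h.2
  ext y
  constructor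
  · rintro ⟨x, hx, rfl⟩
    have : g * x * g⁻¹ ∈ Y := hg ▸ ⟨x, hx, rfl⟩
    have := (hh2 _).mp this
    simpa [mul_assoc] using this
  · intro hy
    have : (h : G)⁻¹ * y * h ∈ Y := by
      apply (hh2 _).mpr
      simpa [mul_assoc] using hy
    obtain ⟨x, hx, hxy⟩ := hg.symm.subset this
    refine ⟨x, hx, ?_⟩
    simp only at hxy ⊢
    calc (h : G) * g * x * (h * g)⁻¹ = h * (g * x * g⁻¹) * (h : G)⁻¹ := by group
      _ = y := by rw [hxy]; group

end Cfsg.Agent.S0076
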