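import Cfsg.Statements.S0078
import Cfsg.Agent.Trans.HyperFocal

set_option autoImplicit false
open Cfsg

open Pointwise Cfsg.Lib.Solv Cfsg.Lib.Trans

namespace Cfsg.Agent.S0078

/-- In a p-normal group, a Sylow p-subgroup P meets O^p(G) exactly where it meets O^p(V), for any subgroup V containing the normalizer of the centre of P. -/
theorem result {G : Type*} [Group G] [Finite G] {p : ℕ} [Fact p.Prime] (P : Sylow p G) (hn : ∀ Q : Sylow p G, (P : Subgroup G) ⊓ Subgroup.centralizer (P : Set G) ≤ (Q : Subgroup G) → (Q : Subgroup G) ⊓ Subgroup.centralizer (Q : Set G) = (P : Subgroup G) ⊓ Subgroup.centralizer (P : Set G)) (V : Subgroup G) (hV : Subgroup.normalizer (((P : Subgroup G) ⊓ Subgroup.centralizer (P : Set G) : Subgroup G) : Set G) ≤ V) : (P : Subgroup G) ⊓ Cfsg.pResidual p G = (P : Subgroup G) ⊓ (Cfsg.pResidual p V).map V.subtype := by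
  set Z : Subgroup G := (P : Subgroup G) ⊓ Subgroup.centralizer (P : Set G) with hZ
  have hPV : (P : Subgroup G) ≤ V :=
    (le_normalizer_inf_centralizer Subgroup.le_normalizer Subgroup.le_normalizer).trans hV
  apply inf_pResidual_eq_of_controls P hPV
  intro x hx g hg
  have hZp : IsPGroup p Z := P.isPGroup'.to_inf_left
  have h1 : Z ≤ Subgroup.centralizer {g * x * g⁻¹} := fun z hz =>
    Subgroup.mem_centralizer_singleton_iff.mpr (hz.2 _ hg).symm
  have h2 : MulAut.conj g • Z ≤ Subgroup.centralizer {g * x * g⁻¹} := by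
    rw [← conj_smul_centralizer_singleton]
    exact conj_smul_mono g fun z hz => Subgroup.mem_centralizer_singleton_iff.mpr (hz.2 _ hx).symm
  obtain ⟨Q, c, hc, hQ1, hQ2⟩ := exists_sylow_ge_and_conj_le hZp (isPGroup_conj_smul hZp g) h1 h2
  rw [← conj_mul_smul, conj_smul_le_iff_le_conj_inv_smul, ← coe_sylow_smul] at hQ2
  have e1 := hn Q hQ1
  have e2 := hn _ hQ2
  have e3 : MulAut.conj (c * g)⁻¹ • Z = Z := by
    conv_lhs => rw [← e1]
    rw [← e2, Subgroup.smul_inf]
    congr 1
    exact conj_smul_centralizer _ _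
  have hmem : c * g ∈ V := hV (inv_mem_iff.mp (mem_normalizer_iff_conj_smul_eq.mpr e3))
  refine ⟨c * g, hmem, ?_⟩
  have := Subgroup.mem_centralizer_singleton_iff.mp hc
  calc g * x * g⁻¹ = c * (g * x * g⁻¹) * c⁻¹ := by rw [this, mul_inv_cancel_right]
    _ = _ := by group

end Cfsg.Agent.S0078
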