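import Cfsg.Statements.S0079

set_option autoImplicit false
open Cfsg

namespace Cfsg.Agent.S0079

open scoped IsMulCommutative commutatorElement

/-- The subgroup generated by the elements of order prime to `m`. -/
def resid (m : ℕ) (G : Type*) [Group G] : Subgroup G :=
  Subgroup.closure {g : G | Nat.Coprime (orderOf g) m}

instance resid_normal (m : ℕ) (G : Type*) [Group G] : (resid m G).Normal := by
  constructor
  intro n hn g
  induction hn using Subgroup.closure_induction with
  | mem x hx =>
    apply Subgroup.subset_closure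
    have : orderOf (g * x * g⁻¹) = orderOf x := by
      have := MulEquiv.orderOf_eq (MulAut.conj g) x
      simpa using this
    simpa [this] using hx
  | one => simp
  | mul x y _ _ hx hy =>
    have : g * (x * y) * g⁻¹ = (g * x * g⁻¹) * (g * y * g⁻¹) := by group
    rw [this]; exact mul_mem hx hy
  | inv x _ hx =>
    have : g * x⁻¹ * g⁻¹ = (g * x * g⁻¹)⁻¹ := by group
    rw [this]; exact inv_mem hx

theorem resid_sup {G : Type*} [Group G] [Finite G] (H : Subgroup G)
    (hHall : Nat.Coprime (Nat.card H) H.index) : resid (Nat.card H) G ⊔ H = ⊤ := by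
  rw [← Subgroup.index_eq_one]
  by_contra hne
  obtain ⟨q, hq, hdvd⟩ := Nat.exists_prime_and_dvd hne
  have := Fact.mk hq
  have h1 : q ∣ H.index := hdvd.trans (Subgroup.index_dvd_of_le le_sup_right)
  have h2 : Nat.Coprime q (Nat.card H) := Nat.Coprime.coprime_dvd_left h1 hHall.symm
  obtain ⟨Q⟩ : Nonempty (Sylow q G) := inferInstance
  have h3 : (Q : Subgroup G) ≤ resid (Nat.card H) G := by
    intro x hx
    apply Subgroup.subset_closure
    have := Q.2.orderOf_coprime h2 ⟨x, hx⟩
    rw [← Subgroup.orderOf_coe] at this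
    exact this
  exact Q.not_dvd_index (hdvd.trans (Subgroup.index_dvd_of_le (h3.trans le_sup_left)))

theorem hom_resid_trivial {G : Type*} [Group G] {m : ℕ} {A : Type*} [Group A]
    (hA : Nat.card A ∣ m) (φ : resid m G →* A) (x : resid m G) : φ x = 1 := by
  obtain ⟨x, hx⟩ := x
  induction hx using Subgroup.closure_induction with
  | mem x hx =>
    have h1 : orderOf (φ ⟨x, Subgroup.subset_closure hx⟩) ∣ orderOf x := by
      have := orderOf_map_dvd φ ⟨x, Subgroup.subset_closure hx⟩
      rwa [← Subgroup.orderOf_coe] at this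
    have h2 : orderOf (φ ⟨x, Subgroup.subset_closure hx⟩) ∣ m := (orderOf_dvd_natCard _).trans hA
    exact orderOf_eq_one_iff.mp (Nat.eq_one_of_dvd_coprimes hx h1 h2)
  | one => exact map_one φ
  | mul x y hx' hy' hx hy =>
    have := map_mul φ ⟨x, hx'⟩ ⟨y, hy'⟩
    rw [hx, hy, one_mul] at this
    exact this
  | inv x hx' hx =>
    have := map_inv φ ⟨x, hx'⟩
    rw [hx, inv_one] at this
    exact this

/-- A nilpotent Hall subgroup has a normal complement exactly when elements of it that are conjugate in the whole group are already conjugate inside it. -/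
theorem result {G : Type*} [Group G] [Finite G] (H : Subgroup G) (hH : Group.IsNilpotent H) (hHall : Nat.Coprime (Nat.card H) H.index) : (∃ N : Subgroup G, N.Normal ∧ N.IsComplement' H) ↔ ∀ x ∈ H, ∀ y ∈ H, (∃ g : G, g * x * g⁻¹ = y) → ∃ h ∈ H, h * x * h⁻¹ = y := by
  constructor
  · rintro ⟨N, hN, hc⟩ x hx y hy ⟨g, rfl⟩
    obtain ⟨⟨n, h⟩, rfl⟩ := hc.2 g
    refine ⟨h, h.2, ?_⟩
    have h1 : (h * x * (h : G)⁻¹) ∈ H := mul_mem (mul_mem h.2 hx) (inv_mem h.2)
    have h2 : ((n : G) * ↑h * x * ((n : G) * ↑h)⁻¹) * (h * x * (h : G)⁻¹)⁻¹ ∈ N := by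
      have : ((n : G) * ↑h * x * ((n : G) * ↑h)⁻¹) * (h * x * (h : G)⁻¹)⁻¹ =
          n * ((h * x * (h : G)⁻¹) * (n : G)⁻¹ * (h * x * (h : G)⁻¹)⁻¹) := by group
      rw [this]
      exact mul_mem n.2 (hN.conj_mem _ (inv_mem n.2) _)
    have h3 := hc.disjoint.le_bot (Subgroup.mem_inf.mpr ⟨h2, mul_mem hy (inv_mem h1)⟩)
    rw [Subgroup.mem_bot, mul_inv_eq_one] at h3
    exact h3.symm
  · intro hfus
    set N := resid (Nat.card H) G with hN
    have hsup : N ⊔ H = ⊤ := resid_sup H hHall
    have hidx : H.relIndex N = H.index := by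
      have h1 : N.relIndex H = N.index := by
        rw [← Subgroup.relIndex_sup_left (K := N) H, hsup, Subgroup.relIndex_top_right]
      have h2 := Subgroup.relIndex_mul_index (H := N ⊓ H) (K := N) inf_le_left
      have h3 := Subgroup.relIndex_mul_index (H := N ⊓ H) (K := H) inf_le_right
      rw [Subgroup.inf_relIndex_left] at h2
      rw [Subgroup.inf_relIndex_right, h1] at h3
      have h4 : N.index ≠ 0 := Subgroup.FiniteIndex.index_ne_zero
      apply Nat.eq_of_mul_eq_mul_right (Nat.pos_of_ne_zero h4)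
      rw [h2, ← h3, mul_comm]
    -- the Hall subgroup of `N`
    set K : Subgroup N := H.subgroupOf N with hK
    have hKcard : Nat.card K ∣ Nat.card H := by
      rw [hK, ← Subgroup.inf_subgroupOf_right, Nat.card_congr (Subgroup.subgroupOfEquivOfLe inf_le_right).toEquiv]
      exact Subgroup.card_dvd_of_le inf_le_left
    have hfoc : ∀ x : K, x ∈ K.focalSubgroupOf := by
      intro x
      have hA : Nat.card (K ⧸ K.focalSubgroupOf) ∣ Nat.card H :=
        (Subgroup.card_quotient_dvd_card _).trans hKcard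
      have h1 := hom_resid_trivial hA K.transferFocal x
      rw [Subgroup.transferFocal_eq_pow] at h1
      have h2 : orderOf (x : K ⧸ K.focalSubgroupOf) ∣ H.index := by
        rw [← hidx]; exact orderOf_dvd_of_pow_eq_one h1
      have h3 : orderOf (x : K ⧸ K.focalSubgroupOf) ∣ Nat.card H := (orderOf_dvd_natCard _).trans hA
      have h4 := orderOf_eq_one_iff.mp (Nat.eq_one_of_dvd_coprimes hHall h3 h2)
      exact (QuotientGroup.eq_one_iff _).mp h4
    have hstep : N ⊓ H ≤ ⁅N ⊓ H, H⁆ := by
      rintro x ⟨hxN, hxH⟩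
      have h1 : (⟨x, hxN⟩ : N) ∈ K.focalSubgroup := hfoc ⟨⟨x, hxN⟩, hxH⟩
      have h2 : K.focalSubgroup ≤ (⁅N ⊓ H, H⁆).subgroupOf N := by
        rw [Subgroup.focalSubgroup_def, Subgroup.closure_le]
        rintro g ⟨hg, a, ha, u, rfl⟩
        have ha' : (a : G) ∈ H := ha
        have hg' : (a : G) * ((u : G) * (a : G)⁻¹ * (u : G)⁻¹) ∈ H := by
          have : ((⁅a, u⁆ : N) : G) ∈ H := hg
          simpa [commutatorElement_def, mul_assoc] using this
        have h3 : (u : G) * (a : G)⁻¹ * (u : G)⁻¹ ∈ H := by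
          simpa using mul_mem (inv_mem ha') hg'
        obtain ⟨h, hh, hh'⟩ := hfus _ (inv_mem ha') _ h3 ⟨u, rfl⟩
        have : ((⁅a, u⁆ : N) : G) = ⁅(a : G), h⁆ := by
          simp only [commutatorElement_def, Subgroup.coe_mul, Subgroup.coe_inv, mul_assoc] at hh' ⊢
          rw [hh']
        change ((⁅a, u⁆ : N) : G) ∈ ⁅N ⊓ H, H⁆
        rw [this]
        exact Subgroup.commutator_mem_commutator ⟨a.2, ha'⟩ hh
      exact h2 h1
    have hlow : ∀ n, N ⊓ H ≤ H.lowerCentralSeries n := by
      intro n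
      induction n with
      | zero => exact inf_le_right
      | succ n ih =>
        rw [Subgroup.lowerCentralSeries_succ]
        exact hstep.trans (Subgroup.commutator_mono ih le_rfl)
    obtain ⟨n, hn⟩ := (Subgroup.isNilpotent_iff_lowerCentralSeries H).mp hH
    have hdis : Disjoint N H := disjoint_iff.mpr (le_bot_iff.mp (hn ▸ hlow n))
    refine ⟨N, inferInstance, Subgroup.isComplement'_of_disjoint_and_mul_eq_univ hdis ?_⟩
    rw [← Subgroup.normal_mul, hsup, Subgroup.coe_top]

end Cfsg.Agent.S0079
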