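import Cfsg.Statements.S0082
import Cfsg.Agent.Trans.AutomizerOrder

set_option autoImplicit false
open Cfsg

namespace Cfsg.Agent.S0082

open Cfsg.Lib.Trans


/-- With a cyclic Sylow p-subgroup, either there is a normal p-complement or the elements of order prime to p generate the whole group. -/
theorem result {G : Type*} [Group G] [Finite G] {p : ℕ} [Fact p.Prime] (P : Sylow p G) (hP : IsCyclic P) : Cfsg.HasNormalPComplement p G ∨ Cfsg.pResidual p G = ⊤ := by
  exact hasNormalPComplement_or_pResidual_eq_top_of_isCyclic P hP

end Cfsg.Agent.S0082
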