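import Cfsg.Statements.S0083

set_option autoImplicit false
open Cfsg

namespace Cfsg.Agent.S0083

/-- For an abelian Sylow p-subgroup P, a normal p-complement exists exactly when the normalizer of P is an internal direct product of P with some subgroup. -/
theorem result {G : Type*} [Group G] [Finite G] {p : ℕ} [Fact p.Prime] (P : Sylow p G) (hP : IsMulCommutative P) : Cfsg.HasNormalPComplement p G ↔ ∃ Q : Subgroup G, Q ≤ Subgroup.centralizer (P : Set G) ∧ Q ⊓ (P : Subgroup G) = ⊥ ∧ Q ⊔ (P : Subgroup G) = Subgroup.normalizer (P : Set G) := by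
  constructor
  · rintro ⟨P', N, hN, hc⟩
    have hcard : Nat.card P' = Nat.card P := Nat.card_congr (Sylow.equiv P' P).toEquiv
    have hcop : (Nat.card N).Coprime (Nat.card P) := by
      rw [← hcard, ← hc.index_eq_card]
      exact (Sylow.card_coprime_index P').symm
    have hc' : N.IsComplement' (P : Subgroup G) := by
      apply Subgroup.isComplement'_of_coprime _ hcop
      rw [← hc.card_mul_card]
      exact congrArg _ hcard.symm
    have hdis : N ⊓ (P : Subgroup G) = ⊥ := hc'.disjoint.eq_bot
    refine ⟨N ⊓ Subgroup.normalizer (P : Set G), ?_, ?_, ?_⟩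
    · intro q hq
      rw [Subgroup.mem_centralizer_iff]
      intro h hh
      have h1 : q * h * q⁻¹ * h⁻¹ ∈ N ⊓ (P : Subgroup G) := by
        constructor
        · have : q * h * q⁻¹ * h⁻¹ = q * (h * q⁻¹ * h⁻¹) := by group
          rw [this]
          exact N.mul_mem hq.1 (hN.conj_mem _ (N.inv_mem hq.1) h)
        · exact P.1.mul_mem ((Subgroup.mem_normalizer_iff.mp hq.2 h).mp hh) (P.1.inv_mem hh)
      rw [hdis, Subgroup.mem_bot] at h1
      have : q * h = (q * h * q⁻¹ * h⁻¹) * (h * q) := by group
      rw [this, h1, one_mul]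
    · rw [eq_bot_iff, ← hdis]
      exact inf_le_inf_right _ inf_le_left
    · apply le_antisymm (sup_le inf_le_right Subgroup.le_normalizer)
      intro g hg
      obtain ⟨⟨n, x⟩, rfl⟩ := hc'.2 g
      refine Subgroup.mul_mem _ (Subgroup.mem_sup_left ⟨n.2, ?_⟩) (Subgroup.mem_sup_right x.2)
      have hx : (x : G) ∈ Subgroup.normalizer (P : Set G) := Subgroup.le_normalizer (H := (P : Subgroup G)) x.2
      have := Subgroup.mul_mem _ hg (Subgroup.inv_mem _ hx)
      simpa using this
  · rintro ⟨Q, hQ, -, hsup⟩
    have h : Subgroup.normalizer (P : Set G) ≤ Subgroup.centralizer (P : Set G) := by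
      rw [← hsup]
      exact sup_le hQ (Subgroup.le_centralizer (H := (P : Subgroup G)))
    exact ⟨P, _, inferInstance, MonoidHom.ker_transferSylow_isComplement' P h⟩

end Cfsg.Agent.S0083
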