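import Cfsg.Statements.S0084
import Mathlib.Data.Finite.Perm

set_option autoImplicit false
open Cfsg

namespace Cfsg.Agent.S0084

open Subgroup


/-- A group whose Sylow 2-subgroups are Klein four-groups and whose order is prime to 3 has a normal 2-complement. -/
theorem result {G : Type*} [Group G] [Finite G] (T : Sylow 2 G) (hT : IsKleinFour T) (h3 : ¬ 3 ∣ Nat.card G) : Cfsg.HasNormalPComplement 2 G := by
  have : Fact (Nat.Prime 2) := ⟨Nat.prime_two⟩
  have hcomm : IsMulCommutative T := IsKleinFour.isMulCommutative
  have hNC : normalizer (T : Set G) ≤ centralizer (T : Set G) := by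
    have key := card_dvd_of_injective _
      (QuotientGroup.kerLift_injective (T : Subgroup G).normalizerMonoidHom)
    rw [normalizerMonoidHom_ker, ← index, ← relIndex] at key
    have h24 : Nat.card (MulAut T) ∣ 24 := by
      have h1 := card_dvd_of_injective (MulAut.toPerm T) (fun a b h => by
        ext x
        exact congrArg Subtype.val (congrArg (fun f : Equiv.Perm T => f x) h))
      rw [Nat.card_perm, hT.card_four] at h1
      exact h1
    refine relIndex_eq_one.mp (Nat.eq_one_of_dvd_coprimes ?_ dvd_rfl (key.trans h24))
    rw [show (24 : ℕ) = 2 ^ 3 * 3 by norm_num]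
    refine (Nat.Coprime.pow_right _ ?_).mul_right ?_
    · apply Nat.Coprime.coprime_dvd_left (relIndex_dvd_of_le_left _ (T : Subgroup G).le_centralizer)
      apply Nat.Coprime.coprime_dvd_left (relIndex_dvd_index_of_le (T : Subgroup G).le_normalizer)
      rw [Nat.coprime_comm, Nat.Prime.coprime_iff_not_dvd Fact.out]
      exact T.not_dvd_index
    · apply Nat.Coprime.coprime_dvd_left <| relIndex_dvd_card ..
      apply Nat.Coprime.coprime_dvd_left <| card_subgroup_dvd_card _
      rw [Nat.coprime_comm, Nat.Prime.coprime_iff_not_dvd Nat.prime_three]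
      exact h3
  exact ⟨T, _, inferInstance, MonoidHom.ker_transferSylow_isComplement' T hNC⟩

end Cfsg.Agent.S0084
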