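import Cfsg.Statements.S0086
-- import your own Cfsg.Agent.* helpers here

set_option autoImplicit false
open Cfsg

namespace Cfsg.Agent.S0086

/-- A normal complement to a Sylow p-subgroup is exactly the set of elements of order prime to p. -/
theorem result {G : Type*} [Group G] [Finite G] {p : ℕ} [Fact p.Prime] (P : Sylow p G) (N : Subgroup G) [N.Normal] (hN : N.IsComplement' (P : Subgroup G)) (x : G) : x ∈ N ↔ Nat.Coprime (orderOf x) p := by
  have hp : p.Prime := Fact.out
  constructor
  · intro hx
    have h1 : orderOf x ∣ Nat.card N := N.orderOf_dvd_natCard hx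
    have h2 : Nat.card N = (P : Subgroup G).index := hN.index_eq_card.symm
    rw [h2] at h1
    exact Nat.Coprime.coprime_dvd_left h1
      ((Nat.Prime.coprime_iff_not_dvd hp).mpr P.not_dvd_index).symm
  · intro hx
    rw [← QuotientGroup.eq_one_iff, ← orderOf_eq_one_iff]
    have h1 : orderOf (x : G ⧸ N) ∣ orderOf x := orderOf_map_dvd (QuotientGroup.mk' N) x
    have h2 : orderOf (x : G ⧸ N) ∣ Nat.card (G ⧸ N) := orderOf_dvd_natCard _
    rw [← N.index_eq_card, hN.symm.index_eq_card] at h2
    obtain ⟨k, hk⟩ := IsPGroup.iff_card.mp P.isPGroup'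
    rw [hk] at h2
    exact Nat.eq_one_of_dvd_coprimes (Nat.Coprime.pow_right k hx) h1 h2

end Cfsg.Agent.S0086
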