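import Cfsg.Statements.S0087

set_option autoImplicit false
open Cfsg

namespace Cfsg.Agent.S0087

open Subgroup
open scoped Pointwise

/-- A Hall subgroup contains a Sylow `p`-subgroup of `G` for each prime `p` dividing its order. -/
theorem exists_sylow_le {G : Type*} [Group G] [Finite G] (H : Subgroup G)
    (hHall : Nat.Coprime (Nat.card H) H.index) {p : ℕ} [hp : Fact p.Prime] (hd : p ∣ Nat.card H) :
    ∃ P : Sylow p G, (P : Subgroup G) ≤ H := by
  obtain ⟨P₀⟩ : Nonempty (Sylow p H) := inferInstance
  have h1 : IsPGroup p ((P₀ : Subgroup H).map H.subtype) := P₀.2.map _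
  have h2 : ¬ p ∣ ((P₀ : Subgroup H).map H.subtype).index := by
    rw [index_map_subtype]
    intro h
    rcases (Nat.Prime.dvd_mul hp.out).mp h with h | h
    · exact P₀.not_dvd_index h
    · exact hp.out.one_lt.ne' (Nat.eq_one_of_dvd_coprimes hHall hd h)
  exact ⟨h1.toSylow h2, map_subtype_le _⟩

theorem normalizer_le_centralizer {G : Type*} [Group G] [Finite G] (H : Subgroup G)
    (hHall : Nat.Coprime (Nat.card H) H.index)
    (h : Subgroup.normalizer (H : Set G) ≤ Subgroup.centralizer (H : Set G))
    (R : Subgroup G) (hR : R ≤ H) : normalizer (R : Set G) ≤ centralizer (R : Set G) := by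
  induction R using WellFoundedGT.induction with
  | _ R ih =>
  by_cases hRH : R = H
  · subst hRH; exact h
  have h1 : R.relIndex H ≠ 1 := fun e => hRH (le_antisymm hR (relIndex_eq_one.mp e))
  obtain ⟨q, hq, hqd⟩ := Nat.exists_prime_and_dvd h1
  have := Fact.mk hq
  obtain ⟨Q, hQ⟩ := exists_sylow_le H hHall (hqd.trans (relIndex_dvd_card R H))
  have hlt : R < R ⊔ Q := by
    refine lt_of_le_of_ne le_sup_left fun e => ?_
    have hQR : (Q : Subgroup G) ≤ R := e ▸ le_sup_right
    exact Q.not_dvd_index ((hqd.trans (relIndex_dvd_index_of_le hR)).trans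
      (index_dvd_of_le hQR))
  have ih' := ih _ hlt (sup_le hR hQ)
  have hQC : (Q : Subgroup G) ≤ centralizer (R : Set G) := fun x hx r hr =>
    h (le_normalizer (hQ hx)) r (hR hr)
  intro g hg
  have hgQ : ((g • Q : Sylow q G) : Subgroup G) ≤ centralizer (R : Set G) := by
    rintro _ ⟨x, hx, rfl⟩ r hr
    have hr' : g⁻¹ * r * g ∈ R := by
      have := (mem_normalizer_iff.mp (inv_mem hg) r).mp hr
      simpa using this
    have := hQC hx _ hr'
    simp only [MulAut.smul_def, MulDistribMulAction.toMonoidEnd_apply,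
      MulDistribMulAction.toMonoidHom_apply, MulAut.conj_apply]
    calc r * (g * x * g⁻¹) = g * (g⁻¹ * r * g * x) * g⁻¹ := by group
      _ = g * (x * (g⁻¹ * r * g)) * g⁻¹ := by rw [this]
      _ = _ := by group
  obtain ⟨c, hc⟩ :=
    MulAction.exists_smul_eq (centralizer (R : Set G)) ((g • Q).subtype hgQ) (Q.subtype hQC)
  simp_rw [Sylow.smul_subtype, Subgroup.smul_def, smul_smul] at hc
  have h2 : (c : G) * g ∈ normalizer (Q : Set G) :=
    Sylow.smul_eq_iff_mem_normalizer.mp (Sylow.subtype_injective hc)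
  have h3 : (c : G) * g ∈ normalizer (R : Set G) :=
    mul_mem (centralizer_le_normalizer _ c.2) hg
  have h4 : (c : G) * g ∈ centralizer (R : Set G) :=
    centralizer_le (SetLike.coe_subset_coe.mpr le_sup_left) (ih' (normalizer_inf_normalizer_le_normalizer_sup R Q ⟨h3, h2⟩))
  simpa using mul_mem (inv_mem c.2) h4

theorem no_fusion {G : Type*} [Group G] [Finite G] (H : Subgroup G)
    (hHall : Nat.Coprime (Nat.card H) H.index)
    (h : Subgroup.normalizer (H : Set G) ≤ Subgroup.centralizer (H : Set G))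
    (x g : G) (hx : x ∈ H) (hy : g⁻¹ * x * g ∈ H) : g⁻¹ * x * g = x := by
  have : IsMulCommutative H := ⟨⟨fun a b => Subtype.ext (h (le_normalizer b.2) a a.2)⟩⟩
  set D : Subgroup G := H ⊓ H.comap (MulAut.conj g⁻¹).toMonoidHom with hD
  set E : Subgroup G := centralizer {g} with hE
  have hDE : D ≤ E := by
    rw [← relIndex_eq_one]
    by_contra h1
    obtain ⟨p, hp, hpd⟩ := Nat.exists_prime_and_dvd h1
    have := Fact.mk hp
    obtain ⟨P, hP⟩ := exists_sylow_le H hHall
      ((hpd.trans (relIndex_dvd_card E D)).trans (card_dvd_of_le inf_le_left))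
    obtain ⟨S⟩ : Nonempty (Sylow p D) := inferInstance
    have hS : (S : Subgroup D) ≤ E.subgroupOf D := by
      intro s hs
      have key : ∀ y : G, y ∈ H → (∃ k, y ^ p ^ k = 1) → y ∈ (P : Subgroup G) := by
        intro y hy ⟨k, hk⟩
        have : IsPGroup p (zpowers (⟨y, hy⟩ : H)) := by
          apply IsPGroup.of_card_dvd_pow (n := k)
          rw [Nat.card_zpowers]
          exact orderOf_dvd_of_pow_eq_one (Subtype.ext hk)
        exact this.le_sylow_of_normal (P.subtype hP) (mem_zpowers _)
      obtain ⟨k, hk⟩ := S.2 ⟨s, hs⟩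
      have hk' : (s : G) ^ p ^ k = 1 := congrArg (fun z : S => ((z : D) : G)) hk
      have h2 : (s : G) ∈ (P : Subgroup G) := key _ s.2.1 ⟨k, hk'⟩
      have h3 : g⁻¹ * s * g ∈ (P : Subgroup G) := key _ (by simpa using s.2.2) ⟨k, by
        have : g⁻¹ * s * g = g⁻¹ * s * g⁻¹⁻¹ := by simp
        rw [this, conj_pow, hk']; simp⟩
      have : IsMulCommutative P := ⟨⟨fun a b => Subtype.ext (h (le_normalizer (hP b.2)) a (hP a.2))⟩⟩
      obtain ⟨n, hn, hns⟩ := P.conj_eq_normalizer_conj_of_mem s g h2 h3
      have h4 := normalizer_le_centralizer H hHall h P hP hn s h2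
      rw [mem_subgroupOf, mem_centralizer_singleton_iff]
      calc (s : G) * g = g * (g⁻¹ * s * g) := by group
        _ = g * (n⁻¹ * (s * n)) := by rw [hns, mul_assoc]
        _ = _ := by rw [h4]; group
    exact S.not_dvd_index (hpd.trans (index_dvd_of_le hS))
  have : x ∈ E := hDE ⟨hx, by simpa using hy⟩
  rw [mem_centralizer_singleton_iff] at this
  rw [mul_assoc, this]; group

open scoped IsMulCommutative in
/-- A Hall subgroup that is central in its normalizer has a normal complement. -/
theorem result {G : Type*} [Group G] [Finite G] (H : Subgroup G) (hHall : Nat.Coprime (Nat.card H) H.index) (h : Subgroup.normalizer (H : Set G) ≤ Subgroup.centralizer (H : Set G)) : ∃ N : Subgroup G, N.Normal ∧ N.IsComplement' H := by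
  have : IsMulCommutative H := ⟨⟨fun a b => Subtype.ext (h (le_normalizer b.2) a a.2)⟩⟩
  let f : G →* H := MonoidHom.transfer (MonoidHom.id H)
  have hf : ∀ x : H, f x = x ^ H.index := fun x =>
    MonoidHom.transfer_eq_pow _ _ fun k g hg => no_fusion H hHall h _ g (pow_mem x.2 k) hg
  refine ⟨f.ker, inferInstance, isComplement'_of_card_mul_and_disjoint ?_ ?_⟩
  · have hs : Function.Surjective f := fun y => by
      obtain ⟨x, hx⟩ := (powCoprime hHall).surjective y
      exact ⟨x, (hf x).trans hx⟩
    rw [← f.ker.card_mul_index, index_ker, MonoidHom.range_eq_top.mpr hs, card_top]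
  · rw [disjoint_def]
    intro x hx hxH
    have : (⟨x, hxH⟩ : H) = 1 := (powCoprime hHall).injective (by
      rw [powCoprime_one]
      exact (hf ⟨x, hxH⟩).symm.trans hx)
    exact congrArg Subtype.val this

end Cfsg.Agent.S0087
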