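import Cfsg.Statements.S0090
import Cfsg.Agent.Trans.CentralTransfer
import Cfsg.Agent.Solv.CoprimeAbelian

set_option autoImplicit false
open Cfsg

namespace Cfsg.Agent.S0090

open Cfsg.Lib.Trans Cfsg.Lib.Solv
open scoped commutatorElement


/-- An abelian normal Hall subgroup A splits as the internal direct product of G' ∩ A and Z(G) ∩ A, and [A, G] = G' ∩ A. -/
theorem result {G : Type*} [Group G] [Finite G] (A : Subgroup G) [A.Normal] (hc : IsMulCommutative A) (hHall : Nat.Coprime (Nat.card A) A.index) : ⁅A, (⊤ : Subgroup G)⁆ = commutator G ⊓ A ∧ (commutator G ⊓ A) ⊓ (Subgroup.center G ⊓ A) = ⊥ ∧ (commutator G ⊓ A) ⊔ (Subgroup.center G ⊓ A) = A := by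
  have h1 : ⁅A, (⊤ : Subgroup G)⁆ = commutator G ⊓ A := by
    apply le_antisymm
    · exact le_inf (Subgroup.commutator_mono le_top le_rfl) (Subgroup.commutator_le_left _ _)
    · rw [commutator_inf_eq_focalSubgroup_of_coprime A
        (coprime_card_quotient_focal_of_hall A hHall), Subgroup.focalSubgroup_def,
        Subgroup.closure_le]
      rintro g ⟨-, x, hx, u, rfl⟩
      exact Subgroup.commutator_mem_commutator hx (Subgroup.mem_top u)
  refine ⟨h1, ?_, ?_⟩
  · have h2 := center_inf_commutator_inf_le (H := A)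
      (Nat.Coprime.coprime_dvd_right (Subgroup.relIndex_dvd_card _ _) hHall.symm)
    rw [Subgroup.commutator_self_eq_bot_iff.mpr hc] at h2
    rw [eq_bot_iff]
    exact fun x hx => h2 ⟨⟨hx.2.1, hx.1.1⟩, hx.1.2⟩
  · obtain ⟨K, hK⟩ := Subgroup.exists_right_complement'_of_coprime hHall
    have h3 := Coprime.centralizer_sup_commutator_of_comm (V := A) (A := K)
      (by rw [Subgroup.normalizer_eq_top]; exact le_top) (by rw [← hK.symm.index_eq_card]; exact hHall.symm)
    apply le_antisymm (sup_le inf_le_right inf_le_right)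
    conv_lhs => rw [← h3]
    rw [sup_comm, ← h1]
    refine sup_le_sup (Subgroup.commutator_mono le_rfl le_top) (le_inf ?_ inf_le_left)
    rw [← Subgroup.centralizer_univ, ← Subgroup.coe_top, Subgroup.le_centralizer_iff,
      ← hK.sup_eq_top]
    refine sup_le ?_ ?_
    · exact (Subgroup.le_centralizer A).trans (Subgroup.centralizer_le inf_le_left)
    · rw [Subgroup.le_centralizer_iff]; exact inf_le_right

end Cfsg.Agent.S0090
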