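import Cfsg.Statements.S0091
import Cfsg.Agent.Trans.TransferTools

set_option autoImplicit false
open Cfsg

namespace Cfsg.Agent.S0091

open Cfsg.Lib.Trans
open scoped commutatorElement


/-- If a nontrivial Sylow p-subgroup controls its own fusion then it is not contained in the derived subgroup. -/
theorem result {G : Type*} [Group G] [Finite G] {p : ℕ} [Fact p.Prime] (P : Sylow p G) (hp : p ∣ Nat.card G) (h : ∀ x ∈ P, ∀ y ∈ P, (∃ g : G, g * x * g⁻¹ = y) → ∃ z ∈ P, z * x * z⁻¹ = y) : ¬ (P : Subgroup G) ≤ commutator G := by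
  intro hle
  apply P.ne_bot_of_dvd_card hp
  have := P.isPGroup'.isNilpotent
  apply eq_bot_of_le_commutator_of_isNilpotent (P := (P : Subgroup G)) le_rfl
  have h1 : (P : Subgroup G) ≤ (P : Subgroup G).focalSubgroup := by
    rw [← Subgroup.commutator_inf_eq_focalSubgroup]
    exact le_inf hle le_rfl
  refine h1.trans ?_
  rw [Subgroup.focalSubgroup_def, Subgroup.closure_le]
  rintro g ⟨hg, x, hx, u, rfl⟩
  have h2 : u * x⁻¹ * u⁻¹ ∈ (P : Subgroup G) := by
    have := (P : Subgroup G).mul_mem (inv_mem hx) hg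
    rw [commutatorElement_def] at this
    simpa [mul_assoc] using this
  obtain ⟨z, hz, e⟩ := h x⁻¹ (inv_mem hx) _ h2 ⟨u, rfl⟩
  have : ⁅x, u⁆ = ⁅x, z⁆ := by
    simp only [commutatorElement_def]
    calc x * u * x⁻¹ * u⁻¹ = x * (u * x⁻¹ * u⁻¹) := by group
      _ = x * z * x⁻¹ * z⁻¹ := by rw [← e]; group
  rw [this]
  exact Subgroup.commutator_mem_commutator hx hz

end Cfsg.Agent.S0091
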