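import Cfsg.Statements.S0092
import Cfsg.Agent.Trans.NormalComplement
import Cfsg.Agent.S0075
import Cfsg.Agent.Solv.CoprimeSylow
import Cfsg.Agent.Solv.CoprimeAbelian
import Cfsg.Agent.Solv.Frattini
import Cfsg.Agent.Solv.Conj

set_option autoImplicit false
open Cfsg

namespace Cfsg.Agent.S0092

open Cfsg.Lib.Trans Cfsg.Lib.Solv Subgroup
open scoped Pointwise commutatorElement IsMulCommutative


/-- If the Sylow p-subgroups of O^p(G) are abelian then G splits over O^p(G). -/
theorem result {G : Type*} [Group G] [Finite G] {p : ℕ} [Fact p.Prime] (h : ∀ Q : Sylow p (Cfsg.pResidual p G), IsMulCommutative Q) : ∃ K : Subgroup G, K.IsComplement' (Cfsg.pResidual p G) := by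
  obtain ⟨T⟩ := (inferInstance : Nonempty (Sylow p (pResidual p G)))
  set R := pResidual p G with hR
  set Q := (T : Subgroup R).map R.subtype with hQ
  have hTc := h T
  haveI hQc : IsMulCommutative Q := inferInstance
  have hQp : IsPGroup p Q := T.isPGroup'.map _
  have hQR : Q ≤ R := map_subtype_le _
  set NR := R ⊓ normalizer (Q : Set G) with hNR
  have hQN : Q ≤ NR := le_inf hQR le_normalizer
  have hi : ¬ p ∣ Q.relIndex NR := fun hd => Coprime.not_dvd_relIndex_sylow_map T
    (hd.trans (Dvd.intro _ (relIndex_mul_relIndex Q NR R hQN inf_le_left)))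
  have hcop : (Nat.card Q).Coprime (Q.relIndex NR) := by
    obtain ⟨k, hk⟩ := IsPGroup.iff_card.mp hQp
    rw [hk]
    exact Nat.Coprime.pow_left k (coprime_iff_not_dvd'.mpr hi).symm
  obtain ⟨L, hL1, hL2, hL3, hL4⟩ := exists_complement_ambient Q NR hQN inf_le_right hcop
  have hLQ : L ≤ normalizer (Q : Set G) := hL1.trans inf_le_right
  have h1 : Q ≤ ⁅Q, L⁆ := by
    have h2 := S0075.result T hTc
    rw [show pResidual p R = ⊤ from pResidual_pResidual, inf_top_eq] at h2
    have h3 : Q ≤ ⁅Q, NR⁆ := by
      refine le_trans (map_mono h2.le) ?_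
      rw [map_commutator]
      refine commutator_mono le_rfl ?_
      rintro _ ⟨x, hx, rfl⟩
      exact ⟨x.2, le_normalizer_map R.subtype (mem_map_of_mem _ hx)⟩
    refine h3.trans ?_
    rw [commutator_le]
    intro x hx y hy
    rw [← hL2, Coprime.mem_sup_iff hLQ] at hy
    obtain ⟨q, hq, l, hl, rfl⟩ := hy
    have h4 : ⁅x, l⁆ ∈ Q := commutator_le_left_of_le_normalizer hLQ (commutator_mem_commutator hx hl)
    have h5 : ⁅x, q * l⁆ = ⁅x, l⁆ := by
      have e1 : x * q = q * x := setLike_mul_comm (s := Q) hx hq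
      have e2 : q * ⁅x, l⁆ = ⁅x, l⁆ * q := setLike_mul_comm (s := Q) hq h4
      calc ⁅x, q * l⁆ = (x * q) * l * x⁻¹ * l⁻¹ * q⁻¹ := by rw [commutatorElement_def]; group
        _ = q * ⁅x, l⁆ * q⁻¹ := by rw [e1, commutatorElement_def]; group
        _ = _ := by rw [e2, mul_inv_cancel_right]
    rw [h5]
    exact commutator_mem_commutator hx hl
  have hcop' : (Nat.card L).Coprime (Nat.card Q) := by rw [hL4]; exact hcop.symm
  have h2 : Q ⊓ centralizer (L : Set G) = ⊥ := by
    have := Coprime.centralizer_inf_commutator_eq_bot hLQ hcop'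
    rwa [inf_eq_left.mpr (inf_le_left.trans h1)] at this
  set M := normalizer (Q : Set G) ⊓ normalizer (L : Set G) with hM
  obtain ⟨K⟩ := (inferInstance : Nonempty (Sylow p M))
  refine ⟨(K : Subgroup M).map M.subtype,
    (isComplement'_of_normal_of_inf_eq_bot_of_sup_eq_top ?_ ?_).symm⟩
  · set U := R ⊓ (K : Subgroup M).map M.subtype
    have hU : IsPGroup p U := (K.isPGroup'.map _).to_le inf_le_right
    have hUM : U ≤ M := inf_le_right.trans (map_subtype_le _)
    have hUQ : U ≤ Q := by
      have := Coprime.eq_of_sylow_le hQp hi (le_sup_left : Q ≤ Q ⊔ U)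
        (sup_le hQN (le_inf inf_le_left (hUM.trans inf_le_left)))
        (IsPGroup.to_sup_of_normal_left' hQp hU (hUM.trans inf_le_left))
      exact le_sup_right.trans this.le
    rw [eq_bot_iff, ← h2]
    refine le_inf hUQ ?_
    rw [← commutator_eq_bot_iff_le_centralizer, eq_bot_iff, ← hL3.eq_bot]
    exact le_inf ((commutator_mono hUQ le_rfl).trans (commutator_le_left_of_le_normalizer hLQ))
      (commutator_le_right_of_le_normalizer (hUM.trans inf_le_right))
  · have h3 : M ≤ (K : Subgroup M).map M.subtype ⊔ R := by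
      have := congrArg (map M.subtype) (pResidual_sup_sylow K)
      rw [Subgroup.map_sup, ← MonoidHom.range_eq_map, range_subtype] at this
      refine this.ge.trans ?_
      rw [sup_comm]
      exact sup_le_sup_left (map_pResidual_le _) _
    rw [eq_top_iff, ← T.normalizer_sup_eq_top]
    refine sup_le (fun n hn => ?_) le_sup_right
    have hn' : n ∈ normalizer (NR : Set G) :=
      le_normalizer_inf (A := normalizer (Q : Set G)) (le_top.trans (normalizer_eq_top R).ge)
        le_normalizer hn
    obtain ⟨q, hq, hqn⟩ := schur_zassenhaus_conj_ambient Q L (MulAut.conj n • L) hLQ hcop'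
      (Or.inr (Coprime.isSolvable_of_isMulCommutative Q))
      (by rw [hL2, ← conj_smul_eq_of_mem_normalizer hn']; exact conj_smul_mono n hL1)
      (card_conj_smul n L)
    have h4 : q⁻¹ * n ∈ M := ⟨(normalizer (Q : Set G)).mul_mem (inv_mem (le_normalizer hq)) hn,
      mem_normalizer_iff_conj_smul_eq.mpr (by rw [conj_mul_smul, ← hqn, conj_inv_smul_conj_smul])⟩
    have h5 := mul_mem (mem_sup_right (hQR hq)) (h3 h4)
    rwa [mul_inv_cancel_left] at h5

end Cfsg.Agent.S0092
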