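import Cfsg.Statements.S0096
import Cfsg.Agent.Trans.ClassTwo

set_option autoImplicit false
open Cfsg

namespace Cfsg.Agent.S0096

open scoped commutatorElement

/-- For odd p, in a p-group of class at most two the elements of order dividing p generate a subgroup of exponent dividing p. -/
theorem result {P : Type*} [Group P] [Finite P] {p : ℕ} [Fact p.Prime] (hp : p ≠ 2) (hP : IsPGroup p P) (h2 : ⁅commutator P, (⊤ : Subgroup P)⁆ = ⊥) (g : P) (hg : g ∈ Subgroup.closure {x : P | x ^ p = 1}) : g ^ p = 1 := by
  have hodd : Odd p := (Fact.out : p.Prime).odd_of_ne_two hp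
  have hc : ∀ x y z : P, Commute ⁅x, y⁆ z := by
    intro x y z
    have h1 : ⁅x, y⁆ ∈ commutator P :=
      Subgroup.commutator_mem_commutator (Subgroup.mem_top x) (Subgroup.mem_top y)
    have h3 := Subgroup.commutator_top_right_eq_bot_iff_le_center.mp h2 h1
    exact (Subgroup.mem_center_iff.mp h3 z).symm
  induction hg using Subgroup.closure_induction with
  | mem x hx => exact hx
  | one => simp
  | mul x y _ _ hx hy =>
    rw [Cfsg.Lib.Trans.mul_pow_of_odd_of_pow_commute (hc _ _ _) (hc _ _ _) hodd
      (by rw [hy]; exact Commute.one_left _), hx, hy, one_mul]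
  | inv x _ hx => rw [inv_pow, hx, inv_one]

end Cfsg.Agent.S0096
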