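import Cfsg.Statements.S0097
import Cfsg.Agent.Trans.Extraspecial
import Cfsg.Agent.Trans.SmallClass

set_option autoImplicit false
open Cfsg

namespace Cfsg.Agent.S0097

open Cfsg.Lib.Trans

/-- For odd p and E extraspecial, the subgroup generated by the elements of order dividing p has exponent dividing p and index at most p. -/
theorem result {E : Type*} [Group E] [Finite E] {p : ℕ} [Fact p.Prime] (hp : p ≠ 2) (h : Cfsg.IsExtraspecial p E) : (Subgroup.closure {x : E | x ^ p = 1}).index ≤ p ∧ ∀ g ∈ Subgroup.closure {x : E | x ^ p = 1}, g ^ p = 1 := by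
  have hcl : ⁅commutator E, (⊤ : Subgroup E)⁆ = ⊥ :=
    Subgroup.commutator_top_right_eq_bot_iff_le_center.mpr h.1.2.2.le
  have hZ : ∀ z ∈ Subgroup.center E, z ^ p = 1 := fun z hz => by
    have := pow_card_eq_one' (G := Subgroup.center E) (x := ⟨z, hz⟩)
    rw [h.2] at this
    exact congrArg Subtype.val this
  refine ⟨?_, fun g hg => pow_eq_one_of_mem_closure_class_two Fact.out hp hcl hg⟩
  let φ : E →* E := MonoidHom.mk' (fun x => x ^ p)
    (mul_pow_prime_of_class_two Fact.out hp hcl fun c hc => hZ c (h.1.2.2.le hc))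
  have h1 : φ.ker ≤ Subgroup.closure {x : E | x ^ p = 1} := fun x hx => Subgroup.subset_closure hx
  have h2 : φ.range ≤ Subgroup.center E := by
    rintro _ ⟨x, rfl⟩
    exact (ES.IsPre.of_isExtraspecial h).pow_mem_center x
  calc _ ≤ φ.ker.index := Subgroup.index_antitone h1
    _ = Nat.card φ.range := Subgroup.index_ker φ
    _ ≤ Nat.card (Subgroup.center E) := Subgroup.card_le_of_le h2
    _ = p := h.2

end Cfsg.Agent.S0097
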