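import Cfsg.Statements.S0098
import Cfsg.Agent.Trans.Extraspecial

set_option autoImplicit false
open Cfsg

namespace Cfsg.Agent.S0098

open Subgroup Cfsg.Lib.Trans.ES in
theorem aux {p : ℕ} [hp : Fact p.Prime] (N : ℕ) :
    ∀ {E₁ : Type*} {E₂ : Type*} [Group E₁] [Group E₂] [Finite E₁] [Finite E₂],
      IsPre p E₁ → IsPre p E₂ → (∀ g : E₁, g ^ p = 1) → (∀ g : E₂, g ^ p = 1) →
      Nat.card E₁ = N → Nat.card E₂ = N → ∀ z₁ ∈ center E₁, ∀ z₂ ∈ center E₂, z₁ ≠ 1 → z₂ ≠ 1 →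
      ∃ φ : E₁ ≃* E₂, φ z₁ = z₂ := by
  induction N using Nat.strong_induction_on with
  | _ N ih =>
  intro E₁ E₂ _ _ _ _ h₁ h₂ e₁ e₂ c₁ c₂ z₁ hz₁ z₂ hz₂ n₁ n₂
  by_cases hN : N = p
  · exact exists_mulEquiv_of_card_prime (c₁.trans hN) (c₂.trans hN) n₁ n₂
  obtain ⟨x₁, y₁, rfl⟩ := h₁.exists_pair
    (fun ht => hN (c₁.symm.trans (h₁.card_eq_of_center_eq_top ht))) hz₁
  obtain ⟨x₂, y₂, rfl⟩ := h₂.exists_pair
    (fun ht => hN (c₂.symm.trans (h₂.card_eq_of_center_eq_top ht))) hz₂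
  have k₁ := h₁.card_eq_mul n₁
  have k₂ := h₂.card_eq_mul n₂
  have hlt : Nat.card (centralizer ({x₁, y₁} : Set E₁)) < N := by
    rw [← c₁, k₁]
    exact lt_mul_left Nat.card_pos (Nat.one_lt_pow two_ne_zero hp.out.one_lt)
  have hcard : Nat.card (centralizer ({x₂, y₂} : Set E₂)) =
      Nat.card (centralizer ({x₁, y₁} : Set E₁)) :=
    Nat.eq_of_mul_eq_mul_left (pow_pos hp.out.pos 2) (by rw [← k₁, ← k₂, c₁, c₂])
  obtain ⟨γ, hγ⟩ := ih _ hlt (h₁.centralizer_pair n₁) (h₂.centralizer_pair n₂)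
    (fun g => Subtype.ext (e₁ g)) (fun g => Subtype.ext (e₂ g)) rfl hcard
    ⟨_, center_le_centralizer_pair _ _ hz₁⟩ (by rw [h₁.center_centralizer_pair n₁]; exact hz₁)
    ⟨_, center_le_centralizer_pair _ _ hz₂⟩ (by rw [h₂.center_centralizer_pair n₂]; exact hz₂)
    (fun h => n₁ (congrArg Subtype.val h)) (fun h => n₂ (congrArg Subtype.val h))
  have hone : ∀ (g : E₁) (hg : g ^ p ∈ centralizer ({x₁, y₁} : Set E₁)) (g' : E₂),
      (γ ⟨g ^ p, hg⟩ : E₂) = g' ^ p := by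
    intro g hg g'
    rw [e₂, show (⟨g ^ p, hg⟩ : centralizer ({x₁, y₁} : Set E₁)) = 1 from Subtype.ext (e₁ g),
      map_one, coe_one]
  obtain ⟨φ, hx, hy, -⟩ := h₁.exists_mulEquiv_extend h₂ n₁ n₂ γ (congrArg Subtype.val hγ)
    (hone _ _ _) (hone _ _ _)
  exact ⟨φ, by rw [map_commutatorElement, hx, hy]⟩

/-- For odd p, extraspecial p-groups of exponent p are determined up to isomorphism by their order. -/
theorem result {E₁ : Type*} {E₂ : Type*} [Group E₁] [Group E₂] [Finite E₁] [Finite E₂] {p : ℕ} [Fact p.Prime] (hp : p ≠ 2) (h₁ : Cfsg.IsExtraspecial p E₁) (h₂ : Cfsg.IsExtraspecial p E₂) (he₁ : Monoid.exponent E₁ = p) (he₂ : Monoid.exponent E₂ = p) (hc : Nat.card E₁ = Nat.card E₂) : Nonempty (E₁ ≃* E₂) := by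
  have k₁ := Cfsg.Lib.Trans.ES.IsPre.of_isExtraspecial h₁
  have k₂ := Cfsg.Lib.Trans.ES.IsPre.of_isExtraspecial h₂
  obtain ⟨z₁, hz₁, n₁⟩ := k₁.exists_center_ne_one
  obtain ⟨z₂, hz₂, n₂⟩ := k₂.exists_center_ne_one
  obtain ⟨φ, -⟩ := aux _ k₁ k₂ (fun g => he₁ ▸ Monoid.pow_exponent_eq_one g)
    (fun g => he₂ ▸ Monoid.pow_exponent_eq_one g) hc rfl z₁ hz₁ z₂ hz₂ n₁ n₂
  exact ⟨φ⟩

end Cfsg.Agent.S0098
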