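import Cfsg.Statements.S0100
import Cfsg.Agent.FT.BG4.Elem

set_option autoImplicit false
open Cfsg

namespace Cfsg.Agent.S0100

/-- For odd p, a p-group without normal elementary abelian subgroups of order p^3 has p-rank at most 2. -/
theorem result {P : Type*} [Group P] [Finite P] {p : ℕ} [Fact p.Prime] (hp : p ≠ 2) (hP : IsPGroup p P) (h : ∀ A : Subgroup P, A.Normal → IsMulCommutative A → (∀ a ∈ A, a ^ p = 1) → Nat.card A ≠ p ^ 3) (E : Subgroup P) (hE : IsMulCommutative E) (hEe : ∀ e ∈ E, e ^ p = 1) : Nat.card E ≤ p ^ 2 := by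
  by_contra hlt
  have hr : ¬ Cfsg.PRankLE p 2 P := fun hr => hlt (hr E hE hEe)
  obtain ⟨B, h1, h2, h3⟩ := Cfsg.Lib.FT.BG4.exists_normal_elementary_card_cube hp hP hr
  exact h B h1 h2.1 h2.2 h3

end Cfsg.Agent.S0100
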