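import Cfsg.Statements.S0104

set_option autoImplicit false
open Cfsg

namespace Cfsg.Agent.S0104

open scoped Pointwise


/-- A subgroup Z of a Sylow p-subgroup P that is normalized by N_G(P) is weakly closed in P exactly when it is normal in every Sylow p-subgroup containing it. -/
theorem result {G : Type*} [Group G] [Finite G] {p : ℕ} [Fact p.Prime] (P : Sylow p G) (Z : Subgroup G) (hZP : Z ≤ (P : Subgroup G)) (hZN : Subgroup.normalizer (P : Set G) ≤ Subgroup.normalizer (Z : Set G)) : Cfsg.IsWeaklyClosed Z P ↔ ∀ R : Sylow p G, Z ≤ (R : Subgroup G) → (R : Subgroup G) ≤ Subgroup.normalizer (Z : Set G) := by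
  have hmem : ∀ (g : G) (R : Sylow p G) (x : G), x ∈ ((g • R : Sylow p G) : Subgroup G) ↔ g⁻¹ * x * g ∈ (R : Subgroup G) := by
    intro g R x
    rw [Sylow.coe_subgroup_smul, Subgroup.mem_pointwise_smul_iff_inv_smul_mem]
    simp
  have hPZ : (P : Subgroup G) ≤ Subgroup.normalizer (Z : Set G) :=
    le_trans Subgroup.le_normalizer hZN
  constructor
  · rintro ⟨-, hW⟩ R hZR
    obtain ⟨g, hg⟩ := MulAction.exists_smul_eq G R P
    have h1 : Z.map (MulAut.conj g).toMonoidHom ≤ P := by
      rintro _ ⟨z, hz, rfl⟩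
      rw [← hg, hmem]
      simpa [mul_assoc] using hZR hz
    have h2 : g ∈ Subgroup.normalizer (Z : Set G) :=
      Subgroup.mem_normalizer_iff_map_conj_eq.mpr (hW g h1)
    intro r hr
    have h3 : g * r * g⁻¹ ∈ (P : Subgroup G) := by
      rw [← hg, hmem]
      simpa [mul_assoc] using hr
    have h4 : r = g⁻¹ * (g * r * g⁻¹) * g := by group
    rw [h4]
    exact mul_mem (mul_mem (inv_mem h2) (hPZ h3)) h2
  · intro h
    refine ⟨hZP, fun g hg => ?_⟩
    have h1 : Z ≤ ((g⁻¹ • P : Sylow p G) : Subgroup G) := by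
      intro z hz
      rw [hmem]
      simpa using hg ⟨z, hz, rfl⟩
    have h2 := h _ h1
    obtain ⟨k, hk⟩ := MulAction.exists_smul_eq (Subgroup.normalizer (Z : Set G))
      ((g⁻¹ • P).subtype h2) (P.subtype hPZ)
    simp_rw [Sylow.smul_subtype, Subgroup.smul_def, smul_smul] at hk
    have h3 : (k : G) * g⁻¹ ∈ Subgroup.normalizer (Z : Set G) :=
      hZN (Sylow.smul_eq_iff_mem_normalizer.mp (Sylow.subtype_injective hk))
    have h4 : g ∈ Subgroup.normalizer (Z : Set G) := by
      have h5 : g = ((k : G) * g⁻¹)⁻¹ * k := by group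
      rw [h5]
      exact mul_mem (inv_mem h3) k.2
    exact Subgroup.mem_normalizer_iff_map_conj_eq.mp h4

end Cfsg.Agent.S0104
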