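import Cfsg.Statements.S0105
-- import your own Cfsg.Agent.* helpers here

set_option autoImplicit false
open Cfsg

namespace Cfsg.Agent.S0105

/-- With an abelian Sylow p-subgroup P, some quotient of G is isomorphic to the part of P central in N_G(P). -/
theorem result {G : Type*} [Group G] [Finite G] {p : ℕ} [Fact p.Prime] (P : Sylow p G) (hP : IsMulCommutative P) : ∃ (N : Subgroup G) (hN : N.Normal), Nonempty (G ⧸ N ≃* ((P : Subgroup G) ⊓ Subgroup.centralizer (Subgroup.normalizer (P : Set G) : Set G) : Subgroup G)) := by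
  classical
  open scoped IsMulCommutative in
  set N := Subgroup.normalizer (P : Set G) with hN
  set C : Subgroup G := (P : Subgroup G) ⊓ Subgroup.centralizer (N : Set G) with hC
  let f : N →* MulAut (P : Subgroup G) := (P : Subgroup G).normalizerMonoidHom
  have hf : ∀ (n : N) (x : (P : Subgroup G)), ((f n x : (P : Subgroup G)) : G) = n * x * (n : G)⁻¹ :=
    fun n x => rfl
  let A := f.range
  have := Fintype.ofFinite A
  have hA : ¬ p ∣ Nat.card A := by
    intro h
    apply P.not_dvd_index
    rw [← Subgroup.index_ker] at h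
    refine h.trans (dvd_trans ?_ (Subgroup.relIndex_dvd_index_of_le (K := N) Subgroup.le_normalizer))
    apply Subgroup.index_dvd_of_le
    intro n hn
    rw [MonoidHom.mem_ker]
    ext x
    rw [hf]
    have := congrArg Subtype.val (hP.is_comm.comm (⟨n, hn⟩ : P) x)
    simp only [MulAut.one_apply]
    rw [mul_inv_eq_iff_eq_mul]
    exact this
  let φ : (P : Subgroup G) →* (P : Subgroup G) :=
    { toFun := fun x => ∏ a : A, (a : MulAut (P : Subgroup G)) x
      map_one' := by simp
      map_mul' := fun x y => by simp [Finset.prod_mul_distrib] }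
  have hφ : ∀ x, (φ x : G) ∈ C := by
    intro x
    refine ⟨(φ x).2, ?_⟩
    change (φ x : G) ∈ Subgroup.centralizer (N : Set G)
    rw [Subgroup.mem_centralizer_iff]
    intro n hn
    have h1 : f ⟨n, hn⟩ (φ x) = φ x := by
      change f ⟨n, hn⟩ (∏ a : A, (a : MulAut (P : Subgroup G)) x) = ∏ a : A, (a : MulAut (P : Subgroup G)) x
      rw [map_prod]
      exact Fintype.prod_equiv (Equiv.mulLeft (⟨f ⟨n, hn⟩, ⟨_, rfl⟩⟩ : A)) _ _ (fun a => rfl)
    have h2 := congrArg Subtype.val h1
    rw [hf, mul_inv_eq_iff_eq_mul] at h2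
    exact h2
  have hCc : IsMulCommutative C := ⟨⟨fun a b => by
    have := congrArg Subtype.val (hP.is_comm.comm (⟨a, a.2.1⟩ : P) ⟨b, b.2.1⟩)
    exact Subtype.ext this⟩⟩
  let ψ : (P : Subgroup G) →* C := ((P : Subgroup G).subtype.comp φ).codRestrict C hφ
  let V : G →* C := MonoidHom.transfer ψ
  have hCp : IsPGroup p C := P.2.to_inf_left
  have hV : ∀ c : C, V c = c ^ ((P : Subgroup G).index * Nat.card A) := by
    intro c
    have key : ∀ (k : ℕ) (g₀ : G), g₀⁻¹ * (c : G) ^ k * g₀ ∈ (P : Subgroup G) →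
        g₀⁻¹ * (c : G) ^ k * g₀ = (c : G) ^ k := by
      intro k g₀ h
      obtain ⟨n, hn, h⟩ := P.conj_eq_normalizer_conj_of_mem ((c : G) ^ k) g₀
        ((P : Subgroup G).pow_mem c.2.1 k) h
      rw [h]
      have := (c ^ k).2.2 n hn
      simp only [SubgroupClass.coe_pow] at this
      rw [mul_assoc, ← this, inv_mul_cancel_left]
    rw [MonoidHom.transfer_eq_pow ψ c key]
    apply Subtype.ext
    change ((φ _ : (P : Subgroup G)) : G) = _
    have h3 : ∀ (x : (P : Subgroup G)), (x : G) ∈ C → φ x = x ^ Nat.card A := by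
      intro x hx
      change ∏ a : A, (a : MulAut (P : Subgroup G)) x = _
      rw [Finset.prod_eq_pow_card (b := x), Finset.card_univ, Nat.card_eq_fintype_card]
      rintro ⟨a, n, rfl⟩ -
      apply Subtype.ext
      rw [hf, mul_inv_eq_iff_eq_mul]
      exact hx.2 n n.2
    rw [h3 _ (C.pow_mem c.2 _)]
    simp [pow_mul]
  have hsurj : Function.Surjective V := by
    intro c
    have hcop : ¬ p ∣ (P : Subgroup G).index * Nat.card A := by
      rw [Nat.Prime.dvd_mul Fact.out]
      exact not_or.2 ⟨P.not_dvd_index, hA⟩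
    obtain ⟨d, hd⟩ := (hCp.powEquiv' hcop).surjective c
    exact ⟨d, (hV d).trans hd⟩
  exact ⟨V.ker, inferInstance, ⟨QuotientGroup.quotientKerEquivOfSurjective V hsurj⟩⟩

end Cfsg.Agent.S0105
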