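import Cfsg.Statements.S0106
import Cfsg.Agent.Perm.QuatAut

set_option autoImplicit false
open Cfsg

namespace Cfsg.Agent.S0106

theorem quat_sq {m : ℕ} (hm : 0 < m) (x : QuaternionGroup m) (h1 : x ≠ 1) (h2 : x ^ 2 = 1) :
    x = QuaternionGroup.a m := by
  have : NeZero m := ⟨hm.ne'⟩
  rcases x with i | i
  · rw [pow_two, QuaternionGroup.a_mul_a, QuaternionGroup.one_def, QuaternionGroup.a.injEq] at h2
    rw [QuaternionGroup.one_def, Ne, QuaternionGroup.a.injEq] at h1
    congr 1
    have h3 := ZMod.val_lt i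
    have h4 : i.val ≠ 0 := fun e => h1 ((ZMod.val_eq_zero i).mp e)
    rw [← ZMod.natCast_zmod_val i, ← Nat.cast_add, ZMod.natCast_eq_zero_iff] at h2
    obtain ⟨c, hc⟩ := h2
    have : c = 1 := by
      rcases c with _ | _ | c
      · omega
      · rfl
      · nlinarith
    rw [← ZMod.natCast_zmod_val i]
    congr 1
    subst this
    omega
  · have := orderOf_dvd_of_pow_eq_one h2
    rw [QuaternionGroup.orderOf_xa] at this
    omega

/-- A finite group with generalized quaternion Sylow 2-subgroups either has a normal 2-complement or has a section isomorphic to SL(2,3). -/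
theorem result {G : Type*} [Group G] [Finite G] (T : Sylow 2 G) (n : ℕ) (hn : 1 ≤ n) (hT : Nonempty ((T : Subgroup G) ≃* QuaternionGroup (2 ^ n))) : Cfsg.HasNormalPComplement 2 G ∨ ∃ (H K : Subgroup G) (hK : (K.subgroupOf H).Normal), Nonempty ((H ⧸ K.subgroupOf H) ≃* Matrix.SpecialLinearGroup (Fin 2) (ZMod 3)) := by
  obtain ⟨e⟩ := hT
  by_cases h : ∃ N : Subgroup G, N.Normal ∧ N.IsComplement' (T : Subgroup G)
  · exact Or.inl ⟨T, h⟩
  obtain ⟨Q, -, ⟨e'⟩, g, hg, ho, hc⟩ := Cfsg.Lib.Perm.exists_q8_of_not_complement T (by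
    have key : ∀ x (hx : x ∈ T), x ≠ 1 → x ^ 2 = 1 → e ⟨x, hx⟩ = QuaternionGroup.a (2 ^ n : ℕ) :=
      fun x hx h1 h2 => quat_sq (by positivity) _
        (by rw [Ne, e.map_eq_one_iff]; exact fun h => h1 (congrArg Subtype.val h))
        (by rw [← map_pow, e.map_eq_one_iff]; exact Subtype.ext h2)
    intro x hx y hy hx1 hy1 hx2 hy2
    exact congrArg Subtype.val (e.injective ((key x hx hx1 hx2).trans (key y hy hy1 hy2).symm))) h
  exact Or.inr (Cfsg.Lib.Perm.exists_section_sl23 e' hg ho hc)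

end Cfsg.Agent.S0106
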