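import Cfsg.Statements.S0114
import Cfsg.Agent.Trans.MaxClassTwo

set_option autoImplicit false
open Cfsg

namespace Cfsg.Agent.S0114

open Cfsg.Lib.Trans Cfsg.Lib.Solv Subgroup


/-- The central quotient of a 2-group of maximal class is dihedral. -/
theorem result {X : Type*} [Group X] [Finite X] (n : ℕ) (hn : 3 ≤ n) (hX : Nat.card X = 2 ^ n) (hc : Group.nilpotencyClass X = n - 1) : Nonempty (X ⧸ Subgroup.center X ≃* DihedralGroup (2 ^ (n - 2))) := by
  have : Fact (Nat.Prime 2) := ⟨Nat.prime_two⟩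
  obtain ⟨m, rfl⟩ := Nat.exists_eq_add_of_le' hn
  have hl := (nilpotencyClass_eq_iff_lowerCentralSeries_ne_bot (m := m + 1) hX).mp hc
  have hZ := MaxClass.card_center hX hl (by omega)
  have hna := MaxClass.not_isMulCommutative hl (by omega)
  obtain ⟨a, b, ha, hb, h⟩ := generators_of_commutator_index hX (MaxClass.index_commutator hX hl)
  have hai : (zpowers a).index = 2 :=
    PG.index_eq_of_card_eq_mul (by rw [hX, Nat.card_zpowers, ha]; ring)
  have hco := PG.isCoatom_of_index_prime (hai ▸ Nat.prime_two : (zpowers a).index.Prime)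
  have hZa : center X ≤ zpowers a := by
    intro w hw
    by_contra hwa
    exact hna ⟨⟨mul_comm_of_sup_zpowers_eq_top (PG.sup_zpowers_eq_top_of_isCoatom hco hwa)
      (mem_center_iff.mp hw a)⟩⟩
  have hs := QuotientGroup.mk'_surjective (center X)
  have hcm : (zpowers (QuotientGroup.mk' (center X) a)).comap (QuotientGroup.mk' (center X)) =
      zpowers a := by
    rw [← MonoidHom.map_zpowers, comap_map_eq, QuotientGroup.ker_mk', sup_eq_left.mpr hZa]
  have hq : Nat.card (X ⧸ center X) = 2 * 2 ^ (m + 1) :=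
    PG.index_eq_of_card_eq_mul (by rw [hX, hZ]; ring)
  have hoa : orderOf (QuotientGroup.mk' (center X) a) = 2 ^ (m + 1) := by
    have h1 := (zpowers (QuotientGroup.mk' (center X) a)).index_mul_card
    rw [← index_comap_of_surjective _ hs, hcm, hai, hq, Nat.card_zpowers] at h1
    exact Nat.eq_of_mul_eq_mul_left two_pos h1
  have hz : (QuotientGroup.mk' (center X) a) ^ (2 * 2 ^ m) = 1 := by
    rw [← pow_succ', ← hoa, pow_orderOf_eq_one]
  refine nonempty_mulEquiv_dihedral (QuotientGroup.mk' (center X) a)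
    (QuotientGroup.mk' (center X) b) hoa (fun h1 => hb (hcm ▸ h1)) ?_ ?_ hq
  · rw [← map_inv, ← map_mul, ← map_mul]
    rcases h with ⟨-, h⟩ | ⟨-, h⟩ | ⟨-, -, h⟩
    · rw [h, map_inv]
    · rw [h, map_inv]
    · rw [h, map_zpow, zpow_sub, zpow_one, show (2 * 2 ^ m : ℤ) = ((2 * 2 ^ m : ℕ) : ℤ) by push_cast; rfl,
        zpow_natCast, hz, one_mul]
  · rw [← map_mul, ← sq]
    rcases h with ⟨h, -⟩ | ⟨h, -⟩ | ⟨-, h, -⟩
    · rw [h, map_one]
    · rw [h, map_pow, hz]
    · rw [h, map_one]

end Cfsg.Agent.S0114
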