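import Cfsg.Statements.S0115
import Cfsg.Agent.Trans.MaxClassTwo

set_option autoImplicit false
open Cfsg

namespace Cfsg.Agent.S0115

open Cfsg.Lib.Trans


/-- A 2-group of order 2^n, n ≥ 3, is of maximal class exactly when its commutator quotient is a Klein four-group. -/
theorem result {X : Type*} [Group X] [Finite X] (n : ℕ) (hn : 3 ≤ n) (hX : Nat.card X = 2 ^ n) : Group.nilpotencyClass X = n - 1 ↔ IsKleinFour (X ⧸ commutator X) := by
  have : Fact (Nat.Prime 2) := ⟨Nat.prime_two⟩
  obtain ⟨m, rfl⟩ := Nat.exists_eq_add_of_le' hn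
  refine (nilpotencyClass_eq_iff_lowerCentralSeries_ne_bot (m := m + 1) hX).trans ⟨fun hl => ?_, fun h => ?_⟩
  · have hq : Nat.card (X ⧸ commutator X) = 2 ^ 2 := MaxClass.index_commutator hX hl
    exact ⟨hq, (not_isCyclic_iff_exponent_eq_prime Nat.prime_two hq).mp
      (MaxClass.not_isCyclic_quotient hX hl (by omega))⟩
  · exact lowerCentralSeries_ne_bot_of_commutator_index hX h.card_four

end Cfsg.Agent.S0115
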