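import Cfsg.Statements.S0122
import Cfsg.Agent.FT.BG4.Elem
import Cfsg.Agent.Trans.ClassTwo

set_option autoImplicit false
open Cfsg

namespace Cfsg.Agent.S0122

open Subgroup Cfsg.Lib.Solv.PG Cfsg.Lib.FT.BG4 Cfsg.Lib.Trans
open scoped commutatorElement

universe u

section

variable {G : Type*} [Group G] [Finite G] {p : ℕ} [hp : Fact p.Prime] (hG : IsPGroup p G)
  {Z W : Subgroup G} [Z.Normal] [W.Normal] (hZ : IsElementaryAbelian p Z)
  (hZc : Nat.card Z = p ^ 3) (hWZ : W ≤ Z) (hWc : Nat.card W = p ^ 2)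
  (hmax : ∀ x ∈ centralizer (Z : Set G), x ^ p = 1 → x ∈ Z)

omit [Z.Normal] [W.Normal] in
include hZc hWZ hWc hmax in
theorem mem_of_centralizes {z : G} (hz : z ∈ Z) (hzW : z ∉ W) {x : G}
    (h1 : x ∈ centralizer (W : Set G)) (h2 : x ∈ centralizer {z}) (hx : x ^ p = 1) : x ∈ Z := by
  apply hmax x _ hx
  have hsup := sup_zpowers_eq_of_card_eq_prime_mul hp.out hWZ (by rw [hZc, hWc]; ring) hz hzW
  have : Z ≤ centralizer {x} := by
    rw [← hsup]
    refine sup_le (fun w hw => mem_centralizer_singleton_iff.mpr (mem_centralizer_iff.mp h1 w hw)) ?_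
    rw [zpowers_le, mem_centralizer_singleton_iff]
    exact (mem_centralizer_singleton_iff.mp h2).symm
  exact mem_centralizer_iff.mpr fun y hy => mem_centralizer_singleton_iff.mp (this hy)

include hG hZc hWZ hWc in
theorem comm_mem {z : G} (hz : z ∈ Z) (g : G) : ⁅g, z⁆ ∈ W := by
  have hcomm := (commutator_le_of_card_eq_prime_mul (isPGroup_top hG) (hG.to_subgroup Z)
    le_normalizer_of_normal le_normalizer_of_normal hWZ (by rw [hZc, hWc]; ring)).1
  rw [← commutatorElement_inv]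
  exact W.inv_mem (hcomm (commutator_mem_commutator hz (mem_top g)))

include hG hZ hZc hWZ hWc hmax in
theorem inf_eq {E : Subgroup G} (hE : IsElementaryAbelian p E) (hEc : Nat.card E = p ^ 4) :
    E ⊓ Z = W := by
  have hp1 := hp.out.one_lt
  have hp0 := hp.out.pos
  have hEm := hE.1
  have hZm := hZ.1
  have hWZ' : W < Z := lt_of_le_of_ne hWZ fun h => by
    rw [h, hZc] at hWc
    exact absurd (Nat.pow_right_injective hp1 hWc) (by norm_num)
  obtain ⟨z, hz, hzW⟩ := SetLike.exists_of_lt hWZ'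
  have hZE : ¬ Z ≤ E := by
    intro h
    have : E ≤ Z := fun e he => hmax e (centralizer_le h (E.le_centralizer he)) (hE.2 e he)
    have := card_le_of_le this
    rw [hEc, hZc, Nat.pow_le_pow_iff_right hp1] at this
    omega
  set E₁ := E ⊓ centralizer (W : Set G) with hE₁
  have hE₁c : p ^ 3 ≤ Nat.card E₁ := by
    have := card_le_mul_card_inf_centralizer hG W hWc.le E
    rw [hEc, pow_succ'] at this
    exact Nat.le_of_mul_le_mul_left this hp0
  have hE₁z : E₁ ⊓ centralizer {z} ≤ E ⊓ Z := fun x hx =>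
    ⟨hx.1.1, mem_of_centralizes hZc hWZ hWc hmax hz hzW hx.1.2 hx.2 (hE.2 x hx.1.1)⟩
  have hW' : p ^ 2 ≤ Nat.card (E ⊓ Z : Subgroup G) := by
    by_cases hEW : E ≤ centralizer (W : Set G)
    · have h1 := card_le_card_mul_card_inf_centralizer (H := E₁) (S := W) (v := z)
        fun x _ => comm_mem hG hZc hWZ hWc hz x
      rw [hE₁, inf_eq_left.mpr hEW, hEc, hWc, show 4 = 2 + 2 by rfl, pow_add] at h1
      refine (Nat.le_of_mul_le_mul_left h1 (pow_pos hp0 2)).trans (card_le_of_le ?_)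
      rwa [hE₁, inf_eq_left.mpr hEW] at hE₁z
    · obtain ⟨e₀, he₀, he₀W⟩ := SetLike.not_le_iff_exists.mp hEW
      have hY : Nat.card (W ⊓ centralizer {e₀} : Subgroup G) ≤ p := by
        have hlt : W ⊓ centralizer {e₀} < W := lt_of_le_of_ne inf_le_left fun h => he₀W (by
          rw [mem_centralizer_iff]
          intro w hw
          rw [← h] at hw
          exact mem_centralizer_singleton_iff.mp hw.2)
        have := prime_mul_card_le_of_lt (hG.to_subgroup W) hlt
        rw [hWc, sq] at this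
        exact Nat.le_of_mul_le_mul_left this hp0
      have h1 := card_le_card_mul_card_inf_centralizer (H := E₁) (S := W ⊓ centralizer {e₀})
        (v := z) fun x hx => ⟨comm_mem hG hZc hWZ hWc hz x, by
          refine mem_centralizer_singleton_iff.mpr ?_
          have hw := comm_mem hG hZc hWZ hWc hz e₀
          set w := ⁅e₀, z⁆ with hwdef
          have e1 : e₀ * z = w * z * e₀ := by rw [hwdef, commutatorElement_def]; group
          have e2 : x * e₀ = e₀ * x := mul_comm_of_mem hx.1 he₀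
          have e3 : w * x = x * w := mem_centralizer_iff.mp hx.2 w hw
          have e4 : w * ⁅x, z⁆ = ⁅x, z⁆ * w :=
            mul_comm_of_mem (hWZ hw) (hWZ (comm_mem hG hZc hWZ hWc hz x))
          have e5 : e₀ * ⁅x, z⁆ * e₀⁻¹ = ⁅x, w * z⁆ := by
            rw [conjugate_commutatorElement, ← e2, e1]; simp
          have e6 : ⁅x, w * z⁆ = w * ⁅x, z⁆ * w⁻¹ := by
            rw [commutatorElement_def, commutatorElement_def, ← mul_assoc x w z, ← e3]; group
          rw [e6, e4, mul_inv_cancel_right] at e5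
          exact (mul_inv_eq_iff_eq_mul.mp e5).symm⟩
      have h2 : p * p ^ 2 ≤ p * Nat.card (E ⊓ Z : Subgroup G) := by
        rw [← pow_succ']
        exact hE₁c.trans (h1.trans (Nat.mul_le_mul hY (card_le_of_le hE₁z)))
      exact Nat.le_of_mul_le_mul_left h2 hp0
  have hlt : E ⊓ Z < Z := lt_of_le_of_ne inf_le_right fun h => hZE (h ▸ inf_le_left)
  have hW'' : Nat.card (E ⊓ Z : Subgroup G) = p ^ 2 := by
    have := prime_mul_card_le_of_lt (hG.to_subgroup Z) hlt
    rw [hZc, pow_succ'] at this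
    exact le_antisymm (Nat.le_of_mul_le_mul_left this hp0) hW'
  refine (eq_of_le_of_card_eq ?_ (hWc.trans hW''.symm)).symm
  by_contra hne
  have hsup : (E ⊓ Z) ⊔ W = Z := by
    rcases eq_or_eq_of_card_eq_prime_mul hp.out (M := E ⊓ Z) (K := Z) (L := (E ⊓ Z) ⊔ W)
      (by rw [hZc, hW'']; ring) le_sup_left (sup_le inf_le_right hWZ) with h | h
    · exact absurd (h ▸ le_sup_right) hne
    · exact h
  have h3 : E₁ ≤ Z := by
    intro x hx
    apply hmax x _ (hE.2 x hx.1)
    have : Z ≤ centralizer {x} := by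
      rw [← hsup]
      exact sup_le (fun y hy => mem_centralizer_singleton_iff.mpr (mul_comm_of_mem hy.1 hx.1))
        (fun w hw => mem_centralizer_singleton_iff.mpr (mem_centralizer_iff.mp hx.2 w hw))
    exact mem_centralizer_iff.mpr fun y hy => mem_centralizer_singleton_iff.mp (this hy)
  have h4 : E₁ = Z := eq_of_le_of_card_ge h3 (hZc.le.trans hE₁c)
  exact hZE (h4 ▸ inf_le_left)

include hG hZ hZc hWZ hWc hmax in
theorem eq_of_normalizes (hp2 : p ≠ 2) {E F : Subgroup G} (hE : IsElementaryAbelian p E)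
    (hEc : Nat.card E = p ^ 4) (hF : IsElementaryAbelian p F) (hFc : Nat.card F = p ^ 4)
    (hEF : E ≤ normalizer (F : Set G)) (hFE : F ≤ normalizer (E : Set G)) : E = F := by
  have hp1 := hp.out.one_lt
  have hp0 := hp.out.pos
  have hEm := hE.1
  have hFm := hF.1
  have h1 := inf_eq hG hZ hZc hWZ hWc hmax hE hEc
  have h2 := inf_eq hG hZ hZc hWZ hWc hmax hF hFc
  have hWZ' : W < Z := lt_of_le_of_ne hWZ fun h => by
    rw [h, hZc] at hWc
    exact absurd (Nat.pow_right_injective hp1 hWc) (by norm_num)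
  obtain ⟨z, hz, hzW⟩ := SetLike.exists_of_lt hWZ'
  by_contra hne
  have hlt : E < E ⊔ F := lt_of_le_of_ne le_sup_left fun h =>
    hne (eq_of_le_of_card_eq (h ▸ le_sup_right) (hFc.trans hEc.symm)).symm
  have hexp : ∀ x ∈ E ⊔ F, x ^ p = 1 := by
    intro x hx
    obtain ⟨e, he, f, hf, rfl⟩ := (mem_sup_iff_of_le_normalizer hFE).mp hx
    have c1 : ⁅f, e⁆ ∈ E := le_normalizer_iff_commutator_le_right.mp hFE
      (commutator_mem_commutator hf he)
    have c2 : ⁅f, e⁆ ∈ F := le_normalizer_iff_commutator_le_left.mp hEF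
      (commutator_mem_commutator hf he)
    rw [mul_pow_of_odd_of_pow_commute (mul_comm_of_mem c1 he) (mul_comm_of_mem c2 hf)
      (hp.out.odd_of_ne_two hp2) (by rw [hF.2 f hf]; exact Commute.one_left _), hE.2 e he,
      hF.2 f hf, one_mul]
  have hCW : E ⊔ F ≤ centralizer (W : Set G) := sup_le
    (E.le_centralizer.trans (centralizer_le (show W ≤ E from h1 ▸ inf_le_left)))
    (F.le_centralizer.trans (centralizer_le (show W ≤ F from h2 ▸ inf_le_left)))
  have h3 : (E ⊔ F) ⊓ centralizer {z} ≤ Z := fun x hx =>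
    mem_of_centralizes hZc hWZ hWc hmax hz hzW (hCW hx.1) hx.2 (hexp x hx.1)
  have h4 := card_le_card_mul_card_inf_centralizer (H := E ⊔ F) (S := W) (v := z)
    fun x _ => comm_mem hG hZc hWZ hWc hz x
  have h5 := prime_mul_card_le_of_lt (hG.to_subgroup _) hlt
  have h6 : (E ⊔ F) ⊓ centralizer {z} = Z := by
    refine eq_of_le_of_card_ge h3 ?_
    have : p ^ 2 * p ^ 3 ≤ p ^ 2 * Nat.card ((E ⊔ F) ⊓ centralizer {z} : Subgroup G) := by
      rw [← hWc, ← hZc]
      refine le_trans (le_of_eq ?_) (h5.trans h4)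
      rw [hWc, hZc, hEc]; ring
    rw [hZc]
    exact Nat.le_of_mul_le_mul_left this (pow_pos hp0 2)
  have h7 : E ⊓ F ≤ W := by
    rw [← h1]
    intro x hx
    refine ⟨hx.1, hmax x ?_ (hE.2 x hx.1)⟩
    have : E ⊔ F ≤ centralizer {x} :=
      sup_le (fun y hy => mem_centralizer_singleton_iff.mpr (mul_comm_of_mem hy hx.1))
        (fun y hy => mem_centralizer_singleton_iff.mpr (mul_comm_of_mem hy hx.2))
    refine mem_centralizer_iff.mpr fun y hy => mem_centralizer_singleton_iff.mp (this ?_)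
    rw [← h6] at hy
    exact hy.1
  have h8 := card_sup_mul_card_inf hFE
  rw [h6, hWc, hZc] at h4
  have h9 := Nat.mul_le_mul h4 ((card_le_of_le h7).trans hWc.le)
  rw [h8, hEc, hFc, ← pow_add, ← pow_add, ← pow_add, Nat.pow_le_pow_iff_right hp1] at h9
  omega

end

theorem main {p : ℕ} [hpp : Fact p.Prime] (hp : p ≠ 2) (n : ℕ) : ∀ (G : Type u) [Group G] [Finite G],
    Nat.card G = n → IsPGroup p G → ∀ E : Subgroup G, IsElementaryAbelian p E →
    Nat.card E = p ^ 4 →
    ∃ A : Subgroup G, A.Normal ∧ IsElementaryAbelian p A ∧ Nat.card A = p ^ 4 := by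
  induction n using Nat.strong_induction_on with
  | _ n ih =>
  intro G _ _ hn hG E hE hEc
  by_cases hEt : E = ⊤
  · exact ⟨E, hEt ▸ inferInstance, hE, hEc⟩
  obtain ⟨M, hMn, hEM, hMi⟩ := exists_normal_index_eq_prime hG hEt
  have hMlt : Nat.card M < n := by
    rw [← hn, ← card_top (G := G)]
    refine card_lt_card_of_lt (lt_top_iff_ne_top.mpr ?_)
    rintro rfl
    rw [index_top] at hMi
    exact hpp.out.one_lt.ne hMi
  obtain ⟨A₀, hA₀n, hA₀, hA₀c⟩ := ih _ hMlt M rfl (hG.to_subgroup M) (E.subgroupOf M)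
    (isElementaryAbelian_subgroupOf hE M)
    (by rw [← hEc]; exact Nat.card_congr (subgroupOfEquivOfLe hEM).toEquiv)
  set A := A₀.map M.subtype with hAdef
  have hA : IsElementaryAbelian p A := isElementaryAbelian_map hA₀ _
  have hAc : Nat.card A = p ^ 4 := by rw [hAdef, card_map_of_injective M.subtype_injective, hA₀c]
  have hAM : A ≤ M := map_subtype_le _
  have hMA : M ≤ normalizer (A : Set G) := by
    rw [le_normalizer_iff]
    rintro m hm _ ⟨a, ha, rfl⟩
    exact ⟨_, hA₀n.conj_mem a ha ⟨m, hm⟩, rfl⟩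
  have hr : ¬ PRankLE p 2 G := not_pRankLE_of_card hE
    (hEc ▸ Nat.pow_le_pow_right hpp.out.pos (by norm_num))
  obtain ⟨B, hBn, hB, hBc⟩ := exists_normal_elementary_card_cube hp hG hr
  obtain ⟨Z, hBZ, hZn, hZ, hmax⟩ := exists_maximal_normal_elementary_ge hBn hB
  by_cases hZ4 : p ^ 4 ≤ Nat.card Z
  · obtain ⟨K, hKn, hKZ, hKc⟩ := exists_normal_card_eq hG Z 4 hZ4
    exact ⟨K, hKn, isElementaryAbelian_of_le hZ hKZ, hKc⟩
  have hZc : Nat.card Z = p ^ 3 := le_antisymm
    (le_pow_of_lt_pow_succ (hG.to_subgroup Z).exists_card_eq (not_le.mp hZ4))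
    (hBc ▸ card_le_of_le hBZ)
  obtain ⟨W, hWn, hWZ, hWc⟩ := exists_normal_card_eq hG Z 2
    (hZc ▸ Nat.pow_le_pow_right hpp.out.pos (by norm_num))
  refine ⟨A, ⟨fun a ha g => ?_⟩, hA, hAc⟩
  have hFM : A.map (MulAut.conj g).toMonoidHom ≤ M := by
    rintro _ ⟨a, ha, rfl⟩
    exact hMn.conj_mem a (hAM ha) g
  have hMF : M ≤ normalizer ((A.map (MulAut.conj g).toMonoidHom : Subgroup G) : Set G) := by
    rw [le_normalizer_iff]
    rintro m hm _ ⟨a, ha, rfl⟩
    refine ⟨(g⁻¹ * m * g⁻¹⁻¹) * a * (g⁻¹ * m * g⁻¹⁻¹)⁻¹,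
      (mem_normalizer_iff.mp (hMA (hMn.conj_mem m hm g⁻¹)) a).mp ha, ?_⟩
    simp [mul_assoc]
  have := eq_of_normalizes hG hZ hZc hWZ hWc
    (fun x hx hxp => mem_of_maximal_normal_elementary hp hG hZ hmax hx hxp) hp hA hAc
    (isElementaryAbelian_map hA (MulAut.conj g).toMonoidHom)
    (by rw [card_map_of_injective (MulAut.conj g).injective, hAc]) (hAM.trans hMF) (hFM.trans hMA)
  rw [this]
  exact ⟨a, ha, rfl⟩

/-- For odd p, a p-group containing an elementary abelian subgroup of order p^4 has a normal elementary abelian subgroup of order p^4. -/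
theorem result {G : Type*} [Group G] [Finite G] {p : ℕ} [Fact p.Prime] (hp : p ≠ 2) (hG : IsPGroup p G) (E : Subgroup G) (hE : Cfsg.IsElementaryAbelian p E) (hE4 : Nat.card E = p ^ 4) : ∃ A : Subgroup G, A.Normal ∧ Cfsg.IsElementaryAbelian p A ∧ Nat.card A = p ^ 4 := by
  exact main hp _ G rfl hG E hE hE4

end Cfsg.Agent.S0122
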