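import Cfsg.Statements.S0125
-- import your own Cfsg.Agent.* helpers here

set_option autoImplicit false
open Cfsg

namespace Cfsg.Agent.S0125

/-- A Sylow subgroup normalizing `K` meets `K` in a Sylow subgroup of `K`. -/
theorem not_dvd_relIndex_of_le_normalizer {G : Type*} [Group G] [Finite G] {p : ℕ} [Fact p.Prime]
    (R : Sylow p G) (K : Subgroup G) (hK : (R : Subgroup G) ≤ Subgroup.normalizer (K : Set G)) :
    ¬ p ∣ (R : Subgroup G).relIndex K := by
  intro h
  set L : Subgroup G := (R : Subgroup G) ⊔ K with hL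
  have hn : (K.subgroupOf L).Normal := by
    rw [Subgroup.normal_subgroupOf_iff_le_normalizer le_sup_right]
    exact sup_le hK Subgroup.le_normalizer
  have h1 : K.relIndex L = K.relIndex R := by
    have := Subgroup.relIndex_sup_right ((R : Subgroup G).subgroupOf L) (K.subgroupOf L)
    rw [← Subgroup.subgroupOf_sup le_sup_left le_sup_right, Subgroup.relIndex_subgroupOf le_sup_left] at this
    exact (Subgroup.relIndex_subgroupOf le_rfl).symm.trans this
  have h2 := Subgroup.relIndex_inf_mul_relIndex (R : Subgroup G) K L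
  have h3 := Subgroup.relIndex_inf_mul_relIndex K (R : Subgroup G) L
  rw [inf_of_le_left le_sup_right] at h2
  rw [inf_of_le_left le_sup_left, inf_comm, ← h2, h1, mul_comm] at h3
  have h4 : K.relIndex R ≠ 0 := Subgroup.index_ne_zero_of_finite
  have h5 : (R : Subgroup G).relIndex L = (R : Subgroup G).relIndex K := Nat.eq_of_mul_eq_mul_right (Nat.pos_of_ne_zero h4) h3
  apply R.not_dvd_index
  exact (h5 ▸ h).trans (Subgroup.relIndex_dvd_index_of_le le_sup_left)


/-- The centralizer of a self-centralizing normal subgroup A of a Sylow p-subgroup is the direct product of A with a normal p'-subgroup. -/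
theorem result {G : Type*} [Group G] [Finite G] {p : ℕ} [Fact p.Prime] (R : Sylow p G) (A : Subgroup G) (hAR : A ≤ (R : Subgroup G)) (hAn : (R : Subgroup G) ≤ Subgroup.normalizer (A : Set G)) (hC : (R : Subgroup G) ⊓ Subgroup.centralizer (A : Set G) = A) : ∃ H : Subgroup G, H ≤ Subgroup.centralizer (A : Set G) ∧ Nat.Coprime (Nat.card H) p ∧ Subgroup.centralizer (A : Set G) ≤ Subgroup.normalizer (H : Set G) ∧ H ⊓ A = ⊥ ∧ H ⊔ A = Subgroup.centralizer (A : Set G) := by
  set C := Subgroup.centralizer (A : Set G) with hCdef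
  have hAC : A ≤ C := hC ▸ inf_le_right
  have hRC : (R : Subgroup G) ≤ Subgroup.normalizer (C : Set G) := by
    intro r hr
    have hr' := hAn hr
    rw [Subgroup.mem_normalizer_iff] at hr' ⊢
    have key : ∀ s : G, (∀ a, a ∈ A ↔ s * a * s⁻¹ ∈ A) → ∀ c, s * c * s⁻¹ ∈ C → c ∈ C := by
      intro s hs c hc
      rw [hCdef, Subgroup.mem_centralizer_iff] at hc ⊢
      intro a ha
      have := hc _ ((hs a).1 ha)
      have h2 : s * (a * c) * s⁻¹ = s * (c * a) * s⁻¹ := by
        calc s * (a * c) * s⁻¹ = s * a * s⁻¹ * (s * c * s⁻¹) := by group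
          _ = s * c * s⁻¹ * (s * a * s⁻¹) := this
          _ = _ := by group
      simpa using h2
    intro c
    constructor
    · intro hc
      apply key r⁻¹
      · intro a
        have := hr' (r⁻¹ * a * r⁻¹⁻¹)
        rw [this]
        simp [mul_assoc]
      · simpa [mul_assoc] using hc
    · exact key r hr' c
  have hnd : ¬ p ∣ (A.subgroupOf C).index := by
    have := not_dvd_relIndex_of_le_normalizer R C hRC
    rw [← Subgroup.inf_relIndex_right, hC] at this
    exact this
  have hpA : IsPGroup p (A.subgroupOf C) := (R.2.to_le hAR).comap_subtype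
  let P : Sylow p C := hpA.toSylow hnd
  have hP : Subgroup.normalizer (P : Set C) ≤ Subgroup.centralizer (P : Set C) := by
    intro c _
    rw [Subgroup.mem_centralizer_iff]
    intro a ha
    apply Subtype.ext
    exact c.2 a ha
  have hcomp := MonoidHom.ker_transferSylow_isComplement' P hP
  set K := (MonoidHom.transferSylow P hP).ker with hK
  have hKn : K.Normal := inferInstance
  refine ⟨K.map C.subtype, Subgroup.map_subtype_le _, ?_, ?_, ?_, ?_⟩
  · rw [Subgroup.card_map_of_injective C.subtype_injective]
    exact ((Nat.Prime.coprime_iff_not_dvd Fact.out).2 (MonoidHom.not_dvd_card_ker_transferSylow P hP)).symm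
  · rw [← Subgroup.normal_subgroupOf_iff_le_normalizer (Subgroup.map_subtype_le _)]
    rw [Subgroup.subgroupOf, Subgroup.comap_map_eq_self_of_injective C.subtype_injective]
    exact hKn
  · rw [eq_bot_iff]
    rintro x ⟨⟨y, hy, rfl⟩, hx⟩
    have : y ∈ K ⊓ (P : Subgroup C) := ⟨hy, hx⟩
    rw [hcomp.disjoint.eq_bot] at this
    rw [Subgroup.mem_bot] at this
    simp [this]
  · have := congrArg (Subgroup.map C.subtype) hcomp.sup_eq_top
    rw [Subgroup.map_sup, ← MonoidHom.range_eq_map, Subgroup.range_subtype] at this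
    have h2 : (P : Subgroup C).map C.subtype = A := Subgroup.map_subgroupOf_eq_of_le hAC
    rw [h2] at this
    exact this

end Cfsg.Agent.S0125
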