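import Cfsg.Statements.S0127
import Cfsg.Agent.FT.BG4.Elem
import Cfsg.Agent.Trans.SmallClass

set_option autoImplicit false
open Cfsg

namespace Cfsg.Agent.S0127

open Cfsg.Lib.Trans Cfsg.Lib.Solv.PG Cfsg.Lib.FT.BG4 Subgroup
open scoped commutatorElement

theorem card_abelianOmega_le {R : Type*} [Group R] [Finite R] {p : ℕ} (hp : 0 < p)
    (C : Subgroup R) [IsCyclic C] [IsMulCommutative C] : Nat.card (abelianOmega p C) ≤ p := by
  classical
  have := Fintype.ofFinite C
  have h := IsCyclic.card_pow_eq_one_le (α := C) hp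
  rw [← Fintype.card_subtype, ← Nat.card_eq_fintype_card] at h
  refine le_trans (Nat.card_le_card_of_injective (β := {a : C // a ^ p = 1})
    (fun a => ⟨⟨a.1, a.2.1⟩, Subtype.ext a.2.2⟩) ?_) h
  intro a b hab
  exact Subtype.ext (congrArg (fun x => (x.1 : R)) hab)

theorem abelianOmega_le_center {R : Type*} [Group R] [Finite R] {p : ℕ} [hp : Fact p.Prime]
    (hR : IsPGroup p R) (C : Subgroup R) [C.Normal] [IsCyclic C] [IsMulCommutative C] :
    abelianOmega p C ≤ center R := by
  have := abelianOmega_normal (p := p) C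
  have h := card_abelianOmega_le hp.out.pos C
  rcases (hR.to_subgroup (abelianOmega p C)).card_eq_or_dvd with h1 | h1
  · rw [card_eq_one.mp h1]; exact bot_le
  · exact le_center_of_card_eq_prime hR _ (le_antisymm h (Nat.le_of_dvd Nat.card_pos h1))

/-- For odd p, in a non-cyclic p-group with a cyclic subgroup of index p, the elements of order dividing p generate an elementary abelian subgroup of order p^2. -/
theorem result {R : Type*} [Group R] [Finite R] {p : ℕ} [hpp : Fact p.Prime] (hp : p ≠ 2) (hR : IsPGroup p R) (hnc : ¬ IsCyclic R) (C : Subgroup R) (hC : IsCyclic C) (hCi : C.index = p) : Cfsg.IsElementaryAbelian p (Subgroup.closure {x : R | x ^ p = 1}) ∧ Nat.card (Subgroup.closure {x : R | x ^ p = 1}) = p ^ 2 := by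
  have hCn := normal_of_index_eq_prime hR hCi
  have hCc : IsMulCommutative C := IsCyclic.isMulCommutative
  set Z := abelianOmega p C with hZ
  have hZc : Z ≤ center R := abelianOmega_le_center hR C
  have hZn : Z.Normal := abelianOmega_normal C
  have h1 : ∀ y : R, ∀ c ∈ C, ⁅y, c⁆ ∈ Z := by
    intro y c hc
    have hit : ∀ (k : ℕ) (b : C), (((MulAut.conjNormal y : MulAut C).toMonoidHom^[k] b : C) : R) =
        y ^ k * b * (y ^ k)⁻¹ := by
      intro k b
      induction k with
      | zero => simp
      | succ k ih =>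
        rw [Function.iterate_succ_apply']
        change y * ((MulAut.conjNormal y : MulAut C).toMonoidHom^[k] b : C) * y⁻¹ = _
        rw [ih, pow_succ']; group
    open scoped IsMulCommutative in
    have := pow_eq_one_of_aut_fixing_omega hp (hR.to_subgroup C)
      (MulAut.conjNormal y : MulAut C).toMonoidHom (fun a => Subtype.ext (by
        rw [hit, mul_comm_of_mem (pow_mem_of_index_eq_prime hR hCi y) a.2]; simp))
      (fun a ha => Subtype.ext (by
        change y * a * y⁻¹ = a
        rw [mem_center_iff.mp (hZc ⟨a.2, congrArg Subtype.val ha⟩) y]; simp)) ⟨c, hc⟩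
    exact ⟨C.mul_mem (hCn.conj_mem c hc y) (C.inv_mem hc), congrArg Subtype.val this⟩
  have hder : _root_.commutator R ≤ Z := by
    have hco := isCoatom_of_index_prime (hCi ▸ hpp.out : C.index.Prime)
    obtain ⟨y, -, hy⟩ := SetLike.exists_of_lt hco.1.lt_top
    have htop := sup_zpowers_eq_top_of_isCoatom hco hy
    have hCW : C ≤ (center (R ⧸ Z)).comap (QuotientGroup.mk' Z) := by
      intro c hc
      rw [mem_comap, mem_center_iff]
      intro g
      obtain ⟨g, rfl⟩ := QuotientGroup.mk'_surjective Z g
      rw [← commutatorElement_eq_one_iff_mul_comm, ← map_commutatorElement]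
      exact (QuotientGroup.eq_one_iff _).mpr (h1 g c hc)
    have h2 : (centralizer {QuotientGroup.mk' Z y}).comap (QuotientGroup.mk' Z) = ⊤ := by
      rw [eq_top_iff, ← htop]
      refine sup_le (hCW.trans (comap_mono (center_le_centralizer _))) ?_
      rw [zpowers_le, mem_comap, mem_centralizer_singleton_iff]
    have h3 : (center (R ⧸ Z)).comap (QuotientGroup.mk' Z) = ⊤ := by
      rw [eq_top_iff, ← htop]
      refine sup_le hCW ?_
      rw [zpowers_le, mem_comap, mem_center_iff]
      intro g
      obtain ⟨g, rfl⟩ := QuotientGroup.mk'_surjective Z g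
      exact mem_centralizer_singleton_iff.mp (mem_comap.mp (h2 ▸ mem_top g))
    rw [commutator_def, commutator_le]
    intro a _ b _
    rw [← QuotientGroup.eq_one_iff]
    change QuotientGroup.mk' Z ⁅a, b⁆ = 1
    rw [map_commutatorElement, commutatorElement_eq_one_iff_mul_comm]
    exact mem_center_iff.mp (mem_comap.mp (h3 ▸ mem_top b)) _
  have hcl : ⁅_root_.commutator R, (⊤ : Subgroup R)⁆ = ⊥ :=
    commutator_top_right_eq_bot_iff_le_center.mpr (hder.trans hZc)
  let φ : R →* R := MonoidHom.mk' (fun x => x ^ p)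
    (mul_pow_prime_of_class_two Fact.out hp hcl fun c hc => (hder hc).2)
  have hker : closure {x : R | x ^ p = 1} = φ.ker := closure_eq φ.ker
  have hrange : φ.range ≤ C := by
    rintro _ ⟨x, rfl⟩
    exact pow_mem_of_index_eq_prime hR hCi x
  have hcardR : Nat.card R = p * Nat.card C := by rw [← hCi, index_mul_card]
  have hne : φ.range ≠ C := by
    intro h
    apply hnc
    obtain ⟨c, hc⟩ := IsCyclic.exists_ofOrder_eq_natCard (α := C)
    obtain ⟨x, hx⟩ : (c : R) ∈ φ.range := by rw [h]; exact c.2
    change x ^ p = c at hx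
    by_cases hx1 : x = 1
    · have : Nat.card C = 1 := by
        rw [← hc, orderOf_eq_one_iff]
        ext; rw [← hx, hx1, one_pow]; rfl
      rw [this, mul_one] at hcardR
      exact isCyclic_of_prime_card hcardR
    · apply isCyclic_of_orderOf_eq_card x
      have hd := hR.dvd_orderOf hx1
      rw [hcardR, ← hc, ← orderOf_coe, ← hx, orderOf_pow_of_dvd hpp.out.ne_zero hd,
        Nat.mul_div_cancel' hd]
  have h4 := prime_mul_card_le_of_lt (hR.to_subgroup C) (lt_of_le_of_ne hrange hne)
  have h5 : Nat.card C ≤ p * Nat.card φ.range := by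
    have e1 := (φ.domRestrict C).ker.card_mul_index
    rw [index_ker] at e1
    rw [← e1]
    refine Nat.mul_le_mul ?_ ?_
    · refine le_trans ?_ (card_abelianOmega_le hpp.out.pos C)
      refine Nat.card_le_card_of_injective (fun a => ⟨a.1.1, a.1.2, a.2⟩) ?_
      intro a b hab
      exact Subtype.ext (Subtype.ext (congrArg (fun x : abelianOmega p C => (x : R)) hab))
    · apply card_le_of_le
      rintro _ ⟨x, rfl⟩
      exact ⟨x, rfl⟩
  have h6 := φ.ker.card_mul_index
  rw [index_ker, hcardR, le_antisymm h5 h4, ← mul_assoc] at h6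
  have h7 : Nat.card φ.ker = p ^ 2 := by
    rw [sq]; exact Nat.eq_of_mul_eq_mul_right Nat.card_pos h6
  rw [hker]
  exact ⟨⟨IsPGroup.isMulCommutative_of_card_eq_prime_sq h7, fun a ha => ha⟩, h7⟩

end Cfsg.Agent.S0127
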