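import Cfsg.Statements.S0129
import Cfsg.Agent.FT.BG4.Elem

set_option autoImplicit false
open Cfsg

namespace Cfsg.Agent.S0129

open Subgroup Cfsg.Lib.Solv.PG Cfsg.Lib.FT.BG4
open scoped commutatorElement

/-- A normal subgroup of order `p ^ k` of a `p`-group has centralizer of index at most
`p ^ (k choose 2)`. -/
theorem card_le_pow_mul_card_centralizer {G : Type*} [Group G] [Finite G] {p : ℕ}
    [hp : Fact p.Prime] (hG : IsPGroup p G) (k : ℕ) : ∀ (N : Subgroup G) [N.Normal],
    Nat.card N = p ^ k → Nat.card G ≤ p ^ (k.choose 2) * Nat.card (centralizer (N : Set G)) := by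
  induction k with
  | zero =>
    intro N _ hN
    rw [pow_zero, card_eq_one] at hN
    rw [hN, centralizer_eq_top_iff_subset.mpr (by simp)]
    simp
  | succ k ih =>
    intro N _ hN
    have hne : ⊥ < N := by
      rw [bot_lt_iff_ne_bot]
      rintro rfl
      rw [card_bot] at hN
      exact (Nat.one_lt_pow (Nat.succ_ne_zero k) hp.out.one_lt).ne hN
    obtain ⟨K, hKn, -, hKN, hc⟩ := exists_normal_step_down hG hne
    have hK : Nat.card K = p ^ k := by
      rw [hN, pow_succ'] at hc
      exact (Nat.eq_of_mul_eq_mul_left hp.out.pos hc).symm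
    obtain ⟨x, hxN, hxK⟩ := SetLike.exists_of_lt hKN
    have hsup := sup_zpowers_eq_of_card_eq_prime_mul hp.out hKN.le hc hxN hxK
    have hcomm := (commutator_le_of_card_eq_prime_mul (isPGroup_top hG) (hG.to_subgroup N)
      le_normalizer_of_normal le_normalizer_of_normal hKN.le hc).1
    have h1 := card_le_card_mul_card_inf_centralizer (H := centralizer (K : Set G)) (S := K)
      (v := x) fun g _ => by
        rw [← commutatorElement_inv]
        exact K.inv_mem (hcomm (commutator_mem_commutator hxN (mem_top g)))
    have h2 : centralizer (K : Set G) ⊓ centralizer {x} ≤ centralizer (N : Set G) := by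
      rw [le_centralizer_iff, ← hsup]
      refine sup_le (le_centralizer_iff.mp inf_le_left) ?_
      rw [zpowers_le, mem_centralizer_iff]
      exact fun g hg => mem_centralizer_singleton_iff.mp hg.2
    calc Nat.card G ≤ p ^ (k.choose 2) * Nat.card (centralizer (K : Set G)) := ih K hK
      _ ≤ p ^ (k.choose 2) * (p ^ k * Nat.card (centralizer (N : Set G))) := by
        refine Nat.mul_le_mul_left _ (h1.trans ?_)
        rw [hK]
        exact Nat.mul_le_mul_left _ (card_le_of_le h2)
      _ = _ := by
        rw [← mul_assoc, ← pow_add, Nat.choose_succ_succ' k 1, Nat.choose_one_right, add_comm]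

/-- The order of a p-group is bounded by p^(a(a+1)/2) when it has a maximal normal abelian subgroup of order p^a. -/
theorem result {G : Type*} [Group G] [Finite G] {p : ℕ} [Fact p.Prime] (hG : IsPGroup p G) (A : Subgroup G) [A.Normal] (hA : IsMulCommutative A) (hmax : ∀ B : Subgroup G, B.Normal → IsMulCommutative B → A ≤ B → B = A) (a : ℕ) (ha : Nat.card A = p ^ a) : Nat.card G ≤ p ^ (a * (a + 1) / 2) := by
  have := hG.isNilpotent
  have h := card_le_pow_mul_card_centralizer hG a A ha
  rw [centralizer_eq_of_maximal_abelian A hmax, ha, ← pow_add] at h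
  convert h using 2
  rw [mul_comm, ← Nat.add_sub_cancel (n := a) (m := 1), Nat.add_sub_cancel,
    show (a + 1) * a = (a + 1) * (a + 1 - 1) by simp, ← Nat.choose_two_right,
    Nat.choose_succ_succ' a 1, Nat.choose_one_right, add_comm]

end Cfsg.Agent.S0129
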