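import Cfsg.Statements.S0131
import Cfsg.Agent.Trans.TransferTools

set_option autoImplicit false
open Cfsg

namespace Cfsg.Agent.S0131

open Cfsg.Lib.Trans


/-- P/P' has a normal complement in G exactly when the focal subgroup G' ∩ P is as small as possible, namely P'. -/
theorem result {G : Type*} [Group G] [Finite G] {p : ℕ} [Fact p.Prime] (P : Sylow p G) : (∃ N : Subgroup G, N.Normal ∧ N ⊓ (P : Subgroup G) = ⁅(P : Subgroup G), (P : Subgroup G)⁆ ∧ N ⊔ (P : Subgroup G) = ⊤) ↔ commutator G ⊓ (P : Subgroup G) = ⁅(P : Subgroup G), (P : Subgroup G)⁆ := by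
  constructor
  · rintro ⟨N, hN, h1, h2⟩
    apply le_antisymm
    · rw [← h1]
      apply inf_le_inf_right
      have h3 : (commutator G).map (QuotientGroup.mk' N) = ⊥ := by
        have h4 : (⊤ : Subgroup G).map (QuotientGroup.mk' N) =
            (P : Subgroup G).map (QuotientGroup.mk' N) := by
          rw [← h2, Subgroup.map_sup, (Subgroup.map_eq_bot_iff N).mpr (by simp), bot_sup_eq]
        rw [commutator_def, Subgroup.map_commutator, h4, ← Subgroup.map_commutator, ← h1,
          Subgroup.map_eq_bot_iff]
        simp
      simpa [Subgroup.map_eq_bot_iff] using h3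
    · exact le_inf (Subgroup.commutator_mono le_top le_top) (Subgroup.commutator_le_self _)
  · intro h
    have h' := coprime_card_quotient_focal_of_hall (P : Subgroup G) P.card_coprime_index
    refine ⟨(P : Subgroup G).transferFocal.ker, inferInstance, ?_,
      ker_transferFocal_sup_of_coprime _ h'⟩
    rw [ker_transferFocal_inf_of_coprime _ h', ← h, Subgroup.commutator_inf_eq_focalSubgroup]

end Cfsg.Agent.S0131
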