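import Cfsg.Statements.S0132
import Cfsg.Agent.Trans.Frobenius
import Cfsg.Agent.Solv.Nilpotent

set_option autoImplicit false
open Cfsg

namespace Cfsg.Agent.S0132

open Cfsg.Lib.Trans


/-- A minimal non-p-nilpotent finite group is a minimal non-nilpotent group with a normal Sylow p-subgroup. -/
theorem result {G : Type*} [Group G] [Finite G] {p : ℕ} [Fact p.Prime] (h1 : ¬ Cfsg.HasNormalPComplement p G) (h2 : ∀ H : Subgroup G, H ≠ ⊤ → Cfsg.HasNormalPComplement p H) : (∀ H : Subgroup G, H ≠ ⊤ → Group.IsNilpotent H) ∧ ¬ Group.IsNilpotent G ∧ ∀ P : Sylow p G, (P : Subgroup G).Normal := by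
  obtain ⟨Q, hQP, -, q, hq, hqp, g, ⟨k, hk⟩, hgN, hgC⟩ :=
    exists_prime_pow_normalizer_of_not_hasNormalPComplement (default : Sylow p G) h1
  have hQ : IsPGroup p Q := (default : Sylow p G).isPGroup'.to_le hQP
  have := Fact.mk hq
  have hc : (orderOf g).Coprime p := by
    rw [hk]; exact Nat.Coprime.pow_left k ((Nat.coprime_primes hq Fact.out).mpr hqp)
  have htop : Q ⊔ Subgroup.zpowers g = ⊤ := by
    by_contra hne
    apply hgC
    have hg : g ∈ Q ⊔ Subgroup.zpowers g := Subgroup.mem_sup_right (Subgroup.mem_zpowers g)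
    have := mem_centralizer_of_hasNormalPComplement (h2 _ hne)
      (Q := Q.subgroupOf (Q ⊔ Subgroup.zpowers g)) hQ.comap_subtype (g := ⟨g, hg⟩)
      (by rw [← Subgroup.subgroupOf_normalizer_eq le_sup_left]; exact hgN) (by simpa using hc)
    intro x hx
    exact congrArg Subtype.val (this ⟨x, Subgroup.mem_sup_left hx⟩ hx)
  have hQn : Q.Normal := by
    rw [← Subgroup.normalizer_eq_top_iff, eq_top_iff, ← htop]
    exact sup_le Subgroup.le_normalizer (Subgroup.zpowers_le.mpr hgN)
  have hquot : IsPGroup q (G ⧸ Q) := by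
    have h3 : IsPGroup q (Subgroup.zpowers g) := IsPGroup.of_card (by rw [Nat.card_zpowers, hk])
    have h4 := h3.map (QuotientGroup.mk' Q)
    have h5 : (Subgroup.zpowers g).map (QuotientGroup.mk' Q) = ⊤ := by
      rw [← Subgroup.map_top_of_surjective _ (QuotientGroup.mk'_surjective Q), ← htop,
        Subgroup.map_sup, (Subgroup.map_eq_bot_iff Q).mpr (by simp), bot_sup_eq]
    rw [h5] at h4
    exact h4.of_equiv Subgroup.topEquiv
  refine ⟨fun H hH => ?_, fun hn => hgC fun x hx => ?_, fun P => ?_⟩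
  · have n1 : Group.IsNilpotent (H ⧸ pResidual p H) := isPGroup_quotient_pResidual.isNilpotent
    have n2 : Group.IsNilpotent (G ⧸ Q) := hquot.isNilpotent
    apply Subgroup.isNilpotent_of_ker_le_center
      ((QuotientGroup.mk' (pResidual p H)).prod ((QuotientGroup.mk' Q).comp H.subtype))
    rw [MonoidHom.ker_prod, QuotientGroup.ker_mk', ← MonoidHom.comap_ker, QuotientGroup.ker_mk',
      inf_eq_bot_of_coprime_of_isPGroup (hasNormalPComplement_iff_coprime.mp (h2 H hH))
        hQ.comap_subtype]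
    exact bot_le
  · obtain ⟨j, hj⟩ := IsPGroup.iff_orderOf.mp hQ ⟨x, hx⟩
    rw [Subgroup.orderOf_mk] at hj
    exact (Cfsg.Lib.Solv.commute_of_coprime_orderOf_of_isNilpotent G g x
      (by rw [hj]; exact hc.pow_right j)).symm
  · have h3 : ¬ p ∣ Q.index := by
      obtain ⟨j, hj⟩ := IsPGroup.iff_card.mp hquot
      intro hd
      have := (Fact.out : p.Prime).dvd_of_dvd_pow (hd.trans hj.dvd)
      exact hqp ((Nat.prime_dvd_prime_iff_eq Fact.out hq).mp this).symm
    have h4 := (hQ.toSylow h3).is_maximal' P.isPGroup' (hQ.le_sylow_of_normal P)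
    rw [h4]
    exact hQn

end Cfsg.Agent.S0132
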