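import Cfsg.Statements.S0133
import Cfsg.Agent.Char.Irr

set_option autoImplicit false
open Cfsg

namespace Cfsg.Agent.S0133

open Cfsg.Lib.Char

/-- The number of irreducible complex characters of a finite group equals the number of its conjugacy classes. -/
theorem result {G : Type*} [Group G] [Finite G] : Nat.card (Cfsg.IrrCharacter G) = Nat.card (ConjClasses G) := by
  exact card_irr_eq_card_conjClasses

end Cfsg.Agent.S0133
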