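import Cfsg.Statements.S0146
import Mathlib.Tactic.FieldSimp

set_option autoImplicit false
open Cfsg

namespace Cfsg.Agent.S0146

/-- Frobenius reciprocity for the induction map on functions: pairing the induced function with a class function of the big group equals pairing the original function with the restriction. -/
theorem result {G : Type*} [Group G] [Fintype G] (H : Subgroup G) [Fintype H] (θ : H → ℂ) (χ : G → ℂ) (hχ : Cfsg.IsClassFunction G χ) : Cfsg.classInner (Cfsg.indFun H θ) χ = Cfsg.classInner θ (fun h : H => χ h) := by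
  classical
  unfold Cfsg.classInner Cfsg.indFun
  have hG : (Nat.card G : ℂ) ≠ 0 := Nat.cast_ne_zero.mpr Nat.card_pos.ne'
  have key : ∀ x : G, ∑ g : G, Cfsg.extendByZero H θ (x⁻¹ * g * x) * (starRingEnd ℂ) (χ g)
      = ∑ h : H, θ h * (starRingEnd ℂ) (χ h) := by
    intro x
    have e1 : ∑ g : G, Cfsg.extendByZero H θ (x⁻¹ * g * x) * (starRingEnd ℂ) (χ g)
        = ∑ g : G, Cfsg.extendByZero H θ g * (starRingEnd ℂ) (χ g) := by
      refine Fintype.sum_equiv (MulAut.conj x⁻¹).toEquiv _ _ ?_
      intro g
      have := hχ g x⁻¹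
      simp only [inv_inv] at this
      simp [this]
    rw [e1]
    symm
    refine Finset.sum_of_injOn (fun h : H => (h : G)) Subtype.val_injective.injOn
      (fun _ _ => Finset.mem_univ _) ?_ ?_
    · intro g _ hg
      have : Cfsg.extendByZero H θ g = 0 := by
        unfold Cfsg.extendByZero
        rw [Function.extend_apply']
        · rfl
        · rintro ⟨a, rfl⟩
          exact hg ⟨a, by simp, rfl⟩
      rw [this, zero_mul]
    · intro h _
      unfold Cfsg.extendByZero
      rw [Subtype.val_injective.extend_apply]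
  have : ∑ g : G, ((Nat.card H : ℂ)⁻¹ * ∑ x : G, Cfsg.extendByZero H θ (x⁻¹ * g * x)) *
      (starRingEnd ℂ) (χ g) = (Nat.card H : ℂ)⁻¹ * ((Nat.card G : ℂ) *
        ∑ h : H, θ h * (starRingEnd ℂ) (χ h)) := by
    simp_rw [mul_assoc ((Nat.card H : ℂ)⁻¹), Finset.sum_mul]
    rw [← Finset.mul_sum, Finset.sum_comm]
    simp_rw [key]
    simp [Nat.card_eq_fintype_card]
  rw [this]
  field_simp

end Cfsg.Agent.S0146
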