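import Cfsg.Statements.S0149
-- import your own Cfsg.Agent.* helpers here

set_option autoImplicit false
open Cfsg

namespace Cfsg.Agent.S0149

/-- Let T be a subset of G meeting each of its conjugates by elements outside its normalizer N only in the identity, and let ψ be a class function of N vanishing on N away from T. Then the function induced from ψ agrees with ψ at every non-identity element of T. -/
theorem result {G : Type*} [Group G] [Fintype G] (T : Set G) (hTI : ∀ g : G, g ∉ Subgroup.normalizer T → ∀ t ∈ T, g * t * g⁻¹ ∈ T → t = 1) (hTN : T ⊆ Subgroup.normalizer T) (ψ : Subgroup.normalizer T → ℂ) (hψ : Cfsg.IsClassFunction (Subgroup.normalizer T) ψ) (hψT : ∀ x : Subgroup.normalizer T, (x : G) ∉ T → ψ x = 0) (t : Subgroup.normalizer T) (htT : (t : G) ∈ T) (ht1 : t ≠ 1) : Cfsg.indFun (Subgroup.normalizer T) ψ t = ψ t := by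
  classical
  revert hTI hψ hψT t
  generalize Subgroup.normalizer T = N at ψ ⊢
  intro hTI hψ hψT t htT ht1
  have hext_in : ∀ y : N, extendByZero N ψ (y : G) = ψ y := fun y =>
    Subtype.val_injective.extend_apply _ _ y
  have hext_out : ∀ y : G, y ∉ N → extendByZero N ψ y = 0 := by
    intro y hy
    unfold extendByZero
    rw [Function.extend_apply']
    · rfl
    · rintro ⟨a, rfl⟩
      exact hy a.2
  have key : ∀ x : G, extendByZero N ψ (x⁻¹ * t * x) = if x ∈ N then ψ t else 0 := by
    intro x
    split_ifs with hx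
    · have : x⁻¹ * (t : G) * x = ((⟨x, hx⟩⁻¹ * t * (⟨x, hx⟩⁻¹)⁻¹ : N) : G) := by simp
      rw [this, hext_in, hψ]
    · by_cases hy : x⁻¹ * (t : G) * x ∈ N
      · rw [show x⁻¹ * (t : G) * x = ((⟨_, hy⟩ : N) : G) from rfl, hext_in]
        apply hψT
        intro hT
        apply ht1
        have hx' : x⁻¹ ∉ N := fun h => hx (by simpa using N.inv_mem h)
        have := hTI x⁻¹ hx' t htT (by simpa using hT)
        exact Subtype.ext this
      · exact hext_out _ hy
  unfold indFun
  simp only [key]
  rw [Finset.sum_ite, Finset.sum_const_zero, add_zero, Finset.sum_const]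
  have hc : (Finset.univ.filter (fun x : G => x ∈ N)).card = Nat.card N := by
    rw [Nat.card_eq_fintype_card, Fintype.card_subtype]
  rw [hc, nsmul_eq_mul, ← mul_assoc, inv_mul_cancel₀, one_mul]
  exact_mod_cast (Nat.card_pos (α := N)).ne'

end Cfsg.Agent.S0149
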