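import Cfsg.Statements.S0162
import Cfsg.Agent.Char.FrobSchur

set_option autoImplicit false
open Cfsg

namespace Cfsg.Agent.S0162

/-- If a finite group has odd order, its order is congruent to its number of conjugacy classes modulo 16. -/
theorem result {G : Type*} [Group G] [Finite G] (hodd : Odd (Nat.card G)) : Nat.card G ≡ Nat.card (ConjClasses G) [MOD 16] := by
  classical
  choose d hd0 hd using fun χ : IrrCharacter G => χ.2.exists_nat_degree_pos
  have h1 : ∑ χ : IrrCharacter G, d χ ^ 2 = Nat.card G := by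
    have := Cfsg.Lib.Char.sum_irr_degree_sq (G := G)
    simp only [hd] at this
    exact_mod_cast this
  have hodd' : ∀ χ, Odd (d χ) := fun χ =>
    hodd.of_dvd_nat (Cfsg.Lib.Char.irr_degree_dvd_card χ.2 (hd χ))
  let c : IrrCharacter G → IrrCharacter G := fun χ => ⟨_, χ.2.conj⟩
  have hc : ∀ χ, d (c χ) = d χ := fun χ => by
    have h := hd (c χ)
    change (starRingEnd ℂ) ((χ : G → ℂ) 1) = _ at h
    rw [hd χ, map_natCast] at h
    exact_mod_cast h.symm
  have h2 : ∑ χ : IrrCharacter G, ((d χ : ZMod 16) ^ 2 - 1) = 0 := by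
    refine Finset.sum_involution (fun χ _ => c χ) (fun χ _ => ?_) (fun χ _ h0 h => ?_)
      (fun _ _ => Finset.mem_univ _) (fun χ _ => ?_)
    · rw [hc]
      obtain ⟨k, hk⟩ := hodd' χ
      rw [hk]
      push_cast
      generalize (k : ZMod 16) = x
      revert x
      decide
    · apply h0
      have h3 : (χ : G → ℂ) = fun _ => 1 := by
        by_contra h3
        exact χ.2.conj_ne_of_odd hodd h3 (congrArg Subtype.val h)
      have h4 : (1 : ℂ) = d χ := (congrFun h3 1).symm.trans (hd χ)
      have h5 : d χ = 1 := by exact_mod_cast h4.symm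
      simp [h5]
    · exact Subtype.ext (funext fun g => Complex.conj_conj _)
  rw [Finset.sum_sub_distrib, sub_eq_zero] at h2
  rw [← ZMod.natCast_eq_natCast_iff, ← h1, ← Cfsg.Lib.Char.card_irr_eq_card_conjClasses]
  push_cast
  rw [h2]
  simp

end Cfsg.Agent.S0162
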