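import Cfsg.Statements.S0166
import Cfsg.Agent.Char.Realize

set_option autoImplicit false
open Cfsg

namespace Cfsg.Agent.S0166

open Cfsg.Lib.Char

/-- Brauer's splitting field Theorem: a complex representation of a finite group of exponent m is equivalent to a representation by matrices with entries in ℚ adjoined exp(2πi/m). -/
theorem result {G : Type*} [Group G] [Finite G] (n : ℕ) (ρ : Representation ℂ G (Fin n → ℂ)) : ∃ σ : Representation ℂ G (Fin n → ℂ), Nonempty (ρ.Equiv σ) ∧ ∀ g : G, ∀ i j : Fin n, LinearMap.toMatrix' (σ g) i j ∈ Algebra.adjoin ℚ ({Complex.exp (2 * Real.pi * Complex.I / (Monoid.exponent G : ℂ))} : Set ℂ) := by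
  have hm : Monoid.exponent G ≠ 0 := Monoid.exponent_ne_zero_of_finite
  have hζ := Complex.isPrimitiveRoot_exp _ hm
  set ζ := Complex.exp (2 * Real.pi * Complex.I / (Monoid.exponent G : ℂ)) with hζd
  have := NeZero.mk hm
  obtain ⟨k, τ, h⟩ := affordedOver_of_roots (K := IntermediateField.adjoin ℚ {ζ}) (G := G)
    (fun z hz => by
      obtain ⟨i, -, rfl⟩ := hζ.eq_pow_of_pow_eq_one hz
      exact ⟨⟨_, pow_mem (IntermediateField.mem_adjoin_simple_self ℚ ζ) i⟩, rfl⟩)
    (isCharacter_rep ρ)
  replace h : ρ.character = (repExtend τ).character :=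
    h.trans (funext fun g => (character_repExtend τ g).symm)
  obtain rfl : n = k := by simpa using congrFun h 1
  refine ⟨repExtend τ, S0153.result _ _ h, fun g i j => ?_⟩
  rw [toMatrix'_repExtend, ← IntermediateField.adjoin_simple_toSubalgebra_of_isAlgebraic
    ((hζ.isIntegral (Nat.pos_of_ne_zero hm)).tower_top (A := ℚ)).isAlgebraic]
  exact (LinearMap.toMatrix' (τ g) i j).2

end Cfsg.Agent.S0166
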