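import Cfsg.Statements.S0172
import Cfsg.Agent.Char.OrbitCount
import Mathlib.GroupTheory.Complement

set_option autoImplicit false
open Cfsg

namespace Cfsg.Agent.S0172

/-- Class number of a Frobenius group: if G = K H with K normal, K ⊓ H trivial and no non-identity element of H commuting with a non-identity element of K, then |H| * k(G) + 1 = |H| * k(H) + k(K), where k denotes the number of conjugacy classes. -/
theorem result {G : Type*} [Group G] [Finite G] (K H : Subgroup G) [K.Normal] (hKH : K ⊓ H = ⊥) (hKH' : K ⊔ H = ⊤) (hfpf : ∀ h ∈ H, h ≠ 1 → ∀ k ∈ K, h * k = k * h → k = 1) : Nat.card H * Nat.card (ConjClasses G) + 1 = Nat.card H * Nat.card (ConjClasses H) + Nat.card (ConjClasses K) := by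
  classical
  have := Fintype.ofFinite G
  have hmul : ∀ g : G, ∃ k ∈ K, ∃ h ∈ H, g = k * h := by
    intro g
    have hg : g ∈ ((K ⊔ H : Subgroup G) : Set G) := by rw [hKH']; trivial
    rw [Subgroup.normal_mul] at hg
    obtain ⟨k, hk, h, hh, e⟩ := hg
    exact ⟨k, hk, h, hh, e.symm⟩
  have hK : K.Normal := inferInstance
  have hdisj : ∀ x ∈ K, x ∈ H → x = 1 := fun x h1 h2 => by
    have : x ∈ K ⊓ H := ⟨h1, h2⟩
    rwa [hKH] at this
  have hconj : ∀ g : G, g ∉ K → ∃ c ∈ K, ∃ h ∈ H, h ≠ 1 ∧ g = c * h * c⁻¹ := by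
    intro g hg
    obtain ⟨k, hk, h, hh, rfl⟩ := hmul g
    have h1 : h ≠ 1 := by rintro rfl; exact hg (by simpa using hk)
    obtain ⟨c, hc, e⟩ := Cfsg.Lib.Char.exists_conj_eq_mul_of_fpf K h
      (fun k hk => hK.conj_mem k hk h) (hfpf h hh h1) k hk
    exact ⟨c, hc, h, hh, h1, e.symm⟩
  have hCK : ∀ x ∈ K, x ≠ 1 → Subgroup.centralizer ({x} : Set G) ≤ K := by
    intro x hx hx1 g hg
    by_contra hgK
    obtain ⟨c, hc, h, hh, h1, rfl⟩ := hconj g hgK
    have e := Subgroup.mem_centralizer_singleton_iff.1 hg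
    have := hfpf h hh h1 (c⁻¹ * x * c) (K.mul_mem (K.mul_mem (K.inv_mem hc) hx) hc) (by
      calc h * (c⁻¹ * x * c) = c⁻¹ * (c * h * c⁻¹ * x) * c := by simp [mul_assoc]
        _ = c⁻¹ * x * c * h := by rw [e]; simp [mul_assoc])
    apply hx1
    calc x = c * (c⁻¹ * x * c) * c⁻¹ := by simp [mul_assoc]
      _ = 1 := by rw [this]; simp
  have hCH : ∀ x ∈ H, x ≠ 1 → Subgroup.centralizer ({x} : Set G) ≤ H := by
    intro x hx hx1 g hg
    obtain ⟨k, hk, h, hh, rfl⟩ := hmul g
    have e := Subgroup.mem_centralizer_singleton_iff.1 hg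
    have e1 : h * x * h⁻¹ * x⁻¹ = k⁻¹ * (x * k * x⁻¹) := by
      calc h * x * h⁻¹ * x⁻¹ = k⁻¹ * (k * h * x) * h⁻¹ * x⁻¹ := by simp [mul_assoc]
        _ = k⁻¹ * (x * k * x⁻¹) := by rw [e]; simp [mul_assoc]
    have e2 : k⁻¹ * (x * k * x⁻¹) = 1 := hdisj _ (K.mul_mem (K.inv_mem hk) (hK.conj_mem k hk x))
      (e1 ▸ H.mul_mem (H.mul_mem (H.mul_mem hh hx) (H.inv_mem hh)) (H.inv_mem hx))
    have e3 : k = 1 := hfpf x hx hx1 k hk (by
      rw [inv_mul_eq_one, eq_mul_inv_iff_mul_eq] at e2; exact e2.symm)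
    simpa [e3] using hh
  let f : G → ℕ := fun x => Nat.card (Subgroup.centralizer ({x} : Set G))
  let φ : K × H → G := fun p => if p.2 = 1 then p.1 else p.1 * p.2 * (p.1 : G)⁻¹
  have hcard : Nat.card G = Nat.card K * Nat.card H := by
    have hc : Subgroup.IsComplement' K H := by
      refine Subgroup.isComplement'_of_disjoint_and_mul_eq_univ (disjoint_iff.2 hKH) ?_
      rw [← Subgroup.normal_mul, hKH']; rfl
    exact hc.card_mul_card.symm
  have hφ : Function.Bijective φ := by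
    refine (Function.Surjective.bijective_of_nat_card_le ?_ (by rw [Nat.card_prod, hcard]))
    intro g
    by_cases hg : g ∈ K
    · exact ⟨(⟨g, hg⟩, 1), by simp [φ]⟩
    · obtain ⟨c, hc, h, hh, h1, rfl⟩ := hconj g hg
      refine ⟨(⟨c, hc⟩, ⟨h, hh⟩), ?_⟩
      have : (⟨h, hh⟩ : H) ≠ 1 := fun e => h1 (congrArg Subtype.val e)
      simp [φ, this]
  have hG := Cfsg.Lib.Char.sum_card_centralizer G
  have hKs := Cfsg.Lib.Char.sum_card_centralizer K
  have hHs := Cfsg.Lib.Char.sum_card_centralizer H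
  rw [← hφ.sum_comp, Fintype.sum_prod_type_right] at hG
  rw [← Finset.add_sum_erase _ _ (Finset.mem_univ (1 : H))] at hG hHs
  rw [← Finset.add_sum_erase _ _ (Finset.mem_univ (1 : K))] at hG hKs
  have c1 : ∀ (X : Type _) [Group X], Nat.card (Subgroup.centralizer ({1} : Set X)) = Nat.card X := by
    intro X _
    have : Subgroup.centralizer ({1} : Set X) = ⊤ := by
      rw [eq_top_iff]; intro x _; simp [Subgroup.mem_centralizer_singleton_iff]
    rw [this, Subgroup.card_top]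
  have s1 : ∑ x ∈ Finset.univ.erase (1 : K), Nat.card (Subgroup.centralizer ({φ (x, 1)} : Set G)) =
      ∑ x ∈ Finset.univ.erase (1 : K), Nat.card (Subgroup.centralizer ({x} : Set K)) := by
    refine Finset.sum_congr rfl (fun x hx => ?_)
    rw [Cfsg.Lib.Char.card_centralizer_subtype K x
      (hCK x x.2 (fun e => (Finset.mem_erase.1 hx).1 (Subtype.ext e)))]
    simp [φ]
  have s2 : ∑ y ∈ Finset.univ.erase (1 : H), ∑ x : K,
      Nat.card (Subgroup.centralizer ({φ (x, y)} : Set G)) = Nat.card K *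
      ∑ y ∈ Finset.univ.erase (1 : H), Nat.card (Subgroup.centralizer ({y} : Set H)) := by
    rw [Finset.mul_sum]
    refine Finset.sum_congr rfl (fun y hy => ?_)
    have hy1 := (Finset.mem_erase.1 hy).1
    rw [Cfsg.Lib.Char.card_centralizer_subtype H y (hCH y y.2 (fun e => hy1 (Subtype.ext e)))]
    simp only [φ, hy1, if_false, Cfsg.Lib.Char.card_centralizer_conj, Finset.sum_const,
      Finset.card_univ, smul_eq_mul, Nat.card_eq_fintype_card (α := K)]
  have s0 : φ (1, 1) = 1 := by simp [φ]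
  rw [s0, s1, s2, c1, hcard] at hG
  rw [c1] at hKs hHs
  have hpos : 0 < Nat.card K := Nat.card_pos
  apply Nat.eq_of_mul_eq_mul_left hpos
  nlinarith

end Cfsg.Agent.S0172
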