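import Cfsg.Statements.S0173
import Cfsg.Agent.Char.PermLemma

set_option autoImplicit false
open Cfsg

namespace Cfsg.Agent.S0173

/-- Brauer's permutation lemma for a single automorphism: the number of conjugacy classes mapped to themselves equals the number of irreducible complex characters χ with χ ∘ α = χ. -/
theorem result {G : Type*} [Group G] [Finite G] (α : G ≃* G) : Nat.card {C : ConjClasses G // ConjClasses.map α.toMonoidHom C = C} = Nat.card {χ : Cfsg.IrrCharacter G // (χ : G → ℂ) ∘ α = (χ : G → ℂ)} := by
  refine Eq.trans ?_ ((Cfsg.Lib.Char.card_fixed_irr_mulEquiv α).symm.trans ?_)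
  · refine Nat.card_congr (Equiv.subtypeEquivRight fun C => ?_)
    obtain ⟨a, rfl⟩ := ConjClasses.mk_surjective C
    constructor
    · intro h g hg
      rw [← hg] at h
      exact (ConjClasses.mk_eq_mk_iff_isConj.mp h).symm
    · intro h
      exact ConjClasses.mk_eq_mk_iff_isConj.mpr (h a rfl).symm
  · exact Nat.card_congr (Equiv.subtypeEquivRight fun χ => funext_iff.symm)

end Cfsg.Agent.S0173
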