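import Cfsg.Statements.S0175
import Cfsg.Agent.Char.DegBasic

set_option autoImplicit false
open Cfsg

namespace Cfsg.Agent.S0175

/-- Taketa's Theorem on M-groups: if every irreducible complex character of a finite group is induced from a linear character (a homomorphism to ℂˣ) of some subgroup, the group is solvable. -/
theorem result {G : Type*} [Group G] [Fintype G] (hM : ∀ χ : G → ℂ, Cfsg.IsIrrCharacter G χ → ∃ (H : Subgroup G) (lam : H →* ℂˣ), χ = Cfsg.indFun H (fun h => (lam h : ℂ))) : Group.IsSolvable G := by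
  classical
  have key : ∀ d : ℕ, ∀ χ : G → ℂ, Cfsg.IsIrrCharacter G χ → Cfsg.charDegree χ ≤ d →
      derivedSeries G d ≤ Cfsg.Lib.Char.charKer χ := by
    intro d
    induction d with
    | zero => intro χ hχ h; exact absurd (Cfsg.Lib.Char.Deg.deg_pos hχ) (by omega)
    | succ d ih =>
      intro χ hχ hd
      obtain ⟨H, lam, rfl⟩ := hM χ hχ
      have hlam := (Cfsg.Lib.Char.isIrrCharacter_monoidHom lam).isCharacter
      rw [Cfsg.Lib.Char.Deg.deg_indFun H hlam, Cfsg.Lib.Char.Deg.deg_monoidHom, mul_one] at hd
      have hle : derivedSeries G d ≤ H := by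
        by_cases hH : H = ⊤
        · rw [hH]; exact le_top
        have h1 := Cfsg.Lib.Char.isCharacter_indFun_one H
        refine le_trans ?_ (Cfsg.Lib.Char.Deg.charKer_indFun_le
          (θ := fun _ : H => (1 : ℂ)) Cfsg.Lib.Char.isCharacter_one one_ne_zero)
        intro g hg
        rw [h1.mem_charKer_iff_forall]
        intro ψ hψ hin
        refine ih ψ hψ ?_ hg
        have hdeg : Cfsg.charDegree (Cfsg.indFun H (fun _ => 1)) = H.index := by
          rw [Cfsg.Lib.Char.Deg.deg_indFun H Cfsg.Lib.Char.isCharacter_one,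
            Cfsg.Lib.Char.Deg.deg_const_one, mul_one]
        have hlt := Cfsg.Lib.Char.Deg.deg_lt_of_classInner_ne_zero h1 hψ hin (by
          intro heq
          have h2 := Cfsg.Lib.Char.classInner_indFun_one_one H
          rw [heq] at h2
          have h3 := hψ.eq_of_classInner_ne_zero Cfsg.Lib.Char.isIrrCharacter_one
            (by rw [h2]; exact one_ne_zero)
          rw [heq, h3, Cfsg.Lib.Char.Deg.deg_const_one] at hdeg
          exact hH (Subgroup.index_eq_one.1 hdeg.symm))
        omega
      have hle2 : derivedSeries G (d + 1) ≤ H := (derivedSeries_succ G d).le.trans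
        ((Subgroup.commutator_le_left _ _).trans hle)
      refine Cfsg.Lib.Char.Deg.le_charKer_indFun hlam _ hle2 fun n hn => ?_
      have hc : (⟨n, hle2 hn⟩ : H) ∈ commutator H := by
        have : derivedSeries G (d + 1) ≤ (commutator H).map H.subtype := by
          rw [derivedSeries_succ, Subgroup.map_subtype_commutator]
          exact Subgroup.commutator_mono hle hle
        obtain ⟨y, hy, hyn⟩ := this hn
        have : y = ⟨n, hle2 hn⟩ := Subtype.ext hyn
        exact this ▸ hy
      simp [Cfsg.Lib.Char.monoidHom_apply_of_mem_commutator lam hc]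
  refine ⟨⟨Nat.card G, ?_⟩⟩
  rw [eq_bot_iff, ← Cfsg.Lib.Char.iInf_charKer_irr, le_iInf_iff]
  intro χ
  exact key _ χ χ.2 (Nat.le_of_dvd Nat.card_pos (Cfsg.Lib.Char.Deg.deg_dvd_card χ.2))

end Cfsg.Agent.S0175
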