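import Cfsg.Statements.S0177
import Cfsg.Agent.Char.Artin

set_option autoImplicit false
open Cfsg

namespace Cfsg.Agent.S0177

/-- The Artin induction Theorem: for a character χ of a finite group, |G| • χ is a ℤ-linear combination of functions induced from homomorphisms of cyclic subgroups into ℂˣ. -/
theorem result {G : Type*} [Group G] [Fintype G] (χ : G → ℂ) (hχ : Cfsg.IsCharacter G χ) : ∃ l : List ((A : Subgroup G) × ((A →* ℂˣ) × ℤ)), (∀ t ∈ l, IsCyclic t.1) ∧ (Nat.card G : ℂ) • χ = (l.map fun t => (t.2.2 : ℂ) • Cfsg.indFun t.1 (fun a => (t.2.1 a : ℂ))).sum := by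
  exact Cfsg.Lib.Char.Brauer.exists_list_of_mem_linSpan
    (Cfsg.Lib.Char.Brauer.indSpan_isCyclic_le_linSpan
      (Cfsg.Lib.Char.Brauer.card_smul_mem_indSpan_isCyclic hχ.isGeneralizedCharacter))

end Cfsg.Agent.S0177
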