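import Cfsg.Statements.S0178
import Mathlib.RingTheory.SimpleModule.Rank
import Mathlib.RingTheory.Artinian.Module
import Mathlib.Analysis.Complex.Polynomial.Basic

set_option autoImplicit false
open Cfsg

namespace Cfsg.Agent.S0178

theorem exists_common_eigenvector {A : Type*} [Group A] [IsMulCommutative A] {V : Type*}
    [AddCommGroup V] [Module ℂ V] [FiniteDimensional ℂ V] [Nontrivial V]
    (σ : Representation ℂ A V) : ∃ v : V, v ≠ 0 ∧ ∀ a, ∃ c : ℂ, σ a v = c • v := by
  have hwf : WellFoundedLT (Subrepresentation σ) :=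
    (show StrictMono (Subrepresentation.toSubmodule (ρ := σ)) from fun a b h => h).wellFoundedLT
  have hne : (⊤ : Subrepresentation σ) ≠ ⊥ := fun h => by
    have := congrArg Subrepresentation.toSubmodule h
    exact top_ne_bot (α := Submodule ℂ V) this
  obtain ⟨W, hW, -⟩ := (eq_bot_or_exists_atom_le (⊤ : Subrepresentation σ)).resolve_left hne
  have hWne : W.toSubmodule ≠ ⊥ := fun h => hW.1 (Subrepresentation.ext h)
  have hirr : W.toRepresentation.IsIrreducible := by
    have hnt : Nontrivial (Subrepresentation W.toRepresentation) := by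
      refine ⟨⊥, ⊤, fun h => hWne ?_⟩
      have h1 : (⊥ : Submodule ℂ W.toSubmodule) = ⊤ := congrArg Subrepresentation.toSubmodule h
      rw [eq_bot_iff]
      intro v hv
      have : (⟨v, hv⟩ : W.toSubmodule) ∈ (⊥ : Submodule ℂ W.toSubmodule) := by
        rw [h1]; trivial
      exact congrArg Subtype.val this
    refine ⟨fun U => ?_⟩
    let U' : Subrepresentation σ := ⟨U.toSubmodule.map W.toSubmodule.subtype, by
      rintro g v ⟨u, hu, rfl⟩
      exact ⟨_, U.apply_mem_toSubmodule g hu, rfl⟩⟩
    have hle : U' ≤ W := by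
      rintro v ⟨u, hu, rfl⟩
      exact u.2
    rcases hW.le_iff.1 hle with h | h
    · left
      rw [eq_bot_iff]
      intro u hu
      have : (u : V) ∈ U'.toSubmodule := ⟨u, hu, rfl⟩
      rw [h] at this
      exact Subtype.ext this
    · right
      rw [eq_top_iff]
      intro u _
      have : (u : V) ∈ U'.toSubmodule := by rw [h]; exact u.2
      obtain ⟨u', hu', h'⟩ := this
      rwa [← show u' = u from Subtype.ext h']
  have hdim := Representation.IsIrreducible.finrank_eq_one_of_isMulCommutative W.toRepresentation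
  obtain ⟨v, hv0, hv⟩ := finrank_eq_one_iff'.1 hdim
  refine ⟨v, fun h => hv0 (Subtype.ext h), fun a => ?_⟩
  obtain ⟨c, hc⟩ := hv (W.toRepresentation a v)
  exact ⟨c, (congrArg Subtype.val hc).symm⟩

/-- The degree of an irreducible complex representation of a finite group is at most the index of any abelian subgroup. -/
theorem result {G : Type*} [Group G] [Finite G] {V : Type*} [AddCommGroup V] [Module ℂ V] [FiniteDimensional ℂ V] (ρ : Representation ℂ G V) [ρ.IsIrreducible] (A : Subgroup G) (hA : ∀ a ∈ A, ∀ b ∈ A, a * b = b * a) : Module.finrank ℂ V ≤ A.index := by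
  have hnt : Nontrivial V := by
    by_contra h
    rw [not_nontrivial_iff_subsingleton] at h
    exact bot_ne_top (α := Subrepresentation ρ) (Subrepresentation.ext (Subsingleton.elim _ _))
  have hcomm : IsMulCommutative A := ⟨⟨fun a b => Subtype.ext (hA a a.2 b b.2)⟩⟩
  obtain ⟨v, hv0, hv⟩ := exists_common_eigenvector (ρ.comp A.subtype)
  have := Fintype.ofFinite (G ⧸ A)
  let f : G ⧸ A → V := fun q => ρ q.out v
  have hmem : ∀ g, ρ g v ∈ Submodule.span ℂ (Set.range f) := fun g => by
    obtain ⟨a, ha⟩ := QuotientGroup.mk_out_eq_mul A g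
    obtain ⟨c, hc⟩ := hv a⁻¹
    have hg : g = (QuotientGroup.mk g : G ⧸ A).out * ((a⁻¹ : A) : G) := by
      rw [ha]; simp
    rw [hg, map_mul, Module.End.mul_apply]
    have hc' : ρ ((a⁻¹ : A) : G) v = c • v := hc
    rw [hc', map_smul]
    exact Submodule.smul_mem _ _ (Submodule.subset_span ⟨_, rfl⟩)
  let W : Subrepresentation ρ := ⟨Submodule.span ℂ (Set.range f), fun g w hw => by
    have : (Submodule.span ℂ (Set.range f)).map (ρ g) ≤ Submodule.span ℂ (Set.range f) := by
      rw [Submodule.map_span_le]
      rintro _ ⟨q, rfl⟩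
      show ρ g (ρ q.out v) ∈ _
      rw [← Module.End.mul_apply, ← map_mul]
      exact hmem _
    exact this ⟨w, hw, rfl⟩⟩
  rcases eq_bot_or_eq_top W with hW | hW
  · exfalso
    have h1 : ρ 1 v ∈ W.toSubmodule := hmem 1
    rw [hW] at h1
    exact hv0 (by simpa using (show ρ 1 v = 0 from h1))
  · have h1 : Submodule.span ℂ (Set.range f) = ⊤ := congrArg Subrepresentation.toSubmodule hW
    have h2 := finrank_range_le_card (R := ℂ) f
    rw [Set.finrank, h1, finrank_top] at h2
    rw [Subgroup.index, Nat.card_eq_fintype_card]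
    exact h2

end Cfsg.Agent.S0178
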