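import Cfsg.Statements.S0181

set_option autoImplicit false
open Cfsg

namespace Cfsg.Agent.S0181

theorem sum_eq_zero {G : Type*} [Group G] {V : Type*} [AddCommGroup V] [Module ℂ V]
    (ρ : Representation ℂ G V) [ρ.IsIrreducible] (H : Subgroup G) [hH : H.Normal] [Fintype H]
    (hker : ∃ h ∈ H, ρ h ≠ LinearMap.id) : ∑ h : H, ρ h = 0 := by
  let W : Subrepresentation ρ :=
    ⟨Representation.invariants (ρ.comp H.subtype), fun g v hv h => by
      have h1 : ρ (g⁻¹ * h * g) v = v := hv ⟨g⁻¹ * h * g, by
        simpa using hH.conj_mem h h.2 g⁻¹⟩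
      show ρ h (ρ g v) = ρ g v
      conv_rhs => rw [← h1]
      rw [← Module.End.mul_apply, ← map_mul, ← Module.End.mul_apply, ← map_mul]
      congr 2
      group⟩
  rcases eq_bot_or_eq_top W with hW | hW
  · ext v
    have hmem : (∑ h : H, ρ h) v ∈ W.toSubmodule := by
      intro k
      show ρ k ((∑ h : H, ρ h) v) = _
      rw [← Module.End.mul_apply, Finset.mul_sum]
      congr 1
      refine Fintype.sum_equiv (Equiv.mulLeft k) _ _ fun h => ?_
      simp
    rw [hW] at hmem
    exact hmem
  · exfalso
    obtain ⟨h, hh, hne⟩ := hker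
    apply hne
    ext v
    have : v ∈ W.toSubmodule := by rw [hW]; trivial
    exact this ⟨h, hh⟩

/-- Let H be a normal subgroup of a finite group G and ρ an irreducible complex representation whose kernel does not contain H. If g commutes with no non-identity element of H, then the character of ρ vanishes at g. -/
theorem result {G : Type*} [Group G] [Finite G] {V : Type*} [AddCommGroup V] [Module ℂ V] [FiniteDimensional ℂ V] (ρ : Representation ℂ G V) [ρ.IsIrreducible] (H : Subgroup G) [H.Normal] (hker : ∃ h ∈ H, ρ h ≠ LinearMap.id) (g : G) (hg : ∀ h ∈ H, h * g = g * h → h = 1) : ρ.character g = 0 := by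
  have := Fintype.ofFinite H
  have hN : H.Normal := inferInstance
  have h0 := sum_eq_zero ρ H hker
  let f : H → H := fun h => ⟨h * (g * h⁻¹ * g⁻¹), H.mul_mem h.2 (hN.conj_mem _ (H.inv_mem h.2) g)⟩
  have hinj : Function.Injective f := by
    intro a b hab
    have h1 : (a : G) * (g * a⁻¹ * g⁻¹) = b * (g * b⁻¹ * g⁻¹) := congrArg Subtype.val hab
    have h2 := hg ((b : G)⁻¹ * a) (H.mul_mem (H.inv_mem b.2) a.2) (by
      have h3 : (a : G) * g * (a : G)⁻¹ = b * g * (b : G)⁻¹ := by
        have := congrArg (· * g) h1
        simpa [mul_assoc] using this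
      calc (b : G)⁻¹ * a * g = (b : G)⁻¹ * (a * g * (a : G)⁻¹) * a := by group
        _ = (b : G)⁻¹ * (b * g * (b : G)⁻¹) * a := by rw [h3]
        _ = g * ((b : G)⁻¹ * a) := by group)
    exact Subtype.ext (by rw [inv_mul_eq_one] at h2; exact h2.symm)
  have hbij : Function.Bijective f := Finite.injective_iff_bijective.1 hinj
  have h1 : ∑ h : H, ρ.character (h * g) = 0 := by
    simp only [Representation.character, map_mul]
    rw [← map_sum, ← Finset.sum_mul, h0, zero_mul, map_zero]
  rw [← hbij.sum_comp (fun h : H => ρ.character (h * g))] at h1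
  have h2 : ∀ h : H, ρ.character (f h * g) = ρ.character g := fun h => by
    rw [← ρ.char_conj g h]
    congr 1
    simp [f, mul_assoc]
  simp only [h2, Finset.sum_const, nsmul_eq_mul, mul_eq_zero, Nat.cast_eq_zero,
    Finset.card_univ, Fintype.card_ne_zero, false_or] at h1
  exact h1

end Cfsg.Agent.S0181
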