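import Cfsg.Statements.S0184
import Cfsg.Agent.Char.DegBasic
import Cfsg.Agent.Solv.CyclicP

set_option autoImplicit false
open Cfsg

namespace Cfsg.Agent.S0184

/-- A finite p-group admits a faithful irreducible complex representation if and only if its centre is cyclic. -/
theorem result {G : Type*} [Group G] [Finite G] (p : ℕ) [Fact p.Prime] (hG : IsPGroup p G) : (∃ (n : ℕ) (ρ : Representation ℂ G (Fin n → ℂ)), ρ.IsIrreducible ∧ Function.Injective ρ) ↔ IsCyclic (Subgroup.center G) := by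
  classical
  haveI : Group.IsNilpotent G := hG.isNilpotent
  constructor
  · rintro ⟨n, ρ, hρ, hinj⟩
    exact (Cfsg.Lib.Char.isIrrCharacter_rep ρ).isCyclic_center_of_faithful
      ((Cfsg.Lib.Char.charKer_rep_eq_bot_iff ρ).2 hinj)
  · intro hc
    suffices h : ∃ χ : G → ℂ, Cfsg.IsIrrCharacter G χ ∧ Cfsg.Lib.Char.charKer χ = ⊥ by
      obtain ⟨χ, ⟨n, ρ, hρ, rfl⟩, hk⟩ := h
      exact ⟨n, ρ, hρ, (Cfsg.Lib.Char.charKer_rep_eq_bot_iff ρ).1 hk⟩
    by_cases htriv : (⊤ : Subgroup G) = ⊥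
    · exact ⟨fun _ => 1, Cfsg.Lib.Char.isIrrCharacter_one, by
        rw [Cfsg.Lib.Char.charKer_one, htriv]⟩
    obtain ⟨z, -, hz, hzo⟩ := Cfsg.Lib.Solv.PG.exists_mem_center_orderOf_eq hG ⊤ htriv
    have hp : p.Prime := Fact.out
    have hz1 : z ≠ 1 := by
      rintro rfl
      rw [orderOf_one] at hzo
      exact hp.one_lt.ne hzo
    obtain ⟨χ, hχ, hne⟩ := Cfsg.Lib.Char.exists_irr_apply_ne hz1
    refine ⟨χ, hχ, ?_⟩
    by_contra hk
    haveI := hχ.charKer_normal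
    obtain ⟨w, hwk, hw, hwo⟩ :=
      Cfsg.Lib.Solv.PG.exists_mem_center_orderOf_eq hG (Cfsg.Lib.Char.charKer χ) hk
    apply hne
    rw [← hχ.mem_charKer_iff]
    have hzw : Subgroup.zpowers z = Subgroup.zpowers w :=
      Cfsg.Lib.Solv.PG.eq_of_card_eq_of_isCyclic (A := Subgroup.center G)
        ((Subgroup.zpowers_le).2 hz) ((Subgroup.zpowers_le).2 hw)
        (by rw [Nat.card_zpowers, Nat.card_zpowers, hzo, hwo])
    exact (Subgroup.zpowers_le.2 hwk) (hzw ▸ Subgroup.mem_zpowers z)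

end Cfsg.Agent.S0184
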