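import Cfsg.Statements.S0186
import Cfsg.Agent.Char.ClassMult
import Cfsg.Agent.Char.Burnside

set_option autoImplicit false
open Cfsg

namespace Cfsg.Agent.S0186

open Cfsg.Lib.Char

/-- Let G be a finite simple group of order n and p a prime dividing n. If G has more than n / p^2 conjugacy classes, then every Sylow p-subgroup of G is abelian. -/
theorem result {G : Type*} [Group G] [Finite G] [IsSimpleGroup G] (p : ℕ) [Fact p.Prime] (hp : p ∣ Nat.card G) (hmany : Nat.card G < p ^ 2 * Nat.card (ConjClasses G)) (P : Sylow p G) (a b : G) (ha : a ∈ P) (hb : b ∈ P) : a * b = b * a := by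
  classical
  by_contra hab
  have hp' : p.Prime := Fact.out
  -- p ^ 2 divides the order
  have hp2 : p ^ 2 ∣ Nat.card G := by
    obtain ⟨n, hn⟩ := P.isPGroup'.exists_card_eq
    by_contra hnd
    have hn2 : n < 2 := by
      by_contra h
      exact hnd ((pow_dvd_pow p (not_lt.mp h)).trans (hn ▸ Subgroup.card_subgroup_dvd_card _))
    have hcyc : IsCyclic P := by
      interval_cases n
      · have : Subsingleton P := (Nat.card_eq_one_iff_unique.mp (by simpa using hn)).1
        infer_instance
      · exact isCyclic_of_prime_card (p := p) (by simpa using hn)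
    exact hab (congrArg Subtype.val
      ((IsCyclic.isMulCommutative (α := P)).is_comm.comm (⟨a, ha⟩ : P) ⟨b, hb⟩))
  let one : IrrCharacter G := ⟨fun _ => 1, isIrrCharacter_one⟩
  have hex : ∃ χ : IrrCharacter G, χ ≠ one ∧ ((χ : G → ℂ) 1).re < p := by
    by_contra hcon
    push Not at hcon
    have h1 := sum_irr_normSq (1 : G)
    rw [← Finset.add_sum_erase _ _ (Finset.mem_univ one)] at h1
    have h2 : ∑ χ ∈ Finset.univ.erase one, ((p : ℝ) ^ 2) ≤
        ∑ χ ∈ Finset.univ.erase one, ‖(χ : G → ℂ) 1‖ ^ 2 := by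
      refine Finset.sum_le_sum fun χ hχ => ?_
      have h3 := hcon χ (Finset.mem_erase.mp hχ).1
      exact pow_le_pow_left₀ (by positivity) (h3.trans (Complex.re_le_norm _)) 2
    have h4 : Subgroup.centralizer ({1} : Set G) = ⊤ := by
      rw [eq_top_iff]; intro x _; simp [Subgroup.mem_centralizer_iff]
    rw [h4, Subgroup.card_top] at h1
    rw [Finset.sum_const, Finset.card_erase_of_mem (Finset.mem_univ _), Finset.card_univ,
      ← Nat.card_eq_fintype_card, card_irr_eq_card_conjClasses, nsmul_eq_mul] at h2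
    obtain ⟨m, hm⟩ := hp2
    rw [hm] at hmany h1
    have h5 : m < Nat.card (ConjClasses G) := lt_of_mul_lt_mul_left hmany (Nat.zero_le _)
    have h6 : (m : ℝ) ≤ ((Nat.card (ConjClasses G) - 1 : ℕ) : ℝ) := by
      exact_mod_cast (by omega)
    simp only [one, norm_one, one_pow] at h1
    push_cast at h1
    have h7 : (0 : ℝ) ≤ (p : ℝ) ^ 2 := by positivity
    nlinarith
  obtain ⟨χ, hχ1, hχ⟩ := hex
  have h8 := char_commutator_eq_of_degree_lt (χ.2.isCharacter.res (P : Subgroup G))
    (fun q hq hqP => by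
      obtain ⟨n, hn⟩ := P.isPGroup'.exists_card_eq
      rw [hn] at hqP
      rw [(Nat.prime_dvd_prime_iff_eq hq hp').mp (hq.dvd_of_dvd_pow hqP)]
      exact hχ) ⟨a, ha⟩ ⟨b, hb⟩
  refine hab (comm_of_simple_of_norm_eq χ.2 (fun h => hχ1 (Subtype.ext h))
    (g := a * b * a⁻¹ * b⁻¹) ?_ ?_ a b)
  · intro h
    rw [mul_inv_eq_one, mul_inv_eq_iff_eq_mul] at h
    exact hab h
  · exact congrArg norm h8

end Cfsg.Agent.S0186
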