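import Cfsg.Statements.S0189
import Mathlib.Tactic.FieldSimp

set_option autoImplicit false
open Cfsg

namespace Cfsg.Agent.S0189

/-- If a complex character of a finite group vanishes at every non-identity element of a Sylow p-subgroup P, then |P| divides its degree. -/
theorem result {G : Type*} [Group G] [Finite G] (p : ℕ) [Fact p.Prime] (P : Sylow p G) (χ : G → ℂ) (hχ : Cfsg.IsCharacter G χ) (hvan : ∀ g : G, g ∈ P → g ≠ 1 → χ g = 0) : ∃ k : ℕ, χ 1 = (Nat.card P : ℂ) * k := by
  classical
  obtain ⟨n, ρ, rfl⟩ := hχ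
  have : Fintype P := Fintype.ofFinite _
  have hP : (Nat.card P : ℂ) ≠ 0 := Nat.cast_ne_zero.mpr Nat.card_pos.ne'
  have : Invertible (Nat.card (P : Subgroup G) : ℂ) := invertibleOfNonzero hP
  let σ : Representation ℂ (P : Subgroup G) (Fin n → ℂ) := ρ.comp (P : Subgroup G).subtype
  have h := Representation.card_inv_mul_sum_char_eq_finrank σ
  refine ⟨Module.finrank ℂ σ.invariants, ?_⟩
  rw [← h, Finset.sum_eq_single 1]
  · have : σ.character 1 = ρ.character 1 := by simp
    rw [this]
    change _ = (Nat.card P : ℂ) * ((Nat.card P : ℂ)⁻¹ * _)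
    field_simp
  · intro g _ hg
    exact hvan g g.2 (fun h => hg (Subtype.ext h))
  · simp

end Cfsg.Agent.S0189
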