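import Cfsg.Statements.S0202
import Mathlib.Data.Set.Card

set_option autoImplicit false
open Cfsg

namespace Cfsg.Agent.S0202

variable {G : Type*} [Group G] [Finite G]

omit [Finite G] in
theorem orderOf_eq_two_iff (u : G) : orderOf u = 2 ↔ u * u = 1 ∧ u ≠ 1 := by
  have : Fact (Nat.Prime 2) := ⟨Nat.prime_two⟩
  rw [orderOf_eq_prime_iff, pow_two]

/-- An element normalizing a Sylow `p`-subgroup has a `p'`-power inside it. -/
theorem exists_odd_pow_mem (P : Sylow 2 G) (n : G) (hn : n ∈ Subgroup.normalizer (P : Set G)) :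
    ∃ m, Odd m ∧ n ^ m ∈ P := by
  have : Fact (Nat.Prime 2) := ⟨Nat.prime_two⟩
  obtain ⟨k, m, hm, hkm⟩ := Nat.exists_eq_two_pow_mul_odd (orderOf_pos n).ne'
  refine ⟨m, hm, ?_⟩
  have hQ : IsPGroup 2 (Subgroup.zpowers (n ^ m)) := by
    apply IsPGroup.of_card_dvd_pow (n := k)
    rw [Nat.card_zpowers]
    apply orderOf_dvd_of_pow_eq_one
    rw [← pow_mul, mul_comm, ← hkm, pow_orderOf_eq_one]
  have h := hQ.inf_normalizer_sylow P
  have h2 : n ^ m ∈ Subgroup.zpowers (n ^ m) ⊓ Subgroup.normalizer (P : Set G) :=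
    ⟨Subgroup.mem_zpowers _, Subgroup.pow_mem _ hn _⟩
  rw [h] at h2
  exact h2.2

/-- The involutions of a Sylow 2-subgroup. -/
def invs (P : Sylow 2 G) : Set G := {t | t ∈ P ∧ orderOf t = 2}

theorem classes_eq (P : Sylow 2 G) :
    Nat.card {C : ConjClasses G // ∃ t : G, orderOf t = 2 ∧ ConjClasses.mk t = C} =
      (ConjClasses.mk '' invs P).ncard := by
  have : Fact (Nat.Prime 2) := ⟨Nat.prime_two⟩
  have : {C : ConjClasses G | ∃ t : G, orderOf t = 2 ∧ ConjClasses.mk t = C} =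
      ConjClasses.mk '' invs P := by
    ext C
    constructor
    · rintro ⟨t, ht, rfl⟩
      have hQ : IsPGroup 2 (Subgroup.zpowers t) := by
        apply IsPGroup.of_card (n := 1)
        rw [Nat.card_zpowers, ht, pow_one]
      obtain ⟨Q, hQ⟩ := hQ.exists_le_sylow
      obtain ⟨g, hg⟩ := MulAction.exists_smul_eq G Q P
      refine ⟨g * t * g⁻¹, ⟨?_, ?_⟩, ?_⟩
      · rw [← hg]
        have : t ∈ (Q : Subgroup G) := hQ (Subgroup.mem_zpowers t)
        rw [← SetLike.mem_coe, Sylow.coe_smul]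
        exact Set.smul_mem_smul_set (a := MulAut.conj g) this
      · rw [← ht]
        exact (MulAut.conj g).orderOf_eq t
      · rw [ConjClasses.mk_eq_mk_iff_isConj]
        exact (isConj_iff.2 ⟨g, rfl⟩).symm
    · rintro ⟨t, ⟨-, ht⟩, rfl⟩
      exact ⟨t, ht, rfl⟩
  rw [← this]
  rfl

omit [Finite G] in
theorem mem_invs_iff (P : Sylow 2 G) (hP : IsKleinFour (P : Subgroup G)) (t : G) :
    t ∈ invs P ↔ t ∈ P ∧ t ≠ 1 := by
  unfold invs
  rw [Set.mem_ofPred_eq, orderOf_eq_two_iff]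
  refine ⟨fun h => ⟨h.1, h.2.2⟩, fun h => ⟨h.1, ?_, h.2⟩⟩
  exact congrArg Subtype.val (IsKleinFour.mul_self (⟨t, h.1⟩ : (P : Subgroup G)))

theorem ncard_invs (P : Sylow 2 G) (hP : IsKleinFour (P : Subgroup G)) : (invs P).ncard = 3 := by
  have h : invs P = ((P : Subgroup G) : Set G) \ {1} := by
    ext t
    rw [mem_invs_iff P hP]
    simp
  have h1 := Set.ncard_sdiff_singleton_add_one (s := ((P : Subgroup G) : Set G))
    (P : Subgroup G).one_mem
  have h2 : (((P : Subgroup G) : Set G)).ncard = 4 := hP.card_four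
  rw [h]
  omega

theorem all_conj_of_fused (P : Sylow 2 G) (hP : IsKleinFour (P : Subgroup G)) {a b : G}
    (ha : a ∈ invs P) (hb : b ∈ invs P) (hab : a ≠ b) (hc : IsConj a b) :
    ∀ c ∈ invs P, IsConj a c := by
  have : Fact (Nat.Prime 2) := ⟨Nat.prime_two⟩
  have : IsMulCommutative (P : Subgroup G) := IsKleinFour.isMulCommutative
  rw [mem_invs_iff P hP] at ha hb
  obtain ⟨g, hg⟩ := isConj_iff.1 hc
  obtain ⟨n, hn, hna⟩ := P.conj_eq_normalizer_conj_of_mem a g⁻¹ ha.1 (by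
    rw [inv_inv, hg]; exact hb.1)
  rw [inv_inv, hg] at hna
  have hbn : n⁻¹ * b * n ∈ P := by
    have := (Subgroup.mem_normalizer_iff''.1 hn b).1 hb.1
    exact this
  have h1 : n⁻¹ * b * n ≠ 1 := by
    intro h
    apply hb.2
    have : b = n * (n⁻¹ * b * n) * n⁻¹ := by group
    rw [this, h]; group
  have h2 : n⁻¹ * b * n ≠ b := by
    intro h
    apply hab
    have e1 : a = n * (n⁻¹ * a * n) * n⁻¹ := by group
    have e2 : b = n * (n⁻¹ * b * n) * n⁻¹ := by group
    rw [e1, e2, ← hna, h]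
  have h3 : n⁻¹ * b * n ≠ a := by
    intro h
    obtain ⟨m, ⟨j, hj⟩, hm⟩ := exists_odd_pow_mem P n hn
    have key : ∀ i : ℕ, (n ^ (2 * i))⁻¹ * a * n ^ (2 * i) = a := by
      intro i
      induction i with
      | zero => simp
      | succ i ih =>
        have : (n ^ (2 * (i + 1)))⁻¹ * a * n ^ (2 * (i + 1)) =
            n⁻¹ * (n⁻¹ * ((n ^ (2 * i))⁻¹ * a * n ^ (2 * i)) * n) * n := by
          rw [show 2 * (i + 1) = 2 * i + 1 + 1 by ring, pow_succ, pow_succ]
          group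
        rw [this, ih, ← hna, h]
    have e : (n ^ m)⁻¹ * a * n ^ m = b := by
      have : (n ^ m)⁻¹ * a * n ^ m = n⁻¹ * ((n ^ (2 * j))⁻¹ * a * n ^ (2 * j)) * n := by
        rw [hj, pow_succ]; group
      rw [this, key, ← hna]
    have hcomm : a * n ^ m = n ^ m * a :=
      congrArg Subtype.val (mul_comm' (⟨a, ha.1⟩ : (P : Subgroup G)) ⟨n ^ m, hm⟩)
    rw [mul_assoc, hcomm, inv_mul_cancel_left] at e
    exact hab e
  intro c hc'
  rw [mem_invs_iff P hP] at hc'
  by_cases hca : c = a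
  · rw [hca]
  by_cases hcb : c = b
  · rw [hcb]; exact hc
  have e1 : (⟨c, hc'.1⟩ : (P : Subgroup G)) = ⟨a, ha.1⟩ * ⟨b, hb.1⟩ :=
    IsKleinFour.eq_mul_of_ne_all (by simpa using ha.2) (by simpa using hb.2) (by simpa using hab)
      (by simpa using hc'.2) (by simpa using hca) (by simpa using hcb)
  have e2 : (⟨n⁻¹ * b * n, hbn⟩ : (P : Subgroup G)) = ⟨a, ha.1⟩ * ⟨b, hb.1⟩ :=
    IsKleinFour.eq_mul_of_ne_all (by simpa using ha.2) (by simpa using hb.2) (by simpa using hab)
      (fun h => h1 (congrArg Subtype.val h)) (fun h => h3 (congrArg Subtype.val h))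
      (fun h => h2 (congrArg Subtype.val h))
  have e3 : c = n⁻¹ * b * n := congrArg Subtype.val (e1.trans e2.symm)
  refine hc.trans (isConj_iff.2 ⟨n⁻¹, ?_⟩)
  rw [inv_inv, e3]

/-- If a Sylow 2-subgroup of a finite group is a Klein four-group, the group has one or three conjugacy classes of involutions. -/
theorem result {G : Type*} [Group G] [Finite G] (P : Sylow 2 G) (hP : IsKleinFour (P : Subgroup G)) : Nat.card {C : ConjClasses G // ∃ t : G, orderOf t = 2 ∧ ConjClasses.mk t = C} = 1 ∨ Nat.card {C : ConjClasses G // ∃ t : G, orderOf t = 2 ∧ ConjClasses.mk t = C} = 3 := by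
  rw [classes_eq P]
  by_cases h : Set.InjOn ConjClasses.mk (invs P)
  · right
    rw [Set.InjOn.ncard_image h, ncard_invs P hP]
  · left
    unfold Set.InjOn at h
    push Not at h
    obtain ⟨a, ha, b, hb, hc, hab⟩ := h
    rw [ConjClasses.mk_eq_mk_iff_isConj] at hc
    have := all_conj_of_fused P hP ha hb hab hc
    rw [Set.ncard_eq_one]
    refine ⟨ConjClasses.mk a, ?_⟩
    ext C
    constructor
    · rintro ⟨c, hc, rfl⟩
      exact (ConjClasses.mk_eq_mk_iff_isConj.2 (this c hc)).symm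
    · rintro rfl
      exact ⟨a, ha, rfl⟩

end Cfsg.Agent.S0202
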