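import Cfsg.Statements.S0203
import Cfsg.Agent.S0202
import Mathlib.GroupTheory.Transfer

set_option autoImplicit false
open Cfsg

namespace Cfsg.Agent.S0203

/-- If a Sylow 2-subgroup P of a finite group G is a Klein four-group, then G has three classes of involutions if and only if P has a normal complement in G. -/
theorem result {G : Type*} [Group G] [Finite G] (P : Sylow 2 G) (hP : IsKleinFour (P : Subgroup G)) : Nat.card {C : ConjClasses G // ∃ t : G, orderOf t = 2 ∧ ConjClasses.mk t = C} = 3 ↔ ∃ N : Subgroup G, N.Normal ∧ Subgroup.IsComplement' N (P : Subgroup G) := by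
  have : Fact (Nat.Prime 2) := ⟨Nat.prime_two⟩
  have : IsMulCommutative (P : Subgroup G) := IsKleinFour.isMulCommutative
  rw [S0202.classes_eq P]
  constructor
  · intro h
    have hinj : Set.InjOn ConjClasses.mk (S0202.invs P) :=
      Set.injOn_of_ncard_image_eq (by rw [h, S0202.ncard_invs P hP])
    have hN : Subgroup.normalizer (P : Set G) ≤ Subgroup.centralizer (P : Set G) := by
      intro n hn a ha
      by_cases ha1 : a = 1
      · simp [ha1]
      have h1 : n * a * n⁻¹ ∈ P := (Subgroup.mem_normalizer_iff.1 hn a).1 ha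
      have h2 : n * a * n⁻¹ ≠ 1 := by
        intro h
        apply ha1
        simpa using h
      have h3 := hinj ((S0202.mem_invs_iff P hP a).2 ⟨ha, ha1⟩)
        ((S0202.mem_invs_iff P hP _).2 ⟨h1, h2⟩)
        (ConjClasses.mk_eq_mk_iff_isConj.2 (isConj_iff.2 ⟨n, rfl⟩))
      conv_lhs => rw [h3]
      group
    exact ⟨_, inferInstance, MonoidHom.ker_transferSylow_isComplement' P hN⟩
  · rintro ⟨N, hN, hc⟩
    rw [Set.InjOn.ncard_image, S0202.ncard_invs P hP]
    intro a ha b hb hab
    rw [ConjClasses.mk_eq_mk_iff_isConj] at hab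
    obtain ⟨g, hg⟩ := isConj_iff.1 hab
    obtain ⟨⟨n, t⟩, hnt⟩ := hc.2 g
    simp only at hnt
    have hcomm : (t : G) * a = a * t :=
      congrArg Subtype.val (mul_comm' t (⟨a, ha.1⟩ : (P : Subgroup G)))
    have h1 : b = n * a * (n : G)⁻¹ := by
      rw [← hg, ← hnt, mul_assoc (n : G) t a, hcomm]; group
    have h2 : b * a⁻¹ ∈ N := by
      have : b * a⁻¹ = n * (a * (n : G)⁻¹ * a⁻¹) := by rw [h1]; group
      rw [this]
      exact N.mul_mem n.2 (hN.conj_mem _ (N.inv_mem n.2) _)
    have h3 : b * a⁻¹ ∈ (P : Subgroup G) :=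
      (P : Subgroup G).mul_mem hb.1 ((P : Subgroup G).inv_mem ha.1)
    have h4 : b * a⁻¹ = 1 := by
      have := hc.disjoint
      rw [Subgroup.disjoint_def] at this
      exact this h2 h3
    exact (mul_inv_eq_one.1 h4).symm

end Cfsg.Agent.S0203
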