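import Cfsg.Statements.S0207
import Mathlib.Tactic

set_option autoImplicit false
open Cfsg

namespace Cfsg.Agent.S0207


/-- If x, y are distinct involutions, every element of the subgroup they generate that lies outside the cyclic subgroup generated by xy is an involution. -/
theorem result {G : Type*} [Group G] [Finite G] (x y : G) (hx : orderOf x = 2) (hy : orderOf y = 2) (hxy : x ≠ y) (d : G) (hd : d ∈ Subgroup.closure ({x, y} : Set G)) (hd' : d ∉ Subgroup.zpowers (x * y)) : orderOf d = 2 := by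
  have h2 : ∀ u : G, orderOf u = 2 → u * u = 1 := fun u hu => by
    rw [← pow_two, ← hu, pow_orderOf_eq_one]
  have hinv : ∀ u : G, orderOf u = 2 → u⁻¹ = u := fun u hu =>
    inv_eq_of_mul_eq_one_right (h2 u hu)
  set r := x * y with hr
  have hxr : x * r * x = r⁻¹ := by
    rw [hr, mul_inv_rev, hinv x hx, hinv y hy, ← mul_assoc, h2 x hx, one_mul]
  have hxrk : ∀ k : ℤ, x * r ^ k * x = r ^ (-k) := by
    intro k
    have : x * r ^ k * x⁻¹ = (x * r * x⁻¹) ^ k := by rw [conj_zpow]
    rw [hinv x hx] at this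
    rw [this, hxr, zpow_neg, inv_zpow]
  have hxrk' : ∀ k : ℤ, r ^ k * x = x * r ^ (-k) := by
    intro k
    rw [← hxrk k, ← mul_assoc, ← mul_assoc, h2 x hx, one_mul]
  have key : ∀ d ∈ Subgroup.closure ({x, y} : Set G),
      (∃ k : ℤ, d = r ^ k) ∨ (∃ k : ℤ, d = x * r ^ k) := by
    intro d hd
    induction hd using Subgroup.closure_induction with
    | mem z hz =>
      rcases hz with rfl | rfl
      · right; exact ⟨0, by simp⟩
      · right; refine ⟨1, ?_⟩
        rw [zpow_one, hr, ← mul_assoc, h2 x hx, one_mul]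
    | one => left; exact ⟨0, by simp⟩
    | mul a b _ _ ha hb =>
      rcases ha with ⟨k, rfl⟩ | ⟨k, rfl⟩ <;> rcases hb with ⟨l, rfl⟩ | ⟨l, rfl⟩
      · left; exact ⟨k + l, by rw [zpow_add]⟩
      · right; refine ⟨-k + l, ?_⟩
        rw [← mul_assoc, hxrk', zpow_add, mul_assoc]
      · right; exact ⟨k + l, by rw [zpow_add, mul_assoc]⟩
      · left; refine ⟨-k + l, ?_⟩
        rw [← mul_assoc, hxrk, zpow_add]
    | inv a _ ha =>
      rcases ha with ⟨k, rfl⟩ | ⟨k, rfl⟩
      · left; exact ⟨-k, by rw [zpow_neg]⟩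
      · right; refine ⟨k, ?_⟩
        rw [mul_inv_rev, hinv x hx, ← zpow_neg, hxrk', neg_neg]
  rcases key d hd with ⟨k, rfl⟩ | ⟨k, rfl⟩
  · exact absurd ⟨k, rfl⟩ hd'
  · haveI : Fact (Nat.Prime 2) := ⟨Nat.prime_two⟩
    apply orderOf_eq_prime
    · rw [pow_two, ← mul_assoc, hxrk, ← zpow_add, neg_add_cancel, zpow_zero]
    · intro h
      apply hd'
      rw [h]; exact one_mem _

end Cfsg.Agent.S0207
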