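import Cfsg.Statements.S0211
import Mathlib.Tactic

set_option autoImplicit false
open Cfsg

namespace Cfsg.Agent.S0211

theorem conj_form {G : Type*} [Group G] (x y : G) (hx : x * x = 1) (hy : y * y = 1) (d : G)
    (hd : d ∈ Subgroup.closure ({x, y} : Set G)) :
    ∃ k : ℤ, d = (x * y) ^ k ∨ d = (x * y) ^ k * x := by
  have hxi : x⁻¹ = x := inv_eq_of_mul_eq_one_right hx
  have hyi : y⁻¹ = y := inv_eq_of_mul_eq_one_right hy
  have hinv : ∀ k : ℤ, x * (x * y) ^ k = (x * y) ^ (-k) * x := by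
    intro k
    have h1 : x * (x * y) * x⁻¹ = (x * y)⁻¹ := by
      rw [mul_inv_rev, hxi, hyi, ← mul_assoc, hx, one_mul]
    have h2 : x * (x * y) ^ k * x⁻¹ = (x * y) ^ (-k) := by
      rw [← conj_zpow, h1, inv_zpow']
    rw [← h2]; group
  induction hd using Subgroup.closure_induction with
  | mem z hz =>
    rcases hz with rfl | rfl
    · exact ⟨0, Or.inr (by simp)⟩
    · refine ⟨-1, Or.inr ?_⟩
      rw [zpow_neg_one, mul_inv_rev, hxi, hyi, mul_assoc, hx, mul_one]
  | one => exact ⟨0, Or.inl (by simp)⟩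
  | mul a b _ _ iha ihb =>
    obtain ⟨k, rfl | rfl⟩ := iha <;> obtain ⟨l, rfl | rfl⟩ := ihb
    · exact ⟨k + l, Or.inl (by rw [zpow_add])⟩
    · exact ⟨k + l, Or.inr (by rw [zpow_add, mul_assoc])⟩
    · exact ⟨k + -l, Or.inr (by rw [mul_assoc, hinv, zpow_add, mul_assoc])⟩
    · refine ⟨k + -l, Or.inl ?_⟩
      rw [mul_assoc, ← mul_assoc x, hinv, zpow_add, mul_assoc _ x x, hx, mul_one]
  | inv a _ iha =>
    obtain ⟨k, rfl | rfl⟩ := iha
    · exact ⟨-k, Or.inl (by rw [zpow_neg])⟩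
    · refine ⟨k, Or.inr ?_⟩
      rw [mul_inv_rev, hxi, ← zpow_neg, hinv, neg_neg]

/-- Let x, y be involutions with xy of even order n and z = (xy)^(n/2). Then xz is conjugate to x by an element of the subgroup generated by x, y if and only if 4 divides n. -/
theorem result {G : Type*} [Group G] [Finite G] (x y : G) (hx : orderOf x = 2) (hy : orderOf y = 2) (heven : Even (orderOf (x * y))) : (∃ d ∈ Subgroup.closure ({x, y} : Set G), d * x * d⁻¹ = x * (x * y) ^ (orderOf (x * y) / 2)) ↔ 4 ∣ orderOf (x * y) := by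
  have hx2 : x * x = 1 := by rw [← pow_two, ← hx]; exact pow_orderOf_eq_one x
  have hy2 : y * y = 1 := by rw [← pow_two, ← hy]; exact pow_orderOf_eq_one y
  have hxi : x⁻¹ = x := inv_eq_of_mul_eq_one_right hx2
  have hyi : y⁻¹ = y := inv_eq_of_mul_eq_one_right hy2
  have hinv : ∀ k : ℤ, (x * y) ^ k * x = x * (x * y) ^ (-k) := by
    intro k
    have h1 : x⁻¹ * (x * y) * x⁻¹⁻¹ = (x * y)⁻¹ := by
      rw [mul_inv_rev, inv_inv, hxi, hyi, ← mul_assoc, hx2, one_mul]
    have h2 : x⁻¹ * (x * y) ^ k * x⁻¹⁻¹ = (x * y) ^ (-k) := by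
      rw [← conj_zpow, h1, inv_zpow']
    rw [← h2]; group
  have hconj : ∀ k : ℤ, (x * y) ^ k * x * ((x * y) ^ k)⁻¹ = x * (x * y) ^ (-(2 * k)) := by
    intro k
    rw [hinv, ← zpow_neg, mul_assoc, ← zpow_add]
    congr 2; ring
  obtain ⟨m, hm⟩ := heven
  have hm2 : orderOf (x * y) / 2 = m := by omega
  rw [hm2]
  constructor
  · rintro ⟨d, hd, hdx⟩
    have : ∃ k : ℤ, (x * y) ^ (-(2 * k)) = (x * y) ^ (m : ℤ) := by
      obtain ⟨k, rfl | rfl⟩ := conj_form x y hx2 hy2 d hd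
      · refine ⟨k, ?_⟩
        rw [hconj] at hdx
        rw [zpow_natCast]
        exact mul_left_cancel hdx
      · refine ⟨k, ?_⟩
        have : (x * y) ^ k * x * x * ((x * y) ^ k * x)⁻¹ = (x * y) ^ k * x * ((x * y) ^ k)⁻¹ := by
          group
        rw [this, hconj] at hdx
        rw [zpow_natCast]
        exact mul_left_cancel hdx
    obtain ⟨k, hk⟩ := this
    rw [zpow_eq_zpow_iff_modEq, hm] at hk
    obtain ⟨c, hc⟩ := hk.dvd
    have h2 : (2 : ℤ) ∣ m := ⟨c * m - k, by push_cast at hc; linarith⟩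
    have h3 : 2 ∣ m := by exact_mod_cast h2
    omega
  · intro h4
    obtain ⟨j, hj⟩ : 2 ∣ m := by omega
    refine ⟨(x * y) ^ (-(j : ℤ)), ?_, ?_⟩
    · apply Subgroup.zpow_mem
      exact Subgroup.mul_mem _ (Subgroup.subset_closure (by simp)) (Subgroup.subset_closure (by simp))
    · rw [hconj, hj, ← zpow_natCast]
      congr 2; push_cast; ring

end Cfsg.Agent.S0211
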