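import Cfsg.Statements.S0212
import Cfsg.Agent.S0233
import Mathlib.GroupTheory.IndexNormal
import Mathlib.GroupTheory.GroupAction.ConjAct

set_option autoImplicit false
open Cfsg

namespace Cfsg.Agent.S0212

theorem card_le_invol_mul {G : Type*} [Group G] [Finite G] (t : G) (ht : orderOf t = 2) :
    Nat.card G ≤ Nat.card {t : G // orderOf t = 2} *
      Nat.card (Subgroup.centralizer ({t} : Set G)) := by
  rw [← (Subgroup.centralizer ({t} : Set G)).index_mul_card]
  refine Nat.mul_le_mul_right _ ?_
  let f : G ⧸ Subgroup.centralizer ({t} : Set G) → {t : G // orderOf t = 2} := fun q =>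
    ⟨q.out * t * q.out⁻¹, by
      have := (MulAut.conj q.out).orderOf_eq t
      rw [ht] at this
      exact this⟩
  refine Nat.card_le_card_of_injective f ?_
  intro a b hab
  have h : a.out * t * a.out⁻¹ = b.out * t * b.out⁻¹ := congrArg Subtype.val hab
  rw [← a.out_eq, ← b.out_eq]
  refine QuotientGroup.eq.mpr ?_
  rw [S0233.mem_cent_iff]
  calc a.out⁻¹ * b.out * t * (a.out⁻¹ * b.out)⁻¹ = a.out⁻¹ * (b.out * t * b.out⁻¹) * a.out := by group
    _ = t := by rw [← h]; group

/-- The Brauer–Fowler bound: if G is a finite simple group and t an involution of G whose centralizer has order n, then |G| ≤ (2n^2)!. -/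
theorem result {G : Type*} [Group G] [Finite G] [IsSimpleGroup G] (t : G) (ht : orderOf t = 2) : Nat.card G ≤ Nat.factorial (2 * (Nat.card (Subgroup.centralizer ({t} : Set G))) ^ 2) := by
  set n := Nat.card (Subgroup.centralizer ({t} : Set G)) with hn
  have hn0 : 0 < n := Nat.card_pos
  rcases (inferInstance : (Subgroup.center G).Normal).eq_bot_or_eq_top with hZ | hZ
  · have heven : Even (Nat.card G) := even_iff_two_dvd.mpr (ht ▸ orderOf_dvd_natCard t)
    obtain ⟨H, hH, hidx⟩ := S0233.result heven (by rw [hZ, Subgroup.card_bot]; exact odd_one)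
    have hcore : H.normalCore = ⊥ := by
      rcases H.normalCore_normal.eq_bot_or_eq_top with h | h
      · exact h
      · exact absurd (top_le_iff.mp (h ▸ H.normalCore_le)) hH
    have h : H.normalCore.index ∣ H.index.factorial := by
      rw [Subgroup.normalCore_eq_ker, Subgroup.index_ker, Subgroup.index_eq_card, ← Nat.card_perm]
      exact Subgroup.card_subgroup_dvd_card (MulAction.toPermHom G (G ⧸ H)).range
    rw [hcore, Subgroup.index_bot] at h
    refine (Nat.le_of_dvd (Nat.factorial_pos _) h).trans (Nat.factorial_le ?_)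
    rcases hidx with hidx | hidx
    · rw [hidx]
      nlinarith
    · have h1 := card_le_invol_mul t ht
      rw [← hn] at h1
      set N := Nat.card {t : G // orderOf t = 2}
      set g := Nat.card G
      have h2 : g * (g + N) ≤ (N * n) * (N * n + N) :=
        Nat.mul_le_mul h1 (Nat.add_le_add_right h1 _)
      have h3 : 2 * H.index * N ^ 2 < (n * (n + 1)) * N ^ 2 := by
        calc _ < _ := hidx
          _ ≤ _ := h2
          _ = _ := by ring
      have h4 := Nat.lt_of_mul_lt_mul_right h3
      nlinarith
  · have h1 : Subgroup.centralizer ({t} : Set G) = ⊤ := by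
      rw [eq_top_iff, ← hZ]
      exact Subgroup.center_le_centralizer _
    have h2 : n = Nat.card G := by rw [hn, h1, Subgroup.card_top]
    rw [← h2]
    refine le_trans ?_ (Nat.self_le_factorial _)
    nlinarith

end Cfsg.Agent.S0212
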