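import Cfsg.Statements.S0216
import Cfsg.Agent.Local.Dihedral

set_option autoImplicit false
open Cfsg

namespace Cfsg.Agent.S0216
open Cfsg.Lib.Local

/-- For an involution u in a Sylow 2-subgroup P of a finite group G, the following are equivalent: no G-conjugate of u other than u lies in P; every commutator of u with an element of G has odd order. -/
theorem result {G : Type*} [Group G] [Finite G] (P : Sylow 2 G) (u : G) (hu : orderOf u = 2) (huP : u ∈ P) : (∀ g : G, g * u * g⁻¹ ∈ P → g * u * g⁻¹ = u) ↔ (∀ g : G, Odd (orderOf (u * g * u⁻¹ * g⁻¹))) := by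
  have hu2 := mul_self_of_orderOf_two hu
  have hui := inv_eq_self_of_orderOf_two hu
  have : Fact (Nat.Prime 2) := Nat.fact_prime_two
  constructor
  · intro hiso g
    set v := g * u * g⁻¹ with hv
    have hv2 : v * v = 1 := by
      rw [hv]
      calc g * u * g⁻¹ * (g * u * g⁻¹) = g * (u * u) * g⁻¹ := by group
        _ = 1 := by rw [hu2]; group
    have hr : u * g * u⁻¹ * g⁻¹ = u * v := by rw [hv, hui]; group
    rw [hr]
    have hinv := dih_inverts hu2 hv2
    obtain ⟨a, m, hm, hn⟩ := Nat.exists_eq_two_pow_mul_odd (orderOf_pos (u * v)).ne'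
    obtain ⟨j, hj⟩ := hm
    -- w = u (uv)^m is conjugate to v
    set w := u * (u * v) ^ m with hw
    have hwc : ∃ h : G, h * u * h⁻¹ = w := by
      refine ⟨(u * v) ^ (-(j : ℤ)) * g, ?_⟩
      have e1 : (u * v) ^ (-(j : ℤ)) * g * u * ((u * v) ^ (-(j : ℤ)) * g)⁻¹
          = (u * v) ^ (-(j : ℤ)) * v * ((u * v) ^ (-(j : ℤ)))⁻¹ := by
        nth_rewrite 4 [hv]; group
      rw [e1, dih_conj (dih_inverts' hu2 hv2), hw, hj]
      have e2 : v = u * (u * v) := by rw [← mul_assoc, hu2, one_mul]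
      nth_rewrite 1 [e2]
      rw [mul_assoc, ← zpow_natCast, ← zpow_one_add]
      congr 2; push_cast; ring
    obtain ⟨h, hh⟩ := hwc
    have hw2 : w * w = 1 := by
      rw [← hh]
      calc h * u * h⁻¹ * (h * u * h⁻¹) = h * (u * u) * h⁻¹ := by group
        _ = 1 := by rw [hu2]; group
    have huw : u * w = (u * v) ^ m := by rw [hw, ← mul_assoc, hu2, one_mul]
    have hP : IsPGroup 2 (Subgroup.closure ({u, w} : Set G)) := by
      rintro ⟨d, hd⟩
      obtain ⟨k, rfl | rfl⟩ := dih_mem_closure_form hu2 hw2 hd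
      · refine ⟨a, Subtype.ext ?_⟩
        show ((u * w) ^ k) ^ (2 ^ a) = 1
        rw [← zpow_natCast, ← zpow_mul, mul_comm k, zpow_mul, zpow_natCast, huw, ← pow_mul,
          mul_comm m, ← hn, pow_orderOf_eq_one, one_zpow]
      · refine ⟨1, Subtype.ext ?_⟩
        show (u * (u * w) ^ k) ^ (2 ^ 1) = 1
        rw [pow_one, pow_two, mul_assoc, ← mul_assoc _ u, dih_zpow_mul (dih_inverts hu2 hw2),
          ← mul_assoc, ← mul_assoc, hu2, one_mul, ← zpow_add]
        simp
    obtain ⟨Q, hQ⟩ := hP.exists_le_sylow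
    obtain ⟨c, hc⟩ := MulAction.exists_smul_eq G Q P
    have hmem : ∀ z ∈ Subgroup.closure ({u, w} : Set G), c * z * c⁻¹ ∈ P := by
      intro z hz
      rw [← hc]
      exact Subgroup.smul_mem_pointwise_smul z (MulAut.conj c) _ (hQ hz)
    have h1 := hiso c (hmem u (Subgroup.subset_closure (by simp)))
    have h2 := hiso (c * h) (by
      have := hmem w (Subgroup.subset_closure (by simp))
      rw [← hh] at this
      convert this using 1; group)
    have h3 : w = u := by
      have : c * w * c⁻¹ = c * u * c⁻¹ := by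
        rw [h1, ← hh]
        nth_rewrite 2 [← h2]
        group
      simpa using this
    have h4 : (u * v) ^ m = 1 := by rw [← huw, h3, hu2]
    exact Odd.of_dvd_nat ⟨j, hj⟩ (orderOf_dvd_of_pow_eq_one h4)
  · intro h g hg
    have h1 : u * g * u⁻¹ * g⁻¹ ∈ P := by
      have : u * (g * u * g⁻¹) ∈ P := P.mul_mem huP hg
      rw [hui]
      simpa only [mul_assoc] using this
    obtain ⟨k, hk⟩ := P.isPGroup' ⟨_, h1⟩
    have hk' : (u * g * u⁻¹ * g⁻¹) ^ 2 ^ k = 1 := congrArg Subtype.val hk
    have h2 : orderOf (u * g * u⁻¹ * g⁻¹) = 1 :=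
      Nat.Coprime.eq_one_of_dvd (Nat.Coprime.pow_right k (Nat.coprime_two_right.mpr (h g)))
        (orderOf_dvd_of_pow_eq_one hk')
    rw [orderOf_eq_one_iff, hui] at h2
    calc g * u * g⁻¹ = u⁻¹ * (u * g * u * g⁻¹) := by group
      _ = u := by rw [h2, hui, mul_one]

end Cfsg.Agent.S0216
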