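import Cfsg.Statements.S0220
import Cfsg.Agent.S0219
import Cfsg.Agent.Local.NormalFour

set_option autoImplicit false
open Cfsg

namespace Cfsg.Agent.S0220

/-- If x is an involution of a finite group G and a Sylow 2-subgroup of the centralizer of x is cyclic, then G has a subgroup of index 2; in particular G is not simple unless it has order 2. -/
theorem result {G : Type*} [Group G] [Finite G] (x : G) (hx : orderOf x = 2) (S : Sylow 2 ↥(Subgroup.centralizer ({x} : Set G))) (hS : IsCyclic (S : Subgroup ↥(Subgroup.centralizer ({x} : Set G)))) : ∃ H : Subgroup G, H.index = 2 := by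
  classical
  have : Fact (Nat.Prime 2) := ⟨Nat.prime_two⟩
  have heven : Even (Nat.card G) := by
    rw [even_iff_two_dvd, ← hx]
    exact orderOf_dvd_natCard x
  let C := Subgroup.centralizer ({x} : Set G)
  have hxC : x ∈ C := Subgroup.mem_centralizer_singleton_iff.2 rfl
  obtain ⟨T, hT⟩ := S.exists_comap_subtype_eq
  -- `x` lies in `S`
  have hxS : (⟨x, hxC⟩ : C) ∈ (S : Subgroup C) := by
    have hn : (Subgroup.zpowers (⟨x, hxC⟩ : C)).Normal := by
      refine ⟨fun a ha g => ?_⟩
      obtain ⟨j, rfl⟩ := ha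
      have hc : Commute g (⟨x, hxC⟩ : C) :=
        Subtype.ext (Subgroup.mem_centralizer_singleton_iff.1 g.2)
      simp only
      rw [(hc.zpow_right j).eq, mul_inv_cancel_right]
      exact ⟨j, rfl⟩
    have hp : IsPGroup 2 (Subgroup.zpowers (⟨x, hxC⟩ : C)) := by
      apply IsPGroup.of_card (n := 1)
      rw [Nat.card_zpowers, ← Subgroup.orderOf_coe, pow_one]
      exact hx
    exact hp.le_sylow_of_normal S (Subgroup.mem_zpowers _)
  have hxT : x ∈ (T : Subgroup G) := by
    rw [← hT] at hxS
    exact hxS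
  -- `T` centralizes `x`
  have hTC : (T : Subgroup G) ≤ C := by
    have := T.2.isNilpotent
    have hnc : NormalizerCondition (T : Subgroup G) := Group.normalizerCondition_of_isNilpotent
    rw [normalizerCondition_iff_only_full_group_self_normalizing] at hnc
    have h := hnc (C.subgroupOf T) (by
      refine le_antisymm ?_ Subgroup.le_normalizer
      intro t ht
      have h1 : t * ⟨x, hxT⟩ * t⁻¹ ∈ C.subgroupOf T :=
        (Subgroup.mem_normalizer_iff.1 ht _).1 hxC
      have h2 : (⟨t * x * (t : G)⁻¹, h1⟩ : C) ∈ (S : Subgroup C) := by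
        rw [← hT]
        exact (t * ⟨x, hxT⟩ * t⁻¹).2
      have := Fintype.ofFinite (S : Subgroup C)
      have h3 := IsCyclic.card_orderOf_eq_totient (α := (S : Subgroup C)) (d := 2) (by
        rw [← Nat.card_eq_fintype_card]
        have h4 : orderOf (⟨⟨x, hxC⟩, hxS⟩ : (S : Subgroup C)) = 2 := by
          rw [← Subgroup.orderOf_coe, ← Subgroup.orderOf_coe]; exact hx
        exact h4.symm.dvd.trans (orderOf_dvd_natCard _))
      rw [Nat.totient_two, Finset.card_eq_one] at h3
      obtain ⟨a, ha⟩ := h3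
      have e1 : (⟨⟨x, hxC⟩, hxS⟩ : (S : Subgroup C)) ∈ ({a} : Finset _) := by
        rw [← ha, Finset.mem_filter, ← Subgroup.orderOf_coe, ← Subgroup.orderOf_coe]
        exact ⟨Finset.mem_univ _, hx⟩
      have e2 : (⟨⟨t * x * (t : G)⁻¹, h1⟩, h2⟩ : (S : Subgroup C)) ∈ ({a} : Finset _) := by
        rw [← ha, Finset.mem_filter, ← Subgroup.orderOf_coe, ← Subgroup.orderOf_coe]
        exact ⟨Finset.mem_univ _, ((MulAut.conj (t : G)).orderOf_eq x).trans hx⟩
      rw [Finset.mem_singleton] at e1 e2
      have e3 : t * x * (t : G)⁻¹ = x := congrArg (fun y => (y.1.1 : G)) (e2.trans e1.symm)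
      exact Subgroup.mem_centralizer_singleton_iff.2 (mul_inv_eq_iff_eq_mul.1 e3))
    exact Subgroup.subgroupOf_eq_top.1 h
  refine S0219.result heven T ?_
  rw [← hT] at hS
  have : IsCyclic ((T : Subgroup G).subgroupOf C) := hS
  exact isCyclic_of_surjective _ (Subgroup.subgroupOfEquivOfLe hTC).surjective

end Cfsg.Agent.S0220
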