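import Cfsg.Statements.S0221
import Cfsg.Agent.Local.NormalFour

set_option autoImplicit false
open Cfsg

namespace Cfsg.Agent.S0221

open Cfsg.Lib.Local

/-- Let G be a finite group with no subgroup of index 2 whose 2-rank is at least 3 (it contains an elementary abelian subgroup of order 8). Then the centralizer of every involution of G also contains an elementary abelian subgroup of order 8. -/
theorem result {G : Type*} [Group G] [Finite G] (hno : ∀ H : Subgroup G, H.index ≠ 2) (hrank : ∃ E : Subgroup G, Nat.card E = 8 ∧ ∀ e ∈ E, e ^ 2 = 1) (x : G) (hx : orderOf x = 2) : ∃ E : Subgroup G, E ≤ Subgroup.centralizer ({x} : Set G) ∧ Nat.card E = 8 ∧ ∀ e ∈ E, e ^ 2 = 1 := by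
  have : Fact (Nat.Prime 2) := ⟨Nat.prime_two⟩
  obtain ⟨E, hE8, hE2⟩ := hrank
  have hEp : IsPGroup 2 E := IsPGroup.of_card (n := 3) hE8
  obtain ⟨T, hET⟩ := hEp.exists_le_sylow
  have hx2 : x ^ 2 = 1 := by rw [← hx, pow_orderOf_eq_one]
  have hx1 : x ≠ 1 := by rintro rfl; simp at hx
  obtain ⟨z, e, hzz, hee, hz1, he1, hez, hzc, hconj⟩ :=
    exists_normal_four_of_elementary T.2 (E.subgroupOf T) (by
      rw [Nat.card_congr (Subgroup.subgroupOfEquivOfLe hET).toEquiv, hE8]; norm_num) (by
      intro e he
      apply Subtype.ext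
      have := hE2 e he
      rwa [pow_two] at this)
  have hzi : z⁻¹ = z := inv_eq_of_mul_eq_one_right hzz
  -- two elements of `T` not centralizing `e` have a product centralizing `e`
  have hprod : ∀ a b : (T : Subgroup G), ¬ (a * e = e * a) → ¬ (b * e = e * b) →
      a * b * e = e * (a * b) := by
    intro a b ha hb
    have h1 := (hconj a).resolve_left fun h => ha (mul_inv_eq_iff_eq_mul.1 h)
    have h2 := (hconj b).resolve_left fun h => hb (mul_inv_eq_iff_eq_mul.1 h)
    rw [← mul_inv_eq_iff_eq_mul]
    calc a * b * e * (a * b)⁻¹ = a * (b * e * b⁻¹) * a⁻¹ := by group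
      _ = z * (a * e * a⁻¹) := by rw [h2, ← mul_assoc a, hzc a]; group
      _ = e := by rw [h1, ← mul_assoc, hzz, one_mul]
  -- some conjugate of `x` lies in `T` and centralizes `e`
  have hy : ∃ g : G, ∃ y : (T : Subgroup G), g * x * g⁻¹ = y ∧ y * e = e * y := by
    by_cases hall : ∀ a : (T : Subgroup G), a * e = e * a
    · have hQ : IsPGroup 2 (Subgroup.zpowers x) := by
        apply IsPGroup.of_card (n := 1)
        rw [Nat.card_zpowers, hx, pow_one]
      obtain ⟨Q, hQ⟩ := hQ.exists_le_sylow
      obtain ⟨g, hg⟩ := MulAction.exists_smul_eq G Q T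
      refine ⟨g, ⟨g * x * g⁻¹, ?_⟩, rfl, hall _⟩
      rw [← hg]
      have : x ∈ (Q : Subgroup G) := hQ (Subgroup.mem_zpowers x)
      exact Subgroup.smul_mem_pointwise_smul x (MulAut.conj g) _ this
    · push Not at hall
      obtain ⟨a, ha⟩ := hall
      let C : Subgroup (T : Subgroup G) := Subgroup.centralizer {e}
      have hC : ∀ b, b ∈ C ↔ b * e = e * b := fun b => Subgroup.mem_centralizer_singleton_iff
      have hCi : C.index = 2 := by
        rw [Subgroup.index_eq_two_iff]
        refine ⟨a, fun b => ?_⟩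
        rw [hC, hC]
        by_cases hb : b * e = e * b
        · refine Or.inr ⟨hb, fun h => ha ?_⟩
          rw [← mul_assoc, ← hb, mul_assoc, mul_assoc] at h
          exact mul_left_cancel h
        · exact Or.inl ⟨hprod b a hb ha, hb⟩
      have hodd : ¬ 2 ∣ (T : Subgroup G).index := T.not_dvd_index
      have hQ : (C.map (T : Subgroup G).subtype).index % 4 = 2 := by
        rw [Subgroup.index_map_subtype, hCi]
        omega
      by_contra hcon
      obtain ⟨M, hM, -⟩ := exists_index_two_not_mem_of_index_mod_four _ hQ x hx2 (by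
        rintro g ⟨y, hy, hyg⟩
        exact hcon ⟨g, y, hyg.symm, (hC y).1 hy⟩)
      exact hno M hM
  obtain ⟨g, y, hgy, hye⟩ := hy
  have hyy : y * y = 1 := by
    apply Subtype.ext
    rw [Subgroup.coe_mul, ← hgy, conj_mul, ← pow_two, hx2]
    simp
  have hy1 : y ≠ 1 := by
    rintro rfl
    apply hx1
    simpa using hgy
  -- an elementary abelian group of order 8 in `T` centralizing `y`
  have hK : ∃ K : Subgroup (T : Subgroup G), Nat.card K = 8 ∧ (∀ k ∈ K, k ^ 2 = 1) ∧
      K ≤ Subgroup.centralizer {y} := by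
    have hm : ∀ b : (T : Subgroup G), b * y = y * b → b ∈ Subgroup.centralizer {y} :=
      fun b hb => Subgroup.mem_centralizer_singleton_iff.2 hb
    by_cases hyU : y = z ∨ y = e ∨ y = z * e
    · have hf : ∃ f : (T : Subgroup G), f * f = 1 ∧ f * e = e * f ∧ f ≠ 1 ∧ f ≠ z ∧ f ≠ e ∧
          f ≠ z * e := by
        have hcard : Nat.card (E.subgroupOf T) = 8 := by
          rw [Nat.card_congr (Subgroup.subgroupOfEquivOfLe hET).toEquiv, hE8]
        have hsq : ∀ f ∈ E.subgroupOf T, f * f = 1 := by
          intro e he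
          apply Subtype.ext
          have := hE2 e he
          rwa [pow_two] at this
        have hcm : ∀ a ∈ E.subgroupOf T, ∀ b ∈ E.subgroupOf T, a * b = b * a := by
          intro a ha b hb
          rw [← inv_eq_of_mul_eq_one_right (hsq _ (Subgroup.mul_mem _ ha hb)), mul_inv_rev,
            inv_eq_of_mul_eq_one_right (hsq a ha), inv_eq_of_mul_eq_one_right (hsq b hb)]
        by_cases hall : ∀ f ∈ E.subgroupOf T, f * e = e * f
        · by_contra hcon
          push Not at hcon
          have h : (E.subgroupOf T : Set (T : Subgroup G)) ⊆ {1, z, e, z * e} := by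
            intro f hf
            have := hcon f (hsq f hf) (hall f hf)
            simp only [Set.mem_insert_iff, Set.mem_singleton_iff]
            tauto
          have h1 := Set.ncard_le_ncard h
          have h2 : ({1, z, e, z * e} : Set (T : Subgroup G)).ncard ≤ 4 := by
            refine (Set.ncard_insert_le _ _).trans (Nat.succ_le_succ ?_)
            refine (Set.ncard_insert_le _ _).trans (Nat.succ_le_succ ?_)
            refine (Set.ncard_insert_le _ _).trans (Nat.succ_le_succ ?_)
            simp
          have h3 : Nat.card (E.subgroupOf T) = (E.subgroupOf T : Set (T : Subgroup G)).ncard := rfl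
          omega
        · obtain ⟨f, hfE, hfe, hf1, hfz⟩ := exists_mem_of_four_lt_card (E.subgroupOf T)
            (by rw [hcard]; norm_num) (fun f => f * e = e * f)
            (fun a _ b _ ha hb => hprod a b ha hb) z
          refine ⟨f, hsq f hfE, hfe, hf1, hfz, ?_, ?_⟩
          · rintro rfl
            exact hall fun b hb => hcm b hb _ hfE
          · rintro rfl
            refine hall fun b hb => ?_
            have := hcm b hb _ hfE
            rw [← mul_assoc, hzc b, mul_assoc, mul_assoc] at this
            exact mul_left_cancel this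
      obtain ⟨f, hff, hfe, hf1, hfz, hfe', hfze⟩ := hf
      obtain ⟨K, h1, h2, h3⟩ := exists_elementary_eight z e f hzz hee hff (hzc e).symm
        (hzc f).symm hfe.symm hz1 he1 hez hf1 hfz hfe' hfze
      refine ⟨K, h1, h2, h3 _ (hm z (hzc y).symm) (hm e hye.symm) (hm f ?_)⟩
      rcases hyU with rfl | rfl | rfl
      · exact hzc f
      · exact hfe
      · rw [← mul_assoc, hzc f, mul_assoc, hfe, mul_assoc]
    · push Not at hyU
      obtain ⟨K, h1, h2, h3⟩ := exists_elementary_eight z e y hzz hee hyy (hzc e).symm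
        (hzc y).symm hye.symm hz1 he1 hez hy1 hyU.1 hyU.2.1 hyU.2.2
      exact ⟨K, h1, h2, h3 _ (hm z (hzc y).symm) (hm e hye.symm) (hm y rfl)⟩
  obtain ⟨K, h1, h2, h3⟩ := hK
  let φ : (T : Subgroup G) →* G := (MulAut.conj g⁻¹).toMonoidHom.comp (T : Subgroup G).subtype
  have hφ : Function.Injective φ := (MulAut.conj g⁻¹).injective.comp Subtype.val_injective
  have hφy : φ y = x := by
    change g⁻¹ * y * g⁻¹⁻¹ = x
    rw [← hgy]; group
  refine ⟨K.map φ, ?_, by rw [Subgroup.card_map_of_injective hφ, h1], ?_⟩
  · rintro _ ⟨k, hk, rfl⟩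
    rw [Subgroup.mem_centralizer_singleton_iff, ← hφy, ← map_mul, ← map_mul,
      Subgroup.mem_centralizer_singleton_iff.1 (h3 hk)]
  · rintro _ ⟨k, hk, rfl⟩
    rw [← map_pow, h2 k hk, map_one]

end Cfsg.Agent.S0221
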