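import Cfsg.Statements.S0226
import Mathlib.GroupTheory.Perm.Cycle.Type

set_option autoImplicit false
open Cfsg

namespace Cfsg.Agent.S0226

/-- A finite group of even order has an odd number of involutions. -/
theorem result {G : Type*} [Group G] [Finite G] (heven : Even (Nat.card G)) : Odd (Nat.card {t : G // orderOf t = 2}) := by
  classical
  have := Fintype.ofFinite G
  have : Fact (Nat.Prime 2) := ⟨Nat.prime_two⟩
  let f : Function.End G := fun x => x⁻¹
  have hf : f ^ 2 ^ 1 = 1 := by
    funext x
    change (x⁻¹)⁻¹ = x
    simp
  have h := Equiv.Perm.card_fixedPoints_modEq (α := G) (f := f) (p := 2) (n := 1) hf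
  have h2 : Fintype.card f.fixedPoints = Nat.card {t : G // orderOf t = 2} + 1 := by
    rw [Nat.card_eq_fintype_card, Fintype.card_subtype, Fintype.card_subtype]
    have : (Finset.univ.filter fun x => x ∈ f.fixedPoints) =
        insert (1 : G) (Finset.univ.filter fun t : G => orderOf t = 2) := by
      ext x
      simp only [Finset.mem_filter, Finset.mem_univ, true_and, Finset.mem_insert]
      change x⁻¹ = x ↔ _
      rw [orderOf_eq_prime_iff]
      constructor
      · intro hx
        by_cases h1 : x = 1
        · exact Or.inl h1
        · refine Or.inr ⟨?_, h1⟩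
          rw [pow_two]
          nth_rewrite 1 [← hx]
          simp
      · rintro (rfl | ⟨hx, -⟩)
        · simp
        · rw [pow_two] at hx
          exact inv_eq_of_mul_eq_one_right hx
    rw [this, Finset.card_insert_of_notMem]
    simp
  rw [h2, ← Nat.card_eq_fintype_card] at h
  obtain ⟨k, hk⟩ := heven
  rw [Nat.odd_iff]
  unfold Nat.ModEq at h
  omega

end Cfsg.Agent.S0226
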