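import Cfsg.Statements.S0229
import Cfsg.Agent.S0208

set_option autoImplicit false
open Cfsg

namespace Cfsg.Agent.S0229

/-- Let t be an involution of a Sylow 2-subgroup S of a finite group G, conjugate in G to no other element of S, and let s be an involution of G not conjugate to t. Then the order of st is twice an odd number. -/
theorem result {G : Type*} [Group G] [Finite G] (S : Sylow 2 G) (t : G) (ht : orderOf t = 2) (htS : t ∈ S) (hiso : ∀ g : G, g * t * g⁻¹ ∈ S → g * t * g⁻¹ = t) (s : G) (hs : orderOf s = 2) (hns : ¬ IsConj s t) : orderOf (s * t) % 4 = 2 := by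
  have : Fact (Nat.Prime 2) := ⟨Nat.prime_two⟩
  have hs2 : s * s = 1 := by rw [← pow_two, ← hs, pow_orderOf_eq_one]
  have ht2 : t * t = 1 := by rw [← pow_two, ← ht, pow_orderOf_eq_one]
  have hsi : s⁻¹ = s := inv_eq_of_mul_eq_one_right hs2
  have hti : t⁻¹ = t := inv_eq_of_mul_eq_one_right ht2
  have heven : ¬ Odd (orderOf (s * t)) := by
    intro hodd
    obtain ⟨d, -, hd⟩ := Cfsg.Agent.S0208.result s t hs ht hodd
    exact hns (isConj_iff.2 ⟨d, hd⟩)
  have hord : orderOf (t * s) = orderOf (s * t) := by
    rw [← orderOf_inv (s * t), mul_inv_rev, hsi, hti]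
  have h4 : ¬ 4 ∣ orderOf (s * t) := by
    rintro ⟨m, hm⟩
    have hpos : 0 < orderOf (s * t) := orderOf_pos _
    have hm0 : 0 < m := by omega
    -- `z = (t s) ^ (2 m)` is an involution commuting with `t`
    set z := (t * s) ^ (2 * m) with hz
    have hz2 : z * z = 1 := by
      rw [hz, ← pow_add, show 2 * m + 2 * m = 4 * m by ring, ← hm, ← hord, pow_orderOf_eq_one]
    have hz1 : z ≠ 1 := by
      intro h
      have := orderOf_dvd_of_pow_eq_one h
      rw [hord, hm] at this
      have := Nat.le_of_dvd (by omega) this
      omega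
    have hzi : z⁻¹ = z := inv_eq_of_mul_eq_one_right hz2
    have hcomm : t * z = z * t := by
      have := Cfsg.Agent.S0208.mul_pow_inv t s ht2 hs2 (2 * m)
      rw [← hz, hzi] at this
      exact this
    have hconj : (t * s) ^ m * t * ((t * s) ^ m)⁻¹ = z * t :=
      Cfsg.Agent.S0208.conj_pow_eq t s ht2 hs2 m
    -- the subgroup generated by `t` and `z` is a 2-group
    have hP : IsPGroup 2 (Subgroup.closure ({t, z} : Set G)) := by
      have key : ∀ g ∈ Subgroup.closure ({t, z} : Set G), g = 1 ∨ g = t ∨ g = z ∨ g = t * z := by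
        intro g hg
        have e1 : t * (t * z) = z := by rw [← mul_assoc, ht2, one_mul]
        have e2 : z * t = t * z := hcomm.symm
        have e3 : z * (t * z) = t := by rw [hcomm, ← mul_assoc, hz2, one_mul]
        have e4 : t * z * t = z := by rw [mul_assoc, ← hcomm, e1]
        have e5 : t * z * z = t := by rw [mul_assoc, hz2, mul_one]
        have e6 : t * z * (t * z) = 1 := by rw [← mul_assoc, e4, hz2]
        induction hg using Subgroup.closure_induction with
        | mem x hx =>
          rcases hx with rfl | rfl
          · simp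
          · simp
        | one => simp
        | mul x y _ _ hx hy =>
          rcases hx with rfl | rfl | rfl | rfl <;> rcases hy with rfl | rfl | rfl | rfl <;>
            simp [ht2, hz2, e1, e2, e3, e4, e5, e6]
        | inv x _ hx =>
          rcases hx with rfl | rfl | rfl | rfl
          · simp
          · simp [hti]
          · simp [hzi]
          · right; right; right
            exact inv_eq_of_mul_eq_one_right e6
      rintro ⟨g, hg⟩
      refine ⟨1, Subtype.ext ?_⟩
      have : g * g = 1 := by
        rcases key g hg with rfl | rfl | rfl | rfl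
        · simp
        · exact ht2
        · exact hz2
        · rw [mul_assoc, ← mul_assoc z, ← hcomm, mul_assoc, hz2, mul_one, ht2]
      simpa [pow_two] using this
    obtain ⟨Q, hQ⟩ := hP.exists_le_sylow
    obtain ⟨g, hg⟩ := MulAction.exists_smul_eq G Q S
    have hmem : ∀ x ∈ Subgroup.closure ({t, z} : Set G), g * x * g⁻¹ ∈ S := by
      intro x hx
      rw [← hg]
      have : x ∈ (Q : Subgroup G) := hQ hx
      rw [← SetLike.mem_coe, Sylow.coe_smul]
      exact Set.smul_mem_smul_set (a := MulAut.conj g) this
    have ht' : t ∈ Subgroup.closure ({t, z} : Set G) := Subgroup.subset_closure (by simp)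
    have hz' : z ∈ Subgroup.closure ({t, z} : Set G) := Subgroup.subset_closure (by simp)
    have h1 := hiso g (hmem t ht')
    have h2 : g * (z * t) * g⁻¹ = t := by
      have h3 := hmem (z * t) (Subgroup.mul_mem _ hz' ht')
      have h4 : g * (z * t) * g⁻¹ = (g * (t * s) ^ m) * t * (g * (t * s) ^ m)⁻¹ := by
        rw [← hconj]; group
      rw [h4] at h3 ⊢
      exact hiso _ h3
    have h5 : g * (z * t) * g⁻¹ = g * t * g⁻¹ := by rw [h1, h2]
    have h6 : z * t = t := by simpa using h5
    exact hz1 (by simpa using h6)
  rw [Nat.not_odd_iff_even, Nat.even_iff] at heven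
  omega

end Cfsg.Agent.S0229
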