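import Cfsg.Statements.S0230
import Cfsg.Agent.Local.InvolCount
import Mathlib.Tactic.Linarith

set_option autoImplicit false
open Cfsg

namespace Cfsg.Agent.S0230

open Cfsg.Lib.Local Finset

/-- Let G be a finite group with two non-conjugate involutions, and let t be an involution whose centralizer has maximal order among centralizers of involutions. Then |G| < |C_G(t)|^3. -/
theorem result {G : Type*} [Group G] [Finite G] (s t : G) (hs : orderOf s = 2) (ht : orderOf t = 2) (hnc : ¬ IsConj s t) (hmax : ∀ u : G, orderOf u = 2 → Nat.card (Subgroup.centralizer ({u} : Set G)) ≤ Nat.card (Subgroup.centralizer ({t} : Set G))) : Nat.card G < Nat.card (Subgroup.centralizer ({t} : Set G)) ^ 3 := by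
  classical
  have := Fintype.ofFinite G
  set m := Nat.card (Subgroup.centralizer ({t} : Set G)) with hm
  have hcard : ∀ x : G, Nat.card (Subgroup.centralizer ({x} : Set G)) =
      (univ.filter fun g : G => Commute g x).card := fun x => by
    rw [Nat.card_eq_fintype_card, Fintype.card_subtype]
    congr 1
    ext g
    simp only [mem_filter, mem_univ, true_and, Subgroup.mem_centralizer_singleton_iff]
    rfl
  let Z : Finset G := univ.filter fun z : G => orderOf z = 2 ∧ Commute z t
  have hZ : Z.card < m := by
    rw [hm, hcard]
    refine Finset.card_lt_card ⟨?_, ?_⟩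
    · intro z hz
      simp only [Z, mem_filter, mem_univ, true_and] at hz ⊢
      exact hz.2
    · intro h
      have : (1 : G) ∈ Z := h (by simp)
      simp [Z] at this
  have hsub : (univ.filter fun y : G => IsConj s y) ⊆
      Z.biUnion fun z => univ.filter fun g : G => Commute g z := by
    intro y hy
    simp only [mem_filter, mem_univ, true_and] at hy
    have hy2 : orderOf y = 2 := (orderOf_of_isConj hy).trans hs
    obtain ⟨z, -, hz2, hzt, hzy⟩ := exists_invol_commute_of_not_isConj ht hy2
      (fun h => hnc (hy.trans h.symm))
    simp only [Z, mem_biUnion, mem_filter, mem_univ, true_and]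
    exact ⟨z, ⟨hz2, hzt.symm⟩, hzy⟩
  have h1 : (univ.filter fun y : G => IsConj s y).card ≤ Z.card * m := by
    refine (Finset.card_le_card hsub).trans (Finset.card_biUnion_le_card_mul _ _ _ ?_)
    intro z hz
    simp only [Z, mem_filter, mem_univ, true_and] at hz
    rw [← hcard]
    exact hmax z hz.1
  have h2 := card_isConj_mul_card_centralizer s
  rw [Nat.card_eq_fintype_card, Fintype.card_subtype] at h2
  have h3 := hmax s hs
  have hm0 : 0 < m := Nat.card_pos
  rw [← h2]
  calc _ ≤ Z.card * m * m := Nat.mul_le_mul h1 h3
    _ < m * m * m := by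
      exact Nat.mul_lt_mul_of_pos_right (Nat.mul_lt_mul_of_pos_right hZ hm0) hm0
    _ = m ^ 3 := by ring

end Cfsg.Agent.S0230
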