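import Cfsg.Statements.S0231
import Cfsg.Agent.Local.StronglyEmbTwo

set_option autoImplicit false
open scoped Pointwise
open Cfsg

namespace Cfsg.Agent.S0231

open Cfsg.Lib.Local

/-- Let T be a Sylow 2-subgroup of the finite group G which is not normal and which intersects every other Sylow 2-subgroup trivially. Then G has a single conjugacy class of involutions. -/
theorem result {G : Type*} [Group G] [Finite G] (T : Sylow 2 G) (hnn : ¬ (T : Subgroup G).Normal) (hTI : ∀ g : G, MulAut.conj g • (T : Subgroup G) ≠ T → MulAut.conj g • (T : Subgroup G) ⊓ T = ⊥) (s t : G) (hs : orderOf s = 2) (ht : orderOf t = 2) : IsConj s t := by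
  have h : SE 2 (Subgroup.normalizer ((T : Subgroup G) : Set G)) := by
    apply SE.of_centralizer_normalizer _ T le_rfl
    · intro x hx ho g hg
      by_contra hgN
      have h1 : MulAut.conj g • (T : Subgroup G) ≠ T := by
        intro he
        apply hgN
        apply Subgroup.mem_normalizer_fintype
        intro y hy
        rw [← he]
        exact conj_mem_map_conj hy
      have h2 : x ∈ MulAut.conj g • (T : Subgroup G) ⊓ T := by
        refine ⟨?_, hx⟩
        have : x = g * x * g⁻¹ := by
          rw [Subgroup.mem_centralizer_singleton_iff.mp hg]; simp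
        rw [this]
        exact conj_mem_map_conj hx
      rw [hTI g h1] at h2
      exact SE.ne_one_of_orderOf_two ho (Subgroup.mem_bot.mp h2)
    · intro ht
      exact hnn (Subgroup.normalizer_eq_top_iff.mp ht)
  exact h.isConj_involutions hs ht

end Cfsg.Agent.S0231
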