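import Cfsg.Statements.S0232
import Mathlib.GroupTheory.SchurZassenhaus
import Mathlib.Tactic

set_option autoImplicit false
open Cfsg

namespace Cfsg.Agent.S0232

open Classical in
/-- the counting argument when no involution is central -/
theorem no_central {G : Type*} [Group G] [Finite G] (heven : Even (Nat.card G))
    (hZ : ∀ z : G, orderOf z = 2 → z ∉ Subgroup.center G) :
    ∃ H : Subgroup G, H ≠ ⊤ ∧ Nat.card G < (Nat.card H) ^ 3 := by
  have := Fintype.ofFinite G
  have : Fact (Nat.Prime 2) := Nat.fact_prime_two
  obtain ⟨t, ht⟩ := exists_prime_orderOf_dvd_card' (G := G) 2 heven.two_dvd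
  have hcent : ∀ x : G, x ∉ Subgroup.center G → Subgroup.centralizer ({x} : Set G) ≠ ⊤ := by
    intro x hx h
    apply hx
    rw [Subgroup.mem_center_iff]
    intro g
    have : g ∈ Subgroup.centralizer ({x} : Set G) := by rw [h]; trivial
    rw [Subgroup.mem_centralizer_singleton_iff] at this
    exact this
  -- a proper subgroup of maximal order
  obtain ⟨H, hH, hmax⟩ := Set.exists_max_image {H : Subgroup G | H ≠ ⊤} (fun H => Nat.card H)
    (Set.toFinite _) ⟨_, hcent t (hZ t ht)⟩
  refine ⟨H, hH, ?_⟩
  set h := Nat.card H with hh
  set I : Finset G := Finset.univ.filter (fun u => orderOf u = 2) with hI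
  have hsq : ∀ u : G, orderOf u = 2 → u * u = 1 := by
    intro u hu
    have := pow_orderOf_eq_one u
    rwa [hu, pow_two] at this
  -- fibres of multiplication
  set c : G → ℕ := fun x => ((I ×ˢ I).filter (fun p => p.1 * p.2 = x)).card with hc
  have hsum : I.card * I.card = ∑ x : G, c x := by
    rw [← Finset.card_product]
    exact Finset.card_eq_sum_card_fiberwise (f := fun p : G × G => p.1 * p.2) (fun _ _ => Finset.mem_coe.mpr (Finset.mem_univ _))
  have hc1 : c 1 ≤ I.card := by
    apply Finset.card_le_card_of_injOn (fun p => p.1)
    · intro p hp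
      simp only [Finset.coe_filter, Finset.mem_product, Set.mem_ofPred_eq] at hp
      exact hp.1.1
    · intro p hp q hq hpq
      simp only [Finset.coe_filter, Finset.mem_product, Set.mem_ofPred_eq] at hp hq
      have h1 : p.1 = q.1 := hpq
      refine Prod.ext h1 ?_
      have := hp.2.trans hq.2.symm
      rw [h1] at this
      exact mul_left_cancel this
  have hcx : ∀ x : G, x ≠ 1 → c x + (if orderOf x = 2 then 1 else 0) ≤ h := by
    intro x hx1
    by_cases hx2 : orderOf x = 2
    · rw [if_pos hx2]
      have hle := hmax _ (hcent x (hZ x hx2))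
      have : c x ≤ ((Finset.univ.filter (fun g => g ∈ Subgroup.centralizer ({x} : Set G))).erase 1).card := by
        apply Finset.card_le_card_of_injOn (fun p => p.1)
        · intro p hp
          simp only [Finset.coe_filter, Finset.mem_product, Set.mem_ofPred_eq, hI, Finset.mem_filter, Finset.mem_univ, true_and] at hp
          obtain ⟨⟨h1, h2⟩, h3⟩ := hp
          simp only [Finset.coe_erase, Finset.coe_filter, Finset.mem_univ, true_and, Set.mem_sdiff, Set.mem_ofPred_eq, Set.mem_singleton_iff]
          refine ⟨?_, ?_⟩
          · rw [Subgroup.mem_centralizer_singleton_iff]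
            have e1 := hsq _ h1
            have e2 := hsq _ h2
            have e3 := hsq _ hx2
            have e4 : x = p.2 * p.1 := by
              rw [← inv_eq_of_mul_eq_one_right e3, ← h3, mul_inv_rev, inv_eq_of_mul_eq_one_right e1,
                inv_eq_of_mul_eq_one_right e2]
            nth_rewrite 1 [← h3]
            rw [e4, ← mul_assoc, e1, one_mul, mul_assoc, e1, mul_one]
          · intro h; rw [h] at h1; simp at h1
        · intro p hp q hq hpq
          simp only [Finset.coe_filter, Finset.mem_product, Set.mem_ofPred_eq] at hp hq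
          have h1 : p.1 = q.1 := hpq
          refine Prod.ext h1 ?_
          have := hp.2.trans hq.2.symm
          rw [h1] at this
          exact mul_left_cancel this
      rw [Finset.card_erase_of_mem (by simp)] at this
      have hcard : (Finset.univ.filter (fun g => g ∈ Subgroup.centralizer ({x} : Set G))).card
          = Nat.card (Subgroup.centralizer ({x} : Set G)) := by
        rw [Nat.card_eq_fintype_card, Fintype.card_subtype]
      rw [hcard] at this
      have hpos : 0 < Nat.card (Subgroup.centralizer ({x} : Set G)) := Nat.card_pos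
      omega
    · rw [if_neg hx2, add_zero]
      rcases Finset.eq_empty_or_nonempty ((I ×ˢ I).filter (fun p => p.1 * p.2 = x)) with he | ⟨p0, hp0⟩
      · simp only [hc, he, Finset.card_empty, Nat.zero_le]
      · have hinv : ∀ p ∈ (I ×ˢ I).filter (fun p => p.1 * p.2 = x), p.1 * x * p.1 = x⁻¹ ∧ p.1 * p.1 = 1 := by
          intro p hp
          simp only [Finset.mem_product, hI, Finset.mem_filter, Finset.mem_univ, true_and] at hp
          obtain ⟨⟨h1, h2⟩, h3⟩ := hp
          have e1 := hsq _ h1
          have e2 := hsq _ h2
          refine ⟨?_, e1⟩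
          rw [← h3, mul_inv_rev, inv_eq_of_mul_eq_one_right e1,
                inv_eq_of_mul_eq_one_right e2, ← mul_assoc, e1, one_mul]
        have hxZ : x ∉ Subgroup.center G := by
          intro hz
          obtain ⟨a1, a2⟩ := hinv p0 hp0
          rw [Subgroup.mem_center_iff] at hz
          rw [hz, mul_assoc, a2, mul_one] at a1
          apply hx2
          apply orderOf_eq_prime _ hx1
          rw [pow_two]
          nth_rewrite 2 [a1]
          simp
        have hle := hmax _ (hcent x hxZ)
        refine le_trans ?_ hle
        have hcard : (Finset.univ.filter (fun g => g ∈ Subgroup.centralizer ({x} : Set G))).card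
            = Nat.card (Subgroup.centralizer ({x} : Set G)) := by
          rw [Nat.card_eq_fintype_card, Fintype.card_subtype]
        rw [← hcard]
        apply Finset.card_le_card_of_injOn (fun p => p0.1 * p.1)
        · intro p hp
          obtain ⟨a1, a2⟩ := hinv p0 hp0
          obtain ⟨b1, b2⟩ := hinv p hp
          simp only [Finset.coe_filter, Finset.mem_univ, true_and, Set.mem_ofPred_eq]
          rw [Subgroup.mem_centralizer_singleton_iff]
          have b3 : p.1 * x = x⁻¹ * p.1 := by rw [← b1, mul_assoc, b2, mul_one]
          have a3 : p0.1 * x⁻¹ = x * p0.1 := by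
            rw [← a1, ← mul_assoc, ← mul_assoc, a2, one_mul]
          rw [mul_assoc, b3, ← mul_assoc, a3, mul_assoc]
        · intro p hp q hq hpq
          simp only [Finset.coe_filter, Finset.mem_product, Set.mem_ofPred_eq] at hp hq
          have h1 : p.1 = q.1 := mul_left_cancel hpq
          refine Prod.ext h1 ?_
          have := hp.2.trans hq.2.symm
          rw [h1] at this
          exact mul_left_cancel this
  have hsum2 : ∑ x ∈ Finset.univ.erase (1 : G), (c x + (if orderOf x = 2 then 1 else 0))
      ≤ ∑ x ∈ Finset.univ.erase (1 : G), h :=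
    Finset.sum_le_sum (fun x hx => hcx x (Finset.ne_of_mem_erase hx))
  rw [Finset.sum_add_distrib, Finset.sum_const, Finset.card_erase_of_mem (Finset.mem_univ _),
    smul_eq_mul, Finset.card_univ, ← Nat.card_eq_fintype_card] at hsum2
  have hsum3 : ∑ x ∈ Finset.univ.erase (1 : G), (if orderOf x = 2 then 1 else 0) = I.card := by
    rw [Finset.sum_erase _ (by simp), hI, Finset.card_filter]
  rw [hsum3] at hsum2
  rw [← Finset.add_sum_erase _ _ (Finset.mem_univ (1 : G))] at hsum
  have hn2 : I.card * I.card ≤ (Nat.card G - 1) * h := by omega
  -- the class of t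
  have hnh : Nat.card G ≤ I.card * h := by
    have hle := hmax _ (hcent t (hZ t ht))
    have h1 : (Subgroup.centralizer ({t} : Set G)).index ≤ I.card := by
      rw [Subgroup.index_eq_card]
      have : Nat.card I = I.card := by simp
      rw [← this]
      let f : G ⧸ Subgroup.centralizer ({t} : Set G) → I := fun q =>
        ⟨q.out * t * q.out⁻¹, by
          simp only [hI, Finset.mem_filter, Finset.mem_univ, true_and]
          rw [← ht]
          exact (MulAut.conj q.out).orderOf_eq t⟩
      apply Nat.card_le_card_of_injective f
      intro q r hqr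
      have e : q.out * t * q.out⁻¹ = r.out * t * r.out⁻¹ := congrArg Subtype.val hqr
      rw [← q.out_eq, ← r.out_eq]
      apply Quotient.sound
      show (QuotientGroup.leftRel _) _ _
      rw [QuotientGroup.leftRel_apply, Subgroup.mem_centralizer_singleton_iff]
      calc q.out⁻¹ * r.out * t = q.out⁻¹ * (r.out * t * r.out⁻¹) * r.out := by group
        _ = q.out⁻¹ * (q.out * t * q.out⁻¹) * r.out := by rw [e]
        _ = t * (q.out⁻¹ * r.out) := by group
    rw [← (Subgroup.centralizer ({t} : Set G)).index_mul_card]
    exact Nat.mul_le_mul h1 hle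
  have hGpos : 0 < Nat.card G := Nat.card_pos
  have hhpos : 0 < h := Nat.card_pos
  by_contra hcon
  push Not at hcon
  have e1 : Nat.card G * Nat.card G ≤ (I.card * I.card) * (h * h) := by
    calc Nat.card G * Nat.card G ≤ (I.card * h) * (I.card * h) := Nat.mul_le_mul hnh hnh
      _ = _ := by ring
  have e2 : (I.card * I.card) * (h * h) ≤ (Nat.card G - 1) * h ^ 3 := by
    calc (I.card * I.card) * (h * h) ≤ ((Nat.card G - 1) * h) * (h * h) := Nat.mul_le_mul_right _ hn2
      _ = _ := by ring
  have e3 : (Nat.card G - 1) * h ^ 3 ≤ (Nat.card G - 1) * Nat.card G := Nat.mul_le_mul_left _ hcon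
  have e4 : (Nat.card G - 1) * Nat.card G < Nat.card G * Nat.card G :=
    Nat.mul_lt_mul_of_pos_right (by omega) hGpos
  omega

theorem aux (n : ℕ) : ∀ {G : Type*} [Group G] [Finite G], Nat.card G = n → Even (Nat.card G) →
    2 < Nat.card G → ∃ H : Subgroup G, H ≠ ⊤ ∧ Nat.card G < (Nat.card H) ^ 3 := by
  induction n using Nat.strong_induction_on with
  | _ n ih =>
    intro G _ _ hn heven hgt
    by_cases hZ : ∀ z : G, orderOf z = 2 → z ∉ Subgroup.center G
    · exact no_central heven hZ
    push Not at hZ
    obtain ⟨z, hz2, hz⟩ := hZ
    set N := Subgroup.zpowers z with hN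
    have hNc : Nat.card N = 2 := by rw [hN, Nat.card_zpowers, hz2]
    have : N.Normal := by
      constructor
      intro a ha g
      have : a ∈ Subgroup.center G := (Subgroup.zpowers_le.mpr hz) ha
      rw [Subgroup.mem_center_iff] at this
      rw [this g, mul_assoc, mul_inv_cancel, mul_one]
      exact ha
    have hidx : N.index * 2 = Nat.card G := by rw [← hNc]; exact N.index_mul_card
    rcases Nat.even_or_odd N.index with he | ho
    · by_cases h2 : N.index = 2
      · refine ⟨N, ?_, ?_⟩
        · intro h; rw [h] at h2; simp at h2
        · rw [← hidx, h2, hNc]; norm_num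
      · have hq : Nat.card (G ⧸ N) = N.index := rfl
        obtain ⟨K, hK, hlt⟩ := ih N.index (by omega) (G := G ⧸ N) hq (hq ▸ he) (by
          rw [hq]; obtain ⟨k, hk⟩ := he; omega)
        refine ⟨K.comap (QuotientGroup.mk' N), ?_, ?_⟩
        · intro h
          apply hK
          rw [← Subgroup.map_comap_eq_self_of_surjective (QuotientGroup.mk'_surjective N) K, h,
            Subgroup.map_top_of_surjective _ (QuotientGroup.mk'_surjective N)]
        · have e1 := (K.comap (QuotientGroup.mk' N)).index_mul_card
          rw [Subgroup.index_comap_of_surjective _ (QuotientGroup.mk'_surjective N)] at e1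
          have e2 := K.index_mul_card
          rw [hq] at e2 hlt
          have hKi : 0 < K.index := Nat.pos_of_ne_zero Subgroup.index_ne_zero_of_finite
          have e3 : Nat.card (K.comap (QuotientGroup.mk' N)) = Nat.card K * 2 := by
            apply Nat.eq_of_mul_eq_mul_left hKi
            rw [e1, ← hidx, ← e2]; ring
          rw [e3, ← hidx, mul_pow]
          omega
    · obtain ⟨K, hK⟩ := Subgroup.exists_right_complement'_of_coprime (N := N) (by
        rw [hNc]; exact (Nat.coprime_two_left.mpr ho))
      have e1 := hK.card_mul_card
      rw [hNc] at e1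
      refine ⟨K, ?_, ?_⟩
      · intro h
        rw [h, Subgroup.card_top] at e1
        omega
      · have : 2 ≤ Nat.card K := by omega
        rw [← e1]
        nlinarith [Nat.mul_le_mul this this]

/-- A finite group G of even order greater than 2 has a proper subgroup H with |G| < |H|^3. -/
theorem result {G : Type*} [Group G] [Finite G] (heven : Even (Nat.card G)) (hgt : 2 < Nat.card G) : ∃ H : Subgroup G, H ≠ ⊤ ∧ Nat.card G < (Nat.card H) ^ 3 := by
  exact aux _ rfl heven hgt

end Cfsg.Agent.S0232
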