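import Cfsg.Statements.S0234
import Cfsg.Agent.S0233
import Cfsg.Agent.Local.InvolCount
import Mathlib.GroupTheory.SpecificGroups.Alternating.Simple
import Mathlib.GroupTheory.Perm.ViaEmbedding
import Mathlib.GroupTheory.Sylow
import Mathlib.Tactic.IntervalCases

set_option autoImplicit false
open Cfsg

namespace Cfsg.Agent.S0234

open Cfsg.Lib.Local Finset

theorem card_invol_A5 : (univ.filter fun σ : Equiv.Perm (Fin 5) =>
    σ * σ = 1 ∧ σ ≠ 1 ∧ Equiv.Perm.sign σ = 1).card = 15 := by
  decide +kernel

theorem no_sub {G : Type*} [Group G] [Finite G] [IsSimpleGroup G] (p k m : ℕ) (hp : p.Prime)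
    (hG : Nat.card G = p ^ k * m) (hm : m ≠ 1) : p ^ k * m ∣ m.factorial := by
  have : Fact p.Prime := ⟨hp⟩
  obtain ⟨K, hK⟩ := Sylow.exists_subgroup_card_pow_prime (G := G) p (n := k) (hG ▸ dvd_mul_right _ _)
  have h := K.card_mul_index
  rw [hK, hG] at h
  have hi : K.index = m := Nat.eq_of_mul_eq_mul_left (pow_pos hp.pos k) h
  have hne : K ≠ ⊤ := by
    rintro rfl
    rw [Subgroup.index_top] at hi
    exact hm hi.symm
  have := card_dvd_factorial_index hne
  rwa [hi, hG] at this

/-- In a finite simple group G of even order greater than 2, the number n of involutions satisfies 3n < |G|. -/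
theorem result {G : Type*} [Group G] [Finite G] [IsSimpleGroup G] (heven : Even (Nat.card G)) (hgt : 2 < Nat.card G) : 3 * Nat.card {t : G // orderOf t = 2} < Nat.card G := by
  classical
  by_contra hcon
  rw [not_lt] at hcon
  have hno2 : ∀ K : Subgroup G, K.index ≠ 2 := by
    intro K hK
    have hne : K ≠ ⊤ := by
      rintro rfl
      simp at hK
    have := card_dvd_factorial_index hne
    rw [hK] at this
    have := Nat.le_of_dvd (by decide) this
    simp [Nat.factorial] at this
    omega
  have hZ : Subgroup.center G = ⊥ := by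
    rcases (inferInstance : (Subgroup.center G).Normal).eq_bot_or_eq_top with hZ | hZ
    · exact hZ
    · exfalso
      have : IsMulCommutative G := Subgroup.center_eq_top_iff.mp hZ
      have hp : (Nat.card G).Prime := by
        open scoped IsMulCommutative in exact IsSimpleGroup.prime_card
      rcases hp.eq_two_or_odd' with h | h
      · omega
      · exact (Nat.not_even_iff_odd.mpr h) heven
  obtain ⟨H, hH, hidx⟩ := S0233.result heven (by rw [hZ, Subgroup.card_bot]; exact odd_one)
  have hidx := hidx.resolve_left (hno2 H)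
  set N := Nat.card {t : G // orderOf t = 2} with hN
  have hj : H.index ≤ 5 := by
    have h2 : Nat.card G * (Nat.card G + N) ≤ (3 * N) * (3 * N + N) :=
      Nat.mul_le_mul hcon (Nat.add_le_add_right hcon _)
    have h3 : 2 * H.index * N ^ 2 < 12 * N ^ 2 := by
      calc _ < _ := hidx
        _ ≤ _ := h2
        _ = _ := by ring
    have h4 := Nat.lt_of_mul_lt_mul_right h3
    omega
  have hcore : H.normalCore = ⊥ := by
    rcases H.normalCore_normal.eq_bot_or_eq_top with h | h
    · exact h
    · exact absurd (top_le_iff.mp (h ▸ H.normalCore_le)) hH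
  have := Fintype.ofFinite (G ⧸ H)
  obtain ⟨ι⟩ : Nonempty ((G ⧸ H) ↪ Fin 5) := by
    rw [Function.Embedding.nonempty_iff_card_le, Fintype.card_fin, ← Nat.card_eq_fintype_card]
    exact hj
  let φ : G →* Equiv.Perm (Fin 5) :=
    (Equiv.Perm.viaEmbeddingHom ι).comp (MulAction.toPermHom G (G ⧸ H))
  have hφ : Function.Injective φ := by
    refine (Equiv.Perm.viaEmbeddingHom_injective ι).comp ?_
    rw [← MonoidHom.ker_eq_bot_iff, ← Subgroup.normalCore_eq_ker, hcore]
  have hsign : ∀ g, Equiv.Perm.sign (φ g) = 1 := by
    rcases (inferInstance : (Equiv.Perm.sign.comp φ).ker.Normal).eq_bot_or_eq_top with h | h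
    · exfalso
      have := Nat.card_le_card_of_injective _ ((MonoidHom.ker_eq_bot_iff _).mp h)
      have h2 : Nat.card ℤˣ = 2 := by simp
      omega
    · intro g
      have : g ∈ (Equiv.Perm.sign.comp φ).ker := h ▸ Subgroup.mem_top g
      exact this
  have hN15 : N ≤ 15 := by
    rw [← card_invol_A5, ← Fintype.card_subtype, ← Nat.card_eq_fintype_card]
    refine Nat.card_le_card_of_injective (fun t => ⟨φ t.1, ?_, ?_, hsign _⟩) ?_
    · rw [← map_mul, invol_mul_self t.2, map_one]
    · intro h
      exact invol_ne_one t.2 (hφ (h.trans (map_one φ).symm))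
    · intro a b hab
      exact Subtype.ext (hφ (congrArg Subtype.val hab))
  let ψ : G →* alternatingGroup (Fin 5) := φ.codRestrict _ (fun g => hsign g)
  have hψ : Function.Injective ψ := fun a b hab => hφ (congrArg Subtype.val hab)
  have hA : Nat.card (alternatingGroup (Fin 5)) = 60 := by
    rw [nat_card_alternatingGroup]
    simp [Nat.factorial]
  have hr : Nat.card ψ.range = Nat.card G := (Nat.card_congr (MonoidHom.ofInjective hψ).toEquiv).symm
  have hmul := ψ.range.card_mul_index
  rw [hr, hA] at hmul
  have : IsSimpleGroup (alternatingGroup (Fin 5)) := alternatingGroup.isSimpleGroup (by simp)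
  have hne : ψ.range ≠ ⊤ := by
    intro h
    rw [h, Subgroup.index_top] at hmul
    omega
  have hdv := card_dvd_factorial_index hne
  rw [hA] at hdv
  have hk : 5 ≤ ψ.range.index := by
    by_contra hk
    rw [not_le] at hk
    generalize ψ.range.index = k at hk hdv
    interval_cases k <;> simp [Nat.factorial] at hdv
  have hg12 : Nat.card G ≤ 12 := by nlinarith
  have hdvd : Nat.card G ∣ 60 := ⟨_, hmul.symm⟩
  obtain ⟨r, hr2⟩ := heven
  have hcases : Nat.card G = 4 ∨ Nat.card G = 6 ∨ Nat.card G = 10 ∨ Nat.card G = 12 := by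
    generalize Nat.card G = g at *
    interval_cases g <;> omega
  rcases hcases with h | h | h | h
  · exact absurd (no_sub (G := G) 2 1 2 (by decide) h (by decide)) (by decide)
  · exact absurd (no_sub (G := G) 3 1 2 (by decide) h (by decide)) (by decide)
  · exact absurd (no_sub (G := G) 5 1 2 (by decide) h (by decide)) (by decide)
  · exact absurd (no_sub (G := G) 2 2 3 (by decide) h (by decide)) (by decide)

end Cfsg.Agent.S0234
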