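import Cfsg.Statements.S0235
import Mathlib.Tactic

set_option autoImplicit false
open Cfsg

namespace Cfsg.Agent.S0235


/-- If x² ≠ 1, the ordered pairs (u, v) of involutions with uv = x correspond bijectively to the involutions t with t x t⁻¹ = x⁻¹ (via (u, v) ↦ u), so the two counts agree. -/
theorem result {G : Type*} [Group G] [Finite G] (x : G) (hx : x ^ 2 ≠ 1) : Nat.card {p : G × G // orderOf p.1 = 2 ∧ orderOf p.2 = 2 ∧ p.1 * p.2 = x} = Nat.card {t : G // orderOf t = 2 ∧ t * x * t⁻¹ = x⁻¹} := by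
  have h2 : ∀ u : G, orderOf u = 2 → u * u = 1 := fun u hu => by
    rw [← pow_two, ← hu, pow_orderOf_eq_one]
  have hinv : ∀ u : G, orderOf u = 2 → u⁻¹ = u := fun u hu =>
    inv_eq_of_mul_eq_one_right (h2 u hu)
  refine Nat.card_congr
    { toFun := fun p => ⟨p.1.1, p.2.1, ?_⟩
      invFun := fun t => ⟨(t.1, t.1 * x), t.2.1, ?_, ?_⟩
      left_inv := ?_
      right_inv := ?_ }
  · obtain ⟨⟨u, v⟩, hu, hv, huv⟩ := p
    simp only at hu hv huv ⊢
    rw [← huv, mul_inv_rev, hinv u hu, hinv v hv, ← mul_assoc, h2 u hu, one_mul]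
  · obtain ⟨t, ht, htx⟩ := t
    simp only
    haveI : Fact (Nat.Prime 2) := ⟨Nat.prime_two⟩
    apply orderOf_eq_prime
    · rw [hinv t ht] at htx
      rw [pow_two, ← mul_assoc, htx, inv_mul_cancel]
    · intro h
      apply hx
      have : x = t⁻¹ := eq_inv_of_mul_eq_one_right h
      rw [this, hinv t ht, pow_two, h2 t ht]
  · obtain ⟨t, ht, htx⟩ := t
    simp only
    rw [← mul_assoc, h2 t ht, one_mul]
  · rintro ⟨⟨u, v⟩, hu, hv, huv⟩
    simp only at hu hv huv
    ext
    · rfl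
    · simp only
      rw [← huv, ← mul_assoc, h2 u hu, one_mul]
  · rintro ⟨t, ht, htx⟩
    rfl

end Cfsg.Agent.S0235
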