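import Cfsg.Statements.S0236
import Mathlib.SetTheory.Cardinal.Finite
import Mathlib.Data.Set.Card

set_option autoImplicit false
open Cfsg

namespace Cfsg.Agent.S0236

theorem orderOf_eq_two_iff {G : Type*} [Group G] (u : G) : orderOf u = 2 ↔ u * u = 1 ∧ u ≠ 1 := by
  have : Fact (Nat.Prime 2) := ⟨Nat.prime_two⟩
  rw [orderOf_eq_prime_iff, pow_two]

/-- If x is an involution, the number of ordered pairs (u, v) of involutions with uv = x, plus one, equals the number of involutions in the centralizer of x. -/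
theorem result {G : Type*} [Group G] [Finite G] (x : G) (hx : orderOf x = 2) : Nat.card {p : G × G // orderOf p.1 = 2 ∧ orderOf p.2 = 2 ∧ p.1 * p.2 = x} + 1 = Nat.card {t : G // orderOf t = 2 ∧ Commute t x} := by
  obtain ⟨hx2, hx1⟩ := (orderOf_eq_two_iff x).1 hx
  let A : Set G := {t : G | orderOf t = 2 ∧ Commute t x}
  have hxA : x ∈ A := ⟨hx, Commute.refl x⟩
  have e : {p : G × G // orderOf p.1 = 2 ∧ orderOf p.2 = 2 ∧ p.1 * p.2 = x} ≃ (A \ {x} : Set G) :=
    { toFun := fun p => ⟨p.1.1, by
        obtain ⟨⟨u, v⟩, hu, hv, huv⟩ := p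
        obtain ⟨hu2, hu1⟩ := (orderOf_eq_two_iff u).1 hu
        obtain ⟨hv2, hv1⟩ := (orderOf_eq_two_iff v).1 hv
        simp only at huv
        have hui : u⁻¹ = u := inv_eq_of_mul_eq_one_right hu2
        have hvi : v⁻¹ = v := inv_eq_of_mul_eq_one_right hv2
        have hxi : x⁻¹ = x := inv_eq_of_mul_eq_one_right hx2
        have hvu : v * u = x := by rw [← hxi, ← huv, mul_inv_rev, hui, hvi]
        refine ⟨⟨hu, ?_⟩, ?_⟩
        · show u * x = x * u
          conv_lhs => rw [← hvu]
          rw [← huv, mul_assoc]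
        · intro h
          simp only [Set.mem_singleton_iff] at h
          rw [← h] at huv
          exact hv1 (by simpa using huv)⟩
      invFun := fun t => ⟨(t.1, t.1 * x), by
        obtain ⟨t, ⟨ht, htx⟩, htne⟩ := t
        obtain ⟨ht2, ht1⟩ := (orderOf_eq_two_iff t).1 ht
        have hti : t⁻¹ = t := inv_eq_of_mul_eq_one_right ht2
        refine ⟨ht, (orderOf_eq_two_iff _).2 ⟨?_, ?_⟩, ?_⟩
        · show t * x * (t * x) = 1
          rw [mul_assoc, ← mul_assoc x, ← htx.eq, mul_assoc, hx2, mul_one, ht2]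
        · intro h
          apply htne
          simp only [Set.mem_singleton_iff]
          rw [← hti]
          exact inv_eq_of_mul_eq_one_right h
        · show t * (t * x) = x
          rw [← mul_assoc, ht2, one_mul]⟩
      left_inv := by
        rintro ⟨⟨u, v⟩, hu, hv, huv⟩
        obtain ⟨hu2, hu1⟩ := (orderOf_eq_two_iff u).1 hu
        simp only at huv
        apply Subtype.ext
        simp only [Prod.mk.injEq, true_and]
        rw [← huv, ← mul_assoc, hu2, one_mul]
      right_inv := by
        rintro ⟨t, ht⟩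
        rfl }
  rw [Nat.card_congr e]
  change (A \ {x}).ncard + 1 = A.ncard
  exact Set.ncard_sdiff_singleton_add_one hxA

end Cfsg.Agent.S0236
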