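import Cfsg.Statements.S0237
import Mathlib.Tactic.Group

set_option autoImplicit false
open Cfsg

namespace Cfsg.Agent.S0237

/-- If x is real (conjugate to x⁻¹) in a finite group G, the number of g with g x g⁻¹ = x⁻¹ equals |C_G(x)|. -/
theorem result {G : Type*} [Group G] [Finite G] (x : G) (hreal : IsConj x x⁻¹) : Nat.card {g : G // g * x * g⁻¹ = x⁻¹} = Nat.card (Subgroup.centralizer ({x} : Set G)) := by
  obtain ⟨c, hc⟩ := isConj_iff.mp hreal
  refine Nat.card_congr ⟨fun g => ⟨c⁻¹ * g.1, ?_⟩, fun h => ⟨c * h.1, ?_⟩, ?_, ?_⟩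
  · rw [Subgroup.mem_centralizer_singleton_iff]
    have hg := g.2
    have : c⁻¹ * g.1 * x * (c⁻¹ * g.1)⁻¹ = x := by
      calc c⁻¹ * g.1 * x * (c⁻¹ * g.1)⁻¹ = c⁻¹ * (g.1 * x * g.1⁻¹) * c := by group
        _ = c⁻¹ * (c * x * c⁻¹) * c := by rw [hg, hc]
        _ = x := by group
    calc c⁻¹ * g.1 * x = (c⁻¹ * g.1 * x * (c⁻¹ * g.1)⁻¹) * (c⁻¹ * g.1) := by group
      _ = _ := by rw [this]
  · have hh := h.2
    rw [Subgroup.mem_centralizer_singleton_iff] at hh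
    calc c * h.1 * x * (c * h.1)⁻¹ = c * (h.1 * x) * h.1⁻¹ * c⁻¹ := by group
      _ = c * (x * h.1) * h.1⁻¹ * c⁻¹ := by rw [hh]
      _ = c * x * c⁻¹ := by group
      _ = _ := hc
  · intro g; ext; simp
  · intro g; ext; simp

end Cfsg.Agent.S0237
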