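import Cfsg.Statements.S0238
import Cfsg.Agent.Local.InvolCount

set_option autoImplicit false
open Cfsg

namespace Cfsg.Agent.S0238

open Cfsg.Lib.Local Finset

/-- For every x in a finite group G, the number c of ordered pairs (u, v) of involutions with uv = x is at most |C_G(x)|; c = 0 when x is not conjugate to x⁻¹; and c + 2 ≤ |C_G(x)| when x is an involution. -/
theorem result {G : Type*} [Group G] [Finite G] (x : G) : Nat.card {p : G × G // orderOf p.1 = 2 ∧ orderOf p.2 = 2 ∧ p.1 * p.2 = x} ≤ Nat.card (Subgroup.centralizer ({x} : Set G)) ∧ (¬ IsConj x x⁻¹ → Nat.card {p : G × G // orderOf p.1 = 2 ∧ orderOf p.2 = 2 ∧ p.1 * p.2 = x} = 0) ∧ (orderOf x = 2 → Nat.card {p : G × G // orderOf p.1 = 2 ∧ orderOf p.2 = 2 ∧ p.1 * p.2 = x} + 2 ≤ Nat.card (Subgroup.centralizer ({x} : Set G))) := by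
  classical
  have := Fintype.ofFinite G
  have hinv : ∀ p : G × G, orderOf p.1 = 2 ∧ orderOf p.2 = 2 ∧ p.1 * p.2 = x →
      p.1 * x * p.1⁻¹ = x⁻¹ := by
    rintro p ⟨h1, h2, rfl⟩
    exact invol_conj_mul h1 h2
  have hinj : ∀ p q : G × G, p.1 * p.2 = x → q.1 * q.2 = x → p.1 = q.1 → p = q := by
    intro p q hp hq h
    refine Prod.ext h ?_
    have := hp.trans hq.symm
    rw [h] at this
    exact mul_left_cancel this
  refine ⟨?_, ?_, ?_⟩
  · by_cases he : Nonempty {p : G × G // orderOf p.1 = 2 ∧ orderOf p.2 = 2 ∧ p.1 * p.2 = x}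
    · obtain ⟨⟨q, hq⟩⟩ := he
      refine Nat.card_le_card_of_injective (fun p => ⟨q.1 * p.1.1, ?_⟩) ?_
      · rw [mem_centralizer_singleton_iff_conj]
        calc q.1 * p.1.1 * x * (q.1 * p.1.1)⁻¹ = q.1 * (p.1.1 * x * p.1.1⁻¹) * q.1⁻¹ := by group
          _ = (q.1 * x * q.1⁻¹)⁻¹ := by rw [hinv _ p.2]; group
          _ = x := by rw [hinv q hq, inv_inv]
      · intro a b hab
        have : q.1 * a.1.1 = q.1 * b.1.1 := congrArg Subtype.val hab
        exact Subtype.ext (hinj _ _ a.2.2.2 b.2.2.2 (mul_left_cancel this))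
    · rw [not_nonempty_iff] at he
      simp
  · intro h
    rw [Nat.card_eq_zero]
    left
    exact ⟨fun p => h (isConj_iff.mpr ⟨_, hinv p.1 p.2⟩)⟩
  · intro hx
    rw [Nat.card_eq_fintype_card, Fintype.card_subtype, Nat.card_eq_fintype_card,
      Fintype.card_subtype]
    set C := univ.filter fun g : G => g ∈ Subgroup.centralizer ({x} : Set G) with hC
    have h1 : (1 : G) ∈ C := by simp [hC]
    have h2 : x ∈ C.erase 1 := by
      simp [hC, invol_ne_one hx, Subgroup.mem_centralizer_singleton_iff]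
    have h3 := Finset.card_erase_add_one h1
    have h4 := Finset.card_erase_add_one h2
    have h5 : (univ.filter fun p : G × G => orderOf p.1 = 2 ∧ orderOf p.2 = 2 ∧ p.1 * p.2 = x).card
        ≤ ((C.erase 1).erase x).card := by
      refine Finset.card_le_card_of_injOn (fun p => p.1) ?_ ?_
      · intro p hp
        simp only [coe_filter, mem_univ, true_and, Set.mem_ofPred_eq] at hp
        simp only [hC, mem_coe, mem_erase, mem_filter, mem_univ, true_and]
        refine ⟨?_, invol_ne_one hp.1, ?_⟩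
        · intro h
          have h6 := hp.2.2
          rw [h, mul_eq_left] at h6
          exact invol_ne_one hp.2.1 h6
        · rw [mem_centralizer_singleton_iff_conj, hinv p hp, invol_inv_eq hx]
      · intro p hp q hq hpq
        simp only [coe_filter, mem_univ, true_and, Set.mem_ofPred_eq] at hp hq
        exact hinj p q hp.2.2 hq.2.2 hpq
    omega

end Cfsg.Agent.S0238
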