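import Cfsg.Statements.S0239
import Mathlib.GroupTheory.OrderOfElement
import Mathlib.Tactic

set_option autoImplicit false
open Cfsg

namespace Cfsg.Agent.S0239

/-- If some nontrivial element x of a finite group G is conjugate to x⁻¹, then |G| is even. -/
theorem result {G : Type*} [Group G] [Finite G] (x : G) (hx : x ≠ 1) (hreal : IsConj x x⁻¹) : Even (Nat.card G) := by
  obtain ⟨g, hg⟩ := isConj_iff.mp hreal
  by_contra hodd
  rw [Nat.not_even_iff_odd] at hodd
  have key : ∀ k : ℕ, g ^ (2 * k + 1) * x * (g ^ (2 * k + 1))⁻¹ = x⁻¹ := by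
    intro k
    induction k with
    | zero => simpa using hg
    | succ k ih =>
      have hg' : g * x⁻¹ * g⁻¹ = x := by
        have := congrArg (·⁻¹) hg
        simpa [mul_assoc] using this
      have : g ^ (2 * (k + 1) + 1) = g * g * g ^ (2 * k + 1) := by
        rw [show 2 * (k + 1) + 1 = 1 + 1 + (2 * k + 1) by ring, pow_add, pow_add, pow_one]
      rw [this]
      calc g * g * g ^ (2 * k + 1) * x * (g * g * g ^ (2 * k + 1))⁻¹
          = g * (g * (g ^ (2 * k + 1) * x * (g ^ (2 * k + 1))⁻¹) * g⁻¹) * g⁻¹ := by group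
        _ = x⁻¹ := by rw [ih, hg', hg]
  obtain ⟨k, hk⟩ := hodd
  have h1 := key k
  rw [← hk, pow_card_eq_one'] at h1
  have h2 : x ^ 2 = 1 := by
    rw [pow_two]
    have : x = x⁻¹ := by simpa using h1
    nth_rewrite 2 [this]
    simp
  have h3 : orderOf x = 2 := orderOf_eq_prime h2 hx
  have h4 : orderOf x ∣ Nat.card G := orderOf_dvd_natCard x
  rw [h3, hk] at h4
  omega

end Cfsg.Agent.S0239
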