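import Cfsg.Statements.S0240
import Mathlib.GroupTheory.Index

set_option autoImplicit false
open Cfsg

namespace Cfsg.Agent.S0240

/-- Let G be a finite group with n involutions and H a subgroup with |H|·(n+1) > |G|. Then some nontrivial h ∈ H is strongly real in G: an involution t of G satisfies t h t⁻¹ = h⁻¹. -/
theorem result {G : Type*} [Group G] [Finite G] (H : Subgroup G) (hH : Nat.card G < Nat.card H * (Nat.card {t : G // orderOf t = 2} + 1)) : ∃ h : G, h ∈ H ∧ h ≠ 1 ∧ ∃ t : G, orderOf t = 2 ∧ t * h * t⁻¹ = h⁻¹ := by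
  classical
  have : Fact (Nat.Prime 2) := ⟨Nat.prime_two⟩
  have hlt : Nat.card (G ⧸ H) < Nat.card (Option {t : G // orderOf t = 2}) := by
    rw [Finite.card_option]
    rw [← H.card_mul_index] at hH
    exact Nat.lt_of_mul_lt_mul_left hH
  let f : Option {t : G // orderOf t = 2} → G := fun o => o.elim 1 Subtype.val
  have hinv : ∀ t : G, orderOf t = 2 → t⁻¹ = t := fun t ht => by
    have := pow_orderOf_eq_one t
    rw [ht, pow_two] at this
    exact inv_eq_of_mul_eq_one_right this
  have hne : ∀ t : G, orderOf t = 2 → t ≠ 1 := fun t ht h => by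
    rw [h, orderOf_one] at ht
    omega
  have hni : ¬ Function.Injective (fun o => (QuotientGroup.mk (f o) : G ⧸ H)) := fun hi =>
    absurd (Nat.card_le_card_of_injective _ hi) (not_le.mpr hlt)
  obtain ⟨a, b, hab, hne'⟩ := Function.not_injective_iff.mp hni
  have hab' : (f a)⁻¹ * f b ∈ H := QuotientGroup.eq.mp hab
  rcases a with _ | ⟨u, hu⟩ <;> rcases b with _ | ⟨v, hv⟩
  · exact absurd rfl hne'
  · refine ⟨v, by simpa [f] using hab', hne v hv, v, hv, ?_⟩
    rw [mul_inv_cancel_right, hinv v hv]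
  · refine ⟨u, ?_, hne u hu, u, hu, ?_⟩
    · have : u⁻¹ ∈ H := by simpa [f] using hab'
      exact H.inv_mem_iff.mp this
    · rw [mul_inv_cancel_right, hinv u hu]
  · refine ⟨u⁻¹ * v, hab', ?_, u, hu, ?_⟩
    · intro h
      apply hne'
      have : u = v := inv_mul_eq_one.mp h
      subst this
      rfl
    · rw [mul_inv_rev, inv_inv, hinv v hv, mul_inv_cancel_left, hinv u hu]

end Cfsg.Agent.S0240
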