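import Cfsg.Statements.S0241
import Mathlib.GroupTheory.OrderOfElement
import Mathlib.Tactic

set_option autoImplicit false
open Cfsg

namespace Cfsg.Agent.S0241

/-- If x ≠ 1 is conjugate to x⁻¹ in a finite group G and |C_G(x)| is odd, then some involution t satisfies t x t⁻¹ = x⁻¹. -/
theorem result {G : Type*} [Group G] [Finite G] (x : G) (hx : x ≠ 1) (hreal : IsConj x x⁻¹) (hodd : Odd (Nat.card (Subgroup.centralizer ({x} : Set G)))) : ∃ t : G, orderOf t = 2 ∧ t * x * t⁻¹ = x⁻¹ := by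
  obtain ⟨g, hg⟩ := isConj_iff.mp hreal
  have hg2 : g * g ∈ Subgroup.centralizer ({x} : Set G) := by
    rw [Subgroup.mem_centralizer_singleton_iff]
    have h1 : g * x⁻¹ * g⁻¹ = x := by
      have : g * x⁻¹ * g⁻¹ = (g * x * g⁻¹)⁻¹ := by group
      rw [this, hg, inv_inv]
    calc g * g * x = g * (g * x * g⁻¹) * g⁻¹ * (g * g) := by group
      _ = x * (g * g) := by rw [hg, h1]
  obtain ⟨k, hk⟩ := hodd
  have hpow : ∀ y ∈ Subgroup.centralizer ({x} : Set G), y ^ (2 * k + 1) = 1 := by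
    intro y hy
    have := pow_card_eq_one' (G := Subgroup.centralizer ({x} : Set G)) (x := ⟨y, hy⟩)
    rw [hk] at this
    exact congrArg Subtype.val this
  have hcomm : (g * g) ^ k * x = x * (g * g) ^ k :=
    Subgroup.mem_centralizer_singleton_iff.mp (Subgroup.pow_mem _ hg2 k)
  have hinv : g ^ (2 * k + 1) * x * (g ^ (2 * k + 1))⁻¹ = x⁻¹ := by
    have h2 : g ^ (2 * k + 1) = g * (g * g) ^ k := by
      rw [pow_succ', pow_mul, pow_two]
    rw [h2, mul_assoc g, hcomm, ← hg]
    group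
  refine ⟨g ^ (2 * k + 1), ?_, hinv⟩
  haveI : Fact (Nat.Prime 2) := ⟨Nat.prime_two⟩
  apply orderOf_eq_prime
  · rw [← pow_mul, mul_comm, pow_mul, pow_two]
    exact hpow _ hg2
  · intro h1
    rw [h1] at hinv
    have hx2 : x * x = 1 := by
      have : x = x⁻¹ := by simpa using hinv
      nth_rewrite 2 [this]
      simp
    have hx3 := hpow x (Subgroup.mem_centralizer_singleton_iff.mpr rfl)
    rw [pow_succ, pow_mul, pow_two, hx2] at hx3
    simp at hx3
    exact hx hx3

end Cfsg.Agent.S0241
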