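import Cfsg.Statements.S0250
import Mathlib
import Cfsg.Agent.Class.GL2Sylow

set_option autoImplicit false
open Cfsg

namespace Cfsg.Agent.S0250

/-- SL_2(2) is isomorphic to S_3. -/
theorem result {F : Type*} [Field F] [Fintype F] (hF : Fintype.card F = 2) : Nonempty (Matrix.SpecialLinearGroup (Fin 2) F ≃* Equiv.Perm (Fin 3)) := by
  classical
  have hF' : Nat.card F = 2 := by rw [Nat.card_eq_fintype_card, hF]
  have hu : ∀ x : F, x ≠ 0 → x = 1 := by
    intro x hx
    have := FiniteField.pow_card_sub_one_eq_one x hx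
    rwa [hF, pow_one] at this
  have hP : Nat.card (Projectivization F (Fin 2 → F)) = 3 := by
    rw [Projectivization.card_of_finrank_two F _ (by simp), hF']
  have hinj : Function.Injective (MulAction.toPermHom (Matrix.SpecialLinearGroup (Fin 2) F)
      (Projectivization F (Fin 2 → F))) := by
    rw [← MonoidHom.ker_eq_bot_iff, Projectivization.SL_mulAction_ker, eq_bot_iff]
    intro g hg
    obtain ⟨r, hr1, hr2⟩ := Matrix.SpecialLinearGroup.mem_center_iff.1 hg
    have hr : r = 1 := hu r (by rintro rfl; simp at hr1)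
    rw [Subgroup.mem_bot]
    apply Subtype.ext
    rw [← hr2, hr]
    simp
  have hSL : Nat.card (Matrix.SpecialLinearGroup (Fin 2) F) = 6 := by
    have h6 : Nat.card (Matrix.GeneralLinearGroup (Fin 2) F) = 6 := by
      rw [Cfsg.Lib.Class.card_GL2, hF']; rfl
    rw [← h6]
    refine Nat.card_congr (Equiv.ofBijective Matrix.SpecialLinearGroup.toGL
      ⟨Matrix.SpecialLinearGroup.toGL_injective, fun g => ⟨⟨g.1, hu _ g.det_ne_zero⟩, ?_⟩⟩)
    apply Units.ext
    rfl
  have hbij : Function.Bijective (MulAction.toPermHom (Matrix.SpecialLinearGroup (Fin 2) F)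
      (Projectivization F (Fin 2 → F))) := by
    refine hinj.bijective_of_nat_card_le ?_
    rw [hSL, Nat.card_perm, hP]
    rfl
  have e : Projectivization F (Fin 2 → F) ≃ Fin 3 := Finite.equivFinOfCardEq hP
  exact ⟨(MulEquiv.ofBijective _ hbij).trans e.permCongrHom⟩

end Cfsg.Agent.S0250
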