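import Cfsg.Statements.S0257
import Cfsg.Agent.Class.SL2Q8

set_option autoImplicit false
open Cfsg

namespace Cfsg.Agent.S0257

open Cfsg.Lib.Class

/-- SL_2(3) has a normal subgroup of index 3 isomorphic to the quaternion group of order 8, and its centre has order 2. -/
theorem result {F : Type*} [Field F] [Fintype F] (hF : Fintype.card F = 3) : (∃ Q : Subgroup (Matrix.SpecialLinearGroup (Fin 2) F), Q.Normal ∧ Q.index = 3 ∧ Nonempty (Q ≃* QuaternionGroup 2)) ∧ Nat.card (Subgroup.center (Matrix.SpecialLinearGroup (Fin 2) F)) = 2 := by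
  have hF' : Nat.card F = 3 := by rw [Nat.card_eq_fintype_card, hF]
  refine ⟨?_, by rw [card_center_SL2, hF']; rfl⟩
  obtain ⟨φ, hφ⟩ := exists_Q8_hom_SL2 F (two_ne_zero_iff_odd.2 (by rw [hF']; decide))
  have h8 : Nat.card φ.range = 8 := by
    rw [← Nat.card_congr (MonoidHom.ofInjective hφ).toEquiv, Nat.card_eq_fintype_card,
      QuaternionGroup.card]
  let e := slEquiv (Fin 2) (ZMod.ringEquivOfPrime F Nat.prime_three hF)
  have h4 : {g : Matrix.SpecialLinearGroup (Fin 2) F | g ^ 4 = 1}.ncard = 8 := by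
    rw [← card_pow_four_SL23]
    exact (Nat.card_congr (e.toEquiv.subtypeEquiv fun g => by
      change _ ↔ e g ^ 4 = 1
      rw [← map_pow, EmbeddingLike.map_eq_one_iff])).symm
  have hset : (φ.range : Set (Matrix.SpecialLinearGroup (Fin 2) F)) = {g | g ^ 4 = 1} := by
    refine Set.eq_of_subset_of_ncard_le ?_ (h4.trans h8.symm).le
    rintro _ ⟨x, rfl⟩
    have : x ^ 4 = 1 := by revert x; decide
    change φ x ^ 4 = 1
    rw [← map_pow, this, map_one]
  refine ⟨φ.range, ⟨fun n hn g => ?_⟩, ?_, ⟨(MonoidHom.ofInjective hφ).symm⟩⟩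
  · rw [← SetLike.mem_coe, hset, Set.mem_setOf_eq] at hn ⊢
    rw [conj_pow, hn, mul_one, mul_inv_cancel]
  · have := φ.range.card_mul_index
    rw [h8, card_SL2, hF'] at this
    omega

end Cfsg.Agent.S0257
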