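import Cfsg.Statements.S0267
import Cfsg.Agent.Class.PGL2Line

set_option autoImplicit false
open Cfsg

namespace Cfsg.Agent.S0267

open Cfsg.Lib.Class Cfsg.Lib.Class.P1
open scoped MatrixGroups

theorem sl_smul_eq {F : Type*} [Field F] (g : SL(2, F)) (x : P1 F) :
    g • x = Matrix.SpecialLinearGroup.toPGL g • x := by
  induction x using Projectivization.ind with | _ v hv => rfl

/-- SL_2(q) is 3-transitive on the q+1 points of the projective line if and only if q is even. -/
theorem result {F : Type*} [Field F] [Fintype F] : MulAction.IsMultiplyPretransitive (Matrix.SpecialLinearGroup (Fin 2) F) (Projectivization F (Fin 2 → F)) 3 ↔ ringChar F = 2 := by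
  classical
  rw [MulAction.isMultiplyPretransitive_iff]
  constructor
  · intro h
    by_contra h2
    obtain ⟨a, ha⟩ := FiniteField.exists_nonsquare h2
    have ha0 : a ≠ 0 := by rintro rfl; exact ha ⟨0, by simp⟩
    let x : Fin 3 ↪ P1 F := ⟨![inf F, pt 0, pt 1], by
      have k1 := pt_zero_ne_pt_one (K := F)
      have k2 := pt_ne_inf (0 : F)
      have k3 := pt_ne_inf (1 : F)
      intro i j hij
      fin_cases i <;> fin_cases j <;> simp_all [eq_comm]⟩
    let y : Fin 3 ↪ P1 F := ⟨![inf F, pt 0, pt a], by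
      have k1 : pt (0 : F) ≠ pt a := by rw [Ne, pt_inj]; exact ha0.symm
      have k2 := pt_ne_inf (0 : F)
      have k3 := pt_ne_inf a
      intro i j hij
      fin_cases i <;> fin_cases j <;> simp_all [eq_comm]⟩
    obtain ⟨g, hg⟩ := h x y
    have h0 : g • inf F = inf F := congrArg (fun e : Fin 3 ↪ P1 F => e 0) hg
    have h1 : g • pt (0 : F) = pt 0 := congrArg (fun e : Fin 3 ↪ P1 F => e 1) hg
    have h2 : g • pt (1 : F) = pt a := congrArg (fun e : Fin 3 ↪ P1 F => e 2) hg
    rw [sl_smul_eq] at h0 h1 h2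
    change Matrix.ProjGenLinGroup.mk _ • _ = _ at h0 h1 h2
    rw [mk_eq_mob] at h0 h1 h2
    rw [mob_smul_inf_eq_inf_iff] at h0
    rw [mob_smul_pt_eq_pt_iff] at h1 h2
    have hd := g.2
    rw [Matrix.det_fin_two] at hd
    simp only [Matrix.SpecialLinearGroup.coe_GL_coe_matrix] at h0 h1 h2
    rw [h0] at h2 hd
    have h1' : g.1 0 1 = 0 := by simpa using h1
    rw [h1'] at h2 hd
    apply ha
    refine ⟨g.1 0 0, ?_⟩
    linear_combination -(g.1 0 0) * h2 - a * hd
  · intro h2 x y
    obtain ⟨g, h0, h1, h2'⟩ := Cfsg.Lib.Class.pgl2_three_transitive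
      (x.injective.ne (show (0 : Fin 3) ≠ 1 by decide))
      (x.injective.ne (show (0 : Fin 3) ≠ 2 by decide))
      (x.injective.ne (show (1 : Fin 3) ≠ 2 by decide))
      (y.injective.ne (show (0 : Fin 3) ≠ 1 by decide))
      (y.injective.ne (show (0 : Fin 3) ≠ 2 by decide))
      (y.injective.ne (show (1 : Fin 3) ≠ 2 by decide))
    have hsurj := Matrix.ProjectiveSpecialLinearGroup.toPGL_surj_of_roots (n := Fin 2) (R := F)
      (fun r => by
        obtain ⟨s, hs⟩ := FiniteField.isSquare_of_char_two h2 (r : F)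
        have hs0 : s ≠ 0 := by rintro rfl; exact r.ne_zero (by simpa using hs)
        exact ⟨Units.mk0 s hs0, Units.ext (by simp [hs, pow_two])⟩)
    obtain ⟨k, rfl⟩ := hsurj g
    induction k using QuotientGroup.induction_on with | H k =>
    refine ⟨k, ?_⟩
    ext i
    fin_cases i
    · exact (sl_smul_eq k _).trans h0
    · exact (sl_smul_eq k _).trans h1
    · exact (sl_smul_eq k _).trans h2'

end Cfsg.Agent.S0267
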