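import Cfsg.Statements.S0276
import Cfsg.Agent.Known.PSL2Klein

set_option autoImplicit false
open Cfsg

namespace Cfsg.Agent.S0276

open Cfsg.Lib.Known Cfsg.Lib.Known.GL2 Matrix

/-- For q = 3 or 5 mod 8 the Sylow 2-subgroups of PSL_2(q) are elementary abelian of order 4. -/
theorem result {F : Type*} [Field F] [Fintype F] {q : ℕ} (hF : Fintype.card F = q) (hq : q % 8 = 3 ∨ q % 8 = 5) (P : Sylow 2 (Matrix.ProjectiveSpecialLinearGroup (Fin 2) F)) : IsKleinFour (P : Subgroup (Matrix.ProjectiveSpecialLinearGroup (Fin 2) F)) := by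
  subst hF
  exact isKleinFour_sylow_PSL2 (two_ne_zero_of_odd (Nat.odd_iff.2 (by omega))) hq P

end Cfsg.Agent.S0276
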