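import Cfsg.Statements.S0316
import Cfsg.Agent.Chev.BNParabolic

set_option autoImplicit false
open Cfsg

namespace Cfsg.Agent.S0316

open Cfsg.Lib.Chev Cfsg.Lib.Chev.BN


/-- The map `J ↦ P_J` is a lattice isomorphism from the power set of the set of distinguished generators onto the
subgroups containing `B`. -/
theorem result {G : Type*} [Group G] (P : Cfsg.BNPair G) :
    ∃ e : Set P.S ≃o {M : Subgroup G // P.B ≤ M},
      ∀ J : Set P.S, ((e J : {M : Subgroup G // P.B ≤ M}) : Subgroup G) = P.parabolic (Subtype.val '' J) := by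
  let f : Set P.S → {M : Subgroup G // P.B ≤ M} :=
    fun J => ⟨P.parabolic (Subtype.val '' J), B_le_parabolic P _⟩
  have hf : ∀ J K, f J ≤ f K ↔ J ≤ K := by
    intro J K
    change P.parabolic _ ≤ P.parabolic _ ↔ J ⊆ K
    rw [parabolic_le_parabolic_iff (Subtype.coe_image_subset _ _) (Subtype.coe_image_subset _ _),
      Set.image_subset_image_iff Subtype.val_injective]
  have hs : Function.Surjective f := by
    rintro ⟨M, hM⟩
    refine ⟨Subtype.val ⁻¹' (P.S ∩ (M : Set G)), Subtype.ext ?_⟩
    change P.parabolic _ = M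
    rw [image_preimage_val P Set.inter_subset_left]
    exact (eq_parabolic_of_B_le hM).symm
  exact ⟨RelIso.ofSurjective (OrderEmbedding.ofMapLEIff f hf) hs, fun _ => rfl⟩

end Cfsg.Agent.S0316
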