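import Cfsg.Statements.S0321
import Cfsg.Agent.Chev.BNParabolic

set_option autoImplicit false
open Cfsg

namespace Cfsg.Agent.S0321

open Cfsg.Lib.Chev Cfsg.Lib.Chev.BN


/-- For `n ∈ N` not in `B`, the union `B ∪ B n B` is (the underlying set of) a subgroup exactly when `n` agrees
modulo `B ⊓ N` with one of the distinguished representatives; thus the distinguished involutions are
determined by `B` and `N`. -/
theorem result {G : Type*} [Group G] (P : Cfsg.BNPair G) {n : G}
    (hn : n ∈ P.N) (hnB : n ∉ P.B) :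
    (∃ H : Subgroup G, (H : Set G) = (P.B : Set G) ∪ DoubleCoset.doubleCoset n (P.B : Set G) P.B) ↔ ∃ s ∈ P.S, s⁻¹ * n ∈ P.B := by
  constructor
  · rintro ⟨H, hH⟩
    have hB : P.B ≤ H := fun b hb => by
      have : b ∈ (H : Set G) := hH ▸ Or.inl hb
      exact this
    have hnH : n ∈ H := by
      have : n ∈ (H : Set G) := hH ▸ Or.inr (DoubleCoset.mem_doubleCoset_self _ _ _)
      exact this
    have e := eq_parabolic_of_B_le hB
    rcases (P.S ∩ (H : Set G)).eq_empty_or_nonempty with h | ⟨s, hs, hsH⟩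
    · rw [h, parabolic_empty] at e
      exact absurd (e ▸ hnH) hnB
    · refine ⟨s, hs, ?_⟩
      rw [hH] at hsH
      rcases hsH with h | h
      · exact absurd h (S_not_mem_B P hs)
      · have h1 : s ∈ cell P (mk P ⟨n, hn⟩) := by rw [cell_mk]; exact h
        exact (mk_eq_iff P).1 (eq_of_mem_cell (coe_mem_cell_sg P ⟨s, hs⟩) h1)
  · rintro ⟨s, hs, h⟩
    refine ⟨P.parabolic {s}, ?_⟩
    ext g
    have e : sg P ⟨s, hs⟩ = mk P ⟨n, hn⟩ := (mk_eq_iff P).2 h
    have := mem_parabolic_singleton (P := P) (i := ⟨s, hs⟩) (g := g)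
    rw [e, cell_mk] at this
    exact this

end Cfsg.Agent.S0321
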