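import Cfsg.Statements.S0323


set_option autoImplicit false
open scoped Pointwise
open Cfsg

namespace Cfsg.Agent.S0323

/-- A doubly transitive action on a set with at least three points yields a (B,N)-pair of rank one:
`B` is the stabiliser of a point `x`, `N` the setwise stabiliser of a pair `{x, y}`. -/
theorem result {G Ω : Type*} [Group G] [MulAction G Ω]
    (h2 : MulAction.IsMultiplyPretransitive G Ω 2) {x y z : Ω} (hxy : x ≠ y) (hyz : y ≠ z) (hxz : x ≠ z) :
    ∃ P : Cfsg.BNPair G, P.B = MulAction.stabilizer G x ∧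
      P.N = MulAction.stabilizer G ({x, y} : Set Ω) ∧ P.rank = 1 := by
  have h2' : ∀ {a b c d : Ω}, a ≠ b → c ≠ d → ∃ g : G, g • a = c ∧ g • b = d :=
    MulAction.is_two_pretransitive_iff.1 h2
  obtain ⟨s, hsx, hsy⟩ := h2' hxy hxy.symm
  have memN : ∀ n : G, n ∈ MulAction.stabilizer G ({x, y} : Set Ω) ↔
      (n • x = x ∧ n • y = y) ∨ (n • x = y ∧ n • y = x) := by
    intro n
    rw [MulAction.mem_stabilizer_iff, Set.smul_set_insert, Set.smul_set_singleton,
      Set.pair_eq_pair_iff]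
  have hsN : s ∈ MulAction.stabilizer G ({x, y} : Set Ω) := (memN s).2 (Or.inr ⟨hsx, hsy⟩)
  have dc1 : ∀ g h : G, g • x = x → h • x = x →
      g ∈ DoubleCoset.doubleCoset h (MulAction.stabilizer G x : Set G) (MulAction.stabilizer G x) := by
    intro g h hg hh
    refine DoubleCoset.mem_doubleCoset.2 ⟨1, Subgroup.one_mem _, h⁻¹ * g, ?_, by group⟩
    change (h⁻¹ * g) • x = x
    rw [mul_smul, hg, inv_smul_eq_iff, hh]
  have dc2 : ∀ g h : G, g • x ≠ x → h • x ≠ x →
      g ∈ DoubleCoset.doubleCoset h (MulAction.stabilizer G x : Set G) (MulAction.stabilizer G x) := by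
    intro g h hg hh
    obtain ⟨b, hb1, hb2⟩ := h2' hh.symm hg.symm
    refine DoubleCoset.mem_doubleCoset.2 ⟨b, hb1, (b * h)⁻¹ * g, ?_, by group⟩
    change ((b * h)⁻¹ * g) • x = x
    rw [mul_smul, inv_smul_eq_iff, mul_smul, hb2]
  refine ⟨⟨MulAction.stabilizer G x, MulAction.stabilizer G ({x, y} : Set Ω), {s}, ?_, ?_, ?_, ?_,
    ?_, ?_, ?_, ?_⟩, rfl, rfl, ?_⟩
  · rw [eq_top_iff]
    rintro g -
    by_cases hg : g • x = x
    · exact Subgroup.mem_sup_left hg
    · obtain ⟨b, hb, b', hb', rfl⟩ := DoubleCoset.mem_doubleCoset.1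
        (dc2 g s hg (by rw [hsx]; exact hxy.symm))
      exact Subgroup.mul_mem _ (Subgroup.mul_mem _ (Subgroup.mem_sup_left hb)
        (Subgroup.mem_sup_right hsN)) (Subgroup.mem_sup_left hb')
  · rintro n hn t ⟨ht1, ht2⟩
    have ht1' : t • x = x := ht1
    have hty : t • y = y := by
      rcases (memN t).1 ht2 with h | h
      · exact h.2
      · exact absurd (ht1'.symm.trans h.1) hxy
    change (n * t * n⁻¹) • x = x
    rcases (memN n⁻¹).1 (Subgroup.inv_mem _ hn) with h | h
    · rw [mul_smul, mul_smul, h.1, ht1', ← eq_inv_smul_iff, h.1]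
    · rw [mul_smul, mul_smul, h.1, hty, ← eq_inv_smul_iff, h.1]
  · rintro _ rfl; exact hsN
  · rintro _ rfl
    change (_ * _) • x = x
    rw [mul_smul, hsx, hsy]
  · rintro _ rfl _ rfl _; rfl
  · refine le_antisymm (sup_le ((Subgroup.closure_le _).2 ?_) inf_le_right) ?_
    · rintro _ rfl; exact hsN
    · intro n hn
      rcases (memN n).1 hn with h | h
      · exact Subgroup.mem_sup_right ⟨h.1, hn⟩
      · have e : n = s * (s⁻¹ * n) := by group
        rw [e]
        refine Subgroup.mul_mem _ (Subgroup.mem_sup_left (Subgroup.subset_closure rfl))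
          (Subgroup.mem_sup_right ⟨?_, Subgroup.mul_mem _ (Subgroup.inv_mem _ hsN) hn⟩)
        change (s⁻¹ * n) • x = x
        rw [mul_smul, h.1, inv_smul_eq_iff, hsx]
  · rintro _ rfl n hn b _
    rename_i s _
    rcases (memN n).1 hn with h | h
    · by_cases hg : (s * b * n) • x = x
      · exact Or.inr (dc1 _ _ hg h.1)
      · exact Or.inl (dc2 _ _ hg (by rw [mul_smul, h.1, hsx]; exact hxy.symm))
    · by_cases hg : (s * b * n) • x = x
      · exact Or.inl (dc1 _ _ hg (by rw [mul_smul, h.1, hsy]))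
      · exact Or.inr (dc2 _ _ hg (by rw [h.1]; exact hxy.symm))
  · rintro _ rfl h
    rename_i s
    obtain ⟨b, hb1, hb2⟩ := h2' hxy hxz
    have : s * b * s ∈ (MulAction.stabilizer G x : Set G) := h ▸ ⟨b, hb1, rfl⟩
    have h3 : (s * b * s) • x = x := this
    rw [mul_smul, mul_smul, hsx, hb2, ← hsy, smul_left_cancel_iff] at h3
    exact hyz h3.symm
  · simp [Cfsg.BNPair.rank]

end Cfsg.Agent.S0323
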