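import Cfsg.Statements.S0327
import Cfsg.Agent.Chev.SuzukiCard

set_option autoImplicit false
open Cfsg

namespace Cfsg.Agent.S0327

/-- The Suzuki group (`m ≥ 1`) is a Zassenhaus group on the `q² + 1` points of the Suzuki–Tits ovoid. -/
theorem result {F : Type*} [Field F] [Fintype F] {m : ℕ} (hm : 1 ≤ m)
    (hF : Fintype.card F = 2 ^ (2 * m + 1)) :
    Cfsg.IsZassenhausGroup (Cfsg.Sz F m) (Cfsg.suzukiOvoid F m) := by
  let M := Cfsg.Lib.Chev.szModel hm hF
  let e := Cfsg.Lib.Chev.szPtEquiv hm hF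
  have he : ∀ (g : Cfsg.Sz F m) (p : M.Pt), e (g • p) = g • e p := Cfsg.Lib.Chev.szPtEquiv_smul hm hF
  have hfix : ∀ (g : Cfsg.Sz F m) (p p' : M.Pt), g • e p = e p' ↔ g • p = p' := fun g p p' => by
    rw [← he, e.injective.eq_iff]
  refine ⟨⟨fun {g g'} h => ?_⟩, ?_, ?_, ?_, ?_⟩
  · apply M.instFaithfulPt.eq_of_smul_eq_smul
    intro p
    apply e.injective
    rw [he, he, h]
  · rw [MulAction.is_two_pretransitive_iff]
    intro a b c d h h'
    obtain ⟨a, rfl⟩ := e.surjective a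
    obtain ⟨b, rfl⟩ := e.surjective b
    obtain ⟨c, rfl⟩ := e.surjective c
    obtain ⟨d, rfl⟩ := e.surjective d
    simp only [hfix]
    exact M.two_transitive (fun h1 => h (congrArg e h1)) (fun h1 => h' (congrArg e h1))
  · intro g a b c hab hbc hac ha hb hc
    obtain ⟨a, rfl⟩ := e.surjective a
    obtain ⟨b, rfl⟩ := e.surjective b
    obtain ⟨c, rfl⟩ := e.surjective c
    rw [hfix] at ha hb hc
    exact M.eq_one_of_fix_three (fun h1 => hab (congrArg e h1)) (fun h1 => hbc (congrArg e h1))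
      (fun h1 => hac (congrArg e h1)) ha hb hc
  · obtain ⟨l, hl⟩ := M.exists_unit_ne_one
    refine ⟨M.D l, by simpa using hl, e M.inf, e (M.pt 0 0), fun h => M.inf_ne_pt _ _ (e.injective h), ?_, ?_⟩
    · rw [hfix]
      exact M.D_smul_inf l
    · rw [hfix]
      exact M.D_smul_zero l
  · intro N hN htr
    rcases M.isSimpleGroup.eq_bot_or_eq_top_of_normal N hN with rfl | rfl
    · exfalso
      obtain ⟨⟨g, hg⟩, h⟩ := htr.exists_smul_eq (e M.inf) (e (M.pt 0 0))
      rw [Subgroup.mem_bot] at hg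
      subst hg
      have h' : (1 : Cfsg.Sz F m) • e M.inf = e (M.pt 0 0) := h
      rw [one_smul] at h'
      exact M.inf_ne_pt _ _ (e.injective h')
    · refine ⟨e M.inf, fun h => ?_⟩
      have h1 : (⟨M.T 0 1, Subgroup.mem_top _⟩ : (⊤ : Subgroup (Cfsg.Sz F m))) ∈
          MulAction.stabilizer (⊤ : Subgroup (Cfsg.Sz F m)) (e M.inf) :=
        (hfix _ _ _).mpr (M.T_smul_inf 0 1)
      rw [h, Subgroup.mem_bot] at h1
      exact M.T_zero_one_ne_one (Subtype.mk.inj h1)

end Cfsg.Agent.S0327
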