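import Cfsg.Statements.S0328
import Cfsg.Agent.Chev.SuzukiCard

set_option autoImplicit false
open Cfsg

namespace Cfsg.Agent.S0328

/-- The stabiliser in the Suzuki group of the two ovoid points spanned by `(1,0,0,0)` and `(0,0,0,1)` is
isomorphic to the multiplicative group of the field (cyclic of order `q - 1`). -/
theorem result {F : Type*} [Field F] [Fintype F] {m : ℕ} (hm : 1 ≤ m)
    (hF : Fintype.card F = 2 ^ (2 * m + 1)) :
    Nonempty (↥(MulAction.stabilizer (Cfsg.Sz F m) (Cfsg.suzukiPointInfinity F) ⊓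
        MulAction.stabilizer (Cfsg.Sz F m) (Cfsg.suzukiPointZero F)) ≃* Fˣ) := by
  rw [Cfsg.Lib.Chev.pointInfinity_eq hm hF, Cfsg.Lib.Chev.pointZero_eq hm hF,
    Cfsg.Lib.Chev.stabilizer_ovMk hm hF, Cfsg.Lib.Chev.stabilizer_ovMk hm hF,
    ← (Cfsg.Lib.Chev.szModel hm hF).H_eq_inf]
  exact ⟨(Cfsg.Lib.Chev.szModel hm hF).equivH.symm⟩

end Cfsg.Agent.S0328
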