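import Cfsg.Statements.S0335
import Cfsg.Agent.Chev.SuzukiInst

set_option autoImplicit false
open Cfsg

namespace Cfsg.Agent.S0335

open Cfsg.Lib.Chev Matrix in
theorem linInd {F : Type*} [Field F] {τ : Tw F} {G : Type*} [Group G] (M : SzModel τ G)
    (f : Fin 3 → M.Pt) (hf : Function.Injective f) : LinearIndependent F fun i => M.vec (f i) := by
  rw [Fintype.linearIndependent_iff]
  intro g hg
  obtain ⟨k, h0, h1⟩ := M.exists_smul_pair (hf.ne (show (0 : Fin 3) ≠ 1 by decide))
  have hne : k⁻¹ • f 2 ≠ M.inf := fun h' =>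
    hf.ne (show (0 : Fin 3) ≠ 2 by decide) (by rw [← h0, ← h', smul_inv_smul])
  obtain ⟨x, y, h2⟩ := M.exists_pt_of_ne_inf hne
  have hxy : ¬ (x = 0 ∧ y = 0) := by
    rintro ⟨rfl, rfl⟩
    exact hf.ne (show (1 : Fin 3) ≠ 2 by decide) (by rw [← h1, ← h2, smul_inv_smul])
  obtain ⟨c0, hc0, e0⟩ := M.exists_mulVec k⁻¹ (f 0)
  obtain ⟨c1, hc1, e1⟩ := M.exists_mulVec k⁻¹ (f 1)
  obtain ⟨c2, hc2, e2⟩ := M.exists_mulVec k⁻¹ (f 2)
  rw [h2] at e2
  rw [show k⁻¹ • f 0 = M.inf by rw [← h0, inv_smul_smul]] at e0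
  rw [show k⁻¹ • f 1 = M.pt 0 0 by rw [← h1, inv_smul_smul]] at e1
  have h3 := congrArg (fun v => M.ρ k⁻¹ *ᵥ v) hg
  simp only [Fin.sum_univ_three, Matrix.mulVec_add, Matrix.mulVec_smul, e0, e1, e2,
    Matrix.mulVec_zero] at h3
  have a0 := congrFun h3 0
  have a1 := congrFun h3 1
  have a2 := congrFun h3 2
  have a3 := congrFun h3 3
  simp [hc2] at a0 a1 a2 a3
  have g2 : g 2 = 0 := by tauto
  simp [g2, hc0, hc1] at a0 a3
  intro i
  fin_cases i <;> assumption

/-- The Suzuki–Tits point set is an ovoid: any three distinct points of it are projectively independent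
(no line of projective 3-space meets it in more than two points). -/
theorem result {F : Type*} [Field F] [Fintype F] {m : ℕ} (hm : 1 ≤ m)
    (hF : Fintype.card F = 2 ^ (2 * m + 1)) (p : Fin 3 ↪ Cfsg.suzukiOvoid F m) :
    Projectivization.Independent (fun i => (p i : Projectivization F (Fin 4 → F))) := by
  let M := Cfsg.Lib.Chev.szModel hm hF
  let e := Cfsg.Lib.Chev.szPtEquiv hm hF
  have h := Projectivization.Independent.mk _ (fun i => M.vec_ne_zero _)
    (linInd M (fun i => e.symm (p i)) (e.symm.injective.comp p.injective))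
  convert h using 2 with i
  have h1 : (p i : Projectivization F (Fin 4 → F)) = (e (e.symm (p i))).1 := by simp
  rw [h1]
  change Cfsg.Lib.Chev.ovMk F m _ = _
  unfold Cfsg.Lib.Chev.ovMk
  congr 1
  exact (Cfsg.Lib.Chev.ofCard_vec hF _).symm

end Cfsg.Agent.S0335
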