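import Cfsg.Statements.S0341
import Cfsg.Agent.Perm.ZassReg

set_option autoImplicit false
open Cfsg

namespace Cfsg.Agent.S0341

open Cfsg.Lib.Perm Cfsg.Lib.Char.Zass MulAction Subgroup

/-- If a finite group acts faithfully and doubly transitively, no non-identity element fixes three points, some
non-identity element fixes two points, and some normal subgroup acts regularly, then the number of points
is `2^p` with `p` prime. -/
theorem result {G Ω : Type*} [Group G]
    [MulAction G Ω] [Fintype Ω] [FaithfulSMul G Ω] (h2 : MulAction.IsMultiplyPretransitive G Ω 2)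
    (h3 : ∀ g : G, ∀ a b c : Ω, a ≠ b → b ≠ c → a ≠ c → g • a = a → g • b = b → g • c = c → g = 1)
    (hfix : ∃ g : G, g ≠ 1 ∧ ∃ a b : Ω, a ≠ b ∧ g • a = a ∧ g • b = b)
    (N : Subgroup G) [N.Normal] (hNt : MulAction.IsPretransitive N Ω)
    (hNr : ∀ a : Ω, MulAction.stabilizer N a = ⊥) :
    ∃ p : ℕ, p.Prime ∧ Fintype.card Ω = 2 ^ p := by
  have hZ : Z2 G Ω := ⟨fun {a b c d} hab hcd => by
      obtain ⟨g, h1, h2⟩ := (is_two_pretransitive_iff.1 h2) hab hcd
      exact ⟨g, h1, h2⟩,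
    fun {g a b c} => h3 g a b c, fun h => eq_of_smul_eq_smul (α := Ω) fun c => by rw [h, one_smul]⟩
  have := hZ.finite_group
  have h := RegN.of_stabilizer inferInstance hNt hNr
  obtain ⟨g, hg1, a, b, hab, ha, hb⟩ := hfix
  have h4 : Nat.card (stabilizer G a ⊓ stabilizer G b : Subgroup G) ≠ 1 := fun e =>
    hg1 (mem_bot.1 (card_eq_one.1 e ▸ (⟨ha, hb⟩ : g ∈ stabilizer G a ⊓ stabilizer G b)))
  obtain ⟨p, hp, h5⟩ := Nat.exists_prime_and_dvd h4
  have := Fact.mk hp
  obtain ⟨⟨x, hx⟩, h6⟩ := exists_prime_orderOf_dvd_card' p h5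
  rw [orderOf_mk] at h6
  rw [← Nat.card_eq_fintype_card]
  refine ⟨p, hp, ?_⟩
  rcases hp.eq_two_or_odd' with rfl | h7
  · exact h.card_of_invol hZ hab hx h6
  · have h8 : Nat.card (zpowers x) = p := by rw [Nat.card_zpowers, h6]
    rw [← h8]
    refine h.card_of_odd hZ hab (zpowers_le.2 hx) (fun e => ?_) (h8 ▸ h7)
    rw [e, card_bot] at h8
    exact hp.one_lt.ne h8

end Cfsg.Agent.S0341
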