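import Cfsg.Statements.S0344
import Cfsg.Agent.Perm.ZassThree

set_option autoImplicit false
open Cfsg

namespace Cfsg.Agent.S0344

open Cfsg.Lib.Perm

/-- A finite simple Zassenhaus group with a two-point stabiliser of even order is isomorphic to `PSL₂(F)` for a finite
field `F` with more than three elements. -/
theorem result {G Ω : Type*} [Group G] [Finite G] [MulAction G Ω] [Finite Ω]
    (hZ : Cfsg.IsZassenhausGroup G Ω) [IsSimpleGroup G]
    {a b : Ω} (hab : a ≠ b) (heven : Even (Nat.card ↥(MulAction.stabilizer G a ⊓ MulAction.stabilizer G b))) :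
    ∃ (F : Type) (_ : Field F) (_ : Fintype F), 3 < Fintype.card F ∧ Nonempty (G ≃* Matrix.ProjectiveSpecialLinearGroup (Fin 2) F) := by
  have Z := Z2.of_zass hZ
  have h1 := two_mul_card_stab2_of_simple hZ hab heven
  obtain ⟨K, _, _, h2, h3⟩ := Z.exists_psl hab (Cfsg.Lib.Char.Zass.three_le_card hZ)
    (fun s ha hb => Z.swap_sq_of_even hab heven h1.le ha hb) h1
  have := Cfsg.Lib.Char.Zass.one_lt_card_stab2 hZ hab
  exact ⟨K, inferInstance, inferInstance, by omega, h3⟩

end Cfsg.Agent.S0344
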