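import Cfsg.Statements.S0345
import Cfsg.Agent.Perm.ZassThree

set_option autoImplicit false
open Cfsg

namespace Cfsg.Agent.S0345

open Cfsg.Lib.Perm

/-- In a finite simple Zassenhaus group the stabiliser `H` of two points `a ≠ b` is cyclic, and some involution
interchanging `a` and `b` inverts every element of `H`. -/
theorem result {G Ω : Type*} [Group G] [Finite G] [MulAction G Ω] [Finite Ω]
    (hZ : Cfsg.IsZassenhausGroup G Ω) [IsSimpleGroup G]
    {a b : Ω} (hab : a ≠ b) :
    IsCyclic ↥(MulAction.stabilizer G a ⊓ MulAction.stabilizer G b) ∧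
      ∃ v : G, orderOf v = 2 ∧ v • a = b ∧ v • b = a ∧ ∀ h ∈ MulAction.stabilizer G a ⊓ MulAction.stabilizer G b, v * h * v⁻¹ = h⁻¹ := by
  have Z := Z2.of_zass hZ
  have h3 := Cfsg.Lib.Char.Zass.three_le_card hZ
  have hinv := swap_sq_of_simple_zass hZ hab
  obtain ⟨s, hsa, hsb⟩ := Z.two hab hab.symm
  refine ⟨isCyclic_stab2_of_simple hZ hab, s, orderOf_eq_prime (by rw [pow_two, hinv s hsa hsb]) ?_,
    hsa, hsb, fun h hh => Z2.conj_eq_inv_of_swaps_invol hinv hsa hsb hh.1 hh.2⟩
  rintro rfl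
  exact hab (by simpa using hsa)

end Cfsg.Agent.S0345
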