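import Cfsg.Statements.S0350
import Cfsg.Agent.Spor.SteinerCount

set_option autoImplicit false
open Cfsg

namespace Cfsg.Agent.S0350

/-- Counting pairs (t-subset, block containing it) in two ways: the number of blocks of a Steiner system with parameters (t, k, v), multiplied by C(k, t), equals C(v, t). -/
theorem result {α : Type*} [Fintype α] [DecidableEq α] {t k : ℕ} {B : Set (Finset α)} (hB : Cfsg.IsSteinerSystem t k B) : B.ncard * Nat.choose k t = Nat.choose (Fintype.card α) t := by
  have h := Cfsg.Lib.Spor.steiner_lambda hB ∅ (by simp)
  rw [Cfsg.Lib.Spor.ncard_eq_card_blocksF]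
  simpa using h

end Cfsg.Agent.S0350
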