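import Cfsg.Statements.S0353
import Cfsg.Agent.S0352

set_option autoImplicit false
open Cfsg

namespace Cfsg.Agent.S0353

/-- In an S(5, 8, 24), the symmetric difference of two blocks meeting in four points is a block. -/
theorem result {α : Type*} [Fintype α] [DecidableEq α] (hα : Fintype.card α = 24) {B : Set (Finset α)} (hB : Cfsg.IsSteinerSystem 5 8 B) {b c : Finset α} (hb : b ∈ B) (hc : c ∈ B) (h4 : (b ∩ c).card = 4) : symmDiff b c ∈ B := by
  have hint : ∀ x ∈ B, ∀ y ∈ B, x ≠ y →
      (x ∩ y).card = 0 ∨ (x ∩ y).card = 2 ∨ (x ∩ y).card = 4 :=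
    fun x hx y hy hxy => Cfsg.Agent.S0352.result hα hB hx hy hxy
  have hex : ∀ s : Finset α, s.card = 5 → ∃ x ∈ B, s ⊆ x := fun s hs => by
    obtain ⟨x, hx, -⟩ := hB.2 s hs
    exact ⟨x, hx.1, hx.2⟩
  have hb8 := hB.1 b hb
  have hc8 := hB.1 c hc
  have hP : (b \ c).card = 4 := by
    have := Finset.card_sdiff_add_card_inter b c
    omega
  have hQ : (c \ b).card = 4 := by
    have := Finset.card_sdiff_add_card_inter c b
    rw [Finset.inter_comm] at this
    omega
  -- a subset of size four of the meet of two distinct blocks is the meet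
  have hfull : ∀ x ∈ B, ∀ y ∈ B, x ≠ y → ∀ s : Finset α, s.card = 4 → s ⊆ x → s ⊆ y →
      x ∩ y = s := by
    intro x hx y hy hxy s hs hsx hsy
    symm
    apply Finset.eq_of_subset_of_card_le (Finset.subset_inter hsx hsy)
    rcases hint x hx y hy hxy with h | h | h <;> omega
  by_contra hne
  -- the block through `b \ c` and a point of `c \ b`
  have hD : ∀ i ∈ c \ b, ∃ D ∈ B, b \ c ⊆ D ∧ i ∈ D ∧ (D ∩ (c \ b)).card = 2 := by
    intro i hi
    have hib : i ∉ b := (Finset.mem_sdiff.1 hi).2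
    have hic : i ∈ c := (Finset.mem_sdiff.1 hi).1
    have hiP : i ∉ b \ c := fun h => hib (Finset.mem_sdiff.1 h).1
    obtain ⟨D, hDB, hsub⟩ := hex (insert i (b \ c)) (by rw [Finset.card_insert_of_notMem hiP, hP])
    have hiD : i ∈ D := hsub (Finset.mem_insert_self _ _)
    have hPD : b \ c ⊆ D := (Finset.subset_insert _ _).trans hsub
    refine ⟨D, hDB, hPD, hiD, ?_⟩
    have hDb : D ≠ b := fun h => hib (h ▸ hiD)
    have h1 : D ∩ b = b \ c := hfull D hDB b hb hDb _ hP hPD Finset.sdiff_subset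
    have h2 : D ∩ c = D ∩ (c \ b) := by
      ext x
      simp only [Finset.mem_inter, Finset.mem_sdiff]
      constructor
      · rintro ⟨hxD, hxc⟩
        refine ⟨hxD, hxc, fun hxb => ?_⟩
        have : x ∈ b \ c := h1 ▸ Finset.mem_inter.2 ⟨hxD, hxb⟩
        exact (Finset.mem_sdiff.1 this).2 hxc
      · rintro ⟨hxD, hxc, -⟩
        exact ⟨hxD, hxc⟩
    have hDc : D ≠ c := by
      intro h
      obtain ⟨x, hx⟩ : (b \ c).Nonempty := Finset.card_pos.1 (by omega)
      exact (Finset.mem_sdiff.1 hx).2 (h ▸ hPD hx)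
    have hpos : 0 < (D ∩ (c \ b)).card :=
      Finset.card_pos.2 ⟨i, Finset.mem_inter.2 ⟨hiD, hi⟩⟩
    rcases hint D hDB c hc hDc with h | h | h
    · rw [h2] at h; omega
    · rw [h2] at h; exact h
    · exfalso
      rw [h2] at h
      have h3 : D ∩ (c \ b) = c \ b :=
        Finset.eq_of_subset_of_card_le Finset.inter_subset_right (by omega)
      have hQD : c \ b ⊆ D := h3 ▸ Finset.inter_subset_left
      have hdisj : Disjoint (b \ c) (c \ b) := disjoint_sdiff_sdiff
      have hcard : (symmDiff b c).card = 8 := by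
        rw [symmDiff_def, Finset.sup_eq_union, Finset.card_union_of_disjoint hdisj, hP, hQ]
      have hsD : symmDiff b c ⊆ D := by
        rw [symmDiff_def, Finset.sup_eq_union]
        exact Finset.union_subset hPD hQD
      have : symmDiff b c = D := Finset.eq_of_subset_of_card_le hsD (by rw [hB.1 D hDB, hcard])
      exact hne (this ▸ hDB)
  obtain ⟨i, hi⟩ : (c \ b).Nonempty := Finset.card_pos.1 (by omega)
  obtain ⟨D, hDB, hPD, hiD, hD2⟩ := hD i hi
  obtain ⟨k, hk, hkD⟩ : ∃ k ∈ c \ b, k ∉ D := by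
    by_contra hcon
    push Not at hcon
    have : D ∩ (c \ b) = c \ b := Finset.inter_eq_right.2 hcon
    rw [this] at hD2
    omega
  obtain ⟨E, hEB, hPE, hkE, hE2⟩ := hD k hk
  have hDE : D ≠ E := fun h => hkD (h ▸ hkE)
  have hDEP : D ∩ E = b \ c := hfull D hDB E hEB hDE _ hP hPD hPE
  have hiE : i ∉ E := by
    intro h
    have : i ∈ b \ c := hDEP ▸ Finset.mem_inter.2 ⟨hiD, h⟩
    exact (Finset.mem_sdiff.1 hi).2 (Finset.mem_sdiff.1 this).1
  have hQcov : c \ b = (D ∩ (c \ b)) ∪ (E ∩ (c \ b)) := by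
    symm
    apply Finset.eq_of_subset_of_card_le
      (Finset.union_subset Finset.inter_subset_right Finset.inter_subset_right)
    rw [Finset.card_union_of_disjoint, hD2, hE2, hQ]
    rw [Finset.disjoint_left]
    intro x hx1 hx2
    have h1 := Finset.mem_inter.1 hx1
    have h2 := Finset.mem_inter.1 hx2
    have : x ∈ b \ c := hDEP ▸ Finset.mem_inter.2 ⟨h1.1, h2.1⟩
    exact (Finset.mem_sdiff.1 h1.2).2 (Finset.mem_sdiff.1 this).1
  obtain ⟨h, hh⟩ : (b \ c).Nonempty := Finset.card_pos.1 (by omega)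
  set P' := (b \ c).erase h with hP'
  have hP'3 : P'.card = 3 := by rw [hP', Finset.card_erase_of_mem hh, hP]
  have hP'sub : P' ⊆ b \ c := Finset.erase_subset _ _
  have hiP : i ∉ P' := fun hx => (Finset.mem_sdiff.1 hi).2 (Finset.mem_sdiff.1 (hP'sub hx)).1
  have hkP : k ∉ P' := fun hx => (Finset.mem_sdiff.1 hk).2 (Finset.mem_sdiff.1 (hP'sub hx)).1
  have hik : i ≠ k := fun e => hkD (e ▸ hiD)
  obtain ⟨F, hFB, hF⟩ := hex (insert i (insert k P')) (by
    rw [Finset.card_insert_of_notMem, Finset.card_insert_of_notMem hkP, hP'3]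
    simp [hik, hiP])
  have hiF : i ∈ F := hF (by simp)
  have hkF : k ∈ F := hF (by simp)
  have hP'F : P' ⊆ F := fun x hx => hF (by simp [hx])
  have hFD : F ∩ D = insert i P' := by
    apply hfull F hFB D hDB (fun e => hkD (e ▸ hkF))
    · rw [Finset.card_insert_of_notMem hiP, hP'3]
    · exact Finset.insert_subset hiF hP'F
    · exact Finset.insert_subset hiD (hP'sub.trans hPD)
  have hFE : F ∩ E = insert k P' := by
    apply hfull F hFB E hEB (fun e => hiE (e ▸ hiF))
    · rw [Finset.card_insert_of_notMem hkP, hP'3]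
    · exact Finset.insert_subset hkF hP'F
    · exact Finset.insert_subset hkE (hP'sub.trans hPE)
  have hFQ : F ∩ (c \ b) = {i, k} := by
    ext x
    simp only [Finset.mem_inter, Finset.mem_insert, Finset.mem_singleton]
    constructor
    · rintro ⟨hxF, hxQ⟩
      have hxP : x ∉ P' := fun hx =>
        (Finset.mem_sdiff.1 hxQ).2 (Finset.mem_sdiff.1 (hP'sub hx)).1
      have hx' := hxQ
      rw [hQcov, Finset.mem_union] at hx'
      rcases hx' with h1 | h1
      · have : x ∈ insert i P' := hFD ▸ Finset.mem_inter.2 ⟨hxF, (Finset.mem_inter.1 h1).1⟩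
        rcases Finset.mem_insert.1 this with h2 | h2
        · exact Or.inl h2
        · exact absurd h2 hxP
      · have : x ∈ insert k P' := hFE ▸ Finset.mem_inter.2 ⟨hxF, (Finset.mem_inter.1 h1).1⟩
        rcases Finset.mem_insert.1 this with h2 | h2
        · exact Or.inr h2
        · exact absurd h2 hxP
    · rintro (rfl | rfl)
      · exact ⟨hiF, hi⟩
      · exact ⟨hkF, hk⟩
  have hFP : F ∩ (b \ c) = P' := by
    ext x
    simp only [Finset.mem_inter]
    constructor
    · rintro ⟨hxF, hxP⟩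
      have : x ∈ insert i P' := hFD ▸ Finset.mem_inter.2 ⟨hxF, hPD hxP⟩
      rcases Finset.mem_insert.1 this with h2 | h2
      · exact absurd (Finset.mem_sdiff.1 hxP).1 (h2 ▸ (Finset.mem_sdiff.1 hi).2)
      · exact h2
    · intro hx
      exact ⟨hP'F hx, hP'sub hx⟩
  have e1 : (F ∩ b).card = (F ∩ (b \ c)).card + (F ∩ (b ∩ c)).card := by
    rw [← Finset.card_sdiff_add_card_inter (F ∩ b) c, Finset.inter_sdiff_assoc, Finset.inter_assoc]
  have e2 : (F ∩ c).card = (F ∩ (c \ b)).card + (F ∩ (b ∩ c)).card := by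
    rw [← Finset.card_sdiff_add_card_inter (F ∩ c) b, Finset.inter_sdiff_assoc, Finset.inter_assoc,
      Finset.inter_comm c b]
  rw [hFP, hP'3] at e1
  rw [hFQ, Finset.card_pair hik] at e2
  have hFb : F ≠ b := fun e => (Finset.mem_sdiff.1 hi).2 (e ▸ hiF)
  have hFc : F ≠ c := by
    intro e
    obtain ⟨x, hx⟩ : P'.Nonempty := Finset.card_pos.1 (by omega)
    exact (Finset.mem_sdiff.1 (hP'sub hx)).2 (e ▸ hP'F hx)
  have h5 := hint F hFB b hb hFb
  have h6 := hint F hFB c hc hFc
  omega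

end Cfsg.Agent.S0353
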