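import Cfsg.Statements.S0357
import Cfsg.Agent.Spor.SteinerInter

set_option autoImplicit false
open Cfsg

namespace Cfsg.Agent.S0357

/-- In a Steiner system S(5, 6, 12), the complement of every block is again a block. -/
theorem result {α : Type*} [Fintype α] [DecidableEq α] (hα : Fintype.card α = 12) {B : Set (Finset α)} (hB : Cfsg.IsSteinerSystem 5 6 B) {b : Finset α} (hb : b ∈ B) : bᶜ ∈ B := by
  have h := (Cfsg.Lib.Spor.interNum_5_6_12 hα hB hb).1
  have h0 : Cfsg.Lib.Spor.interNum B b 0 ≠ 0 := by omega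
  rw [Ne, Cfsg.Lib.Spor.interNum_eq_zero_iff] at h0
  push Not at h0
  obtain ⟨c, hc, -, hbc⟩ := h0
  have hsub : c ⊆ bᶜ := by
    intro x hx
    rw [Finset.mem_compl]
    intro hxb
    have : x ∈ b ∩ c := Finset.mem_inter.2 ⟨hxb, hx⟩
    rw [Finset.card_eq_zero.1 hbc] at this
    simp at this
  have : c = bᶜ := Finset.eq_of_subset_of_card_le hsub (by
    rw [Finset.card_compl, hα, hB.1 b hb, hB.1 c hc])
  exact this ▸ hc

end Cfsg.Agent.S0357
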