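import Cfsg.Statements.S0374
import Cfsg.Agent.Spor.M24Order

set_option autoImplicit false
open Cfsg

namespace Cfsg.Agent.S0374

open Cfsg.Lib.Spor Cfsg.Lib.Spor.MP

/-- The group of the length-24 code is generated by x ↦ x+1, x ↦ -1/x and the cube-twist permutation. -/
theorem result : Subgroup.closure {Equiv.optionCongr (Equiv.addRight (1 : ZMod 23)), Cfsg.projInv, Cfsg.cubeTwist} = Cfsg.M24 := by
  have ha : MP.Rep (Equiv.optionCongr (Equiv.addRight (1 : ZMod 23)))
      956302485175575353788796878166559809 := by unfold MP.Rep; decide +kernel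
  have hc : MP.Rep Cfsg.projInv 1795248432537898728475572672376535 := by unfold MP.Rep; decide +kernel
  have hd : MP.Rep Cfsg.cubeTwist 974380510768821363662145534143076928 := by
    unfold MP.Rep Cfsg.cubeTwist
    simp only [Equiv.ofBijective_apply]
    decide +kernel
  refine eq_of_slp ?_ (gens := [956302485175575353788796878166559809,
    1795248432537898728475572672376535, 974380510768821363662145534143076928]) ?_
    [1, 4097, 8193, 12289, 16385, 20481, 24577, 28673, 32769, 36865, 40961, 45057, 49153, 53249, 57345, 61441, 65537, 69633, 73729, 77825, 81921, 86039, 94209, 94210, 102401, 102402, 106498, 114690, 114691, 122883, 122884, 126980, 135172, 135173, 143364, 143365, 151557, 151557, 159749, 159750, 163846, 167940, 176130, 184366, 188417, 192513, 196656, 192562, 51, 16385, 122881, 7, 4103, 8195, 229379, 16388, 20484, 241668, 28677, 249861, 253957, 258053, 45061, 266244, 53253, 274436, 278532, 69654, 23, 22, 270337, 57344, 2, 1, 4097, 8193, 12289, 16385, 131103, 258049, 57344, 2, 1, 4097, 8193, 12301, 16397, 20493, 24589,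 28685, 32781, 73734, 77830, 45063, 86023, 90119, 94215, 61445, 65538, 81972, 364545, 151552, 2, 28672, 2, 90113, 1, 4122, 8218, 12314, 16410, 118788, 24581, 126981, 32774, 36870, 139270, 143365, 49157, 151555, 57348, 159746, 307223, 507905, 495617, 327681, 200705, 90113, 86017, 331783, 442368, 2, 540673, 102400, 2, 118785, 8, 57352, 552961, 385025, 258049, 86016, 2, 15, 4105, 8201, 32815, 557057, 397312, 2, 262144, 2, 188417, 25, 4115, 8211, 12302, 16398, 20494, 24590]
    [(23, [4000, 161, 138, 137, 136, 135, 134, 133, 132, 131, 130, 129, 128, 127, 126, 125, 124, 123, 122, 121, 120, 119, 118, 117]),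
   (0, [4000, 160, 159, 158, 157, 156, 155, 154, 153, 152, 151, 150, 149, 148, 147, 146, 145, 144, 143, 142, 141, 140, 139]),
   (1, [4000, 162, 116, 115, 114, 109, 108, 107, 106, 105, 104, 103, 102, 101, 100, 99, 98, 97, 96, 95, 94, 93]),
   (2, [4000, 87, 86, 85, 84, 83, 82, 74, 73, 72, 71, 70, 69, 68, 67, 66, 65, 64, 63, 62, 61]),
   (3, [4000, 78, 77, 76, 75, 52, 51, 50, 49, 48, 47, 46, 45, 44, 43, 42, 41, 40, 39, 38]),
   (5, [4000, 54, 53]),
   (4, [4000, 31, 24, 23, 17, 16, 15, 14, 7, 6, 5, 4, 3, 2, 1, 0])]
    (by decide +kernel) (by rw [card_M24]; decide +kernel)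
  · rw [Subgroup.closure_le]
    rintro g (rfl | rfl | rfl)
    · exact ha.mem_M24_iff.2 (by decide +kernel)
    · exact hc.mem_M24_iff.2 (by decide +kernel)
    · exact hd.mem_M24_iff.2 (by decide +kernel)
  · simp only [List.mem_cons, List.not_mem_nil, or_false, forall_eq_or_imp, forall_eq]
    exact ⟨ha.inSub (Subgroup.subset_closure (by simp)),
      hc.inSub (Subgroup.subset_closure (by simp)), hd.inSub (Subgroup.subset_closure (by simp))⟩

end Cfsg.Agent.S0374
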