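import Cfsg.Statements.S0384
import Cfsg.Agent.Spor.M24Simple

set_option autoImplicit false
open scoped Pointwise
open Cfsg

namespace Cfsg.Agent.S0384

open Cfsg.Lib.Spor Cfsg.Lib.Spor.MP

/-- A dodecad stabiliser is sharply 5-transitive on the dodecad. -/
theorem result (d : Finset Cfsg.GolayPt) (hd : d ∈ Cfsg.dodecads) (x y : Fin 5 ↪ Cfsg.GolayPt) (hx : ∀ i, x i ∈ d) (hy : ∀ i, y i ∈ d) : ∃! g : MulAction.stabilizer Cfsg.M24 d, ∀ i, ((g : Cfsg.M24) : Equiv.Perm Cfsg.GolayPt) (x i) = y i := by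
  obtain ⟨g, hg, h1, h2⟩ := M24_trans_dodecad_emb le_rfl hd hd x y hx hy
  refine ⟨⟨⟨g, hg⟩, h1⟩, h2, fun g' h' => ?_⟩
  obtain ⟨k, hk, e⟩ := M24_trans_dodecads hd squareDodecad_mem
  have h3 : k * (g⁻¹ * g'.1.1) * k⁻¹ = 1 := by
    refine M12_eq_one_of_fix ⟨M24.mul_mem (M24.mul_mem hk (M24.mul_mem (M24.inv_mem hg) g'.1.2))
      (M24.inv_mem hk), ?_⟩ (x.trans k.toEmbedding)
      (fun i => e ▸ apply_mem_perm_smul_finset.2 (hx i)) fun i => ?_
    · refine (conj_smul_eq_iff k _ e).2 ?_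
      have h4 : g'.1.1 • d = d := g'.2
      rw [mul_smul, h4, inv_smul_eq_iff, h1]
    · refine (conj_apply_eq_iff k _ rfl).2 ?_
      rw [Equiv.Perm.mul_apply, h' i, ← h2 i]; simp
  have h5 : g⁻¹ * g'.1.1 = 1 := by simpa using h3
  exact Subtype.ext (Subtype.ext (inv_mul_eq_one.1 h5).symm)

end Cfsg.Agent.S0384
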