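import Cfsg.Statements.S0386
import Cfsg.Agent.Spor.Sextet
import Cfsg.Agent.Spor.GolayOrbit

set_option autoImplicit false
open Cfsg

namespace Cfsg.Agent.S0386

open Cfsg.Lib.Spor in
open scoped Pointwise in
/-- Counting code words of weight `n` meeting a dodecad in `j` points. -/
theorem ncard_inter_dodecad (d : Finset GolayPt) (hd : d ∈ dodecads) (n j : ℕ) :
    {o : Finset GolayPt | (o ∈ golaySets ∧ o.card = n) ∧ (o ∩ d).card = j}.ncard =
      countLT 4096 (fun k => Nat.beq (popc (enc k)) n &&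
        Nat.beq (popc (Nat.land (enc k) 8245261)) j) := by
  obtain ⟨σ, hσ, rfl⟩ := exists_smul_base_dodecad hd
  rw [ncard_sep_smul σ (Q := fun o => o ∈ golaySets ∧ o.card = n ∧ (o ∩ maskSet 8245261).card = j)]
  · apply ncard_golaySets_filter (fun o => o.card = n ∧ (o ∩ maskSet 8245261).card = j)
      (fun m => Nat.beq (popc m) n && Nat.beq (popc (Nat.land m 8245261)) j)
    intro m _
    rw [← maskSet_and, card_maskSet, card_maskSet, Bool.and_eq_true, Nat.beq_eq, Nat.beq_eq]
    rfl
  · intro s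
    rw [smul_mem_golaySets_iff hσ, ← perm_smul_finset_inter, card_perm_smul_finset,
      card_perm_smul_finset, and_assoc]

/-- For a fixed dodecad, 132 octads meet it in 6 points, 132 in 2 points and 495 in 4 points. -/
theorem result (d : Finset Cfsg.GolayPt) (hd : d ∈ Cfsg.dodecads) : {o : Finset Cfsg.GolayPt | o ∈ Cfsg.octads ∧ (o ∩ d).card = 6}.ncard = 132 ∧ {o : Finset Cfsg.GolayPt | o ∈ Cfsg.octads ∧ (o ∩ d).card = 2}.ncard = 132 ∧ {o : Finset Cfsg.GolayPt | o ∈ Cfsg.octads ∧ (o ∩ d).card = 4}.ncard = 495 := by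
  exact ⟨(ncard_inter_dodecad d hd 8 6).trans (by decide +kernel),
    (ncard_inter_dodecad d hd 8 2).trans (by decide +kernel),
    (ncard_inter_dodecad d hd 8 4).trans (by decide +kernel)⟩

end Cfsg.Agent.S0386
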