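import Cfsg.Statements.S0385
import Cfsg.Agent.S0386

set_option autoImplicit false
open Cfsg

namespace Cfsg.Agent.S0385

/-- The 6-point intersections of octads with a fixed dodecad form a Steiner system S(5, 6, 12) on the dodecad. -/
theorem result (d : Finset Cfsg.GolayPt) (hd : d ∈ Cfsg.dodecads) : Cfsg.IsSteinerSystem 5 6 {h : Finset {p : Cfsg.GolayPt // p ∈ d} | ∃ o ∈ Cfsg.octads, (o ∩ d).card = 6 ∧ h = Finset.subtype (fun p => p ∈ d) o} := by
  have hcard : ∀ o : Finset GolayPt,
      (Finset.subtype (fun p => p ∈ d) o).card = (o ∩ d).card := by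
    intro o
    rw [Finset.card_subtype, Finset.filter_mem_eq_inter]
  have hinter : ∀ o o' : Finset GolayPt, Finset.subtype (fun p => p ∈ d) o ∩
      Finset.subtype (fun p => p ∈ d) o' = Finset.subtype (fun p => p ∈ d) (o ∩ o') := by
    intro o o'
    ext p
    simp
  apply Cfsg.Lib.Spor.isSteinerSystem_of_card
  · rintro _ ⟨o, -, h6, rfl⟩
    rw [hcard, h6]
  · rintro _ ⟨o, ho, -, rfl⟩ _ ⟨o', ho', -, rfl⟩ hne
    have h1 := Cfsg.Lib.Spor.card_inter_octads_le ho ho' (fun e => hne (by rw [e]))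
    have h2 := Finset.card_le_card (Finset.inter_subset_left (s₁ := o ∩ o') (s₂ := d))
    rw [hinter, hcard]
    omega
  · have h : {h : Finset {p : Cfsg.GolayPt // p ∈ d} | ∃ o ∈ Cfsg.octads, (o ∩ d).card = 6 ∧
        h = Finset.subtype (fun p => p ∈ d) o}.ncard = 132 := by
      rw [← (Cfsg.Agent.S0386.result d hd).1]
      symm
      apply Set.ncard_congr (fun o _ => Finset.subtype (fun p => p ∈ d) o)
      · rintro o ⟨ho, h6⟩
        exact ⟨o, ho, h6, rfl⟩
      · rintro o o' ⟨ho, h6⟩ ⟨ho', -⟩ h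
        refine Cfsg.Lib.Spor.octad_eq_of_five_le ho ho' (s := o ∩ d) (by omega)
          Finset.inter_subset_left ?_
        intro p hp
        rw [Finset.mem_inter] at hp
        have : (⟨p, hp.2⟩ : {p // p ∈ d}) ∈ Finset.subtype (fun p => p ∈ d) o :=
          Finset.mem_subtype.2 hp.1
        rw [h] at this
        exact Finset.mem_subtype.1 this
      · rintro _ ⟨o, ho, h6, rfl⟩
        exact ⟨o, ⟨ho, h6⟩, rfl⟩
    rw [h, Fintype.card_coe, hd.2]
    decide +kernel

end Cfsg.Agent.S0385
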