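import Cfsg.Statements.S0387
import Cfsg.Agent.Spor.M24Sub

set_option autoImplicit false
open scoped Pointwise
open Cfsg

namespace Cfsg.Agent.S0387

open Cfsg.Lib.Spor Cfsg.Lib.Spor.MP

/-- The stabiliser of a dodecad and a point on it has order 7920 = 2^4·3^2·5·11. -/
theorem result (d : Finset Cfsg.GolayPt) (hd : d ∈ Cfsg.dodecads) (p : Cfsg.GolayPt) (hp : p ∈ d) : Nat.card ↥(MulAction.stabilizer Cfsg.M24 d ⊓ MulAction.stabilizer Cfsg.M24 p) = 7920 := by
  exact (Nat.card_congr (nonempty_equiv_M11 hd hp).some.toEquiv).trans card_M11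

end Cfsg.Agent.S0387
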