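import Cfsg.Statements.S0389
import Cfsg.Agent.Spor.M24Sub

set_option autoImplicit false
open scoped Pointwise
open Cfsg

namespace Cfsg.Agent.S0389

open Cfsg.Lib.Spor Cfsg.Lib.Spor.MP

/-- The stabiliser of a dodecad and a point on it is 3-transitive on the complementary dodecad. -/
theorem result (d : Finset Cfsg.GolayPt) (hd : d ∈ Cfsg.dodecads) (p : Cfsg.GolayPt) (hp : p ∈ d) (x y : Fin 3 ↪ Cfsg.GolayPt) (hx : ∀ i, x i ∉ d) (hy : ∀ i, y i ∉ d) : ∃ g ∈ MulAction.stabilizer Cfsg.M24 d ⊓ MulAction.stabilizer Cfsg.M24 p, ∀ i, (g : Equiv.Perm Cfsg.GolayPt) (x i) = y i := by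
  obtain ⟨k, hk, e, e'⟩ := M24_trans_dodecad_point hd squareDodecad_mem hp zero_mem_squareDodecad
  obtain ⟨g, hg, h⟩ := M11_three_trans_compl (x.trans k.toEmbedding) (y.trans k.toEmbedding)
    (fun i hi => hx i (by rw [← e] at hi; exact apply_mem_perm_smul_finset.1 hi))
    (fun i hi => hy i (by rw [← e] at hi; exact apply_mem_perm_smul_finset.1 hi))
  rw [mem_M11] at hg
  refine ⟨⟨k⁻¹ * g * k⁻¹⁻¹, conj_mem_M24 (M24.inv_mem hk) ⟨g, hg.1⟩⟩, ⟨?_, ?_⟩, fun i => ?_⟩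
  · exact (conj_smul_eq_iff k⁻¹ g (inv_smul_eq_iff.2 e.symm)).2 hg.2.1
  · exact (conj_apply_eq_iff k⁻¹ g (Equiv.Perm.inv_eq_iff_eq.2 e'.symm)).2 hg.2.2
  · have := h i
    simp only [Function.Embedding.trans_apply, Equiv.coe_toEmbedding] at this
    simp [this]

end Cfsg.Agent.S0389
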