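import Cfsg.Statements.S0404
import Cfsg.Agent.Spor.Co0Simple

set_option autoImplicit false
open Cfsg

namespace Cfsg.Agent.S0404

open Cfsg.Lib.Spor Cfsg.Lib.Spor.CK Cfsg.Lib.Spor.Orb MulAction

/-- Joint stabiliser of two minimal vectors with coordinate dot product −8 is simple of order 898128000. -/
theorem result (v w : Cfsg.leechLattice) (hv : Cfsg.sqNorm (v : Cfsg.GolayPt → ℤ) = 32) (hw : Cfsg.sqNorm (w : Cfsg.GolayPt → ℤ) = 32) (hvw : Cfsg.dotInt (v : Cfsg.GolayPt → ℤ) (w : Cfsg.GolayPt → ℤ) = -8) : Cfsg.IsMcL ↥(MulAction.stabilizer Cfsg.Co0 v ⊓ MulAction.stabilizer Cfsg.Co0 w) := by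
  change nm v = 32 at hv
  change nm w = 32 at hw
  change dt v w = -8 at hvw
  obtain ⟨e⟩ := nonempty_equiv_sMcL (v := v + w) (x := v) (by rw [nm_add, hv, hw, hvw]; rfl)
    ⟨hv, by rw [dt_add_left, dt_self, hv, dt_comm, hvw]; rfl⟩
  have h : stabilizer Co0 (v + w) ⊓ stabilizer Co0 v = stabilizer Co0 v ⊓ stabilizer Co0 w := by
    ext g
    simp only [Subgroup.mem_inf, mem_stabilizer_iff, co0_smul_add]
    constructor
    · rintro ⟨h1, h2⟩
      rw [h2, add_right_inj] at h1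
      exact ⟨h2, h1⟩
    · rintro ⟨h1, h2⟩
      rw [h1, h2]
      exact ⟨rfl, rfl⟩
  rw [h] at e
  exact ⟨e.symm.isSimpleGroup, (Nat.card_congr e.toEquiv).symm.trans card_sMcL⟩

end Cfsg.Agent.S0404
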