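import Cfsg.Statements.S0405
import Cfsg.Agent.Spor.Co0Simple

set_option autoImplicit false
open Cfsg

namespace Cfsg.Agent.S0405

open Cfsg.Lib.Spor Cfsg.Lib.Spor.CK Cfsg.Lib.Spor.Orb MulAction

/-- Joint stabiliser of two vectors of sum of squares 48 with coordinate dot product −32 is simple of order 44352000. -/
theorem result (v w : Cfsg.leechLattice) (hv : Cfsg.sqNorm (v : Cfsg.GolayPt → ℤ) = 48) (hw : Cfsg.sqNorm (w : Cfsg.GolayPt → ℤ) = 48) (hvw : Cfsg.dotInt (v : Cfsg.GolayPt → ℤ) (w : Cfsg.GolayPt → ℤ) = -32) : Cfsg.IsHS ↥(MulAction.stabilizer Cfsg.Co0 v ⊓ MulAction.stabilizer Cfsg.Co0 w) := by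
  change nm v = 48 at hv
  change nm w = 48 at hw
  change dt v w = -32 at hvw
  obtain ⟨e⟩ := nonempty_equiv_sHS (v := v) (x := v + w) hv
    ⟨by rw [nm_add, hv, hw, hvw]; rfl, by rw [dt_add_right, dt_self, hv, hvw]; rfl⟩
  have h : stabilizer Co0 v ⊓ stabilizer Co0 (v + w) = stabilizer Co0 v ⊓ stabilizer Co0 w := by
    ext g
    simp only [Subgroup.mem_inf, mem_stabilizer_iff, co0_smul_add]
    exact and_congr_right fun h => by rw [h, add_right_inj]
  rw [h] at e
  exact ⟨e.symm.isSimpleGroup, (Nat.card_congr e.toEquiv).symm.trans card_sHS⟩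

end Cfsg.Agent.S0405
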