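import Cfsg.Statements.S0416
import Cfsg.Agent.Spor.SharpTrans2

set_option autoImplicit false
open Cfsg

namespace Cfsg.Agent.S0416

/-- Degrees of sharply 5-transitive permutation groups are 5, 6, 7, 12. -/
theorem result {α : Type*} [Fintype α] [DecidableEq α] (G : Subgroup (Equiv.Perm α)) (h5 : 5 ≤ Fintype.card α) [MulAction.IsMultiplyPretransitive G α 5] (hsharp : ∀ x : Fin 5 ↪ α, MulAction.stabilizer G x = ⊥) : Fintype.card α = 5 ∨ Fintype.card α = 6 ∨ Fintype.card α = 7 ∨ Fintype.card α = 12 := by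
  rw [← Nat.card_eq_fintype_card] at h5 ⊢
  exact Cfsg.Lib.Spor.SharpTrans.jordan5 (G := G) ⟨inferInstance, hsharp⟩ h5

end Cfsg.Agent.S0416
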