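import Cfsg.Statements.S0421
import Cfsg.Agent.Spor.O95040C

set_option autoImplicit false
open scoped Pointwise
open Cfsg

namespace Cfsg.Agent.S0421

/-- Simple groups of order 95040 are all isomorphic to the concrete Mathieu group of degree 12. -/
theorem result {G : Type*} [Group G] [Finite G] (hG : Cfsg.IsM12 G) (d : Finset Cfsg.GolayPt) (hd : d ∈ Cfsg.dodecads) : Nonempty (G ≃* ↥(MulAction.stabilizer Cfsg.M24 d)) := by
  have := hG.1
  obtain ⟨e⟩ := Cfsg.Lib.Spor.O95040.isoM12 hG.2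
  obtain ⟨e'⟩ := Cfsg.Lib.Spor.MP.nonempty_equiv_M12 hd
  exact ⟨e.trans e'.symm⟩

end Cfsg.Agent.S0421
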