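import Cfsg.Statements.S0427
import Cfsg.Agent.Spor.HSGraph

set_option autoImplicit false
open Cfsg

namespace Cfsg.Agent.S0427

/-- The block graph (adjacent = disjoint) of an S(3, 6, 22) is strongly regular with parameters (77, 16, 0, 4). -/
theorem result {α : Type*} [Fintype α] (hα : Fintype.card α = 22) {B : Set (Finset α)} (hB : Cfsg.IsSteinerSystem 3 6 B) [Fintype B] [DecidableRel (Cfsg.blockGraph B).Adj] : (Cfsg.blockGraph B).IsSRGWith 77 16 0 4 := by
  classical
  exact Cfsg.Lib.Spor.SRG.isSRG_iff.1 (Cfsg.Lib.Spor.Witt.blockGraph_isSRG hα hB)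

end Cfsg.Agent.S0427
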