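import Cfsg.Statements.S0431
import Cfsg.Agent.Spor.HSAut

set_option autoImplicit false
open Cfsg

namespace Cfsg.Agent.S0431

/-- Aut of the point-block graph of an S(3, 6, 22) contains a simple subgroup of order 44352000. -/
theorem result {α : Type*} [Fintype α] (hα : Fintype.card α = 22) {B : Set (Finset α)} (hB : Cfsg.IsSteinerSystem 3 6 B) : ∃ H : Subgroup (Cfsg.pointBlockGraph B ≃g Cfsg.pointBlockGraph B), Cfsg.IsHS H := by
  classical
  obtain ⟨H, h1, h2⟩ := Lib.Spor.SRG.exists_simple_pointBlockGraph hα hB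
  refine ⟨H, h2, ?_⟩
  have h := H.index_mul_card
  rw [h1, Lib.Spor.SRG.card_aut_pointBlockGraph hα hB] at h
  omega

end Cfsg.Agent.S0431
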