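import Cfsg.Statements.S0433
import Cfsg.Agent.Spor.GolayBits

set_option autoImplicit false
open Cfsg

namespace Cfsg.Agent.S0433

open Cfsg.Lib.Spor in
theorem sign_mem_leechSet (c : Finset GolayPt) (hc : c ∈ golaySets) (x : GolayPt → ℤ)
    (hx : x ∈ leechSet) : (fun i => if i ∈ c then -x i else x i) ∈ leechSet := by
  obtain ⟨m, h1, h2, h3⟩ := hx
  refine ⟨m, fun i => ?_, ?_, fun k => ?_⟩
  · have := h1 i
    simp only [Int.ModEq] at this ⊢
    split_ifs <;> omega
  · have hsum : ∑ i, (if i ∈ c then -x i else x i) = ∑ i, x i - 2 * ∑ i ∈ c, x i := by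
      have : ∀ i, (if i ∈ c then -x i else x i) = x i - 2 * (if i ∈ c then x i else 0) := by
        intro i; split_ifs <;> ring
      simp only [this, Finset.sum_sub_distrib, ← Finset.mul_sum, Finset.sum_ite_mem,
        Finset.univ_inter]
    have hS := even_card_inter hc (h3 (m + 2))
    have hcard := card_of_mem_golaySets hc
    have key : ∑ i ∈ c, x i ≡ ∑ i ∈ c, (m + if x i ≡ m + 2 [ZMOD 4] then 2 else 0) [ZMOD 4] := by
      apply Int.ModEq.sum
      intro i _
      have := h1 i
      simp only [Int.ModEq] at this ⊢
      split_ifs <;> omega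
    rw [Finset.sum_add_distrib, Finset.sum_const, ← Finset.sum_filter, Finset.sum_const] at key
    have e : (c.filter fun i => x i ≡ m + 2 [ZMOD 4]) =
        c ∩ Finset.univ.filter fun i => x i ≡ m + 2 [ZMOD 4] := by
      ext i; simp
    rw [e] at key
    obtain ⟨t, ht⟩ := hS
    rw [ht] at key
    have hc4 : ∃ u : ℕ, c.card = 4 * u := ⟨c.card / 4, by omega⟩
    obtain ⟨u, hu⟩ := hc4
    rw [hu] at key
    simp only [nsmul_eq_mul, Nat.cast_mul, Nat.cast_add, Nat.cast_ofNat] at key
    rw [hsum]
    have k2 : (4 : ℤ) ∣ ∑ i ∈ c, x i := by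
      have : (4 : ℤ) ∣ 4 * u * m + (t + t) * 2 := ⟨u * m + t, by ring⟩
      exact (Int.ModEq.dvd_iff key).2 this
    simp only [Int.ModEq] at h2 ⊢
    omega
  · by_cases hm : m % 2 = 0
    · convert h3 k using 1
      apply Finset.filter_congr
      intro i _
      have := h1 i
      simp only [Int.ModEq] at this ⊢
      split_ifs <;> omega
    · by_cases hk : k % 2 = 0
      · convert empty_mem_golaySets using 1
        apply Finset.filter_false_of_mem
        intro i _
        have := h1 i
        simp only [Int.ModEq] at this ⊢
        split_ifs <;> omega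
      · convert symmDiff_mem_golaySets (h3 k) hc using 1
        ext i
        have := h1 i
        simp only [Finset.mem_filter, Finset.mem_univ, true_and, Finset.mem_symmDiff]
        simp only [Int.ModEq] at this ⊢
        by_cases hi : i ∈ c
        · simp only [hi, if_true, not_true, and_false, true_and, false_or]; omega
        · simp only [hi, if_false, not_false_iff, and_true, false_and, or_false]

/-- Sign changes on the support of a codeword preserve the lattice. -/
theorem result (c : Finset Cfsg.GolayPt) (hc : c ∈ Cfsg.supports (Cfsg.golayCode : Set (Cfsg.GolayPt → ZMod 2))) (x : Cfsg.GolayPt → ℤ) (hx : x ∈ Cfsg.leechLattice) : (fun i => if i ∈ c then -x i else x i) ∈ Cfsg.leechLattice := by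
  induction hx using AddSubgroup.closure_induction with
  | mem y hy => exact AddSubgroup.subset_closure (sign_mem_leechSet c hc y hy)
  | zero =>
    convert leechLattice.zero_mem using 1
    funext i; simp
  | add y z _ _ hy hz =>
    convert leechLattice.add_mem hy hz using 1
    funext i
    simp only [Pi.add_apply]
    split_ifs <;> ring
  | neg y _ hy =>
    convert leechLattice.neg_mem hy using 1
    funext i
    simp only [Pi.neg_apply]
    split_ifs <;> ring

end Cfsg.Agent.S0433
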