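import Cfsg.Statements.S0439
import Cfsg.Agent.Spor.TQGroup

set_option autoImplicit false
open Cfsg

namespace Cfsg.Agent.S0439

/-- In the symmetric group of degree n ≥ 2, the set of transpositions is a conjugacy class of 3-transpositions which generates the group. -/
theorem result (n : ℕ) (hn : 2 ≤ n) : Cfsg.IsThreeTranspositionClass {σ : Equiv.Perm (Fin n) | σ.IsSwap} := by
  open Cfsg.Lib.Spor Equiv in
  refine ⟨tt_of_braid ?_ ?_ ?_, ?_, ?_⟩
  · rintro _ ⟨x, y, hxy, rfl⟩ h
    exact hxy (swap_eq_one_iff.1 h)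
  · rintro _ ⟨x, y, hxy, rfl⟩
    exact swap_mul_self _ _
  · rintro _ ⟨x, y, hxy, rfl⟩ _ ⟨u, v, huv, rfl⟩
    have key : ∀ x y v : Fin n, x ≠ y → x ≠ v → y ≠ v →
        swap x y * swap x v * swap x y = swap x v * swap x y * swap x v := by
      intro x y v h1 h2 h3
      have e1 := swap_mul_swap_mul_swap (x := v) (y := x) (z := y) h2.symm h3.symm
      have e2 := swap_mul_swap_mul_swap (x := y) (y := x) (z := v) h1.symm h3
      rw [swap_comm v x] at e1
      rw [swap_comm y x] at e2
      rw [e1, e2, swap_comm]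
    have key2 : ∀ x y v : Fin n, x ≠ y → x ≠ v → Commute (swap x y) (swap x v) ∨
        swap x y * swap x v * swap x y = swap x v * swap x y * swap x v := by
      intro x y v h1 h2
      by_cases h3 : y = v
      · subst h3; exact Or.inl rfl
      · exact Or.inr (key x y v h1 h2 h3)
    by_cases h1 : x = u
    · subst h1; exact key2 x y v hxy huv
    by_cases h2 : x = v
    · subst h2; rw [swap_comm u x]; exact key2 x y u hxy h1
    by_cases h3 : y = u
    · subst h3; rw [swap_comm x y]; exact key2 y x v (Ne.symm hxy) huv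
    by_cases h4 : y = v
    · subst h4; rw [swap_comm x y, swap_comm u y]; exact key2 y x u (Ne.symm hxy) h3
    left
    apply Perm.Disjoint.commute
    apply Perm.disjoint_swap_swap
    simp [hxy, huv, h1, h2, h3, h4]
  · have h01 : (⟨0, by omega⟩ : Fin n) ≠ ⟨1, by omega⟩ := by simp
    refine ⟨swap ⟨0, by omega⟩ ⟨1, by omega⟩, ⟨_, _, h01, rfl⟩, ?_⟩
    ext σ
    constructor
    · rintro ⟨x, y, hxy, rfl⟩
      exact Perm.isConj_swap h01 hxy
    · intro h
      obtain ⟨g, rfl⟩ := isConj_iff.1 h
      exact ⟨_, _, g.injective.ne h01, (swap_apply_apply _ _ _).symm⟩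
  · exact Perm.closure_isSwap

end Cfsg.Agent.S0439
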