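import Cfsg.Statements.S0442
import Mathlib

set_option autoImplicit false
open Cfsg

namespace Cfsg.Agent.S0442

theorem mul_pow_inv {G : Type*} [Group G] {a b : G} (ha : a * a = 1) (hb : b * b = 1) (k : ℕ) :
    (a * b) ^ k * a = a * ((a * b) ^ k)⁻¹ := by
  have h1 : a⁻¹ = a := inv_eq_of_mul_eq_one_right ha
  have h2 : b⁻¹ = b := inv_eq_of_mul_eq_one_right hb
  induction k with
  | zero => simp
  | succ k ih =>
    rw [pow_succ', mul_assoc, ih, mul_inv_rev, mul_inv_rev, h1, h2]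
    have hc : Commute (a * b) ((a * b) ^ k)⁻¹ := (Commute.refl _).pow_right k |>.inv_right
    have hc' : Commute (b * a) ((a * b) ^ k)⁻¹ := by
      have : b * a = (a * b)⁻¹ := by rw [mul_inv_rev, h1, h2]
      rw [this]; exact hc.inv_left
    rw [← hc'.eq]; simp only [mul_assoc]

theorem comm_half {G : Type*} [Group G] {a b : G} (ha : a * a = 1) (hb : b * b = 1) (m : ℕ)
    (h : (a * b) ^ (2 * m) = 1) : Commute ((a * b) ^ m) a := by
  have h1 : ((a * b) ^ m)⁻¹ = (a * b) ^ m := by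
    apply inv_eq_of_mul_eq_one_right
    rw [← pow_add, ← two_mul, h]
  show _ * _ = _ * _
  rw [mul_pow_inv ha hb, h1]

/-- A standard trick for producing elements of an involution centraliser: for an involution a and an element g, let b be the conjugate g⁻¹ * a * g. If a * b has odd order 2m + 1 then g * (a * b) ^ m commutes with a; if a * b has even order 2m then (a * b) ^ m and (a * (g * a * g⁻¹)) ^ m commute with a. -/
theorem result {G : Type*} [Group G] (a g : G) (ha : orderOf a = 2) : (∀ m : ℕ, orderOf (a * (g⁻¹ * a * g)) = 2 * m + 1 → Commute (g * (a * (g⁻¹ * a * g)) ^ m) a) ∧ (∀ m : ℕ, orderOf (a * (g⁻¹ * a * g)) = 2 * m → Commute ((a * (g⁻¹ * a * g)) ^ m) a ∧ Commute ((a * (g * a * g⁻¹)) ^ m) a) := by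
  have haa : a * a = 1 := by rw [← pow_two, ← ha, pow_orderOf_eq_one]
  have hb : (g⁻¹ * a * g) * (g⁻¹ * a * g) = 1 := by
    have : (g⁻¹ * a * g) * (g⁻¹ * a * g) = g⁻¹ * (a * a) * g := by group
    rw [this, haa]; simp
  have hb' : (g * a * g⁻¹) * (g * a * g⁻¹) = 1 := by
    have : (g * a * g⁻¹) * (g * a * g⁻¹) = g * (a * a) * g⁻¹ := by group
    rw [this, haa]; simp
  refine ⟨fun m hm => ?_, fun m hm => ⟨?_, ?_⟩⟩
  · have h1 : (a * (g⁻¹ * a * g)) ^ (2 * m + 1) = 1 := by rw [← hm, pow_orderOf_eq_one]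
    have h2 : ((a * (g⁻¹ * a * g)) ^ m)⁻¹ = (a * (g⁻¹ * a * g)) * (a * (g⁻¹ * a * g)) ^ m := by
      apply inv_eq_of_mul_eq_one_right
      rw [← pow_succ', ← pow_add, ← h1]; congr 1; ring
    show _ * _ = _ * _
    rw [mul_assoc, mul_pow_inv haa hb, h2, ← mul_assoc a, ← mul_assoc a a, haa, one_mul]
    simp only [mul_assoc, mul_inv_cancel_left]
  · exact comm_half haa hb m (by rw [← hm, pow_orderOf_eq_one])
  · apply comm_half haa hb' m
    have h1 : (a * (g⁻¹ * a * g)) ^ (2 * m) = 1 := by rw [← hm, pow_orderOf_eq_one]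
    have h3 : a⁻¹ = a := inv_eq_of_mul_eq_one_right haa
    have h2 : a * (g * a * g⁻¹) = g * (a * (g⁻¹ * a * g))⁻¹ * g⁻¹ := by
      simp only [mul_inv_rev, inv_inv, h3, mul_assoc, mul_inv_cancel_left]
    rw [h2, conj_pow, inv_pow, h1]; simp

end Cfsg.Agent.S0442
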