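import Cfsg.Statements.S0458
import Cfsg.Agent.Spor.J3Main

set_option autoImplicit false
open Cfsg

namespace Cfsg.Agent.S0458

/-- Janko's third group exists as a transitive permutation group of degree 6156 with point stabiliser of order 8160: a simple group of order 50232960. -/
theorem result : ∃ H : Subgroup (Equiv.Perm (Fin 6156)), Cfsg.IsJ3 H ∧ MulAction.IsPretransitive H (Fin 6156) ∧ Nat.card (MulAction.stabilizer H (0 : Fin 6156)) = 8160 := by
  classical
  let F := GaloisField 2 2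
  let : Fintype F := Fintype.ofFinite F
  have hF : Fintype.card F = 4 := by rw [← Nat.card_eq_fintype_card, GaloisField.card 2 2 two_ne_zero]; rfl
  obtain ⟨ω, hω⟩ := Cfsg.Lib.Spor.MG.exists_omega hF
  have h2 := Cfsg.Lib.Spor.MG.two_eq_zero_of_card hF
  have hs := Cfsg.Lib.Spor.J3.simple_quot h2 hω (Equiv.refl _) hF
  have hc := Cfsg.Lib.Spor.J3.card_quot h2 hω (Equiv.refl _) hF
  obtain ⟨H, hH⟩ := Cfsg.Lib.Spor.J3.exists_index h2 hω (Equiv.refl _) hF
  obtain ⟨K, h3, h4, ⟨e⟩⟩ := Cfsg.Lib.Spor.MG.perm_rep_card H 6156 (by norm_num) hH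
  refine ⟨K, ⟨h3.1, h3.2.trans hc⟩, h4, ?_⟩
  have h5 := H.card_mul_index
  rw [hH, hc, Nat.card_congr e.toEquiv] at h5
  omega

end Cfsg.Agent.S0458
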