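import Cfsg.Statements.S0459
import Cfsg.Agent.Spor.RuTits

set_option autoImplicit false
open Cfsg

namespace Cfsg.Agent.S0459

/-- The Rudvalis group exists as a transitive permutation group of degree 4060: simple of order 145926144000, with point stabiliser of order 35942400 containing a simple subgroup of order 17971200 (the order of the Tits group). -/
theorem result : ∃ H : Subgroup (Equiv.Perm (Fin 4060)), Cfsg.IsRu H ∧ MulAction.IsPretransitive H (Fin 4060) ∧ Nat.card (MulAction.stabilizer H (0 : Fin 4060)) = 35942400 ∧ ∃ T : Subgroup (MulAction.stabilizer H (0 : Fin 4060)), Cfsg.IsTits T := by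
  open Cfsg.Lib.Spor Cfsg.Lib.Spor.Ru Cfsg.Lib.Known in
  obtain ⟨h1, h2, h3⟩ := GG_main
  obtain ⟨K, e, k1, k2⟩ := Lib.Spor.MG.exists_perm_rep _ 4060 (by decide) h3
  obtain ⟨θ, hθ⟩ := Lib.Spor.Ru.exists_tits
  let f := (e.subgroupMap _).trans (MulEquiv.subgroupCongr k2)
  let j := MonoidHom.ofInjective (f := f.toMonoidHom.comp θ) (f.injective.comp hθ)
  have := Lib.Known.tits_simple
  refine ⟨K, ⟨e.symm.isSimpleGroup, (Nat.card_congr e.toEquiv).symm.trans h2⟩, k1, ?_, _,
    j.symm.isSimpleGroup, (Nat.card_congr j.toEquiv).symm.trans Lib.Known.tt_card⟩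
  have h4 := (Lib.Spor.Ru.GM.fixer [1]).index_mul_card
  rw [h2, h3, Nat.card_congr f.toEquiv] at h4
  omega

end Cfsg.Agent.S0459
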