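import Cfsg.Statements.S0460
import Cfsg.Agent.Spor.ONSub
import Cfsg.Agent.Spor.BulkIso

set_option autoImplicit false
open Cfsg

namespace Cfsg.Agent.S0460

open Cfsg.Lib.Spor.Bulk Cfsg.Lib.Spor.ONP

/-- The O'Nan group exists as a transitive permutation group of degree 122760: simple of order 460815505920, point stabiliser of order 3753792, and containing simple subgroups of orders 175560 and 7920. -/
theorem result : ∃ H : Subgroup (Equiv.Perm (Fin 122760)), Cfsg.IsON H ∧ MulAction.IsPretransitive H (Fin 122760) ∧ Nat.card (MulAction.stabilizer H (0 : Fin 122760)) = 3753792 ∧ (∃ K : Subgroup H, Cfsg.IsJ1 K) ∧ (∃ K : Subgroup H, Cfsg.IsM11 K) := by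
  have := simple
  have e1 := MonoidHom.ofInjective injective
  have e2 := model.stabEquiv injective
  obtain ⟨J, ⟨eJ⟩⟩ := exists_J1
  obtain ⟨M, ⟨eM⟩⟩ := exists_M11
  have := Cfsg.Lib.Spor.J1.simple_J1
  have fJ := (e1.subgroupMap J).symm.trans eJ
  have fM := (e1.subgroupMap M).symm.trans eM
  refine ⟨ρ.range, ⟨e1.symm.isSimpleGroup, by rw [← Nat.card_congr e1.toEquiv, card]⟩,
    model.isPretransitive, ?_, ⟨_, fJ.isSimpleGroup, ?_⟩, ⟨_, fM.isSimpleGroup, ?_⟩⟩
  · rw [← card_H, ← gW_sing]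
    exact (Nat.card_congr e2.toEquiv).symm
  · rw [Nat.card_congr fJ.toEquiv, Cfsg.Lib.Spor.J1.card_J1]
  · rw [Nat.card_congr fM.toEquiv, Cfsg.Lib.Spor.MP.card_M11]

end Cfsg.Agent.S0460
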