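import Cfsg.Statements.S0461
import Cfsg.Agent.Spor.J4Ord

set_option autoImplicit false
open Cfsg

namespace Cfsg.Agent.S0461

open Cfsg.Lib.Spor.J4P

theorem aux {G H : Type*} [Group G] [Group H] (f : G →* H) (hf : Function.Injective f)
    (h : Cfsg.IsJ4 G) : Cfsg.IsJ4 f.range := by
  have e := MonoidHom.ofInjective hf
  have := h.1
  exact ⟨e.symm.isSimpleGroup, (Nat.card_congr e.toEquiv).symm.trans h.2⟩


/-- Janko's fourth group exists as a group of 112 × 112 matrices over the field with two elements: GL(112, 2) has a simple subgroup of order 86775571046077562880. -/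
theorem result : ∃ H : Subgroup (GL (Fin 112) (ZMod 2)), Cfsg.IsJ4 H := by
  exact ⟨_, aux ψ ψ_injective isJ4⟩

end Cfsg.Agent.S0461
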