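import Cfsg.Statements.S0465
import Cfsg.Agent.Spor.BmMain

set_option autoImplicit false
open Cfsg

namespace Cfsg.Agent.S0465

/-- The Baby Monster as matrices in characteristic 2: for some finite field F of characteristic 2, GL(4370, F) has a simple subgroup of order 4154781481226426191177580544000000. -/
theorem result : ∃ (F : Type) (_ : Field F) (_ : Fintype F), CharP F 2 ∧ ∃ H : Subgroup (GL (Fin 4370) F), Cfsg.IsB H := by
  obtain ⟨f, hf⟩ := Cfsg.Lib.Baby.exists_model
  obtain ⟨h1, h2⟩ := Cfsg.Lib.Spor.Bm.isB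
  have key : ∀ {K : Type} [Group K] (f : Cfsg.Spor.BabyMonster →* K), f (PresentedGroup.of .t1) ≠ 1 →
      Cfsg.IsB f.range := fun f hf => by
    have inj : Function.Injective f := by
      rw [← MonoidHom.ker_eq_bot_iff]
      exact (f.normal_ker.eq_bot_or_eq_top).resolve_right fun e =>
        hf (e ▸ Subgroup.mem_top _ : PresentedGroup.of .t1 ∈ f.ker)
    have e := MonoidHom.ofInjective inj
    exact ⟨e.symm.isSimpleGroup, (Nat.card_congr e.toEquiv).symm.trans h2⟩
  exact ⟨ZMod 2, inferInstance, inferInstance, inferInstance, f.range, key f hf⟩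

end Cfsg.Agent.S0465
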