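import Cfsg.Statements.S0476
import Cfsg.Agent.Spor.J4Cen

set_option autoImplicit false
open Cfsg

namespace Cfsg.Agent.S0476

open Cfsg.Lib.Spor.J4P

/-- In some simple group of the order of Janko's fourth group there is an involution whose centraliser C has a normal extraspecial subgroup Q of order 2 ^ 13, a normal subgroup N of order 3 · 2 ^ 13 containing Q, and a subgroup M of index 2 containing N as a normal subgroup with M / N simple of order 443520. -/
theorem result : ∃ (G : Type) (_ : Group G) (_ : Finite G), Cfsg.IsJ4 G ∧ ∃ z : G, orderOf z = 2 ∧ ∃ (Q N M : Subgroup (Subgroup.centralizer ({z} : Set G))), Q.Normal ∧ N.Normal ∧ Q ≤ N ∧ N ≤ M ∧ Nat.card Q = 2 ^ 13 ∧ Cfsg.IsExtraspecial 2 Q ∧ Nat.card N = 3 * 2 ^ 13 ∧ M.index = 2 ∧ ∃ (_ : (N.subgroupOf M).Normal), Cfsg.IsM22 (M ⧸ N.subgroupOf M) := by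
  obtain ⟨Q, h1, h2, h3, h4, h5⟩ := es_part
  exact ⟨Cfsg.Spor.J4, inferInstance, finite_J4, isJ4, z0,
    orderOf_eq_prime (by rw [pow_two, z0, vv_sq]) z0_ne, Q, θ.ker, Cfsg.Spor.M22.comap θ, h1,
    θ.normal_ker, h2, Subgroup.ker_le_comap _ _, h3, h4, h5, m22_quot.1, θ.normal_ker.subgroupOf _,
    m22_quot.2⟩

end Cfsg.Agent.S0476
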