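import Cfsg.Statements.S0478
import Cfsg.Agent.Spor.J3Main

set_option autoImplicit false
open Cfsg

namespace Cfsg.Agent.S0478

/-- A triple cover of Janko's third group inside a unitary group: for a field F with four elements, the special unitary group of dimension 9 (with respect to the form with q = 2) has a subgroup whose centre has order 3 and whose quotient by its centre is simple of order 50232960. -/
theorem result : ∃ (F : Type) (_ : Field F) (_ : Fintype F), Fintype.card F = 4 ∧ ∃ H : Subgroup (Cfsg.SU 9 F 2), Nat.card (Subgroup.center H) = 3 ∧ Cfsg.IsJ3 (H ⧸ Subgroup.center H) := by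
  classical
  let F := GaloisField 2 2
  let : Fintype F := Fintype.ofFinite F
  have hF : Fintype.card F = 4 := by rw [← Nat.card_eq_fintype_card, GaloisField.card 2 2 two_ne_zero]; rfl
  obtain ⟨ω, hω⟩ := Cfsg.Lib.Spor.MG.exists_omega hF
  have h2 := Cfsg.Lib.Spor.MG.two_eq_zero_of_card hF
  have hs := Cfsg.Lib.Spor.J3.simple_quot h2 hω (Equiv.refl _) hF
  have hc := Cfsg.Lib.Spor.J3.card_quot h2 hω (Equiv.refl _) hF
  obtain ⟨H, ⟨e⟩⟩ := Cfsg.Lib.Spor.MG.exists_equiv_of_le_det
    (Cfsg.Lib.Spor.J3.G_le_det h2 hω (Equiv.refl _) hF) (Cfsg.SU 9 F 2)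
    fun g hg => Cfsg.Lib.Spor.J3.G_le_uni h2 hω (Equiv.refl _) hg
  refine ⟨F, inferInstance, inferInstance, hF, H, ?_, (Cfsg.Lib.Spor.MG.quotCenterEquiv e).isSimpleGroup,
    (Nat.card_congr (Cfsg.Lib.Spor.MG.quotCenterEquiv e).toEquiv).trans hc⟩
  rw [Nat.card_congr (Subgroup.centerCongr e).toEquiv]
  exact Cfsg.Lib.Spor.J3.card_center h2 hω _ hF

end Cfsg.Agent.S0478
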