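import Cfsg.Statements.S0480
import Cfsg.Agent.Spor.FsMain
import Cfsg.Agent.S1691
import Cfsg.Agent.Known.ReflKit
import Cfsg.Agent.Class.OrthExt

set_option autoImplicit false
open Cfsg

namespace Cfsg.Agent.S0480

open Cfsg.Lib.Class Cfsg.Lib.Class.Orth in
theorem even_case {n : ℕ} (hn : 5 ≤ n) (he : Even n) {Q : QuadraticForm (ZMod 3) (Fin n → ZMod 3)}
    (hQ : (QuadraticMap.polarBilin Q).Nondegenerate) :
    commutator (Cfsg.reflectionSubgroup (⇑Q) 1 ⧸ Subgroup.center (Cfsg.reflectionSubgroup (⇑Q) 1)) ≠ ⊤ := by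
  intro h
  have h2 : (2 : ZMod 3) ≠ 0 := by decide
  have hE := not_exc_of_two_ne_zero (Q := Q) h2
  have hm := map_commutator_RG hQ h2 (by simpa) one_ne_zero (range_reflHom Q 1)
  let φ := (dickHom hQ hE).comp (reflHom Q 1)
  have hφ : Subgroup.center (Cfsg.reflectionSubgroup (⇑Q) 1) ≤ φ.ker := fun g hg => by
    obtain ⟨e, he0, he'⟩ := Cfsg.Lib.Known.exists_isotropic_of_three_le Q (by simp; omega)
    have := eq_one_or_negO_of_comm hQ (by simp; omega) he0 he' (g := reflHom Q 1 g) fun p w => by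
      obtain ⟨k, -, e⟩ := hm.ge (eich_mem_commutator hQ hE p w)
      rw [← e, ← map_mul, ← map_mul, Subgroup.mem_center_iff.1 hg k]
    change dick (reflHom Q 1 g) = 1
    rcases this with e | e
    · rw [e, dick_one]
    · rw [e, dick_negO h2]
      simpa using he.neg_one_pow
  obtain ⟨v, hv⟩ := Cfsg.Lib.Known.exists_quad_eq hQ (by simp; omega) 1
  obtain ⟨g, hg⟩ := (range_reflHom Q 1).ge (refl_mem_RG hv)
  have := Abelianization.commutator_subset_ker (QuotientGroup.lift _ φ hφ)
    (h ▸ Subgroup.mem_top (QuotientGroup.mk g))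
  change dick (reflHom Q 1 g) = 1 at this
  rw [hg, dick_refl hQ (by simp [hv])] at this
  exact absurd this (by decide)

/-- The simple 3-transposition groups: if a finite non-abelian simple group G is generated by a conjugacy class of 3-transpositions, then G is isomorphic to a symplectic group Sp(2n, 2), or to a projective special unitary group PSU(n, 2) (defined over the field with four elements), or to the projective commutator subgroup of an orthogonal group in odd dimension over the field with three elements, or G has order 64561751654400, or G has order 4089470473293004800. -/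
theorem result {G : Type*} [Group G] [Finite G] [IsSimpleGroup G] (hna : ∃ x y : G, x * y ≠ y * x) {D : Set G} (hD : Cfsg.IsThreeTranspositionClass D) : (∃ n : ℕ, Nonempty (G ≃* Matrix.symplecticGroup (Fin n) (ZMod 2))) ∨ (∃ (F : Type) (_ : Field F) (_ : Fintype F) (n : ℕ), Fintype.card F = 4 ∧ Nonempty (G ≃* Cfsg.PSU n F 2)) ∨ (∃ m : ℕ, Nonempty (G ≃* Cfsg.POmega (ZMod 3) (Cfsg.quadFormOdd m (ZMod 3)))) ∨ Cfsg.IsFi22 G ∨ Cfsg.IsFi23 G := by
  open Cfsg.Lib.Spor Cfsg.Lib.Spor.TQ Cfsg.Lib.Class in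
  have := IsTT.of_class hD
  have hG := IsTT.group_of_class hD
  have hX := conn_of_class hD
  have hns : ¬ Group.IsSolvable G := fun h => by
    obtain ⟨x, y, hxy⟩ := hna
    exact hxy (IsSimpleGroup.comm_iff_isSolvable.2 h x y)
  have hZ : Subgroup.center G = ⊥ := (Subgroup.Normal.eq_bot_or_eq_top inferInstance).resolve_right fun h => by
    obtain ⟨x, y, hxy⟩ := hna
    exact hxy (Subgroup.mem_center_iff.1 (h ▸ Subgroup.mem_top y) x)
  have hc : commutator G = ⊤ := (Subgroup.Normal.eq_bot_or_eq_top inferInstance).resolve_left fun h => by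
    obtain ⟨x, y, hxy⟩ := hna
    exact hxy (commutatorElement_eq_one_iff_mul_comm.1 ((Subgroup.eq_bot_iff_forall _).1 h _
      (Subgroup.commutator_mem_commutator (Subgroup.mem_top x) (Subgroup.mem_top y))))
  have hc' : ∀ {H : Type} [Group H], G ≃* H → commutator H = ⊤ := fun e => (Subgroup.eq_top_iff' _).2 fun h => by
    obtain ⟨g, rfl⟩ := e.surjective h
    exact (Orth.mem_commutator_congr e g).1 (hc ▸ Subgroup.mem_top g)
  have := nontrivial_of_not_isSolvable hG.2.2 hns
  have hP := prim_of_simple_commutator hG.2.2 hX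
    (((MulEquiv.subgroupCongr hc).trans Subgroup.topEquiv).isSimpleGroup)
  rcases hP.classify (wide_of_not_isSolvable hG.2.2 hns) with
    ⟨-, ⟨-, n, h⟩ | ⟨-, n, hn, h⟩⟩ | ⟨-, ⟨n, -, h⟩ | ⟨n, hn, h⟩ | ⟨n, hn, h⟩ | h | h | h⟩
  · obtain ⟨m, -, e, -⟩ := h.exists_equiv hG.2.2 hZ
    exact Or.inl ⟨m, ⟨e⟩⟩
  · obtain ⟨e, -⟩ := h.exists_equiv hG.2.2 hZ hn
    exact Or.inr (Or.inl ⟨Cfsg.Lib.Spor.GF4, inferInstance, inferInstance, n, rfl, ⟨e⟩⟩)
  · have h3 := h.three_le
    obtain ⟨e, -⟩ := h.exists_equiv hG.2.2 hZ h3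
    have := Abelianization.commutator_subset_ker Equiv.Perm.sign
      (hc' e ▸ Subgroup.mem_top (Equiv.swap (⟨0, by omega⟩ : Fin n) ⟨1, by omega⟩))
    rw [MonoidHom.mem_ker, Equiv.Perm.sign_swap (by simp)] at this
    exact absurd this (by decide)
  · obtain ⟨Q, v, hL, hs⟩ := h
    obtain ⟨e, -⟩ := exists_equiv_o2 hG.2.2 hZ hL hs (by simp; omega)
    have := Orth.index_commutator_even hL.nondegenerate (Orth.not_exc_of_finrank (by simp; omega)) rfl
      (by simp; omega)
    rw [hc' (e.trans (oEquivIsom Q)), Subgroup.index_top] at this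
    omega
  · obtain ⟨Q, hQ, e, -⟩ := h.exists_equiv hG.2.2 hZ
    obtain ⟨m, hm⟩ := (Nat.even_or_odd n).resolve_left fun he => even_case hn he hQ (hc' e)
    obtain ⟨c, g, h0, hg⟩ := Cfsg.Lib.Known.exists_equiv_odd_sim hQ (m := m) (by simpa)
    obtain ⟨e1⟩ := Cfsg.Lib.Known.refl_pomega hQ (by decide) (by simpa) one_ne_zero
    refine Or.inr (Or.inr (Or.inl ⟨m, ⟨?_⟩⟩))
    rw [← coe_quadOdd]
    exact e.trans (((MulEquiv.subgroupCongr (hc' e)).trans Subgroup.topEquiv).symm.trans (e1.trans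
      ((Orth.pomegaEquiv Q).trans ((Orth.centerQuotCongr (Orth.commutatorCongr (Orth.OCongr g h0 fun x => by
        rw [hg, quadOdd_apply]))).symm.trans (Orth.pomegaEquiv _).symm))))
  · obtain ⟨e, -⟩ := h.equiv hG hZ
    exact Or.inr (Or.inr (Or.inr (Or.inl ⟨inferInstance,
      (Nat.card_congr e.toEquiv).symm.trans Cfsg.Agent.S1696.result.2⟩)))
  · obtain ⟨e, -⟩ := h.equiv hG hZ
    exact Or.inr (Or.inr (Or.inr (Or.inr ⟨inferInstance,
      (Nat.card_congr e.toEquiv).symm.trans Fi23P.card⟩)))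
  · obtain ⟨e, -⟩ := h.equiv hG hZ
    have := Cfsg.Agent.S1691.result
    rw [hc' e.symm, Subgroup.index_top] at this
    omega

end Cfsg.Agent.S0480
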