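import Cfsg.Statements.S0481
import Mathlib

set_option autoImplicit false
open Cfsg

namespace Cfsg.Agent.S0481

/-- Large extraspecial subgroups: let z be an involution of a finite group G whose centraliser C contains a normal 2-subgroup Q with centre of order 2 and all squares central, such that every element of G centralising Q lies in Q. Then C contains a Sylow 2-subgroup of G, and any involution of G whose centraliser contains a Sylow 2-subgroup of G is conjugate to z. -/
theorem result {G : Type*} [Group G] [Finite G] (z : G) (hz : orderOf z = 2) (Q : Subgroup G) (hQC : Q ≤ Subgroup.centralizer ({z} : Set G)) (hQn : ∀ g ∈ Subgroup.centralizer ({z} : Set G), ∀ q ∈ Q, g * q * g⁻¹ ∈ Q) (hQ2 : IsPGroup 2 Q) (hZ : Nat.card (Subgroup.center Q) = 2) (hsq : ∀ x : Q, x ^ 2 ∈ Subgroup.center Q) (hlarge : Subgroup.centralizer (Q : Set G) ≤ Q) : (∃ P : Sylow 2 G, (P : Subgroup G) ≤ Subgroup.centralizer ({z} : Set G)) ∧ ∀ u : G, orderOf u = 2 → (∃ P : Sylow 2 G, (P : Subgroup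 G) ≤ Subgroup.centralizer ({u} : Set G)) → IsConj z u := by
  set C := Subgroup.centralizer ({z} : Set G) with hC
  have hzC : ∀ g, g ∈ C ↔ g * z = z * g := fun g => Subgroup.mem_centralizer_singleton_iff
  have hz1 : z ≠ 1 := by rintro rfl; simp at hz
  -- elements centralising `Q`
  have hzQ : z ∈ Q := hlarge fun q hq => (hzC q).1 (hQC hq)
  have key : ∀ u : G, u ≠ 1 → (∀ q ∈ Q, q * u = u * q) → u = z := by
    intro u hu1 hu
    have huQ : u ∈ Q := hlarge fun q hq => hu q hq
    have h1 : (⟨u, huQ⟩ : Q) ∈ Subgroup.center Q :=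
      Subgroup.mem_center_iff.2 fun q => Subtype.ext (hu q q.2)
    have h2 : (⟨z, hzQ⟩ : Q) ∈ Subgroup.center Q :=
      Subgroup.mem_center_iff.2 fun q => Subtype.ext ((hzC q).1 (hQC q.2))
    obtain ⟨y, -, hy⟩ := (Nat.card_eq_two_iff' (1 : Subgroup.center Q)).1 hZ
    have e1 := hy ⟨_, h1⟩ (fun h => hu1 (congrArg (fun x : Subgroup.center Q => ((x : Q) : G)) h))
    have e2 := hy ⟨_, h2⟩ (fun h => hz1 (congrArg (fun x : Subgroup.center Q => ((x : Q) : G)) h))
    exact congrArg (fun x : Subgroup.center Q => ((x : Q) : G)) (e1.trans e2.symm)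
  -- a Sylow subgroup containing `Q` inside `C`
  have hP : ∃ P : Sylow 2 G, Q ≤ P ∧ (P : Subgroup G) ≤ C := by
    obtain ⟨P, hQP, hmax⟩ : ∃ P : Subgroup G, (IsPGroup 2 P ∧ Q ≤ P ∧ P ≤ C) ∧
        ∀ R : Subgroup G, (IsPGroup 2 R ∧ Q ≤ R ∧ R ≤ C) → P ≤ R → R ≤ P := by
      obtain ⟨P, hP⟩ := Set.Finite.exists_maximal (s := {R : Subgroup G | IsPGroup 2 R ∧ Q ≤ R ∧ R ≤ C})
        (Set.toFinite _) ⟨Q, hQ2, le_rfl, hQC⟩
      exact ⟨P, hP.1, fun R hR h => hP.2 hR h⟩
    obtain ⟨S, hS⟩ := hQP.1.exists_le_sylow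
    refine ⟨S, hQP.2.1.trans hS, ?_⟩
    by_contra hSC
    have hne : P.subgroupOf (S : Subgroup G) < ⊤ := by
      rw [lt_top_iff_ne_top, Ne, Subgroup.subgroupOf_eq_top]
      exact fun h => hSC (h.trans hQP.2.2)
    haveI := S.isPGroup'.isNilpotent
    obtain ⟨g, hgN, hgP⟩ := SetLike.exists_of_lt (Group.normalizerCondition_of_isNilpotent _ hne)
    have hN : ∀ x : G, x ∈ P ↔ (g : G) * x * (g : G)⁻¹ ∈ P := by
      intro x
      constructor
      · intro hx
        exact (Subgroup.mem_normalizer_iff.1 hgN ⟨x, hS hx⟩).1 hx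
      · intro hx
        have hxS : x ∈ (S : Subgroup G) := by
          have : x = (g : G)⁻¹ * ((g : G) * x * (g : G)⁻¹) * g := by group
          rw [this]
          exact mul_mem (mul_mem (inv_mem g.2) (hS hx)) g.2
        exact (Subgroup.mem_normalizer_iff.1 hgN ⟨x, hxS⟩).2 hx
    have hgz : (g : G) * z * (g : G)⁻¹ = z := by
      apply key
      · intro h
        apply hz1
        have : z = (g : G)⁻¹ * ((g : G) * z * (g : G)⁻¹) * g := by group
        rw [this, h]; simp
      · intro q hq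
        have h1 : (g : G)⁻¹ * q * g ∈ P := by
          rw [hN]
          have : (g : G) * ((g : G)⁻¹ * q * g) * (g : G)⁻¹ = q := by group
          rw [this]; exact hQP.2.1 hq
        have h2 := (hzC _).1 (hQP.2.2 h1)
        calc q * ((g : G) * z * (g : G)⁻¹) = g * ((g : G)⁻¹ * q * g * z) * (g : G)⁻¹ := by group
          _ = g * (z * ((g : G)⁻¹ * q * g)) * (g : G)⁻¹ := by rw [h2]
          _ = _ := by group
    have hgC : (g : G) ∈ C := by
      rw [hzC]
      calc (g : G) * z = (g : G) * z * (g : G)⁻¹ * g := by group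
        _ = _ := by rw [hgz]
    have hle : P ⊔ Subgroup.zpowers (g : G) ≤ (S : Subgroup G) :=
      sup_le hS (by rw [Subgroup.zpowers_le]; exact g.2)
    have := hmax (P ⊔ Subgroup.zpowers (g : G)) ⟨S.isPGroup'.to_le hle, hQP.2.1.trans le_sup_left,
      sup_le hQP.2.2 (by rw [Subgroup.zpowers_le]; exact hgC)⟩ le_sup_left
    exact hgP (this (Subgroup.mem_sup_right (Subgroup.mem_zpowers _)))
  obtain ⟨P, hQP, hPC⟩ := hP
  refine ⟨⟨P, hPC⟩, fun u hu ⟨R, hR⟩ => ?_⟩
  obtain ⟨g, hg⟩ := MulAction.exists_smul_eq G P R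
  have hu1 : u ≠ 1 := by rintro rfl; simp at hu
  have : g⁻¹ * u * g = z := by
    apply key
    · intro h
      apply hu1
      have : u = g * (g⁻¹ * u * g) * g⁻¹ := by group
      rw [this, h]; simp
    · intro q hq
      have h1 : g * q * g⁻¹ ∈ (R : Subgroup G) := by
        rw [← hg, Sylow.coe_subgroup_smul]
        exact Subgroup.smul_mem_pointwise_smul q (MulAut.conj g) _ (hQP hq)
      have h2 := Subgroup.mem_centralizer_singleton_iff.1 (hR h1)
      calc q * (g⁻¹ * u * g) = g⁻¹ * (g * q * g⁻¹ * u) * g := by group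
        _ = g⁻¹ * (u * (g * q * g⁻¹)) * g := by rw [h2]
        _ = _ := by group
  rw [isConj_iff]
  exact ⟨g, by rw [← this]; group⟩

end Cfsg.Agent.S0481
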