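import Cfsg.Statements.S0493
import Cfsg.Agent.PrimeOne.Elim

set_option autoImplicit false
open Cfsg

namespace Cfsg.Agent.S0493

/-- A finite simple group of order at most 100 that is not cyclic has order 60. -/
theorem result {G : Type*} [Group G] [Finite G] [IsSimpleGroup G]
    (hG : ¬ IsCyclic G) (h : Nat.card G ≤ 100) : Nat.card G = 60 := by
  open Cfsg.Lib.PrimeOne in focus
  have h1 : allBelow (fun n => kill 11 n || n == 60) 101 = true := by decide +kernel
  have h2 := allBelow_sound h1 _ (Nat.lt_succ_of_le h)
  simpa [not_kill (not_comm_of_not_cyclic hG) 11] using h2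

end Cfsg.Agent.S0493
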