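import Cfsg.Statements.S0518
import Cfsg.Agent.Ngrp.ZNTri

set_option autoImplicit false
open Cfsg

namespace Cfsg.Agent.S0518
open Subgroup Cfsg.Lib.Ngrp Cfsg.Lib.Trans Cfsg.Lib.Local Cfsg.Lib.Local.JC

/-- Let G be a finite group of characteristic 2 type with trivial 2-core in which every 2-local subgroup is solvable
and, for every Sylow 2-subgroup S, the centralizer of the set of central involutions of S lies in the normalizer of S.
Then either G has a strongly embedded subgroup, or the subgroup generated by the elements of odd order has two distinct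
maximal 2-local subgroups, each isomorphic to the symmetric group of degree 4, whose intersection has order 8. -/
theorem result {G : Type*} [Group G] [Finite G]
    (hL : Cfsg.IsCharacteristicTwoType G) (hO : Cfsg.pCore 2 G = ⊥)
    (hN : ∀ N : Subgroup G, Cfsg.IsTwoLocal N → Group.IsSolvable N)
    (hZ : ∀ S : Sylow 2 G,
      Subgroup.centralizer {z : G | z ∈ (S : Subgroup G) ∧ z ^ 2 = 1 ∧ ∀ s ∈ (S : Subgroup G), s * z = z * s} ≤
        Subgroup.normalizer ((S : Subgroup G) : Set G))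
    (H : Subgroup G) (hH : H = Subgroup.closure {g : G | Odd (orderOf g)}) :
    (∃ K : Subgroup G, Cfsg.IsStronglyEmbedded K) ∨
      ∃ M₁ M₂ : Subgroup H, M₁ ≠ M₂ ∧ Cfsg.IsMaximalTwoLocal M₁ ∧ Cfsg.IsMaximalTwoLocal M₂ ∧
        Nonempty (M₁ ≃* Equiv.Perm (Fin 4)) ∧ Nonempty (M₂ ≃* Equiv.Perm (Fin 4)) ∧ Nat.card ↥(M₁ ⊓ M₂) = 8 := by
  obtain rfl : H = pResidual 2 G := by
    simp only [hH, pResidual, Nat.coprime_two_right]
  have hn : (pResidual 2 G).Normal := inferInstance
  have ah : AH G := ⟨hL, hN⟩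
  have hnn : ∀ X : Subgroup G, X ≤ normalizer ((pResidual 2 G ⊓ X : Subgroup G) : Set G) :=
    fun X => Lib.Solv.le_normalizer_inf (by rw [normalizer_eq_top]; exact le_top) le_normalizer
  have hc : ∀ t : G, orderOf t = 2 → CharP 2 (pResidual 2 G ⊓ C1 t) := fun t h =>
    (ah.charP (twoLocal_cent (by rw [← sq, ← h, pow_orderOf_eq_one])
      (by rintro rfl; simp at h))).of_normal inf_le_right (hnn _)
  obtain ⟨S⟩ : Nonempty (Sylow 2 G) := inferInstance
  obtain ⟨z, hz, z2, hzS⟩ := exists_central_orderOf_eq S.isPGroup' (ah.sylow_ne_bot S)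
  by_cases h1 : ∀ t ∈ (S : Subgroup G), orderOf t = 2 → t = z
  · exact Or.inl ⟨_, isStronglyEmbedded_iff_se.2 (se_C1 hO S hz z2 h1)⟩
  push Not at h1
  obtain ⟨t, ht, t2, tz⟩ := h1
  have sq1 : ∀ x : G, orderOf x = 2 → x * x = 1 := fun x h => by rw [← sq, ← h, pow_orderOf_eq_one]
  have he : Even (Nat.card (pResidual 2 G)) := by
    by_contra ho
    have ho := Nat.coprime_two_right.2 (Nat.not_even_iff_odd.1 ho)
    have hV := ea_four (sq1 z z2) (sq1 t t2) (hzS t ht)
    have h0 : pResidual 2 G ≤ ⊥ := le_of_fix hV (card_four (sq1 z z2) (sq1 t t2) (hzS t ht)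
      (by rintro rfl; simp at z2) (by rintro rfl; simp at t2) tz.symm).ge
      (by rw [normalizer_eq_top]; exact le_top) ho fun v hv v1 => by
        have h2 := ho.coprime_dvd_left (card_dvd_of_le
          (inf_le_left : pResidual 2 G ⊓ C1 v ≤ _))
        exact (le_ppCoreOf le_rfl le_normalizer h2).trans
          (ppCoreOf_eq_bot_of_charP (hc v (orderOf_two_of_ea hV hv v1))).le
    have h2 := pCoreOf_eq_self (resOf_eq_bot_iff.1 (resOf_top.trans (eq_bot_iff.2 h0)))
    rw [pCoreOf_top, hO] at h2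
    exact ah.sylow_ne_bot S (eq_bot_iff.2 (h2 ▸ le_top))
  rcases zn_dich hO (fun S => (centralizer_le fun x hx =>
    mem_oc.2 ⟨hx.1, hx.2.2, sq x ▸ hx.2.1⟩).trans (hZ S)) (ah_of_charP he
    (fun D h1 h2 _ => (ah.charP ⟨D, h1, h2, rfl⟩).of_normal inf_le_right (hnn _)) hN)
    with ⟨M, h⟩ | ⟨S, T, W, V, d, d', h⟩
  · exact Or.inl ((se_up h hc).imp fun _ => isStronglyEmbedded_iff_se.2)
  · exact Or.inr ⟨_, _, h.ne_N, h.max, h.symm.max, h.s4, h.symm.s4, h.card_inf⟩

end Cfsg.Agent.S0518
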