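import Cfsg.Statements.S0520
import Cfsg.Agent.Known.FourGroup
import Cfsg.Agent.Rank2.Trans
import Cfsg.Agent.Trans.SylowIn
import Cfsg.Agent.Trans.Conj

set_option autoImplicit false
open Cfsg

namespace Cfsg.Agent.S0520

open Cfsg.Lib.Trans

def Conn {G : Type*} [Group G] : Subgroup G → Subgroup G → Prop :=
  Relation.ReflTransGen fun A B => IsKleinFour A ∧ IsKleinFour B ∧ ∀ a ∈ A, ∀ b ∈ B, a * b = b * a

variable {G H : Type*} [Group G] [Group H]

theorem klein_of_equiv (h : IsKleinFour G) (e : G ≃* H) : IsKleinFour H :=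
  ⟨Nat.card_congr e.toEquiv ▸ h.1, Monoid.exponent_eq_of_mulEquiv e ▸ h.2⟩

theorem Conn.map {U V : Subgroup G} (h : Conn U V) (f : G →* H) (hf : Function.Injective f) :
    Conn (U.map f) (V.map f) := by
  induction h with
  | refl => exact .refl
  | tail _ h ih => exact ih.tail ⟨klein_of_equiv h.1 (Subgroup.equivMapOfInjective _ f hf),
      klein_of_equiv h.2.1 (Subgroup.equivMapOfInjective _ f hf),
      by rintro _ ⟨a, ha, rfl⟩ _ ⟨b, hb, rfl⟩; rw [← map_mul, h.2.2 a ha b hb, map_mul]⟩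

theorem Conn.symm {U V : Subgroup G} (h : Conn U V) : Conn V U := by
  induction h with
  | refl => exact .refl
  | tail _ h ih => exact .head ⟨h.2.1, h.1, fun a ha b hb => (h.2.2 b hb a ha).symm⟩ ih

theorem rank_iff [Finite G] {Q : Subgroup G} : ¬ PRankLE 2 1 Q ↔ ∃ V ≤ Q, IsKleinFour V := by
  constructor
  · intro h
    obtain ⟨s, t, h1, h2, h3, h4, h5, h6⟩ := Lib.Rank2.exists_two_invol h
    exact ⟨_, Subgroup.map_subtype_le _, klein_of_equiv (Lib.Known.IsFourPair.isKleinFour
      ⟨h1, h2, h6.symm, h3, h4, h5⟩) (Subgroup.equivMapOfInjective _ _ Q.subtype_injective)⟩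
  · rintro ⟨V, h1, h2⟩ h
    have h3 := klein_of_equiv h2 (Subgroup.subgroupOfEquivOfLe h1).symm
    have := h (V.subgroupOf Q) h3.isMulCommutative fun a ha => congrArg Subtype.val
      (show (⟨a, ha⟩ : V.subgroupOf Q) ^ 2 = 1 from h3.2 ▸ Monoid.pow_exponent_eq_one _)
    rw [h3.1] at this
    omega

theorem pgroup {V : Subgroup G} (h : IsKleinFour V) : IsPGroup 2 V := .of_card (n := 2) h.1

/-- Let G be a finite group of 2-rank at least 2 and S a Sylow 2-subgroup whose commuting graph of Klein four-subgroups is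
connected. Then the commuting graph of Klein four-subgroups of G is disconnected if and only if the 2-generated core — the
subgroup generated by the normalizers N_G(Q) of the subgroups Q of S that contain a Klein four-group — is a proper
subgroup of G. -/
theorem result {G : Type*} [Group G] [Finite G] (h2 : ¬ Cfsg.PRankLE 2 1 G)
    (S : Sylow 2 G) (hS : Cfsg.IsFourConnected (S : Subgroup G)) :
    ¬ Cfsg.IsFourConnected G ↔
      (⨆ Q : {Q : Subgroup G // Q ≤ (S : Subgroup G) ∧ ¬ Cfsg.PRankLE 2 1 Q},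
          Subgroup.normalizer ((Q : Subgroup G) : Set G)) ≠ ⊤ := by
  have hcj : ∀ (g : G) {V : Subgroup G}, IsKleinFour V → IsKleinFour (cj g V) := fun g V h =>
    klein_of_equiv h (cjEquiv g V)
  have hin : ∀ {V : Subgroup G}, IsKleinFour V → ∃ g, cj g V ≤ S := fun h =>
    let ⟨g, _, hg⟩ := (isSylowIn_top S).exists_cj_le (pgroup h) le_top; ⟨g, hg⟩
  obtain ⟨U, hUS, hU⟩ : ∃ U ≤ (S : Subgroup G), IsKleinFour U := by
    obtain ⟨V, -, hV⟩ := rank_iff.1 (show ¬ PRankLE 2 1 (⊤ : Subgroup G) from fun h => h2 fun A h1 h3 => by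
      have e := Subgroup.subgroupOfEquivOfLe (le_top : A ≤ ⊤)
      rw [← Nat.card_congr e.toEquiv]
      exact h _ inferInstance fun a ha => Subtype.ext (h3 a ha))
    obtain ⟨g, hg⟩ := hin hV
    exact ⟨_, hg, hcj g hV⟩
  have hc : ∀ {V W : Subgroup G}, V ≤ S → W ≤ S → IsKleinFour V → IsKleinFour W → Conn V W :=
    fun {V W} h1 h3 h4 h5 => by
      have := Conn.map (hS _ _ (klein_of_equiv h4 (Subgroup.subgroupOfEquivOfLe h1).symm)
        (klein_of_equiv h5 (Subgroup.subgroupOfEquivOfLe h3).symm)) _ (S : Subgroup G).subtype_injective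
      rwa [Subgroup.subgroupOf_map_subtype, Subgroup.subgroupOf_map_subtype, inf_eq_left.2 h1,
        inf_eq_left.2 h3] at this
  have hm : ∀ (g : G) {V W : Subgroup G}, Conn V W → Conn (cj g V) (cj g W) := fun g V W h =>
    h.map _ (MulAut.conj g).injective
  rw [not_iff_not]
  set Γ := ⨆ Q : {Q : Subgroup G // Q ≤ (S : Subgroup G) ∧ ¬ Cfsg.PRankLE 2 1 Q},
    Subgroup.normalizer ((Q : Subgroup G) : Set G)
  constructor
  · intro h
    have h3 : ∀ {Q V : Subgroup G}, Q ≤ S → V ≤ Q → IsKleinFour V →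
        Subgroup.normalizer (Q : Set G) ≤ Γ := fun {Q V} h1 h3 h4 =>
      le_iSup (fun Q : {Q : Subgroup G // Q ≤ (S : Subgroup G) ∧ ¬ Cfsg.PRankLE 2 1 Q} =>
        Subgroup.normalizer ((Q : Subgroup G) : Set G)) ⟨Q, h1, rank_iff.2 ⟨V, h3, h4⟩⟩
    have hSΓ : IsSylowIn 2 S Γ := (isSylowIn_top S).mono
      (Subgroup.le_normalizer.trans (h3 le_rfl hUS hU)) le_top
    have h4 : ∀ {Q V : Subgroup G}, IsPGroup 2 Q → Q ≤ Γ → V ≤ Q → IsKleinFour V →
        Subgroup.normalizer (Q : Set G) ≤ Γ := fun {Q V} h0 h1 h4 h5 => by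
      obtain ⟨g, hg, h6⟩ := hSΓ.exists_cj_le h0 h1
      have := h3 h6 (cj_mono g h4) (hcj g h5)
      rw [← cj_normalizer] at this
      intro x hx
      simpa [mul_mem_cancel_left, mul_mem_cancel_right, hg] using this (conj_mem_cj.2 hx)
    refine eq_top_iff.2 fun x _ => ?_
    have h5 : ∀ V, Conn U V → V ≤ Γ := fun V hV => by
      induction hV with
      | refl => exact hUS.trans hSΓ.le
      | tail _ h6 ih =>
        exact fun b hb => h4 (pgroup h6.1) ih le_rfl h6.1
          (Subgroup.centralizer_le_normalizer _ fun a ha => h6.2.2 a ha b hb)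
    obtain ⟨Q, h6, h7⟩ := exists_isSylowIn_ge (H := Γ ⊓ cj x Γ) (pgroup (hcj x hU))
      (le_inf (h5 _ (h _ _ hU (hcj x hU))) (cj_mono x (hUS.trans hSΓ.le)))
    have h8 : Subgroup.normalizer (Q : Set G) ≤ Γ :=
      h4 h6.isPGroup (h6.le.trans inf_le_left) h7 (hcj x hU)
    have h9 : cj x⁻¹ (Subgroup.normalizer (Q : Set G)) ≤ Γ := by
      rw [cj_normalizer]
      exact h4 (isPGroup_cj h6.isPGroup _) (cj_inv_le_iff_le_cj.2 (h6.le.trans inf_le_right))
        (cj_le_iff_le_cj_inv.1 h7) hU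
    obtain ⟨P, h10, h11⟩ := exists_isSylowIn_ge h6.isPGroup le_top
    obtain rfl : Q = P := by
      by_contra h12
      exact (lt_inf_normalizer h10.isPGroup (lt_of_le_of_ne h11 h12)).ne' (h6.eq_of_le
        h10.isPGroup.to_inf_left (le_inf h11 Subgroup.le_normalizer)
        (inf_le_right.trans (le_inf h8 (cj_inv_le_iff_le_cj.1 h9))))
    have h12 := h10.cj x⁻¹
    rw [cj_top] at h12
    obtain ⟨y, hy, h13⟩ := (h10.mono (h6.le.trans inf_le_left) le_top).exists_cj_eq
      (h12.mono ((cj_mono _ Subgroup.le_normalizer).trans h9) le_top)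
    rw [cj_cj, cj_eq_self_iff] at h13
    simpa [mul_mem_cancel_left, hy] using h8 h13
  · intro h
    let K : Subgroup G :=
      { carrier := {g | Conn U (cj g U)}
        one_mem' := by change Conn U (cj 1 U); rw [cj_one]; exact .refl
        mul_mem' := fun {a b} ha hb => by
          change Conn U (cj (a * b) U); rw [cj_mul]; exact .trans ha (hm a hb)
        inv_mem' := fun {a} ha => by
          have := hm a⁻¹ ha
          rw [cj_inv_cj] at this
          exact this.symm }
    have h3 : Γ ≤ K := iSup_le fun Q g hg => by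
      obtain ⟨V, h4, h5⟩ := rank_iff.1 Q.2.2
      exact .trans (hc hUS ((cj_mono g h4).trans ((cj_eq_of_mem_normalizer hg).le.trans Q.2.1))
        hU (hcj g h5)) (hm g (hc (h4.trans Q.2.1) hUS h5 hU))
    have h4 : ∀ V : Subgroup G, IsKleinFour V → Conn U V := fun V hV => by
      obtain ⟨g, hg⟩ := hin hV
      have := hm g⁻¹ (hc hUS hg hU (hcj g hV))
      rw [cj_inv_cj] at this
      exact .trans (h3 (h ▸ Subgroup.mem_top g⁻¹)) this
    exact fun V W hV hW => .trans (h4 V hV).symm (h4 W hW)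

end Cfsg.Agent.S0520
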