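import Cfsg.Statements.S0521
import Cfsg.Agent.FT.PStable
import Cfsg.Agent.Solv.FrattiniP
import Cfsg.Agent.Solv.PConstrained
import Cfsg.Agent.Solv.PGroupNormal

set_option autoImplicit false
open Cfsg

namespace Cfsg.Agent.S0521

open Cfsg.Lib.Solv

theorem cyc_map {G H : Type*} [Group G] [Group H] (f : G →* H) {S : Subgroup G}
    (h : IsCyclic (⁅S, S⁆ : Subgroup G)) : IsCyclic (⁅S.map f, S.map f⁆ : Subgroup H) := by
  rw [← Subgroup.map_commutator]
  exact isCyclic_of_surjective _ (f.subgroupMap_surjective _)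

theorem quad {G : Type*} [Group G] [Finite G] {p : ℕ} [hp : Fact p.Prime] {V S : Subgroup G}
    [V.Normal] (hV : ∀ v ∈ V, v ^ p = 1) (hVS : V ≤ S) (hS : IsPGroup p S)
    (h : IsCyclic (⁅S, S⁆ : Subgroup G)) : ⁅⁅V, S⁆, S⁆ = ⊥ := by
  have := Subgroup.isCyclic_of_le (Subgroup.commutator_mono hVS (le_refl S))
  have h1 : Nat.card (⁅V, S⁆ : Subgroup G) ∣ p := by
    rw [← IsCyclic.exponent_eq_card, Monoid.exponent_dvd_iff_forall_pow_eq_one]
    exact fun x => Subtype.ext (hV x (Subgroup.commutator_le_left V S x.2))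
  rcases (Nat.dvd_prime hp.out).1 h1 with h2 | h2
  · rw [Subgroup.card_eq_one.1 h2, Subgroup.commutator_bot_left]
  · rw [Subgroup.commutator_comm, Subgroup.commutator_eq_bot_iff_le_centralizer]
    exact PG.le_centralizer_of_card_eq_prime hS (Subgroup.normalizer_commutator_ge_right _ _) h2

theorem le_pCore' {G : Type*} [Group G] [Finite G] [Group.IsSolvable G] (hG : Odd (Nat.card G))
    {p : ℕ} [hp : Fact p.Prime] (h0 : pPrimeCore p G = ⊥) {S : Subgroup G} (hS : IsPGroup p S)
    (hPS : pCore p G ≤ S) (h : IsCyclic (⁅S, S⁆ : Subgroup G)) : S ≤ pCore p G := by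
  have hP := pCore_isPGroup p G
  let f := QuotientGroup.mk' ((frattini (pCore p G)).map (pCore p G).subtype)
  have hf : Function.Surjective f := QuotientGroup.mk'_surjective _
  have := Subgroup.Normal.map (inferInstance : (pCore p G).Normal) f hf
  obtain ⟨D, h1, -, h2, h3⟩ := Lib.FT.odd_p_stable (H := ⊤) (A := S.map f) (by
      rw [Subgroup.card_top]; exact hG.of_dvd_nat (Subgroup.card_quotient_dvd_card _)) (hP.map f)
    Subgroup.le_normalizer_of_normal le_top (quad (by
      rintro _ ⟨x, hx, rfl⟩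
      rw [← map_pow]
      exact (QuotientGroup.eq_one_iff _).2 (pow_mem_map_frattini hP hx))
      (Subgroup.map_mono hPS) (hS.map f) (cyc_map f h))
  have h4 : D.Normal := Subgroup.normalizer_eq_top_iff.1 (top_le_iff.1 h1.2)
  refine (Subgroup.map_le_iff_le_comap.1 h2).trans (le_pCore inferInstance fun x => ?_)
  obtain ⟨k, hk⟩ := h3 _ x.2
  obtain ⟨l, hl⟩ := Lib.FT.exists_pow_mem_cent_of_frattini hP (g := x.1 ^ p ^ k)
    (Subgroup.le_normalizer_of_normal (Subgroup.mem_top _)) fun u hu => by
      rw [← QuotientGroup.eq_one_iff]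
      change f _ = 1
      simp only [map_mul, map_inv, map_pow]
      rw [← hk _ ⟨u, hu, rfl⟩]; group
  obtain ⟨m, hm⟩ := hP ⟨_, (isPConstrained_iff_of_pPrimeCore_eq_bot h0).1
    (isPConstrained_of_isSolvable p G) hl⟩
  exact ⟨k + l + m, Subtype.ext (by simpa [pow_add, pow_mul] using congrArg Subtype.val hm)⟩

/-- Let X be a finite solvable group of odd order, p a prime and S a Sylow p-subgroup of X whose commutator subgroup is
cyclic. Then the product of the largest normal subgroup of X of order prime to p with S is a normal subgroup of X. -/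
theorem result {X : Type*} [Group X] [Finite X] [Group.IsSolvable X]
    (hX : Odd (Nat.card X)) (p : ℕ) [Fact p.Prime] (S : Sylow p X) (hS : IsCyclic (commutator (S : Subgroup X))) :
    (Cfsg.pPrimeCore p X ⊔ (S : Subgroup X)).Normal := by
  let f := QuotientGroup.mk' (pPrimeCore p X)
  have hf : Function.Surjective f := QuotientGroup.mk'_surjective _
  have h1 := pCore_le_sylow (S.mapSurjective hf)
  have h2 := le_pCore' (hX.of_dvd_nat (Subgroup.card_quotient_dvd_card _))
    (pPrimeCore_quotient_pPrimeCore p X) (S.mapSurjective hf).2 h1 (cyc_map f (by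
      rw [← Subgroup.map_subtype_commutator]
      exact isCyclic_of_surjective _ (MonoidHom.subgroupMap_surjective _ _)))
  rw [sup_comm, ← QuotientGroup.ker_mk' (pPrimeCore p X), ← Subgroup.comap_map_eq,
    show (S : Subgroup X).map f = _ from le_antisymm h2 h1]
  infer_instance

end Cfsg.Agent.S0521
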