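import Cfsg.Statements.S0522
import Cfsg.Agent.Trans.Transitivity

set_option autoImplicit false
open Cfsg

namespace Cfsg.Agent.S0522

/-- Transitivity Theorem (odd-order setting). Let X be a finite group of odd order in which the normalizer of every
nontrivial p-subgroup is solvable, P a Sylow p-subgroup, and B an abelian subgroup of P, normalized by P, with
C_P(B) = B and containing an elementary abelian subgroup of order p^3. Then for every prime q ≠ p, any two q-subgroups
that are maximal among the q-subgroups normalized by B are conjugate by an element of the centralizer of B. -/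
theorem result {X : Type*} [Group X] [Finite X] (hX : Odd (Nat.card X)) (p : ℕ)
    [Fact p.Prime] (hloc : ∀ T : Subgroup X, IsPGroup p T → T ≠ ⊥ → Group.IsSolvable (Subgroup.normalizer (T : Set X)))
    (P : Sylow p X) (B : Subgroup X) (hBP : B ≤ (P : Subgroup X))
    (hBn : ∀ x ∈ (P : Subgroup X), ∀ b ∈ B, x * b * x⁻¹ ∈ B) (hBa : IsMulCommutative B)
    (hBc : (P : Subgroup X) ⊓ Subgroup.centralizer (B : Set X) = B)
    (hB3 : ∃ E : Subgroup X, E ≤ B ∧ (∀ e ∈ E, e ^ p = 1) ∧ p ^ 3 ≤ Nat.card E)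
    (q : ℕ) [Fact q.Prime] (hqp : q ≠ p) (Q₁ Q₂ : Subgroup X)
    (h₁ : IsPGroup q Q₁ ∧ B ≤ Subgroup.normalizer (Q₁ : Set X) ∧
      ∀ R : Subgroup X, IsPGroup q R → B ≤ Subgroup.normalizer (R : Set X) → Q₁ ≤ R → R = Q₁)
    (h₂ : IsPGroup q Q₂ ∧ B ≤ Subgroup.normalizer (Q₂ : Set X) ∧
      ∀ R : Subgroup X, IsPGroup q R → B ≤ Subgroup.normalizer (R : Set X) → Q₂ ≤ R → R = Q₂) :
    ∃ c ∈ Subgroup.centralizer (B : Set X), Q₂ = Q₁.map (MulAut.conj c).toMonoidHom := by
  open Cfsg.Lib.FT Cfsg.Lib.Solv Pointwise in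
  · have hp : p.Prime := Fact.out
    obtain ⟨E, hEB, hE1, hE3⟩ := hB3
    have hBp : IsPGroup p B := P.isPGroup'.to_le hBP
    have hp2 : p ≠ 2 := by
      rintro rfl
      have h1 : IsPGroup 2 E := hBp.to_le hEB
      have h2 : E ≠ ⊥ := by
        rintro rfl
        simp at hE3
      exact (Nat.not_even_iff_odd.2 hX) (even_iff_two_dvd.2
        ((pgroup_dvd_card h1 h2).trans (Subgroup.card_subgroup_dvd_card E)))
    have hPN : (P : Subgroup X) ≤ 𝐍 B := normsP.2 hBn
    have hS : IsSylowOf p B (𝐂 B) := by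
      have := setI_norm_Hall (Sylow_top P) (K := 𝐂 B) le_top (norms_cent hPN)
      rwa [hBc] at this
    have key := thompson_transitivity_constrained (fun T hT h1 => by
        have := hloc T hT h1
        exact isPConstrained_of_isSolvable p _) (fun h => absurd h hp2) hBp hBa hEB hE1 hE3
      (fun x hx hxp => (sub_normal_Hall hS (cent_sub B) (Subgroup.zpowers_le.2 hx)).2
        (pgroup_iff.2 hxp) (Subgroup.mem_zpowers x)) hqp
    have hm : ∀ Q : Subgroup X, (IsPGroup q Q ∧ B ≤ Subgroup.normalizer (Q : Set X) ∧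
        ∀ R : Subgroup X, IsPGroup q R → B ≤ Subgroup.normalizer (R : Set X) → Q ≤ R → R = Q) →
        Q ∈ maxInvSubgroups ⊤ B {q} := fun Q h =>
      mem_maxInvSubgroups_top.2 ⟨pgroup_iff.2 h.1, h.2.1, fun R hR => h.2.2 R (pgroup_iff.1 hR)⟩
    obtain ⟨k, hk, e⟩ := key Q₁ (hm _ h₁) Q₂ (hm _ h₂)
    exact ⟨k, pcore_sub _ _ hk, e⟩

end Cfsg.Agent.S0522
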