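import Cfsg.Statements.S0529
import Cfsg.Agent.Solv.SupersolvableCriteria

set_option autoImplicit false
open Cfsg

namespace Cfsg.Agent.S0529

open Cfsg.Lib.Solv Subgroup

/-- A finite supersolvable group has a chain of normal subgroups, from the trivial subgroup to the whole group, in which every step has prime index and the primes occurring are non-increasing as one goes up the chain. -/
theorem result {G : Type*} [Group G] [Finite G] (hG : Cfsg.IsSupersolvable G) : ∃ (n : ℕ) (H : Fin (n + 1) → Subgroup G), H 0 = ⊥ ∧ H (Fin.last n) = ⊤ ∧ (∀ i, (H i).Normal) ∧ (∀ i : Fin n, H i.castSucc ≤ H i.succ ∧ ((H i.castSucc).relIndex (H i.succ)).Prime) ∧ ∀ i j : Fin n, i ≤ j → (H j.castSucc).relIndex (H j.succ) ≤ (H i.castSucc).relIndex (H i.succ) := by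
  induction hn : Nat.card G using Nat.strong_induction_on generalizing G with
  | _ n ih =>
  rcases subsingleton_or_nontrivial G with h | h
  · exact ⟨0, fun _ => ⊥, rfl, Subsingleton.elim _ _, fun _ => inferInstance, fun i => i.elim0,
      fun i => i.elim0⟩
  obtain ⟨p, hp, hdvd, hmax⟩ := exists_max_prime_dvd (Finite.one_lt_card (α := G))
  obtain ⟨N, hN, hNp⟩ := exists_normal_card_eq_of_isSupersolvable hG hp hdvd hmax
  have hs := QuotientGroup.mk'_surjective N
  obtain ⟨m, H, h0, hl, hnorm, hstep, hmono⟩ :=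
    ih _ (hn ▸ card_quotient_lt_of_card_prime (hNp ▸ hp)) (isSupersolvable_quotient hG N) rfl
  have hrel : ∀ A B : Subgroup (G ⧸ N), (A.comap (QuotientGroup.mk' N)).relIndex
      (B.comap (QuotientGroup.mk' N)) = A.relIndex B := by
    intro A B
    rw [relIndex_comap, map_comap_eq_self_of_surjective hs]
  have hH0 : (H 0).comap (QuotientGroup.mk' N) = N := by
    rw [h0, MonoidHom.comap_bot, QuotientGroup.ker_mk']
  refine ⟨m + 1, Fin.cons (α := fun _ => Subgroup G) ⊥
    (fun i => (H i).comap (QuotientGroup.mk' N)), rfl, ?_, ?_, ?_, ?_⟩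
  · rw [← Fin.succ_last, Fin.cons_succ, hl, comap_top]
  · intro i
    refine Fin.cases ?_ (fun j => ?_) i
    · rw [Fin.cons_zero]; infer_instance
    · rw [Fin.cons_succ]; exact (hnorm j).comap _
  · intro i
    refine Fin.cases ?_ (fun j => ?_) i
    · rw [Fin.castSucc_zero, Fin.cons_zero, Fin.cons_succ, hH0, relIndex_bot_left, hNp]
      exact ⟨bot_le, hp⟩
    · rw [← Fin.succ_castSucc, Fin.cons_succ, Fin.cons_succ, hrel]
      exact ⟨comap_mono (hstep j).1, (hstep j).2⟩
  · intro i j
    refine Fin.cases ?_ (fun i' => ?_) i <;> refine Fin.cases ?_ (fun j' => ?_) j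
    · intro _; exact le_rfl
    · intro _
      rw [Fin.castSucc_zero, Fin.cons_zero, Fin.cons_succ, Fin.cons_succ, hH0, relIndex_bot_left,
        hNp, ← Fin.succ_castSucc, Fin.cons_succ, hrel]
      exact hmax _ (hstep j').2 (((relIndex_dvd_card _ _).trans (card_subgroup_dvd_card _)).trans
        (card_quotient_dvd_card N))
    · intro hij
      exact absurd hij (by simp)
    · intro hij
      rw [← Fin.succ_castSucc, ← Fin.succ_castSucc, Fin.cons_succ, Fin.cons_succ, Fin.cons_succ,
        Fin.cons_succ, hrel, hrel]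
      exact hmono i' j' (Fin.succ_le_succ_iff.mp hij)

end Cfsg.Agent.S0529
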