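import Cfsg.Statements.S0530
import Mathlib.GroupTheory.IndexNormal
import Cfsg.Agent.Solv.SupersolvableCriteria

set_option autoImplicit false
open Cfsg

namespace Cfsg.Agent.S0530

open Cfsg.Lib.Solv Subgroup

/-- A finite group with a nilpotent subgroup of index at most two is supersolvable. -/
theorem isSupersolvable_of_nilpotent_index_dvd_two {G : Type*} [Group G] [Finite G]
    (P : Subgroup G) (hP : Group.IsNilpotent P) (hidx : P.index ∣ 2) : IsSupersolvable G := by
  refine isSupersolvable_of_quotient_closed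
    (C := fun G _ => ∃ P : Subgroup G, Group.IsNilpotent P ∧ P.index ∣ 2) ?_ ?_ G ⟨P, hP, hidx⟩
  · rintro G _ _ N _ ⟨P, h1, h2⟩
    exact ⟨P.map (QuotientGroup.mk' N), isNilpotent_map _ _ h1,
      (index_map_dvd _ (QuotientGroup.mk'_surjective N)).trans h2⟩
  rintro G _ _ _ ⟨P, h1, h2⟩ _
  by_cases hPb : P = ⊥
  · rw [hPb, index_bot] at h2
    refine ⟨⊤, inferInstance, top_ne_bot, ?_⟩
    have : IsCyclic G := by
      rcases (Nat.dvd_prime Nat.prime_two).mp h2 with h | h
      · exact absurd h Finite.one_lt_card.ne'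
      · exact isCyclic_of_prime_card h
    infer_instance
  obtain ⟨⟨v, hv, hvc⟩, hv1⟩ := ne_bot_iff_exists_ne_one.mp
    (inf_centralizer_ne_bot_of_isNilpotent h1 hPb)
  have hv1' : v ≠ 1 := fun h => hv1 (Subtype.ext h)
  obtain ⟨t, ht⟩ := index_dvd_two_iff.mp h2
  -- every element is in `P` or in `P t⁻¹`
  have hn : ∀ w : G, w ∈ centralizer (P : Set G) → t⁻¹ * w * t ∈ zpowers w → (zpowers w).Normal := by
    intro w hw hwt
    refine ⟨fun n hn g => ?_⟩
    obtain ⟨k, rfl⟩ := hn
    simp only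
    rw [← conj_zpow]
    refine zpow_mem ?_ k
    rcases ht g with h | h
    · have h3 : g * w * g⁻¹ = (g * t) * (t⁻¹ * w * t) * (g * t)⁻¹ := by group
      have h4 : t⁻¹ * w * t ∈ centralizer (P : Set G) := (zpowers_le.mpr hw) hwt
      rw [h3, h4 _ h, mul_inv_cancel_right]
      exact hwt
    · rw [hw g h, mul_inv_cancel_right]
      exact mem_zpowers w
  have hPn : P.Normal := by
    rcases (Nat.dvd_prime Nat.prime_two).mp h2 with h | h
    · rw [index_eq_one.mp h]; infer_instance
    · exact normal_of_index_eq_two h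
  have htt : t * t ∈ P := by
    rcases ht t with h | h
    · exact h
    · exact P.mul_mem h h
  have hv' : t⁻¹ * v * t ∈ P := by simpa using hPn.conj_mem v hv t⁻¹
  have hvc' : t⁻¹ * v * t ∈ centralizer (P : Set G) := by
    simpa using (inferInstance : (centralizer (P : Set G)).Normal).conj_mem v hvc t⁻¹
  by_cases hw : v * (t⁻¹ * v * t) = 1
  · refine ⟨zpowers v, hn v hvc ?_, by rwa [Ne, zpowers_eq_bot], inferInstance⟩
    rw [eq_inv_of_mul_eq_one_right hw]
    exact inv_mem (mem_zpowers v)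
  · refine ⟨zpowers (v * (t⁻¹ * v * t)), hn _ (mul_mem hvc hvc') ?_, by rwa [Ne, zpowers_eq_bot],
      inferInstance⟩
    have h5 : t⁻¹ * (v * (t⁻¹ * v * t)) * t = (t⁻¹ * v * t) * ((t * t)⁻¹ * (v * (t * t))) := by
      group
    rw [h5, ← hvc _ htt, inv_mul_cancel_left, ← hvc' v hv]
    exact mem_zpowers _

/-- A finite group whose order is twice a prime power is supersolvable. -/
theorem result {G : Type*} [Group G] [Finite G] (p n : ℕ) (hp : p.Prime) (hG : Nat.card G = 2 * p ^ n) : Cfsg.IsSupersolvable G := by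
  have := Fact.mk hp
  obtain ⟨P, hP⟩ := Sylow.exists_subgroup_card_pow_prime (G := G) p (n := n) (hG ▸ dvd_mul_left _ _)
  refine isSupersolvable_of_nilpotent_index_dvd_two P (IsPGroup.of_card hP).isNilpotent ?_
  have h1 := P.index_mul_card
  rw [hP, hG] at h1
  rw [Nat.eq_of_mul_eq_mul_right (pow_pos hp.pos n) h1]

end Cfsg.Agent.S0530
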