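import Cfsg.Statements.S0532
import Mathlib.GroupTheory.IndexNormal
import Cfsg.Agent.Solv.SupersolvableCriteria

set_option autoImplicit false
open Cfsg

namespace Cfsg.Agent.S0532

open Cfsg.Lib.Solv Subgroup

theorem hereditary_subgroup {G : Type*} [Group G] (h : ∀ H : Subgroup G, HasSubgroupOfEveryOrder H)
    (K : Subgroup G) : ∀ H : Subgroup K, HasSubgroupOfEveryOrder H := by
  intro H d hd
  obtain ⟨L, hL⟩ := h (H.map K.subtype) d (by rwa [card_map_subtype])
  let e := H.equivMapOfInjective K.subtype K.subtype_injective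
  exact ⟨L.map e.symm.toMonoidHom, by rw [card_map_of_injective e.symm.injective, hL]⟩

theorem hasSubgroupOfEveryOrder_of_hereditary {G : Type*} [Group G]
    (h : ∀ H : Subgroup G, HasSubgroupOfEveryOrder H) : HasSubgroupOfEveryOrder G := by
  intro d hd
  obtain ⟨L, hL⟩ := h ⊤ d (by rwa [card_top])
  exact ⟨L.map (⊤ : Subgroup G).subtype, by rw [card_map_subtype, hL]⟩

theorem exists_index_eq {G : Type*} [Group G] [Finite G] (h : HasSubgroupOfEveryOrder G) {d : ℕ}
    (hd : d ∣ Nat.card G) : ∃ K : Subgroup G, K.index = d := by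
  obtain ⟨e, he⟩ := hd
  obtain ⟨K, hK⟩ := h e (he ▸ dvd_mul_left _ _)
  refine ⟨K, ?_⟩
  have h1 := K.index_mul_card
  rw [he] at h1
  have h2 : 0 < Nat.card K := Nat.card_pos
  rw [← hK] at h1
  exact Nat.eq_of_mul_eq_mul_right h2 h1

/-- If each subgroup of a finite group satisfies the converse of Lagrange's theorem, then a Sylow subgroup for the largest prime dividing the group order is normal. -/
theorem result {G : Type*} [Group G] [Finite G] (h : ∀ H : Subgroup G, Cfsg.HasSubgroupOfEveryOrder H) (p : ℕ) [Fact p.Prime] (hdvd : p ∣ Nat.card G) (hmax : ∀ q : ℕ, q.Prime → q ∣ Nat.card G → q ≤ p) (P : Sylow p G) : (P : Subgroup G).Normal := by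
  induction hn : Nat.card G using Nat.strong_induction_on generalizing G with
  | _ n ih =>
  have hp : p.Prime := Fact.out
  have h1 : Nat.card G ≠ 1 := fun h => hp.not_dvd_one (h ▸ hdvd)
  obtain ⟨K, hK⟩ := exists_index_eq (hasSubgroupOfEveryOrder_of_hereditary h)
    (Nat.minFac_dvd (Nat.card G))
  have hq := Nat.minFac_prime h1
  by_cases hqp : (Nat.card G).minFac = p
  · have hG : IsPGroup p G := by
      rw [isPGroup_iff_primeFactors_card_subset hp.ne_zero]
      intro r hr
      have hr' := Nat.prime_of_mem_primeFactors hr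
      have hrd := Nat.dvd_of_mem_primeFactors hr
      rw [hp.primeFactors, Finset.mem_singleton]
      exact le_antisymm (hmax r hr' hrd) (hqp ▸ Nat.minFac_le_of_dvd hr'.two_le hrd)
    have := hG.isNilpotent
    infer_instance
  have hKn : K.Normal := normal_of_index_eq_minFac_card hK
  have hcop : (K.index).Coprime p := hK ▸ (Nat.coprime_primes hq hp).mpr hqp
  have hPK : (P : Subgroup G) ≤ K := by
    obtain ⟨k, hk⟩ := IsPGroup.iff_card.mp P.isPGroup'
    rw [← relIndex_eq_one]
    have h2 : K.relIndex P ∣ p ^ k := hk ▸ relIndex_dvd_card _ _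
    exact Nat.eq_one_of_dvd_coprimes (hcop.pow_right k) (relIndex_dvd_index_of_normal _ _) h2
  have hKt : K ≠ ⊤ := fun h => hq.ne_one (hK ▸ index_eq_one.mpr h)
  have h3 := ih _ (hn ▸ card_lt_of_ne_top hKt) (hereditary_subgroup h K)
    (hcop.symm.dvd_of_dvd_mul_left (K.index_mul_card ▸ hdvd))
    (fun q h1 h2 => hmax q h1 (h2.trans (card_subgroup_dvd_card K))) (P.subtype hPK) rfl
  have := (P.subtype hPK).characteristic_of_normal h3
  have h4 : (((P.subtype hPK : Sylow p K) : Subgroup K).map K.subtype).Normal := inferInstance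
  rwa [Sylow.coe_subtype, map_subgroupOf_eq_of_le hPK] at h4

end Cfsg.Agent.S0532
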