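import Cfsg.Statements.S0533
import Cfsg.Agent.Solv.SupersolvableCriteria
import Cfsg.Agent.S0532

set_option autoImplicit false
open Cfsg

namespace Cfsg.Agent.S0533

open Cfsg.Lib.Solv Subgroup

/-- If every subgroup of a finite group has subgroups of all orders dividing its order, then the group is supersolvable. -/
theorem result {G : Type*} [Group G] [Finite G] (h : ∀ H : Subgroup G, Cfsg.HasSubgroupOfEveryOrder H) : Cfsg.IsSupersolvable G := by
  induction hn : Nat.card G using Nat.strong_induction_on generalizing G with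
  | _ n ih =>
  rcases subsingleton_or_nontrivial G with h0 | h0
  · exact isSupersolvable_of_subsingleton
  obtain ⟨p, hp, hdvd, hmax⟩ := exists_max_prime_dvd (Finite.one_lt_card (α := G))
  have := Fact.mk hp
  obtain ⟨P⟩ : Nonempty (Sylow p G) := inferInstance
  have hPn := Cfsg.Agent.S0532.result h p hdvd hmax P
  obtain ⟨M, hM⟩ := S0532.exists_index_eq (S0532.hasSubgroupOfEveryOrder_of_hereditary h) hdvd
  have hMt : M ≠ ⊤ := fun h => hp.ne_one (hM ▸ index_eq_one.mpr h)
  refine isSupersolvable_of_nilpotent_sup_index_prime hp P M P.isPGroup'.isNilpotent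
    (ih _ (hn ▸ card_lt_of_ne_top hMt) (S0532.hereditary_subgroup h M) rfl) ?_ (dvd_of_eq hM)
  have h1 : ((P : Subgroup G) ⊔ M).index ∣ p := (index_dvd_of_le le_sup_right).trans (dvd_of_eq hM)
  rcases (Nat.dvd_prime hp).mp h1 with h2 | h2
  · exact index_eq_one.mp h2
  · exact absurd ((dvd_of_eq h2.symm).trans (index_dvd_of_le le_sup_left)) P.not_dvd_index

end Cfsg.Agent.S0533
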