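import Cfsg.Statements.S0535
import Cfsg.Agent.Solv.HallConverse

set_option autoImplicit false
open Cfsg

namespace Cfsg.Agent.S0535

/-- Suppose that for every nontrivial subgroup H of a finite group and every prime p dividing the order of H there is a proper subgroup of H whose index in H is a power of p. Then the group is solvable. -/
theorem result {G : Type*} [Group G] [Finite G] (h : ∀ H : Subgroup G, H ≠ ⊥ → ∀ p : ℕ, p.Prime → p ∣ Nat.card H → ∃ K : Subgroup H, K ≠ ⊤ ∧ ∃ k : ℕ, K.index = p ^ k) : Group.IsSolvable G := by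
  refine Cfsg.Lib.Solv.isSolvable_of_forall_exists_isPiHall_compl G fun p hp => ?_
  obtain ⟨H, ⟨k, hk⟩, hmin⟩ := WellFounded.has_min (wellFounded_lt (α := Subgroup G))
    {H : Subgroup G | ∃ k : ℕ, H.index = p ^ k} ⟨⊤, 0, by simp⟩
  refine ⟨H, Cfsg.Lib.Solv.isPiHall_iff.mpr ⟨fun q hq hd hqp => ?_, ?_⟩⟩
  · obtain rfl : q = p := hqp
    have h0 : H ≠ ⊥ := by
      rintro rfl
      rw [Subgroup.card_bot] at hd
      exact hq.not_dvd_one hd
    obtain ⟨K, hK, l, hl⟩ := h H h0 q hq hd
    refine hmin (K.map H.subtype) ⟨l + k, ?_⟩ (lt_of_le_of_ne (Subgroup.map_subtype_le K) ?_)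
    · rw [Subgroup.index_map_subtype, hl, hk, pow_add]
    · intro he
      apply hK
      apply Subgroup.map_injective H.subtype_injective
      rw [he, ← MonoidHom.range_eq_map, Subgroup.range_subtype]
  · rw [compl_compl, hk]
    exact Cfsg.Lib.Solv.IsPiNum.prime_pow hp (Set.mem_singleton p) k

end Cfsg.Agent.S0535
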