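import Cfsg.Statements.S0537
import Cfsg.Agent.Solv.Schmidt

set_option autoImplicit false
open Cfsg

namespace Cfsg.Agent.S0537

open Cfsg.Lib.Solv

/-- A finite non-abelian group in which every proper subgroup is abelian is either of prime-power order, or is generated by a cyclic Sylow p-subgroup and a normal Sylow q-subgroup that is elementary abelian, for distinct primes p and q. -/
theorem result {G : Type*} [Group G] [Finite G] (hna : ¬ IsMulCommutative G) (h : ∀ H : Subgroup G, H ≠ ⊤ → IsMulCommutative H) : (∃ p : ℕ, p.Prime ∧ IsPGroup p G) ∨ ∃ p q : ℕ, p.Prime ∧ q.Prime ∧ p ≠ q ∧ ∃ (P : Sylow p G) (Q : Sylow q G), IsCyclic P ∧ (Q : Subgroup G).Normal ∧ Cfsg.IsElementaryAbelian q (Q : Subgroup G) ∧ (P : Subgroup G) ⊔ Q = ⊤ := by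
  by_cases hG : Group.IsNilpotent G
  · left
    by_contra! hn
    apply hna
    apply isMulCommutative_of_isNilpotent_of_forall_isPGroup
    intro p hp P hP
    apply h
    rintro rfl
    exact hn p hp.out (hP.of_equiv Subgroup.topEquiv)
  · right
    have hG' : IsMinimalNonNilpotent G :=
      ⟨hG, fun H hH => have := h H hH; isNilpotent_of_isMulCommutative H⟩
    obtain ⟨p, q, hp, hq, hpq, P, Q, x, hP, hQ, htop, hx⟩ := Schmidt.exists_structure hG'
    have := Fact.mk hp
    have := Fact.mk hq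
    have hc : IsCyclic (P : Subgroup G) := by rw [hP]; infer_instance
    have hQne : (Q : Subgroup G) ≠ ⊤ := by
      intro h0
      exact hG (Q.isPGroup'.of_equiv (h0 ▸ Subgroup.topEquiv)).isNilpotent
    have hQc := h _ hQne
    refine ⟨p, q, hp, hq, hpq, P, Q, hc, hQ, ⟨hQc, ?_⟩, htop⟩
    let Ω : Subgroup G :=
      { carrier := {v | v ∈ (Q : Subgroup G) ∧ v ^ q = 1}
        one_mem' := ⟨Subgroup.one_mem _, one_pow _⟩
        mul_mem' := fun {a b} ha hb => ⟨Subgroup.mul_mem _ ha.1 hb.1, by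
          have hab : Commute a b :=
            congrArg Subtype.val (mul_comm' (⟨a, ha.1⟩ : (Q : Subgroup G)) ⟨b, hb.1⟩)
          rw [hab.mul_pow, ha.2, hb.2, one_mul]⟩
        inv_mem' := fun {a} ha => ⟨Subgroup.inv_mem _ ha.1, by rw [inv_pow, ha.2, inv_one]⟩ }
    have hΩQ : Ω ≤ Q := fun v hv => hv.1
    have hΩn : Ω.Normal := ⟨fun v hv g => ⟨hQ.conj_mem v hv.1 g, by rw [conj_pow, hv.2]; simp⟩⟩
    have hPx : IsPGroup p (Subgroup.zpowers x) := hP ▸ P.isPGroup'
    have hxq : (orderOf x).Coprime q := by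
      obtain ⟨k, hk⟩ := hPx.exists_card_eq
      rw [← Nat.card_zpowers, hk]
      exact ((Nat.coprime_primes hp hq).mpr hpq).pow_left k
    have hxΩ : x ∉ Subgroup.centralizer (Ω : Set G) := by
      intro hc
      apply hx
      refine mem_centralizer_of_abelian_of_forall_pow_eq_one Q.isPGroup'
        (Subgroup.le_normalizer_of_normal (Subgroup.mem_top x)) hxq ?_
      intro v hv hvq
      exact (Subgroup.mem_centralizer_iff.mp hc v ⟨hv, hvq⟩).symm
    have hΩp : IsPGroup q Ω := Q.isPGroup'.to_le hΩQ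
    have htop' : Subgroup.zpowers x ⊔ Ω = ⊤ := by
      refine Schmidt.sup_eq_top hG' ?_ hxΩ (Subgroup.mem_sup_left (Subgroup.mem_zpowers x))
        le_sup_right
      rw [← Nat.card_zpowers]
      exact IsPGroup.coprime_card_of_ne p q hpq _ _ hPx hΩp
    have h4 := (not_dvd_index_of_sup_eq_top hpq hPx hΩp htop').2
    have h5 : (Q : Subgroup G) = Ω := (hΩp.toSylow h4).is_maximal' Q.isPGroup' hΩQ
    intro a ha
    rw [h5] at ha
    exact ha.2

end Cfsg.Agent.S0537
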