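import Cfsg.Statements.S0541
import Cfsg.Agent.Solv.Subnormal
import Cfsg.Agent.Solv.Nilpotent

set_option autoImplicit false
open Pointwise
open Cfsg

namespace Cfsg.Agent.S0541

/-- Let Z and Y be subgroups of a finite group G and p a prime. Suppose that for every g in G the subgroup generated by the conjugates of g Z g⁻¹ under Y is a p-group. Then there is a Sylow p-subgroup P of G such that Y normalizes the subgroup generated by all conjugates of Z contained in P. -/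
theorem result {G : Type*} [Group G] [Finite G] (p : ℕ) [Fact p.Prime] (Z Y : Subgroup G) (h : ∀ g : G, IsPGroup p ↥(⨆ y ∈ Y, MulAut.conj (y * g) • Z)) : ∃ P : Sylow p G, Y ≤ Subgroup.normalizer ((⨆ g ∈ {g : G | MulAut.conj g • Z ≤ (P : Subgroup G)}, MulAut.conj g • Z : Subgroup G) : Set G) := by
  classical
  let C : Set (Subgroup G) := {X | ∃ g : G, X = MulAut.conj g • Z}
  let M : Set (Subgroup G) := {U | IsPGroup p U ∧ Y ≤ Subgroup.normalizer (U : Set G) ∧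
    sSup {X | X ∈ C ∧ X ≤ U} = U}
  have hM0 : (⊥ : Subgroup G) ∈ M := by
    refine ⟨IsPGroup.of_bot, by rw [Subgroup.normalizer_eq_top]; exact le_top, ?_⟩
    exact le_bot_iff.1 (sSup_le fun X hX => hX.2)
  obtain ⟨U, ⟨hUp, hUY, hU⟩, hmax⟩ := Set.Finite.exists_maximal (Set.toFinite M) ⟨⊥, hM0⟩
  obtain ⟨P, hUP⟩ := hUp.exists_le_sylow
  refine ⟨P, ?_⟩
  have hW : (⨆ g ∈ {g : G | MulAut.conj g • Z ≤ (P : Subgroup G)}, MulAut.conj g • Z : Subgroup G) =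
      sSup {X | X ∈ C ∧ X ≤ (P : Subgroup G)} := by
    apply le_antisymm
    · exact iSup₂_le fun g hg => le_sSup ⟨⟨g, rfl⟩, hg⟩
    · refine sSup_le ?_
      rintro _ ⟨⟨g, rfl⟩, hg⟩
      exact le_iSup₂_of_le g hg le_rfl
  rw [hW]
  by_cases heq : {X | X ∈ C ∧ X ≤ U} = {X | X ∈ C ∧ X ≤ (P : Subgroup G)}
  · rw [← heq, hU]; exact hUY
  exfalso
  have hnil : Group.IsNilpotent (P : Subgroup G) := P.isPGroup'.isNilpotent
  obtain ⟨X, ⟨⟨g, rfl⟩, hXP⟩, hXU, hXN⟩ := Cfsg.Lib.Solv.exists_le_normalizer_sSup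
    (H := (P : Subgroup G)) (S := {X | X ∈ C ∧ X ≤ (P : Subgroup G)}) (S₀ := {X | X ∈ C ∧ X ≤ U})
    (fun V hV => ⟨hV.2, Cfsg.Lib.Solv.isSubnormal_of_isNilpotent _⟩)
    (by
      rintro a ha _ ⟨⟨g, rfl⟩, hV⟩
      exact ⟨⟨a * g, (Cfsg.Lib.Solv.conj_mul_smul _ _ _).symm⟩,
        Cfsg.Lib.Solv.conj_smul_le_of_mem ha hV⟩)
    (Set.ssubset_iff_subset_ne.2 ⟨fun X hX => ⟨hX.1, hX.2.trans hUP⟩, heq⟩)
  rw [hU] at hXN
  set T : Subgroup G := ⨆ y ∈ Y, MulAut.conj (y * g) • Z with hT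
  have hTN : T ≤ Subgroup.normalizer (U : Set G) := by
    refine iSup₂_le fun y hy => ?_
    rw [Cfsg.Lib.Solv.conj_mul_smul]
    exact Cfsg.Lib.Solv.conj_smul_le_of_mem (hUY hy) hXN
  have hYT : Y ≤ Subgroup.normalizer (T : Set G) := by
    intro y hy
    apply Cfsg.Lib.Solv.mem_normalizer_of_conj_mem
    rw [← Cfsg.Lib.Solv.conj_smul_le_iff, hT, Cfsg.Lib.Solv.conj_smul_iSup]
    refine iSup_le fun a => ?_
    rw [Cfsg.Lib.Solv.conj_smul_iSup]
    refine iSup_le fun ha => ?_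
    rw [← Cfsg.Lib.Solv.conj_mul_smul, ← mul_assoc]
    exact le_iSup₂_of_le (y * a) (Y.mul_mem hy ha) le_rfl
  have hUT : U ⊔ T ∈ M := by
    refine ⟨hUp.to_sup_of_normal_left' (h g) hTN, Cfsg.Lib.Solv.le_normalizer_sup hUY hYT, ?_⟩
    refine le_antisymm (sSup_le fun X hX => hX.2) (sup_le ?_ ?_)
    · conv_lhs => rw [← hU]
      exact sSup_le_sSup fun X hX => ⟨hX.1, hX.2.trans le_sup_left⟩
    · refine iSup₂_le fun y hy => le_sSup ⟨⟨_, rfl⟩, le_sup_of_le_right ?_⟩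
      exact le_iSup₂_of_le y hy le_rfl
  have h1 := hmax hUT le_sup_left
  refine hXU ⟨⟨g, rfl⟩, le_trans ?_ (le_sup_right.trans h1)⟩
  exact le_iSup₂_of_le 1 Y.one_mem (by rw [one_mul])

end Cfsg.Agent.S0541
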