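import Cfsg.Statements.S0546
import Cfsg.Agent.Solv.SylowSystem

set_option autoImplicit false
open Cfsg Cfsg.Lib.Solv

namespace Cfsg.Agent.S0546

/-- The normal closure of a system normalizer of a finite solvable group is the whole group. -/
theorem result {G : Type*} [Group G] [Finite G] [Group.IsSolvable G] (K : Nat.Primes → Subgroup G) (hK : Cfsg.IsComplementSystem K) : Subgroup.normalClosure ((Cfsg.systemNormalizer K : Subgroup G) : Set G) = ⊤ := by
  set M := Subgroup.normalClosure ((Cfsg.systemNormalizer K : Subgroup G) : Set G) with hM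
  by_contra hne
  have : Nontrivial (G ⧸ M) := QuotientGroup.nontrivial_iff.2 hne
  have hlt := Group.IsSolvable.commutator_lt_top_of_nontrivial (G ⧸ M)
  have : Nontrivial ((G ⧸ M) ⧸ commutator (G ⧸ M)) := QuotientGroup.nontrivial_iff.2 hlt.ne
  let f : G →* Abelianization (G ⧸ M) := Abelianization.of.comp (QuotientGroup.mk' M)
  have hf : Function.Surjective f :=
    (QuotientGroup.mk'_surjective _).comp (QuotientGroup.mk'_surjective M)
  have hfin : Finite (Abelianization (G ⧸ M)) := Finite.of_surjective f hf
  have h1 := hK.map_systemNormalizer hf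
  rw [systemNormalizer_eq_top_of_isNilpotent (hK.map hf)] at h1
  have h2 : (systemNormalizer K).map f = ⊥ := by
    rw [Subgroup.map_eq_bot_iff]
    intro x hx
    have : QuotientGroup.mk' M x = 1 :=
      (QuotientGroup.eq_one_iff x).2 (Subgroup.subset_normalClosure hx)
    simp only [MonoidHom.mem_ker, f, MonoidHom.comp_apply, this, map_one]
  rw [h2] at h1
  have : Nontrivial (Abelianization (G ⧸ M)) := this
  exact top_ne_bot h1

end Cfsg.Agent.S0546
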