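import Cfsg.Statements.S0550
import Cfsg.Agent.Solv.CoreFree

set_option autoImplicit false
open Cfsg

namespace Cfsg.Agent.S0550

open Lib.Solv Lib.Solv.CoreFree

/-- Let U be a maximal subgroup with trivial normal core in a finite group G, and A ≠ B two minimal normal subgroups. Then A is the centralizer of B and B that of A, U complements each of them, A and B are non-abelian, and A, B and (A ⊔ B) ∩ U are pairwise isomorphic. -/
theorem result {G : Type*} [Group G] [Finite G] (U : Subgroup G) (hU : IsCoatom U) (hcore : U.normalCore = ⊥) (A B : Subgroup G) [A.Normal] [B.Normal] (hA : A ≠ ⊥) (hB : B ≠ ⊥) (hAmin : ∀ K : Subgroup G, K.Normal → K ≤ A → K = ⊥ ∨ K = A) (hBmin : ∀ K : Subgroup G, K.Normal → K ≤ B → K = ⊥ ∨ K = B) (hAB : A ≠ B) : Subgroup.centralizer (B : Set G) = A ∧ Subgroup.centralizer (A : Set G) = B ∧ Subgroup.IsComplement' A U ∧ Subgroup.IsComplement' B U ∧ ¬ IsMulCommutative A ∧ Nonempty (A ≃* B) ∧ Nonempty (A ≃* ↥((A ⊔ B) ⊓ U)) := by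
  have mA : IsMinNormal A := ⟨inferInstance, hA, hAmin⟩
  have mB : IsMinNormal B := ⟨inferInstance, hB, hBmin⟩
  have hd : A ⊓ B = ⊥ := mA.inf_eq_bot_of_ne mB hAB
  have nt : ∀ (X N : Subgroup G) [N.Normal], X ≤ Subgroup.normalizer (N : Set G) := by
    intro X N _
    rw [Subgroup.normalizer_eq_top_iff.mpr inferInstance]; exact le_top
  have h1 : A ≤ Subgroup.centralizer (B : Set G) := le_centralizer_of_disjoint (nt _ _) (nt _ _) hd
  have h2 : B ≤ Subgroup.centralizer (A : Set G) := Subgroup.le_centralizer_iff.mp h1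
  have e1 := eq_centralizer_of_le hU hcore hB inferInstance hA h1
  have e2 := eq_centralizer_of_le hU hcore hA inferInstance hB h2
  have c1 := isComplement'_of_le_centralizer hU hcore hB hA h1
  have c2 := isComplement'_of_le_centralizer hU hcore hA hB h2
  have d1 : A ⊔ B = A ⊔ ((A ⊔ B) ⊓ U) := by
    rw [inf_comm, ← sup_inf_assoc_of_le_normalizer (nt _ _) le_sup_left, c1.sup_eq_top, top_inf_eq]
  have d2 : B ⊔ A = B ⊔ ((A ⊔ B) ⊓ U) := by
    rw [inf_comm, ← sup_inf_assoc_of_le_normalizer (nt _ _) le_sup_right, c2.sup_eq_top, top_inf_eq,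
      sup_comm]
  obtain ⟨f1⟩ := nonempty_equiv_of_sup_eq (nt B A) d1 (disjoint_iff.mpr hd)
    (c1.disjoint.mono_right inf_le_right)
  obtain ⟨f2⟩ := nonempty_equiv_of_sup_eq (nt A B) d2 (disjoint_iff.mpr hd).symm
    (c2.disjoint.mono_right inf_le_right)
  refine ⟨e1.symm, e2.symm, c1, c2, fun hc => ?_, ⟨f2.trans f1.symm⟩, ⟨f2⟩⟩
  exact hAB ((centralizer_eq_self hU hcore hA).symm.trans e2.symm)

end Cfsg.Agent.S0550
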