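import Cfsg.Statements.S0551
import Cfsg.Agent.Solv.CoreFree

set_option autoImplicit false
open Pointwise
open Cfsg

namespace Cfsg.Agent.S0551

/-- In a finite solvable group all core-free maximal subgroups are conjugate. -/
theorem result {G : Type*} [Group G] [Finite G] [Group.IsSolvable G] (U V : Subgroup G) (hU : IsCoatom U) (hV : IsCoatom V) (hUc : U.normalCore = ⊥) (hVc : V.normalCore = ⊥) : ∃ g : G, MulAut.conj g • U = V := by
  exact Lib.Solv.CoreFree.exists_conj_of_isSolvable hU hV hUc hVc

end Cfsg.Agent.S0551
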