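import Cfsg.Statements.S0553
import Cfsg.Agent.Solv.MinNormal
import Cfsg.Agent.Solv.Frattini
import Cfsg.Agent.Solv.FrattiniNilpotent
import Cfsg.Agent.Solv.Conj

set_option autoImplicit false
open Cfsg

namespace Cfsg.Agent.S0553

open Lib.Solv

universe u

theorem aux (G : Type u) [Group G] [Finite G] [Group.IsSolvable G] : Nontrivial G →
    (∀ M : Subgroup G, IsCoatom M → (Nat.card M).Coprime M.index) →
    ∃ p : ℕ, p.Prime ∧ p ∣ Nat.card G ∧ ∃ P : Sylow p G, (P : Subgroup G).Normal := by
  refine solvable_induction (P := fun G _ _ _ => Nontrivial G →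
    (∀ M : Subgroup G, IsCoatom M → (Nat.card M).Coprime M.index) →
    ∃ p : ℕ, p.Prime ∧ p ∣ Nat.card G ∧ ∃ P : Sylow p G, (P : Subgroup G).Normal) ?_ ?_ G
  · intro G _ _ _ hs hn
    exact absurd hn (not_nontrivial_iff_subsingleton.mpr hs)
  intro G _ _ _ p N _ hp hN hc _ hNp ih _ h
  have := Fact.mk hp
  by_cases hΦ : N ≤ frattini G
  · have hsurj := QuotientGroup.mk'_surjective N
    obtain ⟨r, hr, hrG, P, hP⟩ := ih (G ⧸ N) (card_quotient_lt hN.ne_bot)
      (QuotientGroup.nontrivial_iff.mpr fun e => frattini_ne_top (G := G) (top_le_iff.mp (e ▸ hΦ)))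
      (fun M hM => by
        have h1 := h _ (Subgroup.isCoatom_comap_of_surjective hsurj hM)
        rw [Subgroup.index_comap_of_surjective _ hsurj, card_comap_mk'] at h1
        exact Nat.Coprime.coprime_mul_right h1)
    have := Fact.mk hr
    obtain ⟨R, rfl⟩ := Sylow.mapSurjective_surjective hsurj r P
    refine ⟨r, hr, hrG.trans (Subgroup.card_quotient_dvd_card N), R, ?_⟩
    refine normal_of_sup_frattini_normal (N := ⊤) hΦ le_top R.isPGroup'
      (by rw [Subgroup.relIndex_top_right]; exact R.not_dvd_index) ?_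
    have := hP.comap (QuotientGroup.mk' N)
    rwa [Sylow.coe_mapSurjective, Subgroup.comap_map_eq, QuotientGroup.ker_mk'] at this
  · rw [le_frattini_iff] at hΦ
    push Not at hΦ
    obtain ⟨M, hM, hNM⟩ := hΦ
    have hcomp := isComplement'_of_isCoatom_of_not_le hN.min hM hNM
    have hpN : p ∣ Nat.card N := by
      rcases hNp.card_eq_or_dvd with h | h
      · exact absurd (Subgroup.card_eq_one.mp h) hN.ne_bot
      · exact h
    refine ⟨p, hp, hpN.trans (Subgroup.card_subgroup_dvd_card N), hNp.toSylow ?_, ‹_›⟩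
    intro hd
    have h1 := h M hM
    rw [hcomp.index_eq_card, ← hcomp.symm.index_eq_card] at h1
    exact hp.one_lt.ne' (Nat.eq_one_of_dvd_coprimes h1 hd hpN)

/-- Let G be a nontrivial finite solvable group in which every maximal subgroup has order coprime to its index. Then for some prime p dividing the order of G the Sylow p-subgroups of G are normal. -/
theorem result {G : Type*} [Group G] [Finite G] [Group.IsSolvable G] [Nontrivial G] (h : ∀ M : Subgroup G, IsCoatom M → (Nat.card M).Coprime M.index) : ∃ p : ℕ, p.Prime ∧ p ∣ Nat.card G ∧ ∀ P : Sylow p G, (P : Subgroup G).Normal := by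
  obtain ⟨p, hp, hpG, P, hP⟩ := aux G inferInstance h
  have := Fact.mk hp
  refine ⟨p, hp, hpG, fun Q => ?_⟩
  have := (Sylow.unique_of_normal P hP).instSubsingleton
  rwa [Subsingleton.elim Q P]

end Cfsg.Agent.S0553
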