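import Cfsg.Statements.S0554
import Cfsg.Agent.Solv.MinNormal
import Mathlib.Tactic.Group

set_option autoImplicit false
open Cfsg

namespace Cfsg.Agent.S0554

open Cfsg.Lib.Solv

universe u

theorem absorb {G : Type*} [Group G] (N : Subgroup G) [hN : N.Normal] :
    ∀ (t : ℕ) (s : Fin t → G) (i : Fin t) (n : G), n ∈ N →
      ∃ n' ∈ N, n * (List.ofFn s).prod = (List.ofFn (Function.update s i (n' * s i))).prod := by
  intro t
  induction t with
  | zero => exact fun s i => i.elim0
  | succ t ih =>
    intro s i n hn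
    refine Fin.cases ?_ (fun i => ?_) i
    · refine ⟨n, hn, ?_⟩
      simp [List.ofFn_succ, mul_assoc, Function.update_of_ne (Fin.succ_ne_zero _)]
    · obtain ⟨n', hn', e⟩ := ih (fun j => s j.succ) i ((s 0)⁻¹ * n * s 0)
        (by simpa using hN.conj_mem n hn (s 0)⁻¹)
      refine ⟨n', hn', ?_⟩
      rw [List.ofFn_succ, List.ofFn_succ, List.prod_cons, List.prod_cons,
        Function.update_of_ne (Fin.succ_ne_zero i).symm]
      have : (fun j : Fin t => Function.update s i.succ (n' * s i.succ) j.succ) =
          Function.update (fun j => s j.succ) i (n' * s i.succ) := by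
        funext j
        by_cases hj : j = i
        · subst hj; simp
        · rw [Function.update_of_ne hj, Function.update_of_ne (fun h => hj (Fin.succ_injective _ h))]
      rw [this, ← e]
      group

theorem aux (t : ℕ) (p : Fin t → ℕ) (hp : ∀ i, (p i).Prime) (k : ℕ) :
    ∀ (G : Type u) [Group G] [Finite G] [Group.IsSolvable G], Nat.card G = k →
    (∀ q : ℕ, q.Prime → q ∣ Nat.card G → ∃ i, p i = q) → ∀ (S : (i : Fin t) → Sylow (p i) G),
    ∀ g : G, ∃ s : (i : Fin t) → G, (∀ i, s i ∈ (S i : Subgroup G)) ∧ g = (List.ofFn s).prod := by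
  induction k using Nat.strong_induction_on with
  | _ k ih =>
  intro G _ _ _ hk hall S g
  rcases subsingleton_or_nontrivial G with hs | hnt
  · exact ⟨fun _ => 1, fun i => Subgroup.one_mem _, Subsingleton.elim _ _⟩
  obtain ⟨N, hN⟩ := exists_isMinNormal G
  have := hN.normal
  obtain ⟨q, m, hq, hm, hcard⟩ := hN.card_eq_prime_pow
  have hlt : Nat.card (G ⧸ N) < k := hk ▸ card_quotient_lt hN.ne_bot
  obtain ⟨i, hi⟩ := hall q hq ((hcard ▸ dvd_pow_self q hm.ne').trans N.card_subgroup_dvd_card)
  have hfact : ∀ i, Fact (p i).Prime := fun i => ⟨hp i⟩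
  have hf : Function.Surjective (QuotientGroup.mk' N) := QuotientGroup.mk'_surjective N
  obtain ⟨s, hs, e⟩ := ih _ hlt (G ⧸ N) rfl
    (fun r hr hrd => hall r hr (hrd.trans (Subgroup.card_quotient_dvd_card N)))
    (fun j => (S j).mapSurjective hf) (QuotientGroup.mk' N g)
  choose s' hs' using hs
  have h1 : QuotientGroup.mk' N g = QuotientGroup.mk' N (List.ofFn s').prod := by
    rw [e, map_list_prod, List.map_ofFn]
    congr 2
    funext j
    exact (hs' j).2.symm
  have h2 : g * ((List.ofFn s').prod)⁻¹ ∈ N := by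
    rw [← QuotientGroup.eq_one_iff]
    change QuotientGroup.mk' N _ = 1
    rw [map_mul, map_inv, h1, mul_inv_cancel]
  obtain ⟨n', hn', e'⟩ := absorb N t s' i _ h2
  have hNS : N ≤ (S i : Subgroup G) :=
    IsPGroup.le_sylow_of_normal (IsPGroup.of_card (hi ▸ hcard)) (S i)
  refine ⟨Function.update s' i (n' * s' i), fun j => ?_, by rw [← e']; group⟩
  by_cases hj : j = i
  · subst hj
    rw [Function.update_self]
    exact Subgroup.mul_mem _ (hNS hn') (hs' j).1
  · rw [Function.update_of_ne hj]; exact (hs' j).1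

/-- Let G be a finite solvable group and let S assign to each of t distinct primes, including every prime divisor of the order of G, a Sylow subgroup of G. Then every element of G is a product s_0 s_1 ⋯ s_(t-1) with s_i in S i, the factors taken in the given order. -/
theorem result {G : Type*} [Group G] [Finite G] [Group.IsSolvable G] (t : ℕ) (p : Fin t → ℕ) (hp : ∀ i, (p i).Prime) (hinj : Function.Injective p) (hall : ∀ q : ℕ, q.Prime → q ∣ Nat.card G → ∃ i, p i = q) (S : (i : Fin t) → Sylow (p i) G) : ∀ g : G, ∃ s : (i : Fin t) → G, (∀ i, s i ∈ (S i : Subgroup G)) ∧ g = (List.ofFn s).prod := by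
  exact aux t p hp _ G rfl hall S

end Cfsg.Agent.S0554
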