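import Cfsg.Statements.S0555
import Mathlib.GroupTheory.SpecificGroups.ZGroup
import Mathlib.Tactic.Group

set_option autoImplicit false
open Cfsg

namespace Cfsg.Agent.S0555

theorem exists_gen {G : Type*} [Group G] (A B : Subgroup G) [B.Normal]
    (h : IsCyclic (↥A ⧸ B.subgroupOf A)) :
    ∃ x ∈ A, ∀ a ∈ A, ∃ n : ℤ, (x ^ n)⁻¹ * a ∈ B := by
  obtain ⟨q, hq⟩ := h.exists_generator
  obtain ⟨x, rfl⟩ := QuotientGroup.mk_surjective q
  refine ⟨x, x.2, fun a ha => ?_⟩
  obtain ⟨n, hn⟩ := hq (QuotientGroup.mk ⟨a, ha⟩)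
  refine ⟨n, ?_⟩
  have : ((x ^ n : A) : A ⧸ B.subgroupOf A) = QuotientGroup.mk ⟨a, ha⟩ := hn
  rw [QuotientGroup.eq, Subgroup.mem_subgroupOf] at this
  simpa using this

/-- Let i ≥ 1. If in the derived series of a group the quotient of the i-th term by the (i+1)-st and the quotient of the (i+1)-st by the (i+2)-nd are both cyclic, then the (i+1)-st and (i+2)-nd terms coincide. -/
theorem result {G : Type*} [Group G] (i : ℕ) (hi : 1 ≤ i) (h₁ : IsCyclic (↥(derivedSeries G i) ⧸ (derivedSeries G (i + 1)).subgroupOf (derivedSeries G i))) (h₂ : IsCyclic (↥(derivedSeries G (i + 1)) ⧸ (derivedSeries G (i + 2)).subgroupOf (derivedSeries G (i + 1)))) : derivedSeries G (i + 1) = derivedSeries G (i + 2) := by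
  obtain ⟨j, rfl⟩ : ∃ j, i = j + 1 := ⟨i - 1, by omega⟩
  obtain ⟨x, hx, hxg⟩ := exists_gen _ _ h₁
  obtain ⟨y, hy, hyg⟩ := exists_gen _ _ h₂
  set D3 := derivedSeries G (j + 1 + 2) with hD3
  let f := QuotientGroup.mk' D3
  have hf : Function.Surjective f := QuotientGroup.mk'_surjective D3
  have hX : (derivedSeries G (j + 1 + 1)).map f = Subgroup.zpowers (f y) := by
    apply le_antisymm
    · rintro _ ⟨e, he, rfl⟩
      obtain ⟨n, hn⟩ := hyg e he
      refine ⟨n, ?_⟩
      have : f ((y ^ n)⁻¹ * e) = 1 := (QuotientGroup.eq_one_iff _).mpr hn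
      rw [map_mul, map_inv, inv_mul_eq_one, map_zpow] at this
      exact this
    · rw [Subgroup.zpowers_le]
      exact ⟨y, hy, rfl⟩
  have hXn : (Subgroup.zpowers (f y)).Normal := by
    rw [← hX]; exact Subgroup.Normal.map inferInstance f hf
  have hcomm : ∀ c ∈ commutator (G ⧸ D3), c * f y = f y * c := by
    intro c hc
    have hH : IsCyclic (Subgroup.zpowers (f y)) := inferInstance
    let _ := (hH.mulAutMulEquiv _).toMonoidHom.commGroupOfInjective (hH.mulAutMulEquiv _).injective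
    have h := Abelianization.commutator_subset_ker
      (MulAut.conjNormal (H := Subgroup.zpowers (f y))) hc
    rw [MonoidHom.mem_ker] at h
    have h2 := congrArg (fun φ : MulAut (Subgroup.zpowers (f y)) =>
      ((φ ⟨f y, Subgroup.mem_zpowers _⟩ : Subgroup.zpowers (f y)) : G ⧸ D3)) h
    simp only [MulAut.conjNormal_apply, MulAut.one_apply] at h2
    rw [mul_inv_eq_iff_eq_mul] at h2
    exact h2
  have hxy : Commute (f x) (f y) := by
    apply hcomm
    have h1 : derivedSeries G (j + 1) ≤ commutator G := derivedSeries_antitone G (by omega : 1 ≤ j + 1)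
    have h2 : (commutator G).map f ≤ commutator (G ⧸ D3) :=
      map_derivedSeries_le_derivedSeries f 1
    exact h2 ⟨x, h1 hx, rfl⟩
  have hform : ∀ a ∈ derivedSeries G (j + 1), ∃ m n : ℤ, f a = f x ^ m * f y ^ n := by
    intro a ha
    obtain ⟨m, hm⟩ := hxg a ha
    have : f ((x ^ m)⁻¹ * a) ∈ Subgroup.zpowers (f y) := hX ▸ ⟨_, hm, rfl⟩
    obtain ⟨n, hn⟩ := this
    refine ⟨m, n, ?_⟩
    simp only [map_mul, map_inv, map_zpow] at hn
    rw [hn]; group
  apply le_antisymm _ (derivedSeries_antitone G (by omega))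
  rw [derivedSeries_succ, Subgroup.commutator_le]
  intro a ha b hb
  rw [← QuotientGroup.eq_one_iff]
  change f _ = 1
  rw [map_commutatorElement, commutatorElement_eq_one_iff_commute]
  obtain ⟨m, n, e1⟩ := hform a ha
  obtain ⟨m', n', e2⟩ := hform b hb
  rw [e1, e2]
  exact (((Commute.refl _).zpow_zpow _ _).mul_right (hxy.zpow_zpow _ _)).mul_left
    ((hxy.symm.zpow_zpow _ _).mul_right ((Commute.refl _).zpow_zpow _ _))

end Cfsg.Agent.S0555
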