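import Cfsg.Statements.S0557
import Cfsg.Agent.Trans.TransferTools
import Cfsg.Agent.Solv.ClassSize
import Cfsg.Agent.Solv.Frattini

set_option autoImplicit false
open Cfsg

namespace Cfsg.Agent.S0557

open Cfsg.Lib.Trans Cfsg.Lib.Solv Subgroup
open scoped IsMulCommutative

theorem focal_mono {G : Type*} [Group G] {A B : Subgroup G} (h : A ≤ B) :
    A.focalSubgroup ≤ B.focalSubgroup := by
  apply Subgroup.closure_mono
  rintro g ⟨hg, x, hx, u, rfl⟩
  exact ⟨h hg, x, h hx, u, rfl⟩

theorem map_focal_le {G G' : Type*} [Group G] [Group G'] (f : G →* G') (A : Subgroup G) :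
    A.focalSubgroup.map f ≤ (A.map f).focalSubgroup := by
  rw [map_le_iff_le_comap, focalSubgroup_def, closure_le]
  rintro g ⟨hg, x, hx, u, rfl⟩
  exact subset_closure ⟨mem_map_of_mem f hg, f x, mem_map_of_mem f hx, f u, map_commutatorElement ..⟩


/-- Let H be a subgroup of a finite group G with order coprime to its index. If iterating the focal-subgroup construction starting from H reaches the trivial subgroup after finitely many steps, then H has a normal complement in G. -/
theorem result {G : Type*} [Group G] [Finite G] (H : Subgroup G) (hHall : (Nat.card H).Coprime H.index) (n : ℕ) (hfoc : (fun K : Subgroup G => Subgroup.focalSubgroup K)^[n] H = ⊥) : ∃ N : Subgroup G, N.Normal ∧ Subgroup.IsComplement' N H := by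
  let K := Cfsg.pResidual (Nat.card H) G
  let L := H.subgroupOf K
  have hL : Nat.card L ∣ Nat.card H := card_comap_dvd_of_injective H K.subtype K.subtype_injective
  have hLi : L.index ∣ H.index := ClassSize.relIndex_dvd_index_of_normal_right H K
  have hc : (Nat.card L).Coprime L.index :=
    Nat.Coprime.coprime_dvd_left hL (Nat.Coprime.coprime_dvd_right hLi hHall)
  have h1 := ker_transferFocal_inf_of_coprime L (coprime_card_quotient_focal_of_hall L hc)
  have h2 : L.transferFocal.ker = ⊤ := by
    rw [eq_top_iff, ← pResidual_pResidual (p := Nat.card H), pResidual_le_iff_forall]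
    intro g hg
    rw [MonoidHom.mem_ker, ← orderOf_eq_one_iff]
    refine Nat.eq_one_of_dvd_coprimes hg (orderOf_map_dvd _ g) ?_
    exact (_root_.orderOf_dvd_natCard _).trans ((card_quotient_dvd_card _).trans hL)
  rw [h2, top_inf_eq] at h1
  have h3 : H ⊓ K ≤ (H ⊓ K).focalSubgroup := by
    have := map_focal_le K.subtype L
    rwa [← h1, subgroupOf_map_subtype] at this
  have h4 : ∀ k, H ⊓ K ≤ (fun K : Subgroup G => Subgroup.focalSubgroup K)^[k] H := by
    intro k
    induction k with
    | zero => exact inf_le_left
    | succ k ih => rw [Function.iterate_succ_apply']; exact h3.trans (focal_mono ih)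
  refine ⟨K, inferInstance, isComplement'_of_normal_of_inf_eq_bot_of_sup_eq_top ?_ ?_⟩
  · rw [inf_comm, eq_bot_iff, ← hfoc]
    exact h4 n
  · rw [← index_eq_one]
    by_contra hne
    obtain ⟨q, hq, hd⟩ := Nat.exists_prime_and_dvd hne
    haveI := Fact.mk hq
    obtain ⟨Q⟩ := (inferInstance : Nonempty (Sylow q G))
    have h5 : q ∣ H.index := hd.trans (index_dvd_of_le le_sup_left)
    have h6 : (Q : Subgroup G) ≤ K := by
      apply le_pResidual_of_coprime
      obtain ⟨j, hj⟩ := IsPGroup.iff_card.mp Q.isPGroup'
      rw [hj]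
      exact Nat.Coprime.pow_left j (Nat.Coprime.coprime_dvd_left h5 hHall.symm)
    exact Q.not_dvd_index (hd.trans (index_dvd_of_le (h6.trans le_sup_right)))

end Cfsg.Agent.S0557
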