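import Cfsg.Statements.S0558
import Cfsg.Agent.Solv.NilpotentHall
import Cfsg.Agent.Solv.CoprimeSylow
import Cfsg.Agent.Solv.SchurZassenhaus
import Cfsg.Agent.Trans.HyperFocal

set_option autoImplicit false
open Cfsg

namespace Cfsg.Agent.S0558

/-- Let H be a subgroup of a finite group G that is not a Sylow subgroup of G for any prime, and suppose that for every prime p dividing the order of H and every Sylow p-subgroup P of H the normalizer of P in G is exactly H. Then some normal subgroup of G is a complement to H. -/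
theorem result {G : Type*} [Group G] [Finite G] (H : Subgroup G) (hnot : ∀ p : ℕ, p.Prime → ∀ P : Sylow p G, (P : Subgroup G) ≠ H) (hnorm : ∀ p : ℕ, p.Prime → p ∣ Nat.card H → ∀ P : Sylow p H, Subgroup.normalizer (((P : Subgroup H).map H.subtype : Subgroup G) : Set G) = H) : ∃ N : Subgroup G, N.Normal ∧ Subgroup.IsComplement' N H := by
  have hnil : Group.IsNilpotent H := by
    apply Cfsg.Lib.Solv.isNilpotent_of_forall_exists_sylow_normal
    intro p hp hpH
    let P : Sylow p H := default
    refine ⟨P, ?_⟩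
    rw [← Subgroup.normalizer_eq_top_iff]
    apply Subgroup.map_injective H.subtype_injective
    rw [Cfsg.Lib.Solv.map_subtype_normalizer, hnorm p hp.out hpH P, inf_idem,
      ← MonoidHom.range_eq_map, Subgroup.range_subtype]
  -- Sylow subgroups of `H` are Sylow subgroups of `G`
  have hsyl : ∀ (p : ℕ) [Fact p.Prime], p ∣ Nat.card H → ∀ P : Sylow p H,
      ∃ S : Sylow p G, (S : Subgroup G) = (P : Subgroup H).map H.subtype := by
    intro p hp hpH P
    have h1 := Cfsg.Lib.Solv.Coprime.not_dvd_relIndex_of_normalizer (K := ⊤) le_top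
      (P.isPGroup'.map H.subtype) (by
        rw [hnorm p hp.out hpH P, top_inf_eq]
        exact Cfsg.Lib.Solv.Coprime.not_dvd_relIndex_sylow_map P)
    rw [Subgroup.relIndex_top_right] at h1
    exact ⟨(P.isPGroup'.map H.subtype).toSylow h1, rfl⟩
  -- for each prime `p` dividing `|H|` there is a normal `p`-complement
  have hcompl : ∀ (p : ℕ) [Fact p.Prime], p ∣ Nat.card H → HasNormalPComplement p G := by
    intro p hp hpH
    let P : Sylow p H := default
    obtain ⟨S, hS⟩ := hsyl p hpH P
    have hSH : (S : Subgroup G) ≤ H := hS ▸ Subgroup.map_subtype_le _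
    obtain ⟨q, hq, hqp, hqH⟩ : ∃ q : ℕ, q.Prime ∧ q ≠ p ∧ q ∣ Nat.card H := by
      by_contra hcon
      push Not at hcon
      have hH : IsPGroup p H := IsPGroup.of_card (n := (Nat.card H).primeFactorsList.length)
        (Nat.eq_prime_pow_of_unique_prime_dvd Nat.card_pos.ne' fun {d} hd hdK => by
          by_contra h
          exact hcon d hd h hdK)
      exact hnot p hp.out S (S.is_maximal' hH hSH).symm
    have := Fact.mk hq
    let Q : Sylow q H := default
    obtain ⟨T, hT⟩ := hsyl q hqH Q
    have hTH : (T : Subgroup G) ≤ H := hT ▸ Subgroup.map_subtype_le _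
    have hTS : (T : Subgroup G) ≤ Subgroup.centralizer ((S : Subgroup G) : Set G) :=
      Cfsg.Lib.Solv.le_centralizer_of_coprime_of_isNilpotent hnil hTH hSH
        (IsPGroup.coprime_card_of_ne q p hqp _ _ T.isPGroup' S.isPGroup')
    rw [Cfsg.Lib.Trans.hasNormalPComplement_iff_inf_eq_bot S, inf_comm,
      Cfsg.Lib.Trans.inf_pResidual_eq_of_controls S hSH ?_, inf_comm]
    · apply Cfsg.Lib.Trans.inf_eq_bot_of_coprime_of_isPGroup _ S.isPGroup'
      rw [Cfsg.Lib.Solv.card_map_subtype, ← Cfsg.Lib.Trans.hasNormalPComplement_iff_coprime]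
      exact Cfsg.Lib.Solv.hasNormalPComplement_of_isNilpotent p
    intro x hx g hg
    set C := Subgroup.centralizer ({g * x * g⁻¹} : Set G) with hC
    have h1 : (T : Subgroup G) ≤ C := hTS.trans (Subgroup.centralizer_le (Set.singleton_subset_iff.2 hg))
    have h2 : ((g • T : Sylow q G) : Subgroup G) ≤ C := by
      rw [hC, ← Cfsg.Lib.Solv.conj_smul_centralizer_singleton, Sylow.coe_subgroup_smul]
      exact Cfsg.Lib.Solv.conj_smul_mono g
        (hTS.trans (Subgroup.centralizer_le (Set.singleton_subset_iff.2 hx)))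
    obtain ⟨c, hc⟩ := MulAction.exists_smul_eq C ((g • T).subtype h2) (T.subtype h1)
    rw [Sylow.smul_subtype] at hc
    have h3 : (c : G) • g • T = T := Sylow.subtype_injective hc
    rw [← mul_smul, Sylow.smul_eq_iff_mem_normalizer] at h3
    refine ⟨c * g, ?_, ?_⟩
    · rw [← hnorm q hq hqH Q, ← hT]; exact h3
    · have := Subgroup.mem_centralizer_singleton_iff.1 c.2
      calc g * x * g⁻¹ = c * (g * x * g⁻¹) * (c : G)⁻¹ := by rw [this]; simp
        _ = _ := by simp [mul_assoc]
  let N : Subgroup G := ⨅ p ∈ (Nat.card H).primeFactors, pResidual p G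
  have hN : N.Normal := by
    refine Subgroup.normal_iInf_normal fun p => Subgroup.normal_iInf_normal fun _ => inferInstance
  refine ⟨N, hN, Cfsg.Lib.Solv.SZ.isComplement'_of_sup_of_disjoint ?_ ?_⟩
  · rw [← Subgroup.index_eq_one]
    by_contra hne
    obtain ⟨r, hr, hrd⟩ := Nat.exists_prime_and_dvd hne
    have := Fact.mk hr
    by_cases hrH : r ∣ Nat.card H
    · obtain ⟨S, hS⟩ := hsyl r hrH default
      exact S.not_dvd_index (hrd.trans (Subgroup.index_dvd_of_le
        ((hS ▸ Subgroup.map_subtype_le _ : (S : Subgroup G) ≤ H).trans le_sup_right)))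
    · let S : Sylow r G := default
      refine S.not_dvd_index (hrd.trans (Subgroup.index_dvd_of_le (le_trans ?_ le_sup_left)))
      refine le_iInf₂ fun p hp => Cfsg.Lib.Trans.le_pResidual_of_coprime ?_
      obtain ⟨k, hk⟩ := S.isPGroup'.exists_card_eq
      rw [hk]
      refine Nat.Coprime.pow_left _ ((Nat.coprime_primes hr (Nat.prime_of_mem_primeFactors hp)).2 ?_)
      rintro rfl
      exact hrH (Nat.dvd_of_mem_primeFactors hp)
  · apply Subgroup.disjoint_of_coprime_natCard
    apply Nat.coprime_of_dvd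
    intro p hp hpN hpH
    have := Fact.mk hp
    refine Cfsg.Lib.Trans.hasNormalPComplement_iff_not_dvd.1 (hcompl p hpH)
      (hpN.trans (Subgroup.card_dvd_of_le ?_))
    exact iInf₂_le p (Nat.mem_primeFactors.2 ⟨hp, hpH, Nat.card_pos.ne'⟩)

end Cfsg.Agent.S0558
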