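import Cfsg.Statements.S0563
import Cfsg.Agent.Solv.KegelWielandtB

set_option autoImplicit false
open Pointwise
open Cfsg

namespace Cfsg.Agent.S0563

open Cfsg.Lib.Solv Cfsg.Lib.Solv.KW Subgroup in
theorem coprime_syl {G : Type*} [Group G] [Finite G] {A B : Subgroup G} (hA : Group.IsNilpotent A)
    (hcop : (Nat.card A).Coprime (Nat.card B)) (hAB : ∀ g : G, ∃ a ∈ A, ∃ b ∈ B, g = a * b)
    (p : ℕ) [hp : Fact p.Prime] : (Nat.card (syl p A)).Coprime (syl p A).index := by
  have h1 := card_mul_card_inf_of_forall_mul hAB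
  rw [inf_eq_bot_of_coprime_card hcop, card_bot, mul_one, ← A.card_mul_index] at h1
  rw [← relIndex_mul_index (syl_le p A), Nat.eq_of_mul_eq_mul_left Nat.card_pos h1]
  refine Nat.Coprime.mul_right ?_ (hcop.coprime_dvd_left (card_dvd_of_le (syl_le p A)))
  exact coprime_card_of_isPGroup (isPGroup_map_pCore p A)
    ((hp.out.coprime_iff_not_dvd).mpr (not_dvd_relIndex_syl hA)).symm


/-- If a finite group G is the product AB of two nilpotent subgroups of coprime orders, then G is solvable, and for every Sylow p-subgroup P of A and Sylow q-subgroup Q of B the product set PQ is a subgroup. -/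
theorem result {G : Type*} [Group G] [Finite G] (A B : Subgroup G) (hA : Group.IsNilpotent A) (hB : Group.IsNilpotent B) (hcop : (Nat.card A).Coprime (Nat.card B)) (hAB : ∀ g : G, ∃ a ∈ A, ∃ b ∈ B, g = a * b) : Group.IsSolvable G ∧ ∀ (p q : ℕ) [Fact p.Prime] [Fact q.Prime] (P : Sylow p A) (Q : Sylow q B), ∃ S : Subgroup G, (S : Set G) = (((P : Subgroup A).map A.subtype : Subgroup G) : Set G) * (((Q : Subgroup B).map B.subtype : Subgroup G) : Set G) := by
  have hs := Cfsg.Lib.Solv.KW.kegel_wielandt hA hB hAB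
  refine ⟨hs, fun p q _ _ P Q => ?_⟩
  rw [← Cfsg.Lib.Solv.pCore_eq_sylow_of_isNilpotent P, ← Cfsg.Lib.Solv.pCore_eq_sylow_of_isNilpotent Q]
  exact Cfsg.Agent.S0561.exists_coe_eq_mul hAB (Cfsg.Lib.Solv.KW.le_normalizer_syl p A)
    (Cfsg.Lib.Solv.KW.le_normalizer_syl q B) (coprime_syl hA hcop hAB p)
    (coprime_syl hB hcop.symm (Cfsg.Lib.Solv.forall_mul_symm hAB) q)

end Cfsg.Agent.S0563
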