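import Cfsg.Statements.S0565
import Cfsg.Agent.Solv.KegelWielandtB
import Cfsg.Agent.Solv.CardModEq

set_option autoImplicit false
open Cfsg

namespace Cfsg.Agent.S0565

open Cfsg.Lib.Solv Cfsg.Lib.Solv.KW Subgroup

universe u

theorem aux (n : ℕ) : ∀ (G : Type u) [Group G] [Finite G] (A B : Subgroup G), Nat.card G = n →
    Group.IsNilpotent A → Group.IsNilpotent B → (∀ g : G, ∃ a ∈ A, ∃ b ∈ B, g = a * b) →
    (A ≠ ⊤ ∨ B ≠ ⊤) → ∃ N : Subgroup G, N.Normal ∧ N ≠ ⊤ ∧ (A ≤ N ∨ B ≤ N) := by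
  induction n using Nat.strong_induction_on with
  | _ n ih =>
  intro G _ _ A B hn hA hB hAB hne
  by_contra hcon
  have hq : ∀ (N : Subgroup G) [N.Normal], N ≠ ⊥ → N ⊔ A = ⊤ ∧ N ⊔ B = ⊤ := fun N _ hN => by
    by_contra h1
    have h2 : ∀ X : Subgroup G, X.map (QuotientGroup.mk' N) = ⊤ → N ⊔ X = ⊤ := fun X hX => by
      have h3 := congrArg (comap (QuotientGroup.mk' N)) hX
      rwa [comap_map_eq, QuotientGroup.ker_mk', comap_top, sup_comm] at h3
    obtain ⟨M, hM, hMt, hle⟩ := ih _ (hn ▸ card_quotient_lt_of_ne_bot N hN) _ _ _ rfl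
      (isNilpotent_map _ _ hA) (isNilpotent_map _ _ hB)
      (forall_mul_map _ (QuotientGroup.mk'_surjective N) hAB)
      (by by_contra h3; push Not at h3; exact h1 ⟨h2 A h3.1, h2 B h3.2⟩)
    refine hcon ⟨M.comap (QuotientGroup.mk' N), inferInstance, fun h3 => hMt ?_,
      hle.imp map_le_iff_le_comap.mp map_le_iff_le_comap.mp⟩
    rw [← map_comap_eq_self_of_surjective (QuotientGroup.mk'_surjective N) M, h3,
      map_top_of_surjective _ (QuotientGroup.mk'_surjective N)]
  have hnil : ∀ X Y : Subgroup G, Group.IsNilpotent X → X = ⊤ → Y ≠ ⊤ →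
      ∃ N : Subgroup G, N.Normal ∧ N ≠ ⊤ ∧ Y ≤ N := by
    rintro _ Y hX rfl hY
    have : Group.IsNilpotent G := Group.nilpotent_of_surjective (⊤ : Subgroup G).subtype
      (fun x => ⟨⟨x, trivial⟩, rfl⟩)
    obtain ⟨M, hM, hYM⟩ := (eq_top_or_exists_le_coatom Y).resolve_left hY
    exact ⟨M, NormalizerCondition.normal_of_coatom M normalizerCondition_of_isNilpotent hM,
      hM.1, hYM⟩
  have hAt : A ≠ ⊤ := fun h => by
    obtain ⟨N, h1, h2, h3⟩ := hnil A B hA h (hne.resolve_left (not_not.mpr h))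
    exact hcon ⟨N, h1, h2, Or.inr h3⟩
  have hBt : B ≠ ⊤ := fun h => by
    obtain ⟨N, h1, h2, h3⟩ := hnil B A hB h hAt
    exact hcon ⟨N, h1, h2, Or.inl h3⟩
  have := kegel_wielandt hA hB hAB
  have : Nontrivial G := by
    by_contra h0
    rw [not_nontrivial_iff_subsingleton] at h0
    exact hAt (Subsingleton.elim _ _)
  obtain ⟨p, N, hp, hN0, hNc, hN, hNa⟩ := SZ.exists_characteristic_pgroup (G := G)
  have := Fact.mk hp
  have hpN : p ∣ Nat.card N := hN.card_eq_or_dvd.resolve_left fun h => hN0 (card_eq_one.mp h)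
  have key : ∀ X : Subgroup G, Group.IsNilpotent X → X ≠ ⊤ →
      (∀ (N : Subgroup G) [N.Normal], N ≠ ⊥ → N ⊔ X = ⊤) → ¬ p ∣ Nat.card X := by
    intro X hX hXt h hd
    have h1 := inf_centralizer_ne_bot_of_dvd_card (isPGroup_map_pCore p X)
      (le_normalizer_of_normal (H := N)) hpN
    have h2 : (N ⊓ centralizer (syl p X : Set G)).Normal := by
      rw [← normalizer_eq_top_iff, eq_top_iff, ← h N hN0]
      refine sup_le (le_trans ?_ (centralizer_le_normalizer _))
        (le_normalizer_inf_centralizer le_normalizer_of_normal (le_normalizer_syl p X))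
      exact fun x hx y hy => PG.mul_comm_of_mem hy.1 hx
    have h3 : (syl p X).Normal := by
      rw [← normalizer_eq_top_iff, eq_top_iff, ← h _ h1]
      exact sup_le (inf_le_right.trans (centralizer_le_normalizer _)) (le_normalizer_syl p X)
    have h4 := h _ (syl_ne_bot hX hp hd)
    rw [sup_eq_right.mpr (syl_le p X)] at h4
    exact hXt h4
  have h1 := (hpN.trans (card_subgroup_dvd_card N)).mul_right (Nat.card (A ⊓ B : Subgroup G))
  rw [card_mul_card_inf_of_forall_mul hAB] at h1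
  exact ((Nat.Prime.dvd_mul hp).mp h1).elim (key A hA hAt fun N _ h => (hq N h).1)
    (key B hB hBt fun N _ h => (hq N h).2)


/-- Let the finite group G be the product AB of nilpotent subgroups A and B, not both equal to G. Then there is a proper normal subgroup of G containing A or containing B. -/
theorem result {G : Type*} [Group G] [Finite G] (A B : Subgroup G) (hA : Group.IsNilpotent A) (hB : Group.IsNilpotent B) (hAB : ∀ g : G, ∃ a ∈ A, ∃ b ∈ B, g = a * b) (hproper : A ≠ ⊤ ∨ B ≠ ⊤) : ∃ N : Subgroup G, N.Normal ∧ N ≠ ⊤ ∧ (A ≤ N ∨ B ≤ N) := by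
  exact aux _ G A B rfl hA hB hAB hproper

end Cfsg.Agent.S0565
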