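import Cfsg.Statements.S0566
import Cfsg.Agent.Solv.Factor

set_option autoImplicit false
open Pointwise
open Cfsg

namespace Cfsg.Agent.S0566


/-- Let A and B be nontrivial subgroups of a finite group G such that for every x the product set of A and xBx⁻¹ is a proper subgroup of G. Then there is a proper normal subgroup of G containing A or containing B. -/
theorem result {G : Type*} [Group G] [Finite G] (A B : Subgroup G) (hA : A ≠ ⊥) (hB : B ≠ ⊥) (h : ∀ x : G, ∃ S : Subgroup G, S ≠ ⊤ ∧ (S : Set G) = (A : Set G) * ((MulAut.conj x • B : Subgroup G) : Set G)) : ∃ N : Subgroup G, N.Normal ∧ N ≠ ⊤ ∧ (A ≤ N ∨ B ≤ N) := by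
  by_contra hcon
  push Not at hcon
  have h1 : Subgroup.normalClosure (A : Set G) = ⊤ := by
    by_contra h1
    exact (hcon _ inferInstance h1).1 Subgroup.le_normalClosure
  have h2 : Subgroup.normalClosure (B : Set G) = ⊤ := by
    by_contra h2
    exact (hcon _ inferInstance h2).2 Subgroup.le_normalClosure
  have key := Cfsg.Lib.Solv.kegel_forall_mul_of_permutable A B
    (fun x => (h x).imp fun S hS => hS.2) (by rw [h1, top_sup_eq]) (by rw [h2, sup_top_eq])
  obtain ⟨S, hS, hS'⟩ := h 1
  rw [Cfsg.Lib.Solv.conj_one_smul, ← Cfsg.Lib.Solv.forall_mul_iff_coe_top.mp key] at hS'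
  exact hS (SetLike.coe_injective hS')

end Cfsg.Agent.S0566
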