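import Cfsg.Statements.S0568
import Cfsg.Agent.Solv.SystemNormalizer

set_option autoImplicit false
open Cfsg Cfsg.Lib.Solv

namespace Cfsg.Agent.S0568

/-- Let D be the system normalizer of a Hall complement system of a finite solvable group G, and let A < B be normal subgroups with no normal subgroup of G strictly between them (a chief factor). If G centralizes B modulo A then B ≤ A ⊔ D (D covers the factor); otherwise B ∩ D ≤ A (D avoids it). -/
theorem result {G : Type*} [Group G] [Finite G] [Group.IsSolvable G] (K : Nat.Primes → Subgroup G) (hK : Cfsg.IsComplementSystem K) (A B : Subgroup G) [A.Normal] [B.Normal] (hAB : A < B) (hchief : ∀ N : Subgroup G, N.Normal → A ≤ N → N ≤ B → N = A ∨ N = B) : (⁅B, (⊤ : Subgroup G)⁆ ≤ A → B ≤ A ⊔ Cfsg.systemNormalizer K) ∧ (¬ ⁅B, (⊤ : Subgroup G)⁆ ≤ A → B ⊓ Cfsg.systemNormalizer K ≤ A) := by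
  have hsurj := QuotientGroup.mk'_surjective A
  have hmap := hK.map_systemNormalizer hsurj
  constructor
  · intro h
    rw [← map_mk'_le_center_iff] at h
    have h1 := h.trans (center_le_systemNormalizer fun p => (K p).map (QuotientGroup.mk' A))
    rwa [hmap, Subgroup.map_le_iff_le_comap, Subgroup.comap_map_eq, QuotientGroup.ker_mk',
      sup_comm] at h1
  · intro h
    rw [← map_mk'_le_center_iff] at h
    have h1 := (hK.map hsurj).inf_systemNormalizer_eq_bot (isMinNormal_map_mk' hAB hchief) h
    rw [hmap] at h1
    have h2 := (Subgroup.map_inf_le B (systemNormalizer K) (QuotientGroup.mk' A)).trans h1.le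
    rwa [le_bot_iff, Subgroup.map_eq_bot_iff, QuotientGroup.ker_mk'] at h2

end Cfsg.Agent.S0568
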