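import Cfsg.Statements.S0569
import Cfsg.Agent.Solv.SystemNormalizer

set_option autoImplicit false
open Cfsg Cfsg.Lib.Solv

namespace Cfsg.Agent.S0569

/-- In a finite solvable group: each nilpotent self-normalizing subgroup contains the system normalizer of some Hall complement system, and the system normalizer of any Hall complement system lies in some nilpotent self-normalizing subgroup. -/
theorem result {G : Type*} [Group G] [Finite G] [Group.IsSolvable G] : (∀ C : Subgroup G, Cfsg.IsCarterSubgroup C → ∃ K : Nat.Primes → Subgroup G, Cfsg.IsComplementSystem K ∧ Cfsg.systemNormalizer K ≤ C) ∧ ∀ K : Nat.Primes → Subgroup G, Cfsg.IsComplementSystem K → ∃ C : Subgroup G, Cfsg.IsCarterSubgroup C ∧ Cfsg.systemNormalizer K ≤ C := by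
  have h1 : ∀ C : Subgroup G, Cfsg.IsCarterSubgroup C → ∃ K : Nat.Primes → Subgroup G,
      Cfsg.IsComplementSystem K ∧ Cfsg.systemNormalizer K ≤ C := by
    intro C hC
    obtain ⟨K, hK, hred⟩ := exists_isComplementSystem_reduces C
    exact ⟨K, hK, systemNormalizer_le_carter G inferInstance C hC K hK hred⟩
  refine ⟨h1, fun K hK => ?_⟩
  obtain ⟨C, hC⟩ := Carter.exists_carter G
  obtain ⟨L, hL, hLC⟩ := h1 C hC
  obtain ⟨g, hg⟩ := hL.exists_conj hK
  refine ⟨_, Carter.IsCarter.conj hC g, ?_⟩
  rw [← funext hg, systemNormalizer_conj]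
  exact conj_smul_mono g hLC

end Cfsg.Agent.S0569
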