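import Cfsg.Statements.S0573
import Cfsg.Agent.Solv.Factor
import Cfsg.Agent.S0047

set_option autoImplicit false
open Cfsg

namespace Cfsg.Agent.S0573

open Cfsg.Lib.Solv
open scoped commutatorElement

/-- With no nontrivial normal subgroup inside `A` or `B`, the centre is trivial. -/
theorem center_triv {G : Type*} [Group G] (A B : Subgroup G) [IsMulCommutative A]
    [IsMulCommutative B] (hAB : ∀ g : G, ∃ a ∈ A, ∃ b ∈ B, g = a * b)
    (hno : ∀ N : Subgroup G, N.Normal → N ≤ A ∨ N ≤ B → N = ⊥) {b : G} (hb : b ∈ B)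
    (hc : ∀ a ∈ A, a * b = b * a) : b = 1 := by
  have hz : ∀ g : G, g * b = b * g := by
    intro g
    obtain ⟨a, ha, b', hb', rfl⟩ := hAB g
    rw [mul_assoc, setLike_mul_comm hb' hb, ← mul_assoc, hc a ha, mul_assoc]
  have hn : (Subgroup.zpowers b).Normal := by
    constructor
    rintro _ ⟨n, rfl⟩ g
    have : Commute g (b ^ n) := Commute.zpow_right (hz g) n
    simp only
    rw [this.eq, mul_inv_cancel_right]
    exact ⟨n, rfl⟩
  have := hno _ hn (Or.inr (by simpa using hb))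
  simpa using this

theorem cent_triv {G : Type*} [Group G] (A B : Subgroup G) [IsMulCommutative A]
    [IsMulCommutative B] (hAB : ∀ g : G, ∃ a ∈ A, ∃ b ∈ B, g = a * b)
    (hno : ∀ N : Subgroup G, N.Normal → N ≤ A ∨ N ≤ B → N = ⊥) {a : G} (ha : a ∈ A)
    (hc : ∀ d ∈ commutator G, d * a = a * d) : a = 1 := by
  have hconj : ∀ g : G, g * a * g⁻¹ ∈ A := by
    intro g
    obtain ⟨a', ha', b', hb', e⟩ := hAB (g * a * g⁻¹)
    have hcomm : ∀ x ∈ A, x * (g * a * g⁻¹) = (g * a * g⁻¹) * x := by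
      intro x hx
      have h1 : ⁅g⁻¹, x⁆ ∈ commutator G :=
        Subgroup.commutator_mem_commutator (Subgroup.mem_top _) (Subgroup.mem_top _)
      have h2 := hc _ h1
      have h3 : x * a = a * x := setLike_mul_comm hx ha
      rw [commutatorElement_def] at h2
      calc x * (g * a * g⁻¹) = g * (g⁻¹ * x * g⁻¹⁻¹ * x⁻¹ * (x * a)) * g⁻¹ := by group
        _ = g * ((g⁻¹ * x * g⁻¹⁻¹ * x⁻¹ * a) * x) * g⁻¹ := by rw [h3]; group
        _ = _ := by rw [h2]; group
    have hb1 : b' = 1 := by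
      apply center_triv A B hAB hno hb'
      intro x hx
      have h1 : b' = a'⁻¹ * (g * a * g⁻¹) := by rw [e]; group
      rw [h1, ← mul_assoc, setLike_mul_comm hx (A.inv_mem ha'), mul_assoc, hcomm x hx]
      group
    rw [e, hb1, mul_one]; exact ha'
  have hle : Subgroup.normalClosure {a} ≤ A := by
    rw [Subgroup.normalClosure, Subgroup.closure_le]
    intro y hy
    obtain ⟨b, hb, hby⟩ := Group.mem_conjugatesOfSet_iff.mp hy
    obtain ⟨c, rfl⟩ := isConj_iff.mp hby
    rw [Set.mem_singleton_iff.mp hb]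
    exact hconj c
  have := hno _ inferInstance (Or.inl hle)
  have h2 : a ∈ Subgroup.normalClosure {a} := Subgroup.subset_normalClosure rfl
  rwa [this, Subgroup.mem_bot] at h2

/-- If a nontrivial finite group G is the product AB of abelian subgroups A and B, then some nontrivial normal subgroup of G is contained in A or in B. -/
theorem result {G : Type*} [Group G] [Finite G] [Nontrivial G] (A B : Subgroup G) [IsMulCommutative A] [IsMulCommutative B] (hAB : ∀ g : G, ∃ a ∈ A, ∃ b ∈ B, g = a * b) : ∃ N : Subgroup G, N.Normal ∧ N ≠ ⊥ ∧ (N ≤ A ∨ N ≤ B) := by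
  by_contra hcon
  have hno : ∀ N : Subgroup G, N.Normal → N ≤ A ∨ N ≤ B → N = ⊥ := by
    intro N hN h
    by_contra h0
    exact hcon ⟨N, hN, h0, h⟩
  have hno' : ∀ N : Subgroup G, N.Normal → N ≤ B ∨ N ≤ A → N = ⊥ :=
    fun N hN h => hno N hN h.symm
  have hBA := forall_mul_symm hAB
  have hito := Cfsg.Agent.S0047.ito A B hAB
  have hD : ∀ x ∈ commutator G, ∀ y ∈ commutator G, x * y = y * x := by
    intro x hx y hy
    have : ⁅x, y⁆ ∈ derivedSeries G 2 := Subgroup.commutator_mem_commutator hx hy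
    rw [hito, Subgroup.mem_bot, commutatorElement_eq_one_iff_mul_comm] at this
    exact this
  have hDn : (commutator G).Normal := inferInstance
  choose φ hφ ψ hψ hφψ using hAB
  -- the symmetric identity
  have sym : ∀ x ∈ commutator G, ∀ y ∈ commutator G, ⁅φ x, y⁆ = ⁅φ y, x⁆ := by
    intro x hx y hy
    have h1 : ψ x * ψ y = ψ y * ψ x := setLike_mul_comm (hψ x) (hψ y)
    have h2 : φ x * φ y = φ y * φ x := setLike_mul_comm (hφ x) (hφ y)
    have hx' : ψ x = (φ x)⁻¹ * x := by rw [eq_inv_mul_iff_mul_eq, ← hφψ]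
    have hy' : ψ y = (φ y)⁻¹ * y := by rw [eq_inv_mul_iff_mul_eq, ← hφψ]
    rw [hx', hy'] at h1
    generalize φ x = a at *
    generalize φ y = a' at *
    have h3 : a' * x * a'⁻¹ * y = a * y * a⁻¹ * x := by
      calc a' * x * a'⁻¹ * y = (a' * a) * (a⁻¹ * x * (a'⁻¹ * y)) := by group
        _ = (a * a') * (a'⁻¹ * y * (a⁻¹ * x)) := by rw [h1, h2]
        _ = _ := by group
    have h4 := hD x hx y hy
    simp only [commutatorElement_def]
    calc a * y * a⁻¹ * y⁻¹ = (a * y * a⁻¹ * x) * (y * x)⁻¹ := by group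
      _ = (a' * x * a'⁻¹ * y) * (x * y)⁻¹ := by rw [h3, h4]
      _ = _ := by group
  have hmem : ∀ a : G, ∀ d ∈ commutator G, ⁅a, d⁆ ∈ commutator G := fun a d _ =>
    Subgroup.commutator_mem_commutator (Subgroup.mem_top _) (Subgroup.mem_top _)
  have hinv : ∀ a : G, ∀ d ∈ commutator G, ⁅a, d⁻¹⁆ = ⁅a, d⁆⁻¹ := by
    intro a d hd
    have := hD _ (hDn.conj_mem d hd a) d hd
    simp only [commutatorElement_def]
    calc a * d⁻¹ * a⁻¹ * d⁻¹⁻¹ = (a * d * a⁻¹)⁻¹ * (d * (a * d * a⁻¹)) * (a * d * a⁻¹)⁻¹ := by group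
      _ = _ := by rw [← this]; group
  have hswap : ∀ a ∈ A, ∀ a' ∈ A, ∀ d ∈ commutator G, ⁅a, ⁅a', d⁆⁆ = ⁅a', ⁅a, d⁆⁆ := by
    intro a ha a' ha' d hd
    have h2 : a * a' = a' * a := setLike_mul_comm ha ha'
    have h3 := hD _ (hDn.conj_mem d hd a) _ (hDn.conj_mem d hd a')
    have h4 := hD _ (hDn.conj_mem d hd a) d hd
    have h5 := hD _ (hDn.conj_mem d hd a') d hd
    simp only [commutatorElement_def]
    calc a * (a' * d * a'⁻¹ * d⁻¹) * a⁻¹ * (a' * d * a'⁻¹ * d⁻¹)⁻¹
        = (a * a') * d * (a * a')⁻¹ * ((a * d * a⁻¹)⁻¹ * d * (a' * d * a'⁻¹)⁻¹) := by group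
      _ = (a' * a) * d * (a' * a)⁻¹ * ((a' * d * a'⁻¹)⁻¹ * d * (a * d * a⁻¹)⁻¹) := by
        rw [h2]
        congr 1
        generalize a * d * a⁻¹ = u at *
        generalize a' * d * a'⁻¹ = v at *
        have c1 : Commute u d := h4
        have c2 : Commute v d := h5
        have c3 : Commute u v := h3
        rw [c1.inv_left.eq, c2.inv_left.eq, mul_assoc, mul_assoc, c3.inv_inv.eq]
      _ = _ := by group
  let S : G → Set G := fun x => (fun d => ⁅φ x, d⁆) '' (commutator G)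
  have hne : ∃ x, x ∈ commutator G ∧ x ≠ 1 := by
    by_contra h
    push Not at h
    obtain ⟨g, hg⟩ := exists_ne (1 : G)
    have h1 : φ g = 1 := cent_triv A B (fun g => ⟨φ g, hφ g, ψ g, hψ g, hφψ g⟩) hno (hφ g)
      (fun d hd => by rw [h d hd]; simp)
    have h2 : ψ g = 1 := cent_triv B A hBA hno' (hψ g) (fun d hd => by rw [h d hd]; simp)
    apply hg
    rw [hφψ g, h1, h2, mul_one]
  obtain ⟨x, ⟨hx, hx1⟩, hmin⟩ := (wellFounded_lt (α := ℕ)).onFun (f := fun x => (S x).ncard)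
    |>.has_min {x | x ∈ commutator G ∧ x ≠ 1} hne
  have hcent : ∀ d ∈ commutator G, ⁅φ x, d⁆ = 1 := by
    intro d hd
    by_contra hy1
    set y := ⁅φ x, d⁆ with hy
    have hyD : y ∈ commutator G := hmem _ d hd
    have hsub : S y ⊆ S x := by
      rintro _ ⟨e, he, rfl⟩
      refine ⟨⁅φ e, d⁆, hmem _ d hd, ?_⟩
      simp only
      rw [sym y hyD e he, hy, hswap _ (hφ x) _ (hφ e) d hd]
    have heq : S y = S x := Set.eq_of_subset_of_ncard_le hsub
      (not_lt.mp (hmin y ⟨hyD, hy1⟩)) (Set.toFinite _)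
    have : y⁻¹ ∈ S y := heq ▸ ⟨d⁻¹, Subgroup.inv_mem _ hd, hinv _ d hd⟩
    obtain ⟨e, he, h⟩ := this
    simp only at h
    rw [sym y hyD e he, commutatorElement_def, mul_eq_right] at h
    apply hy1
    simpa using h
  have h1 : φ x = 1 := cent_triv A B (fun g => ⟨φ g, hφ g, ψ g, hψ g, hφψ g⟩) hno (hφ x)
    (fun d hd => (commutatorElement_eq_one_iff_mul_comm.mp (hcent d hd)).symm)
  have h2 : x ∈ B := by rw [hφψ x, h1, one_mul]; exact hψ x
  exact hx1 (cent_triv B A hBA hno' h2 (fun d hd => hD d hd x hx))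

end Cfsg.Agent.S0573
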