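import Cfsg.Statements.S0571
import Cfsg.Agent.Solv.SupersolvableFinite
import Cfsg.Agent.S0573

set_option autoImplicit false
open Cfsg

namespace Cfsg.Agent.S0571

open Cfsg.Lib.Solv Subgroup

/-- If a finite group G is the product AB of two cyclic subgroups (every element is a product ab), then G is supersolvable. -/
theorem result {G : Type*} [Group G] [Finite G] (A B : Subgroup G) [IsCyclic A] [IsCyclic B] (hAB : ∀ g : G, ∃ a ∈ A, ∃ b ∈ B, g = a * b) : Cfsg.IsSupersolvable G := by
  refine isSupersolvable_of_quotient_closed (C := fun G _ => ∃ A B : Subgroup G, IsCyclic A ∧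
    IsCyclic B ∧ ∀ g : G, ∃ a ∈ A, ∃ b ∈ B, g = a * b) ?_ ?_ G ⟨A, B, ‹_›, ‹_›, hAB⟩
  · rintro G _ _ N _ ⟨A, B, hA, hB, h⟩
    refine ⟨A.map (QuotientGroup.mk' N), B.map (QuotientGroup.mk' N),
      isCyclic_of_surjective _ ((QuotientGroup.mk' N).subgroupMap_surjective A),
      isCyclic_of_surjective _ ((QuotientGroup.mk' N).subgroupMap_surjective B), fun g => ?_⟩
    obtain ⟨g, rfl⟩ := QuotientGroup.mk'_surjective N g
    obtain ⟨a, ha, b, hb, rfl⟩ := h g
    exact ⟨_, mem_map_of_mem _ ha, _, mem_map_of_mem _ hb, map_mul _ a b⟩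
  · rintro G _ _ _ ⟨A, B, hA, hB, h⟩ _
    obtain ⟨N, hN, hne, hle⟩ := Cfsg.Agent.S0573.result A B h
    refine ⟨N, hN, hne, ?_⟩
    rcases hle with hle | hle
    · exact isCyclic_of_injective _ (inclusion_injective hle)
    · exact isCyclic_of_injective _ (inclusion_injective hle)

end Cfsg.Agent.S0571
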