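import Cfsg.Statements.S0574
import Cfsg.Agent.Solv.KegelWielandtB
import Cfsg.Agent.S0047

set_option autoImplicit false
open Cfsg

namespace Cfsg.Agent.S0574

open Cfsg.Lib.Solv Cfsg.Lib.Solv.KW Subgroup Pointwise

universe u

theorem map_le_centralizer {G G' : Type*} [Group G] [Group G'] (f : G →* G') {B : Subgroup G}
    (hB : ⁅B, B⁆ ≤ centralizer (B : Set G)) :
    ⁅B.map f, B.map f⁆ ≤ centralizer (B.map f : Set G') := by
  rw [← commutator_eq_bot_iff_le_centralizer] at hB ⊢
  rw [← map_commutator, ← map_commutator, hB, Subgroup.map_bot]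

theorem crit (n : ℕ) : ∀ (G : Type u) [Group G] [Finite G] [Group.IsSolvable G] (A B : Subgroup G)
    [IsMulCommutative A], Nat.card G = n → ⁅B, B⁆ ≤ centralizer (B : Set G) →
    (∀ z ∈ ⁅B, B⁆, z ≠ 1 → A ⊔ zpowers z = ⊤) → ⁅B, B⁆ = ⊥ := by
  induction n using Nat.strong_induction_on with
  | _ n ih =>
  intro G _ _ _ A B _ hn hB h
  by_contra hne
  obtain ⟨⟨z, hz⟩, hz1⟩ := ne_bot_iff_exists_ne_one.mp hne
  replace hz1 : z ≠ 1 := fun h1 => hz1 (Subtype.ext h1)
  have : Nontrivial G := ⟨z, 1, hz1⟩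
  obtain ⟨p, N, -, hN0, hNc, -, hNa⟩ := SZ.exists_characteristic_pgroup (G := G)
  have h1 := ih _ (hn ▸ card_quotient_lt_of_ne_bot N hN0) (G ⧸ N) (A.map (QuotientGroup.mk' N))
    (B.map (QuotientGroup.mk' N)) rfl (map_le_centralizer _ hB) (fun y hy hy1 => by
      rw [← map_commutator] at hy
      obtain ⟨x, hx, rfl⟩ := hy
      rw [← MonoidHom.map_zpowers, ← Subgroup.map_sup, h x hx (fun e => hy1 (by rw [e, map_one])),
        map_top_of_surjective _ (QuotientGroup.mk'_surjective N)])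
  rw [← map_commutator, Subgroup.map_eq_bot_iff, QuotientGroup.ker_mk'] at h1
  have h2 : A ⊔ N = ⊤ := eq_top_iff.mpr ((h z hz hz1).ge.trans
    (sup_le_sup_left (zpowers_le.mpr (h1 hz)) A))
  have key : ∀ b ∈ B, ∃ a ∈ center G, ∃ m ∈ N, a * m = b := by
    intro b hb
    obtain ⟨a, ha, m, hm, rfl⟩ := (mem_sup_of_le_normalizer' le_normalizer_of_normal).mp
      (show b ∈ A ⊔ N from h2 ▸ mem_top b)
    refine ⟨a, ?_, m, hm, rfl⟩
    have h3 : A ⊔ zpowers z ≤ centralizer {a} := by
      refine sup_le (fun x hx => mem_centralizer_singleton_iff.mpr (PG.mul_comm_of_mem hx ha))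
        (zpowers_le.mpr (mem_centralizer_singleton_iff.mpr ?_))
      have h4 := hB hz _ hb
      rw [mul_assoc, PG.mul_comm_of_mem hm (h1 hz), ← mul_assoc, ← mul_assoc] at h4
      exact (mul_right_cancel h4).symm
    rw [h z hz hz1] at h3
    exact mem_center_iff.mpr fun g => mem_centralizer_singleton_iff.mp (h3 (mem_top g))
  apply hne
  rw [commutator_eq_bot_iff_le_centralizer]
  intro b hb c hc
  obtain ⟨a, ha, m, hm, rfl⟩ := key b hb
  obtain ⟨a', ha', m', hm', rfl⟩ := key c hc
  have e1 := mem_center_iff.mp ha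
  have e2 := mem_center_iff.mp ha'
  calc a' * m' * (a * m) = a' * (m' * a) * m := by group
    _ = a' * a * (m' * m) := by rw [e1 m']; group
    _ = a * a' * (m * m') := by rw [e1 a', PG.mul_comm_of_mem hm' hm]
    _ = a * (a' * m) * m' := by group
    _ = a * m * (a' * m') := by rw [← e2 m]; group

theorem isNilpotent_of_class_two {G : Type*} [Group G] {B : Subgroup G}
    (hB : ⁅B, B⁆ ≤ centralizer (B : Set G)) : Group.IsNilpotent B := by
  exact (isNilpotent_iff_lowerCentralSeries B).mpr ⟨2, commutator_eq_bot_iff_le_centralizer.mpr hB⟩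

theorem length_lt {a b : ℕ} (hb : b ≠ 0) (h : a ∣ b) (hne : a ≠ b) :
    a.primeFactorsList.length + 1 ≤ b.primeFactorsList.length := by
  obtain ⟨c, rfl⟩ := h
  have ha : a ≠ 0 := left_ne_zero_of_mul hb
  have hc : c ≠ 0 := right_ne_zero_of_mul hb
  rw [(Nat.perm_primeFactorsList_mul ha hc).length_eq, List.length_append]
  have : c.primeFactorsList ≠ [] := by
    rw [Ne, Nat.primeFactorsList_eq_nil]
    rintro (h | rfl)
    · exact hc h
    · exact hne (mul_one a).symm
  have := List.length_pos_of_ne_nil this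
  omega

theorem aux (n : ℕ) : ∀ (G : Type u) [Group G] [Finite G] (A B : Subgroup G)
    [IsMulCommutative A], Nat.card G = n → ⁅B, B⁆ ≤ centralizer (B : Set G) →
    (∀ g : G, ∃ a ∈ A, ∃ b ∈ B, g = a * b) →
    derivedSeries G (2 * (1 + (Nat.card (⁅B, B⁆ : Subgroup G)).primeFactorsList.length)) = ⊥ := by
  classical
  induction n using Nat.strong_induction_on with
  | _ n ih =>
  intro G _ _ A B _ hn hB hAB
  have hcomm : ∀ {H : Type u} [Group H] (X : Subgroup H), ⁅X, X⁆ = ⊥ → IsMulCommutative X :=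
    fun X hX => PG.isMulCommutative_of_forall fun x hx y hy =>
      commutator_eq_bot_iff_le_centralizer.mp hX hy x hx
  by_cases h0 : ⁅B, B⁆ = ⊥
  · have := hcomm B h0
    simpa [h0] using Cfsg.Agent.S0047.ito A B hAB
  obtain ⟨⟨z0, hz0⟩, hz1⟩ := ne_bot_iff_exists_ne_one.mp h0
  obtain ⟨z, ⟨hz, hz1⟩, hmin⟩ := Set.exists_min_image {z : G | z ∈ ⁅B, B⁆ ∧ z ≠ 1}
    (fun z => Nat.card (A ⊔ zpowers z : Subgroup G)) (Set.toFinite _)
    ⟨z0, hz0, fun h1 => hz1 (Subtype.ext h1)⟩
  have := kegel_wielandt (isNilpotent_of_isMulCommutative A) (isNilpotent_of_class_two hB) hAB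
  set H := A ⊔ zpowers z with hH
  have hAH : A ≤ H := le_sup_left
  have hle : (⁅B.subgroupOf H, B.subgroupOf H⁆).map H.subtype ≤ ⁅B, B⁆ := by
    rw [map_commutator, subgroupOf_map_subtype]
    exact commutator_mono inf_le_left inf_le_left
  have h1 := hcomm _ (crit _ H (A.subgroupOf H) (B.subgroupOf H) rfl
    (fun x hx y hy => Subtype.ext (hB (hle (mem_map_of_mem _ hx)) y hy)) (fun y hy hy1 => by
      apply map_injective H.subtype_injective
      rw [Subgroup.map_sup, map_subgroupOf_eq_of_le hAH, MonoidHom.map_zpowers,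
        ← MonoidHom.range_eq_map, range_subtype]
      exact eq_of_le_of_card_ge (sup_le hAH (zpowers_le.mpr y.2))
        (hmin y ⟨hle (mem_map_of_mem _ hy), fun e => hy1 (Subtype.ext e)⟩)))
  have h2 := Cfsg.Agent.S0047.ito (A.subgroupOf H) (B.subgroupOf H) (fun g => by
    obtain ⟨a, ha, b, hb, e⟩ := hAB g
    exact ⟨⟨a, hAH ha⟩, ha, ⟨b, (mul_mem_cancel_left (hAH ha)).mp (e ▸ g.2)⟩, hb, Subtype.ext e⟩)
  set L := normalClosure ({z} : Set G) with hL
  have hzL : z ∈ L := subset_normalClosure rfl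
  have hLH : L ≤ H := by
    rw [hL, normalClosure, closure_le]
    intro y hy
    obtain ⟨c, rfl, hcy⟩ := Group.mem_conjugatesOfSet_iff.mp hy
    obtain ⟨g, rfl⟩ := isConj_iff.mp hcy
    obtain ⟨a, ha, b, hb, rfl⟩ := hAB g
    have e : a * b * c * (a * b)⁻¹ = a * c * a⁻¹ := by rw [mul_assoc a, hB hz b hb]; group
    rw [e]
    exact H.mul_mem (H.mul_mem (hAH ha) (mem_sup_right (mem_zpowers c))) (H.inv_mem (hAH ha))
  have h3 := ih _ (hn ▸ card_quotient_lt_of_ne_bot L fun e => hz1 (by rwa [e] at hzL)) (G ⧸ L)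
    (A.map (QuotientGroup.mk' L)) (B.map (QuotientGroup.mk' L)) rfl (map_le_centralizer _ hB)
    (forall_mul_map _ (QuotientGroup.mk'_surjective L) hAB)
  rw [← map_derivedSeries_eq (QuotientGroup.mk'_surjective L), Subgroup.map_eq_bot_iff,
    QuotientGroup.ker_mk', ← map_commutator] at h3
  have h4 := length_lt Nat.card_pos.ne' (Subgroup.card_map_dvd ⁅B, B⁆ (QuotientGroup.mk' L)) (fun e => by
    have h5 := card_map_mk'_mul_card_inf L ⁅B, B⁆
    rw [e, Nat.mul_eq_left Nat.card_pos.ne', card_eq_one] at h5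
    exact hz1 (mem_bot.mp (h5 ▸ (⟨hzL, hz⟩ : z ∈ L ⊓ ⁅B, B⁆))))
  have h5 : ⁅⁅H, H⁆, ⁅H, H⁆⁆ = ⊥ := by
    have h6 := congrArg (map H.subtype) h2
    simpa only [derivedSeries_succ, derivedSeries_zero, map_commutator, ← MonoidHom.range_eq_map,
      range_subtype, Subgroup.map_bot] using h6
  have h6 := h3.trans hLH
  generalize (Nat.card (map (QuotientGroup.mk' L) ⁅B, B⁆)).primeFactorsList.length = k at h4 h6
  rw [eq_bot_iff, ← h5]
  refine (derivedSeries_antitone G (show 2 * (1 + k) + 1 + 1 ≤ _ by omega)).trans ?_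
  exact commutator_mono (commutator_mono h6 h6) (commutator_mono h6 h6)


/-- Let the finite group G be the product AB of an abelian subgroup A and a subgroup B of nilpotency class at most two, and let Ω be the number of prime factors, with multiplicity, of the order of the commutator subgroup of B. Then the term of index 2(1 + Ω) of the derived series of G is trivial. -/
theorem result {G : Type*} [Group G] [Finite G] (A B : Subgroup G) [IsMulCommutative A] (hB : commutator ↥B ≤ Subgroup.center ↥B) (hAB : ∀ g : G, ∃ a ∈ A, ∃ b ∈ B, g = a * b) : derivedSeries G (2 * (1 + (Nat.card ↥(commutator ↥B)).primeFactorsList.length)) = ⊥ := by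
  have h := aux _ G A B rfl (by
    rw [← Subgroup.map_subtype_commutator]
    exact (map_mono hB).trans (by rw [map_subtype_center]; exact inf_le_right)) hAB
  rwa [← Subgroup.map_subtype_commutator, card_map_subtype] at h

end Cfsg.Agent.S0574
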