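import Cfsg.Statements.S0576
import Cfsg.Agent.Solv.Frattini

set_option autoImplicit false
open Cfsg

namespace Cfsg.Agent.S0576

/-- Let H be a normal subgroup of a finite group G with H contained in the Frattini subgroup of G. Then the group of inner automorphisms of H is contained in the Frattini subgroup of the automorphism group of H. -/
theorem result {G : Type*} [Group G] [Finite G] (H : Subgroup G) [H.Normal] (hH : H ≤ frattini G) : (MulAut.conj : ↥H →* MulAut ↥H).range ≤ frattini (MulAut ↥H) := by
  have hn : (MulAut.conj : ↥H →* MulAut ↥H).range.Normal := by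
    constructor
    rintro _ ⟨h, rfl⟩ α
    refine ⟨α h, ?_⟩
    ext x
    simp
  let φ : G →* MulAut H := MulAut.conjNormal
  apply Cfsg.Lib.Solv.le_frattini_of_normal_of_le_frattini_subgroup (K := (⊤ : Subgroup G).map φ)
  refine le_trans ?_ (Cfsg.Lib.Solv.map_frattini_map_subtype_le ⊤ φ)
  rw [Cfsg.Lib.Solv.map_frattini_top]
  rintro _ ⟨h, rfl⟩
  refine ⟨h, hH h.2, ?_⟩
  ext x
  simp [φ]

end Cfsg.Agent.S0576
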