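import Cfsg.Statements.S0577
import Cfsg.Agent.Solv.Schmidt
import Cfsg.Agent.S0012

set_option autoImplicit false
open Cfsg

namespace Cfsg.Agent.S0577

open Cfsg.Lib.Solv

/-- Let G be a finite minimal non-nilpotent group and Q a normal Sylow q-subgroup of G, and let D be the commutator subgroup of Q regarded in G (a normal subgroup). Then G modulo D is non-abelian and all its proper subgroups are abelian. -/
theorem result {G : Type*} [Group G] [Finite G] (hG : Cfsg.IsMinimalNonNilpotent G) (q : ℕ) [Fact q.Prime] (hq : q ∣ Nat.card G) (Q : Sylow q G) (hQ : (Q : Subgroup G).Normal) (D : Subgroup G) [D.Normal] (hD : D = (commutator ↥(Q : Subgroup G)).map (Q : Subgroup G).subtype) : ¬ IsMulCommutative (G ⧸ D) ∧ ∀ K : Subgroup (G ⧸ D), K ≠ ⊤ → IsMulCommutative K := by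
  obtain ⟨p, r, hp, hr, hpr, P, R, x, hP, hR, htop, hx⟩ := Schmidt.exists_structure hG
  have := Fact.mk hp
  have := Fact.mk hr
  have hqp : q.Prime := Fact.out
  have hprimes : ∀ s : ℕ, s.Prime → s ∣ Nat.card G → s = p ∨ s = r := by
    intro s hs hsG
    by_contra! hne
    obtain ⟨a, ha⟩ := P.isPGroup'.exists_card_eq
    obtain ⟨b, hb⟩ := R.isPGroup'.exists_card_eq
    have h1 := card_sup_dvd_of_le_normalizer (N := (R : Subgroup G)) (H := (P : Subgroup G))
      Subgroup.le_normalizer_of_normal
    rw [sup_comm, htop, Subgroup.card_top, ha, hb] at h1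
    rcases (Nat.Prime.dvd_mul hs).mp (hsG.trans h1) with h | h
    · exact hne.2 ((Nat.prime_dvd_prime_iff_eq hs hr).mp (hs.dvd_of_dvd_pow h))
    · exact hne.1 ((Nat.prime_dvd_prime_iff_eq hs hp).mp (hs.dvd_of_dvd_pow h))
  have hcopPR := IsPGroup.coprime_card_of_ne p r hpr _ _ P.isPGroup' R.isPGroup'
  have hxP : x ∈ (P : Subgroup G) := hP ▸ Subgroup.mem_zpowers x
  rcases hprimes q hqp hq with rfl | rfl
  · exfalso
    have := Sylow.unique_of_normal Q hQ
    have hPQ : P = Q := Subsingleton.elim _ _
    subst hPQ
    apply hx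
    exact le_centralizer_of_disjoint Subgroup.le_normalizer_of_normal
      Subgroup.le_normalizer_of_normal (Subgroup.disjoint_of_coprime_natCard hcopPR).eq_bot hxP
  have := Sylow.unique_of_normal Q hQ
  have hRQ : R = Q := Subsingleton.elim _ _
  subst hRQ
  have hsurj := QuotientGroup.mk'_surjective D
  constructor
  · intro hc
    apply hx
    refine Coprime.le_centralizer_of_commutator_le_frattini (A := (P : Subgroup G))
      Subgroup.le_normalizer_of_normal
      (hcopPR.coprime_dvd_right (Subgroup.card_subgroup_dvd_card _)) ?_ hxP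
    have h1 : commutator G ≤ D := Subgroup.Normal.quotient_commutative_iff_commutator_le.mp hc
    refine (Subgroup.commutator_mono le_top le_top).trans (h1.trans ?_)
    rw [hD]
    exact Subgroup.map_mono (Cfsg.Agent.S0012.result q R.isPGroup').1
  · intro K hK
    have h1 : K.comap (QuotientGroup.mk' D) ≠ ⊤ := by
      intro h
      apply hK
      rw [← Subgroup.map_comap_eq_self_of_surjective hsurj K, h,
        Subgroup.map_top_of_surjective _ hsurj]
    have h2 : Group.IsNilpotent K := by
      rw [← Subgroup.map_comap_eq_self_of_surjective hsurj K]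
      exact isNilpotent_map _ _ (hG.2 _ h1)
    have key : ∀ (s : ℕ) [Fact s.Prime] (S : Sylow s (G ⧸ D)), IsMulCommutative S := by
      intro s hs S
      by_cases hsp : s = p
      · subst hsp
        have h3 : IsCyclic (P.mapSurjective hsurj : Subgroup (G ⧸ D)) := by
          rw [Sylow.coe_mapSurjective, hP, MonoidHom.map_zpowers]
          infer_instance
        have h4 : IsCyclic S :=
          isCyclic_of_surjective _ (Sylow.equiv (P.mapSurjective hsurj) S).surjective
        exact h4.isMulCommutative
      by_cases hsq : s = q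
      · subst hsq
        have h3 : IsMulCommutative (R.mapSurjective hsurj : Subgroup (G ⧸ D)) := by
          rw [← Subgroup.commutator_self_eq_bot_iff, Sylow.coe_mapSurjective,
            ← Subgroup.map_commutator, Subgroup.map_eq_bot_iff, QuotientGroup.ker_mk', hD,
            Subgroup.map_subtype_commutator]
        let e := Sylow.equiv (R.mapSurjective hsurj) S
        refine ⟨⟨fun a b => ?_⟩⟩
        apply e.symm.injective
        rw [map_mul, map_mul]
        exact h3.is_comm.comm _ _
      · have h3 : (S : Subgroup (G ⧸ D)) = ⊥ := by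
          by_contra hne
          have h4 : s ∣ Nat.card (S : Subgroup (G ⧸ D)) :=
            S.isPGroup'.card_eq_or_dvd.resolve_left (fun h => hne (Subgroup.card_eq_one.mp h))
          have h5 : s ∣ Nat.card G := (h4.trans (Subgroup.card_subgroup_dvd_card _)).trans
            (Subgroup.card_quotient_dvd_card D)
          exact (hprimes s hs.out h5).elim hsp hsq
        have h4 : IsMulCommutative (S : Subgroup (G ⧸ D)) := by rw [h3]; infer_instance
        exact h4
    apply isMulCommutative_of_isNilpotent_of_forall_isPGroup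
    intro s hs T hT
    obtain ⟨S, hS⟩ := (hT.map K.subtype).exists_le_sylow
    have h3 := key s S
    refine ⟨⟨fun a b => ?_⟩⟩
    have := h3.is_comm.comm ⟨a, hS ⟨a, a.2, rfl⟩⟩ ⟨b, hS ⟨b, b.2, rfl⟩⟩
    have h4 := congrArg Subtype.val this
    exact Subtype.ext (Subtype.ext h4)

end Cfsg.Agent.S0577
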