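import Cfsg.Statements.S0578
import Cfsg.Agent.Solv.PGroupBasic

set_option autoImplicit false
open Cfsg

namespace Cfsg.Agent.S0578

/-- If in a finite group the normalizer of each abelian subgroup coincides with its centralizer, then the group is abelian. -/
theorem result {G : Type*} [Group G] [Finite G] (h : ∀ A : Subgroup G, IsMulCommutative A → Subgroup.normalizer (A : Set G) = Subgroup.centralizer (A : Set G)) : IsMulCommutative G := by
  rw [← commutator_eq_bot_iff, ← Subgroup.card_eq_one]
  by_contra hne
  obtain ⟨p, hp, hpd⟩ := Nat.exists_prime_and_dvd hne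
  have := Fact.mk hp
  let P : Sylow p G := default
  have hnil : Group.IsNilpotent (P : Subgroup G) := P.isPGroup'.isNilpotent
  obtain ⟨B, -, hBP, hPB, hBc, hB⟩ := Cfsg.Lib.Solv.PG.exists_scn_ge (A := ⊥) hnil bot_le
    (by rw [Subgroup.normalizer_eq_top]; exact le_top)
  have hPB' : (P : Subgroup G) = B := by
    rw [← hB, eq_comm, inf_eq_left, ← h B hBc]
    exact hPB
  have hPc : IsMulCommutative (P : Subgroup G) := hPB' ▸ hBc
  have hN : Subgroup.normalizer ((P : Subgroup G) : Set G) ≤
      Subgroup.centralizer ((P : Subgroup G) : Set G) := (h _ hPc).le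
  refine MonoidHom.not_dvd_card_ker_transferSylow P hN (hpd.trans (Subgroup.card_dvd_of_le ?_))
  rw [commutator_def, Subgroup.commutator_le]
  intro a _ b _
  rw [MonoidHom.mem_ker, map_commutatorElement, commutatorElement_eq_one_iff_mul_comm]
  exact mul_comm' _ _

end Cfsg.Agent.S0578
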