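import Cfsg.Statements.S0582
import Cfsg.Agent.Solv.HallWielandt
import Cfsg.Agent.Solv.SupersolvableFinite

set_option autoImplicit false
open Pointwise
open Cfsg

namespace Cfsg.Agent.S0582

open Cfsg.Lib.Solv

universe u

theorem exists_normal_sylow {G : Type*} [Group G] [Finite G] {π : Set ℕ} {p : ℕ} [Fact p.Prime]
    (hp : p ∈ π) {H : Subgroup G} (hH : IsPiHall π H) (hs : IsSupersolvable H)
    (hmax : ∀ q : ℕ, q.Prime → q ∣ Nat.card H → q ≤ p) :
    ∃ P : Subgroup G, IsPiHall {p} P ∧ P ≤ H ∧ H ≤ Subgroup.normalizer (P : Set G) := by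
  obtain ⟨P⟩ := (inferInstance : Nonempty (Sylow p H))
  have := sylow_normal_of_isSupersolvable hs hmax P
  refine ⟨(P : Subgroup H).map H.subtype, isPiHall_of_isPiHallOf
    (isPiHallOf_map_subtype_iff.mpr (isPiHall_singleton_sylow P)) ?_, Subgroup.map_subtype_le _,
    le_normalizer_map_subtype _⟩
  exact (isPiHall_iff.mp hH).2.mono
    (Set.compl_subset_compl.mpr (Set.singleton_subset_iff.mpr hp))

theorem aux (n : ℕ) : ∀ (G : Type u) [Group G] [Finite G] (π : Set ℕ) (H K : Subgroup G),
    Nat.card H = n → IsPiHall π H → IsPiHall π K → IsSupersolvable H → IsSupersolvable K →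
    ∃ x : G, MulAut.conj x • H = K := by
  induction n using Nat.strong_induction_on with
  | _ n ih =>
    intro G _ _ π H K hn hH hK hsH hsK
    have hcard := card_eq_of_isPiHall hH hK
    by_cases h1 : n = 1
    · refine ⟨1, ?_⟩
      rw [Subgroup.card_eq_one.mp (hn.trans h1), Subgroup.card_eq_one.mp (hcard.symm.trans
        (hn.trans h1)), Subgroup.smul_bot]
    have hn0 : n ≠ 0 := hn ▸ Nat.card_pos.ne'
    have hne : n.primeFactors.Nonempty := by
      rw [Nat.nonempty_primeFactors]; omega
    obtain ⟨hp, hpn, -⟩ := Nat.mem_primeFactors.mp (n.primeFactors.max'_mem hne)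
    set p := n.primeFactors.max' hne
    have := Fact.mk hp
    have hmax : ∀ q : ℕ, q.Prime → q ∣ n → q ≤ p := fun q hq hd =>
      n.primeFactors.le_max' q (Nat.mem_primeFactors.mpr ⟨hq, hd, hn0⟩)
    have hpπ : p ∈ π := hH.1 p hp (hn ▸ hpn)
    obtain ⟨P, hP, hPH, hHP⟩ := exists_normal_sylow hpπ hH hsH (by rwa [hn])
    obtain ⟨Q, hQ, hQK, hKQ⟩ := exists_normal_sylow hpπ hK hsK (by rwa [← hcard, hn])
    obtain ⟨g, hg⟩ := (hallD_singleton p G).exists_conj_eq hP hQ
    set N := Subgroup.normalizer (Q : Set G) with hN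
    have hH'N : MulAut.conj g • H ≤ N := by
      rw [hN, ← hg, ← conj_smul_normalizer]; exact conj_smul_mono g hHP
    have hQH' : Q ≤ MulAut.conj g • H := hg ▸ conj_smul_mono g hPH
    have hQN : Q ≤ N := Subgroup.le_normalizer
    have hQ0 : Q ≠ ⊥ := by
      rintro rfl
      exact hQ.2 p hp rfl (by
        rw [Subgroup.index_bot]; exact (hn ▸ hpn).trans H.card_subgroup_dvd_card)
    have hsurj := QuotientGroup.mk'_surjective (Q.subgroupOf N)
    have e1 : IsSupersolvable ((MulAut.conj g • H).subgroupOf N) :=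
      isSupersolvable_of_equiv ((conjEquiv g H).trans (Subgroup.subgroupOfEquivOfLe hH'N).symm) hsH
    have e2 : IsSupersolvable (K.subgroupOf N) :=
      isSupersolvable_of_equiv (Subgroup.subgroupOfEquivOfLe hKQ).symm hsK
    obtain ⟨y, hy⟩ := ih _ (by
        rw [card_map_mk', Subgroup.relIndex_subgroupOf hH'N, ← hn, ← card_conj_smul g H,
          ← card_mul_relIndex_of_le hQH']
        exact lt_mul_of_one_lt_left (Nat.pos_of_ne_zero Subgroup.index_ne_zero_of_finite)
          ((Subgroup.one_lt_card_iff_ne_bot Q).mpr hQ0))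
      (N ⧸ Q.subgroupOf N) π
      (((MulAut.conj g • H).subgroupOf N).map (QuotientGroup.mk' (Q.subgroupOf N)))
      ((K.subgroupOf N).map (QuotientGroup.mk' (Q.subgroupOf N))) rfl
      (isPiHall_map hsurj (isPiHallOf_iff_subgroupOf.mp
        (isPiHallOf_of_isPiHall (isPiHall_conj hH g) hH'N)).2)
      (isPiHall_map hsurj (isPiHallOf_iff_subgroupOf.mp (isPiHallOf_of_isPiHall hK hKQ)).2)
      (isSupersolvable_map _ e1) (isSupersolvable_map _ e2)
    obtain ⟨y, rfl⟩ := hsurj y
    have h2 := congrArg (Subgroup.comap (QuotientGroup.mk' (Q.subgroupOf N))) hy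
    rw [comap_conj_smul, Subgroup.comap_map_eq_self, Subgroup.comap_map_eq_self] at h2
    · exact ⟨y * g, by rw [conj_mul_smul]; exact SZ.conj_of_subgroupOf hH'N hKQ y h2⟩
    · rw [QuotientGroup.ker_mk']; exact Subgroup.subgroupOf_mono N hQK
    · rw [QuotientGroup.ker_mk']; exact Subgroup.subgroupOf_mono N hQH'

/-- Let H and K be supersolvable subgroups of a finite group G of the same order, that order being coprime to their index. Then H and K are conjugate in G. -/
theorem result {G : Type*} [Group G] [Finite G] (H K : Subgroup G) (hH : Cfsg.IsSupersolvable H) (hK : Cfsg.IsSupersolvable K) (hcard : Nat.card H = Nat.card K) (hHall : (Nat.card H).Coprime H.index) : ∃ x : G, MulAut.conj x • H = K := by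
  exact aux _ G _ H K rfl (isPiHall_of_coprime hHall)
    (isPiHall_of_card_eq (isPiHall_of_coprime hHall) hcard.symm) hH hK

end Cfsg.Agent.S0582
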