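import Cfsg.Statements.S0586
import Cfsg.Agent.Solv.Frattini
import Cfsg.Agent.Solv.Fitting

set_option autoImplicit false
open Cfsg

namespace Cfsg.Agent.S0586

open Cfsg.Lib.Solv

/-- If the Frattini subgroup of a finite group G is trivial, then the Fitting subgroup of G equals the join of all abelian minimal normal subgroups of G. -/
theorem result {G : Type*} [Group G] [Finite G] (hΦ : frattini G = ⊥) : Cfsg.fittingSubgroup G = sSup {N : Subgroup G | N.Normal ∧ N ≠ ⊥ ∧ IsMulCommutative N ∧ ∀ K : Subgroup G, K.Normal → K ≤ N → K = ⊥ ∨ K = N} := by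
  set S := sSup {N : Subgroup G | N.Normal ∧ N ≠ ⊥ ∧ IsMulCommutative N ∧
    ∀ K : Subgroup G, K.Normal → K ≤ N → K = ⊥ ∨ K = N} with hS
  have hSF : S ≤ fittingSubgroup G := by
    refine sSup_le fun N hN => ?_
    have := hN.2.2.1
    exact le_fitting hN.1 (isNilpotent_of_isMulCommutative N)
  have hF : IsMulCommutative (fittingSubgroup G) :=
    isMulCommutative_of_isNilpotent_of_frattini_eq_bot hΦ _
  have hSn : S.Normal := Subgroup.sSup_normal _ (fun _ h => h.1)
  have hSc : IsMulCommutative S := ⟨⟨fun a b => Subtype.ext (setLike_mul_comm (hSF a.2) (hSF b.2))⟩⟩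
  obtain ⟨H, hH⟩ := exists_isComplement'_of_inf_frattini_eq_bot S (by simp [hΦ])
  have h1 : H ⊔ fittingSubgroup G = ⊤ := by
    rw [eq_top_iff, ← hH.sup_eq_top, sup_comm]
    exact sup_le_sup_left hSF H
  have h2 := inf_normal_of_sup_eq_top_of_isMulCommutative h1
  have h3 : fittingSubgroup G ⊓ H = ⊥ := by
    by_contra hne
    obtain ⟨A, hA1, hA2, hA3, hA4⟩ := exists_minimal_normal_le _ hne
    have hAc : IsMulCommutative A :=
      ⟨⟨fun a b => Subtype.ext (setLike_mul_comm (hA3 a.2).1 (hA3 b.2).1)⟩⟩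
    have hAS : A ≤ S := le_sSup ⟨hA1, hA2, hAc, hA4⟩
    exact hA2 (le_bot_iff.mp (hH.disjoint hAS (hA3.trans inf_le_right)))
  refine le_antisymm ?_ hSF
  intro x hx
  obtain ⟨⟨s, h⟩, hsh⟩ := hH.2 x
  have hh : (h : G) ∈ fittingSubgroup G ⊓ H := by
    refine ⟨?_, h.2⟩
    have : (h : G) = (s : G)⁻¹ * x := by rw [← hsh]; simp
    rw [this]
    exact (fittingSubgroup G).mul_mem ((fittingSubgroup G).inv_mem (hSF s.2)) hx
  rw [h3, Subgroup.mem_bot] at hh
  rw [← hsh]
  simp only [hh, mul_one]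
  exact s.2

end Cfsg.Agent.S0586
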