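import Cfsg.Statements.S0590


set_option autoImplicit false
open Cfsg

open Subgroup
open scoped commutatorElement

namespace Cfsg.Agent.S0590

/-- Quadratic action on an elementary abelian p-group forces the acting group modulo the kernel of the action to be elementary abelian. -/
theorem result {G : Type*} [Group G] [Finite G] {p : ℕ} [Fact p.Prime] (V H : Subgroup G) (hV : Cfsg.IsElementaryAbelian p V) (hHV : H ≤ Subgroup.normalizer (V : Set G)) (hq : ⁅⁅V, H⁆, H⁆ = ⊥) : ⁅H, H⁆ ≤ Subgroup.centralizer (V : Set G) ∧ ∀ a ∈ H, a ^ p ∈ Subgroup.centralizer (V : Set G) := by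
  constructor
  · rw [← commutator_eq_bot_iff_le_centralizer]
    exact commutator_commutator_eq_bot_of_rotate (by rw [commutator_comm H V]; exact hq) hq
  · intro a ha
    rw [mem_centralizer_iff]
    intro v hv
    have h1 : ⁅a, v⁆ ∈ ⁅V, H⁆ := by
      rw [commutator_comm]; exact commutator_mem_commutator ha hv
    have h2 := commutator_eq_bot_iff_le_centralizer.mp hq h1 a ha
    have h3 : ⁅a, v⁆ ∈ V := by
      rw [commutatorElement_def]
      exact V.mul_mem ((mem_normalizer_iff.mp (hHV ha) v).mp hv) (V.inv_mem hv)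
    have h4 : a * v = ⁅a, v⁆ * v * a := by rw [commutatorElement_def]; group
    have h5 : ∀ n : ℕ, a ^ n * v = ⁅a, v⁆ ^ n * v * a ^ n := by
      intro n
      induction n with
      | zero => simp
      | succ n ih =>
        have hc : Commute a (⁅a, v⁆ ^ n) := (Commute.pow_right h2 n)
        rw [pow_succ' a, mul_assoc, ih, ← mul_assoc, ← mul_assoc, hc.eq, mul_assoc _ a, h4,
          pow_succ ⁅a, v⁆]
        simp only [mul_assoc]
    rw [h5 p, hV.2 _ h3, one_mul]

end Cfsg.Agent.S0590
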