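import Cfsg.Statements.S0591
import Cfsg.Agent.Trans.QuadGroup

set_option autoImplicit false
open Cfsg

open Subgroup Cfsg.Lib.Trans.Quad

namespace Cfsg.Agent.S0591

/-- For a quadratically acting element a on an elementary abelian p-group V, the fixed points C_V(a) have order at least the square root of the order of V. -/
theorem result {G : Type*} [Group G] [Finite G] {p : ℕ} [Fact p.Prime] (V : Subgroup G) (hV : Cfsg.IsElementaryAbelian p V) (a : G) (ha : a ∈ Subgroup.normalizer (V : Set G)) (hq : ⁅⁅V, Subgroup.zpowers a⁆, Subgroup.zpowers a⁆ = ⊥) : Nat.card V ≤ Nat.card ↥(V ⊓ Subgroup.centralizer (Subgroup.zpowers a : Set G)) ^ 2 := by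
  have hc : ∀ x ∈ V, ∀ y ∈ V, x * y = y * x := fun x hx y hy =>
    congrArg Subtype.val (hV.1.is_comm.comm (⟨x, hx⟩ : V) ⟨y, hy⟩)
  have hm : ∀ v ∈ V, a * v * a⁻¹ ∈ V := fun v hv => (mem_normalizer_iff.mp ha v).mp hv
  have hz : ∀ x : G, a * x * a⁻¹ = x → x ∈ centralizer (zpowers a : Set G) := by
    intro x hx
    rw [mem_centralizer_iff]
    rintro _ ⟨n, rfl⟩
    exact (Commute.zpow_left (mul_inv_eq_iff_eq_mul.mp hx) n).eq
  let C := V ⊓ centralizer (zpowers a : Set G)
  let f : V →* C := MonoidHom.mk' (fun v => ⟨a * v * a⁻¹ * (v : G)⁻¹,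
    V.mul_mem (hm _ v.2) (V.inv_mem v.2), hz _ (conj_quadratic hq v.2)⟩) (by
      intro x y
      apply Subtype.ext
      simp only [coe_mul, mul_inv_rev]
      have e := hc _ (V.inv_mem x.2) _ (V.mul_mem (hm _ y.2) (V.inv_mem y.2))
      calc a * (x * y) * a⁻¹ * ((y : G)⁻¹ * (x : G)⁻¹)
          = a * x * a⁻¹ * (a * y * a⁻¹ * (y : G)⁻¹ * (x : G)⁻¹) := by group
        _ = _ := by rw [← e]; group)
  have h1 : Nat.card f.ker ≤ Nat.card C := by
    refine Nat.card_le_card_of_injective (fun x : f.ker => (⟨x.1, x.1.2, hz _ ?_⟩ : C)) ?_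
    · exact mul_inv_eq_one.mp (congrArg Subtype.val (MonoidHom.mem_ker.mp x.2))
    · intro x y h
      have h' := congrArg Subtype.val h
      exact Subtype.ext (Subtype.ext h')
  have h2 : Nat.card f.range ≤ Nat.card C := card_le_card_group _
  rw [← f.ker.card_mul_index, index_ker, sq]
  exact Nat.mul_le_mul h1 h2

end Cfsg.Agent.S0591
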