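import Cfsg.Statements.S0592
import Cfsg.Agent.Trans.QuadPair

set_option autoImplicit false
open Cfsg

open Cfsg.Lib.Trans.Quad

namespace Cfsg.Agent.S0592

/-- Two quadratically acting generators of a linear group that is not a p-group, with the p'-part of the order of their product dividing q - 1, give a homomorphism onto a subgroup of SL(2, q) that is not a p-group. -/
theorem result {K : Type*} [Field K] [Fintype K] {p : ℕ} [Fact p.Prime] [CharP K p] {W : Type*} [AddCommGroup W] [Module K W] [FiniteDimensional K W] [Finite W] [Nontrivial W] (H : Subgroup (W ≃ₗ[K] W)) (a b : W ≃ₗ[K] W) (hH : H = Subgroup.closure {a, b}) (ha : ∀ w : W, a (a w - w) = a w - w) (hb : ∀ w : W, b (b w - w) = b w - w) (hnp : ¬ IsPGroup p H) (hk : ∃ e k : ℕ, orderOf (a * b) = p ^ e * k ∧ k ∣ Fintype.card K - 1) : ∃ φ : H →* Matrix.SpecialLinearGroup (Fin 2) K, ¬ IsPGroup p φ.range := by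
  subst hH
  set H := Subgroup.closure ({a, b} : Set (W ≃ₗ[K] W)) with hH
  let ρ : H →* Module.End K W := LinearEquiv.automorphismGroup.toLinearMapMonoidHom.comp H.subtype
  let a' : H := ⟨a, Subgroup.subset_closure (by simp)⟩
  let b' : H := ⟨b, Subgroup.subset_closure (by simp)⟩
  have hab : Subgroup.closure {a', b'} = ⊤ := by
    apply Subgroup.map_injective H.subtype_injective
    rw [MonoidHom.map_closure, ← MonoidHom.range_eq_map, Subgroup.range_subtype, Set.image_pair]
    rfl
  have hA : (ρ a' - 1) * (ρ a' - 1) = 0 := LinearMap.ext fun w => sub_eq_zero.mpr (ha w)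
  have hB : (ρ b' - 1) * (ρ b' - 1) = 0 := LinearMap.ext fun w => sub_eq_zero.mpr (hb w)
  have hρ : Function.Injective ρ := fun x y h => Subtype.ext (LinearEquiv.toLinearMap_injective h)
  obtain ⟨e, k, hek, hk⟩ := hk
  have hpow : ρ (a' * b') ^ (p ^ e * k) = 1 := by
    rw [← map_pow, ← hek, ← map_one ρ]
    congr 1
    exact Subtype.ext (pow_orderOf_eq_one (a * b))
  rcases isNilpotent_or_exists_eigenvalue_of_pow p _ hk hpow with hn | ⟨μ, hμ, hev⟩
  · exfalso
    apply hnp
    intro h
    obtain ⟨j, hj⟩ := exists_pow_eq_one_of_isNilpotent (K := K) p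
      (isNilpotent_sub_one ρ hab hA hB hn h)
    exact ⟨j, hρ (by rw [map_pow, hj, map_one])⟩
  · obtain ⟨l, hl, φ, h1, h2, -⟩ := exists_hom_SL_two ρ hab hA hB hμ hev
    refine ⟨φ, fun hp => ?_⟩
    obtain ⟨j, hj⟩ := hp ⟨φ (a' * b'), a' * b', rfl⟩
    apply not_pow_eq_one_of_transvections p hl h1 h2 j
    rw [← map_mul]
    exact congrArg Subtype.val hj

end Cfsg.Agent.S0592
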