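import Cfsg.Statements.S0594
import Cfsg.Agent.Trans.DicksonFree

set_option autoImplicit false
open Cfsg

open Cfsg.Lib.Trans Cfsg.Lib.Trans.Quad Cfsg.Lib.Solv
open scoped commutatorElement

namespace Cfsg.Agent.S0594

/-- For odd p, two quadratic generators of a faithful group that is not a p-group, one of which acts nontrivially on a normal subgroup of order prime to p, force p = 3 and a section isomorphic to SL(2,3). -/
theorem result {G : Type*} [Group G] [Finite G] {p : ℕ} [Fact p.Prime] (hp : p ≠ 2) (V H : Subgroup G) (hV : Cfsg.IsElementaryAbelian p V) (hHV : H ≤ Subgroup.normalizer (V : Set G)) (hf : H ⊓ Subgroup.centralizer (V : Set G) = ⊥) (a b : G) (hab : H = Subgroup.closure {a, b}) (ha : ⁅⁅V, Subgroup.zpowers a⁆, Subgroup.zpowers a⁆ = ⊥) (hb : ⁅⁅V, Subgroup.zpowers b⁆, Subgroup.zpowers b⁆ = ⊥) (hnp : ¬ IsPGroup p H) (Q : Subgroup G) (hQH : Q ≤ H) (hQn : H ≤ Subgroup.normalizer (Q : Set G)) (hQ : (Nat.card Q).Coprime p) (hQa : ⁅Q, Subgroup.zpowers a⁆ ≠ ⊥) :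 p = 3 ∧ ∃ (K L : Subgroup G) (hL : (L.subgroupOf K).Normal), K ≤ H ∧ Nonempty ((K ⧸ L.subgroupOf K) ≃* Matrix.SpecialLinearGroup (Fin 2) (ZMod 3)) := by
  rw [← involves_subgroup_iff]
  have haH : a ∈ H := hab ▸ Subgroup.subset_closure (by simp)
  have hVp : IsPGroup p V := fun x => ⟨1, Subtype.ext (by simpa using hV.2 x x.2)⟩
  have hL : Q ⊔ Subgroup.zpowers a ≤ H := sup_le hQH (Subgroup.zpowers_le_of_mem haH)
  have := ElemAb.of_isElementaryAbelian hV
  have hap : a ^ p = 1 := by
    have hq := rep_quadratic (p := p) _ (conjAutOf_quadratic hHV (a := ⟨a, haH⟩) ha)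
    have hinj := (Vec.rep_injective_iff (p := p) _).mpr (conjAutOf_injective hHV hf)
    have h1 : (⟨a, haH⟩ : H) ^ p = 1 := by
      apply hinj
      rw [map_pow, map_one]
      have := Cfsg.Lib.FT.pow_eq_of_sq_zero _ hq p
      rw [add_sub_cancel] at this
      rw [this, ← map_natCast (algebraMap (ZMod p) _), ZMod.natCast_self, map_zero, zero_mul,
        add_zero]
    exact congrArg Subtype.val h1
  have hzp : IsPGroup p (Subgroup.zpowers a) := by
    obtain ⟨k, -, hk⟩ := (Nat.dvd_prime_pow (Fact.out : p.Prime)).mp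
      (orderOf_dvd_of_pow_eq_one (n := p ^ 1) (by rwa [pow_one]))
    exact IsPGroup.of_card (by rw [Nat.card_zpowers, hk])
  have hn : (Q.subgroupOf (Q ⊔ Subgroup.zpowers a)).Normal :=
    Subgroup.normal_subgroupOf_of_le_normalizer (hL.trans hQn)
  have hsol : IsPSolvable p ↥(Q ⊔ Subgroup.zpowers a) := by
    have h1 : IsPSolvable p ↥((Subgroup.zpowers a).subgroupOf (Q ⊔ Subgroup.zpowers a) ⊔
        Q.subgroupOf (Q ⊔ Subgroup.zpowers a) : Subgroup _) :=
      IsPSolvable.sup_of_normal ((IsPSolvable.of_isPGroup hzp).subgroupOf _)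
        ((IsPSolvable.of_coprime hQ).subgroupOf _)
    rw [← Subgroup.subgroupOf_sup le_sup_right le_sup_left, sup_comm (Subgroup.zpowers a),
      Subgroup.subgroupOf_self] at h1
    exact h1.of_equiv Subgroup.topEquiv
  have hnT : ¬ TransvFree p ↥(Q ⊔ Subgroup.zpowers a) := by
    intro hT
    have h1 := hT.mem_map_pCore hVp (hL.trans hHV)
      (eq_bot_iff.mpr ((inf_le_inf_right _ hL).trans hf.le))
      (Subgroup.mem_sup_right (Subgroup.mem_zpowers a)) ha
    apply hQa
    rw [eq_bot_iff, ← inf_eq_bot_of_isPGroup_of_coprime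
      (isPGroup_map_pCore p (Q ⊔ Subgroup.zpowers a)) hQ]
    refine le_inf ?_ (commutator_le_left_of_le_normalizer
      ((Subgroup.zpowers_le_of_mem haH).trans hQn))
    refine (Subgroup.commutator_mono le_rfl (Subgroup.zpowers_le_of_mem h1)).trans ?_
    exact commutator_le_right_of_le_normalizer (le_sup_left.trans (le_normalizer_map_subtype _))
  obtain ⟨h3, hi⟩ := eq_three_and_involves_of_not_transvFree hp hsol hnT
  exact ⟨h3, involves_mono hL hi⟩

end Cfsg.Agent.S0594
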