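import Cfsg.Statements.S0597
import Cfsg.Agent.Trans.ThompsonFact

set_option autoImplicit false
open Cfsg

namespace Cfsg.Agent.S0597

open Cfsg.Lib.Trans.TJ

/-- If two subnormal subgroups of a faithful group on an elementary abelian p-group satisfy [V, E₁, E₂] = 1, then their commutator lies in the largest normal p-subgroup. -/
theorem result {G : Type*} [Group G] [Finite G] {p : ℕ} [Fact p.Prime] (V H : Subgroup G) (hV : Cfsg.IsElementaryAbelian p V) (hHV : H ≤ Subgroup.normalizer (V : Set G)) (hf : H ⊓ Subgroup.centralizer (V : Set G) = ⊥) (E₁ E₂ : Subgroup G) (h₁ : E₁ ≤ H) (h₂ : E₂ ≤ H) (hs₁ : (E₁.subgroupOf H).IsSubnormal) (hs₂ : (E₂.subgroupOf H).IsSubnormal) (hc : ⁅⁅V, E₁⁆, E₂⁆ = ⊥) : ⁅E₁, E₂⁆ ≤ (Cfsg.pCore p H).map H.subtype := by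
  exact commutator_le_pCore_of_subnormalIn hV hHV hf ⟨h₁, hs₁⟩ ⟨h₂, hs₂⟩ hc

end Cfsg.Agent.S0597
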