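import Cfsg.Statements.S0615
import Cfsg.Agent.Trans.SubnormalPair

set_option autoImplicit false
open Cfsg

namespace Cfsg.Agent.S0615

open Cfsg.Lib.Solv Cfsg.Lib.Trans.TJ Subgroup

/-- Two subnormal subgroups acting irreducibly on their incomparable commutator modules, in a faithful group with trivial largest normal p-subgroup, generate their direct product, and the commutator module splits accordingly. -/
theorem result {G : Type*} [Group G] [Finite G] {p : ℕ} [Fact p.Prime] (V E E₁ E₂ : Subgroup G) (hV : Cfsg.IsElementaryAbelian p V) (hEV : E ≤ Subgroup.normalizer (V : Set G)) (hf : E ⊓ Subgroup.centralizer (V : Set G) = ⊥) (hgen : E = E₁ ⊔ E₂) (hs₁ : (E₁.subgroupOf E).IsSubnormal) (hs₂ : (E₂.subgroupOf E).IsSubnormal) (hOp : Cfsg.pCore p ↥E = ⊥) (hirr₁ : (∀ U : Subgroup G, U ≤ ⁅V, E₁⁆ → E₁ ≤ Subgroup.normalizer (U : Set G) → U = ⊥ ∨ U = ⁅V,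 E₁⁆)) (hirr₂ : (∀ U : Subgroup G, U ≤ ⁅V, E₂⁆ → E₂ ≤ Subgroup.normalizer (U : Set G) → U = ⊥ ∨ U = ⁅V, E₂⁆)) (h12 : ¬ ⁅V, E₁⁆ ≤ ⁅V, E₂⁆) (h21 : ¬ ⁅V, E₂⁆ ≤ ⁅V, E₁⁆) (hc₁ : 2 < Nat.card E₁) (hc₂ : 2 < Nat.card E₂) : ⁅E₁, E₂⁆ = ⊥ ∧ E₁ ⊓ E₂ = ⊥ ∧ ⁅V, E₁⁆ ⊓ ⁅V, E₂⁆ = ⊥ ∧ ⁅V, E⁆ = ⁅V, E₁⁆ ⊔ ⁅V, E₂⁆ := by
  have h₁ : SubnormalIn E₁ E := ⟨hgen ▸ le_sup_left, hs₁⟩
  have h₂ : SubnormalIn E₂ E := ⟨hgen ▸ le_sup_right, hs₂⟩
  have hO : ∀ K, SubnormalIn K E → IsPGroup p K → K = ⊥ :=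
    fun K hK hp => eq_bot_of_subnormalIn hK hp hOp
  obtain ⟨k1, k2, k3, k4⟩ := subnormal_pair hV hEV hf hO h₁ h₂ hirr₁ hirr₂ h12 h21 hc₁ hc₂
  refine ⟨k1, ?_, k2, le_antisymm ?_ (sup_le (commutator_mono le_rfl h₁.le)
    (commutator_mono le_rfl h₂.le))⟩
  · rw [eq_bot_iff, ← inf_centralizer_commutator_eq_bot hV (h₁.le.trans hEV)
      (inf_eq_bot_of_le hf h₁.le) fun K hKE hEK => hO K (h₁.step hKE hEK)]
    exact inf_le_inf_left _ (commutator_eq_bot_iff_le_centralizer'.1 k3)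
  · have n1 : E₁ ≤ normalizer ((⁅V, E₁⁆ ⊔ ⁅V, E₂⁆ : Subgroup G) : Set G) :=
      le_normalizer_sup (right_le_normalizer_commutator _ _)
        ((commutator_eq_bot_iff_le_centralizer'.1 k4).trans (centralizer_le_normalizer _))
    have n2 : E₂ ≤ normalizer ((⁅V, E₁⁆ ⊔ ⁅V, E₂⁆ : Subgroup G) : Set G) :=
      le_normalizer_sup
        ((commutator_eq_bot_iff_le_centralizer'.1 k3).trans (centralizer_le_normalizer _))
        (right_le_normalizer_commutator _ _)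
    rw [hgen]
    exact Cfsg.Lib.Trans.TJ.commutator_sup_right_le n1 n2 le_sup_left le_sup_right

end Cfsg.Agent.S0615
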