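import Cfsg.Statements.S0617
import Cfsg.Agent.Trans.FFStruct

set_option autoImplicit false
open Cfsg

namespace Cfsg.Agent.S0617

open Cfsg.Lib.Solv Cfsg.Lib.Trans.TJ Subgroup

/-- Structure Theorem for failure of factorization: a faithful group generated by best offenders, with self-centralizing p'-core, is a direct product of copies of SL(2, p) (p = 2 or 3), each acting on its own plane in V, which is the direct product of these planes and C_V(H). -/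
theorem result {G : Type*} [Group G] [Finite G] {p : ℕ} [Fact p.Prime] (V H : Subgroup G) (hV : Cfsg.IsElementaryAbelian p V) (hHV : H ≤ Subgroup.normalizer (V : Set G)) (hf : H ⊓ Subgroup.centralizer (V : Set G) = ⊥) (hS1 : Subgroup.centralizer (Cfsg.pPrimeCore p ↥H : Set ↥H) ≤ Cfsg.pPrimeCore p ↥H) (hS3 : H = ⨆ A : {A : Subgroup G // A ≤ H ∧ Cfsg.IsBestOffenderOn p V A}, (A : Subgroup G)) (hH1 : H ≠ ⊥) : (p = 2 ∨ p = 3) ∧ (∀ E : {E : Subgroup G // ∃ A : Subgroup G, A ≤ H ∧ Cfsg.IsBestOffenderOn p V A ∧ ⁅V, A⁆ ≠ ⊥ ∧ (∀ B : Subgroup G, B ≤ A → Cfsg.IsBestOffenderOn p V B → ⁅V, B⁆ ≠ ⊥ → B = A) ∧ E = ⁅((Cfsg.pPrimeCore p ↥H).map H.subtype), A⁆ ⊔ A}, H ≤ Subgroup.normalizer ((E : Subgroup G) : Set G) ∧ Nonempty (↥(E : Subgroup G) ≃* Matrix.SpecialLinearGroup (Fin 2) (ZMod p)) ∧ Nat.card ↥(⁅V, (E : Subgroup G)⁆) = p ^ 2) ∧ iSupIndep (fun E : {E : Subgroup G // ∃ A :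 Subgroup G, A ≤ H ∧ Cfsg.IsBestOffenderOn p V A ∧ ⁅V, A⁆ ≠ ⊥ ∧ (∀ B : Subgroup G, B ≤ A → Cfsg.IsBestOffenderOn p V B → ⁅V, B⁆ ≠ ⊥ → B = A) ∧ E = ⁅((Cfsg.pPrimeCore p ↥H).map H.subtype), A⁆ ⊔ A} => (E : Subgroup G)) ∧ (⨆ E : {E : Subgroup G // ∃ A : Subgroup G, A ≤ H ∧ Cfsg.IsBestOffenderOn p V A ∧ ⁅V, A⁆ ≠ ⊥ ∧ (∀ B : Subgroup G, B ≤ A → Cfsg.IsBestOffenderOn p V B → ⁅V, B⁆ ≠ ⊥ → B = A) ∧ E = ⁅((Cfsg.pPrimeCore p ↥H).map H.subtype), A⁆ ⊔ A}, (E : Subgroup G)) = H ∧ iSupIndep (fun o : Option {E : Subgroup G // ∃ A : Subgroup G, A ≤ H ∧ Cfsg.IsBestOffenderOn p V A ∧ ⁅V, A⁆ ≠ ⊥ ∧ (∀ B : Subgroup G, B ≤ A → Cfsg.IsBestOffenderOn p V B → ⁅V, B⁆ ≠ ⊥ → B = A) ∧ E = ⁅((Cfsg.pPrimeCore p ↥H).map H.subtype), A⁆ ⊔ A} => o.elim (V ⊓ Subgroup.centralizer (H : Set G)) (fun E => ⁅V, (E : Subgroup G)⁆)) ∧ (V ⊓ Subgroup.centralizer (H : Set G)) ⊔ (⨆ E : {E : Subgroup G // ∃ A : Subgroup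 G, A ≤ H ∧ Cfsg.IsBestOffenderOn p V A ∧ ⁅V, A⁆ ≠ ⊥ ∧ (∀ B : Subgroup G, B ≤ A → Cfsg.IsBestOffenderOn p V B → ⁅V, B⁆ ≠ ⊥ → B = A) ∧ E = ⁅((Cfsg.pPrimeCore p ↥H).map H.subtype), A⁆ ⊔ A}, ⁅V, (E : Subgroup G)⁆) = V := by
  have h := FF.of_pPrimeCore hV hHV hf hS1
  have hgen := h.gen_of_iSup hS3
  generalize (pPrimeCore p H).map H.subtype = O at h ⊢
  have key : ∀ E : {E : Subgroup G // ∃ A : Subgroup G, A ≤ H ∧ IsBestOffenderOn p V A ∧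
      ⁅V, A⁆ ≠ ⊥ ∧ (∀ B : Subgroup G, B ≤ A → IsBestOffenderOn p V B → ⁅V, B⁆ ≠ ⊥ → B = A) ∧
      E = ⁅O, A⁆ ⊔ A}, ∃ A ≤ H, Transv p V A ∧ (E : Subgroup G) = ⁅O, A⁆ ⊔ A := by
    rintro ⟨E, A, hAH, h1, h2, h3, rfl⟩
    exact ⟨A, hAH, h.transv_of_minimal hAH h1 h2 h3, rfl⟩
  have key' : ∀ A ≤ H, Transv p V A → ∃ E : {E : Subgroup G // ∃ A : Subgroup G, A ≤ H ∧
      IsBestOffenderOn p V A ∧ ⁅V, A⁆ ≠ ⊥ ∧ (∀ B : Subgroup G, B ≤ A → IsBestOffenderOn p V B →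
      ⁅V, B⁆ ≠ ⊥ → B = A) ∧ E = ⁅O, A⁆ ⊔ A}, (E : Subgroup G) = ⁅O, A⁆ ⊔ A := fun A hAH hA =>
    have := (h.minimal_iff hAH).2 hA
    ⟨⟨_, A, hAH, this.1, this.2.1, this.2.2, rfl⟩, rfl⟩
  obtain ⟨A₀, hA₀H, hA₀⟩ := FF.exists_transv hgen hH1
  refine ⟨h.two_or_three hA₀H hA₀, fun E => ?_, fun E => ?_, le_antisymm (iSup_le fun E => ?_)
    (hgen.trans (sSup_le fun B hB => ?_)), fun o => ?_, le_antisymm (sup_le inf_le_left
      (iSup_le fun E => ?_)) ((h.cent_sup_iSup hgen).trans (sup_le_sup_left (iSup_le fun A => ?_) _))⟩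
  · obtain ⟨A, hAH, hA, he⟩ := key E
    rw [he]
    exact ⟨h.le_normalizer_E hgen hAH hA, h.E_equiv hAH hA, h.card_W hAH hA⟩
  · obtain ⟨A, hAH, hA, he⟩ := key E
    rw [disjoint_iff, eq_bot_iff]
    refine le_trans ?_ (h.E_inf_F hAH).le
    refine inf_le_inf he.le (iSup₂_le fun E' hne => ?_)
    obtain ⟨B, hBH, hB, he'⟩ := key E'
    rcases h.dichotomy hAH hA hBH hB with h1 | h1
    · exact absurd (Subtype.ext (he'.trans (h1.symm.trans he.symm))) hne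
    · exact he'.le.trans (le_inf (h.E_le hBH) (commutator_eq_bot_iff_le_centralizer'.1 h1.2.1))
  · obtain ⟨A, hAH, hA, he⟩ := key E
    exact he.le.trans (h.E_le hAH)
  · obtain ⟨E, he⟩ := key' B hB.1 hB.2
    exact le_iSup_of_le E (le_sup_right.trans he.ge)
  · rw [disjoint_iff, eq_bot_iff]
    rcases o with _ | E
    · refine le_trans ?_ (h.cent_inf_comm le_rfl).le
      refine inf_le_inf (inf_le_inf_left _ (centralizer_anti h.O_le)) (iSup₂_le fun o hne => ?_)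
      rcases o with _ | E
      · exact absurd rfl hne
      obtain ⟨A, hAH, hA, he⟩ := key E
      simp only [Option.elim]
      rw [he, ← h.comm_Q hAH hA]
      exact commutator_mono le_rfl (h.comm_le_O hAH)
    · obtain ⟨A, hAH, hA, he⟩ := key E
      refine le_trans ?_ (h.W_inf_cent hAH hA).le
      refine inf_le_inf (by simp only [Option.elim]; rw [he]) (iSup₂_le fun o hne => ?_)
      rcases o with _ | E'
      · exact inf_le_inf_left _ (centralizer_anti (h.E_le hAH))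
      obtain ⟨B, hBH, hB, he'⟩ := key E'
      simp only [Option.elim]
      rw [he']
      rcases h.dichotomy hAH hA hBH hB with h1 | h1
      · exact absurd (congrArg some (Subtype.ext (he'.trans (h1.symm.trans he.symm)))) hne
      · exact le_inf (commutator_le_left_of_le_normalizer ((h.E_le hBH).trans hHV))
          (commutator_eq_bot_iff_le_centralizer.1 h1.2.2)
  · obtain ⟨A, hAH, hA, he⟩ := key E
    exact commutator_le_left_of_le_normalizer (he.le.trans ((h.E_le hAH).trans hHV))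
  · obtain ⟨E, he⟩ := key' A A.2.1 A.2.2
    exact le_iSup_of_le E (by rw [he])

end Cfsg.Agent.S0617
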