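import Cfsg.Statements.S0619
import Cfsg.Agent.Trans.FFApply

set_option autoImplicit false
open Cfsg

namespace Cfsg.Agent.S0619

open Cfsg.Lib.Solv Cfsg.Lib.Trans.TJ Subgroup

/-- For a p-separable group and a normal elementary abelian p-subgroup V with no nontrivial normal p-subgroup modulo its centralizer C, the Thompson subgroup J(G) moves Ω₁(Z(J(C))) only inside V. -/
theorem result {G : Type*} [Group G] [Finite G] {p : ℕ} [Fact p.Prime] (hsep : Cfsg.IsPSolvable p G) (V : Subgroup G) [V.Normal] (hV : Cfsg.IsElementaryAbelian p V) (hO : Cfsg.pCore p (G ⧸ Subgroup.centralizer (V : Set G)) = ⊥) : ⁅Cfsg.omegaOne p (Cfsg.centerThompsonOf p (Subgroup.centralizer (V : Set G))), Cfsg.thompsonSubgroup p G⁆ ≤ V := by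
  have hN : ∀ A : Subgroup G, A ≤ normalizer (V : Set G) := fun A => by
    rw [normalizer_eq_top]; exact le_top
  rw [Subgroup.commutator_comm, J_eq_sSup_top, sSup_eq_iSup']
  refine commutator_iSup_left_le (fun _ => hN _) fun A => ?_
  have h1 := maxEA_sup_inf_centralizer hV (hN ⊤) le_top (hsep.subgroup ⊤) (pCore_act_top hO) A.2
  have h2 := (h1.of_le (sup_le (ea_le_centralizer hV) inf_le_right) le_top).omegaOne_center_J_le
  refine (commutator_mono le_rfl h2).trans (Cfsg.Lib.Trans.TJ.commutator_sup_right_le (hN _) (hN _)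
    (commutator_le_right _ _) ?_)
  exact ((commutator_mono le_rfl inf_le_left).trans (ea_commutator_self A.2.ea).le).trans bot_le

end Cfsg.Agent.S0619
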