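import Cfsg.Statements.S0621
import Cfsg.Agent.Trans.FFApply

set_option autoImplicit false
open Cfsg

namespace Cfsg.Agent.S0621

open Cfsg.Lib.Solv Cfsg.Lib.Trans.TJ Subgroup

/-- Let K be p-separable with O_p'(K) = 1, normalized by an elementary abelian q-group X for a prime q not dividing the order of K. If the Thompson factorization fails in K, then p is 2 or 3 and the fixed points of X contain a plane W of order p² and a subgroup inducing SL(2, p) on it. -/
theorem result {G : Type*} [Group G] [Finite G] {p : ℕ} [Fact p.Prime] {q : ℕ} [Fact q.Prime] (K X : Subgroup G) (hXK : X ≤ Subgroup.normalizer (K : Set G)) (hX : Cfsg.IsElementaryAbelian q X) (hq : ¬ q ∣ Nat.card K) (hsep : Cfsg.IsPSolvable p ↥K) (hO : Cfsg.pPrimeCore p ↥K = ⊥) (hnf : ¬ Cfsg.IsThompsonFactorizable p ↥K) : (p = 2 ∨ p = 3) ∧ ∃ W D : Subgroup G, W ≤ K ⊓ Subgroup.centralizer (X : Set G) ∧ D ≤ K ⊓ Subgroup.centralizer (X : Set G) ∧ Cfsg.IsElementaryAbelian p W ∧ Nat.card W = p ^ 2 ∧ D ≤ Subgroup.normalizer (W : Set G)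 ∧ ∃ hn : ((Subgroup.centralizer (W : Set G)).subgroupOf D).Normal, Nonempty ((↥D ⧸ (Subgroup.centralizer (W : Set G)).subgroupOf D) ≃* Matrix.SpecialLinearGroup (Fin 2) (ZMod p)) := by
  have hV := ea_map (ea_vz (hsep.centralizer_pCore_le hO)) K.subtype
  have hXq := ea_isPGroup hX
  obtain ⟨h1, W, h2, h3, h4, θ, h5, h6⟩ := exists_fixed_plane_of_operators hV
    (le_normalizer_map_subtype _) (map_subtype_le _) hsep
    (pCore_act_vz K) (hXK.trans (normalizer_le_normalizer_map_subtype_of_char _)) hXK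
    (coprime_card_of_isPGroup hXq ((Nat.Prime.coprime_iff_not_dvd Fact.out).2 hq).symm)
    (Coprime.isSolvable_of_isPGroup hXq) fun h0 => hnf
      ((isThompsonFactorizable_iff_of_pPrimeCore_eq_bot hO).2 (by
        rw [← map_le_map_iff_of_injective K.subtype_injective, map_subtype_centralizer]
        exact le_inf (map_subtype_le _) h0))
  exact ⟨h1, W, _, h2.trans (inf_le_inf_right _ (map_subtype_le _)), inf_le_inf_right _ (J_le K),
    ea_mono hV (h2.trans inf_le_left), h3, h4, nonempty_quotient_equiv h5 h6⟩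

end Cfsg.Agent.S0621
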