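import Cfsg.Statements.S0627
import Cfsg.Agent.Inst.S0625
import Cfsg.Agent.Cond.S0627

set_option autoImplicit false
open Cfsg

namespace Cfsg.Agent.S0627

/-- In a p-separable group with p at least 5, the normalizer of W(S) supplements the largest normal subgroup of order prime to p. -/
theorem result {G : Type*} [Group G] [Finite G] {p : ℕ} [Fact p.Prime] (hp : 5 ≤ p) (hsep : Cfsg.IsPSolvable p G) (S : Sylow p G) : Cfsg.pPrimeCore p G ⊔ Subgroup.normalizer (((Cfsg.stableNormalClosure p ↥(S : Subgroup G)).map (S : Subgroup G).subtype) : Set G) = ⊤ := by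
  revert G p hp hsep S
  exact @Cfsg.Agent.Gate.S0627.out Cfsg.Agent.Cond.S0627

end Cfsg.Agent.S0627
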