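import Cfsg.Statements.S0628
import Cfsg.Agent.Trans.ThompsonReduction
import Cfsg.Agent.Trans.ThompsonNPC
import Cfsg.Agent.Trans.StableClosure
import Cfsg.Agent.S0626

set_option autoImplicit false
open Cfsg

namespace Cfsg.Agent.S0628

open Cfsg.Lib.Solv Cfsg.Lib.Trans Cfsg.Lib.Trans.TJ Subgroup

/-- The normal p-complement Theorem of Thompson in the form with W(S): for odd p, G has a normal p-complement as soon as the normalizer of the characteristic subgroup W(S) of a Sylow p-subgroup S has one. -/
theorem result {G : Type*} [Group G] [Finite G] {p : ℕ} [Fact p.Prime] (hp : p ≠ 2) (S : Sylow p G) (hN : Cfsg.HasNormalPComplement p ↥(Subgroup.normalizer (((Cfsg.stableNormalClosure p ↥(S : Subgroup G)).map (S : Subgroup G).subtype) : Set G))) : Cfsg.HasNormalPComplement p G := by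
  refine hasNormalPComplement_of_hyp
    (fun G _ T => HasNormalPComplement p (normalizer (wOf p T : Set G))) ?_ ?_ ?_ ?_ G S hN
  · intro G _ _ T H _ hTH h
    have h1 := map_wOf_of_injOn (p := p) (T.subgroupOf H) (f := H.subtype)
      (inf_ker_eq_bot_of_injective _ H.subtype_injective)
    rw [map_subgroupOf_eq_of_le hTH] at h1
    have h2 : wOf p (T.subgroupOf H) = (wOf p T).subgroupOf H := by
      rw [← h1]; exact (comap_map_eq_self_of_injective H.subtype_injective _).symm
    rw [h2, ← subgroupOf_normalizer_eq ((wOf_le T).trans hTH)]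
    exact hasNormalPComplement_subgroupOf h H
  · intro G _ _ T N _ hT hN h
    have hk : (Nat.card (QuotientGroup.mk' N).ker).Coprime p := by rwa [QuotientGroup.ker_mk']
    rw [← map_wOf_of_injOn T (inf_ker_eq_bot_of_coprime hT hk),
      ← map_mk'_normalizer_of_isPGroup N hN (hT.to_le (wOf_le T))]
    exact hasNormalPComplement_map _ h
  · intro G _ _ T hT hT0 h
    exact h _ (wOf_le T) (wOf_ne_bot hT hT0) (normalizer_le_normalizer_wOf T)
  · intro G _ _ P hm h
    have := wOf_normal (Cfsg.Agent.S0626.result hp (hm.sylow 2 hp.symm))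
      (hm.psolv.centralizer_pCore_le hm.core) P
    rw [normalizer_eq_top] at h
    exact hasNormalPComplement_top_iff.1 h

end Cfsg.Agent.S0628
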