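import Cfsg.Statements.S0629
import Cfsg.Agent.Solv.PConstrained

set_option autoImplicit false
open Cfsg Cfsg.Lib.Solv

namespace Cfsg.Agent.S0629

/-- A group in which the centralizer of a Sylow p-subgroup of O_{p',p}(G) is p-solvable is p-constrained. -/
theorem result {G : Type*} [Group G] [Finite G] {p : ℕ} [Fact p.Prime] (P : Sylow p ↥(Cfsg.pPrimePCore p G)) (hsol : Cfsg.IsPSolvable p ↥(Subgroup.centralizer (((P : Subgroup ↥(Cfsg.pPrimePCore p G)).map (Cfsg.pPrimePCore p G).subtype : Subgroup G) : Set G))) : Cfsg.IsPConstrained p G := by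

  have hP := P.isPGroup'.map (pPrimePCore p G).subtype
  have h1 := map_mk'_centralizer_of_isPGroup _ (coprime_card_pPrimeCore p G) hP
  rw [map_mk'_eq_pCore_of_sup_eq (pPrimeCore_sup_map_sylow P)] at h1
  have h2 := hsol.map (QuotientGroup.mk' (pPrimeCore p G))
  rw [h1] at h2
  exact isPConstrained_iff_quotient.2
    (h2.le_pCore_of_le_centralizer (pPrimeCore_quotient_pPrimeCore p G) le_rfl)

end Cfsg.Agent.S0629
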