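import Cfsg.Statements.S0632
import Cfsg.Agent.Trans.ZJFactor

set_option autoImplicit false
open Cfsg

namespace Cfsg.Agent.S0632

open Cfsg.Lib Cfsg.Lib.Trans Cfsg.Lib.Trans.TJ
open scoped commutatorElement

/-- For a group with a nontrivial normal p-subgroup, p-stability passes to and from the quotient by the largest normal subgroup of order prime to p. -/
theorem result {G : Type*} [Group G] [Finite G] {p : ℕ} [Fact p.Prime] (hO : Cfsg.pCore p G ≠ ⊥) : Cfsg.IsPStable p G ↔ Cfsg.IsPStable p (G ⧸ Cfsg.pPrimeCore p G) := by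
  set f := QuotientGroup.mk' (pPrimeCore p G) with hf
  have hfs : Function.Surjective f := QuotientGroup.mk'_surjective _
  have hk : (Nat.card f.ker).Coprime p := by
    rw [hf, QuotientGroup.ker_mk']; exact Solv.coprime_card_pPrimeCore p G
  have h0 : pPrimeCore p (G ⧸ pPrimeCore p G) = ⊥ := Solv.pPrimeCore_quotient_pPrimeCore p G
  constructor
  · intro h
    refine isPStable_iff.mpr ⟨h.1, fun h1 => hO ?_, ?_⟩
    · rw [eq_bot_iff, ← inf_ker_eq_bot_of_isPGroup hk (Solv.pCore_isPGroup p G)]
      refine le_inf le_rfl ?_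
      rw [← Subgroup.map_eq_bot_iff, eq_bot_iff, ← h1]
      exact Solv.map_pCore_le f hfs
    · intro A P hA hP _ _ hn hq a ha
      rw [h0, bot_sup_eq] at hn
      rw [Subgroup.normalizer_eq_top, inPCoreModIn_top]
      exact stable_quotient_of_isPStable h hA hP hq ha
  · intro h
    refine isPStable_iff.mpr ⟨h.1, hO, ?_⟩
    intro A P hA hP hAP h1 hn hq a ha
    have hn' : (P.map f).Normal := by
      have := hn.map f hfs
      rwa [Subgroup.map_sup, (Subgroup.map_eq_bot_iff _).mpr (by rw [hf, QuotientGroup.ker_mk']),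
        bot_sup_eq] at this
    have h2 := (isPStable_iff.mp h).2.2 (A.map f) (P.map f) (hA.map f) (hP.map f)
      ((Subgroup.map_mono hAP).trans (Subgroup.le_normalizer_map f))
      ((Solv.le_pCore hn' (hP.map f)).trans (Solv.pCore_le_pPrimePCore p _))
      (by rw [h0, bot_sup_eq]; exact hn')
      (by rw [← Subgroup.map_commutator, ← Subgroup.map_commutator, hq, Subgroup.map_bot])
      (f a) (Subgroup.mem_map_of_mem _ ha)
    refine (h2.comap.restrict (H' := Subgroup.normalizer (P : Set G)) ?_ (hAP ha)).of_le ?_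
    · rw [Subgroup.normalizer_eq_top (P.map f)]; exact le_top
    · rintro c ⟨hc1, hc2⟩ x hx
      have h3 : ⁅x, c⁆ ∈ P ⊓ f.ker := by
        refine ⟨Solv.commutator_le_left_of_le_normalizer le_rfl
          (Subgroup.commutator_mem_commutator hx hc1), ?_⟩
        show f ⁅x, c⁆ = 1
        rw [map_commutatorElement, commutatorElement_eq_one_iff_mul_comm]
        exact hc2 _ (Subgroup.mem_map_of_mem _ hx)
      rwa [inf_ker_eq_bot_of_isPGroup hk hP, Subgroup.mem_bot,
        commutatorElement_eq_one_iff_mul_comm] at h3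

end Cfsg.Agent.S0632
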