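import Cfsg.Statements.S0633
import Cfsg.Agent.Solv.HallHigmanCore

set_option autoImplicit false
open Cfsg Cfsg.Lib.Solv

namespace Cfsg.Agent.S0633

/-- Theorem B of Hall and Higman on the minimal polynomial of a p-element of order p^n in a p-solvable linear group on a nonzero vector space in characteristic p with no nontrivial normal p-subgroup: its degree is p^n, except when some p^n₀ - 1 (n₀ ≤ n) is a power of a prime q for which the Sylow q-subgroups are non-abelian, in which case the degree is at least p^(n-n₀)(p^n₀ - 1). -/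
theorem result {F : Type*} [Field F] {p : ℕ} [Fact p.Prime] [CharP F p] {V : Type*} [AddCommGroup V] [Module F V] [FiniteDimensional F V] [Nontrivial V] (H : Subgroup (V ≃ₗ[F] V)) [Finite H] (hsol : Cfsg.IsPSolvable p H) (hOp : Cfsg.pCore p H = ⊥) (x : V ≃ₗ[F] V) (hx : x ∈ H) (n : ℕ) (hn : orderOf x = p ^ n) (r : ℕ) (hr : minpoly F (x : Module.End F V) = (Polynomial.X - 1) ^ r) : r = p ^ n ∨ ∃ n₀ q m : ℕ, 1 ≤ n₀ ∧ n₀ ≤ n ∧ q.Prime ∧ 1 ≤ m ∧ p ^ n₀ - 1 = q ^ m ∧ (∀ Q : Sylow q H, ¬ IsMulCommutative Q) ∧ p ^ (n - n₀) * (p ^ n₀ - 1) ≤ r := by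
  have hp : p.Prime := Fact.out
  have hs : ((x : Module.End F V) - 1) ^ r = 0 := by
    have := minpoly.aeval F (x : Module.End F V)
    rwa [hr, map_pow, map_sub, Polynomial.aeval_X, map_one] at this
  let ρ : H →* Module.End F V :=
    (LinearEquiv.automorphismGroup.toLinearMapMonoidHom).comp H.subtype
  have hρ : Function.Injective ρ := fun a b h => Subtype.ext (LinearEquiv.toLinearMap_injective h)
  have hx1 : ρ ⟨x, hx⟩ ^ p ^ n = 1 := by
    rw [← map_pow, show (⟨x, hx⟩ : H) ^ p ^ n = 1 from Subtype.ext (hn ▸ pow_orderOf_eq_one x),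
      map_one]
  have hle : r ≤ p ^ n := by
    have h1 : minpoly F (x : Module.End F V) ∣ (Polynomial.X - 1) ^ p ^ n := by
      apply minpoly.dvd
      rw [map_pow, map_sub, Polynomial.aeval_X, map_one, HH.sub_one_pow_char_pow F p, sub_eq_zero]
      exact hx1
    rw [hr] at h1
    exact (pow_dvd_pow_iff (Polynomial.X_sub_C_ne_zero 1) (Polynomial.not_isUnit_X_sub_C 1)).1 h1
  cases n with
  | zero =>
    left
    have : r ≠ 0 := by
      rintro rfl
      rw [pow_zero] at hs
      exact one_ne_zero hs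
    rw [pow_zero] at hle ⊢
    omega
  | succ k =>
    rcases HH.thmB hsol hOp ρ hρ (x := ⟨x, hx⟩) (by rwa [Subgroup.orderOf_mk]) hs with h | h
    · exact Or.inl (le_antisymm hle h)
    · obtain ⟨n₀, q, m, h1, h2, hq, h3, h4, ⟨Q, -, hQ, hQc⟩, h5⟩ := h
      refine Or.inr ⟨n₀, q, m, h1, h2, hq, h3, h4, fun S hS => hQc ?_, h5⟩
      have := Fact.mk hq
      obtain ⟨T, hT⟩ := hQ.exists_le_sylow
      have : IsMulCommutative T := ⟨⟨fun a b => (Sylow.equiv T S).injective (by
        rw [map_mul, map_mul, hS.is_comm.comm])⟩⟩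
      exact ⟨⟨fun a b => Subgroup.inclusion_injective hT (by rw [map_mul, map_mul, mul_comm'])⟩⟩

end Cfsg.Agent.S0633
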