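import Cfsg.Statements.S0635
import Cfsg.Agent.Solv.PLength

set_option autoImplicit false
open Cfsg Cfsg.Lib.Solv

namespace Cfsg.Agent.S0635

universe u

theorem aux {p : ℕ} [Fact p.Prime] (c : ℕ) : ∀ (G : Type u) [Group G] [Finite G],
    IsPSolvable p G → ∀ S : Sylow p G, Group.nilpotencyClass (S : Subgroup G) ≤ c →
      PLengthLE p c G := by
  induction c with
  | zero =>
    intro G _ _ _ S hc
    have := S.isPGroup'.isNilpotent
    have h1 : Subsingleton (S : Subgroup G) :=
      Group.nilpotencyClass_zero_iff_subsingleton.1 (Nat.le_zero.1 hc)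
    have h2 : (S : Subgroup G) = ⊥ := Subgroup.eq_bot_of_subsingleton _
    refine PLengthLE.of_coprime ((Nat.Prime.coprime_iff_not_dvd Fact.out).2 fun h => ?_).symm
    exact S.ne_bot_of_dvd_card h h2
  | succ c ih =>
    intro G _ _ hG S hc
    have := S.isPGroup'.isNilpotent
    have hsurj := QuotientGroup.mk'_surjective (pPrimePCore p G)
    refine pLengthLE_succ_iff.2 (ih _ (hG.quotient _) (S.mapSurjective hsurj) ?_)
    let f := (QuotientGroup.mk' (pPrimePCore p G)).subgroupMap (S : Subgroup G)
    have hf : Subgroup.center (S : Subgroup G) ≤ f.ker := by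
      intro z hz
      rw [Subgroup.ker_subgroupMap, QuotientGroup.ker_mk', Subgroup.mem_subgroupOf]
      refine (isPConstrained_of_isPSolvable hG).centralizer_le S inf_le_left ?_
      rw [Subgroup.mem_centralizer_iff]
      intro y hy
      exact congrArg Subtype.val (Subgroup.mem_center_iff.1 hz ⟨y, hy⟩)
    have h1 := Group.nilpotencyClass_le_of_surjective (QuotientGroup.lift _ f hf)
      (QuotientGroup.lift_surjective_of_surjective _ f
        ((QuotientGroup.mk' (pPrimePCore p G)).subgroupMap_surjective _) hf)
    rw [Group.nilpotencyClass_quotient_center] at h1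
    exact h1.trans (by omega)

/-- The p-length of a p-soluble group is at most the nilpotency class of its Sylow p-subgroups. -/
theorem result {G : Type*} [Group G] [Finite G] {p : ℕ} [Fact p.Prime] (hsol : Cfsg.IsPSolvable p G) (S : Sylow p G) : Cfsg.PLengthLE p (Group.nilpotencyClass ↥(S : Subgroup G)) G := by
  exact aux _ G hsol S le_rfl

end Cfsg.Agent.S0635
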