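import Cfsg.Statements.S0638
import Cfsg.Agent.FT.BG4.Glue
import Cfsg.Agent.FT.Metacyclic
import Cfsg.Agent.S0126

set_option autoImplicit false
open Cfsg

namespace Cfsg.Agent.S0638

/-- For odd p, in a non-cyclic metacyclic p-group the elements of order dividing p generate an elementary abelian subgroup of order p². -/
theorem result {R : Type*} [Group R] [Finite R] {p : ℕ} [Fact p.Prime] (hp : p ≠ 2) (hR : IsPGroup p R) (hm : Cfsg.IsMetacyclic R) (hnc : ¬ IsCyclic R) : Cfsg.IsElementaryAbelian p (Cfsg.omegaOne p (⊤ : Subgroup R)) ∧ Nat.card ↥(Cfsg.omegaOne p (⊤ : Subgroup R)) = p ^ 2 := by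
  obtain ⟨A, -, hA, hA2⟩ := Cfsg.Agent.S0126.result hp hR hnc
  obtain ⟨Ω, h1, h2⟩ := Cfsg.Lib.FT.Metacyclic.exists_omega hp (R := (⊤ : Subgroup R))
    (hR.to_subgroup ⊤)
    (Cfsg.Lib.FT.Metacyclic.isMetacyclic_of_injective _ (⊤ : Subgroup R).subtype_injective hm)
  have h3 : A = Ω := Subgroup.eq_of_le_of_card_ge (fun x hx => (h1 x).2 ⟨trivial, hA.2 x hx⟩)
    (hA2 ▸ h2)
  rw [Cfsg.Lib.FT.BG4.omegaOne_eq_of_iff h1, ← h3]
  exact ⟨hA, hA2⟩

end Cfsg.Agent.S0638
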