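import Cfsg.Statements.S0642
import Cfsg.Agent.Solv.Regular

set_option autoImplicit false
open Cfsg

namespace Cfsg.Agent.S0642


open Cfsg.Lib.Solv Subgroup
open scoped commutatorElement

/-- Among finite 2-groups the regular ones are exactly the abelian ones. -/
theorem result {G : Type*} [Group G] [Finite G] (hG : IsPGroup 2 G) : Cfsg.IsRegularPGroup 2 G ↔ ∀ a b : G, a * b = b * a := by
  refine ⟨fun h a b => ?_, fun h => Reg.isRegularPGroup hG (reg_of_comm h)⟩
  obtain ⟨c, hc, h1⟩ := reg_of_isRegularPGroup h a b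
  set K := closure ({a, b} : Set G) with hK
  have hN : K ≤ normalizer (powerClosure 2 1 ⁅K, K⁆ : Set G) :=
    (left_le_normalizer_commutator K K).trans (PG.normalizer_le_normalizer_powerClosure 1 _)
  have h2 : ⁅a, b⁆ = (a * b * b) * c⁻¹ * (a * b * b)⁻¹ := by
    have h3 : c = (a ^ 2 * b ^ 2)⁻¹ * (a * b) ^ 2 := by rw [h1]; group
    rw [h3]
    simp only [commutatorElement_def, pow_two]
    group
  have h3 := commutator_closure_pair_le hN (h2 ▸ conj_mem_of_mem_normalizer
    (hN (mul_mem (mul_mem (left_mem_closure_pair a b) (right_mem_closure_pair a b))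
      (right_mem_closure_pair a b))) (inv_mem hc))
  have h4 : ⁅K, K⁆ = ⊥ := by
    by_contra hne
    exact (PG.powerClosure_one_lt (hG.to_subgroup _) hne).not_ge h3
  have h5 := commutator_mem_commutator (left_mem_closure_pair a b) (right_mem_closure_pair a b)
  rwa [← hK, h4, mem_bot, commutatorElement_eq_one_iff_mul_comm] at h5

end Cfsg.Agent.S0642
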