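import Cfsg.Statements.S0646
import Cfsg.Agent.Trans.CyclicIndexP

set_option autoImplicit false
open Cfsg

namespace Cfsg.Agent.S0646



/-- Classification of non-abelian 2-groups with a cyclic maximal subgroup: dihedral, generalized quaternion, and for order at least 16 the modular group and the semidihedral group, each given by generators a (of index 2) and b with the stated relations. -/
theorem result {G : Type*} [Group G] [Finite G] (n : ℕ) (hn : 3 ≤ n) (hG : Nat.card G = 2 ^ n) (C : Subgroup G) (hC : IsCyclic C) (hCi : C.index = 2) (hna : ∃ x y : G, x * y ≠ y * x) : ∃ a b : G, orderOf a = 2 ^ (n - 1) ∧ b ∉ Subgroup.zpowers a ∧ ((b ^ 2 = 1 ∧ b * a * b⁻¹ = a⁻¹) ∨ (b ^ 2 = a ^ (2 ^ (n - 2)) ∧ b * a * b⁻¹ = a⁻¹) ∨ (4 ≤ n ∧ b ^ 2 = 1 ∧ b * a * b⁻¹ = a ^ (1 + 2 ^ (n - 2))) ∨ (4 ≤ n ∧ b ^ 2 = 1 ∧ b * a * b⁻¹ = a ^ (2 ^ (n - 2) - 1))) := by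
  obtain ⟨m, rfl⟩ := Nat.exists_eq_add_of_le' hn
  obtain ⟨a, b, -, ha, hb, h⟩ := Cfsg.Lib.Trans.two_group_cyclic_index_two hG C hC hCi hna
  have e1 : m + 3 - 1 = m + 2 := rfl
  have e2 : m + 3 - 2 = m + 1 := rfl
  have e3 : 2 ^ (m + 1) = 2 * 2 ^ m := by ring
  rw [e1, e2, e3]
  refine ⟨a, b, by rw [ha]; ring, hb, ?_⟩
  rcases h with h | h | ⟨hm, h1, h2⟩ | ⟨hm, h1, h2⟩
  · exact Or.inl h
  · exact Or.inr (Or.inl h)
  · refine Or.inr (Or.inr (Or.inl ⟨by omega, h1, ?_⟩))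
    rw [h2, ← zpow_natCast]
    push_cast
    rfl
  · refine Or.inr (Or.inr (Or.inr ⟨by omega, h1, ?_⟩))
    have : 1 ≤ 2 * 2 ^ m := Nat.succ_le_of_lt (by positivity)
    rw [h2, ← zpow_natCast]
    push_cast [this]
    rfl

end Cfsg.Agent.S0646
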