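import Cfsg.Statements.S0657
import Cfsg.Agent.Trans.DicksonFree
import Cfsg.Agent.Solv.PConstrained

set_option autoImplicit false
open Cfsg

open Cfsg.Lib.Trans Cfsg.Lib.Trans.Quad Cfsg.Lib.Solv

namespace Cfsg.Agent.S0657

/-- For odd p, a group that fails to be p-stable modulo its largest normal subgroup of order prime to p, and whose upper p-series does not stop there, has a section isomorphic to SL(2, p). -/
theorem result {G : Type*} [Group G] [Finite G] {p : ℕ} [Fact p.Prime] (hp : p ≠ 2) (hO : Cfsg.pPrimeCore p G < Cfsg.pPrimePCore p G) (hns : ¬ Cfsg.IsPStable p (G ⧸ Cfsg.pPrimeCore p G)) : ∃ (K L : Subgroup G) (hL : (L.subgroupOf K).Normal), K ≤ ⊤ ∧ Nonempty ((K ⧸ L.subgroupOf K) ≃* Matrix.SpecialLinearGroup (Fin 2) (ZMod p)) := by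
  have h1 : Cfsg.pCore p (G ⧸ Cfsg.pPrimeCore p G) ≠ ⊥ := by
    intro h
    apply hO.not_ge
    rw [pPrimePCore, h, MonoidHom.comap_bot, QuotientGroup.ker_mk']
  have h2 : Involves (Matrix.SpecialLinearGroup (Fin 2) (ZMod p)) (G ⧸ Cfsg.pPrimeCore p G) :=
    involves_of_not_transvFree hp fun hT => hns (hT.isPStable hp h1)
  obtain ⟨K, L, hL, h⟩ := involves_trans h2 (involves_quotient _)
  exact ⟨K, L, hL, le_top, h⟩

end Cfsg.Agent.S0657
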