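import Cfsg.Statements.S0658
import Cfsg.Agent.Trans.ZJFactor

set_option autoImplicit false
open Cfsg

namespace Cfsg.Agent.S0658

open Cfsg.Lib Cfsg.Lib.Trans Cfsg.Lib.Trans.TJ
open scoped commutatorElement

/-- In a group of characteristic p type all of whose p-locals are p-stable (p odd), the normalizer of Z(J(P)) contains the normalizer of every nontrivial subgroup of the Sylow p-subgroup P. -/
theorem result {G : Type*} [Group G] [Finite G] {p : ℕ} [Fact p.Prime] (hp : p ≠ 2) (hloc : ∀ Q : Subgroup G, IsPGroup p Q → Q ≠ ⊥ → Cfsg.pPrimeCore p ↥(Subgroup.normalizer (Q : Set G)) = ⊥ ∧ Cfsg.IsPConstrained p ↥(Subgroup.normalizer (Q : Set G)) ∧ Cfsg.IsPStable p ↥(Subgroup.normalizer (Q : Set G))) (P : Sylow p G) (Q : Subgroup G) (hQP : Q ≤ (P : Subgroup G)) (hQ1 : Q ≠ ⊥) : Subgroup.normalizer (Q : Set G) ≤ Subgroup.normalizer (Cfsg.centerThompsonAOf ((P : Subgroup G)) : Set G) := by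
  rw [← centerThompsonOf_zero]
  set M := Subgroup.normalizer (centerThompsonOf 0 (P : Subgroup G) : Set G) with hM
  have hPM : (P : Subgroup G) ≤ M :=
    Subgroup.le_normalizer.trans (normalizer_le_normalizer_centerThompsonOf 0 _)
  have hloc' : ∀ Q R : Subgroup G, IsPGroup p Q → Q ≠ ⊥ →
      IsSylowIn p R (Subgroup.normalizer (Q : Set G)) →
      Subgroup.normalizer (Q : Set G) ≤ Subgroup.normalizer (centerThompsonOf 0 R : Set G) := by
    intro Q R hQ hQ1 hR
    obtain ⟨h1, h2, h3⟩ := hloc Q hQ hQ1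
    have h4 := zj_sup_normal hp (Or.inl rfl) h2 (stableOnNormal_quotient_of_isPStable h3) hR.toSylow
    rw [h1, bot_sup_eq] at h4
    have h5 := @Solv.le_normalizer_map_subtype _ _ _ (centerThompsonOf 0
      (hR.toSylow : Subgroup ↥(Subgroup.normalizer (Q : Set G)))) h4
    rwa [map_centerThompsonOf 0 _ (Subgroup.subtype_injective _), hR.map_toSylow] at h5
  have key : ∀ (k : ℕ) (Q : Subgroup G), Q ≤ P → Q ≠ ⊥ →
      Nat.card (P : Subgroup G) - Nat.card ↥((P : Subgroup G) ⊓ Subgroup.normalizer (Q : Set G)) = k →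
      Subgroup.normalizer (Q : Set G) ≤ M := by
    intro k
    induction k using Nat.strong_induction_on with
    | _ k ih =>
    intro Q hQP hQ1 hk
    have hQ : IsPGroup p Q := P.isPGroup'.to_le hQP
    set R₀ := (P : Subgroup G) ⊓ Subgroup.normalizer (Q : Set G) with hR₀
    have ih' : ∀ Q' : Subgroup G, Q' ≤ P → Q' ≠ ⊥ → Nat.card R₀ <
        Nat.card ↥((P : Subgroup G) ⊓ Subgroup.normalizer (Q' : Set G)) →
        Subgroup.normalizer (Q' : Set G) ≤ M := fun Q' h1 h2 h3 =>
      ih _ (by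
        have := card_le_of_le (inf_le_left : (P : Subgroup G) ⊓ Subgroup.normalizer (Q' : Set G) ≤ P)
        omega) Q' h1 h2 rfl
    have hQR₀ : Q ≤ R₀ := le_inf hQP Subgroup.le_normalizer
    have hR₀1 : R₀ ≠ ⊥ := fun h => hQ1 (eq_bot_iff.mpr (h ▸ hQR₀))
    obtain ⟨R, hR, hR₀R⟩ := exists_isSylowIn_ge (P.isPGroup'.to_inf_left : IsPGroup p R₀)
      (inf_le_right : R₀ ≤ _)
    rcases (inf_le_left : R₀ ≤ P).eq_or_lt with h1 | h1
    · have h2 : R = P := (isSylowIn_top P).eq_of_le hR.isPGroup (h1 ▸ hR₀R) le_top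
      have := hloc' Q R hQ hQ1 hR
      rwa [h2] at this
    have h3 := lt_inf_normalizer P.isPGroup' h1
    rcases hR₀R.eq_or_lt with h2 | h2
    · refine (hloc' Q R hQ hQ1 hR).trans (ih' _ ?_ ?_ ?_)
      · exact (centerThompsonOf_le 0 R).trans (h2 ▸ h1.le)
      · exact centerThompsonOf_ne_bot (Or.inl rfl) hR.isPGroup (h2 ▸ hR₀1)
      · refine card_lt_of_lt (h3.trans_le (inf_le_inf_left _ ?_))
        rw [h2]
        exact normalizer_le_normalizer_centerThompsonOf 0 R
    · have h4 : Subgroup.normalizer (R₀ : Set G) ≤ M := ih' R₀ h1.le hR₀1 (card_lt_of_lt h3)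
      have h5 := lt_inf_normalizer hR.isPGroup h2
      obtain ⟨m, hm, hmR⟩ := (isSylowIn_of_le P hPM).exists_cj_le
        (hR.isPGroup.to_inf_left : IsPGroup p ↥(R ⊓ Subgroup.normalizer (R₀ : Set G)))
        (inf_le_right.trans h4)
      have h6 := ih' (cj m Q) ((cj_mono m (hQR₀.trans h5.le)).trans hmR) (by rwa [Ne, cj_eq_bot]) (by
        refine (card_lt_of_lt h5).trans_le ?_
        rw [← card_cj m]
        refine card_le_of_le (le_inf hmR ?_)
        rw [← cj_normalizer]
        exact cj_mono m (inf_le_left.trans hR.le))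
      rw [← cj_normalizer, ← cj_eq_of_mem hm, cj_le_cj] at h6
      exact h6
  exact key _ Q hQP hQ1 rfl

end Cfsg.Agent.S0658
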