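import Cfsg.Statements.S0660
import Cfsg.Agent.Solv.CoprimeAbelian

set_option autoImplicit false
open Cfsg

open Subgroup Cfsg.Lib.Solv

namespace Cfsg.Agent.S0660

/-- Under a coprime action on an abelian group, an invariant subgroup that is complemented admits an invariant complement. -/
theorem result {G : Type*} [Group G] [Finite G] (V A U : Subgroup G) (hVab : IsMulCommutative V) (hAV : A ≤ Subgroup.normalizer (V : Set G)) (hcop : (Nat.card A).Coprime (Nat.card V)) (hUV : U ≤ V) (hAU : A ≤ Subgroup.normalizer (U : Set G)) (W : Subgroup G) (hWV : W ≤ V) (hUW : U ⊓ W = ⊥) (hUWV : U ⊔ W = V) : ∃ W' : Subgroup G, W' ≤ V ∧ A ≤ Subgroup.normalizer (W' : Set G) ∧ U ⊓ W' = ⊥ ∧ U ⊔ W' = V := by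
  exact Coprime.exists_invariant_complement hAV hAU
    (hcop.coprime_dvd_right (card_dvd_of_le hUV)) hUW hUWV

end Cfsg.Agent.S0660
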