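import Cfsg.Statements.S0661
import Cfsg.Agent.Solv.PConstrained

set_option autoImplicit false
open Cfsg

open Subgroup Cfsg.Lib.Solv

namespace Cfsg.Agent.S0661

/-- If, modulo the largest normal subgroup of order prime to p, the largest normal p-subgroup contains its centralizer, then for every p-subgroup P the p'-core of N_G(P) is just O_p'(G) ∩ N_G(P). -/
theorem result {G : Type*} [Group G] [Finite G] {p : ℕ} [Fact p.Prime] (hc : Subgroup.centralizer (Cfsg.pCore p (G ⧸ Cfsg.pPrimeCore p G) : Set (G ⧸ Cfsg.pPrimeCore p G)) ≤ Cfsg.pCore p (G ⧸ Cfsg.pPrimeCore p G)) (P : Subgroup G) (hP : IsPGroup p P) : (Cfsg.pPrimeCore p ↥(Subgroup.normalizer (P : Set G))).map (Subgroup.normalizer (P : Set G)).subtype = Cfsg.pPrimeCore p G ⊓ Subgroup.normalizer (P : Set G) := by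
  refine le_antisymm (le_inf ?_ (map_subtype_le _)) (pPrimeCore_inf_le_map _)
  set N := normalizer (P : Set G) with hN
  let f := QuotientGroup.mk' (pPrimeCore p G)
  have h0 := pPrimeCore_eq_bot_of_centralizer_le (centralizer_pCore_le_normalizer hc (hP.map f))
  have h1 : N.map f = _ := map_mk'_normalizer_of_isPGroup _ (coprime_card_pPrimeCore p G) hP
  have h2 : ((pPrimeCore p N).map N.subtype).map f ≤
      (pPrimeCore p (N.map f)).map (N.map f).subtype := by
    rintro _ ⟨_, ⟨x, hx, rfl⟩, rfl⟩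
    exact ⟨_, map_pPrimeCore_le (f.subgroupMap N) (f.subgroupMap_surjective N) ⟨x, hx, rfl⟩, rfl⟩
  rw [h1, h0, Subgroup.map_bot, le_bot_iff, Subgroup.map_eq_bot_iff, QuotientGroup.ker_mk'] at h2
  exact h2

end Cfsg.Agent.S0661
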