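import Cfsg.Statements.S0662
import Cfsg.Agent.Trans.MaxClass

set_option autoImplicit false
open Cfsg

namespace Cfsg.Agent.S0662

open Cfsg.Lib.Trans Cfsg.Lib.Solv Subgroup


/-- In a p-group of maximal class of order at least p³ the normal subgroups of index at least p² are exactly the terms of the lower central series, and there are exactly p + 1 normal subgroups of index p. -/
theorem result {G : Type*} [Group G] [Finite G] {p : ℕ} [Fact p.Prime] (n : ℕ) (hG : Nat.card G = p ^ n) (hcl : Group.nilpotencyClass G = n - 1) (hn : 3 ≤ n) : (∀ (N : Subgroup G) [N.Normal] (r : ℕ), 2 ≤ r → N.index = p ^ r → N = (⊤ : Subgroup G).lowerCentralSeries (r - 1)) ∧ Nat.card {N : Subgroup G // N.Normal ∧ N.index = p} = p + 1 := by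
  have hp : p.Prime := Fact.out
  have hP := IsPGroup.of_card hG
  obtain ⟨m, rfl⟩ := Nat.exists_eq_add_of_le' (show 2 ≤ n by omega)
  have hl := (nilpotencyClass_eq_iff_lowerCentralSeries_ne_bot hG).mp hcl
  constructor
  · intro N _ r hr hN
    obtain ⟨i, rfl⟩ := Nat.exists_eq_add_of_le' hr
    have h1 := N.index_mul_card
    rw [hN, hG] at h1
    have hi : i ≤ m := by
      have := (Nat.pow_dvd_pow_iff_le_right hp.one_lt).mp (Dvd.intro _ h1)
      omega
    refine MaxClass.eq_lowerCentralSeries hG hl N hi ?_
    apply Nat.eq_of_mul_eq_mul_left (pow_pos hp.pos (i + 2))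
    rw [h1, ← pow_add]
    congr 1
    omega
  · have hq : Nat.card (G ⧸ commutator G) = p ^ 2 := MaxClass.index_commutator hG hl
    rw [← card_subgroups_of_not_isCyclic_sq hq (MaxClass.not_isCyclic_quotient hG hl (by omega))]
    have hs := QuotientGroup.mk'_surjective (commutator G)
    have key : ∀ H : Subgroup (G ⧸ commutator G), H.index = p ↔ Nat.card H = p := by
      intro H
      have h1 := H.index_mul_card
      rw [hq, sq] at h1
      constructor
      · intro h
        rw [h] at h1
        exact Nat.eq_of_mul_eq_mul_left hp.pos h1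
      · intro h
        rw [h] at h1
        exact Nat.eq_of_mul_eq_mul_right hp.pos h1
    symm
    refine Nat.card_congr (Equiv.ofBijective (fun H => ⟨H.1.comap (QuotientGroup.mk' _),
      PG.normal_of_index_eq_prime hP (by rw [index_comap_of_surjective _ hs, key, H.2]),
      by rw [index_comap_of_surjective _ hs, key, H.2]⟩) ⟨?_, ?_⟩)
    · intro H K h
      exact Subtype.ext (comap_injective hs (congrArg Subtype.val h))
    · rintro ⟨N, h1, h2⟩
      have h3 := PG.commutator_le_of_index_eq_prime hP h2
      have h4 : (N.map (QuotientGroup.mk' (commutator G))).comap (QuotientGroup.mk' _) = N :=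
        comap_map_eq_self (by rwa [QuotientGroup.ker_mk'])
      refine ⟨⟨N.map (QuotientGroup.mk' _), ?_⟩, Subtype.ext h4⟩
      rw [← key, ← index_comap_of_surjective _ hs, h4, h2]

end Cfsg.Agent.S0662
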