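import Cfsg.Statements.S0663
import Cfsg.Agent.Trans.Uniserial

set_option autoImplicit false
open Cfsg

namespace Cfsg.Agent.S0663

open Cfsg.Lib.Trans Cfsg.Lib.Solv


/-- A p-group acts uniserially on a p-group N of order p^n exactly when the iterated commutator chain from N has length n; in that case the chain terms are all the invariant subgroups of N and they are normal in N. -/
theorem result {L : Type*} [Group L] [Finite L] {p : ℕ} [Fact p.Prime] (N G : Subgroup L) (hN : IsPGroup p N) (hG : IsPGroup p G) (hGN : G ≤ Subgroup.normalizer (N : Set L)) (n : ℕ) (hn : Nat.card N = p ^ n) : ((∀ H : Subgroup L, H ≤ N → G ≤ Subgroup.normalizer (H : Set L) → H ≠ ⊥ → (⁅H, G⁆).relIndex H = p) ↔ Cfsg.iterCommutator N G (n - 1) ≠ ⊥ ∨ n = 0) ∧ ((∀ H : Subgroup L, H ≤ N → G ≤ Subgroup.normalizer (H : Set L) → H ≠ ⊥ → (⁅H, G⁆).relIndex H = p) → ∀ H : Subgroup L, H ≤ N → G ≤ Subgroup.normalizer (H : Set L) → (∃ i ≤ n, H = Cfsg.iterCommutator N G i) ∧ N ≤ Subgroup.normalizer (H : Set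 L)) := by
  have hp : p.Prime := Fact.out
  have h1 : (∀ H : Subgroup L, H ≤ N → G ≤ Subgroup.normalizer (H : Set L) → H ≠ ⊥ → (⁅H, G⁆).relIndex H = p) → (Cfsg.iterCommutator N G (n - 1) ≠ ⊥ ∨ n = 0) := by
    intro h
    rcases Nat.eq_zero_or_pos n with h0 | h0
    · exact Or.inr h0
    · refine Or.inl fun hb => ?_
      have := card_iterCommutator_of_uniserial hGN hn h (Nat.sub_le n 1)
      rw [hb, Subgroup.card_bot, show n - (n - 1) = 1 by omega, pow_one] at this
      exact hp.one_lt.ne this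
  refine ⟨⟨h1, fun hlong H hHN hGH hne => ?_⟩, fun h H hHN hGH => ?_⟩
  · obtain ⟨i, hi, rfl, hc⟩ := exists_eq_iterCommutator hN hG hGN hn hlong hHN hGH
    have hi' : i + 1 ≤ n := by
      refine lt_of_le_of_ne hi ?_
      rintro rfl
      rw [Nat.sub_self, pow_zero, Subgroup.card_eq_one] at hc
      exact hne hc
    have h2 := (card_iterCommutator_and_normal hN hG hGN hn hlong hi').1
    refine PG.relIndex_eq_of_card_eq_mul (iterCommutator_succ_le hGN i) ?_
    rw [hc, ← iterCommutator_succ, h2, ← pow_succ']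
    congr 1
    omega
  · obtain ⟨i, hi, rfl, -⟩ := exists_eq_iterCommutator hN hG hGN hn (h1 h) hHN hGH
    exact ⟨⟨i, hi, rfl⟩, (card_iterCommutator_and_normal hN hG hGN hn (h1 h) hi).2⟩

end Cfsg.Agent.S0663
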