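import Cfsg.Statements.S0666
import Cfsg.Agent.Solv.FrobeniusComplement
import Cfsg.Agent.S0035

set_option autoImplicit false
open Cfsg

namespace Cfsg.Agent.S0666

/-- A Frobenius group acting on a nontrivial abelian group of order prime to that of its kernel, with the kernel acting without nontrivial fixed points, has a complement with a nontrivial fixed point. -/
theorem result {G : Type*} [Group G] [Finite G] (V F : Subgroup G) (hVab : IsMulCommutative V) (hV1 : V ≠ ⊥) (hFV : F ≤ Subgroup.normalizer (V : Set G)) (H : Subgroup ↥F) (hH : Cfsg.IsFrobeniusComplement H) (hcop : (Nat.card V).Coprime (Nat.card (Cfsg.frobeniusKernel H))) (hCK : V ⊓ Subgroup.centralizer (Subtype.val '' Cfsg.frobeniusKernel H : Set G) = ⊥) : V ⊓ Subgroup.centralizer ((H.map F.subtype : Subgroup G) : Set G) ≠ ⊥ := by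
  obtain ⟨N, hNK, hN, hc⟩ := Cfsg.Agent.S0035.result H hH
  have hm := Cfsg.Lib.Solv.isMalnormal_of_isFrobeniusComplement hH
  have hfpf := hm.fpf_of_disjoint (disjoint_iff.1 hc.disjoint)
  intro hV
  have hcard : Nat.card (N.map F.subtype) = Nat.card (Cfsg.frobeniusKernel H) := by
    rw [Cfsg.Lib.Solv.card_map_subtype, ← hNK]; rfl
  have h := Cfsg.Lib.Solv.Fpf.le_centralizer_of_frobenius (V := V) (K := N.map F.subtype)
    (H := H.map F.subtype) ((Subgroup.map_subtype_le _).trans hFV)
    ((Subgroup.map_subtype_le _).trans hFV)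
    ((Subgroup.map_subtype_le _).trans (Cfsg.Lib.Solv.le_normalizer_map_subtype N))
    (by
      rintro _ ⟨h, hh, rfl⟩ hne
      exact Cfsg.Lib.Solv.Fpf.map F.subtype (by rw [Subgroup.normalizer_eq_top]; trivial)
        (hfpf h hh (by rintro rfl; exact hne rfl)))
    (by rwa [hcard]) hV
  apply hV1
  rw [eq_bot_iff, ← hCK, ← hNK]
  exact le_inf le_rfl h

end Cfsg.Agent.S0666
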