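import Cfsg.Statements.S0668
import Mathlib.LinearAlgebra.Matrix.ToLin
import Mathlib.LinearAlgebra.Dimension.Constructions

set_option autoImplicit false
open Cfsg

namespace Cfsg.Agent.S0668

open Classical in
/-- the kernel of an equivariant map, as a function on the orbits on pairs -/
noncomputable def kerEquiv {G : Type*} [Group G] {K : Type*} [Field K] {Ω₁ Ω₂ : Type*}
    [Fintype Ω₁] [Fintype Ω₂] [MulAction G Ω₁] [MulAction G Ω₂] :
    (MulAction.orbitRel.Quotient G (Ω₁ × Ω₂) → K) →ₗ[K]
      ((Cfsg.permRep K G Ω₁).linHom (Cfsg.permRep K G Ω₂)).invariants where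
  toFun F := ⟨{ toFun := fun v y => ∑ x, F (Quotient.mk _ (x, y)) * v x
                map_add' := fun v w => by
                  ext y; simp [mul_add, Finset.sum_add_distrib]
                map_smul' := fun c v => by
                  ext y; simp [Finset.mul_sum, mul_left_comm] }, by
    intro g
    apply LinearMap.ext
    intro v
    ext y
    change ∑ x, F (Quotient.mk _ (x, g⁻¹ • y)) * v (g⁻¹⁻¹ • x) = ∑ x, F (Quotient.mk _ (x, y)) * v x
    refine Fintype.sum_equiv (MulAction.toPerm g) _ _ fun x => ?_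
    have : (Quotient.mk _ (x, g⁻¹ • y) : MulAction.orbitRel.Quotient G (Ω₁ × Ω₂)) =
        Quotient.mk _ (g • x, y) := by
      apply Quotient.sound
      exact ⟨g⁻¹, by simp⟩
    simp [this]⟩
  map_add' F F' := by
    apply Subtype.ext
    apply LinearMap.ext
    intro v
    ext y
    simp [add_mul, Finset.sum_add_distrib]
  map_smul' c F := by
    apply Subtype.ext
    apply LinearMap.ext
    intro v
    ext y
    simp [Finset.mul_sum, mul_assoc]

open Classical in
theorem kerEquiv_bijective {G : Type*} [Group G] {K : Type*} [Field K] {Ω₁ Ω₂ : Type*}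
    [Fintype Ω₁] [Fintype Ω₂] [MulAction G Ω₁] [MulAction G Ω₂] :
    Function.Bijective (kerEquiv (G := G) (K := K) (Ω₁ := Ω₁) (Ω₂ := Ω₂)) := by
  constructor
  · intro F F' h
    ext q
    obtain ⟨⟨x, y⟩, rfl⟩ := Quotient.exists_rep q
    have := congrArg (fun f : ((Cfsg.permRep K G Ω₁).linHom (Cfsg.permRep K G Ω₂)).invariants =>
      f.1 (Pi.single x 1) y) h
    simpa [kerEquiv, Pi.single_apply] using this
  · rintro ⟨f, hf⟩
    refine ⟨Quotient.lift (fun p : Ω₁ × Ω₂ => f (Pi.single p.1 1) p.2) ?_, ?_⟩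
    · rintro ⟨x, y⟩ ⟨x', y'⟩ ⟨g, hg⟩
      have hx : g • x' = x := congrArg Prod.fst hg
      have hy : g • y' = y := congrArg Prod.snd hg
      have h1 := congrArg (fun f : (Ω₁ → K) →ₗ[K] (Ω₂ → K) => f (Pi.single x 1) y) (hf g)
      simp only at h1 ⊢
      rw [← h1]
      change f (fun z => (Pi.single x 1 : Ω₁ → K) (g⁻¹⁻¹ • z)) (g⁻¹ • y) = _
      rw [← hy, inv_smul_smul]
      have : (fun z => (Pi.single x 1 : Ω₁ → K) (g⁻¹⁻¹ • z)) = Pi.single x' 1 := by
        ext z
        simp [Pi.single_apply, ← hx]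
      rw [this]
    · apply Subtype.ext
      apply LinearMap.ext
      intro v
      ext y
      change ∑ x, f (Pi.single x 1) y * v x = f v y
      conv_rhs => rw [pi_eq_sum_univ' v]
      simp [mul_comm]


/-- The equivariant linear maps between the permutation modules of two finite `G`-sets form a space whose dimension is the number of `G`-orbits on the product of the two sets. -/
theorem result {G : Type*} [Group G] {K : Type*} [Field K] {Ω₁ Ω₂ : Type*} [Fintype Ω₁] [Fintype Ω₂] [MulAction G Ω₁] [MulAction G Ω₂] : Module.finrank K ((Cfsg.permRep K G Ω₁).linHom (Cfsg.permRep K G Ω₂)).invariants = Nat.card (MulAction.orbitRel.Quotient G (Ω₁ × Ω₂)) := by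
  classical
  rw [← (LinearEquiv.ofBijective _ kerEquiv_bijective).finrank_eq]
  have : Fintype (MulAction.orbitRel.Quotient G (Ω₁ × Ω₂)) := Fintype.ofFinite _
  simp

end Cfsg.Agent.S0668
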