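import Cfsg.Statements.S0673
import Cfsg.Agent.Perm.PrimeDeg

set_option autoImplicit false
open Cfsg

namespace Cfsg.Agent.S0673

open Cfsg.Lib.Perm


/-- In characteristic `p`, the translation-invariant subspaces of the space of functions on `ZMod p` are exactly the spaces of polynomial functions of degree less than `r`, one for each `r ≤ p`, of dimension `r`. -/
theorem result {p : ℕ} [Fact p.Prime] {K : Type*} [Field K] [CharP K p] (W : Submodule K (ZMod p → K)) (hW : ∀ f ∈ W, (fun j => f (j - 1)) ∈ W) : ∃ r : ℕ, r ≤ p ∧ Module.finrank K W = r ∧ ∀ f : ZMod p → K, f ∈ W ↔ ∃ P : Polynomial K, P.degree < r ∧ ∀ j : ZMod p, f j = P.eval (ZMod.cast j : K) := by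
  have hpow : ∀ n : ℕ, ∀ f ∈ W, (fun j => f (j - n)) ∈ W := by
    intro n
    induction n with
    | zero => intro f hf; simpa using hf
    | succ n ih =>
      intro f hf
      have := hW _ (ih f hf)
      convert this using 3
      push_cast
      ring
  have h := eq_polySpace_of_cycle_invariant (K := K) (c := Equiv.addRight (1 : ZMod p))
    (e := Equiv.refl _) (fun j => rfl) W (fun f hf => by
      have := hpow (-1 : ZMod p).val f hf
      simpa using this)
  refine ⟨Module.finrank K W, by simpa using Submodule.finrank_le W, rfl, fun f => ?_⟩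
  conv_lhs => rw [h]
  rw [mem_polySpace]
  rfl

end Cfsg.Agent.S0673
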