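import Cfsg.Statements.S0677
import Cfsg.Agent.Perm.PrimeDeg2

set_option autoImplicit false
open Cfsg

namespace Cfsg.Agent.S0677

open Cfsg.Lib.Perm MulAction

/-- A symmetric difference set in `ZMod p` is trivial (computation modulo `p`). -/
theorem symm_difference_set {p : ℕ} [hp : Fact p.Prime] (h2 : (2 : ZMod p) ≠ 0)
    (U : ZMod p → ZMod p) (hU : ∀ i, U (-i) = U i) (hsq : ∀ i, U i * U i = U i)
    (hk : ∑ i, U i ≠ 0) (l : ZMod p) (hl : ∀ x, x ≠ 0 → ∑ j, U (x + j) * U j = l) :
    ∀ x, x ≠ 0 → U x ≠ U 0 := by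
  classical
  set k := ∑ i, U i with hkdef
  let A : (ZMod p → ZMod p) →ₗ[ZMod p] (ZMod p → ZMod p) :=
    { toFun := fun f x => ∑ j, U (x - j) * f j + k * f x
      map_add' := fun f g => by
        ext x
        simp only [Pi.add_apply, mul_add, Finset.sum_add_distrib]
        ring
      map_smul' := fun r f => by
        ext x
        simp only [Pi.smul_apply, smul_eq_mul, RingHom.id_apply, mul_add, Finset.mul_sum]
        congr 1
        · exact Finset.sum_congr rfl fun j _ => by ring
        · ring }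
  have hA : ∀ f x, A f x = ∑ j, U (x - j) * f j + k * f x := fun f x => rfl
  have hsum : ∀ x, ∑ j, U (x - j) = k := fun x => Equiv.sum_comp (Equiv.subLeft x) U
  have hker : LinearMap.ker A = ⊥ := by
    by_contra hne
    have := const_mem_of_cycle_invariant (K := ZMod p) (c := Equiv.addRight (1 : ZMod p))
      (e := Equiv.refl _) (fun j => rfl) (LinearMap.ker A) (fun f hf => by
        rw [LinearMap.mem_ker] at hf ⊢
        ext x
        have h1 := congrFun hf (x + 1)
        rw [hA] at h1 ⊢
        rw [Pi.zero_apply] at h1 ⊢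
        rw [← h1, ← Equiv.sum_comp (Equiv.addRight (1 : ZMod p)) fun j => U (x + 1 - j) * f j]
        simp) hne 1
    have h1 := congrFun (LinearMap.mem_ker.mp this) 0
    rw [hA] at h1
    simp only [mul_one, hsum, Pi.zero_apply] at h1
    exact hk ((mul_eq_zero.mp (by linear_combination h1 : 2 * k = 0)).resolve_left h2)
  have hconv : ∀ x, ∑ j, U (x - j) * U j = l + (k - l) * (Pi.single 0 1 : ZMod p → ZMod p) x := by
    intro x
    by_cases hx : x = 0
    · subst hx
      simp [hU, hsq, hkdef]
    · rw [Pi.single_eq_of_ne hx, mul_zero, add_zero, ← hl (-x) (neg_ne_zero.mpr hx)]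
      refine Finset.sum_congr rfl fun j _ => ?_
      rw [← hU (x - j)]
      congr 2
      ring
  have hkk : k * k = k - l := by
    have h1 : ∑ x, ∑ j, U (x - j) * U j = k * k := by
      rw [Finset.sum_comm]
      simp only [← Finset.sum_mul]
      have : ∀ j, ∑ x, U (x - j) = k := fun j => Equiv.sum_comp (Equiv.subRight j) U
      simp only [this, ← Finset.mul_sum]
      rfl
    rw [← h1]
    simp only [hconv, Finset.sum_add_distrib, ← Finset.mul_sum]
    simp
  have hzero : A (U - k • Pi.single 0 1 - fun _ => l * (2 * k)⁻¹) = 0 := by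
    ext x
    have h1 : ∑ j, U (x - j) * (Pi.single 0 1 : ZMod p → ZMod p) j = U x := by
      rw [Finset.sum_eq_single 0]
      · simp
      · intro b _ hb
        simp [hb]
      · simp
    rw [map_sub, map_sub, map_smul]
    simp only [Pi.sub_apply, Pi.smul_apply, hA, hconv, h1, ← Finset.sum_mul, hsum, smul_eq_mul,
      Pi.zero_apply, ← hkk]
    field_simp
    ring
  have h3 := LinearMap.ker_eq_bot'.mp hker _ hzero
  intro x hx hx0
  have h4 := congrFun h3 x
  have h5 := congrFun h3 0
  simp only [Pi.sub_apply, Pi.smul_apply, Pi.single_eq_of_ne hx, Pi.single_eq_same, smul_eq_mul,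
    Pi.zero_apply] at h4 h5
  apply hk
  linear_combination h4 - h5 - hx0


/-- In a transitive permutation group of prime degree `p` whose Sylow `p`-normaliser has even order, the point stabilisers are the only subgroups of index `p`. -/
theorem result {α : Type*} [Fintype α] [DecidableEq α] {p : ℕ} [Fact p.Prime] (hα : Fintype.card α = p) (G : Subgroup (Equiv.Perm α)) [MulAction.IsPretransitive G α] (P : Sylow p G) (heven : Even (Nat.card (Subgroup.normalizer ((P : Subgroup G) : Set G)))) (H : Subgroup G) (hH : H.index = p) : ∃ a : α, H = MulAction.stabilizer G a := by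
  classical
  have hp : p.Prime := Fact.out
  suffices h : ∃ a : α, ∀ h ∈ H, h • a = a by
    obtain ⟨a, ha⟩ := h
    refine ⟨a, Subgroup.eq_of_le_of_card_ge (fun h hh => ha h hh) ?_⟩
    have h1 := (stabilizer G a).card_mul_index
    have h2 := H.card_mul_index
    rw [index_stabilizer_of_transitive, Nat.card_eq_fintype_card (α := α), hα] at h1
    rw [hH, ← h1] at h2
    exact (Nat.eq_of_mul_eq_mul_right hp.pos h2).ge
  have hPH : ¬ p ∣ Nat.card H := by
    have h1 := (P : Subgroup G).card_mul_index
    have h2 := H.card_mul_index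
    rw [hH, ← h1, card_sylow_prime_degree hα G P, mul_comm] at h2
    rw [Nat.eq_of_mul_eq_mul_left hp.pos h2]
    exact P.not_dvd_index
  by_cases hp2 : p = 2
  · subst hp2
    have h1 := G.card_subgroup_dvd_card
    rw [Nat.card_perm, Nat.card_eq_fintype_card (α := α), hα, ← H.card_mul_index, hH] at h1
    have h2 : Nat.card H = 1 := Nat.dvd_one.mp
      (Nat.dvd_of_mul_dvd_mul_right (by norm_num : 0 < 2) h1)
    obtain ⟨a⟩ : Nonempty α := Fintype.card_pos_iff.mp (by omega)
    refine ⟨a, fun h hh => ?_⟩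
    rw [Subgroup.card_eq_one.mp h2, Subgroup.mem_bot] at hh
    rw [hh, one_smul]
  obtain ⟨c, t, e, hP, hc, he, ht⟩ := exists_coord_reflection hα hp2 G P heven
  have h2 : (2 : ZMod p) ≠ 0 := by
    intro h
    have := (ZMod.natCast_eq_zero_iff 2 p).mp (by exact_mod_cast h)
    exact hp2 ((Nat.prime_dvd_prime_iff_eq hp Nat.prime_two).mp this)
  have htrans : ∀ h ∈ H, ∀ b : ZMod p, (∀ j, (h : Equiv.Perm α) (e j) = e (j + b)) → b = 0 := by
    intro h hh b hb
    have h1 : h ∈ Subgroup.zpowers c := (mem_zpowers_iff_translation he h).mpr ⟨b, hb⟩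
    have h3 : orderOf h ∣ p := by
      have := Subgroup.orderOf_dvd_natCard _ h1
      rwa [Nat.card_zpowers, hc] at this
    rcases (Nat.dvd_prime hp).mp h3 with h4 | h4
    · rw [orderOf_eq_one_iff] at h4
      have := hb 0
      rw [h4] at this
      simpa using (e.injective this).symm
    · exact absurd (h4 ▸ Subgroup.orderOf_dvd_natCard _ hh) hPH
  rcases isAffineIn_or_two_transitive c.2 he with haff | h2t
  · by_cases hbot : ∀ h ∈ H, h = 1
    · exact ⟨e 0, fun h hh => by rw [hbot h hh, one_smul]⟩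
    push Not at hbot
    obtain ⟨h, hh, hh1⟩ := hbot
    obtain ⟨a, b, hab⟩ := haff h h.2
    have ha : 1 - a ≠ 0 := by
      intro ha
      have ha' : a = 1 := by linear_combination -ha
      subst ha'
      have hb := htrans h hh b (fun j => by rw [hab, one_mul])
      apply hh1
      apply Subtype.ext
      ext x
      obtain ⟨j, rfl⟩ := e.surjective x
      simp [hab, hb]
    refine ⟨e (b * (1 - a)⁻¹), fun k hk => ?_⟩
    obtain ⟨a', b', hab'⟩ := haff k k.2
    have h3 := htrans (h * k * (k * h)⁻¹) (H.mul_mem (H.mul_mem hh hk) (H.inv_mem (H.mul_mem hk hh)))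
      (a * b' + b - (a' * b + b')) (fun j => by
        obtain ⟨i, hi⟩ := e.surjective (((k * h : G) : Equiv.Perm α)⁻¹ (e j))
        have hj : j = a' * (a * i + b) + b' := by
          apply e.injective
          rw [← hab', ← hab, hi]
          simp
        rw [Subgroup.coe_mul, Subgroup.coe_inv, Equiv.Perm.mul_apply, ← hi, Subgroup.coe_mul,
          Equiv.Perm.mul_apply, hab', hab, hj]
        congr 1
        ring)
    change (k : Equiv.Perm α) _ = _
    rw [hab']
    congr 1
    field_simp
    linear_combination -h3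
  -- the doubly transitive case
  let u : α → ZMod p := fun x => if x ∈ orbit H (e 0) then 1 else 0
  have hu : ∀ h ∈ H, ∀ x, u (h • x) = u x := by
    intro h hh x
    simp only [u]
    congr 1
    apply propext
    rw [mem_orbit_iff, mem_orbit_iff]
    exact ⟨fun ⟨k, hk⟩ => ⟨(⟨h, hh⟩ : H)⁻¹ * k, by
      rw [mul_smul, hk]; exact inv_smul_smul (⟨h, hh⟩ : H) x⟩, fun ⟨k, hk⟩ => ⟨⟨h, hh⟩ * k, by
      rw [mul_smul, hk]; rfl⟩⟩
  let ψ : ZMod p × H → G := fun q => q.2 * c ^ q.1.val
  have hψ : ∀ j (h : H) i, ψ (j, h) • e i = (h : G) • e (i + j) := by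
    intro j h i
    simp only [ψ, mul_smul]
    congr 1
    change ((c ^ j.val : G) : Equiv.Perm α) (e i) = _
    rw [Subgroup.coe_pow, coord_pow_val he]
  have hψb : Function.Bijective ψ := by
    rw [Nat.bijective_iff_injective_and_card]
    refine ⟨?_, by rw [Nat.card_prod, Nat.card_zmod, ← H.card_mul_index, hH, mul_comm]⟩
    rintro ⟨j, h⟩ ⟨j', h'⟩ hq
    have h3 := htrans (h⁻¹ * h' : H) (h⁻¹ * h').2 (j - j') (fun i => by
      change ((h : G)⁻¹ * h') • e i = _
      have h4 := hψ j h (i - j')
      rw [hq, hψ, sub_add_cancel] at h4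
      rw [mul_smul, h4, inv_smul_smul]
      congr 1
      ring)
    have h4 : j = j' := sub_eq_zero.mp h3
    subst h4
    have h5 : h = h' := Subtype.ext (mul_right_cancel hq)
    rw [h5]
  obtain ⟨⟨s, h0⟩, hs⟩ := hψb.surjective t
  have hsymm : ∀ i, u (e (-i)) = u (e (i + s)) := by
    intro i
    rw [← ht, ← hu h0 h0.2 (e (i + s)), ← hψ, hs]
    rfl
  have hF : ∀ x y : ZMod p, ∑ g : G, u (g • e x) * u (g • e y) =
      Nat.card H * ∑ j, u (e (x + j)) * u (e (y + j)) := by
    intro x y
    rw [← hψb.sum_comp, Fintype.sum_prod_type, Finset.mul_sum]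
    refine Finset.sum_congr rfl fun j _ => ?_
    simp only [hψ, fun (h : H) => hu h h.2]
    simp
  have hH0 : (Nat.card H : ZMod p) ≠ 0 := by
    rwa [Ne, ZMod.natCast_eq_zero_iff]
  have hF' : ∀ x y : ZMod p, x ≠ y → ∑ j, u (e (x + j)) * u (e (y + j)) =
      ∑ j, u (e (1 + j)) * u (e (0 + j)) := by
    intro x y hxy
    obtain ⟨k, hk1, hk2⟩ := is_two_pretransitive_iff.mp h2t (e.injective.ne hxy)
      (e.injective.ne (one_ne_zero (α := ZMod p)))
    apply mul_left_cancel₀ hH0
    rw [← hF, ← hF, ← hk1, ← hk2,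
      ← Equiv.sum_comp (Equiv.mulRight k) fun g : G => u (g • e x) * u (g • e y)]
    simp [mul_smul]
  have hmain := symm_difference_set h2 (fun i => u (e (i + s * 2⁻¹))) (fun i => by
      have := hsymm (i - s * 2⁻¹)
      convert this using 3 <;> field_simp <;> ring)
    (fun i => by simp only [u]; split_ifs <;> simp) (by
      rw [show ∑ i, u (e (i + s * 2⁻¹)) = ∑ x, u x from
        Equiv.sum_comp ((Equiv.addRight (s * 2⁻¹)).trans e) u]
      simp only [u, Finset.sum_boole, Ne, ZMod.natCast_eq_zero_iff]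
      intro hdvd
      apply hPH
      have h3 := index_stabilizer H (e 0)
      rw [Set.ncard_eq_toFinset_card'] at h3
      refine dvd_trans ?_ (stabilizer H (e 0)).index_dvd_card
      rw [h3, show (orbit H (e 0)).toFinset = Finset.univ.filter (· ∈ orbit H (e 0)) by
        ext x
        simp]
      exact hdvd)
    (∑ j, u (e (1 + j)) * u (e (0 + j))) (fun x hx => by
      rw [← hF' (x + s * 2⁻¹) (s * 2⁻¹) (by simpa using hx)]
      refine Finset.sum_congr rfl fun j _ => ?_
      congr 3 <;> ring)
  refine ⟨e (s * 2⁻¹), fun h hh => ?_⟩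
  by_contra hne
  obtain ⟨x, hx⟩ := e.surjective (h • e (s * 2⁻¹))
  refine hmain (x - s * 2⁻¹) (fun h3 => hne ?_) ?_
  · rw [← hx, sub_eq_zero.mp h3]
  · simp only [sub_add_cancel, zero_add]
    rw [hx, hu h hh]

end Cfsg.Agent.S0677
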