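import Cfsg.Statements.S0680
import Cfsg.Agent.Perm.Sharp2

set_option autoImplicit false
open Cfsg

namespace Cfsg.Agent.S0680


/-- A finite sharply doubly transitive permutation group has degree a prime power `p ^ j`; a Sylow `p`-subgroup is normal, elementary abelian and regular, and consists of the identity together with the elements without fixed points. (Frobenius' Theorem is not needed.) -/
theorem result {α : Type*} [Fintype α] [DecidableEq α] (G : Subgroup (Equiv.Perm α)) [MulAction.IsMultiplyPretransitive G α 2] (hsharp : ∀ x : Fin 2 ↪ α, MulAction.stabilizer G x = ⊥) (h2 : 2 ≤ Fintype.card α) : ∃ p j : ℕ, p.Prime ∧ 1 ≤ j ∧ Fintype.card α = p ^ j ∧ ∀ (hp : Fact p.Prime) (P : Sylow p G), (P : Subgroup G).Normal ∧ IsMulCommutative (P : Subgroup G) ∧ (∀ x ∈ (P : Subgroup G), x ^ p = 1) ∧ MulAction.IsPretransitive (P : Subgroup G) α ∧ (∀ a : α, MulAction.stabilizer (P : Subgroup G) a = ⊥) ∧ ∀ g : G, g ∈ (P : Subgroup G) ↔ g = 1 ∨ ∀ a : α, g • a ≠ a := by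
  have hS := Cfsg.Lib.Perm.isSharp2_of ‹_› hsharp
  have : Nontrivial α := Fintype.one_lt_card_iff_nontrivial.mp h2
  obtain ⟨K, p, j, hp, hj, hcard, hn, hcomm, hpow, hK, hmem, htr⟩ := hS.exists_kernel
  refine ⟨p, j, hp, hj, by rw [← Nat.card_eq_fintype_card, hcard], fun _ P => ?_⟩
  have hpg : IsPGroup p K := fun y => ⟨1, Subtype.ext (by simpa using hpow y y.2)⟩
  have hle : K ≤ P := hpg.le_sylow_of_normal P
  have hPK : (P : Subgroup G) = K := by
    refine le_antisymm (fun g hg => (hmem g).mpr ?_) hle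
    by_cases hg1 : g = 1
    · exact Or.inl hg1
    refine Or.inr fun a ha => hg1 ?_
    have h1 : orderOf g ∣ Nat.card (MulAction.stabilizer G a) := Subgroup.orderOf_dvd_natCard _ ha
    obtain ⟨k, hk⟩ := (IsPGroup.iff_orderOf.mp P.isPGroup') ⟨g, hg⟩
    rw [Subgroup.orderOf_mk] at hk
    have h3 := hS.card_stabilizer a
    rw [← orderOf_eq_one_iff, hk]
    rcases Nat.eq_zero_or_pos k with rfl | hk0
    · simp
    · exfalso
      have h4 : p ∣ Nat.card (MulAction.stabilizer G a) :=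
        (dvd_pow_self p hk0.ne').trans (hk ▸ h1)
      have h5 : p ∣ Nat.card (MulAction.stabilizer G a) + 1 := by
        rw [h3, hcard]; exact dvd_pow_self p (by omega)
      exact hp.one_lt.ne' (Nat.dvd_one.mp ((Nat.dvd_add_right h4).mp h5))
  rw [hPK]
  refine ⟨hn, ⟨⟨fun x y => Subtype.ext (hcomm x x.2 y y.2)⟩⟩, hpow, ⟨fun a b => ?_⟩, fun a => ?_, hmem⟩
  · obtain ⟨k, hk, hk'⟩ := htr a b
    exact ⟨⟨k, hk⟩, hk'⟩
  · rw [eq_bot_iff]
    intro k hk
    rcases (hmem k).mp k.2 with h | h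
    · exact Subtype.ext h
    · exact absurd hk (h a)

end Cfsg.Agent.S0680
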