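import Cfsg.Statements.S0681

set_option autoImplicit false
open Cfsg

namespace Cfsg.Agent.S0681

section
variable {F : Type*} [Cfsg.NearField F]

theorem nf_zero_mul (c : F) : (0 : F) * c = 0 := by
  have h := NearField.right_distrib (0 : F) 0 c
  rw [add_zero] at h
  exact left_eq_add.mp h

theorem nf_neg_mul (a c : F) : (-a) * c = -(a * c) := by
  have h := NearField.right_distrib a (-a) c
  rw [add_neg_cancel, nf_zero_mul] at h
  exact (neg_eq_of_add_eq_zero_right h.symm).symm

theorem nf_mul_ne_zero {a b : F} (ha : a ≠ 0) (hb : b ≠ 0) : a * b ≠ 0 := by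
  intro h
  obtain ⟨c, hc, -⟩ := NearField.exists_inv b hb
  apply ha
  calc a = a * b * c := by rw [mul_assoc, hc, mul_one]
    _ = 0 := by rw [h, nf_zero_mul]

theorem nf_inv_ne_zero {a b : F} (h : a * b = 1) : b ≠ 0 := by
  rintro rfl
  rw [NearField.mul_zero] at h
  exact NearField.zero_ne_one h

/-- the affine map as a permutation -/
def affPerm (a a' b : F) (h1 : a * a' = 1) (h2 : a' * a = 1) : Equiv.Perm F where
  toFun x := x * a + b
  invFun y := (y + -b) * a'
  left_inv x := by simp only [add_neg_cancel_right, mul_assoc, h1, mul_one]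
  right_inv y := by simp only [mul_assoc, h2, mul_one, neg_add_cancel_right]

/-- the group of affine maps -/
def affGroup (F : Type*) [Cfsg.NearField F] : Subgroup (Equiv.Perm F) where
  carrier := {σ | ∃ a b : F, a ≠ 0 ∧ ∀ x : F, σ x = x * a + b}
  one_mem' := ⟨1, 0, NearField.zero_ne_one.symm, fun x => by simp⟩
  mul_mem' := by
    rintro σ τ ⟨a, b, ha, hσ⟩ ⟨c, d, hc, hτ⟩
    refine ⟨c * a, d * a + b, nf_mul_ne_zero hc ha, fun x => ?_⟩
    simp only [Equiv.Perm.coe_mul, Function.comp_apply, hτ, hσ, NearField.right_distrib, mul_assoc,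
      add_assoc]
  inv_mem' := by
    rintro σ ⟨a, b, ha, hσ⟩
    obtain ⟨c, hc, hc'⟩ := NearField.exists_inv a ha
    refine ⟨c, -b * c, nf_inv_ne_zero hc, fun x => ?_⟩
    apply σ.injective
    rw [Equiv.Perm.inv_def, Equiv.apply_symm_apply, hσ, ← NearField.right_distrib, mul_assoc, hc',
      mul_one, neg_add_cancel_right]

end


/-- The affine maps `x ↦ x * a + b`, `a ≠ 0`, of a near-field form a sharply doubly transitive permutation group. -/
theorem result {F : Type*} [Cfsg.NearField F] : ∃ H : Subgroup (Equiv.Perm F), (∀ σ : Equiv.Perm F, σ ∈ H ↔ ∃ a b : F, a ≠ 0 ∧ ∀ x : F, σ x = x * a + b) ∧ MulAction.IsMultiplyPretransitive H F 2 ∧ ∀ x : Fin 2 ↪ F, MulAction.stabilizer H x = ⊥ := by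
  refine ⟨affGroup F, fun σ => Iff.rfl, ?_, ?_⟩
  · rw [MulAction.is_two_pretransitive_iff]
    intro a b c d hab hcd
    have h1 : a + -b ≠ 0 := fun h => hab (by simpa using add_neg_eq_zero.mp h)
    have h2 : c + -d ≠ 0 := fun h => hcd (by simpa using add_neg_eq_zero.mp h)
    obtain ⟨u, hu, hu'⟩ := NearField.exists_inv _ h1
    have hm : u * (c + -d) ≠ 0 := nf_mul_ne_zero (nf_inv_ne_zero hu) h2
    obtain ⟨v, hv, hv'⟩ := NearField.exists_inv _ hm
    refine ⟨⟨affPerm (u * (c + -d)) v (-(b * (u * (c + -d))) + d) hv hv',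
      _, _, hm, fun x => rfl⟩, ?_, ?_⟩
    · change a * (u * (c + -d)) + (-(b * (u * (c + -d))) + d) = c
      rw [← add_assoc, ← nf_neg_mul, ← NearField.right_distrib, ← mul_assoc, hu, one_mul,
        neg_add_cancel_right]
    · change b * (u * (c + -d)) + (-(b * (u * (c + -d))) + d) = d
      rw [add_neg_cancel_left]
  · intro x
    rw [eq_bot_iff]
    rintro ⟨σ, a, b, ha, hσ⟩ hx
    rw [Subgroup.mem_bot]
    have h0 : σ (x 0) = x 0 := congrArg (fun e : Fin 2 ↪ F => e 0) hx
    have h1 : σ (x 1) = x 1 := congrArg (fun e : Fin 2 ↪ F => e 1) hx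
    rw [hσ] at h0 h1
    have hne : x 0 + -x 1 ≠ 0 := fun h => by
      have : x 0 = x 1 := add_neg_eq_zero.mp h
      exact absurd (x.injective this) (by decide)
    obtain ⟨u, hu, hu'⟩ := NearField.exists_inv _ hne
    have h3 : (x 0 + -x 1) * a = x 0 + -x 1 := by
      rw [NearField.right_distrib, nf_neg_mul]
      conv_rhs => rw [← h0, ← h1]
      rw [neg_add_rev, add_assoc, add_neg_cancel_left]
    have ha1 : a = 1 := by
      calc a = u * (x 0 + -x 1) * a := by rw [hu', one_mul]
        _ = 1 := by rw [mul_assoc, h3, hu']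
    subst ha1
    rw [mul_one] at h0
    have hb : b = 0 := add_eq_left.mp h0
    subst hb
    ext y
    simp [hσ]

end Cfsg.Agent.S0681
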