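import Cfsg.Statements.S0682
import Mathlib.GroupTheory.Sylow
import Mathlib.GroupTheory.Perm.Cycle.Type

set_option autoImplicit false
open Cfsg

namespace Cfsg.Agent.S0682

theorem exists_mul_eq {F : Type*} [Cfsg.NearField F] {x y : F} (hx : x ≠ 0) (hy : y ≠ 0) :
    ∃ φ : F ≃+ F, φ x = y := by
  obtain ⟨x', hx1, hx2⟩ := NearField.exists_inv x hx
  obtain ⟨y', hy1, hy2⟩ := NearField.exists_inv y hy
  let f : F →+ F := AddMonoidHom.mk' (fun z => z * (x' * y)) fun a b => NearField.right_distrib a b _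
  refine ⟨AddEquiv.ofBijective f ⟨?_, ?_⟩, ?_⟩
  · intro a b hab
    have h1 : a * (x' * y) * (y' * x) = b * (x' * y) * (y' * x) := congrArg (· * (y' * x)) hab
    have h2 : ∀ c : F, c * (x' * y) * (y' * x) = c := by
      intro c
      rw [mul_assoc, mul_assoc, ← mul_assoc y, hy1, one_mul, hx2, mul_one]
    rwa [h2, h2] at h1
  · intro c
    refine ⟨c * (y' * x), ?_⟩
    change c * (y' * x) * (x' * y) = c
    rw [mul_assoc, mul_assoc, ← mul_assoc x, hx1, one_mul, hy2, mul_one]
  · change x * (x' * y) = y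
    rw [← mul_assoc, hx1, one_mul]


/-- A finite near-field has prime-power order; its additive group is commutative of prime exponent. -/
theorem result {F : Type*} [Cfsg.NearField F] [Finite F] : ∃ p j : ℕ, p.Prime ∧ 1 ≤ j ∧ Nat.card F = p ^ j ∧ (∀ x y : F, x + y = y + x) ∧ ∀ x : F, p • x = 0 := by
  have : Nontrivial F := ⟨0, 1, NearField.zero_ne_one⟩
  have h1 : 1 < Nat.card F := Finite.one_lt_card
  obtain ⟨p, hp, hpn⟩ := Nat.exists_prime_and_dvd h1.ne'
  have := Fact.mk hp
  obtain ⟨x, hx⟩ := exists_prime_addOrderOf_dvd_card' (G := F) p hpn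
  have hx0 : x ≠ 0 := by
    rintro rfl
    rw [addOrderOf_zero] at hx
    exact hp.one_lt.ne hx
  have hall : ∀ y : F, p • y = 0 := by
    intro y
    by_cases hy : y = 0
    · rw [hy, nsmul_zero]
    obtain ⟨φ, rfl⟩ := exists_mul_eq hx0 hy
    rw [← map_nsmul, ← hx, addOrderOf_nsmul_eq_zero, map_zero]
  have hpg : IsPGroup p (Multiplicative F) := fun y => ⟨1, by
    rw [pow_one]; exact hall y.toAdd⟩
  obtain ⟨j, hj⟩ := IsPGroup.iff_card.mp hpg
  have hj' : Nat.card F = p ^ j := hj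
  refine ⟨p, j, hp, ?_, hj', ?_, hall⟩
  · rcases Nat.eq_zero_or_pos j with rfl | h
    · rw [pow_zero] at hj'; omega
    · exact h
  · have := hpg.center_nontrivial
    obtain ⟨⟨z, hz⟩, hz1⟩ := exists_ne (1 : Subgroup.center (Multiplicative F))
    have hz0 : z.toAdd ≠ 0 := fun h => hz1 (Subtype.ext h)
    have hzc : ∀ w : F, w + z.toAdd = z.toAdd + w := fun w =>
      Subgroup.mem_center_iff.mp hz (Multiplicative.ofAdd w)
    intro a b
    by_cases ha : a = 0
    · simp [ha]
    obtain ⟨φ, rfl⟩ := exists_mul_eq hz0 ha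
    obtain ⟨c, rfl⟩ := φ.surjective b
    rw [← map_add, ← map_add, hzc]

end Cfsg.Agent.S0682
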