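import Cfsg.Statements.S0683
import Cfsg.Agent.Perm.Sharp2
import Mathlib.Algebra.Group.MinimalAxioms

set_option autoImplicit false
open Cfsg

namespace Cfsg.Agent.S0683


/-- A finite sharply doubly transitive permutation group is the affine group of a near-field: the permuted set carries a near-field structure for which the group consists exactly of the maps `x ↦ x * a + b` with `a ≠ 0`. -/
theorem result {α : Type*} [Fintype α] [DecidableEq α] (H : Subgroup (Equiv.Perm α)) [MulAction.IsMultiplyPretransitive H α 2] (hsharp : ∀ x : Fin 2 ↪ α, MulAction.stabilizer H x = ⊥) (h2 : 2 ≤ Fintype.card α) : ∃ _ : Cfsg.NearField α, ∀ σ : Equiv.Perm α, σ ∈ H ↔ ∃ a b : α, a ≠ 0 ∧ ∀ x : α, σ x = x * a + b := by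
  classical
  have hS := Cfsg.Lib.Perm.isSharp2_of ‹_› hsharp
  have : Nontrivial α := Fintype.one_lt_card_iff_nontrivial.mp h2
  obtain ⟨K, p, j, hp, hj, hcard, hn, hcomm, hpow, hK, hmem, htr⟩ := hS.exists_kernel
  obtain ⟨o, e, hoe⟩ := exists_pair_ne α
  -- translations
  choose t htK ht using htr o
  have huniq : ∀ k ∈ K, ∀ k' ∈ K, k • o = k' • o → k = k' := by
    intro k hk k' hk' h
    rcases (hmem _).mp (K.mul_mem (K.inv_mem hk') hk) with h4 | h4
    · exact (inv_mul_eq_one.mp h4).symm
    · exact absurd (by rw [mul_smul, h, inv_smul_smul]) (h4 o)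
  have ht_smul : ∀ k ∈ K, t (k • o) = k := fun k hk => huniq _ (htK _) _ hk (ht _)
  -- multiplications
  have hm0 : ∀ a : α, ∃ g : H, a ≠ o → g • o = o ∧ g • e = a := by
    intro a
    by_cases ha : a = o
    · exact ⟨1, fun h => absurd ha h⟩
    · obtain ⟨g, hg⟩ := hS.exists_smul hoe (Ne.symm ha)
      exact ⟨g, fun _ => hg⟩
  choose m hm using hm0
  have hm_ne : ∀ g : H, g • o = o → ∀ a, a ≠ o → g • a ≠ o := by
    intro g hg a ha h
    exact ha (smul_left_cancel g (h.trans hg.symm))
  have hm_eq : ∀ g : H, g • o = o → m (g • e) = g := by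
    intro g hg
    have := hm _ (hm_ne g hg e hoe.symm)
    exact hS.eq_of_smul_eq hoe (by rw [this.1, hg]) this.2
  have ht_add : ∀ a b, t (t b • a) = t b * t a := by
    intro a b
    conv_lhs => rw [← ht a, ← mul_smul]
    exact ht_smul _ (K.mul_mem (htK _) (htK _))
  have ht_o : t o = 1 := by
    conv_lhs => rw [← one_smul H o]
    exact ht_smul _ K.one_mem
  have ht_conj : ∀ g : H, g • o = o → ∀ b, t (g • b) = g * t b * g⁻¹ := by
    intro g hg b
    have h1 : g⁻¹ • o = o := by rw [inv_smul_eq_iff, hg]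
    refine huniq _ (htK _) _ (hn.conj_mem _ (htK _) _) ?_
    rw [ht, mul_smul, mul_smul, h1, ht]
  let iadd : Add α := ⟨fun a b => t b • a⟩
  let izero : Zero α := ⟨o⟩
  let ineg : Neg α := ⟨fun a => (t a)⁻¹ • o⟩
  let imul : Mul α := ⟨fun x a => if a = o then o else m a • x⟩
  let ione : One α := ⟨e⟩
  have add_def : ∀ a b : α, a + b = t b • a := fun _ _ => rfl
  have mul_def : ∀ x a : α, a ≠ o → x * a = m a • x := fun x a ha => if_neg ha
  have mul_o : ∀ x : α, x * o = o := fun x => if_pos rfl
  have o_mul : ∀ a : α, o * a = o := by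
    intro a
    by_cases ha : a = o
    · rw [ha, mul_o]
    · rw [mul_def _ _ ha, (hm a ha).1]
  have hme : m e = 1 := by
    conv_lhs => rw [← one_smul H e]
    exact hm_eq 1 (one_smul _ _)
  let iag : AddGroup α := AddGroup.ofLeftAxioms
    (fun a b c => by rw [add_def, add_def, add_def, add_def, ht_add, mul_smul])
    (fun a => ht a)
    (fun a => smul_inv_smul (t a) o)
  let imon : Monoid α :=
    { mul_assoc := by
        intro x a b
        by_cases hb : b = o
        · rw [hb, mul_o, mul_o, mul_o]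
        by_cases ha : a = o
        · rw [ha, mul_o, o_mul, mul_o]
        have h1 : a * b = (m b * m a) • e := by
          rw [mul_def _ _ hb, mul_smul, (hm a ha).2]
        have h2 : (m b * m a) • o = o := by rw [mul_smul, (hm a ha).1, (hm b hb).1]
        rw [h1, mul_def _ _ (hm_ne _ h2 e hoe.symm), hm_eq _ h2, mul_def _ _ hb, mul_def _ _ ha,
          mul_smul]
      one_mul := by
        intro a
        by_cases ha : a = o
        · rw [ha, mul_o]
        · rw [mul_def _ _ ha]; exact (hm a ha).2
      mul_one := by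
        intro a
        change a * e = a
        rw [mul_def _ _ hoe.symm, hme, one_smul] }
  refine ⟨{ iag, imon with
    right_distrib := ?_
    mul_zero := mul_o
    zero_ne_one := hoe
    exists_inv := ?_ }, ?_⟩
  · intro a b c
    by_cases hc : c = o
    · rw [hc, mul_o, mul_o, mul_o, add_def, ht]
    · rw [mul_def _ _ hc, mul_def _ _ hc, mul_def _ _ hc, add_def, add_def,
        ht_conj _ (hm c hc).1, mul_smul, mul_smul, inv_smul_smul]
  · intro a ha
    have h1 : (m a)⁻¹ • o = o := by rw [inv_smul_eq_iff, (hm a ha).1]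
    refine ⟨(m a)⁻¹ • e, ?_, ?_⟩
    · change a * ((m a)⁻¹ • e) = e
      rw [mul_def _ _ (hm_ne _ h1 e hoe.symm), hm_eq _ h1, inv_smul_eq_iff, (hm a ha).2]
    · change ((m a)⁻¹ • e) * a = e
      rw [mul_def _ _ ha, smul_inv_smul]
  · intro σ
    constructor
    · intro hσ
      set g : H := ⟨σ, hσ⟩
      have h1 : ((t (g • o))⁻¹ * g) • o = o := by rw [mul_smul, inv_smul_eq_iff, ht]
      refine ⟨((t (g • o))⁻¹ * g) • e, g • o, hm_ne _ h1 e hoe.symm, fun x => ?_⟩
      change g • x = t (g • o) • (x * (((t (g • o))⁻¹ * g) • e))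
      rw [mul_def _ _ (hm_ne _ h1 e hoe.symm), hm_eq _ h1, mul_smul, smul_inv_smul]
    · rintro ⟨a, b, ha, h⟩
      have : σ = ((t b * m a : H) : Equiv.Perm α) := by
        ext x
        rw [h x]
        change t b • (x * a) = (t b * m a) • x
        rw [mul_def _ _ ha, mul_smul]
      rw [this]
      exact (t b * m a).2

end Cfsg.Agent.S0683
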