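import Cfsg.Statements.S0691
import Cfsg.Agent.Perm.RegularGL2

set_option autoImplicit false
open Cfsg

namespace Cfsg.Agent.S0691

open Cfsg.Lib.Perm

def tabT : ℕ := 0x203020402010202040001030104010101020200040304040401040203000303030403010302010000010003000200040000

def tabD : ℕ := 0x4020204020103030301020404030303030302000102020300

theorem tau_A : ∀ x y : ZMod 5, ¬ (x = 0 ∧ y = 0) →
    packTau 5 tabT ![(2) * x + (0) * y, (0) * x + (-2) * y] 0 =
      (2) * packTau 5 tabT ![x, y] 0 + (0) * packTau 5 tabT ![x, y] 1 ∧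
    packTau 5 tabT ![(2) * x + (0) * y, (0) * x + (-2) * y] 1 =
      (0) * packTau 5 tabT ![x, y] 0 + (-2) * packTau 5 tabT ![x, y] 1 := by
  decide +kernel

theorem tau_B : ∀ x y : ZMod 5, ¬ (x = 0 ∧ y = 0) →
    packTau 5 tabT ![(0) * x + (-1) * y, (1) * x + (0) * y] 0 =
      (0) * packTau 5 tabT ![x, y] 0 + (-1) * packTau 5 tabT ![x, y] 1 ∧
    packTau 5 tabT ![(0) * x + (-1) * y, (1) * x + (0) * y] 1 =
      (1) * packTau 5 tabT ![x, y] 0 + (0) * packTau 5 tabT ![x, y] 1 := by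
  decide +kernel

theorem tau_C : ∀ x y : ZMod 5, ¬ (x = 0 ∧ y = 0) →
    packTau 5 tabT ![(1) * x + (2) * y, (1) * x + (-2) * y] 0 =
      (1) * packTau 5 tabT ![x, y] 0 + (2) * packTau 5 tabT ![x, y] 1 ∧
    packTau 5 tabT ![(1) * x + (2) * y, (1) * x + (-2) * y] 1 =
      (1) * packTau 5 tabT ![x, y] 0 + (-2) * packTau 5 tabT ![x, y] 1 := by
  decide +kernel

theorem dist_lt : ∀ x y : ZMod 5, ¬ (x = 0 ∧ y = 0) → (x = 1 ∧ y = 0) ∨
    packDist 5 tabD ![(2) * x + (0) * y, (0) * x + (-2) * y] < packDist 5 tabD ![x, y] ∨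
    packDist 5 tabD ![(0) * x + (-1) * y, (1) * x + (0) * y] < packDist 5 tabD ![x, y] ∨
    packDist 5 tabD ![(1) * x + (2) * y, (1) * x + (-2) * y] < packDist 5 tabD ![x, y] := by
  decide +kernel

theorem ne_zero_of {x y : ZMod 5} (h : ![x, y] ≠ 0) : ¬ (x = 0 ∧ y = 0) := by
  rintro ⟨rfl, rfl⟩
  exact h (by ext i; fin_cases i <;> rfl)


/-- An exceptional sharply doubly transitive group of degree 5^2: the listed matrices generate a subgroup of GL(2,5) of order 24 acting regularly on the non-zero vectors. -/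
theorem result (A : Matrix.GeneralLinearGroup (Fin 2) (ZMod 5)) (B : Matrix.GeneralLinearGroup (Fin 2) (ZMod 5)) (C : Matrix.GeneralLinearGroup (Fin 2) (ZMod 5)) (hA : (A : Matrix (Fin 2) (Fin 2) (ZMod 5)) = !![2, 0; 0, -2]) (hB : (B : Matrix (Fin 2) (Fin 2) (ZMod 5)) = !![0, -1; 1, 0]) (hC : (C : Matrix (Fin 2) (Fin 2) (ZMod 5)) = !![1, 2; 1, -2]) : Nat.card (Subgroup.closure ({A, B, C} : Set (Matrix.GeneralLinearGroup (Fin 2) (ZMod 5)))) = 24 ∧ ∀ v w : Fin 2 → ZMod 5, v ≠ 0 → w ≠ 0 → ∃! h : Subgroup.closure ({A, B, C} : Set (Matrix.GeneralLinearGroup (Fin 2) (ZMod 5))), Matrix.mulVec ((h : Matrix.GeneralLinearGroup (Fin 2) (ZMod 5)) : Matrix (Fin 2) (Fin 2) (ZMod 5)) v = w := by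
  have : Fact (1 < 5) := ⟨by norm_num⟩
  have key := regular_of_certificate ({A, B, C} : Set (Matrix.GeneralLinearGroup (Fin 2) (ZMod 5)))
    (packTau 5 tabT) (packDist 5 tabD) (by ext i; fin_cases i <;> decide +kernel) ?_ ?_
  · simpa using key
  · intro g hg
    refine forall_vec2 fun x y h => ?_
    rcases hg with rfl | rfl | rfl
    · rw [hA, mulVec_two]
      obtain ⟨h1, h2⟩ := tau_A x y (ne_zero_of h)
      revert h1 h2
      generalize packTau 5 tabT ![x, y] = w
      revert w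
      refine forall_vec2 fun z w h1 h2 => ?_
      rw [mulVec_two]
      ext i; fin_cases i
      · exact h1
      · exact h2
    · rw [hB, mulVec_two]
      obtain ⟨h1, h2⟩ := tau_B x y (ne_zero_of h)
      revert h1 h2
      generalize packTau 5 tabT ![x, y] = w
      revert w
      refine forall_vec2 fun z w h1 h2 => ?_
      rw [mulVec_two]
      ext i; fin_cases i
      · exact h1
      · exact h2
    · rw [hC, mulVec_two]
      obtain ⟨h1, h2⟩ := tau_C x y (ne_zero_of h)
      revert h1 h2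
      generalize packTau 5 tabT ![x, y] = w
      revert w
      refine forall_vec2 fun z w h1 h2 => ?_
      rw [mulVec_two]
      ext i; fin_cases i
      · exact h1
      · exact h2
  · refine forall_vec2 fun x y h => ?_
    rcases dist_lt x y (ne_zero_of h) with ⟨rfl, rfl⟩ | h1 | h1 | h1
    · exact Or.inl rfl
    · exact Or.inr ⟨A, by simp, by rw [hA, mulVec_two]; exact h1⟩
    · exact Or.inr ⟨B, by simp, by rw [hB, mulVec_two]; exact h1⟩
    · exact Or.inr ⟨C, by simp, by rw [hC, mulVec_two]; exact h1⟩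

end Cfsg.Agent.S0691
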