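import Cfsg.Statements.S0694
import Mathlib

set_option autoImplicit false
open Cfsg

namespace Cfsg.Agent.S0694

theorem modEq_iff (q n i : ℕ) (hq : 2 ≤ q) :
    q ^ i ≡ 1 [MOD n * (q - 1)] ↔ (n : ℤ) ∣ ∑ j ∈ Finset.range i, (q : ℤ) ^ j := by
  have h1 : (1 : ℕ) ≤ q := by omega
  rw [Nat.ModEq.comm, Nat.modEq_iff_dvd]
  push_cast [Nat.cast_sub h1]
  rw [← geom_sum_mul, mul_dvd_mul_iff_right]
  have : (2 : ℤ) ≤ q := by exact_mod_cast hq
  omega

theorem emult_eq (q r i : ℕ) (hq : 2 ≤ q) (hr : r.Prime) (hd : r ∣ q - 1)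
    (h4 : r = 2 → 4 ∣ q - 1) :
    emultiplicity (r : ℤ) (∑ j ∈ Finset.range i, (q : ℤ) ^ j) = emultiplicity (r : ℤ) (i : ℤ) := by
  have h1 : (1 : ℕ) ≤ q := by omega
  have hd' : (r : ℤ) ∣ (q : ℤ) - 1 := by
    have := Int.natCast_dvd_natCast.2 hd
    rwa [Nat.cast_sub h1] at this
  have hx : ¬ (r : ℤ) ∣ (q : ℤ) := by
    intro h
    have := dvd_sub h hd'
    simp only [sub_sub_cancel] at this
    exact hr.one_lt.ne' (by exact_mod_cast Int.eq_one_of_dvd_one (by omega) this)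
  have hp : Prime (r : ℤ) := Nat.prime_iff_prime_int.1 hr
  have key : emultiplicity (r : ℤ) ((q : ℤ) ^ i - 1 ^ i) =
      emultiplicity (r : ℤ) ((q : ℤ) - 1) + emultiplicity (r : ℤ) (i : ℤ) := by
    rcases hr.eq_two_or_odd' with rfl | hodd
    · refine Int.two_pow_sub_pow' i ?_ hx
      have := Int.natCast_dvd_natCast.2 (h4 rfl)
      rwa [Nat.cast_sub h1] at this
    · rw [Int.emultiplicity_pow_sub_pow hr hodd hd' hx, Int.natCast_emultiplicity]
  rw [one_pow, ← mul_geom_sum, emultiplicity_mul hp] at key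
  have hfin : emultiplicity (r : ℤ) ((q : ℤ) - 1) ≠ ⊤ := by
    rw [Ne, emultiplicity_eq_top, not_not, Int.finiteMultiplicity_iff]
    refine ⟨by simpa using hr.one_lt.ne', ?_⟩
    have : (2 : ℤ) ≤ q := by exact_mod_cast hq
    omega
  exact ENat.add_right_injective_of_ne_top hfin key

theorem two_dvd_iff (q i : ℕ) (hq : 2 ≤ q) (hd : 2 ∣ q - 1) :
    (2 : ℤ) ∣ ∑ j ∈ Finset.range i, (q : ℤ) ^ j ↔ (2 : ℤ) ∣ i := by
  have hodd : Odd (q : ℤ) := by
    obtain ⟨c, hc⟩ := hd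
    exact ⟨c, by omega⟩
  induction i with
  | zero => simp
  | succ i ih =>
    rw [Finset.sum_range_succ]
    obtain ⟨c, hc⟩ := hodd.pow (n := i)
    push_cast
    omega

theorem dvd_iff (q n i : ℕ) (hq : 2 ≤ q) (hn : 1 < n)
    (h : (∀ r : ℕ, r.Prime → r ∣ n → r ∣ q - 1) ∧ (4 ∣ n → 4 ∣ q - 1)) :
    (n : ℤ) ∣ ∑ j ∈ Finset.range i, (q : ℤ) ^ j ↔ n ∣ i := by
  have key : ∀ r k : ℕ, r.Prime → r ^ k ∣ n →
      (((r ^ k : ℕ) : ℤ) ∣ ∑ j ∈ Finset.range i, (q : ℤ) ^ j ↔ r ^ k ∣ i) := by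
    intro r k hr hk
    rcases k with _ | k
    · simp
    have hrn : r ∣ n := (dvd_pow_self r (Nat.succ_ne_zero k)).trans hk
    rw [← Int.natCast_dvd_natCast, Nat.cast_pow]
    by_cases h4 : r = 2 → 4 ∣ q - 1
    · rw [pow_dvd_iff_le_emultiplicity, pow_dvd_iff_le_emultiplicity,
        emult_eq q r i hq hr (h.1 r hr hrn) h4]
    · push Not at h4
      obtain ⟨rfl, h4⟩ := h4
      rcases k with _ | k
      · simpa using two_dvd_iff q i hq (h.1 2 hr hrn)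
      · exfalso
        apply h4 (h.2 (dvd_trans _ hk))
        exact ⟨2 ^ k, by ring⟩
  have hs : ∑ j ∈ Finset.range i, (q : ℤ) ^ j = ((∑ j ∈ Finset.range i, q ^ j : ℕ) : ℤ) := by
    push_cast; rfl
  rw [hs] at key ⊢
  rw [Int.natCast_dvd_natCast, Nat.dvd_iff_prime_pow_dvd_dvd, Nat.dvd_iff_prime_pow_dvd_dvd i]
  constructor
  · intro H r k hr hk
    exact (key r k hr hk).1 (Int.natCast_dvd_natCast.2 (H r k hr hk))
  · intro H r k hr hk
    exact Int.natCast_dvd_natCast.1 ((key r k hr hk).2 (H r k hr hk))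

theorem surj (q n : ℕ) (hn : 1 < n) (h0 : (n : ℤ) ∣ ∑ j ∈ Finset.range n, (q : ℤ) ^ j)
    (h1 : ∀ i : ℕ, 0 < i → i < n → ¬ (n : ℤ) ∣ ∑ j ∈ Finset.range i, (q : ℤ) ^ j) :
    IsCoprime (n : ℤ) q ∧ ∀ x : ℤ, ∃ i : ℕ, (n : ℤ) ∣ ∑ j ∈ Finset.range i, (q : ℤ) ^ j - x := by
  have hcop : IsCoprime (n : ℤ) q := by
    obtain ⟨m, rfl⟩ : ∃ m, n = m + 1 := ⟨n - 1, by omega⟩
    rw [geom_sum_succ] at h0
    obtain ⟨c, hc⟩ := h0
    exact ⟨c, -∑ j ∈ Finset.range m, (q : ℤ) ^ j, by linear_combination -hc⟩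
  refine ⟨hcop, fun x => ?_⟩
  have : NeZero n := ⟨by omega⟩
  let f : Fin n → ZMod n := fun i => ((∑ j ∈ Finset.range i, (q : ℤ) ^ j : ℤ) : ZMod n)
  have aux : ∀ a b : Fin n, a < b → f a ≠ f b := by
    intro a b hab e
    obtain ⟨d, hd⟩ := Nat.exists_eq_add_of_lt (show (a : ℕ) < b from hab)
    have e' := (ZMod.intCast_eq_intCast_iff_dvd_sub _ _ _).1 e
    rw [hd, add_assoc, Finset.sum_range_add, add_sub_cancel_left] at e'
    simp only [pow_add, ← Finset.mul_sum] at e'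
    exact h1 (d + 1) (by omega) (by have := b.2; omega) ((hcop.pow_right).dvd_of_dvd_mul_left e')
  have hinj : Function.Injective f := by
    intro a b e
    rcases lt_trichotomy a b with h | h | h
    · exact absurd e (aux a b h)
    · exact h
    · exact absurd e.symm (aux b a h)
  have hbij := (Fintype.bijective_iff_injective_and_card f).2 ⟨hinj, by simp⟩
  obtain ⟨i, hi⟩ := hbij.2 (x : ZMod n)
  exact ⟨i, (ZMod.intCast_eq_intCast_iff_dvd_sub _ _ _).1 hi.symm⟩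

/-- The Dickson pair condition: for a prime power `q` and `n > 1`, (every prime factor of `n` divides `q - 1`, and `4 ∣ n → 4 ∣ q - 1`) holds exactly when `q ^ n ≡ 1` modulo `n * (q - 1)` but `q ^ i` is not, for `0 < i < n`. -/
theorem result (q n : ℕ) (hq : IsPrimePow q) (hn : 1 < n) : ((∀ r : ℕ, r.Prime → r ∣ n → r ∣ q - 1) ∧ (4 ∣ n → 4 ∣ q - 1)) ↔ (q ^ n ≡ 1 [MOD n * (q - 1)] ∧ ∀ i : ℕ, 0 < i → i < n → ¬ q ^ i ≡ 1 [MOD n * (q - 1)]) := by
  have hq2 : 2 ≤ q := hq.two_le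
  have h1 : (1 : ℕ) ≤ q := by omega
  simp only [modEq_iff q n _ hq2]
  constructor
  · intro h
    simp only [dvd_iff q n _ hq2 hn h]
    exact ⟨dvd_rfl, fun i hi hin hd => absurd (Nat.le_of_dvd hi hd) (by omega)⟩
  · rintro ⟨h0, hi⟩
    obtain ⟨hcop, hs⟩ := surj q n hn h0 hi
    have hA : ∀ r : ℕ, r.Prime → r ∣ n → r ∣ q - 1 := by
      intro r hr hrn
      have hp : Prime (r : ℤ) := Nat.prime_iff_prime_int.1 hr
      by_contra hcon
      have hc : IsCoprime (r : ℤ) ((q : ℤ) - 1) := by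
        rw [hp.irreducible.coprime_iff_not_dvd]
        intro hd
        apply hcon
        rw [← Int.natCast_dvd_natCast, Nat.cast_sub h1]
        exact hd
      obtain ⟨a, b, hab⟩ := hc
      obtain ⟨i, hi⟩ := hs (-b)
      have h2 : (r : ℤ) ∣ (∑ j ∈ Finset.range i, (q : ℤ) ^ j - -b) * ((q : ℤ) - 1) :=
        ((Int.natCast_dvd_natCast.2 hrn).trans hi).mul_right _
      rw [sub_mul, geom_sum_mul] at h2
      have h3 : (r : ℤ) ∣ (q : ℤ) ^ i := by
        have := dvd_add h2 (dvd_mul_left (r : ℤ) a)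
        refine this.trans (dvd_of_eq ?_)
        linear_combination hab
      exact hp.not_unit (hcop.isUnit_of_dvd' (Int.natCast_dvd_natCast.2 hrn)
        (hp.dvd_of_dvd_pow h3))
    refine ⟨hA, fun h4 => ?_⟩
    have h2 := hA 2 Nat.prime_two (dvd_trans (by norm_num) h4)
    by_contra hcon
    have hq4 : (q : ℤ) % 4 = 3 := by omega
    have hmod : ∀ i : ℕ, (∑ j ∈ Finset.range i, (q : ℤ) ^ j) % 4 = 0 ∨
        (∑ j ∈ Finset.range i, (q : ℤ) ^ j) % 4 = 1 := by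
      intro i
      induction i with
      | zero => simp
      | succ i ih =>
        rw [geom_sum_succ, Int.add_emod, Int.mul_emod, hq4]
        rcases ih with e | e <;> rw [e] <;> simp
    obtain ⟨i, hi⟩ := hs 2
    have h5 : (4 : ℤ) ∣ ∑ j ∈ Finset.range i, (q : ℤ) ^ j - 2 :=
      (Int.natCast_dvd_natCast.2 h4).trans hi
    have := hmod i
    omega

end Cfsg.Agent.S0694
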