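import Cfsg.Statements.S0702
import Mathlib.GroupTheory.Index
import Mathlib.GroupTheory.GroupAction.Quotient
import Mathlib.Data.Fintype.Perm
import Mathlib.Algebra.Group.Subgroup.Finite

set_option autoImplicit false
open Cfsg

namespace Cfsg.Agent.S0702

open MulAction

section
variable {α : Type*} (G : Subgroup (Equiv.Perm α)) [MulAction.IsPretransitive G α] (a : α)

/-- a transversal -/
noncomputable def tr (x : α) : G := (exists_smul_eq G a x).choose

theorem tr_spec (x : α) : tr G a x • a = x := (exists_smul_eq G a x).choose_spec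

/-- the underlying function -/
noncomputable def fn (n : G) (x : α) : α := tr G a x • n⁻¹ • a

theorem fn_smul {n : G} (hn : n ∈ Subgroup.normalizer ((stabilizer G a : Subgroup G) : Set G))
    (g : G) : fn G a n (g • a) = g • n⁻¹ • a := by
  unfold fn
  have h1 : g⁻¹ * tr G a (g • a) ∈ stabilizer G a := by
    rw [mem_stabilizer_iff, mul_smul, tr_spec, inv_smul_smul]
  have h2 := (Subgroup.mem_normalizer_iff.mp hn _).mp h1
  have h3 : (n * (g⁻¹ * tr G a (g • a)) * n⁻¹) • a = a := h2
  rw [mul_smul, mul_smul, mul_smul, ← eq_inv_smul_iff, inv_smul_eq_iff] at h3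
  exact h3

/-- the homomorphism from the normaliser to the centraliser -/
noncomputable def phi : Subgroup.normalizer ((stabilizer G a : Subgroup G) : Set G) →*
    Subgroup.centralizer (G : Set (Equiv.Perm α)) where
  toFun n := ⟨⟨fn G a n, fn G a n⁻¹, by
      intro x
      obtain ⟨g, rfl⟩ := exists_smul_eq G a x
      rw [fn_smul G a n.2, ← mul_smul, fn_smul G a (inv_mem n.2)]
      simp [mul_smul], by
      intro x
      obtain ⟨g, rfl⟩ := exists_smul_eq G a x
      rw [fn_smul G a (inv_mem n.2), ← mul_smul, fn_smul G a n.2]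
      simp [mul_smul]⟩, by
      intro h hh
      ext x
      obtain ⟨g, rfl⟩ := exists_smul_eq G a x
      change (⟨h, hh⟩ : G) • fn G a n (g • a) = fn G a n ((⟨h, hh⟩ : G) • g • a)
      rw [← mul_smul, fn_smul G a n.2, fn_smul G a n.2, mul_smul]⟩
  map_one' := by
    ext x
    obtain ⟨g, rfl⟩ := exists_smul_eq G a x
    change fn G a 1 (g • a) = g • a
    rw [fn_smul G a (one_mem _)]; simp
  map_mul' n m := by
    ext x
    obtain ⟨g, rfl⟩ := exists_smul_eq G a x
    change fn G a (n * m) (g • a) = fn G a n (fn G a m (g • a))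
    rw [fn_smul G a (mul_mem n.2 m.2), fn_smul G a m.2, ← mul_smul g (m : G)⁻¹, fn_smul G a n.2]
    simp [mul_smul]

theorem phi_apply (n : Subgroup.normalizer ((stabilizer G a : Subgroup G) : Set G)) (g : G) :
    (phi G a n : Equiv.Perm α) (g • a) = g • (n : G)⁻¹ • a := fn_smul G a n.2 g

omit [IsPretransitive (↥G) α] in
theorem mem_norm_of_stab_eq {g : G} (h : stabilizer G (g • a) = stabilizer G a) :
    g⁻¹ ∈ Subgroup.normalizer ((stabilizer G a : Subgroup G) : Set G) := by
  rw [Subgroup.mem_normalizer_iff]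
  intro k
  conv_lhs => rw [← h]
  simp only [mem_stabilizer_iff, mul_smul, inv_inv, inv_smul_eq_iff]

theorem phi_surj : Function.Surjective (phi G a) := by
  intro c
  obtain ⟨g, hg⟩ := exists_smul_eq G a ((c : Equiv.Perm α) a)
  have hc : ∀ (k : G) (x : α), k • (c : Equiv.Perm α) x = (c : Equiv.Perm α) (k • x) := by
    intro k x
    have := c.2 k k.2
    exact congrArg (fun σ : Equiv.Perm α => σ x) this
  have h : stabilizer G (g • a) = stabilizer G a := by
    ext k
    rw [hg, mem_stabilizer_iff, mem_stabilizer_iff, hc]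
    exact (c : Equiv.Perm α).injective.eq_iff
  refine ⟨⟨g⁻¹, mem_norm_of_stab_eq G a h⟩, ?_⟩
  ext x
  obtain ⟨k, rfl⟩ := exists_smul_eq G a x
  rw [phi_apply, ← hc, ← hg]; simp

theorem phi_ker : (phi G a).ker = (stabilizer G a).subgroupOf _ := by
  ext n
  rw [MonoidHom.mem_ker, Subgroup.mem_subgroupOf, mem_stabilizer_iff]
  constructor
  · intro h
    have := phi_apply G a n 1
    rw [h] at this
    simp only [one_smul, OneMemClass.coe_one, Equiv.Perm.coe_one, id_eq] at this
    rw [eq_inv_smul_iff] at this
    exact this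
  · intro h
    ext x
    obtain ⟨k, rfl⟩ := exists_smul_eq G a x
    rw [phi_apply]
    have : (n : G)⁻¹ • a = a := by rw [inv_smul_eq_iff, h]
    rw [this]; rfl

end


/-- For a transitive permutation group `G` on a finite set, the centraliser of `G` in the symmetric group is isomorphic to `N_G(G_ω)/G_ω`, and its orbit of `ω` is the set of fixed points of `G_ω`. -/
theorem result {α : Type*} [Finite α] (G : Subgroup (Equiv.Perm α)) [MulAction.IsPretransitive G α] (a : α) : Nonempty (Subgroup.centralizer (G : Set (Equiv.Perm α)) ≃* Subgroup.normalizer ((MulAction.stabilizer G a : Subgroup G) : Set G) ⧸ (MulAction.stabilizer G a).subgroupOf (Subgroup.normalizer ((MulAction.stabilizer G a : Subgroup G) : Set G))) ∧ MulAction.orbit (Subgroup.centralizer (G : Set (Equiv.Perm α))) a = MulAction.fixedPoints (MulAction.stabilizer G a) α := by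
  classical
  refine ⟨⟨((QuotientGroup.quotientKerEquivOfSurjective _ (phi_surj G a)).symm.trans
    (QuotientGroup.quotientMulEquivOfEq (phi_ker G a)))⟩, ?_⟩
  ext x
  constructor
  · rintro ⟨c, rfl⟩ k
    have := c.2 k (k : G).2
    have h1 := congrArg (fun σ : Equiv.Perm α => σ a) this
    have h2 : ((k : G) : Equiv.Perm α) a = a := k.2
    change ((k : G) : Equiv.Perm α) ((c : Equiv.Perm α) a) = (c : Equiv.Perm α) a
    simpa [h2] using h1
  · intro hx
    obtain ⟨g, rfl⟩ := exists_smul_eq G a x
    have hle : stabilizer G a ≤ stabilizer G (g • a) := fun k hk => hx ⟨k, hk⟩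
    have hcard : Nat.card (stabilizer G (g • a)) = Nat.card (stabilizer G a) :=
      (Nat.card_congr (stabilizerEquivStabilizer (rfl : g • a = g • a)).toEquiv).symm
    have h : stabilizer G (g • a) = stabilizer G a :=
      (Subgroup.eq_of_le_of_card_ge hle hcard.le).symm
    refine ⟨phi G a ⟨g⁻¹, mem_norm_of_stab_eq G a h⟩, ?_⟩
    have := phi_apply G a ⟨g⁻¹, mem_norm_of_stab_eq G a h⟩ 1
    simp only [one_smul, inv_inv] at this
    exact this

end Cfsg.Agent.S0702
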