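import Cfsg.Statements.S0707
import Mathlib.GroupTheory.SpecificGroups.Cyclic
import Mathlib.GroupTheory.GroupAction.Quotient

set_option autoImplicit false
open Cfsg

namespace Cfsg.Agent.S0707


/-- In a primitive permutation group, distinct points have distinct stabilisers unless the group is regular of prime degree. -/
theorem result {α : Type*} (G : Subgroup (Equiv.Perm α)) [MulAction.IsPreprimitive G α] (h : ¬ (Nat.card α).Prime ∨ ∃ a : α, MulAction.stabilizer G a ≠ ⊥) {a b : α} (hab : a ≠ b) : MulAction.stabilizer G a ≠ MulAction.stabilizer G b := by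
  classical
  intro hst
  have hblock : MulAction.IsBlock G {x : α | MulAction.stabilizer G x = MulAction.stabilizer G a} := by
    rw [MulAction.isBlock_iff_smul_eq_of_mem]
    intro g x hx hgx
    simp only [Set.mem_ofPred_eq] at hx hgx
    have hconj : ∀ k : G, k ∈ MulAction.stabilizer G a ↔ g⁻¹ * k * g ∈ MulAction.stabilizer G a := by
      intro k
      conv_lhs => rw [← hgx]
      conv_rhs => rw [← hx]
      simp only [MulAction.mem_stabilizer_iff, mul_smul, inv_smul_eq_iff]
    ext y
    rw [Set.mem_smul_set_iff_inv_smul_mem]
    simp only [Set.mem_ofPred_eq]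
    constructor
    · intro hy
      ext k
      rw [hconj k, ← hy]
      simp only [MulAction.mem_stabilizer_iff, mul_smul, smul_inv_smul, smul_left_cancel_iff]
    · intro hy
      ext k
      have := hconj (g * k * g⁻¹)
      simp only [mul_assoc, inv_mul_cancel_left, inv_mul_cancel, mul_one] at this
      rw [← this, ← hy]
      simp only [MulAction.mem_stabilizer_iff, mul_smul]
      constructor
      · intro h1; rw [h1, smul_inv_smul]
      · intro h1; rw [eq_inv_smul_iff]; exact h1
  have hall : ∀ x : α, MulAction.stabilizer G x = MulAction.stabilizer G a := by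
    rcases MulAction.IsPreprimitive.isTrivialBlock_of_isBlock hblock with h1 | h1
    · exact absurd (h1 (x := a) rfl (y := b) hst.symm) hab
    · intro x
      have : x ∈ {x : α | MulAction.stabilizer G x = MulAction.stabilizer G a} := by
        rw [h1]; trivial
      exact this
  have hbot : MulAction.stabilizer G a = ⊥ := by
    rw [eq_bot_iff]
    intro k hk
    rw [Subgroup.mem_bot]
    ext x
    have : k ∈ MulAction.stabilizer G x := by rw [hall x]; exact hk
    exact this
  have : Nontrivial α := ⟨a, b, hab⟩
  have hco := MulAction.IsPreprimitive.isCoatom_stabilizer_of_isPreprimitive G a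
  rw [hbot] at hco
  have hsub : ∀ H : Subgroup G, H = ⊥ ∨ H = ⊤ := by
    intro H
    by_cases hH : H = ⊥
    · exact Or.inl hH
    · exact Or.inr (hco.2 H (bot_lt_iff_ne_bot.mpr hH))
  have hnt : Nontrivial G := by
    rw [← Subgroup.nontrivial_iff]; exact ⟨⊥, ⊤, hco.1⟩
  have hcyc : IsCyclic G := by
    obtain ⟨g, hg⟩ := exists_ne (1 : G)
    refine ⟨g, ?_⟩
    have := (hsub (Subgroup.zpowers g)).resolve_left (by simpa using hg)
    intro x
    have hx : x ∈ Subgroup.zpowers g := by rw [this]; trivial
    exact hx
  have hsimp : IsSimpleGroup G := ⟨fun H _ => hsub H⟩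
  have hp : (Nat.card G).Prime := Group.is_simple_iff_prime_card.mp hsimp
  have hcard : Nat.card α = Nat.card G := by
    rw [← MulAction.index_stabilizer_of_transitive G a, hbot, Subgroup.index_bot]
  rcases h with h | ⟨c, hc⟩
  · exact h (hcard ▸ hp)
  · exact hc ((hall c).trans hbot)

end Cfsg.Agent.S0707
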