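import Cfsg.Statements.S0708
import Cfsg.Agent.Spor.SharpTrans

set_option autoImplicit false
open Cfsg

namespace Cfsg.Agent.S0708

open Cfsg.Lib.Spor MulAction

theorem finite_of {G Ω : Type*} [Group G] [MulAction G Ω] (h : SharpTrans G Ω 4) {p q c d : Ω}
    (hd : Dist4 p q c d) : Finite Ω := by
  obtain ⟨t, ht2, ht1, hp, hq, hc, hd'⟩ := h.ex_inv hd
  obtain ⟨h1, h2, h3, h4, h5, h6⟩ := hd
  have htt : ∀ x : Ω, t • t • x = x := fun x => by rw [← mul_smul, ht2, one_smul]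
  have hF : (fixedBy Ω t).Finite := by
    by_contra hF
    obtain ⟨x, hx, hx'⟩ := Set.Infinite.exists_notMem_finite hF (Set.toFinite {p, q})
    obtain ⟨y, hy, hy'⟩ := Set.Infinite.exists_notMem_finite hF (Set.toFinite {p, q, x})
    simp only [Set.mem_insert_iff, Set.mem_singleton_iff, not_or] at hx' hy'
    exact ht1 (h.one4 ⟨h1, Ne.symm hx'.1, Ne.symm hy'.1, Ne.symm hx'.2, Ne.symm hy'.2.1,
      Ne.symm hy'.2.2⟩ hp hq hx hy)
  set S : Set Ω := {x | t • x ≠ x ∧ x ≠ c ∧ x ≠ d} with hS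
  have hD : ∀ x ∈ S, Dist4 c d x (t • x) := fun x hx =>
    ⟨h6, hx.2.1.symm, fun e => hx.2.2 (by rw [← htt x, ← e, hc]), hx.2.2.symm,
      fun e => hx.2.1 (by rw [← htt x, ← e, hd']), hx.1.symm⟩
  have hSf : S.Finite := by
    rcases S.eq_empty_or_nonempty with e | ⟨x₀, hx₀⟩
    · exact e ▸ Set.finite_empty
    have hex : ∀ x : Ω, ∃ g : G, x ∈ S → g • c = c ∧ g • d = d ∧ g • x₀ = x ∧ g * t = t * g := by
      intro x
      by_cases hx : x ∈ S
      · obtain ⟨g, e1, e2, e3, e4⟩ := h.ex4 (hD x₀ hx₀) (hD x hx)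
        refine ⟨g, fun _ => ⟨e1, e2, e3, h.eq4 (hD x₀ hx₀) ?_ ?_ ?_ ?_⟩⟩ <;>
          simp only [mul_smul, hc, hd', e1, e2, e3, e4, htt]
      · exact ⟨1, fun h => absurd h hx⟩
    choose g hg using hex
    refine Set.Finite.of_finite_image (f := fun x => (g x • p, g x • q))
      ((hF.prod hF).subset ?_) fun x hx y hy e => ?_
    · rintro _ ⟨x, hx, rfl⟩
      constructor <;>
        simp only [mem_fixedBy, ← mul_smul, ← (hg x hx).2.2.2] <;> simp only [mul_smul, hp, hq]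
    · obtain ⟨e1, e2⟩ := Prod.ext_iff.1 e
      rw [← (hg x hx).2.2.1, ← (hg y hy).2.2.1, h.eq4 ⟨h1, h2, h3, h4, h5, h6⟩ e1 e2
        ((hg x hx).1.trans (hg y hy).1.symm) ((hg x hx).2.1.trans (hg y hy).2.1.symm)]
  refine Set.finite_univ_iff.1 (((hSf.union hF).union (Set.toFinite {c, d})).subset fun x _ => ?_)
  simp only [hS, Set.mem_union, Set.mem_ofPred_eq, mem_fixedBy, Set.mem_insert_iff,
    Set.mem_singleton_iff]
  tauto

/-- Tits' argument: a sharply 4-transitive group (no finiteness assumed) has finite degree at most 11, and at most 6 when the degree is even. -/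
theorem result {G : Type*} [Group G] {Ω : Type*} [MulAction G Ω] (h4 : MulAction.IsMultiplyPretransitive G Ω 4) (hsharp : ∀ x : Fin 4 ↪ Ω, MulAction.stabilizer G x = ⊥) (hne : Nonempty (Fin 4 ↪ Ω)) : Finite Ω ∧ Nat.card Ω ≤ 11 ∧ (Even (Nat.card Ω) → Nat.card Ω ≤ 6) := by
  classical
  have h : SharpTrans G Ω 4 := ⟨h4, hsharp⟩
  obtain ⟨x⟩ := hne
  have := finite_of h (p := x 0) (q := x 1) (c := x 2) (d := x 3)
    ⟨by simp, by simp, by simp, by simp, by simp, by simp⟩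
  have := Fintype.ofFinite Ω
  have h1 : 4 ≤ Fintype.card Ω := by simpa using Fintype.card_le_of_embedding x
  have h2 := h.jordan4 h1
  rw [Nat.card_eq_fintype_card, Nat.even_iff]
  exact ⟨inferInstance, by omega, by omega⟩

end Cfsg.Agent.S0708
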