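import Cfsg.Statements.S0709


set_option autoImplicit false
open Cfsg

namespace Cfsg.Agent.S0709

open Subgroup MulAction

section
variable {M : Type*} [Group M]

theorem step {A B : Subgroup M} (hAB : A ≤ B) {r s : M} (hr : r ∈ B)
    (hB : ∀ g ∈ B, g ∈ A ∨ ∃ a ∈ A, ∃ a' ∈ A, g = a * r * a')
    (hn : ∀ a ∈ A, s * a * s⁻¹ ∈ A) (h2 : s ^ 2 ∈ A) (h3 : (r * s) ^ 3 ∈ B) :
    ∀ g ∈ B ⊔ zpowers s, g ∈ B ∨ ∃ b ∈ B, ∃ b' ∈ B, g = b * s * b' := by
  have hn' : ∀ a ∈ A, s⁻¹ * a * s ∈ A := fun a ha => by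
    convert mul_mem (mul_mem (inv_mem h2) (hn a ha)) h2 using 1
    simp only [pow_two]
    group
  have hb : ∀ x ∈ B, ∀ g, (g ∈ B ∨ ∃ b ∈ B, ∃ b' ∈ B, g = b * s * b') →
      (x * g ∈ B ∨ ∃ b ∈ B, ∃ b' ∈ B, x * g = b * s * b') := by
    rintro x hx g (hg | ⟨b, hb, b', hb', rfl⟩)
    · exact Or.inl (mul_mem hx hg)
    · exact Or.inr ⟨_, mul_mem hx hb, b', hb', by group⟩
  have hs : ∀ g, (g ∈ B ∨ ∃ b ∈ B, ∃ b' ∈ B, g = b * s * b') →
      (s * g ∈ B ∨ ∃ b ∈ B, ∃ b' ∈ B, s * g = b * s * b') := by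
    rintro g (hg | ⟨b, hb, b', hb', rfl⟩)
    · exact Or.inr ⟨1, one_mem _, g, hg, by group⟩
    rcases hB b hb with ha | ⟨a, ha, a', ha', rfl⟩
    · left
      convert mul_mem (hAB (mul_mem (hn b ha) h2)) hb' using 1
      simp only [pow_two]
      group
    · refine Or.inr ⟨_, mul_mem (mul_mem (mul_mem (hAB (hn a ha)) (inv_mem hr)) h3)
        (inv_mem (hAB h2)), _, mul_mem (mul_mem (inv_mem hr) (hAB (hn' a' ha'))) hb', ?_⟩
      simp only [pow_succ, pow_zero]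
      group
  intro g hg
  rw [zpowers_eq_closure, ← closure_eq B, ← closure_union] at hg
  induction hg using closure_induction_left with
  | one => exact Or.inl (one_mem _)
  | mul_left x hx y _ ih =>
    rcases hx with hx | rfl
    · exact hb x hx y ih
    · exact hs y ih
  | inv_mul_cancel x hx y _ ih =>
    rcases hx with hx | rfl
    · exact hb _ (inv_mem hx) y ih
    · have := hb _ (inv_mem (hAB h2)) _ (hs y ih)
      rwa [show (x ^ 2)⁻¹ * (x * y) = x⁻¹ * y by simp only [pow_two]; group] at this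

/-- The chain of subgroups generated by `A` and `s 1, ..., s n`. -/
def tower (A : Subgroup M) (s : ℕ → M) : ℕ → Subgroup M
  | 0 => A
  | n + 1 => tower A s n ⊔ zpowers (s (n + 1))

theorem tower_mono (A : Subgroup M) (s : ℕ → M) : Monotone (tower A s) :=
  monotone_nat_of_le_succ fun _ => le_sup_left

theorem mem_tower (A : Subgroup M) (s : ℕ → M) (n : ℕ) : s (n + 1) ∈ tower A s (n + 1) :=
  mem_sup_right (mem_zpowers _)

theorem tower_le (A : Subgroup M) (s : ℕ → M) {K : Subgroup M} {n : ℕ} (hA : A ≤ K)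
    (hs : ∀ i, 1 ≤ i → i ≤ n → s i ∈ K) : tower A s n ≤ K := by
  induction n with
  | zero => exact hA
  | succ n ih =>
    exact sup_le (ih fun i h1 h2 => hs i h1 (by omega)) (zpowers_le.2 (hs _ (by omega) le_rfl))

end

/-- Witt's Lemma for constructing transitive extensions. Points `q 1, …, q t` (`t ≥ 2`) of a finite set are given; `G` fixes `q i` for `i ≥ 3` and is doubly transitive on the remaining points; `s 1 ∈ G` swaps `q 1, q 2`; for `2 ≤ i ≤ t-1`, `s i` swaps `q i, q (i+1)` and fixes the other `q j`; with `H` the stabiliser of `q 1, q 2` in `G`: `s i ^ 2 ∈ H`, `(s i * s (i+1)) ^ 3 ∈ H`, `(s i * s j) ^ 2 ∈ H` for `j ≥ i + 2`, and `s i` (`i ≥ 2`) normalises the stabiliser of `q 2` in `G`. Then `G` and the `s i` generate a `t`-transitive group whose pointwise stabiliser of the `q`'s is `H`. -/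
theorem result {α : Type*} [Fintype α] [DecidableEq α] (t : ℕ) (ht : 2 ≤ t) (q : ℕ → α) (hq : ∀ i j : ℕ, 1 ≤ i → i ≤ t → 1 ≤ j → j ≤ t → q i = q j → i = j) (G : Subgroup (Equiv.Perm α)) (hfix : ∀ g ∈ G, ∀ i : ℕ, 3 ≤ i → i ≤ t → g (q i) = q i) (h2 : ∀ a b c d : α, (∀ i, 3 ≤ i → i ≤ t → a ≠ q i ∧ b ≠ q i ∧ c ≠ q i ∧ d ≠ q i) → a ≠ b → c ≠ d → ∃ g ∈ G, g a = c ∧ g b = d) (s : ℕ → Equiv.Perm α) (hs1 : s 1 ∈ G) (hs1q : s 1 (q 1) = q 2 ∧ s 1 (q 2) = q 1) (hsq : ∀ i : ℕ, 2 ≤ i → i + 1 ≤ t → s i (q i) = q (i + 1) ∧ s i (q (i + 1)) = q i ∧ ∀ j : ℕ, 1 ≤ j → j ≤ t → j ≠ i → j ≠ i + 1 → s i (q j) = q j) (H : Subgroup (Equiv.Perm α)) (hH : H = G ⊓ MulAction.stabilizer (Equiv.Perm α) (q 1) ⊓ MulAction.stabilizer (Equiv.Perm α) (q 2)) (hsq2 : ∀ i : ℕ, 1 ≤ i → i + 1 ≤ t → s i ^ 2 ∈ H) (hbraid : ∀ i : ℕ, 1 ≤ i → i + 2 ≤ t → (s i * s (i + 1)) ^ 3 ∈ H) (hcomm : ∀ i j : ℕ, 1 ≤ i → i + 2 ≤ j → j + 1 ≤ t → (s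 i * s j) ^ 2 ∈ H ∧ (s j * s i) ^ 2 ∈ H) (hnorm : ∀ i : ℕ, 2 ≤ i → i + 1 ≤ t → ∀ g ∈ G ⊓ MulAction.stabilizer (Equiv.Perm α) (q 2), s i * g * (s i)⁻¹ ∈ G ⊓ MulAction.stabilizer (Equiv.Perm α) (q 2)) : MulAction.IsMultiplyPretransitive ↥(Subgroup.closure ((G : Set (Equiv.Perm α)) ∪ {x | ∃ i : ℕ, 2 ≤ i ∧ i + 1 ≤ t ∧ x = s i})) α t ∧ Subgroup.closure ((G : Set (Equiv.Perm α)) ∪ {x | ∃ i : ℕ, 2 ≤ i ∧ i + 1 ≤ t ∧ x = s i}) ⊓ fixingSubgroup (Equiv.Perm α) {x | ∃ i : ℕ, 1 ≤ i ∧ i ≤ t ∧ x = q i} = H := by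
  set G₁ := G ⊓ stabilizer (Equiv.Perm α) (q 2) with hG₁
  have hHG : H ≤ G₁ := fun h hh => by rw [hH] at hh; exact ⟨hh.1.1, hh.2⟩
  let L := tower G₁ s
  have hne : ∀ i j : ℕ, 1 ≤ i → i ≤ t → 1 ≤ j → j ≤ t → i ≠ j → q i ≠ q j :=
    fun i j h1 h2 h3 h4 h5 e => h5 (hq i j h1 h2 h3 h4 e)
  have hq12 : ∀ i, 3 ≤ i → i ≤ t → q 1 ≠ q i ∧ q 2 ≠ q i := fun i h1 h2 =>
    ⟨hne _ _ le_rfl (by omega) (by omega) h2 (by omega),
      hne _ _ (by omega) ht (by omega) h2 (by omega)⟩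
  have h12 : q 1 ≠ q 2 := hne _ _ le_rfl (by omega) (by omega) ht (by omega)
  -- transitivity of `G₁`
  have tr0 : ∀ y, (∀ j, 2 ≤ j → j ≤ t → y ≠ q j) → ∃ g ∈ G₁, g (q 1) = y := fun y hy => by
    obtain ⟨g, hg, e1, e2⟩ := h2 (q 1) (q 2) y (q 2) (fun i h1 h2 =>
      ⟨(hq12 i h1 h2).1, (hq12 i h1 h2).2, hy i (by omega) h2, (hq12 i h1 h2).2⟩) h12
      (hy 2 le_rfl ht)
    exact ⟨g, ⟨hg, e2⟩, e1⟩
  have dc1 : ∀ g ∈ G, g ∈ G₁ ∨ ∃ a ∈ G₁, ∃ a' ∈ G₁, g = a * s 1 * a' := fun g hg => by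
    by_cases h : g (q 2) = q 2
    · exact Or.inl ⟨hg, h⟩
    obtain ⟨a, ha, e⟩ := tr0 (g (q 2)) fun j h1 h3 e => by
      rcases h1.eq_or_lt with rfl | h1
      · exact h e
      · exact (hq12 j h1 h3).2 (g.injective (e.trans (hfix g hg j h1 h3).symm))
    refine Or.inr ⟨a, ha, (a * s 1)⁻¹ * g, ⟨G.mul_mem (G.inv_mem (G.mul_mem ha.1 hs1)) hg, ?_⟩,
      by group⟩
    change (a * s 1)⁻¹ (g (q 2)) = q 2
    rw [Equiv.Perm.inv_eq_iff_eq, Equiv.Perm.mul_apply, hs1q.2, e]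
  have hL1 : L 1 = G := le_antisymm (sup_le inf_le_left (zpowers_le.2 hs1)) fun g hg => by
    rcases dc1 g hg with h | ⟨a, ha, a', ha', rfl⟩
    · exact tower_mono G₁ s zero_le_one h
    · exact mul_mem (mul_mem (tower_mono G₁ s zero_le_one ha) (mem_tower G₁ s 0))
        (tower_mono G₁ s zero_le_one ha')
  have hH0 : ∀ n, H ≤ L n := fun n => hHG.trans (tower_mono G₁ s n.zero_le)
  have sfix : ∀ i j : ℕ, 1 ≤ i → i + 2 ≤ j → j ≤ t → s i (q j) = q j := fun i j h1 h3 h4 => by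
    rcases h1.eq_or_lt with rfl | h1
    · exact hfix _ hs1 j h3 h4
    · exact (hsq i h1 (by omega)).2.2 j (by omega) h4 (by omega) (by omega)
  have smov : ∀ i : ℕ, 1 ≤ i → i + 1 ≤ t → s i (q (i + 1)) = q i := fun i h1 h3 => by
    rcases h1.eq_or_lt with rfl | h1
    · exact hs1q.2
    · exact (hsq i h1 h3).2.1
  have Lfix : ∀ n, ∀ g ∈ L n, ∀ j, n + 2 ≤ j → j ≤ t → g (q j) = q j := fun n g hg j h1 h3 => by
    refine tower_le G₁ s (K := stabilizer (Equiv.Perm α) (q j)) (fun x hx => ?_)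
      (fun i h4 h5 => sfix i j h4 (by omega) h3) hg
    rcases (show 2 ≤ j by omega).eq_or_lt with rfl | h6
    · exact hx.2
    · exact hfix x hx.1 j h6 h3
  have Lnorm : ∀ n, n + 3 ≤ t → ∀ a ∈ L n, s (n + 2) * a * (s (n + 2))⁻¹ ∈ L n := by
    intro n hn a ha
    refine tower_le G₁ s (K := (L n).comap (MulAut.conj (s (n + 2))).toMonoidHom)
      (fun x hx => tower_mono G₁ s n.zero_le (hnorm _ (by omega) hn x hx)) (fun i h4 h5 => ?_) ha
    have h6 := hH0 n (hcomm i (n + 2) h4 (by omega) hn).1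
    have h7 := hH0 n (hsq2 (n + 2) (by omega) hn)
    obtain ⟨i, rfl⟩ := Nat.exists_eq_add_of_le' h4
    have h8 : s (i + 1) ∈ L n := tower_mono G₁ s h5 (mem_tower G₁ s i)
    change s (n + 2) * s (i + 1) * (s (n + 2))⁻¹ ∈ L n
    convert mul_mem (mul_mem (inv_mem h8) h6) (inv_mem h7) using 1
    simp only [pow_two]
    group
  have dc : ∀ n, n + 2 ≤ t → ∀ g ∈ L (n + 1),
      g ∈ L n ∨ ∃ a ∈ L n, ∃ a' ∈ L n, g = a * s (n + 1) * a' := by
    intro n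
    induction n with
    | zero => exact fun _ g hg => dc1 g (hL1 ▸ hg)
    | succ n ih =>
      intro hn
      exact step (tower_mono G₁ s n.le_succ) (mem_tower G₁ s n) (ih (by omega)) (Lnorm n hn)
        (hH0 n (hsq2 _ (by omega) hn)) (hH0 _ (hbraid _ (by omega) hn))
  have Lstab : ∀ n, n + 2 ≤ t → ∀ g ∈ L (n + 1), g (q (n + 2)) = q (n + 2) → g ∈ L n := by
    intro n hn g hg e
    refine (dc n hn g hg).resolve_right ?_
    rintro ⟨a, ha, a', ha', rfl⟩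
    rw [Equiv.Perm.mul_apply, Equiv.Perm.mul_apply, Lfix n a' ha' _ le_rfl hn,
      smov _ (by omega) hn] at e
    exact hne _ _ (by omega) (by omega) (by omega) hn (by omega)
      (a.injective (e.trans (Lfix n a ha _ le_rfl hn).symm))
  have tr : ∀ n, n + 1 ≤ t → ∀ y, (∀ j, n + 2 ≤ j → j ≤ t → y ≠ q j) →
      ∃ g ∈ L n, g (q (n + 1)) = y := by
    intro n
    induction n with
    | zero => exact fun _ => tr0
    | succ n ih =>
      intro hn y hy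
      by_cases e : y = q (n + 2)
      · exact ⟨1, one_mem _, e.symm⟩
      obtain ⟨g, hg, e'⟩ := ih (by omega) y fun j h1 h3 => by
        rcases h1.eq_or_lt with rfl | h1
        · exact e
        · exact hy j h1 h3
      exact ⟨g * s (n + 1), mul_mem (tower_mono G₁ s n.le_succ hg) (mem_tower G₁ s n),
        by rw [Equiv.Perm.mul_apply, smov _ (by omega) hn, e']⟩
  have mtr : ∀ n, n + 1 ≤ t → ∀ y : ℕ → α,
      (∀ i j, 1 ≤ i → i < j → j ≤ n + 1 → y i ≠ y j) →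
      (∀ i j, 1 ≤ i → i ≤ n + 1 → n + 2 ≤ j → j ≤ t → y i ≠ q j) →
      ∃ g ∈ L n, ∀ i, 1 ≤ i → i ≤ n + 1 → g (q i) = y i := by
    intro n
    induction n with
    | zero =>
      intro hn y _ hy
      obtain ⟨g, hg, e⟩ := tr 0 hn (y 1) fun j => hy 1 j le_rfl le_rfl
      exact ⟨g, hg, fun i h1 h3 => by rwa [le_antisymm h3 h1]⟩
    | succ n ih =>
      intro hn y hy hy'
      obtain ⟨g, hg, e⟩ := tr (n + 1) hn (y (n + 2)) fun j => hy' _ j (by omega) le_rfl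
      obtain ⟨k, hk, e'⟩ := ih (by omega) (fun i => g⁻¹ (y i))
        (fun i j h1 h3 h4 e => hy i j h1 h3 (by omega) (g⁻¹.injective e)) (fun i j h1 h3 h4 h5 e1 => by
          rw [Equiv.Perm.inv_eq_iff_eq] at e1
          rcases h4.eq_or_lt with rfl | h4
          · exact hy i (n + 2) h1 (by omega) le_rfl (e1.trans e)
          · exact hy' i j h1 (by omega) h4 h5 (e1.trans (Lfix _ g hg j h4 h5)))
      refine ⟨g * k, mul_mem hg (tower_mono G₁ s n.le_succ hk), fun i h1 h3 => ?_⟩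
      rcases h3.eq_or_lt with rfl | h3
      · rw [Equiv.Perm.mul_apply, Lfix n k hk _ le_rfl hn, e]
      · rw [Equiv.Perm.mul_apply, e' i h1 (by omega)]
        simp
  obtain ⟨m, rfl⟩ := Nat.exists_eq_add_of_le' ht
  have hM : closure ((G : Set (Equiv.Perm α)) ∪ {x | ∃ i : ℕ, 2 ≤ i ∧ i + 1 ≤ m + 2 ∧ x = s i}) =
      L (m + 1) := by
    refine le_antisymm ((closure_le _).2 ?_) (tower_le G₁ s
      (fun x hx => subset_closure (Or.inl hx.1)) fun i h1 h3 => subset_closure ?_)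
    · rintro x (hx | ⟨i, h1, h3, rfl⟩)
      · exact tower_mono G₁ s (Nat.le_add_left 1 m) (hL1.ge hx)
      · obtain ⟨i, rfl⟩ := Nat.exists_eq_add_of_le' (one_le_two.trans h1)
        exact tower_mono G₁ s (by omega) (mem_tower G₁ s i)
    · rcases h1.eq_or_lt with rfl | h1
      · exact Or.inl hs1
      · exact Or.inr ⟨i, h1, by omega, rfl⟩
  rw [hM]
  constructor
  · have key : ∀ x : Fin (m + 2) ↪ α, ∃ g ∈ L (m + 1), ∀ i : Fin (m + 2), g (q (i + 1)) = x i := by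
      intro x
      obtain ⟨g, hg, e⟩ := mtr (m + 1) le_rfl (fun i => x (Fin.ofNat _ (i - 1)))
        (fun i j h1 h3 h4 e => by
          have := congrArg Fin.val (x.injective e)
          simp only [Fin.val_ofNat] at this
          rw [Nat.mod_eq_of_lt (by omega), Nat.mod_eq_of_lt (by omega)] at this
          omega) (fun i j _ _ _ _ => by omega)
      refine ⟨g, hg, fun i => ?_⟩
      rw [e _ (by omega) (by omega)]
      simp
    refine isMultiplyPretransitive_iff.2 fun x y => ?_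
    obtain ⟨g, hg, e⟩ := key x
    obtain ⟨k, hk, e'⟩ := key y
    refine ⟨⟨k * g⁻¹, mul_mem hk (inv_mem hg)⟩, Function.Embedding.ext fun i => ?_⟩
    change k (g⁻¹ (x i)) = y i
    rw [← e, ← e']
    simp
  · have key : ∀ n, n + 1 ≤ m + 2 → ∀ g ∈ L n, (∀ i, 1 ≤ i → i ≤ m + 2 → g (q i) = q i) → g ∈ G₁ := by
      intro n
      induction n with
      | zero => exact fun _ g hg _ => hg
      | succ n ih => exact fun hn g hg e => ih (by omega) g (Lstab n hn g hg (e _ (by omega) hn)) e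
    refine le_antisymm (fun g hg => ?_) fun g hg => ⟨hH0 _ hg, ?_⟩
    · have h1 : ∀ i, 1 ≤ i → i ≤ m + 2 → g (q i) = q i := fun i h1 h3 =>
        (mem_fixingSubgroup_iff _).1 hg.2 _ ⟨i, h1, h3, rfl⟩
      have h3 := key _ le_rfl g hg.1 h1
      rw [hH]
      exact ⟨⟨h3.1, h1 1 le_rfl (by omega)⟩, h3.2⟩
    · refine (mem_fixingSubgroup_iff _).2 ?_
      rintro _ ⟨i, h1, h3, rfl⟩
      rcases h1.eq_or_lt with rfl | h1
      · rw [hH] at hg
        exact hg.1.2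
      · exact Lfix 0 g (hHG hg) i h1 h3

end Cfsg.Agent.S0709
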