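import Cfsg.Statements.S0710
import Cfsg.Agent.Perm.PrimeDeg2
import Mathlib.Tactic.NormNum.Prime
import Mathlib.Tactic.IntervalCases

set_option autoImplicit false
open Cfsg

namespace Cfsg.Agent.S0710

open Cfsg.Lib.Perm


/-- No transitive permutation group on 13 points has order `13 * 12 * 11 * 10 * 9 * 8`. -/
theorem result {α : Type*} [Fintype α] [DecidableEq α] (hα : Fintype.card α = 13) (G : Subgroup (Equiv.Perm α)) [MulAction.IsPretransitive G α] : Nat.card G ≠ 13 * 12 * 11 * 10 * 9 * 8 := by
  intro hG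
  have : Fact (Nat.Prime 13) := ⟨by norm_num⟩
  obtain ⟨P⟩ : Nonempty (Sylow 13 G) := inferInstance
  obtain ⟨d, hd, hN⟩ := card_normalizer_sylow_prime_degree hα G P
  have h1 := card_sylow_modEq_one 13 G
  have h2 := (Subgroup.normalizer ((P : Subgroup G) : Set G)).card_mul_index
  rw [P.card_eq_index_normalizer] at h1
  change (Subgroup.normalizer ((P : Subgroup G) : Set G)).index ≡ 1 [MOD 13] at h1
  rw [hN, hG] at h2
  have hd' : d ≤ 12 := Nat.le_of_dvd (by norm_num) hd
  unfold Nat.ModEq at h1
  interval_cases d <;> omega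

end Cfsg.Agent.S0710
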