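import Cfsg.Statements.S0712

set_option autoImplicit false
open Cfsg

namespace Cfsg.Agent.S0712

open MulAction SubMulAction in
/-- `m`-transitive plus `k`-transitivity of the pointwise stabiliser of one `m`-set on its complement
gives `(m+k)`-transitivity. -/
theorem trans_add {G α : Type*} [Group G] [MulAction G α] (s : Set α) [Finite s] {k : ℕ}
    (hm : IsMultiplyPretransitive G α s.ncard)
    (hk : IsMultiplyPretransitive (fixingSubgroup G s) (ofFixingSubgroup G s) k) :
    IsMultiplyPretransitive G α (s.ncard + k) := by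
  classical
  have Hs : Nonempty (Fin (s.ncard) ≃ s) :=
      Finite.card_eq.mp (by simp [Nat.card_coe_set_eq])
  obtain ⟨e⟩ := Hs
  let e' : Fin s.ncard ↪ α := e.toEmbedding.trans (Function.Embedding.subtype _)
  have key : ∀ x : Fin (s.ncard + k) ↪ α, ∃ (g : G) (z : Fin k ↪ ofFixingSubgroup G s),
      (∀ i, g • x (Fin.castAdd k i) = e' i) ∧ ∀ j, g • x (Fin.natAdd _ j) = z j := by
    intro x
    obtain ⟨g, hg⟩ := hm.exists_smul_eq ((Fin.castAddEmb k).trans x) e'
    have hg' : ∀ i, g • x (Fin.castAdd k i) = e' i := fun i => by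
      rw [← hg]; rfl
    have hn : ∀ j, g • x (Fin.natAdd _ j) ∈ ofFixingSubgroup G s := by
      intro j
      rw [mem_ofFixingSubgroup_iff]
      intro hj
      have h1 : e' (e.symm ⟨_, hj⟩) = g • x (Fin.natAdd _ j) := by simp [e']
      rw [← hg'] at h1
      have h2 := x.injective (smul_left_cancel g h1)
      have h3 := congrArg Fin.val h2
      simp only [Fin.val_castAdd, Fin.val_natAdd] at h3
      have := (e.symm ⟨_, hj⟩).2
      omega
    refine ⟨g, ⟨fun j => ⟨_, hn j⟩, ?_⟩, hg', fun j => rfl⟩
    intro i j hij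
    have h1 := congrArg Subtype.val hij
    have h2 := x.injective (smul_left_cancel g h1)
    exact Fin.natAdd_injective _ _ h2
  constructor
  intro x y
  obtain ⟨g, z, hg, hz⟩ := key x
  obtain ⟨h, w, hh, hw⟩ := key y
  obtain ⟨u, hu⟩ := hk.exists_smul_eq z w
  refine ⟨h⁻¹ * u * g, ?_⟩
  ext i
  rw [Function.Embedding.smul_apply, mul_smul, mul_smul, inv_smul_eq_iff]
  refine Fin.addCases (fun i => ?_) (fun j => ?_) i
  · rw [hg, hh]
    exact u.2 (e i)
  · rw [hz, hw, ← hu]; rfl


/-- Jordan: a primitive group in which the pointwise stabiliser of a set `s` is doubly transitive on the complement of `s` (which has at least 2 points) is `(|s| + 2)`-transitive. -/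
theorem result {α : Type*} [Fintype α] [DecidableEq α] (G : Subgroup (Equiv.Perm α)) (hG : MulAction.IsPreprimitive G α) (s : Set α) {m : ℕ} (hsm : s.ncard = m) (hm : m + 2 ≤ Fintype.card α) (h2 : MulAction.IsMultiplyPretransitive (fixingSubgroup G s) (SubMulAction.ofFixingSubgroup G s) 2) : MulAction.IsMultiplyPretransitive G α (m + 2) := by
  classical
  subst hsm
  refine trans_add s ?_ h2
  rcases Nat.eq_zero_or_pos s.ncard with h0 | hpos
  · rw [h0]; exact MulAction.is_zero_pretransitive
  obtain ⟨n, hn⟩ : ∃ n, s.ncard = n + 1 := ⟨s.ncard - 1, by omega⟩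
  have hprim := MulAction.isPreprimitive_of_is_two_pretransitive h2
  have := hG.isMultiplyPreprimitive hn (by rw [Nat.card_eq_fintype_card]; omega) hprim
  exact MulAction.isMultiplyPretransitive_of_le (n := n + 2) (by omega)
    (by rw [Nat.card_eq_fintype_card]; omega)

end Cfsg.Agent.S0712
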