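import Cfsg.Statements.S0714
import Cfsg.Agent.Perm.PermModule
import Mathlib.GroupTheory.GroupAction.MultipleTransitivity

set_option autoImplicit false
open Cfsg

namespace Cfsg.Agent.S0714

open Cfsg.Lib.Perm MulAction Equiv

theorem exists_two_more {α : Type*} [Fintype α] [DecidableEq α] (s : Finset α)
    (h : s.card < Fintype.card α) : ∃ x, x ∉ s := by
  by_contra hh
  push Not at hh
  have : s = Finset.univ := Finset.eq_univ_iff_forall.mpr hh
  rw [this, Finset.card_univ] at h
  exact lt_irrefl _ h


/-- Over any field, the permutation module of the alternating group of degree at least 5 has exactly four invariant subspaces: zero, the constant functions, the functions with coordinate sum zero, and everything. -/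
theorem result {α : Type*} [Fintype α] [DecidableEq α] (hα : 5 ≤ Fintype.card α) {K : Type*} [Field K] (W : Subrepresentation (Cfsg.permRep K (alternatingGroup α) α)) : W.toSubmodule = ⊥ ∨ W = Cfsg.permConstants K (alternatingGroup α) α ∨ W = Cfsg.permSumZero K (alternatingGroup α) α ∨ W.toSubmodule = ⊤ := by
  have hsumzero : ∀ b d : α, b ≠ d → (Pi.single b 1 - Pi.single d 1 : α → K) ∈ W.toSubmodule →
      (Cfsg.permSumZero K (alternatingGroup α) α).toSubmodule ≤ W.toSubmodule := by
    intro b d hbd hW v hv
    have h2 : IsMultiplyPretransitive (alternatingGroup α) α 2 := by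
      have := alternatingGroup.isMultiplyPretransitive α
      exact isMultiplyPretransitive_of_le (n := Nat.card α - 2)
        (by rw [Nat.card_eq_fintype_card]; omega) (by omega)
    have hall : ∀ x, (Pi.single x 1 - Pi.single d 1 : α → K) ∈ W.toSubmodule := by
      intro x
      by_cases hx : x = d
      · simp [hx]
      obtain ⟨g, hg1, hg2⟩ := is_two_pretransitive_iff.mp h2 hbd hx
      have := W.apply_mem_toSubmodule g hW
      convert this using 1
      ext y
      simp only [Pi.sub_apply, Pi.single_apply, permRep_apply, inv_smul_eq_iff, hg1, hg2]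
    have hv' : ∑ x, v x = 0 := hv
    have : v = ∑ x, v x • (Pi.single x 1 - Pi.single d 1 : α → K) := by
      simp only [smul_sub, Finset.sum_sub_distrib, ← Finset.sum_smul, hv', zero_smul, sub_zero]
      ext y
      simp [Finset.sum_apply, Pi.single_apply]
    rw [this]
    exact W.toSubmodule.sum_mem fun x _ => W.toSubmodule.smul_mem _ (hall x)
  by_cases hc : W.toSubmodule ≤ (Cfsg.permConstants K (alternatingGroup α) α).toSubmodule
  · by_cases h0 : W.toSubmodule = ⊥
    · exact Or.inl h0
    · right; left
      apply Subrepresentation.toSubmodule_injective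
      refine le_antisymm hc ?_
      obtain ⟨w, hwW, hw⟩ := Submodule.exists_mem_ne_zero_of_ne_bot h0
      obtain ⟨c, hc'⟩ := (mem_permConstants_iff _).mp (hc hwW)
      intro v hv
      obtain ⟨e, he⟩ := (mem_permConstants_iff _).mp hv
      have hc0 : c ≠ 0 := by
        rintro rfl
        exact hw (funext hc')
      have : v = (e * c⁻¹) • w := by
        ext x
        simp [he, hc', hc0]
      rw [this]
      exact W.toSubmodule.smul_mem _ hwW
  · right; right
    obtain ⟨v, hvW, hv⟩ := SetLike.not_le_iff_exists.mp hc
    rw [mem_permConstants_iff] at hv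
    push Not at hv
    have hne : Nonempty α := Fintype.card_pos_iff.mp (by omega)
    obtain ⟨a⟩ := hne
    obtain ⟨b, hb⟩ := hv (v a)
    have hba : b ≠ a := by rintro rfl; exact hb rfl
    obtain ⟨c, hc⟩ := exists_two_more ({a, b} : Finset α) (lt_of_le_of_lt Finset.card_le_two (by omega))
    obtain ⟨d, hd⟩ := exists_two_more ({a, b, c} : Finset α)
      (lt_of_le_of_lt Finset.card_le_three (by omega))
    obtain ⟨e, he⟩ := exists_two_more ({a, b, c, d} : Finset α)
      (lt_of_le_of_lt Finset.card_le_four (by omega))
    simp only [Finset.mem_insert, Finset.mem_singleton, not_or] at hc hd he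
    obtain ⟨hca, hcb⟩ := hc
    obtain ⟨hda, hdb, hdc⟩ := hd
    obtain ⟨hea, heb, hec, hed⟩ := he
    let σ : alternatingGroup α := ⟨swap b c * swap a b, by
      simp [Perm.mem_alternatingGroup, hba.symm, Ne.symm hcb]⟩
    let τ : alternatingGroup α := ⟨swap d e * swap a d, by
      simp [Perm.mem_alternatingGroup, Ne.symm hda, Ne.symm hed]⟩
    have h1 := W.toSubmodule.sub_mem hvW (W.apply_mem_toSubmodule σ hvW)
    set w := v - Cfsg.permRep K (alternatingGroup α) α σ v with hw
    have hwx : ∀ x, w x = v x - v (swap a b (swap b c x)) := fun x => rfl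
    have h2 := W.toSubmodule.sub_mem h1 (W.apply_mem_toSubmodule τ h1)
    have hwa : w a ≠ 0 := by
      rw [hwx, swap_apply_of_ne_of_ne hba.symm (Ne.symm hca), swap_apply_left]
      exact sub_ne_zero.mpr (Ne.symm hb)
    have hwd : w d = 0 := by rw [hwx]; simp [swap_apply_of_ne_of_ne, hda, hdb, hdc]
    have hwe : w e = 0 := by rw [hwx]; simp [swap_apply_of_ne_of_ne, hea, heb, hec]
    have h3 : (w a)⁻¹ • (w - Cfsg.permRep K (alternatingGroup α) α τ w) =
        Pi.single a 1 - Pi.single e 1 := by
      ext x
      change (w a)⁻¹ * (w x - w (swap a d (swap d e x))) = _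
      by_cases hxa : x = a
      · subst hxa
        simp [swap_apply_of_ne_of_ne (Ne.symm hda) (Ne.symm hea), hwd, hwa, Ne.symm hea]
      by_cases hxd : x = d
      · subst hxd
        simp [swap_apply_of_ne_of_ne hea hed, hwd, hwe, hda, Ne.symm hed]
      by_cases hxe : x = e
      · subst hxe
        simp [hwe, hwa, hea]
      · simp [swap_apply_of_ne_of_ne hxd hxe, swap_apply_of_ne_of_ne hxa hxd, hxa, hxe]
    have h4 := hsumzero a e (Ne.symm hea) (h3 ▸ W.toSubmodule.smul_mem _ h2)
    by_cases h5 : W.toSubmodule ≤ (Cfsg.permSumZero K (alternatingGroup α) α).toSubmodule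
    · left
      exact Subrepresentation.toSubmodule_injective (le_antisymm h5 h4)
    · right
      obtain ⟨u, huW, hu⟩ := SetLike.not_le_iff_exists.mp h5
      rw [mem_permSumZero_iff] at hu
      rw [eq_top_iff]
      intro z _
      have h6 : z - ((∑ x, z x) * (∑ x, u x)⁻¹) • u ∈ W.toSubmodule := by
        apply h4
        rw [mem_permSumZero_iff]
        simp only [Pi.sub_apply, Pi.smul_apply, smul_eq_mul, Finset.sum_sub_distrib,
          ← Finset.mul_sum]
        field_simp
        ring
      simpa using W.toSubmodule.add_mem h6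
        (W.toSubmodule.smul_mem ((∑ x, z x) * (∑ x, u x)⁻¹) huW)

end Cfsg.Agent.S0714
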