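import Cfsg.Statements.S0716
import Cfsg.Agent.Perm.Orbital

set_option autoImplicit false
open Cfsg

namespace Cfsg.Agent.S0716

open Cfsg.Lib.Perm.Commutant Cfsg.Lib.Char Finset MulAction

theorem card_eq_sum_orbits (H : Type*) [Group H] (Ω : Type*) [Fintype Ω] [MulAction H Ω]
    [Fintype (orbitRel.Quotient H Ω)] :
    Fintype.card Ω = ∑ o : orbitRel.Quotient H Ω, Nat.card o.orbit := by
  rw [← Nat.card_eq_fintype_card, Nat.card_congr (selfEquivSigmaOrbits' H Ω), Nat.card_sigma]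

theorem coeff {G : Type*} [Group G] [Fintype G] {Ω : Type*} [Fintype Ω] [MulAction G Ω]
    [IsPretransitive G Ω] (a : Ω) : ∃ (m : IrrCharacter G → ℕ) (s : Finset (IrrCharacter G)),
      (∀ χ, χ ∈ s ↔ (χ : G → ℂ) ≠ fun _ => 1) ∧
      (∀ χ : IrrCharacter G, classInner (Cfsg.permRep ℂ G Ω).character χ = m χ) ∧
      (∀ χ, χ ∉ s → m χ = 1) ∧
      (Fintype.card Ω : ℂ) = 1 + ∑ χ ∈ s, m χ * (χ : G → ℂ) 1 ∧
      Nat.card (orbitRel.Quotient (stabilizer G a) Ω) = 1 + ∑ χ ∈ s, m χ ^ 2 := by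
  classical
  have : Nonempty Ω := ⟨a⟩
  have hπ := isCharacter_rep (Cfsg.permRep ℂ G Ω)
  choose m hm using fun χ : IrrCharacter G => hπ.exists_nat_classInner χ.2.isCharacter
  let χ₀ : IrrCharacter G := ⟨fun _ => 1, isIrrCharacter_one⟩
  have h0 : m χ₀ = 1 := by
    have := hm χ₀
    rw [classInner_permRep_one] at this
    exact_mod_cast this.symm
  refine ⟨m, univ.erase χ₀, fun χ => ?_, hm, fun χ hχ => ?_, ?_, ?_⟩
  · simp [χ₀, Subtype.ext_iff]
  · rw [show χ = χ₀ by simpa using hχ, h0]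
  · have h1 := hπ.isClassFunction.apply_eq_sum_irr 1
    rw [← add_sum_erase _ _ (mem_univ χ₀)] at h1
    simp only [hm, h0] at h1
    simpa [χ₀] using h1
  · have h1 := hπ.isClassFunction.classInner_eq_sum_irr (Cfsg.permRep ℂ G Ω).character
    rw [classInner_permRep_self a, ← add_sum_erase _ _ (mem_univ χ₀)] at h1
    simp only [← conj_classInner (Cfsg.permRep ℂ G Ω).character, hm, h0, map_natCast, ← sq] at h1
    exact_mod_cast h1

theorem partA {G : Type*} [Group G] [Fintype G] {Ω : Type*} [Fintype Ω] [MulAction G Ω]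
    [IsPretransitive G Ω] (a : Ω) (f : ℕ)
    (hf : ∀ χ : G → ℂ, IsIrrCharacter G χ → χ ≠ (fun _ => 1) →
      classInner (Cfsg.permRep ℂ G Ω).character χ ≠ 0 → χ 1 = f) :
    (∀ χ : G → ℂ, IsIrrCharacter G χ → classInner (Cfsg.permRep ℂ G Ω).character χ = 0 ∨
      classInner (Cfsg.permRep ℂ G Ω).character χ = 1) ∧
      ∀ b : Ω, b ≠ a → Nat.card (orbit (stabilizer G a) b) = f := by
  classical
  obtain ⟨m, s, hs, hm, hm1, hn, hr⟩ := coeff (G := G) a
  have := Fintype.ofFinite (orbitRel.Quotient (stabilizer G a) Ω)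
  have h1 : Fintype.card Ω = 1 + (∑ χ ∈ s, m χ) * f := by
    rw [sum_congr rfl (g := fun χ => (m χ : ℂ) * f)] at hn
    · rw [← sum_mul] at hn
      exact_mod_cast hn
    · intro χ hχ
      by_cases h : m χ = 0
      · simp [h]
      · rw [hf χ χ.2 ((hs χ).mp hχ) (by rwa [hm, Nat.cast_ne_zero])]
  have h2 := card_eq_sum_orbits (stabilizer G a) Ω
  let o₀ : orbitRel.Quotient (stabilizer G a) Ω := Quotient.mk'' a
  have h3 : Nat.card o₀.orbit = 1 := by
    rw [orbitRel.Quotient.orbit_mk, Nat.card_eq_one_iff_unique]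
    refine ⟨⟨?_⟩, ⟨⟨a, mem_orbit_self a⟩⟩⟩
    rintro ⟨_, ⟨g, hg⟩, rfl⟩ ⟨_, ⟨k, hk⟩, rfl⟩
    exact Subtype.ext (hg.trans hk.symm)
  rw [← add_sum_erase _ _ (mem_univ o₀), h3] at h2
  have h4 : ∀ o ∈ univ.erase o₀, f ≤ Nat.card o.orbit := by
    intro o ho
    obtain ⟨b, rfl⟩ := Quotient.exists_rep o
    have hb : b ≠ a := by
      rintro rfl
      exact ne_of_mem_erase ho rfl
    have : Nonempty (orbit (stabilizer G a) b) := ⟨⟨b, mem_orbit_self b⟩⟩
    change f ≤ Nat.card (orbit (stabilizer G a) b)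
    exact Nat.le_of_dvd Nat.card_pos (dvd_subdegree f
      (fun χ h1 h2 h3 => ⟨1, by rw [hf χ h1 h2 h3]; simp⟩) hb)
  have h5 : (univ.erase o₀).card = ∑ χ ∈ s, m χ ^ 2 := by
    rw [card_erase_of_mem (mem_univ _), card_univ, ← Nat.card_eq_fintype_card, hr]
    omega
  have h6 := sum_le_sum h4
  rw [sum_const, smul_eq_mul, h5] at h6
  have h7 : ∀ χ ∈ s, m χ ≤ m χ ^ 2 := fun χ _ => Nat.le_self_pow two_ne_zero _
  have h8 := Nat.mul_le_mul_right f (sum_le_sum h7)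
  constructor
  · intro χ hχ
    rw [hm ⟨χ, hχ⟩, Nat.cast_eq_zero, Nat.cast_eq_one]
    by_cases h : ⟨χ, hχ⟩ ∈ s
    swap
    · exact Or.inr (hm1 _ h)
    rw [or_iff_not_imp_left]
    intro h0
    have hf0 : 0 < f := Nat.pos_of_ne_zero fun h9 => hχ.apply_one_ne_zero (by
      rw [hf χ hχ ((hs _).mp h) (by rwa [hm ⟨χ, hχ⟩, Nat.cast_ne_zero]), h9, Nat.cast_zero])
    have h9 : ∑ χ ∈ s, m χ = ∑ χ ∈ s, m χ ^ 2 := Nat.eq_of_mul_eq_mul_right hf0 (by omega)
    have h10 := (sum_eq_sum_iff_of_le h7).mp h9 _ h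
    rw [sq] at h10
    exact (Nat.eq_of_mul_eq_mul_left (Nat.pos_of_ne_zero h0) ((mul_one _).trans h10)).symm
  · intro b hb
    have h9 : ∑ o ∈ univ.erase o₀, f = ∑ o ∈ univ.erase o₀, Nat.card o.orbit := by
      rw [sum_const, smul_eq_mul, h5]
      omega
    refine ((sum_eq_sum_iff_of_le h4).mp h9 (Quotient.mk'' b) (mem_erase.mpr ⟨fun h => ?_, mem_univ _⟩)).symm
    obtain ⟨⟨g, hg⟩, rfl⟩ := Quotient.exact' h
    exact hb hg


/-- (a) If all non-principal irreducible constituents of the permutation character of a transitive group have the same degree `f`, the character is multiplicity-free and all non-trivial subdegrees equal `f`. (b) A transitive group of rank at most 5 has multiplicity-free permutation character. -/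
theorem result {G : Type*} [Group G] [Fintype G] {Ω : Type*} [Fintype Ω] [MulAction G Ω] [MulAction.IsPretransitive G Ω] (a : Ω) : ((f : ℕ) → (∀ χ : G → ℂ, Cfsg.IsIrrCharacter G χ → χ ≠ (fun _ => 1) → Cfsg.classInner (fun g : G => (Nat.card (MulAction.fixedBy Ω g) : ℂ)) χ ≠ 0 → χ 1 = f) → (∀ χ : G → ℂ, Cfsg.IsIrrCharacter G χ → Cfsg.classInner (fun g : G => (Nat.card (MulAction.fixedBy Ω g) : ℂ)) χ = 0 ∨ Cfsg.classInner (fun g : G => (Nat.card (MulAction.fixedBy Ω g) : ℂ)) χ = 1) ∧ ∀ b : Ω, b ≠ a → Nat.card (MulAction.orbit (MulAction.stabilizer G a) b) = f) ∧ (Nat.card (MulAction.orbitRel.Quotient (MulAction.stabilizer G a) Ω) ≤ 5 → ∀ χ : G → ℂ, Cfsg.IsIrrCharacter G χ → Cfsg.classInner (fun g : G => (Nat.card (MulAction.fixedBy Ω g) : ℂ)) χ = 0 ∨ Cfsg.classInner (fun g : G => (Nat.card (MulAction.fixedBy Ω g) : ℂ)) χ = 1) := by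
  rw [← character_permRep_eq]
  refine ⟨partA a, fun h5 χ hχ => ?_⟩
  obtain ⟨m, s, hs, hm, hm1, hn, hr⟩ := coeff (G := G) a
  by_contra hne
  have h1 : 2 ≤ m ⟨χ, hχ⟩ := by
    rw [hm ⟨χ, hχ⟩, Nat.cast_eq_zero, Nat.cast_eq_one] at hne
    omega
  have h2 : ⟨χ, hχ⟩ ∈ s := by
    by_contra h
    have := hm1 _ h
    omega
  obtain ⟨f, -, hf⟩ := hχ.exists_nat_degree_pos
  refine hne ((partA a f fun ψ hψ h3 h4 => ?_).1 χ hχ)
  by_contra h6
  classical
  have h7 : (⟨ψ, hψ⟩ : IrrCharacter G) ≠ ⟨χ, hχ⟩ := fun h => h6 (by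
    rw [← hf]; exact congrFun (congrArg Subtype.val h) 1)
  have h8 := sum_le_sum_of_subset (f := fun χ => m χ ^ 2)
    (show ({⟨ψ, hψ⟩, ⟨χ, hχ⟩} : Finset (IrrCharacter G)) ⊆ s from
      insert_subset ((hs _).mpr h3) (singleton_subset_iff.mpr h2))
  rw [sum_pair h7] at h8
  have h9 : 1 ≤ m ⟨ψ, hψ⟩ := Nat.pos_of_ne_zero (by rwa [hm ⟨ψ, hψ⟩, Nat.cast_ne_zero] at h4)
  nlinarith

end Cfsg.Agent.S0716
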