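import Cfsg.Statements.S0717
import Cfsg.Agent.Perm.Orbital

set_option autoImplicit false
open Cfsg

namespace Cfsg.Agent.S0717

open Cfsg.Lib.Perm.Commutant Matrix LinearMap


/-- All suborbits of a transitive group are self-paired (every pair of points is interchanged by some group element) if and only if the permutation character is multiplicity-free and each of its irreducible constituents is real-valued. -/
theorem result {G : Type*} [Group G] [Fintype G] {Ω : Type*} [Fintype Ω] [MulAction G Ω] [MulAction.IsPretransitive G Ω] : (∀ a b : Ω, ∃ g : G, g • a = b ∧ g • b = a) ↔ ∀ χ : G → ℂ, Cfsg.IsIrrCharacter G χ → Cfsg.classInner (fun g : G => (Nat.card (MulAction.fixedBy Ω g) : ℂ)) χ ≠ 0 → Cfsg.classInner (fun g : G => (Nat.card (MulAction.fixedBy Ω g) : ℂ)) χ = 1 ∧ ∀ g : G, (starRingEnd ℂ) (χ g) = χ g := by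
  classical
  rw [← character_permRep_eq]
  constructor
  · intro h χ hχ hne
    have hsymm : ∀ T : Module.End ℂ (Ω → ℂ), (∀ g, Commute (Cfsg.permRep ℂ G Ω g) T) →
        (toMatrix' T)ᵀ = toMatrix' T := by
      intro T hT
      ext x y
      obtain ⟨g, h1, h2⟩ := h x y
      rw [transpose_apply, ← mInv_toMatrix' hT g x y, h1, h2]
    have hmf := multFree_of_commute (ρ := Cfsg.permRep ℂ G Ω) (fun S T hS hT => by
      apply toMatrix'.injective
      rw [← hsymm _ fun g => (hS g).mul_right (hT g), toMatrix'_mul, transpose_mul, hsymm S hS,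
        hsymm T hT, toMatrix'_mul]) hχ
    refine ⟨hmf.resolve_left hne, fun g => ?_⟩
    rw [← hχ.isCharacter.apply_inv]
    by_contra hg
    have h1 : idem (Cfsg.permRep ℂ G Ω) χ = idem (Cfsg.permRep ℂ G Ω) fun g => χ g⁻¹ := by
      apply toMatrix'.injective
      rw [← transpose_idem, hsymm _ (commute_rep_idem hχ.isClassFunction)]
    have h2 := idem_mul_idem (ρ := Cfsg.permRep ℂ G Ω) ⟨χ, hχ⟩ ⟨fun g => χ g⁻¹, hχ.inv⟩
    rw [if_neg fun h' => hg (congrFun (congrArg Subtype.val h') g)] at h2
    change idem _ χ * idem _ (fun g => χ g⁻¹) = 0 at h2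
    rw [← h1, idem_mul_self ⟨χ, hχ⟩] at h2
    have h3 := congrFun (tau_idem (ρ := Cfsg.permRep ℂ G Ω) ⟨χ, hχ⟩) 1
    rw [h2, tau_apply_one, map_zero] at h3
    exact mul_ne_zero hne hχ.apply_one_ne_zero h3.symm
  · intro h a b
    have h1 := eq_sum_idem (mInv_orbMat (G := G) a b).commute fun χ =>
      or_iff_not_imp_left.mpr fun hne => (h χ χ.2 hne).1
    have h2 := congrArg toMatrix' h1
    rw [toMatrix'_toLin'] at h2
    have h3 : (orbMat G a b)ᵀ = orbMat G a b := by
      rw [h2, map_sum, transpose_sum]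
      refine Finset.sum_congr rfl fun χ _ => ?_
      rw [map_smul, transpose_smul, transpose_idem]
      by_cases hne : Cfsg.classInner (Cfsg.permRep ℂ G Ω).character χ = 0
      · rw [classInner_tau_eq_zero (mInv_orbMat a b).commute χ.2.isCharacter hne, zero_smul,
          zero_smul]
      · congr 3
        ext g
        rw [χ.2.isCharacter.apply_inv, (h χ χ.2 hne).2]
    have h4 := congrFun (congrFun h3 a) b
    rw [transpose_apply, orbMat_of_pos (x := a) ⟨1, one_smul _ _, one_smul _ _⟩] at h4
    by_contra h5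
    rw [orbMat_of_neg h5] at h4
    exact zero_ne_one h4

end Cfsg.Agent.S0717
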