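import Cfsg.Statements.S0718
import Cfsg.Agent.Perm.Commutant

set_option autoImplicit false
open Cfsg

namespace Cfsg.Agent.S0718

open Cfsg.Lib.Perm.Commutant

theorem mem_iff {G : Type*} [Group G] {V : Type*} [AddCommGroup V] [Module ℂ V]
    (ρ : Representation ℂ G V) (T : V →ₗ[ℂ] V) :
    T ∈ (ρ.linHom ρ).invariants ↔ ∀ g, Commute (ρ g) T := by
  rw [Representation.mem_invariants]
  refine forall_congr' fun g => ?_
  rw [Representation.linHom_apply]
  constructor
  · intro h
    ext v
    have := LinearMap.congr_fun h (ρ g v)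
    simpa using this
  · intro h
    ext v
    have := LinearMap.congr_fun h.eq (ρ g⁻¹ v)
    simpa using this


/-- Multiplicity-freeness of the permutation character is equivalent to commutativity of the centraliser ring, i.e. of the algebra of `G`-equivariant endomorphisms of the complex permutation module. -/
theorem result {G : Type*} [Group G] [Fintype G] {Ω : Type*} [Fintype Ω] [MulAction G Ω] : (∀ χ : G → ℂ, Cfsg.IsIrrCharacter G χ → Cfsg.classInner (fun g : G => (Nat.card (MulAction.fixedBy Ω g) : ℂ)) χ = 0 ∨ Cfsg.classInner (fun g : G => (Nat.card (MulAction.fixedBy Ω g) : ℂ)) χ = 1) ↔ ∀ S T : (Ω → ℂ) →ₗ[ℂ] (Ω → ℂ), S ∈ ((Cfsg.permRep ℂ G Ω).linHom (Cfsg.permRep ℂ G Ω)).invariants → T ∈ ((Cfsg.permRep ℂ G Ω).linHom (Cfsg.permRep ℂ G Ω)).invariants → S ∘ₗ T = T ∘ₗ S := by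
  have hπ : (fun g : G => (Nat.card (MulAction.fixedBy Ω g) : ℂ)) =
      (Cfsg.permRep ℂ G Ω).character := funext fun g => (Cfsg.Lib.Char.character_permRep g).symm
  simp only [hπ, mem_iff]
  exact ⟨fun h S T hS hT => (commute_of_multFree hS hT fun χ => h χ χ.2).eq,
    fun h χ hχ => multFree_of_commute h hχ⟩

end Cfsg.Agent.S0718
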