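import Cfsg.Statements.S0719
import Cfsg.Agent.Perm.Orbital

set_option autoImplicit false
open Cfsg

namespace Cfsg.Agent.S0719

open Cfsg.Lib.Perm.Commutant Cfsg.Lib.Char Finset MulAction Matrix LinearMap

theorem arith {m k : ℕ} {t : ℤ} (hk : 1 < k) (hkm : k + 1 ≤ m)
    (h : (2 * m * k : ℤ) = k ^ 2 + (k + t * m) ^ 2 * (m - 1) + (k + t * (m - 1)) ^ 2 * m) :
    ∃ a : ℕ, 0 < a ∧ m = 2 * a ^ 2 + 2 * a + 1 ∧ k = a * (2 * a + 1) := by
  obtain ⟨a, rfl⟩ := Nat.exists_eq_add_of_le hkm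
  push_cast at h
  have hm : ((k : ℤ) + 1 + a) ≠ 0 := by positivity
  have h1 : 2 * (k + t * (k + a)) ^ 2 + t ^ 2 * (k + a) = 2 * (k : ℤ) := by
    apply mul_left_cancel₀ hm
    linear_combination -h
  have hk' : (1 : ℤ) < k := by exact_mod_cast hk
  have ha : (0 : ℤ) ≤ a := by positivity
  have h2 : t ^ 2 ≤ 2 := by nlinarith [sq_nonneg (k + t * (k + a)), sq_nonneg t]
  have h3 : t = -1 := by
    have h4 : -2 < t := by nlinarith
    have h5 : t < 2 := by nlinarith
    interval_cases t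
    · rfl
    · nlinarith
    · nlinarith
  subst h3
  have h4 : (k : ℤ) = a * (2 * a + 1) := by linarith
  have h5 : k = a * (2 * a + 1) := by exact_mod_cast h4
  refine ⟨a, Nat.pos_of_ne_zero ?_, ?_, h5⟩
  · rintro rfl
    omega
  · rw [h5]
    ring

theorem exists_reps {G : Type*} [Group G] {Ω : Type*} [Fintype Ω] [MulAction G Ω] (a₀ : Ω)
    (hrank : Nat.card (orbitRel.Quotient (stabilizer G a₀) Ω) = 3) :
    ∃ b₁ b₂ : Ω, b₁ ≠ a₀ ∧ b₂ ≠ a₀ ∧ b₂ ∉ orbit (stabilizer G a₀) b₁ ∧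
      (∀ b, b ≠ a₀ → b ∈ orbit (stabilizer G a₀) b₁ ∨ b ∈ orbit (stabilizer G a₀) b₂) ∧
      Nat.card (orbit (stabilizer G a₀) b₁) ≤ Nat.card (orbit (stabilizer G a₀) b₂) := by
  classical
  have := Fintype.ofFinite (orbitRel.Quotient (stabilizer G a₀) Ω)
  let o₀ : orbitRel.Quotient (stabilizer G a₀) Ω := Quotient.mk'' a₀
  have h1 : (univ.erase o₀).card = 2 := by
    rw [card_erase_of_mem (mem_univ _), card_univ, ← Nat.card_eq_fintype_card, hrank]
  obtain ⟨x, y, hxy, h2⟩ := card_eq_two.mp h1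
  obtain ⟨b₁, rfl⟩ := Quotient.exists_rep x
  obtain ⟨b₂, rfl⟩ := Quotient.exists_rep y
  have h3 : b₁ ≠ a₀ := by
    rintro rfl
    exact ne_of_mem_erase (h2 ▸ mem_insert_self _ _) rfl
  have h4 : b₂ ≠ a₀ := by
    rintro rfl
    exact ne_of_mem_erase (h2 ▸ mem_insert_of_mem (mem_singleton_self _)) rfl
  have h5 : ∀ b, b ≠ a₀ → b ∈ orbit (stabilizer G a₀) b₁ ∨ b ∈ orbit (stabilizer G a₀) b₂ := by
    intro b hb
    have h6 : Quotient.mk'' b ∈ univ.erase o₀ := by
      refine mem_erase.mpr ⟨fun h => ?_, mem_univ _⟩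
      obtain ⟨⟨g, hg⟩, rfl⟩ := Quotient.exact' h
      exact hb hg
    rw [h2, mem_insert, mem_singleton] at h6
    exact h6.imp (fun h => Quotient.exact' h) fun h => Quotient.exact' h
  rcases le_total (Nat.card (orbit (stabilizer G a₀) b₁)) (Nat.card (orbit (stabilizer G a₀) b₂))
    with h | h
  · exact ⟨b₁, b₂, h3, h4, fun h' => hxy (Quotient.sound' h').symm, h5, h⟩
  · exact ⟨b₂, b₁, h4, h3, fun h' => hxy (Quotient.sound' h'), fun b hb => (h5 b hb).symm, h⟩


/-- Groups of Wielandt type: if a primitive group of degree `2m` has rank 3 and permutation character `1 + χ₁ + χ₂` with irreducible `χ₁, χ₂` of degrees `m - 1` and `m`, then `m = 2a² + 2a + 1` for some positive integer `a` and the two non-trivial subdegrees are `a(2a+1)` and `(a+1)(2a+1)`. -/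
theorem result {G : Type*} [Group G] [Fintype G] {Ω : Type*} [Fintype Ω] [MulAction G Ω] (hprim : MulAction.IsPreprimitive G Ω) {m : ℕ} (hm : Fintype.card Ω = 2 * m) (a₀ : Ω) (hrank : Nat.card (MulAction.orbitRel.Quotient (MulAction.stabilizer G a₀) Ω) = 3) (χ₁ χ₂ : G → ℂ) (h₁ : Cfsg.IsIrrCharacter G χ₁) (h₂ : Cfsg.IsIrrCharacter G χ₂) (hπ : (fun g : G => (Nat.card (MulAction.fixedBy Ω g) : ℂ)) = fun g => 1 + χ₁ g + χ₂ g) (hd₁ : χ₁ 1 = (m : ℂ) - 1) (hd₂ : χ₂ 1 = m) : ∃ a : ℕ, 0 < a ∧ m = 2 * a ^ 2 + 2 * a + 1 ∧ ∀ b : Ω, b ≠ a₀ → Nat.card (MulAction.orbit (MulAction.stabilizer G a₀) b) = a * (2 * a + 1) ∨ Nat.card (MulAction.orbit (MulAction.stabilizer G a₀) b) = (a + 1) * (2 * a + 1) := by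
  classical
  have : Nonempty Ω := ⟨a₀⟩
  obtain ⟨b₁, b₂, hb₁, hb₂, h12, hall, hle⟩ := exists_reps a₀ hrank
  have hmem : ∀ {b y : Ω}, y ∈ orbit (stabilizer G a₀) b ↔ ∃ g : G, g • a₀ = a₀ ∧ g • b = y :=
    ⟨fun ⟨⟨g, hg⟩, h⟩ => ⟨g, hg, h⟩, fun ⟨g, hg, h⟩ => ⟨⟨g, hg⟩, h⟩⟩
  set A := orbMat G a₀ b₁ with hA
  set B := orbMat G a₀ b₂ with hB
  set k := Nat.card (orbit (stabilizer G a₀) b₁) with hk
  set l := Nat.card (orbit (stabilizer G a₀) b₂) with hl
  have hAi : MInv G A := mInv_orbMat _ _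
  have hBi : MInv G B := mInv_orbMat _ _
  have h1i : MInv G (1 : Matrix Ω Ω ℂ) := fun g x y => by simp [Matrix.one_apply]
  have hdec : ∀ M : Matrix Ω Ω ℂ, MInv G M →
      M = M a₀ a₀ • (1 : Matrix Ω Ω ℂ) + M a₀ b₁ • A + M a₀ b₂ • B := by
    intro M hM
    ext x y
    obtain ⟨g, rfl⟩ := exists_smul_eq G a₀ x
    obtain ⟨y, rfl⟩ := (MulAction.toPerm g).surjective y
    simp only [MulAction.toPerm_apply, Matrix.add_apply, Matrix.smul_apply, smul_eq_mul]
    rw [hM, h1i, hAi, hBi]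
    by_cases hy : y = a₀
    · subst hy
      simp [hA, hB, orbMat_diag hb₁, orbMat_diag hb₂]
    rw [Matrix.one_apply_ne (Ne.symm hy)]
    rcases hall y hy with h | h
    · have h' : y ∉ orbit (stabilizer G a₀) b₂ := fun h' =>
        h12 (orbit_eq_iff.mpr h ▸ orbit_eq_iff.mpr h' ▸ mem_orbit_self b₂)
      rw [hA, hB, orbMat_of_pos (hmem.mp h), orbMat_of_neg (mt hmem.mpr h')]
      obtain ⟨g', h1, rfl⟩ := hmem.mp h
      rw [← hM g' a₀ b₁, h1]
      ring
    · have h' : y ∉ orbit (stabilizer G a₀) b₁ := fun h' =>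
        h12 (orbit_eq_iff.mpr h' ▸ orbit_eq_iff.mpr h ▸ mem_orbit_self b₂)
      rw [hA, hB, orbMat_of_pos (hmem.mp h), orbMat_of_neg (mt hmem.mpr h')]
      obtain ⟨g', h1, rfl⟩ := hmem.mp h
      rw [← hM g' a₀ b₂, h1]
      ring
  have hAr : ∀ x, ∑ y, A x y = k := orbMat_row_sum _ _
  have hBr : ∀ x, ∑ y, B x y = l := orbMat_row_sum _ _
  have hJ := hdec (Matrix.of fun _ _ => 1) fun _ _ _ => rfl
  simp only [Matrix.of_apply, one_smul] at hJ
  have hkl : 2 * m = 1 + k + l := by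
    have h1 := congrArg (fun M : Matrix Ω Ω ℂ => ∑ y, M a₀ y) hJ
    simp only [Matrix.of_apply, sum_const, card_univ, hm, Matrix.add_apply, sum_add_distrib, hAr,
      hBr, Matrix.one_apply, sum_ite_eq, mem_univ, if_true, nsmul_eq_mul, mul_one] at h1
    exact_mod_cast h1
  have hk0 : 0 < k := by
    have : Nonempty (orbit (stabilizer G a₀) b₁) := ⟨⟨b₁, mem_orbit_self b₁⟩⟩
    exact Nat.card_pos
  have hkm : k + 1 ≤ m := by omega
  obtain ⟨σ, hσ1, hσ2⟩ : ∃ σ : G, σ • a₀ = b₁ ∧ σ • b₁ = a₀ := by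
    by_contra hσ
    have h1 := hdec Aᵀ fun g x y => hAi g y x
    rw [transpose_apply, transpose_apply, transpose_apply, hA, orbMat_diag hb₁, orbMat_of_neg hσ,
      zero_smul, zero_smul, zero_add, zero_add, ← hA] at h1
    have h2 := congrArg (fun M : Matrix Ω Ω ℂ => ∑ x, ∑ y, M x y) h1
    simp only [transpose_apply, Matrix.smul_apply, smul_eq_mul, ← mul_sum, hBr] at h2
    rw [sum_comm] at h2
    simp only [hAr, sum_const, card_univ, nsmul_eq_mul] at h2
    have h3 : (Fintype.card Ω : ℂ) ≠ 0 := Nat.cast_ne_zero.mpr Fintype.card_ne_zero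
    by_cases h4 : ∃ g : G, g • a₀ = b₂ ∧ g • b₁ = a₀
    · rw [hA, orbMat_of_pos h4, one_mul] at h2
      have := Nat.cast_injective (mul_left_cancel₀ h3 h2)
      omega
    · rw [hA, orbMat_of_neg h4, zero_mul, mul_eq_zero, Nat.cast_eq_zero (n := k)] at h2
      exact hk0.ne' (h2.resolve_left h3)
  have hsymm : ∀ x y, A y x = A x y := by
    have h1 : ∀ x y, (∃ g : G, g • a₀ = x ∧ g • b₁ = y) → ∃ g : G, g • a₀ = y ∧ g • b₁ = x := by
      rintro _ _ ⟨g, rfl, rfl⟩
      exact ⟨g * σ, by rw [mul_smul, hσ1], by rw [mul_smul, hσ2]⟩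
    intro x y
    by_cases h : ∃ g : G, g • a₀ = x ∧ g • b₁ = y
    · rw [hA, orbMat_of_pos h, orbMat_of_pos (h1 _ _ h)]
    · rw [hA, orbMat_of_neg h, orbMat_of_neg (mt (h1 _ _) h)]
  have hk1 : 1 < k := by
    by_contra h
    have h1 : k = 1 := by omega
    rw [hk, Nat.card_eq_one_iff_unique] at h1
    have h2 : ∀ g : G, g • a₀ = a₀ → g • b₁ = b₁ := fun g hg =>
      congrArg Subtype.val (h1.1.elim ⟨_, ⟨⟨g, hg⟩, rfl⟩⟩ ⟨_, mem_orbit_self b₁⟩)
    have h3 : ∀ g : G, g • a₀ = b₁ → g • b₁ = a₀ := fun g hg => by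
      have := h2 (σ * g) (by rw [mul_smul, hg, hσ2])
      rw [mul_smul] at this
      exact smul_left_cancel σ (this.trans hσ1.symm)
    have h4 : IsBlock G ({a₀, b₁} : Set Ω) := by
      rw [isBlock_iff_smul_eq_of_mem]
      rintro g _ (rfl | rfl) (h5 | h5)
      · simp [Set.smul_set_insert, h5, h2 g h5]
      · simp [Set.smul_set_insert, show _ = _ from h5, h3 g h5, Set.pair_comm]
      · have := h2 (g * σ) (by rw [mul_smul, hσ1, h5])
        rw [mul_smul, hσ2] at this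
        simp [Set.smul_set_insert, h5, this, Set.pair_comm]
      · have := h3 (g * σ) (by rw [mul_smul, hσ1, h5])
        rw [mul_smul, hσ2] at this
        simp [Set.smul_set_insert, show _ = _ from h5, this]
    rcases hprim.isTrivialBlock_of_isBlock h4 with h5 | h5
    · exact hb₁ (h5 (by simp) (by simp))
    · rcases (h5 ▸ Set.mem_univ b₂ : b₂ ∈ ({a₀, b₁} : Set Ω)) with h6 | h6
      · exact hb₂ h6
      · exact h12 (by rw [show b₂ = b₁ from h6]; exact mem_orbit_self b₁)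
  -- characters
  rw [← character_permRep_eq] at hπ
  set ρ := Cfsg.permRep ℂ G Ω with hρ
  have hπ' : ∀ χ, classInner ρ.character χ =
      classInner (fun _ => 1) χ + classInner χ₁ χ + classInner χ₂ χ := by
    intro χ
    rw [hπ, ← classInner_add_left, ← classInner_add_left]
    rfl
  have hne : χ₁ ≠ χ₂ := by
    rintro rfl
    rw [hd₁] at hd₂
    simp at hd₂
  have h0 := hπ' fun _ => 1
  rw [classInner_permRep_one, classInner_one_one, h₁.classInner_eq_ite isIrrCharacter_one,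
    h₂.classInner_eq_ite isIrrCharacter_one] at h0
  have hne₁ : χ₁ ≠ fun _ => 1 := by
    intro h
    rw [if_pos h] at h0
    split_ifs at h0 <;> norm_num at h0
  have hne₂ : χ₂ ≠ fun _ => 1 := by
    intro h
    rw [if_pos h, if_neg hne₁] at h0
    norm_num at h0
  have hm₁ : classInner ρ.character χ₁ = 1 := by
    rw [hπ', isIrrCharacter_one.classInner_of_ne h₁ hne₁.symm, h₁.classInner_self,
      h₂.classInner_of_ne h₁ hne.symm]
    simp
  have hm₂ : classInner ρ.character χ₂ = 1 := by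
    rw [hπ', isIrrCharacter_one.classInner_of_ne h₂ hne₂.symm, h₂.classInner_self,
      h₁.classInner_of_ne h₂ hne]
    simp
  have htr : ∀ M : Matrix Ω Ω ℂ, MInv G M → M.trace = ∑ y, M a₀ y +
      classInner (tau ρ (toLin' M)) χ₁ * (m - 1) + classInner (tau ρ (toLin' M)) χ₂ * m := by
    intro M hM
    have h1 := (tau_isClassFunction hM.commute).apply_eq_sum_irr 1
    rw [tau_apply_one, trace_toLin'_eq, ← sum_subset (subset_univ ({⟨_, isIrrCharacter_one⟩,
      ⟨χ₁, h₁⟩, ⟨χ₂, h₂⟩} : Finset (IrrCharacter G))), sum_insert, sum_pair] at h1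
    · simp only [classInner_tau_one hM a₀, hd₁, hd₂, mul_one] at h1
      rw [h1, add_assoc]
    · exact fun h => hne (congrArg Subtype.val h)
    · simp only [mem_insert, mem_singleton, Subtype.ext_iff, not_or]
      exact ⟨hne₁.symm, hne₂.symm⟩
    · intro χ _ hχ
      simp only [mem_insert, mem_singleton, Subtype.ext_iff, not_or] at hχ
      rw [classInner_tau_eq_zero hM.commute χ.2.isCharacter, zero_mul]
      rw [hπ', isIrrCharacter_one.classInner_of_ne χ.2 (Ne.symm hχ.1),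
        h₁.classInner_of_ne χ.2 (Ne.symm hχ.2.1), h₂.classInner_of_ne χ.2 (Ne.symm hχ.2.2)]
      simp
  have hAA : MInv G (A * A) := by
    have := mInv_toMatrix' fun g => (hAi.commute g).mul_right (hAi.commute g)
    rwa [toMatrix'_mul, toMatrix'_toLin'] at this
  have hAAd : ∀ x, (A * A) x x = k := by
    intro x
    rw [Matrix.mul_apply, ← hAr x]
    exact sum_congr rfl fun y _ => by rw [hsymm x y]; exact orbMat_mul_self _ _ _ _
  have hnat : ∀ x y, ∃ n : ℕ, (A * A) x y = n := by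
    intro x y
    refine ⟨∑ z, (if ∃ g : G, g • a₀ = x ∧ g • b₁ = z then 1 else 0) *
      (if ∃ g : G, g • a₀ = z ∧ g • b₁ = y then 1 else 0), ?_⟩
    simp only [Matrix.mul_apply, hA, orbMat, Matrix.of_apply]
    push_cast
    exact sum_congr rfl fun _ _ => by congr
  obtain ⟨β, hβ⟩ := hnat a₀ b₁
  obtain ⟨γ, hγ⟩ := hnat a₀ b₂
  have hq : ∀ χ, IsIrrCharacter G χ → χ ≠ (fun _ => 1) → classInner ρ.character χ = 1 →
      classInner (tau ρ (toLin' (A * A))) χ = classInner (tau ρ (toLin' A)) χ ^ 2 ∧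
      classInner (tau ρ (toLin' A)) χ ^ 2 =
        k + β * classInner (tau ρ (toLin' A)) χ + γ * (-1 - classInner (tau ρ (toLin' A)) χ) := by
    intro χ hχ hχ1 hχm
    have h1 : classInner (tau ρ (toLin' (A * A))) χ = classInner (tau ρ (toLin' A)) χ ^ 2 := by
      rw [toLin'_mul, sq]
      exact classInner_tau_mul hAi.commute hAi.commute ⟨χ, hχ⟩ hχm
    have h2 : tau ρ (toLin' (Matrix.of fun _ _ => 1)) =
        (Fintype.card Ω : ℂ) • fun _ => (1 : ℂ) := by
      ext g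
      rw [tau, ← toLin'_toMatrix' (ρ g), Module.End.mul_eq_comp, ← toLin'_mul, trace_toLin'_eq]
      simp only [Matrix.trace, Matrix.diag, Matrix.mul_apply, hρ, toMatrix'_permRep]
      simp
    have h3 := congrArg (fun M => classInner (tau ρ (toLin' M)) χ) hJ
    simp only [h2, map_add, tau_add, classInner_add_left, toLin'_one, classInner_smul_left,
      isIrrCharacter_one.classInner_of_ne hχ hχ1.symm, ← Module.End.one_eq_id, tau_one, hχm] at h3
    have h4 := congrArg (fun M => classInner (tau ρ (toLin' M)) χ) (hdec _ hAA)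
    simp only [map_add, tau_add, classInner_add_left, toLin'_one, classInner_smul_left, map_smul,
      tau_smul, ← Module.End.one_eq_id, tau_one, hχm, hAAd, hβ, hγ] at h4
    refine ⟨h1, ?_⟩
    rw [← h1, h4]
    linear_combination (-γ) * h3
  obtain ⟨hr1, hr2⟩ := hq χ₁ h₁ hne₁ hm₁
  obtain ⟨hs1, hs2⟩ := hq χ₂ h₂ hne₂ hm₂
  have ht1 := htr A hAi
  have ht2 := htr _ hAA
  rw [hA, trace_orbMat hb₁, ← hA, hAr] at ht1
  have ht3 : ∑ y, (A * A) a₀ y = k ^ 2 := by
    simp only [Matrix.mul_apply]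
    rw [sum_comm]
    simp only [← mul_sum, hAr, ← sum_mul, sq]
  simp only [Matrix.trace, Matrix.diag, hAAd, sum_const, card_univ, hm, nsmul_eq_mul, ht3, hr1,
    hs1] at ht2
  push_cast at ht2
  set r := classInner (tau ρ (toLin' A)) χ₁
  set s := classInner (tau ρ (toLin' A)) χ₂
  have hrs : r ≠ s := by
    intro h
    rw [h] at ht1 ht2
    have h1 : (2 * m * k * (2 * m) : ℂ) = 2 * m * k * (k + 1) := by
      linear_combination (2 * m - 1) * ht2 - (s * (2 * m - 1) - k) * ht1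
    have h2 : 2 * m * k * (2 * m) = 2 * m * k * (k + 1) := by exact_mod_cast h1
    have := Nat.eq_of_mul_eq_mul_left (Nat.mul_pos (by omega) hk0) h2
    omega
  have ht : r + s = ((β - γ : ℤ) : ℂ) := by
    apply mul_left_cancel₀ (sub_ne_zero.mpr hrs)
    push_cast
    linear_combination hr2 - hs2
  have hr : r = k + ((β - γ : ℤ) : ℂ) * m := by linear_combination m * ht + ht1
  have hs : s = -(k + ((β - γ : ℤ) : ℂ) * (m - 1)) := by linear_combination -(m - 1) * ht - ht1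
  rw [hr, hs, neg_sq] at ht2
  obtain ⟨a, ha, hma, hka⟩ := arith (t := β - γ) hk1 hkm (by exact_mod_cast ht2)
  refine ⟨a, ha, hma, fun b hb => (hall b hb).imp (fun h => ?_) fun h => ?_⟩
  · rw [orbit_eq_iff.mpr h, ← hk, hka]
  · rw [orbit_eq_iff.mpr h, ← hl]
    nlinarith

end Cfsg.Agent.S0719
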