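import Cfsg.Statements.S0720
import Cfsg.Agent.Perm.TwoP2
import Cfsg.Agent.Perm.CycleLemmas
import Cfsg.Agent.S0669
import Cfsg.Agent.S0707
import Mathlib.GroupTheory.GroupAction.Jordan

set_option autoImplicit false
open Cfsg

namespace Cfsg.Agent.S0720

open Cfsg.Lib.Perm Cfsg.Lib.Perm.TwoP MulAction Equiv


/-- Wielandt's Theorem on primitive groups of degree `2p`: such a group is doubly transitive, or it has rank 3, `p = 2a² + 2a + 1`, and subdegrees `a(2a+1)` and `(a+1)(2a+1)`. -/
theorem result {α : Type*} [Fintype α] [DecidableEq α] {p : ℕ} (hp : p.Prime) (hα : Fintype.card α = 2 * p) (G : Subgroup (Equiv.Perm α)) (hG : MulAction.IsPreprimitive G α) (a₀ : α) : MulAction.IsMultiplyPretransitive G α 2 ∨ (Nat.card (MulAction.orbitRel.Quotient (MulAction.stabilizer G a₀) α) = 3 ∧ ∃ a : ℕ, 0 < a ∧ p = 2 * a ^ 2 + 2 * a + 1 ∧ ∀ b : α, b ≠ a₀ → Nat.card (MulAction.orbit (MulAction.stabilizer G a₀) b) = a * (2 * a + 1) ∨ Nat.card (MulAction.orbit (MulAction.stabilizer G a₀)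 b) = (a + 1) * (2 * a + 1)) := by
  classical
  have := Fact.mk hp
  have h2 := hp.two_le
  have hdvd : p ∣ Nat.card G := by
    have h1 := card_orbit_mul_card_stabilizer_eq_card_group G a₀
    rw [Nat.card_eq_fintype_card, ← h1]
    refine Dvd.dvd.mul_right ?_ _
    have h3 : Fintype.card (orbit G a₀) = Fintype.card α :=
      Fintype.card_congr ((Equiv.setCongr (orbit_eq_univ G a₀)).trans (Equiv.Set.univ α))
    rw [h3, hα]
    exact Dvd.intro_left 2 rfl
  obtain ⟨c, hc⟩ := exists_prime_orderOf_dvd_card' p hdvd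
  have hc' : orderOf (c : Perm α) = p := by rw [Subgroup.orderOf_coe, hc]
  obtain ⟨k, hk1, -, hk2⟩ := support_of_prime_order hp hc'
  rcases Nat.eq_zero_or_pos k with rfl | hk
  · left
    refine hG.is_two_pretransitive (s := ((c : Perm α).support : Set α)ᶜ) (n := p - 1) ?_ ?_
      (Perm.isPretransitive_of_isCycle_mem (hk2 rfl) c.2)
    · rw [← Finset.coe_compl, Set.ncard_coe_finset, Finset.card_compl, hk1, hα]
      omega
    · rw [Nat.card_eq_fintype_card, hα]
      omega
  have hsupp : (c : Perm α).support = Finset.univ := by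
    apply Finset.eq_univ_of_card
    refine le_antisymm (Finset.card_le_univ _) ?_
    rw [hk1, hα]
    nlinarith
  obtain ⟨e, he⟩ := exists_coord_two hα hc fun a =>
    Perm.mem_support.mp (hsupp ▸ Finset.mem_univ a)
  have hk : ∀ o : orbitRel.Quotient G (α × α), NonDiag o → kk e (orb G o) ≠ 1 := by
    intro o ho h1
    obtain ⟨⟨a, b⟩, rfl⟩ := Quotient.exists_rep o
    have hab : a ≠ b := by
      rintro rfl
      exact ho a rfl
    rw [kk_orb_mk, Nat.cast_eq_one, Nat.card_eq_one_iff_unique] at h1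
    refine S0707.result G (Or.inl ?_) hab ?_
    · rw [Nat.card_eq_fintype_card, hα]
      exact Nat.not_prime_mul (by norm_num) hp.one_lt.ne'
    · apply Subgroup.eq_of_le_of_card_ge
      · intro g hg
        exact congrArg Subtype.val (h1.1.elim ⟨_, ⟨⟨g, hg⟩, rfl⟩⟩ ⟨_, mem_orbit_self b⟩)
      · obtain ⟨g, rfl⟩ := exists_smul_eq G a b
        rw [stabilizer_smul_eq_stabilizer_map_conj]
        exact Nat.le_of_dvd Nat.card_pos (Subgroup.card_map_dvd _ _)
  rcases main hG he hk with h | ⟨h1, m, hm, hpm, h⟩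
  · exact Or.inl h
  · refine Or.inr ⟨by rw [← S0669.result a₀, h1], m, hm, hpm, fun b hb => ?_⟩
    have h3 := h _ (nonDiag_mk hb.symm)
    rw [kk_orb_mk] at h3
    exact_mod_cast h3

end Cfsg.Agent.S0720
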