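import Cfsg.Statements.S0723
import Cfsg.Agent.Perm.DirectPower
import Cfsg.Agent.S0721
import Cfsg.Agent.S0722

set_option autoImplicit false
open Cfsg

namespace Cfsg.Agent.S0723

/-- The core of the O'Nan–Scott Theorem. Let `H` be a primitive permutation group on a finite set whose unique minimal normal subgroup `N` is non-abelian, and `K` a point stabiliser. Then there are a non-abelian simple group `T` and an isomorphism `N ≃* T^m` (`m ≥ 1`) under which `K ⊓ N` becomes either a product `∏ K_i` of proper subgroups `K_i < T`, or the set of functions constant on each block of a partition of the index set into blocks of one common size `k ≥ 2`. -/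
theorem result {α : Type*} [Finite α] (H : Subgroup (Equiv.Perm α)) [MulAction.IsPreprimitive H α] (N : Subgroup H) [N.Normal] (hN : N ≠ ⊥) (hmin : ∀ M : Subgroup H, M.Normal → M ≤ N → M = ⊥ ∨ M = N) (huniq : ∀ L : Subgroup H, L.Normal → L ≠ ⊥ → (∀ M : Subgroup H, M.Normal → M ≤ L → M = ⊥ ∨ M = L) → L = N) (hnab : ¬ IsMulCommutative N) (a : α) : ∃ (T : Type) (_ : Group T) (m : ℕ) (e : N ≃* (Fin m → T)), IsSimpleGroup T ∧ ¬ IsMulCommutative T ∧ 0 < m ∧ ((∃ K : Fin m → Subgroup T, (∀ i, K i ≠ ⊤) ∧ ∀ n : N, (n : H) ∈ MulAction.stabilizer H a ↔ ∀ i, e n i ∈ K i) ∨ (∃ (k : ℕ) (c : Fin m → Fin m), 2 ≤ k ∧ (∀ j : Fin m, Nat.card {i : Fin m // c i = j} = k ∨ Nat.card {i : Fin m // c i = j} = 0) ∧ ∀ n : N, (n : H) ∈ MulAction.stabilizer H a ↔ ∀ i j : Fin m, c i = c j → e n i = e n j)) := by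
  classical
  obtain ⟨T, _, m, hT, hm, ⟨e⟩⟩ := Cfsg.Agent.S0721.result N hN hmin
  have hTn : ¬ IsMulCommutative T := fun h => hnab ⟨⟨fun x y => e.injective (by
    rw [map_mul, map_mul]; funext i; exact h.is_comm.comm _ _)⟩⟩
  set K := MulAction.stabilizer H a with hK
  have hNK : ¬ N ≤ K := by
    intro hle
    apply hN
    rw [eq_bot_iff]
    intro n hn
    rw [Subgroup.mem_bot]
    ext x
    obtain ⟨h, rfl⟩ := MulAction.exists_smul_eq H a x
    have := hle (Subgroup.Normal.conj_mem' inferInstance n hn h)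
    rw [hK, MulAction.mem_stabilizer_iff, mul_smul, mul_smul, inv_smul_eq_iff] at this
    exact this
  have hNt : MulAction.IsPretransitive N α := by
    apply MulAction.IsQuasiPreprimitive.isPretransitive_of_normal
    intro hfix
    apply hNK
    intro n hn
    have : a ∈ MulAction.fixedPoints N α := by rw [hfix]; trivial
    exact this ⟨n, hn⟩
  let φ : H → (Fin m → T) ≃* (Fin m → T) := fun h => e.symm.trans ((MulAut.conjNormal h).trans e)
  have hφ : ∀ (h : H) (x : Fin m → T), (e.symm (φ h x) : H) = h * e.symm x * h⁻¹ := by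
    intro h x; simp [φ]
  have hφmul : ∀ (h h' : H) x, φ (h * h') x = φ h (φ h' x) := by
    intro h h' x
    apply e.symm.injective
    apply Subtype.ext
    rw [hφ, hφ, hφ]; group
  have hφinv : ∀ (h : H) x, φ h (φ h⁻¹ x) = x := by
    intro h x
    apply e.symm.injective
    apply Subtype.ext
    rw [hφ, hφ]; group
  choose σ β hσ using fun h => Cfsg.Lib.Perm.exists_perm_of_mulEquiv hTn (φ h)
  obtain ⟨t₀, ht₀⟩ := exists_ne (1 : T)
  have hσmul : ∀ (h h' : H) i, σ (h * h') i = σ h (σ h' i) := by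
    intro h h' i
    by_contra hne
    obtain ⟨j, hj⟩ := (σ (h * h')).surjective (σ h (σ h' i))
    have hji : j ≠ i := by rintro rfl; exact hne hj
    have h1 := hσ (h * h') (Pi.mulSingle i t₀) j
    rw [hj, hφmul, hσ, hσ, Pi.mulSingle_eq_same, Pi.mulSingle_eq_of_ne hji, map_one,
      map_eq_one_iff _ (β _ _).injective, map_eq_one_iff _ (β _ _).injective] at h1
    exact ht₀ h1
  let R : Subgroup (Fin m → T) := (K.subgroupOf N).comap e.symm.toMonoidHom
  have hRmem : ∀ x, x ∈ R ↔ (e.symm x : H) ∈ K := fun x => Iff.rfl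
  have hRφ : ∀ k ∈ K, ∀ x ∈ R, φ k x ∈ R := by
    intro k hk x hx
    rw [hRmem, hφ]
    exact K.mul_mem (K.mul_mem hk hx) (K.inv_mem hk)
  have htrans : ∀ i j, ∃ k ∈ K, σ k i = j := by
    intro i j
    let J : Set (Fin m) := {j | ∃ k ∈ K, σ k i = j}
    let P : Subgroup H := ((Subgroup.pi Jᶜ fun _ => (⊥ : Subgroup T)).comap e.toMonoidHom).map N.subtype
    have hP : P.Normal := by
      refine ⟨?_⟩
      rintro _ ⟨n, hn, rfl⟩ h
      obtain ⟨u, hu⟩ := MulAction.exists_smul_eq N a (h • a)
      have hk : (u : H)⁻¹ * h ∈ K := by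
        rw [hK, MulAction.mem_stabilizer_iff, mul_smul, inv_smul_eq_iff]; exact hu.symm
      refine ⟨u * e.symm (φ ((u : H)⁻¹ * h) (e n)) * u⁻¹, ?_, ?_⟩
      · intro l hl
        obtain ⟨l', rfl⟩ := (σ ((u : H)⁻¹ * h)).surjective l
        have hl' : l' ∈ Jᶜ := by
          rintro ⟨k, hk', rfl⟩
          exact hl ⟨_, K.mul_mem hk hk', hσmul _ _ _⟩
        have h1 : e n l' = 1 := hn l' hl'
        simp [hσ, h1]
      · simp only [Subgroup.coe_subtype, Subgroup.coe_mul, hφ, MulEquiv.symm_apply_apply,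
          Subgroup.coe_inv]
        group
    rcases hmin P hP (Subgroup.map_subtype_le _) with h | h
    · exfalso
      have hi : i ∈ J := ⟨1, K.one_mem, by
        have := hσmul 1 1 i
        rw [mul_one] at this
        exact ((σ 1).injective this).symm⟩
      have : (e.symm (Pi.mulSingle i t₀) : H) ∈ P := ⟨_, fun l hl => by
        have : l ≠ i := by rintro rfl; exact hl hi
        simp [Pi.mulSingle_eq_of_ne this], rfl⟩
      rw [h, Subgroup.mem_bot, OneMemClass.coe_eq_one, map_eq_one_iff _ e.symm.injective] at this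
      exact ht₀ (by simpa using congrFun this i)
    · by_contra hj
      have : (e.symm (Pi.mulSingle j t₀) : H) ∈ P := by rw [h]; exact (e.symm _).2
      obtain ⟨n, hn, e1⟩ := this
      have e2 : n = e.symm (Pi.mulSingle j t₀) := Subtype.ext e1
      have := hn j hj
      simp [e2, ht₀] at this
  let Ri : Fin m → Subgroup T := fun i => R.map (Pi.evalMonoidHom (fun _ => T) i)
  let X : Subgroup H := ((Subgroup.pi Set.univ Ri).comap e.toMonoidHom).map N.subtype
  have hXmem : ∀ n : N, (n : H) ∈ X ↔ ∀ i, e n i ∈ Ri i := by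
    intro n
    constructor
    · rintro ⟨n', hn', e1⟩
      have : n' = n := Subtype.ext e1
      subst this
      exact fun i => hn' i trivial
    · intro h
      exact ⟨n, fun i _ => h i, rfl⟩
  have hXconj : ∀ k ∈ K, ∀ x ∈ X, k * x * k⁻¹ ∈ X := by
    rintro k hk _ ⟨n, hn, rfl⟩
    have := (hXmem (e.symm (φ k (e n)))).2 (fun i => by
      obtain ⟨j, rfl⟩ := (σ k).surjective i
      obtain ⟨r, hr, e1⟩ := hn j trivial
      refine ⟨φ k r, hRφ k hk r hr, ?_⟩
      rw [MulEquiv.apply_symm_apply, hσ]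
      change φ k r (σ k j) = _
      rw [hσ]
      exact congrArg _ e1)
    rw [hφ, MulEquiv.symm_apply_apply] at this
    exact this
  rcases Cfsg.Agent.S0722.result H N hN hmin a X (Subgroup.map_subtype_le _) (fun n hn =>
    (hXmem ⟨n, hn.2⟩).2 fun i => ⟨e ⟨n, hn.2⟩, by
      rw [SetLike.mem_coe, hRmem, MulEquiv.symm_apply_apply]; exact hn.1, rfl⟩) (by
      intro k hk
      rw [Subgroup.mem_normalizer_iff]
      intro x
      refine ⟨hXconj k hk x, fun hx => ?_⟩
      have := hXconj k⁻¹ (K.inv_mem hk) _ hx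
      simpa [mul_assoc] using this) with hX | hX
  · refine ⟨T, inferInstance, m, e, hT, hTn, hm, Or.inl ⟨Ri, fun i hi => hNK ?_, fun n => ?_⟩⟩
    · intro n hn
      have : n ∈ X := (hXmem ⟨n, hn⟩).2 fun j => by
        obtain ⟨k, hk, rfl⟩ := htrans i j
        obtain ⟨s, hs⟩ := (β k i).surjective (e ⟨n, hn⟩ (σ k i))
        obtain ⟨r, hr, e1⟩ : s ∈ Ri i := hi ▸ Subgroup.mem_top s
        refine ⟨φ k r, hRφ k hk r hr, ?_⟩
        change φ k r (σ k i) = _
        rw [hσ, ← hs]
        exact congrArg _ e1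
      rw [hX] at this
      exact this.1
    · rw [← hXmem, hX]
      exact ⟨fun h => ⟨h, n.2⟩, fun h => h.1⟩
  · have hsub : ∀ i t, ∃ x ∈ R, x i = t := by
      intro i t
      have := (hXmem (e.symm (Pi.mulSingle i t))).1 (by rw [hX]; exact (e.symm _).2) i
      rw [MulEquiv.apply_symm_apply, Pi.mulSingle_eq_same] at this
      exact this
    obtain ⟨c, γ, hc, hR⟩ := Cfsg.Lib.Perm.scott_lemma hTn R hsub
    have hcσ : ∀ k ∈ K, ∀ i j, c (σ k i) = c (σ k j) ↔ c i = c j := by
      intro k hk i j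
      rw [hc, hc]
      constructor
      · intro h x hx
        have := h _ (hRφ k hk x hx)
        rwa [hσ, hσ, map_eq_one_iff _ (β _ _).injective, map_eq_one_iff _ (β _ _).injective] at this
      · intro h x hx
        rw [← hφinv k x, hσ, hσ, map_eq_one_iff _ (β _ _).injective,
          map_eq_one_iff _ (β _ _).injective]
        exact h _ (hRφ _ (K.inv_mem hk) x hx)
    let i₀ : Fin m := ⟨0, hm⟩
    have hfib : ∀ i, Nat.card {l // c l = c i} = Nat.card {l // c l = c i₀} := by
      intro i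
      obtain ⟨k, hk, rfl⟩ := htrans i₀ i
      exact (Nat.card_congr ((σ k).subtypeEquiv fun l => (hcσ k hk l i₀).symm)).symm
    refine ⟨T, inferInstance, m, e.trans (MulEquiv.piCongrRight γ), hT, hTn, hm,
      Or.inr ⟨Nat.card {l // c l = c i₀}, c, ?_, fun j => ?_, fun n => ?_⟩⟩
    · by_contra hlt
      apply hNK
      intro n hn
      have : e ⟨n, hn⟩ ∈ R := (hR _).2 fun i j hij => by
        have h1 : Subsingleton {l // c l = c j} := by
          rw [← Finite.card_le_one_iff_subsingleton, hfib]; omega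
        have : i = j := congrArg Subtype.val (h1.elim ⟨i, hij⟩ ⟨j, rfl⟩)
        rw [this]
      rwa [hRmem, MulEquiv.symm_apply_apply] at this
    · by_cases hj : ∃ i, c i = j
      · obtain ⟨i, rfl⟩ := hj
        exact Or.inl (hfib i)
      · right
        rw [Nat.card_eq_zero]
        exact Or.inl ⟨fun x => hj ⟨x.1, x.2⟩⟩
    · have := hR (e n)
      rw [hRmem, MulEquiv.symm_apply_apply] at this
      exact this

end Cfsg.Agent.S0723
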