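import Cfsg.Statements.S0724
import Mathlib.GroupTheory.GroupAction.Quotient
import Mathlib.Algebra.Group.Action.Pi
import Mathlib.Algebra.BigOperators.Ring.Finset
import Mathlib.SetTheory.Cardinal.Finite
import Mathlib.Data.Fintype.Perm
import Mathlib.Tactic.Ring
import Mathlib.Tactic.Push

set_option autoImplicit false
open Cfsg

namespace Cfsg.Agent.S0724

theorem card_fixedBy_pi {G α : Type*} [Group G] [MulAction G α] (k : ℕ) (g : G) :
    Nat.card (MulAction.fixedBy (Fin k → α) g) = Nat.card (MulAction.fixedBy α g) ^ k := by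
  have e : MulAction.fixedBy (Fin k → α) g ≃ (Fin k → MulAction.fixedBy α g) :=
    { toFun := fun f i => ⟨f.1 i, congrFun f.2 i⟩
      invFun := fun f => ⟨fun i => (f i).1, funext fun i => (f i).2⟩
      left_inv := fun f => rfl
      right_inv := fun f => rfl }
  rw [Nat.card_congr e, Nat.card_fun, Nat.card_eq_fintype_card (α := Fin k), Fintype.card_fin]

theorem dvd_sum_pow {G α : Type*} [Group G] [Fintype G] [Finite α] [MulAction G α] (k : ℕ) :
    (Fintype.card G : ℤ) ∣ ∑ g : G, (Nat.card (MulAction.fixedBy α g) : ℤ) ^ k := by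
  classical
  have := Fintype.ofFinite α
  have h := MulAction.sum_card_fixedBy_eq_card_orbits_mul_card_group G (Fin k → α)
  have h2 : ∑ g : G, Nat.card (MulAction.fixedBy α g) ^ k =
      Fintype.card (Quotient (MulAction.orbitRel G (Fin k → α))) * Fintype.card G := by
    rw [← h]
    refine Finset.sum_congr rfl fun g _ => ?_
    rw [← card_fixedBy_pi, Nat.card_eq_fintype_card]
  have h3 : Fintype.card G ∣ ∑ g : G, Nat.card (MulAction.fixedBy α g) ^ k := by
    rw [h2]; exact Dvd.intro_left _ rfl
  exact_mod_cast h3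

theorem dvd_sum_pow_mul_prod {G α : Type*} [Group G] [Fintype G] [Finite α] [MulAction G α]
    (L : Finset ℕ) : ∀ k : ℕ, (Fintype.card G : ℤ) ∣
      ∑ g : G, (Nat.card (MulAction.fixedBy α g) : ℤ) ^ k *
        ∏ l ∈ L, ((Nat.card (MulAction.fixedBy α g) : ℤ) - l) := by
  classical
  induction L using Finset.induction_on with
  | empty => intro k; simpa using dvd_sum_pow (G := G) (α := α) k
  | insert a L ha ih =>
    intro k
    have := dvd_sub (ih (k + 1)) ((ih k).mul_left (a : ℤ))
    rw [Finset.mul_sum, ← Finset.sum_sub_distrib] at this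
    refine this.trans (dvd_of_eq (Finset.sum_congr rfl fun g _ => ?_))
    rw [Finset.prod_insert ha]
    ring

/-- Blichfeldt's Theorem: if a finite set `L` of natural numbers contains the number of fixed points of every non-identity element of a permutation group `G` of degree `n`, then the order of `G` divides `∏ (n - l)` over `l ∈ L`. -/
theorem result {α : Type*} [Fintype α] [DecidableEq α] (G : Subgroup (Equiv.Perm α)) (L : Finset ℕ) (hL : ∀ g ∈ G, g ≠ 1 → Nat.card (MulAction.fixedBy α g) ∈ L) : Nat.card G ∣ ∏ l ∈ L, (Fintype.card α - l) := by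
  classical
  by_cases hbig : ∃ l ∈ L, Fintype.card α ≤ l
  · obtain ⟨l, hl, hle⟩ := hbig
    rw [Finset.prod_eq_zero hl (Nat.sub_eq_zero_of_le hle)]
    exact dvd_zero _
  push Not at hbig
  have : Fintype G := Fintype.ofFinite G
  have h := dvd_sum_pow_mul_prod (G := G) (α := α) L 0
  rw [Finset.sum_eq_single (1 : G)] at h
  · rw [pow_zero, one_mul, MulAction.fixedBy_one_eq_univ, Nat.card_congr (Equiv.Set.univ α),
      Nat.card_eq_fintype_card] at h
    rw [Nat.card_eq_fintype_card, ← Int.natCast_dvd_natCast, Nat.cast_prod]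
    refine h.trans (dvd_of_eq (Finset.prod_congr rfl fun l hl => ?_))
    exact (Nat.cast_sub (hbig l hl).le).symm
  · intro g _ hg
    rw [Finset.prod_eq_zero (hL g g.2 (fun e => hg (Subtype.ext e))), mul_zero]
    exact sub_self _
  · intro h; exact absurd (Finset.mem_univ _) h

end Cfsg.Agent.S0724
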