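import Cfsg.Statements.S0726

set_option autoImplicit false
open Cfsg

namespace Cfsg.Agent.S0726


/-- The left and right regular permutation representations of a group are each other's centralisers in the symmetric group: the centraliser of the left regular image is the right regular image, and a transitive subgroup centralising the left regular image is the whole right regular image. -/
theorem result {G : Type*} [Group G] : Subgroup.centralizer ((MulAction.toPermHom G G).range : Set (Equiv.Perm G)) = (MulAction.toPermHom Gᵐᵒᵖ G).range ∧ ∀ H : Subgroup (Equiv.Perm G), H ≤ Subgroup.centralizer ((MulAction.toPermHom G G).range : Set (Equiv.Perm G)) → MulAction.IsPretransitive H G → H = (MulAction.toPermHom Gᵐᵒᵖ G).range := by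
  have h1 : Subgroup.centralizer ((MulAction.toPermHom G G).range : Set (Equiv.Perm G)) =
      (MulAction.toPermHom Gᵐᵒᵖ G).range := by
    ext c
    constructor
    · intro hc
      refine ⟨MulOpposite.op (c 1), ?_⟩
      ext x
      have h := (Subgroup.mem_centralizer_iff.mp hc) (MulAction.toPermHom G G x) ⟨x, rfl⟩
      have h2 := congrArg (fun f : Equiv.Perm G => f 1) h
      simpa using h2
    · rintro ⟨y, rfl⟩
      rw [Subgroup.mem_centralizer_iff]
      rintro _ ⟨x, rfl⟩
      ext z
      simp [MulOpposite.smul_eq_mul_unop, mul_assoc]
  refine ⟨h1, fun H hH ht => ?_⟩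
  rw [h1] at hH
  apply le_antisymm hH
  rintro _ ⟨y, rfl⟩
  obtain ⟨h, hh⟩ := MulAction.exists_smul_eq H (1 : G) y.unop
  obtain ⟨z, hz⟩ := hH h.2
  have hh' : (h : Equiv.Perm G) 1 = y.unop := hh
  rw [← hz] at hh'
  have : z = y := by
    apply MulOpposite.unop_injective
    simpa [MulOpposite.smul_eq_mul_unop] using hh'
  rw [← this, hz]
  exact h.2

end Cfsg.Agent.S0726
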