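import Cfsg.Statements.S0727
import Cfsg.Agent.Perm.ZassRecog

set_option autoImplicit false
open Cfsg

namespace Cfsg.Agent.S0727

open Cfsg.Lib.Perm

/-- A sharply triply transitive permutation group of degree `2^f + 1` is isomorphic to the projective general linear group of degree 2 over the field with `2^f` elements. -/
theorem result {α : Type*} [Fintype α] [DecidableEq α] {f : ℕ} (hf : 1 ≤ f) (hα : Fintype.card α = 2 ^ f + 1) (G : Subgroup (Equiv.Perm α)) (h3 : MulAction.IsMultiplyPretransitive G α 3) (hsharp : ∀ x : Fin 3 ↪ α, MulAction.stabilizer G x = ⊥) : ∃ (F : Type) (_ : Field F) (_ : Fintype F), Fintype.card F = 2 ^ f ∧ Nonempty (G ≃* Matrix.ProjGenLinGroup (Fin 2) F) := by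
  rw [← Nat.card_eq_fintype_card] at hα
  have h2 : 2 ∣ 2 ^ f := dvd_pow_self 2 (by omega)
  have h4 : 0 < 2 ^ f := by positivity
  have h5 : 3 ≤ Nat.card α := by omega
  have hz : Z2 G α := Z2.of_sharp_three h5 h3 hsharp
  obtain ⟨a, b, hab⟩ := (Finite.one_lt_card_iff_nontrivial.mp (by omega : 1 < Nat.card α)).1
  have hinv : ∀ s : G, s • a = b → s • b = a → s * s = 1 := fun s h1 h2 =>
    hz.swap_sq_of_three_of_odd hab h3 (by rw [Nat.odd_iff]; omega) h1 h2
  obtain ⟨K, _, _, hK, hG⟩ := hz.exists_pgl hab h5 h3 (hz.stab2_comm_of_swaps_invol hab hinv)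
    (fun s h h1 h2 h3 h4 => Z2.conj_eq_inv_of_swaps_invol hinv h1 h2
      (by rw [mul_smul, h3, h3]) (by rw [mul_smul, h4, h4]))
  exact ⟨K, inferInstance, inferInstance, by omega, hG⟩

end Cfsg.Agent.S0727
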