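import Cfsg.Statements.S0728
import Cfsg.Agent.Perm.ZassCount

set_option autoImplicit false
open Cfsg

namespace Cfsg.Agent.S0728

open Cfsg.Lib.Perm

/-- In a sharply triply transitive group of even degree at least 6 (degree `q + 1`, `q` odd), a two-point stabiliser has at most one subgroup of order 3. -/
theorem result {α : Type*} [Fintype α] [DecidableEq α] (heven : Even (Fintype.card α)) (h6 : 6 ≤ Fintype.card α) (G : Subgroup (Equiv.Perm α)) (h3 : MulAction.IsMultiplyPretransitive G α 3) (hsharp : ∀ x : Fin 3 ↪ α, MulAction.stabilizer G x = ⊥) {a b : α} (hab : a ≠ b) (A B : Subgroup G) (hA : A ≤ MulAction.stabilizer G a ⊓ MulAction.stabilizer G b) (hB : B ≤ MulAction.stabilizer G a ⊓ MulAction.stabilizer G b) (hA3 : Nat.card A = 3) (hB3 : Nat.card B = 3) : A = B := by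
  have hz : Z2 G α := Z2.of_sharp_three (by rw [Nat.card_eq_fintype_card]; omega) h3 hsharp
  have key : ∀ C : Subgroup G, Nat.card C = 3 → ∃ g : G, orderOf g = 3 ∧ C = Subgroup.zpowers g := by
    intro C hC
    have := Fact.mk Nat.prime_three
    obtain ⟨g, hg⟩ := exists_prime_orderOf_dvd_card' (G := C) 3 (by rw [hC])
    have hg' : orderOf (g : G) = 3 := by rw [Subgroup.orderOf_coe, hg]
    refine ⟨g, hg', (Subgroup.eq_of_le_of_card_ge ((Subgroup.zpowers_le).mpr g.2) ?_).symm⟩
    rw [Nat.card_zpowers, hg', hC]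
  obtain ⟨g, hg, rfl⟩ := key A hA3
  obtain ⟨g', hg', rfl⟩ := key B hB3
  have h1 := hA (Subgroup.mem_zpowers g)
  have h2 := hB (Subgroup.mem_zpowers g')
  rcases hz.eq_or_eq_inv_of_orderOf_eq_three h3 hab hg hg' h1.1 h1.2 h2.1 h2.2 with rfl | rfl
  · rfl
  · rw [Subgroup.zpowers_inv]

end Cfsg.Agent.S0728
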