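import Cfsg.Statements.S0732
import Cfsg.Agent.Perm.ZassReg
import Cfsg.Agent.S0727
import Cfsg.Agent.S0730
import Cfsg.Agent.Class.FieldIso

set_option autoImplicit false
open Cfsg

namespace Cfsg.Agent.S0732

open Cfsg.Lib.Perm Cfsg.Lib.Char.Zass MulAction Subgroup
open scoped IsMulCommutative

section
variable {G Ω : Type*} [Group G] [MulAction G Ω] [Finite G] [Finite Ω] {p d : ℕ}

omit [Finite G] [Finite Ω] in
theorem card_stab [IsPretransitive G Ω] (hα : Nat.card Ω = p + 1)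
    (hG : Nat.card G = (p + 1) * p * d) (a : Ω) : Nat.card (stabilizer G a) = p * d := by
  have h1 := (stabilizer G a).index_mul_card
  rw [index_stabilizer_of_transitive, hα, hG, mul_assoc] at h1
  exact Nat.eq_of_mul_eq_mul_left (Nat.succ_pos p) h1

theorem exists_ker [IsPretransitive G Ω] [FaithfulSMul G Ω] (hp : p.Prime)
    (hα : Nat.card Ω = p + 1) (hG : Nat.card G = (p + 1) * p * d) (hd : d < p) (a : Ω) :
    ∃ U : Subgroup G, IsNKer G a U := by
  have := Fact.mk hp
  have h1 := card_stab hα hG a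
  have hd0 : 0 < d := Nat.pos_of_mul_pos_left (h1 ▸ Nat.card_pos : 0 < p * d)
  have hpd : ¬ p ∣ d := Nat.not_dvd_of_pos_of_lt hd0 hd
  obtain ⟨P⟩ : Nonempty (Sylow p (stabilizer G a)) := inferInstance
  have h2 : Nat.card P = p := by
    rw [P.card_eq_multiplicity, h1, Nat.factorization_mul hp.ne_zero hd0.ne', Finsupp.add_apply,
      hp.factorization_self, Nat.factorization_eq_zero_of_not_dvd hpd, pow_one]
  have h3 : (P : Subgroup (stabilizer G a)).index = d := by
    have := (P : Subgroup (stabilizer G a)).card_mul_index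
    rw [h1, h2] at this
    exact Nat.eq_of_mul_eq_mul_left hp.pos this
  have h4 : Nat.card (Sylow p (stabilizer G a)) = 1 := by
    have h5 := Nat.le_of_dvd hd0 (h3 ▸ P.card_dvd_index)
    have h6 := card_sylow_modEq_one p (stabilizer G a)
    exact Nat.ModEq.eq_of_lt_of_lt h6 (by omega) hp.one_lt
  have := (Nat.card_eq_one_iff_unique.1 h4).1
  have h5 := P.normal_of_subsingleton
  have h6 : Nat.card ((P : Subgroup (stabilizer G a)).map (stabilizer G a).subtype) = p := by
    rw [card_map_of_injective (subtype_injective _), h2]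
  refine ⟨(P : Subgroup (stabilizer G a)).map (stabilizer G a).subtype,
    ⟨map_subtype_le _, by rw [h6, hα], fun u hu hu1 c hc => ?_⟩, ?_⟩
  · have h7 : u ^ p = 1 := congrArg Subtype.val (h6 ▸ pow_card_eq_one' (x := (⟨u, hu⟩ :
      (P : Subgroup (stabilizer G a)).map (stabilizer G a).subtype)))
    have h8 := card_modEq_ncard_fixedBy (Ω := Ω) hp h7
    have h9 : (fixedBy Ω u).ncard < p + 1 := by
      rw [← hα, ← Set.ncard_univ]
      refine Set.ncard_lt_ncard (Set.ssubset_univ_iff.2 fun e => hu1 ?_)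
      exact eq_of_smul_eq_smul (α := Ω) fun x => by
        rw [one_smul]; exact (e ▸ Set.mem_univ x : x ∈ fixedBy Ω u)
    by_contra hca
    have h10 : 1 < (fixedBy Ω u).ncard :=
      (Set.one_lt_ncard (Set.toFinite _)).2 ⟨c, hc, a, map_subtype_le _ hu, hca⟩
    rw [hα] at h8
    have h11 := (Nat.modEq_iff_dvd' h9.le).1 h8.symm
    have := Nat.le_of_dvd (by omega) h11
    omega
  · rintro g hg _ ⟨u, hu, rfl⟩
    exact ⟨_, h5.conj_mem u hu ⟨g, hg⟩, rfl⟩

omit [Finite G] [Finite Ω] in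
theorem comm_of_ker {a : Ω} {U : Subgroup G} (hp : p.Prime) (hα : Nat.card Ω = p + 1)
    (hU : IsKernel G a U) : ∀ x ∈ U, ∀ y ∈ U, x * y = y * x := by
  have := Fact.mk hp
  have h1 : Nat.card U = p := by have := hU.card; omega
  have := isCyclic_of_prime_card h1
  exact fun x hx y hy => congrArg Subtype.val (mul_comm (⟨x, hx⟩ : U) ⟨y, hy⟩)

theorem z2 [IsPretransitive G Ω] [FaithfulSMul G Ω] (hp : p.Prime)
    (hα : Nat.card Ω = p + 1) (hG : Nat.card G = (p + 1) * p * d) (hd : d < p) : Z2 G Ω := by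
  have hf : ∀ {g : G}, (∀ c : Ω, g • c = c) → g = 1 := fun h =>
    eq_of_smul_eq_smul (α := Ω) fun c => by rw [h, one_smul]
  refine ⟨fun {a b c e} hab hce => ?_, fun {g a b c} hab hbc hac ha hb hc => hf fun x => ?_, hf⟩
  · obtain ⟨g, rfl⟩ := exists_smul_eq G a c
    obtain ⟨U, hU⟩ := exists_ker hp hα hG hd (g • a)
    obtain ⟨u, hu, e⟩ := hU.exists_smul_eq (b := g • b) (c := e)
      (fun h => hab (smul_left_cancel g h).symm) hce.symm
    exact ⟨u * g, by rw [mul_smul]; exact hU.le hu, by rw [mul_smul, e]⟩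
  · by_cases hx : x = a
    · rw [hx, ha]
    obtain ⟨U, hU⟩ := exists_ker hp hα hG hd a
    obtain ⟨u, hu, e⟩ := hU.exists_smul_eq hab.symm hac.symm
    have key : ∀ v ∈ U, g • v • b = v • b ↔ g * v * g⁻¹ = v := fun v hv => by
      have h0 : (g * v * g⁻¹) • b = g • v • b := by
        rw [mul_smul, mul_smul, inv_smul_eq_iff.2 hb.symm]
      refine ⟨fun h => (inv_mul_eq_one.1 (by_contra fun h1 => hab (hU.fix _
        (U.mul_mem (U.inv_mem hv) (hU.conj g ha v hv)) h1 b ?_).symm)).symm,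
        fun h => by rw [← h0, h]⟩
      rw [mul_smul, h0, h, inv_smul_smul]
    obtain ⟨v, hv, rfl⟩ := hU.exists_smul_eq hab.symm hx
    have h1 : Nat.card U = p := by have := hU.card; omega
    have := Fact.mk hp
    have h2 : (⟨u, hu⟩ : U) ≠ 1 := fun h => hbc (by
      rw [← e, show u = 1 from congrArg Subtype.val h, one_smul])
    obtain ⟨k, hk⟩ := mem_zpowers_of_prime_card h1 h2 (g' := ⟨v, hv⟩)
    obtain rfl : u ^ k = v := congrArg Subtype.val hk
    rw [key _ hv, ← conj_zpow, (key u hu).1 (by rw [e, hc])]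

end

/-- A transitive permutation group on `p + 1` points (`p` prime) of order `(p+1) p d` with `d < p` is isomorphic to `PGL(2,p)` with `d = p - 1`, or to `PSL(2,p)` with `2d = p - 1`, or else `p + 1 = 2^q` for a prime `q`, `d = 1` or `d = q`, and the group is permutation-isomorphic to a group of semi-affine maps `x ↦ a φ(x) + b` of the field with `2^q` elements. -/
theorem result {α : Type*} [Fintype α] [DecidableEq α] {p d : ℕ} (hp : p.Prime) (hα : Fintype.card α = p + 1) (G : Subgroup (Equiv.Perm α)) [MulAction.IsPretransitive G α] (hG : Nat.card G = (p + 1) * p * d) (hd : d < p) : (d = p - 1 ∧ Nonempty (G ≃* Matrix.ProjGenLinGroup (Fin 2) (ZMod p))) ∨ (2 * d = p - 1 ∧ Nonempty (G ≃* Matrix.ProjectiveSpecialLinearGroup (Fin 2) (ZMod p))) ∨ (∃ q : ℕ, q.Prime ∧ p + 1 = 2 ^ q ∧ (d = 1 ∨ d = q) ∧ ∃ e : α ≃ GaloisField 2 q, ∀ g : G, (e.symm.trans (((g : Equiv.Perm α)).trans e)) ∈ Cfsg.semiaffineGroup (GaloisField 2 q)) := by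
  have := Fact.mk hp
  have hα' := hα
  rw [← Nat.card_eq_fintype_card] at hα
  have hZ : Z2 G α := z2 hp hα hG hd
  have h2 := hp.two_le
  obtain ⟨a, b, hab⟩ := (Finite.one_lt_card_iff_nontrivial.mp (by omega : 1 < Nat.card α)).1
  have hD : Nat.card (stabilizer G a ⊓ stabilizer G b : Subgroup G) = d := by
    have h1 := hZ.card_group hab
    rw [hG, hα, Nat.add_sub_cancel, mul_assoc] at h1
    exact (Nat.eq_of_mul_eq_mul_left hp.pos (Nat.eq_of_mul_eq_mul_left (Nat.succ_pos p) h1)).symm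
  have iso : ∀ (K : Type) [Field K] [Fintype K], Fintype.card K = p → Nonempty (K ≃+* ZMod p) :=
    fun K _ _ h => ⟨FiniteField.ringEquivOfCardEq (h.trans (ZMod.card p).symm)⟩
  by_cases hd1 : d = p - 1
  · obtain ⟨h3, h4⟩ := hZ.three_of_card_stab2 hab (by omega)
    obtain ⟨K, _, _, hK, ⟨φ⟩⟩ : ∃ (F : Type) (_ : Field F) (_ : Fintype F), Fintype.card F = p ^ 1 ∧
        Nonempty (G ≃* Matrix.ProjGenLinGroup (Fin 2) F) := by
      by_cases h5 : p = 2
      · subst h5
        exact Cfsg.Agent.S0727.result le_rfl hα' G h3 h4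
      · exact Cfsg.Agent.S0730.result hp h5 odd_one (by rw [hα', pow_one]) G h3 h4
    obtain ⟨ι⟩ := iso K (hK.trans (pow_one p))
    exact Or.inl ⟨hd1, ⟨φ.trans (Cfsg.Lib.Class.pglEquiv _ ι)⟩⟩
  right
  have hd0 : 0 < d := hD ▸ Nat.card_pos
  have hp2 : p ≠ 2 := by omega
  obtain ⟨U, hU⟩ := exists_ker hp hα hG hd a
  have hc := comm_of_ker hp hα hU.toIsKernel
  by_cases hz : IsZassenhausGroup G α
  · left
    rcases card_stab2_of_comm hz hab hU hc with h | ⟨h3, h4⟩
    · omega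
    obtain ⟨K, _, _, hK, ⟨φ⟩⟩ := hZ.exists_psl hab (by omega) h4 h3
    obtain ⟨ι⟩ := iso K (by omega)
    exact ⟨by omega, ⟨φ.trans (Cfsg.Lib.Class.pslEquiv _ ι)⟩⟩
  right
  obtain ⟨N, hN⟩ : ∃ N : Subgroup G, RegN α N := by
    by_cases h1 : ∃ g : G, g ≠ 1 ∧ ∃ a b : α, a ≠ b ∧ g • a = a ∧ g • b = b
    · by_contra hcon
      refine hz ⟨inferInstance, isMultiplyPretransitive_two_of_forall fun _ _ _ _ => hZ.two,
        fun g a b c => hZ.three, h1, fun N hN ht => ?_⟩
      by_contra h3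
      push Not at h3
      exact hcon ⟨N, RegN.of_stabilizer hN ht h3⟩
    · obtain ⟨N, h3, h4⟩ := exists_frobenius_kernel_perm (G := G) (exists_smul_eq G) hab
        (fun e => Z2.kernel_ne_bot hU.toIsKernel (by omega) (eq_bot_iff.2 (e ▸ hU.le)))
        (fun g x y hxy hx hy => by_contra fun e => h1 ⟨g, e, x, y, hxy, hx, hy⟩)
      refine ⟨N, ⟨fun n hn g => (h3 _).2 (((h3 n).1 hn).imp (fun e => by rw [e]; group)
        fun e c h5 => e (g⁻¹ • c) ?_)⟩, h4, fun n hn c e => ((h3 n).1 hn).resolve_right fun h => h c e⟩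
      rw [eq_inv_smul_iff, ← mul_smul, ← mul_smul, h5]
  have hNc : Nat.card N = p + 1 := (hN.card_eq a).trans hα
  have hsq := hN.sq_of_even hZ a (hNc ▸ (hp.odd_of_ne_two hp2).add_one.two_dvd)
  obtain ⟨q, hq⟩ := IsPGroup.iff_card.1 (RegN.isPGroup_of_sq hsq)
  rw [hNc] at hq
  have hqp : q.Prime := Nat.Prime.of_mersenne (by rwa [mersenne, ← hq])
  have : IsMulCommutative N := ⟨⟨fun x y => Subtype.ext (RegN.comm_of_sq hsq x.2 y.2)⟩⟩
  refine ⟨q, hqp, hq, ?_, ?_⟩
  · refine or_iff_not_imp_left.2 fun h1 => ?_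
    rcases Nat.even_or_odd d with h3 | h3
    · obtain ⟨⟨x, hx⟩, h6⟩ := exists_prime_orderOf_dvd_card' 2 (hD ▸ h3.two_dvd)
      rw [orderOf_mk] at h6
      have h7 := hN.card_of_invol hZ hab hx h6
      obtain ⟨k, hk⟩ := h3
      omega
    · have h7 := hN.card_of_odd hZ hab le_rfl (fun e => h1 (by rw [← hD, e, card_bot])) (hD ▸ h3)
      rw [hα, hD, hq] at h7
      exact (Nat.pow_right_injective le_rfl h7).symm
  obtain ⟨e, he⟩ := hN.exists_semiaffine (a := a) (A := U)
    (fun e => by rw [e, card_bot] at hNc; omega)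
    (fun g hg => mem_normalizer_iff.2 fun u => ⟨hU.conj g hg u, fun h => by
      simpa [mul_assoc] using hU.conj g⁻¹ (inv_mem hg) _ h⟩)
    (fun x hx y hy => hc y hy x hx) (fun B hB hBU => or_iff_not_imp_left.2 fun h1 => by
      obtain ⟨⟨m, hm⟩, hm1⟩ := ne_bot_iff_exists_ne_one.1 h1
      refine le_antisymm hB fun n hn => ?_
      by_cases hn1 : n = 1
      · exact hn1 ▸ B.one_mem
      obtain ⟨u, hu, e⟩ := hU.exists_smul_eq (b := m • a) (c := n • a)
        (fun e => hm1 (Subtype.ext (hN.free m (hB hm) a e))) (fun e => hn1 (hN.free n hn a e))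
      rw [← hN.ext (hN.normal.conj_mem m (hB hm) u) hn (c := a) (by
        rw [mul_smul, mul_smul, inv_smul_eq_iff.2 (hU.le hu).symm, e])]
      exact hBU u hu m hm)
    (GaloisField 2 q) (by rw [GaloisField.card 2 q hqp.ne_zero, hα, hq])
  refine ⟨e, fun g => ?_⟩
  obtain ⟨c, d, θ, h⟩ := he g
  exact ⟨c, d, θ, fun x => (h (e.symm x)).trans (by rw [e.apply_symm_apply])⟩

end Cfsg.Agent.S0732
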