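import Cfsg.Statements.S0733
import Mathlib

set_option autoImplicit false
open Cfsg

namespace Cfsg.Agent.S0733

/-- A permutation group of affine type — generated by the translations of a finite vector space `V` over `ZMod p` together with a group `G₀` of linear automorphisms — is primitive on `V` if and only if `G₀` is irreducible on `V`. -/
theorem result {p : ℕ} [Fact p.Prime] {V : Type*} [AddCommGroup V] [Module (ZMod p) V] [Finite V] [Nontrivial V] (G₀ : Subgroup (V ≃ₗ[ZMod p] V)) (G : Subgroup (Equiv.Perm V)) (hG : ∀ σ : Equiv.Perm V, σ ∈ G ↔ ∃ g ∈ G₀, ∃ b : V, ∀ x : V, σ x = (g : V ≃ₗ[ZMod p] V) x + b) : MulAction.IsPreprimitive G V ↔ ∀ W : Submodule (ZMod p) V, (∀ g ∈ G₀, ∀ v ∈ W, (g : V ≃ₗ[ZMod p] V) v ∈ W) → W = ⊥ ∨ W = ⊤ := by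
  open Pointwise in
  have htr : ∀ b : V, Equiv.addRight b ∈ G := fun b => (hG _).2 ⟨1, G₀.one_mem, b, fun x => rfl⟩
  have hlin : ∀ g ∈ G₀, (g : V ≃ₗ[ZMod p] V).toEquiv ∈ G := fun g hg =>
    (hG _).2 ⟨g, hg, 0, fun x => (add_zero _).symm⟩
  constructor
  · intro hprim W hW
    have hB : MulAction.IsBlock G (W : Set V) := by
      rw [MulAction.isBlock_iff_smul_eq_of_mem]
      intro σ a ha hσa
      obtain ⟨g, hg, b, hσ⟩ := (hG σ).1 σ.2
      have hb : b ∈ W := by
        have h1 : (σ : Equiv.Perm V) a ∈ W := hσa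
        rw [hσ] at h1
        exact (W.add_mem_iff_right (hW g hg a ha)).1 h1
      apply Set.eq_of_subset_of_ncard_le
      · rintro _ ⟨x, hx, rfl⟩
        change (σ : Equiv.Perm V) x ∈ W
        rw [hσ]
        exact W.add_mem (hW g hg x hx) hb
      · rw [Set.ncard_smul_set]
      · exact Set.toFinite _
    rcases hprim.isTrivialBlock_of_isBlock hB with h | h
    · left
      rw [eq_bot_iff]
      intro x hx
      exact h hx W.zero_mem
    · right
      exact SetLike.coe_injective h
  · intro h
    have : MulAction.IsPretransitive G V := ⟨fun x y => ⟨⟨_, htr (y - x)⟩, by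
      change x + (y - x) = y
      abel⟩⟩
    apply MulAction.IsPreprimitive.of_isTrivialBlock_base (0 : V)
    intro B hB0 hB
    rw [MulAction.isBlock_iff_smul_eq_of_mem] at hB
    have key : ∀ σ ∈ G, σ 0 ∈ B → ∀ x, (x ∈ B ↔ σ x ∈ B) := by
      intro σ hσ h0 x
      conv_rhs => rw [← hB (g := ⟨σ, hσ⟩) hB0 h0]
      exact (Set.smul_mem_smul_set_iff (a := (⟨σ, hσ⟩ : G))).symm
    let A : AddSubgroup V :=
      { carrier := B
        zero_mem' := hB0
        add_mem' := fun {a b} ha hb => (key _ (htr b) (by simpa using hb) a).1 ha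
        neg_mem' := fun {a} ha => (key _ (htr a) (by simpa using ha) (-a)).2 (by simpa using hB0) }
    rcases h (AddSubgroup.toZModSubmodule p A) (fun g hg v hv =>
      (key _ (hlin g hg) (by simpa using hB0) v).1 hv) with h1 | h1
    · left
      intro x hx y hy
      have hx' : x ∈ AddSubgroup.toZModSubmodule p A := hx
      have hy' : y ∈ AddSubgroup.toZModSubmodule p A := hy
      rw [h1, Submodule.mem_bot] at hx' hy'
      rw [hx', hy']
    · right
      apply Set.eq_univ_of_forall
      intro x
      have : x ∈ AddSubgroup.toZModSubmodule p A := by rw [h1]; trivial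
      exact this

end Cfsg.Agent.S0733
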