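import Cfsg.Statements.S0734

set_option autoImplicit false
open Cfsg

namespace Cfsg.Agent.S0734

/-- Higman's criterion for primitivity: a transitive action on a finite set is primitive if and only if every non-trivial orbital graph (edges = images of a fixed pair of distinct points) is connected. -/
theorem result {G : Type*} [Group G] {Ω : Type*} [Finite Ω] [MulAction G Ω] [MulAction.IsPretransitive G Ω] [Nontrivial Ω] : MulAction.IsPreprimitive G Ω ↔ ∀ a b : Ω, a ≠ b → (SimpleGraph.fromRel fun x y : Ω => ∃ g : G, g • a = x ∧ g • b = y).Connected := by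
  open Pointwise in
  constructor
  · intro hprim a b hab
    set Γ := (SimpleGraph.fromRel fun x y : Ω => ∃ g : G, g • a = x ∧ g • b = y) with hΓ
    have hadj : ∀ (g : G) (x y : Ω), Γ.Adj x y → Γ.Adj (g • x) (g • y) := by
      intro g x y h
      rw [hΓ, SimpleGraph.fromRel_adj] at h ⊢
      refine ⟨fun e => h.1 (smul_left_cancel g e), ?_⟩
      rcases h.2 with ⟨k, h1, h2⟩ | ⟨k, h1, h2⟩
      · exact Or.inl ⟨g * k, by rw [mul_smul, h1], by rw [mul_smul, h2]⟩
      · exact Or.inr ⟨g * k, by rw [mul_smul, h1], by rw [mul_smul, h2]⟩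
    have hreach : ∀ (g : G) (x y : Ω), Γ.Reachable x y → Γ.Reachable (g • x) (g • y) := by
      intro g x y h
      exact h.map (⟨fun z => g • z, fun {u v} huv => hadj g u v huv⟩ : Γ →g Γ)
    have hblock : MulAction.IsBlock G {x | Γ.Reachable a x} := by
      rw [MulAction.isBlock_iff_smul_eq_of_mem]
      intro g x hx hgx
      have hx' : Γ.Reachable a x := hx
      have hgx' : Γ.Reachable a (g • x) := hgx
      have h1 : Γ.Reachable a (g • a) := hgx'.trans (hreach g a x hx').symm
      ext y
      rw [Set.mem_smul_set_iff_inv_smul_mem]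
      constructor
      · intro hy
        have := hreach g _ _ hy
        rw [smul_inv_smul] at this
        exact h1.trans this
      · intro hy
        have := hreach g⁻¹ _ _ (h1.symm.trans hy)
        rwa [inv_smul_smul] at this
    have hab' : Γ.Reachable a b := by
      apply SimpleGraph.Adj.reachable
      rw [hΓ, SimpleGraph.fromRel_adj]
      exact ⟨hab, Or.inl ⟨1, one_smul _ _, one_smul _ _⟩⟩
    rcases hprim.isTrivialBlock_of_isBlock hblock with h | h
    · exact absurd (h (show a ∈ {x | Γ.Reachable a x} from SimpleGraph.Reachable.refl a) hab') hab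
    · have : Nonempty Ω := ⟨a⟩
      refine ⟨fun x y => ?_⟩
      have hx : x ∈ {x | Γ.Reachable a x} := by rw [h]; trivial
      have hy : y ∈ {x | Γ.Reachable a x} := by rw [h]; trivial
      exact (SimpleGraph.Reachable.symm hx).trans hy
  · intro h
    refine ⟨fun {B} hB => ?_⟩
    by_cases hs : B.Subsingleton
    · exact Or.inl hs
    right
    rw [Set.not_subsingleton_iff] at hs
    obtain ⟨a, ha, b, hb, hab⟩ := hs
    have hc := h a b hab
    rw [MulAction.isBlock_iff_smul_eq_of_mem] at hB
    have key : ∀ (g : G) (x y : Ω), x ∈ B → y ∈ B → g • x ∈ B → g • y ∈ B := by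
      intro g x y hx hy hgx
      rw [← hB hx hgx]
      exact Set.smul_mem_smul_set hy
    have hstep : ∀ x y : Ω, (SimpleGraph.fromRel fun x y : Ω => ∃ g : G, g • a = x ∧ g • b = y).Adj x y → x ∈ B → y ∈ B := by
      intro x y hxy hx
      rw [SimpleGraph.fromRel_adj] at hxy
      rcases hxy.2 with ⟨k, rfl, rfl⟩ | ⟨k, rfl, rfl⟩
      · exact key k a b ha hb hx
      · exact key k b a hb ha hx
    apply Set.eq_univ_of_forall
    intro y
    have hr := (SimpleGraph.reachable_iff_reflTransGen _ _).1 (hc.preconnected a y)
    induction hr with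
    | refl => exact ha
    | tail _ hadj ih => exact hstep _ _ hadj ih

end Cfsg.Agent.S0734
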