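import Cfsg.Statements.S0735
import Mathlib

set_option autoImplicit false
open Cfsg

namespace Cfsg.Agent.S0735

/-- A 2-homogeneous permutation group (transitive on 2-subsets) of even order is doubly transitive; a non-trivial 2-homogeneous group is primitive. -/
theorem result {α : Type*} [Fintype α] [DecidableEq α] (G : Subgroup (Equiv.Perm α)) (h2 : MulAction.IsPretransitive G (Set.powersetCard α 2)) (hα : 3 ≤ Fintype.card α) : (Even (Nat.card G) → MulAction.IsMultiplyPretransitive G α 2) ∧ (G ≠ ⊥ → MulAction.IsPreprimitive G α) := by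
  open Pointwise in
  have hpair : ∀ a b c d : α, a ≠ b → c ≠ d → ∃ g : G, (g • a = c ∧ g • b = d) ∨ (g • a = d ∧ g • b = c) := by
    intro a b c d hab hcd
    obtain ⟨g, hg⟩ := MulAction.exists_smul_eq G
      (⟨{a, b}, Finset.card_pair hab⟩ : Set.powersetCard α 2) ⟨{c, d}, Finset.card_pair hcd⟩
    have h1 : g • ({a, b} : Finset α) = {c, d} := congrArg Subtype.val hg
    have ha : g • a ∈ ({c, d} : Finset α) := h1 ▸ Finset.smul_mem_smul_finset (by simp)
    have hb : g • b ∈ ({c, d} : Finset α) := h1 ▸ Finset.smul_mem_smul_finset (by simp)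
    have hne : g • a ≠ g • b := fun e => hab (smul_left_cancel g e)
    simp only [Finset.mem_insert, Finset.mem_singleton] at ha hb
    refine ⟨g, ?_⟩
    rcases ha with ha | ha <;> rcases hb with hb | hb
    · exact absurd (ha.trans hb.symm) hne
    · exact Or.inl ⟨ha, hb⟩
    · exact Or.inr ⟨ha, hb⟩
    · exact absurd (ha.trans hb.symm) hne
  constructor
  · intro hev
    have := Fact.mk Nat.prime_two
    obtain ⟨t, ht⟩ := exists_prime_orderOf_dvd_card' (G := G) 2 hev.two_dvd
    obtain ⟨x, hx⟩ : ∃ x : α, t • x ≠ x := by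
      by_contra hcon
      push Not at hcon
      have : t = 1 := by ext x; exact hcon x
      rw [this, orderOf_one] at ht
      omega
    have htt : t • t • x = x := by rw [← mul_smul, ← pow_two, ← ht, pow_orderOf_eq_one, one_smul]
    rw [MulAction.is_two_pretransitive_iff]
    intro a b c d hab hcd
    obtain ⟨g, hg | hg⟩ := hpair a b c d hab hcd
    · exact ⟨g, hg⟩
    · obtain ⟨k, hk | hk⟩ := hpair x (t • x) c d hx.symm hcd
      · refine ⟨k * t * k⁻¹ * g, ?_, ?_⟩
        · rw [mul_smul, hg.1, ← hk.2, mul_smul, mul_smul, inv_smul_smul, htt, hk.1]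
        · rw [mul_smul, hg.2, ← hk.1, mul_smul, mul_smul, inv_smul_smul, hk.2]
      · refine ⟨k * t * k⁻¹ * g, ?_, ?_⟩
        · rw [mul_smul, hg.1, ← hk.1, mul_smul, mul_smul, inv_smul_smul, hk.2]
        · rw [mul_smul, hg.2, ← hk.2, mul_smul, mul_smul, inv_smul_smul, htt, hk.1]
  · intro _
    have hthird : ∀ a b : α, ∃ c, c ≠ a ∧ c ≠ b := by
      intro a b
      by_contra hcon
      push Not at hcon
      have : (Finset.univ : Finset α) ⊆ {a, b} := by
        intro c _
        by_cases h : c = a
        · simp [h]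
        · simp [hcon c h]
      have := (Finset.card_le_card this).trans Finset.card_le_two
      rw [Finset.card_univ] at this
      omega
    have htr : MulAction.IsPretransitive G α := by
      refine ⟨fun a b => ?_⟩
      by_cases hab : a = b
      · exact ⟨1, by rw [one_smul, hab]⟩
      obtain ⟨c, hca, hcb⟩ := hthird a b
      obtain ⟨g, hg | hg⟩ := hpair a c b c hca.symm hcb.symm
      · exact ⟨g, hg.1⟩
      obtain ⟨k, hk | hk⟩ := hpair a b c b hab hcb
      · obtain ⟨l, hl | hl⟩ := hpair a b a c hab hca.symm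
        · exact ⟨g * g, by rw [mul_smul, hg.1, hg.2]⟩
        · exact ⟨g * g, by rw [mul_smul, hg.1, hg.2]⟩
      · exact ⟨k, hk.1⟩
    refine ⟨fun {B} hB => ?_⟩
    by_cases hs : B.Subsingleton
    · exact Or.inl hs
    right
    rw [Set.not_subsingleton_iff] at hs
    obtain ⟨a, ha, b, hb, hab⟩ := hs
    rw [MulAction.isBlock_iff_smul_eq_of_mem] at hB
    apply Set.eq_univ_of_forall
    intro c
    by_cases hac : a = c
    · exact hac ▸ ha
    obtain ⟨g, hg | hg⟩ := hpair a b a c hab hac
    · rw [← hB (g := g) ha (by rw [hg.1]; exact ha), ← hg.2]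
      exact Set.smul_mem_smul_set hb
    · rw [← hB (g := g) hb (by rw [hg.2]; exact ha), ← hg.1]
      exact Set.smul_mem_smul_set ha

end Cfsg.Agent.S0735
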