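import Cfsg.Statements.S0736
import Cfsg.Agent.Perm.Homog

set_option autoImplicit false
open Cfsg

namespace Cfsg.Agent.S0736

/-- A `k`-homogeneous permutation group of degree `n`, `k ≥ 2`, with `k + q - 1 ≤ n` for every prime power `q` dividing `k`, is `(k-1)`-homogeneous. -/
theorem result {α : Type*} [Fintype α] [DecidableEq α] (G : Subgroup (Equiv.Perm α)) {k : ℕ} (hk : 2 ≤ k) (hG : MulAction.IsPretransitive G (Set.powersetCard α k)) (hq : ∀ q : ℕ, IsPrimePow q → q ∣ k → k + q - 1 ≤ Fintype.card α) : MulAction.IsPretransitive G (Set.powersetCard α (k - 1)) := by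
  open Pointwise in
  classical
  rw [Cfsg.Lib.Perm.isPretransitive_powersetCard_iff'] at hG ⊢
  obtain ⟨j, rfl⟩ : ∃ j, k = j + 1 := ⟨k - 1, by omega⟩
  rw [Nat.add_sub_cancel]
  intro A₀ A₁ hA₀ hA₁
  have hn : j + 1 ≤ Fintype.card α := by
    have := hq _ (Nat.minFac_prime (show j + 1 ≠ 1 by omega)).isPrimePow (Nat.minFac_dvd _)
    have := Nat.minFac_pos (j + 1)
    omega
  let c : Finset α → ℕ := fun B => ((B.powersetCard j).filter fun A => ∃ g : G, g • A₀ = A).card
  have hc : ∀ B B' : Finset α, B.card = j + 1 → B'.card = j + 1 → c B = c B' := by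
    have hle : ∀ (g : G) (B : Finset α), c B ≤ c (g • B) := by
      intro g B
      apply Finset.card_le_card_of_injOn (fun A => g • A)
      · intro A hA
        simp only [Finset.coe_filter, Finset.mem_powersetCard, Set.mem_ofPred_eq] at hA ⊢
        obtain ⟨⟨h1, h2⟩, h, rfl⟩ := hA
        exact ⟨⟨Finset.smul_finset_subset_smul_finset h1, by rw [Finset.card_smul_finset, h2]⟩,
          g * h, mul_smul _ _ _⟩
      · exact fun _ _ _ _ h => smul_left_cancel g h
    intro B B' hB hB'
    obtain ⟨g, rfl⟩ := hG B B' hB hB'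
    refine le_antisymm (hle g B) ?_
    simpa using hle g⁻¹ (g • B)
  have hext : ∀ A : Finset α, A.card = j → ∃ B : Finset α, A ⊆ B ∧ B.card = j + 1 := by
    intro A hA
    obtain ⟨B, h1, -, h2⟩ := Finset.exists_subsuperset_card_eq (Finset.subset_univ A) (n := j + 1)
      (by omega) (by rw [Finset.card_univ]; omega)
    exact ⟨B, h1, h2⟩
  obtain ⟨B₀, hAB₀, hB₀⟩ := hext A₀ hA₀
  have hdvd : j + 1 ∣ c B₀ := by
    rw [Nat.dvd_iff_prime_pow_dvd_dvd]
    intro p a hp hpa
    rcases a with _ | a
    · simp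
    obtain ⟨S, -, hS⟩ := Finset.exists_subset_card_eq (s := (Finset.univ : Finset α))
      (n := j + 1 + p ^ (a + 1) - 1) (by
        rw [Finset.card_univ]; exact hq _ (hp.isPrimePow.pow (by omega)) hpa)
    have key := Finset.card_mul_eq_card_mul
      (s := (S.powersetCard j).filter fun A => ∃ g : G, g • A₀ = A) (t := S.powersetCard (j + 1))
      (r := fun A B => A ⊆ B) (m := p ^ (a + 1)) (n := c B₀) (by
        intro A hA
        simp only [Finset.mem_filter, Finset.mem_powersetCard] at hA
        obtain ⟨⟨h1, h2⟩, -⟩ := hA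
        have : ((S.powersetCard (j + 1)).bipartiteAbove (fun A B => A ⊆ B) A) =
            (S \ A).image fun x => insert x A := by
          ext B
          simp only [Finset.mem_bipartiteAbove, Finset.mem_powersetCard, Finset.mem_image,
            Finset.mem_sdiff]
          constructor
          · rintro ⟨⟨h3, h4⟩, h5⟩
            obtain ⟨x, hx, hxA⟩ := Finset.exists_mem_notMem_of_card_lt_card (s := A) (t := B) (by omega)
            refine ⟨x, ⟨h3 hx, hxA⟩, Finset.eq_of_subset_of_card_le (Finset.insert_subset hx h5) ?_⟩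
            rw [Finset.card_insert_of_notMem hxA]; omega
          · rintro ⟨x, ⟨h3, h4⟩, rfl⟩
            exact ⟨⟨Finset.insert_subset h3 h1, by rw [Finset.card_insert_of_notMem h4, h2]⟩,
              Finset.subset_insert _ _⟩
        rw [this, Finset.card_image_of_injOn, Finset.card_sdiff_of_subset h1, hS, h2]
        · have := pow_pos hp.pos (a + 1); omega
        · intro x hx y _ hxy
          have hx' : x ∈ insert y A := by
            have : insert x A = insert y A := hxy
            rw [← this]; exact Finset.mem_insert_self _ _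
          exact (Finset.mem_insert.1 hx').resolve_right (Finset.mem_sdiff.1 hx).2) (by
        intro B hB
        rw [Finset.mem_powersetCard] at hB
        rw [← hc B B₀ hB.2 hB₀]
        congr 1
        ext A
        simp only [Finset.mem_bipartiteBelow, Finset.mem_filter, Finset.mem_powersetCard]
        exact ⟨fun h => ⟨⟨h.2, h.1.1.2⟩, h.1.2⟩, fun h => ⟨⟨⟨h.1.1.trans hB.1, h.1.2⟩, h.2⟩, h.1.1⟩⟩)
    rw [Finset.card_powersetCard, hS] at key
    exact ((Nat.Prime.coprime_iff_not_dvd hp).2
      (Cfsg.Lib.Perm.not_dvd_choose_add_pred hp hpa)).pow_left _ |>.dvd_of_dvd_mul_left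
        (key ▸ Dvd.intro_left _ rfl)
  have hpos : 0 < c B₀ := Finset.card_pos.2 ⟨A₀, by
    simp only [Finset.mem_filter, Finset.mem_powersetCard]
    exact ⟨⟨hAB₀, hA₀⟩, 1, one_smul _ _⟩⟩
  obtain ⟨B₁, hAB₁, hB₁⟩ := hext A₁ hA₁
  have h1 : (B₁.powersetCard j).card ≤ c B₁ := by
    rw [Finset.card_powersetCard, hB₁, Nat.choose_succ_self_right, hc B₁ B₀ hB₁ hB₀]
    exact Nat.le_of_dvd hpos hdvd
  have h2 := Finset.eq_of_subset_of_card_le (Finset.filter_subset _ _) h1
  have h3 : A₁ ∈ B₁.powersetCard j := Finset.mem_powersetCard.2 ⟨hAB₁, hA₁⟩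
  rw [← h2] at h3
  exact (Finset.mem_filter.1 h3).2

end Cfsg.Agent.S0736
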