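import Cfsg.Statements.S0739
import Cfsg.Agent.Perm.ZassOdd

set_option autoImplicit false
open Cfsg

namespace Cfsg.Agent.S0739

open Cfsg.Lib.Perm

/-- In a finite Zassenhaus group whose two-point stabiliser `H = G_{a,b}` has odd order `d`, and which has no normal `q`-complement for any prime `q ∣ d`, `H` is cyclic, `C_G(H) = H`, and every element swapping `a` and `b` inverts each element of `H`. -/
theorem result {G Ω : Type*} [Group G] [Finite G] [MulAction G Ω] [Fintype Ω] (hZ : Cfsg.IsZassenhausGroup G Ω) {a b : Ω} (hab : a ≠ b) (hodd : Odd (Nat.card ↥(MulAction.stabilizer G a ⊓ MulAction.stabilizer G b))) (hnil : ∀ q : ℕ, q.Prime → q ∣ Nat.card ↥(MulAction.stabilizer G a ⊓ MulAction.stabilizer G b) → ¬ ∃ N : Subgroup G, N.Normal ∧ N.index = q ^ (Nat.card G).factorization q) : IsCyclic ↥(MulAction.stabilizer G a ⊓ MulAction.stabilizer G b) ∧ Subgroup.centralizer ((MulAction.stabilizer G a ⊓ MulAction.stabilizer G b : Subgroup G) : Set G) = MulAction.stabilizer G a ⊓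 MulAction.stabilizer G b ∧ ∀ s : G, s • a = b → s • b = a → ∀ h ∈ MulAction.stabilizer G a ⊓ MulAction.stabilizer G b, s * h * s⁻¹ = h⁻¹ := by
  have h3 := Cfsg.Lib.Char.Zass.three_le_card hZ
  have Z := Z2.of_zass hZ
  obtain ⟨h1, h2⟩ := Z.isCyclic_and_inv_of_odd hab h3 hodd hnil
  refine ⟨h1, le_antisymm (fun g hg => ?_) (fun h hh k hk => ?_), h2⟩
  · obtain ⟨x, hx1, hx⟩ := Cfsg.Lib.Char.Zass.exists_ne_one_fix hZ hab
    have e : g * x * g⁻¹ = x := by rw [← hg x hx]; group
    rcases Z.mem_pairStab_of_conj hab (g := g) hx1 hx (by rw [e]; exact hx) with h | h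
    · exact h
    · refine absurd (Z2.eq_one_of_sq_of_odd hodd hx ?_) hx1
      have := h2 g h.1 h.2 x hx
      rw [e] at this
      nth_rewrite 1 [this]
      group
  · exact congrArg Subtype.val (IsCyclic.commGroup.mul_comm
      (⟨k, hk⟩ : (MulAction.stabilizer G a ⊓ MulAction.stabilizer G b : Subgroup G)) ⟨h, hh⟩)

end Cfsg.Agent.S0739
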