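import Cfsg.Statements.S0740
import Cfsg.Agent.Perm.ZassTwo

set_option autoImplicit false
open Cfsg

namespace Cfsg.Agent.S0740

open Cfsg.Lib.Perm

/-- In a finite Zassenhaus group any two points `a ≠ b` are swapped by an involution; every such involution has exactly one fixed point when the degree is odd and 0 or 2 fixed points when the degree is even; and if the two-point stabiliser has even order, some such involution has exactly 2 fixed points. -/
theorem result {G Ω : Type*} [Group G] [Finite G] [MulAction G Ω] [Fintype Ω] (hZ : Cfsg.IsZassenhausGroup G Ω) {a b : Ω} (hab : a ≠ b) : (∃ s : G, orderOf s = 2 ∧ s • a = b ∧ s • b = a) ∧ (∀ s : G, orderOf s = 2 → s • a = b → s • b = a → (Odd (Fintype.card Ω) → Nat.card (MulAction.fixedBy Ω s) = 1) ∧ (Even (Fintype.card Ω) → Nat.card (MulAction.fixedBy Ω s) = 0 ∨ Nat.card (MulAction.fixedBy Ω s) = 2)) ∧ (Even (Fintype.card Ω) → Even (Nat.card ↥(MulAction.stabilizer G a ⊓ MulAction.stabilizer G b)) → ∃ s : G, orderOf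 s = 2 ∧ s • a = b ∧ s • b = a ∧ Nat.card (MulAction.fixedBy Ω s) = 2) := by
  have hz := Z2.of_zass hZ
  have ord2 : ∀ {s : G}, orderOf s = 2 ↔ s ≠ 1 ∧ s * s = 1 := by
    intro s
    constructor
    · intro h
      refine ⟨fun h1 => by simp [h1] at h, ?_⟩
      rw [← pow_two, ← h, pow_orderOf_eq_one]
    · rintro ⟨h1, h2⟩
      exact orderOf_eq_prime (by rw [pow_two, h2]) h1
  have conj : ∀ {t : G} (k : G), orderOf t = 2 → orderOf (k * t * k⁻¹) = 2 := by
    intro t k ht
    rw [← ht]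
    exact (MulAut.conj k).orderOf_eq t
  refine ⟨?_, fun s hs _ _ => ?_, fun hev hH => ?_⟩
  · have : 2 ∣ Nat.card G := by
      rw [hz.card_group hab, ← mul_assoc]
      exact (Nat.even_mul_pred_self _).two_dvd.mul_right _
    obtain ⟨t, ht⟩ := exists_prime_orderOf_dvd_card' 2 this
    obtain ⟨k, hk⟩ := hz.exists_conj_swap (ord2.mp ht).1 (ord2.mp ht).2 hab
    exact ⟨_, conj k ht, hk⟩
  · have h1 := hz.ncard_fixedBy_le (ord2.mp hs).1
    have h2 := card_modEq_ncard_fixedBy (Ω := Ω) Nat.prime_two (g := s)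
      (by rw [pow_two, (ord2.mp hs).2])
    rw [Nat.card_coe_set_eq]
    rw [Nat.card_eq_fintype_card, Nat.ModEq] at h2
    refine ⟨fun h => ?_, fun h => ?_⟩
    · rw [Nat.odd_iff] at h; omega
    · rw [Nat.even_iff] at h; omega
  · obtain ⟨t, ht⟩ := exists_prime_orderOf_dvd_card' 2 hH.two_dvd
    have ht' : orderOf (t : G) = 2 := by rw [Subgroup.orderOf_coe, ht]
    obtain ⟨k, hk⟩ := hz.exists_conj_swap (ord2.mp ht').1 (ord2.mp ht').2 hab
    refine ⟨_, conj k ht', hk.1, hk.2, ?_⟩
    rw [Nat.card_coe_set_eq, ncard_fixedBy_conj,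
      hz.fixedBy_eq_pair (ord2.mp ht').1 hab t.2.1 t.2.2, Set.ncard_pair hab]

end Cfsg.Agent.S0740
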