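import Cfsg.Statements.S0744
import Cfsg.Agent.S0743
import Mathlib.GroupTheory.Sylow

set_option autoImplicit false
open Cfsg

namespace Cfsg.Agent.S0744

/-- If for some `k > 1` the pointwise stabilisers of all `(k-1)`-subsets have the same order `> 1` and those of all `k`-subsets have the same order, then the group is `(k-1)`-transitive. -/
theorem result {α : Type*} [Fintype α] [DecidableEq α] (G : Subgroup (Equiv.Perm α)) {k : ℕ} (hk : 1 < k) (hkn : k ≤ Fintype.card α) (l m : ℕ) (hl : 1 < l) (hkm1 : ∀ s : Finset α, s.card = k - 1 → Nat.card (fixingSubgroup G (s : Set α)) = l) (hkm : ∀ s : Finset α, s.card = k → Nat.card (fixingSubgroup G (s : Set α)) = m) : MulAction.IsMultiplyPretransitive G α (k - 1) := by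
  -- a prime `p` whose power in `l` exceeds its power in `m`
  have hle : ∀ (s : Finset α) (x : α), fixingSubgroup G ((insert x s : Finset α) : Set α) ≤
      fixingSubgroup G (s : Set α) := fun s x =>
    fixingSubgroup_antitone G α (by rw [Finset.coe_insert]; exact Set.subset_insert _ _)
  obtain ⟨s₀, hs₀⟩ : ∃ s : Finset α, s.card = k - 1 := by
    obtain ⟨t, -, ht⟩ := Finset.exists_subset_card_eq (s := (Finset.univ : Finset α)) (n := k - 1)
      (by rw [Finset.card_univ]; omega)
    exact ⟨t, ht⟩
  have hl0 := hkm1 s₀ hs₀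
  have hnt : Nontrivial (fixingSubgroup G (s₀ : Set α)) := by
    rw [← Finite.one_lt_card_iff_nontrivial, hl0]; exact hl
  obtain ⟨g, hg1⟩ := exists_ne (1 : fixingSubgroup G (s₀ : Set α))
  obtain ⟨x, hx⟩ : ∃ x : α, (g : G) • x ≠ x := by
    by_contra hcon
    push Not at hcon
    apply hg1
    ext x
    exact hcon x
  have hxs : x ∉ s₀ := fun hxs => hx ((mem_fixingSubgroup_iff _).1 g.2 x hxs)
  have hm0 := hkm (insert x s₀) (by rw [Finset.card_insert_of_notMem hxs, hs₀]; omega)
  have hdvd : m ∣ l := by
    rw [← hm0, ← hl0]; exact Subgroup.card_dvd_of_le (hle s₀ x)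
  have hne : m ≠ l := by
    intro e
    have := Subgroup.eq_of_le_of_card_ge (hle s₀ x) (by rw [hm0, hl0, e])
    have hg2 : (g : G) ∈ fixingSubgroup G ((insert x s₀ : Finset α) : Set α) := by
      rw [this]; exact g.2
    exact hx ((mem_fixingSubgroup_iff _).1 hg2 x (by simp))
  obtain ⟨r, hr⟩ := hdvd
  have hr1 : r ≠ 1 := by rintro rfl; exact hne (by omega)
  obtain ⟨p, hp, hpr⟩ := Nat.exists_prime_and_dvd hr1
  have := Fact.mk hp
  have hl0' : l ≠ 0 := by omega
  have hm0' : m ≠ 0 := by rintro rfl; exact hl0' (by omega)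
  have hr0 : r ≠ 0 := by rintro rfl; exact hl0' (by omega)
  have hnd : ¬ p ^ l.factorization p ∣ m := by
    intro hd
    have h1 := (hp.pow_dvd_iff_le_factorization hm0').1 hd
    rw [hr, Nat.factorization_mul hm0' hr0] at h1
    have h2 := hp.factorization_pos_of_dvd hr0 hpr
    simp only [Finsupp.coe_add, Pi.add_apply] at h1
    omega
  apply Cfsg.Agent.S0743.result G hp (by omega) (by omega)
  intro s hs
  obtain ⟨P⟩ : Nonempty (Sylow p (fixingSubgroup G (s : Set α))) := inferInstance
  refine ⟨(P : Subgroup (fixingSubgroup G (s : Set α))).map (Subgroup.subtype _),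
    P.isPGroup'.map _, ?_⟩
  ext y
  rw [MulAction.mem_fixedPoints]
  constructor
  · intro hy
    by_contra hys
    have hys' : y ∉ s := hys
    apply hnd
    have hcard : Nat.card ((P : Subgroup _).map (Subgroup.subtype (fixingSubgroup G (s : Set α)))) =
        p ^ l.factorization p := by
      rw [Subgroup.card_map_of_injective (Subgroup.subtype_injective _), P.card_eq_multiplicity,
        hkm1 s hs]
    rw [← hcard, ← hkm (insert y s) (by rw [Finset.card_insert_of_notMem hys', hs]; omega)]
    apply Subgroup.card_dvd_of_le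
    intro g hg
    rw [mem_fixingSubgroup_iff]
    intro z hz
    rw [Finset.coe_insert] at hz
    rcases hz with rfl | hz
    · exact hy ⟨g, hg⟩
    · obtain ⟨g', -, rfl⟩ := hg
      exact (mem_fixingSubgroup_iff _).1 g'.2 z hz
  · rintro hy ⟨g, g', -, rfl⟩
    exact (mem_fixingSubgroup_iff _).1 g'.2 y hy

end Cfsg.Agent.S0744
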