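import Cfsg.Statements.S0745
import Cfsg.Agent.Perm.MultiHE
import Cfsg.Agent.S0744
import Cfsg.Agent.S0699

set_option autoImplicit false
open Cfsg

namespace Cfsg.Agent.S0745

section Aux
open MulAction Equiv Cfsg.Lib.Perm Cfsg.Lib.Trans

variable {G α : Type*} [Group G] [MulAction G α] [Finite G] [Fintype α] [DecidableEq α]

/-- The permutations of `Δ` induced by `G`. -/
def indU (G : Type*) {α : Type*} [Group G] [MulAction G α] (Δ : Finset α) : Subgroup (Perm Δ) where
  carrier := {σ | ∃ g : G, ∀ x : Δ, g • (x : α) = σ x}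
  one_mem' := ⟨1, fun x => one_smul _ _⟩
  mul_mem' := by
    rintro σ τ ⟨g, hg⟩ ⟨h, hh⟩
    exact ⟨g * h, fun x => by rw [mul_smul, hh, hg, Perm.mul_apply]⟩
  inv_mem' := by
    rintro σ ⟨g, hg⟩
    exact ⟨g⁻¹, fun x => by rw [inv_smul_eq_iff, hg]; simp⟩

omit [Finite G] [Fintype α] [DecidableEq α] in
theorem exists_indU {Δ : Finset α} {g : G} (hg : ∀ x ∈ Δ, g • x ∈ Δ) :
    ∃ σ ∈ indU G Δ, ∀ x : Δ, g • (x : α) = σ x :=
  ⟨Equiv.ofBijective (fun x => ⟨g • x.1, hg x x.2⟩) (Finite.injective_iff_bijective.1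
    fun _ _ h => Subtype.ext (smul_left_cancel g (congrArg Subtype.val h))),
    ⟨g, fun _ => rfl⟩, fun _ => rfl⟩

omit [Finite G] in
theorem card_eq_choose_mul {j : ℕ} (hh : IsPretransitive G (Set.powersetCard α j))
    {Δ : Finset α} (hΔ : Δ.card = j) (hf : fixF G Δ = ⊥) :
    Nat.card G = (Fintype.card α).choose j * Nat.card (indU G Δ) := by
  have h1 := index_stabilizer_of_transitive G (⟨Δ, hΔ⟩ : Set.powersetCard α j)
  rw [Set.powersetCard.card, Nat.card_eq_fintype_card] at h1
  rw [← h1, ← (stabilizer G (⟨Δ, hΔ⟩ : Set.powersetCard α j)).index_mul_card]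
  congr 1
  have hm : ∀ g : G, g ∈ stabilizer G (⟨Δ, hΔ⟩ : Set.powersetCard α j) ↔ ∀ x ∈ Δ, g • x ∈ Δ := by
    intro g
    rw [mem_stabilizer_iff, Subtype.ext_iff]
    change Δ.image (g • ·) = Δ ↔ _
    constructor
    · intro h x hx
      exact h ▸ Finset.mem_image_of_mem _ hx
    · intro h
      exact Finset.eq_of_subset_of_card_le
        (fun w hw => by obtain ⟨γ, hγ, rfl⟩ := Finset.mem_image.1 hw; exact h γ hγ)
        (by rw [Finset.card_image_of_injective _ (MulAction.injective g)])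
  symm
  refine Nat.card_congr (Equiv.ofBijective (fun σ => ⟨σ.2.choose, (hm _).2 fun x hx => by
    rw [σ.2.choose_spec ⟨x, hx⟩]; exact Subtype.prop _⟩) ⟨fun σ τ h => ?_, fun g => ?_⟩)
  · refine Subtype.ext (Equiv.ext fun x => Subtype.ext ?_)
    rw [← σ.2.choose_spec x, ← τ.2.choose_spec x, show σ.2.choose = τ.2.choose from congrArg Subtype.val h]
  · obtain ⟨σ, hσ, h⟩ := exists_indU ((hm g).1 g.2)
    refine ⟨⟨σ, hσ⟩, Subtype.ext ?_⟩
    have : (g : G)⁻¹ * hσ.choose ∈ fixF G Δ := mem_fixF.2 fun x hx => by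
      rw [mul_smul, hσ.choose_spec ⟨x, hx⟩, ← h ⟨x, hx⟩, inv_smul_smul]
    rw [hf, Subgroup.mem_bot, inv_mul_eq_one] at this
    exact this.symm

omit [Finite G] [DecidableEq α] in
theorem card_eq_mul_fixF {t : ℕ} (htr : IsMultiplyPretransitive G α t) {Γ : Finset α}
    (hΓ : Γ.card = t) :
    Nat.card G = (Fintype.card α).choose t * t.factorial * Nat.card (fixF G Γ) := by
  have h := IsMultiplyPretransitive.index_of_fixingSubgroup_eq (G := G) (Γ : Set α)
    (by rwa [Set.ncard_coe_finset, hΓ])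
  rw [Set.ncard_coe_finset, hΓ, Nat.card_eq_fintype_card] at h
  rw [← h, Subgroup.index_mul_card]

omit [Finite G] [Fintype α] [DecidableEq α] in
theorem prime_dvd_indU {Δ : Finset α} {g : G} {p : ℕ} (hp : p.Prime) (hgp : g ^ p = 1)
    (hg : ∀ x ∈ Δ, g • x ∈ Δ) {x : α} (hx : x ∈ Δ) (hgx : g • x ≠ x) : p ∣ Nat.card (indU G Δ) := by
  obtain ⟨σ, hσ, h⟩ := exists_indU hg
  have := Fact.mk hp
  have h1 : ∀ (i : ℕ) (x : Δ), g ^ i • (x : α) = (σ ^ i) x := fun i => by
    induction i with
    | zero => simp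
    | succ i ih => intro x; rw [pow_succ', pow_succ', mul_smul, ih, h, Perm.mul_apply]
  have h2 : orderOf σ = p := orderOf_eq_prime (Equiv.ext fun x => Subtype.ext (by
    rw [← h1, hgp, one_smul]; rfl)) (fun e => hgx (by rw [h ⟨x, hx⟩, e]; rfl))
  rw [← h2]
  exact Subgroup.orderOf_dvd_natCard _ hσ

omit [Fintype α] [DecidableEq α] in
theorem exists_of_prime_dvd {H : Subgroup G} {p : ℕ} (hp : p.Prime) (h : p ∣ Nat.card H) :
    ∃ g ∈ H, g ≠ 1 ∧ g ^ p = 1 := by
  have := Fact.mk hp
  obtain ⟨g, hg⟩ := exists_prime_orderOf_dvd_card' p h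
  rw [← Subgroup.orderOf_coe] at hg
  exact ⟨g, g.2, fun e => hp.one_lt.ne (by rw [← hg, e, orderOf_one]), hg ▸ pow_orderOf_eq_one _⟩

/-- Only the identity fixes more than `t` points. -/
def Sharp (G α : Type*) [Group G] [MulAction G α] (t : ℕ) : Prop :=
  ∀ s : Finset α, t < s.card → fixF G s = ⊥

omit [Finite G] [Fintype α] in
theorem Sharp.mem {t : ℕ} (h : Sharp G α t) {Γ : Finset α} (hΓ : Γ.card = t) {g : G}
    (hg : g ∈ fixF G Γ) (h1 : g ≠ 1) {x : α} (hx : g • x = x) : x ∈ Γ := by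
  by_contra hx'
  have : g ∈ fixF G (insert x Γ) := mem_fixF.2 fun y hy => by
    rcases Finset.mem_insert.1 hy with rfl | hy
    · exact hx
    · exact mem_fixF.1 hg y hy
  rw [h _ (by rw [Finset.card_insert_of_notMem hx']; omega)] at this
  exact h1 this

omit [Finite G] [Fintype α] [DecidableEq α] in
theorem fixF_out {Γ : Finset α} {h : G} (hh : h ∈ fixF G Γ) {p : α} (hp : p ∉ Γ) : h • p ∉ Γ :=
  fun e => hp (smul_left_cancel h (mem_fixF.1 hh _ e) ▸ e)

omit [DecidableEq α] in
theorem ncard_compl (Γ : Finset α) : ((Γ : Set α)ᶜ).ncard + Γ.card = Fintype.card α := by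
  have := Set.ncard_add_ncard_compl (Γ : Set α)
  rw [Set.ncard_coe_finset, Nat.card_eq_fintype_card] at this
  omega

/-- For `t = 3` and even stabiliser order `h` the degree is at most `2h + 3`. -/
theorem Sharp.le_two_mul (hS : Sharp G α 3) (htr : IsMultiplyPretransitive G α 3)
    (hn : 3 ≤ Fintype.card α) {Γ : Finset α} (hΓ : Γ.card = 3) (h2 : 2 ∣ Nat.card (fixF G Γ)) :
    Fintype.card α ≤ 2 * Nat.card (fixF G Γ) + 3 := by
  classical
  obtain ⟨z, hz, hz1, hzz⟩ := exists_of_prime_dvd Nat.prime_two h2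
  rw [pow_two] at hzz
  have hzz' : ∀ y : α, z • z • y = y := fun y => by rw [← mul_smul, hzz, one_smul]
  obtain ⟨x₁, x₂, x₃, h12, h13, h23, rfl⟩ := Finset.card_eq_three.1 hΓ
  have hz' := mem_fixF.1 hz
  have key : ∀ a, a ∉ ({x₁, x₂, x₃} : Finset α) → ∃ w : G, w • x₁ = x₁ ∧ w • x₂ = x₃ ∧
      w • x₃ = x₂ ∧ ∀ y, y ∉ ({x₁, x₂, x₃} : Finset α) → (w • y = y ↔ y = a ∨ y = z • a) := by
    intro a ha
    have ha' := fixF_out hz ha
    have hza : z • a ≠ a := fun e => ha (hS.mem hΓ hz hz1 e)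
    have hc : ({x₁, a, z • a} : Finset α).card = 3 := Finset.card_eq_three.2 ⟨_, _, _, by
      rintro rfl; simp at ha, by rintro e; exact ha' (by simp [← e]), hza.symm, rfl⟩
    have h3 : 2 ∣ Nat.card (fixF G ({x₁, a, z • a} : Finset α)) := by
      obtain ⟨g, hg⟩ := exists_cj_fixF htr (by rwa [Nat.card_eq_fintype_card]) hΓ hc
      rwa [← hg, card_cj]
    obtain ⟨y₀, hy₀, hy₁, hy₂⟩ := exists_of_prime_dvd Nat.prime_two h3
    obtain ⟨w, hw, hw1, hww, hwz⟩ := exists_invol_commute (fixF G ({x₁, a, z • a} : Finset α)) hzz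
      (fun y hy => by
        refine mem_fixF.2 fun u hu => ?_
        rw [mul_smul, mul_smul, mem_fixF.1 hy, hzz']
        simp only [Finset.mem_insert, Finset.mem_singleton] at hu ⊢
        rcases hu with rfl | rfl | rfl
        · exact Or.inl (hz' _ (by simp))
        · simp
        · simp [hzz']) hy₀ hy₁ (by rwa [pow_two] at hy₂)
    have hw' := mem_fixF.1 hw
    have hw₁ : w • x₁ = x₁ := hw' _ (by simp)
    have hw₂ : w • x₂ = x₃ := by
      have e1 : w • x₂ ∈ ({x₁, x₂, x₃} : Finset α) := hS.mem hΓ hz hz1 (by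
        rw [← mul_smul, ← hwz.eq, mul_smul, hz' _ (by simp)])
      simp only [Finset.mem_insert, Finset.mem_singleton] at e1
      rcases e1 with e | e | e
      · exact absurd (smul_left_cancel w (e.trans hw₁.symm)) h12.symm
      · have := hS.mem hc hw hw1 e
        simp only [Finset.mem_insert, Finset.mem_singleton] at this
        rcases this with e | e | e
        · exact absurd e h12.symm
        · exact absurd (by simp [← e]) ha
        · exact absurd (by simp [← e]) ha'
      · exact e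
    refine ⟨w, hw₁, hw₂, by rw [← hw₂, ← mul_smul, hww, one_smul], fun y hy => ⟨fun e => ?_, ?_⟩⟩
    · have := hS.mem hc hw hw1 e
      simp only [Finset.mem_insert, Finset.mem_singleton] at this
      exact this.resolve_left (by rintro rfl; simp at hy)
    · rintro (rfl | rfl) <;> exact hw' _ (by simp)
  choose! w hw using key
  have := Fintype.ofFinite G
  set C := (Finset.univ : Finset α) \ {x₁, x₂, x₃}
  have hC : ∀ a, a ∈ C ↔ a ∉ ({x₁, x₂, x₃} : Finset α) := fun a => by simp only [C, Finset.mem_sdiff, Finset.mem_univ, true_and]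
  have e1 : C.card + 3 = Fintype.card α := by
    rw [Finset.card_sdiff_of_subset (Finset.subset_univ _), hΓ, Finset.card_univ]; omega
  rcases C.eq_empty_or_nonempty with e | ⟨a₀, ha₀⟩
  · rw [e] at e1; simp at e1; omega
  have e2 := Finset.card_le_mul_card_image_of_maps_to (s := C)
    (t := Finset.univ.filter (· ∈ fixF G ({x₁, x₂, x₃} : Finset α)))
    (f := fun a => (w a₀)⁻¹ * w a) (fun a ha => by
      have h1 := hw a ((hC a).1 ha)
      have h0 := hw a₀ ((hC a₀).1 ha₀)
      simp only [Finset.mem_filter, Finset.mem_univ, true_and, mem_fixF, Finset.mem_insert,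
        Finset.mem_singleton, mul_smul, inv_smul_eq_iff]
      rintro x (rfl | rfl | rfl)
      · rw [h1.1, h0.1]
      · rw [h1.2.1, h0.2.1]
      · rw [h1.2.2.1, h0.2.2.1]) 2 (fun b _ => by
      rcases (C.filter fun a => (w a₀)⁻¹ * w a = b).eq_empty_or_nonempty with e | ⟨a, ha⟩
      · rw [e]; simp
      rw [Finset.mem_filter] at ha
      refine le_trans (Finset.card_le_card (t := {a, z • a}) fun y hy => ?_) Finset.card_le_two
      rw [Finset.mem_filter] at hy
      have h1 : w y = w a := mul_left_cancel (hy.2.trans ha.2.symm)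
      have h2 := ((hw y ((hC y).1 hy.1)).2.2.2 y ((hC y).1 hy.1)).2 (Or.inl rfl)
      rw [h1] at h2
      simpa using ((hw a ((hC a).1 ha.1)).2.2.2 y ((hC y).1 hy.1)).1 h2)
  rw [Nat.card_eq_fintype_card, Fintype.card_subtype]
  omega

theorem not_seven {α : Type*} [Fintype α] [DecidableEq α] (G : Subgroup (Perm α))
    (htr : IsMultiplyPretransitive G α 3) (hS : Sharp G α 2) (hn : Fintype.card α = 7)
    (hG : Nat.card G = 210) : False := by
  obtain ⟨z, -, hz1, hzz⟩ := exists_of_prime_dvd (H := (⊤ : Subgroup G)) Nat.prime_two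
    (by rw [Subgroup.card_top, hG]; norm_num)
  have h1 := card_fixFin_modEq (α := α) (t := z) (by rwa [pow_two] at hzz)
  have h2 : (fixFin α z).card ≤ 2 := by
    by_contra h
    have : z ∈ fixF G (fixFin α z) := mem_fixF.2 fun x hx => mem_fixFin.1 hx
    rw [hS _ (not_le.1 h)] at this
    exact hz1 this
  have h3 : (fixFin α z).card = 1 := by unfold Nat.ModEq at h1; omega
  have h4 := Equiv.Perm.sign_of_pow_two_eq_one (σ := (z : Perm α)) (congrArg Subtype.val hzz)
  have h5 : Fintype.card (Function.fixedPoints (z : Perm α)) = 1 := by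
    rw [← h3, Fintype.card_subtype]; rfl
  rw [h5, hn] at h4
  let N := (Perm.sign.comp G.subtype).ker
  have hN : N.index = 2 := by
    rw [Subgroup.index_ker]
    have e1 : Nat.card (Perm.sign.comp G.subtype).range ∣ 2 := by
      have := Subgroup.card_subgroup_dvd_card (Perm.sign.comp G.subtype).range
      rwa [Nat.card_eq_fintype_card (α := ℤˣ), Fintype.card_units_int] at this
    rcases (Nat.dvd_prime Nat.prime_two).1 e1 with e | e
    · rw [Subgroup.card_eq_one] at e
      have : (Perm.sign.comp G.subtype) z ∈ (Perm.sign.comp G.subtype).range := ⟨z, rfl⟩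
      rw [e, Subgroup.mem_bot] at this
      change Perm.sign (z : Perm α) = 1 at this
      rw [h4] at this
      exact absurd this (by decide)
    · exact e
  have hc := N.index_mul_card
  rw [hN, hG] at hc
  have hT := Cfsg.Agent.S0699.result G (by rw [hn]; decide) (by omega) htr N (fun e => by
    rw [e, Subgroup.card_bot] at hc; omega)
  obtain ⟨Γ, -, hΓ⟩ := Finset.exists_subset_card_eq (s := (Finset.univ : Finset α)) (n := 3)
    (by rw [Finset.card_univ]; omega)
  have := card_eq_mul_fixF hT hΓ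
  rw [hn] at this
  norm_num [Nat.choose, Nat.factorial] at this
  omega

theorem not_twentyfour (htr : IsMultiplyPretransitive G α 3) (hS : Sharp G α 3)
    (hn : Fintype.card α = 24) {Γ : Finset α} (hΓ : Γ.card = 3) (h7 : Nat.card (fixF G Γ) = 7) :
    False := by
  obtain ⟨x₁, x₂, x₃, h12, h13, h23, rfl⟩ := Finset.card_eq_three.1 hΓ
  have e1 := card_eq_mul_fixF htr hΓ
  have e2 := card_eq_mul_fixF (isMultiplyPretransitive_of_le (G := G) (α := α) (m := 2) (n := 3)
    (by omega) (by rw [Nat.card_eq_fintype_card]; omega)) (Finset.card_pair h12)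
  rw [hn] at e1 e2
  norm_num [Nat.choose, Nat.factorial] at e1 e2
  set L := fixF G ({x₁, x₂} : Finset α)
  have hL : Nat.card L = 154 := by omega
  have := Fact.mk (show Nat.Prime 11 by norm_num)
  obtain ⟨P⟩ : Nonempty (Sylow 11 L) := inferInstance
  have hP : Nat.card P = 11 := by
    rw [P.card_eq_multiplicity, hL, show 154 = 11 * 14 by norm_num,
      Nat.factorization_mul (by norm_num) (by norm_num)]
    simp [Nat.factorization_eq_zero_of_not_dvd (show ¬ 11 ∣ 14 by norm_num), this.out.factorization_self]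
  have hi : (P : Subgroup L).index = 14 := by
    have := (P : Subgroup L).index_mul_card
    rw [hP, hL] at this
    omega
  have hs : Nat.card (Sylow 11 L) = 1 := by
    have a1 := card_sylow_modEq_one 11 L
    have a2 := hi ▸ P.card_dvd_index
    have a3 := Nat.le_of_dvd (by norm_num) a2
    unfold Nat.ModEq at a1
    interval_cases Nat.card (Sylow 11 L) <;> simp_all
  have : Subsingleton (Sylow 11 L) := (Nat.card_eq_one_iff_unique.1 hs).1
  have hPn := P.normal_of_subsingleton
  have hHL : fixF G ({x₁, x₂, x₃} : Finset α) ≤ L := fun g hg => mem_fixF.2 fun x hx =>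
    mem_fixF.1 hg x (by simp only [Finset.mem_insert, Finset.mem_singleton] at hx ⊢; tauto)
  set H := (fixF G ({x₁, x₂, x₃} : Finset α)).subgroupOf L
  have hH : Nat.card H = 7 := by
    rw [← h7]; exact Nat.card_congr (Subgroup.subgroupOfEquivOfLe hHL).toEquiv
  have := Cfsg.Lib.Class.card_dvd_ncard_of_free (G := ConjAct L) (Ω := L)
    (H.map ConjAct.toConjAct.toMonoidHom) (((P : Subgroup L) : Set L) \ {1}) ?_ ?_
  · rw [Subgroup.card_map_of_injective ConjAct.toConjAct.injective, hH,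
      Set.ncard_sdiff_singleton_of_mem (P : Subgroup L).one_mem,
      show ((P : Subgroup L) : Set L).ncard = 11 from hP] at this
    norm_num at this
  · rintro _ ⟨h, -, rfl⟩ y ⟨hy, hy1⟩
    refine ⟨hPn.conj_mem y hy h, fun e => hy1 ?_⟩
    change h * y * h⁻¹ = 1 at e
    rwa [conj_eq_one_iff] at e
  · rintro _ ⟨h, hh, rfl⟩ y ⟨hy, hy1⟩ e
    change h * y * h⁻¹ = y at e
    by_contra hne
    have hh1 : (h : G) ≠ 1 := fun e => hne (by rw [show h = 1 from Subtype.ext e]; rfl)
    have e3 : (h : G) * y = y * h := by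
      have := congrArg Subtype.val e
      simp only [Subgroup.coe_mul, Subgroup.coe_inv] at this
      rwa [mul_inv_eq_iff_eq_mul] at this
    have hh' : (h : G) ∈ fixF G ({x₁, x₂, x₃} : Finset α) := hh
    have hy' := mem_fixF.1 y.2
    have e4 : (y : G) • x₃ ∈ ({x₁, x₂, x₃} : Finset α) := hS.mem hΓ hh' hh1 (by
      rw [← mul_smul, e3, mul_smul, mem_fixF.1 hh' x₃ (by simp)])
    have e5 : (y : G) • x₃ = x₃ := by
      simp only [Finset.mem_insert, Finset.mem_singleton] at e4
      rcases e4 with e | e | e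
      · exact absurd (smul_left_cancel _ (e.trans (hy' x₁ (by simp)).symm)) h13.symm
      · exact absurd (smul_left_cancel _ (e.trans (hy' x₂ (by simp)).symm)) h23.symm
      · exact e
    have e6 : y ∈ H := mem_fixF.2 fun x hx => by
      simp only [Finset.mem_insert, Finset.mem_singleton] at hx
      rcases hx with rfl | rfl | rfl
      · exact hy' _ (by simp)
      · exact hy' _ (by simp)
      · exact e5
    have e7 := Subgroup.orderOf_dvd_natCard H e6
    have e8 := Subgroup.orderOf_dvd_natCard (P : Subgroup L) hy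
    rw [hH] at e7
    rw [hP] at e8
    exact hy1 (orderOf_eq_one_iff.1 (Nat.eq_one_of_dvd_coprimes (by norm_num) e7 e8))

set_option synthInstance.maxSize 2000 in
set_option synthInstance.maxHeartbeats 200000 in
theorem num1 : ∀ d < 3, ∀ h < 5, ∀ a < 3, d * a = 2 → d ≠ 1 → 3 ≤ h * d → (h * d - 1) ∣ 3 * a →
    (2 ∣ h → 2 ∣ a) → False := by decide +kernel

set_option synthInstance.maxSize 2000 in
set_option synthInstance.maxHeartbeats 200000 in
theorem num2 : ∀ d < 7, ∀ h < 14, ∀ a < 7, d * a = 6 ∧ d ≠ 1 ∧ 3 ≤ h * d ∧ (h * d - 1) ∣ 4 * a ∧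
    (2 ∣ h → 2 ∣ a) ∧ (3 ∣ h → 3 ∣ a) → h * d = 3 ∧ h = 1 := by decide +kernel

set_option synthInstance.maxSize 2000 in
set_option synthInstance.maxHeartbeats 200000 in
theorem num3 : ∀ d < 25, ∀ h < 32, ∀ a < 25, d * a = 24 ∧ d ≠ 1 ∧ 3 ≤ h * d ∧
    (h * d - 1) ∣ 5 * a ∧ (2 ∣ h → h * d ≤ 2 * h ∧ a ≠ 12) ∧ (3 ∣ h → 3 ∣ a) →
    (h * d = 3 ∧ h = 1) ∨ (h * d = 4 ∧ h = 1) ∨ (h * d = 21 ∧ h = 7) ∨
      (h * d = 6 ∧ (h = 1 ∨ h = 3)) := by decide +kernel

end Aux

/-- Let `G` have degree `n` and `3 ≤ k ≤ n`; suppose `G` is `(k-2)`-transitive but not `(k-1)`-transitive, and is `(k-1)`-homogeneous and `k`-homogeneous. Then `k = n` and `G` is the alternating group, or `n = 5, k = 4, |G| = 20`, or `n = 6, k = 5, |G| = 120`, or `n = 9, k = 5, |G| ∈ {504, 1512}`. -/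
theorem result {α : Type*} [Fintype α] [DecidableEq α] (G : Subgroup (Equiv.Perm α)) {k : ℕ} (hk : 3 ≤ k) (hkn : k ≤ Fintype.card α) (ht : MulAction.IsMultiplyPretransitive G α (k - 2)) (hnt : ¬ MulAction.IsMultiplyPretransitive G α (k - 1)) (hh1 : MulAction.IsPretransitive G (Set.powersetCard α (k - 1))) (hh : MulAction.IsPretransitive G (Set.powersetCard α k)) : (k = Fintype.card α ∧ G = alternatingGroup α) ∨ (Fintype.card α = 5 ∧ k = 4 ∧ Nat.card G = 20) ∨ (Fintype.card α = 6 ∧ k = 5 ∧ Nat.card G = 120) ∨ (Fintype.card α = 9 ∧ k = 5 ∧ (Nat.card G = 504 ∨ Nat.card G = 1512)) := by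
  open MulAction Equiv Cfsg.Lib.Perm Cfsg.Lib.Trans in
  obtain ⟨t, rfl⟩ : ∃ t, k = t + 2 := ⟨k - 2, by omega⟩
  replace ht : IsMultiplyPretransitive G α t := ht
  replace hnt : ¬ IsMultiplyPretransitive G α (t + 1) := hnt
  replace hh1 : IsPretransitive G (Set.powersetCard α (t + 1)) := hh1
  have hcj : ∀ {j : ℕ}, IsPretransitive G (Set.powersetCard α j) → ∀ s s' : Finset α, s.card = j →
      s'.card = j → Nat.card (fixF G s) = Nat.card (fixF G s') := by
    intro j h s s' hs hs'
    obtain ⟨g, rfl⟩ := exists_smul_eq_of_homog h hs hs'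
    rw [← cj_fixF, card_cj]
  have hex : ∀ j ≤ Fintype.card α, ∃ s : Finset α, s.card = j := fun j hj => by
    obtain ⟨s, -, hs⟩ := Finset.exists_subset_card_eq (s := (Finset.univ : Finset α)) (n := j) hj
    exact ⟨s, hs⟩
  obtain ⟨Γ, hΓ⟩ := hex t (by omega)
  obtain ⟨Δ, hΔ⟩ := hex (t + 1) (by omega)
  obtain ⟨E, hE⟩ := hex (t + 2) hkn
  have hS : Sharp G α t := by
    have h1 : Nat.card (fixF G Δ) = 1 := by
      by_contra h
      exact hnt (Cfsg.Agent.S0744.result G (k := t + 2) (by omega) hkn _ _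
        (lt_of_le_of_ne Nat.card_pos (Ne.symm h)) (fun s hs => hcj hh1 s Δ hs hΔ)
        (fun s hs => hcj hh s E hs hE))
    intro s hs
    obtain ⟨s', hs', hc⟩ := Finset.exists_subset_card_eq (s := s) (n := t + 1) hs
    have h2 : fixF G s' = ⊥ := Subgroup.card_eq_one.1 ((hcj hh1 s' Δ hc hΔ).trans h1)
    exact eq_bot_iff.2 fun g hg => h2 ▸ mem_fixF.2 fun x hx => mem_fixF.1 hg x (hs' hx)
  rcases hkn.eq_or_lt with hn | hn
  · refine Or.inl ⟨hn, ?_⟩
    have h1 : alternatingGroup α ≤ G := _root_.IsMultiplyPretransitive.alternatingGroup_le α G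
      (by rw [Nat.card_eq_fintype_card, ← hn]; exact ht)
    have : Nontrivial α := Fintype.one_lt_card_iff_nontrivial.1 (by omega)
    have h2 := Subgroup.index_dvd_of_le h1
    rw [alternatingGroup.index_eq_two] at h2
    rcases (Nat.dvd_prime Nat.prime_two).1 h2 with e | e
    · rw [Subgroup.index_eq_one] at e
      subst e
      refine absurd ?_ hnt
      have := Equiv.Perm.isMultiplyPretransitive α (t + 1)
      rw [isMultiplyPretransitive_iff] at this ⊢
      intro x y
      obtain ⟨g, hg⟩ := this x y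
      exact ⟨⟨g, trivial⟩, hg⟩
    · exact Equiv.Perm.eq_alternatingGroup_of_index_eq_two e
  right
  by_cases ht4 : 4 ≤ t
  · exact absurd (lw_step G ht4 (by omega) ht hh1) hnt
  obtain ⟨m, hm⟩ : ∃ m, Fintype.card α = t + m := ⟨Fintype.card α - t, by omega⟩
  have htn : t ≤ Nat.card α := by rw [Nat.card_eq_fintype_card]; omega
  have hfree : ∀ s : Finset α, s.card = t → ∀ h ∈ fixF G s, ∀ y ∈ ((s : Set α)ᶜ), h • y = y → h = 1 :=
    fun s hs h hh y hy e => by
      by_contra h1
      exact hy (hS.mem hs hh h1 e)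
  have F1 : Nat.card (fixF G Γ) ∣ m := by
    have := Cfsg.Lib.Class.card_dvd_ncard_of_free (fixF G Γ) ((Γ : Set α)ᶜ)
      (fun h hh p hp => fixF_out hh hp) (hfree Γ hΓ)
    have e := ncard_compl Γ
    rwa [show ((Γ : Set α)ᶜ).ncard = m by omega] at this
  have F1' : Nat.card (fixF G Γ) ≠ m := by
    intro e
    refine hnt (isMultiplyPretransitive_of_forall_fix_card (by omega) fun s hs x y hx hy => ?_)
    obtain ⟨g, hg⟩ := exists_cj_fixF ht htn hΓ hs
    have e1 : Nat.card (fixF G s) = m := by rw [← hg, card_cj, e]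
    have e2 : stabilizer (fixF G s) x = ⊥ := eq_bot_iff.2 fun h hh =>
      Subtype.ext (hfree s hs h h.2 x hx hh)
    have e3 := index_stabilizer (fixF G s) x
    rw [e2, Subgroup.index_bot, e1] at e3
    have e4 := ncard_compl s
    have e5 : orbit (fixF G s) x = (s : Set α)ᶜ := Set.eq_of_subset_of_ncard_le
      (by rintro _ ⟨h, rfl⟩; exact fixF_out h.2 hx) (by omega)
    obtain ⟨h, hh⟩ : y ∈ orbit (fixF G s) x := e5 ▸ hy
    exact ⟨h, mem_fixF.1 h.2, hh⟩
  have c0 := card_eq_mul_fixF ht hΓ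
  have c1 := fun (Δ : Finset α) (hΔ : Δ.card = t + 1) =>
    card_eq_choose_mul hh1 hΔ (hS Δ (by omega))
  have c2 := card_eq_choose_mul hh hE (hS E (by omega))
  have hpos : ∀ j ≤ t + 2, 0 < (Fintype.card α).choose j := fun j hj => Nat.choose_pos (by omega)
  have ca : ∀ Δ' : Finset α, Δ'.card = t + 1 → Nat.card (indU G Δ') = Nat.card (indU G Δ) :=
    fun Δ' h => Nat.eq_of_mul_eq_mul_left (hpos (t + 1) (by omega)) ((c1 Δ' h).symm.trans (c1 Δ hΔ))
  have r1 := Nat.choose_succ_right_eq (Fintype.card α) t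
  have r2 := Nat.choose_succ_right_eq (Fintype.card α) (t + 1)
  rw [show Fintype.card α - t = m by omega] at r1
  rw [show Fintype.card α - (t + 1) = m - 1 by omega] at r2
  obtain ⟨d, hd⟩ := F1
  have c1' := c1 Δ hΔ
  set h := Nat.card (fixF G Γ) with hh_def
  set a := Nat.card (indU G Δ)
  have hhpos : 0 < h := Nat.card_pos
  have F2 : d * a = (t + 1).factorial := by
    apply Nat.eq_of_mul_eq_mul_left (Nat.mul_pos (hpos t (by omega)) hhpos)
    calc (Fintype.card α).choose t * h * (d * a) = (Fintype.card α).choose t * m * a := by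
          rw [hd]; ring
      _ = (t + 1) * Nat.card G := by rw [← r1, c1']; ring
      _ = _ := by rw [c0, Nat.factorial_succ]; ring
  have F3 : (m - 1) ∣ (t + 2) * a := by
    refine ⟨Nat.card (indU G E), ?_⟩
    apply Nat.eq_of_mul_eq_mul_left (hpos (t + 1) (by omega))
    calc (Fintype.card α).choose (t + 1) * ((t + 2) * a) = (t + 2) * Nat.card G := by
          rw [c1']; ring
      _ = _ := by rw [c2, ← mul_assoc, ← mul_assoc, ← r2]; ring
  have hd1 : d ≠ 1 := fun e => F1' (by rw [hd, e, mul_one])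
  have F4 : 2 ∣ h → 2 ∣ a ∧ (t = 3 → a ≠ 12) := fun h2 => by
    obtain ⟨z, hz, hz1, hzz⟩ := exists_of_prime_dvd Nat.prime_two h2
    obtain ⟨s', hs', hc⟩ := Finset.exists_subset_card_eq (s := Γ) (n := t - 1) (by omega)
    obtain ⟨Δ', h3, x, hx, y, hy, hxy, h4⟩ := exists_swap_of_invol (by rwa [pow_two] at hzz) hz1
      (s := s') fun x hx => mem_fixF.1 hz x (hs' hx)
    have h5 := ca Δ' (by omega)
    refine ⟨h5 ▸ prime_dvd_indU Nat.prime_two hzz
      (fun w hw => by rw [h4 w hw]; exact swap_mem_of_mem hx hy hw) hx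
      (by rw [h4 x hx, swap_apply_left]; exact hxy.symm), fun e e' => ?_⟩
    have h6 := (indU G Δ').index_mul_card
    rw [h5, e', Nat.card_perm, Nat.card_eq_fintype_card, Fintype.card_coe, h3, hc, e] at h6
    have h7 := Equiv.Perm.eq_alternatingGroup_of_index_eq_two (G := indU G Δ')
      (by norm_num [Nat.factorial] at h6; omega)
    have h8 : swap (⟨x, hx⟩ : Δ') ⟨y, hy⟩ ∈ indU G Δ' :=
      ⟨z, fun w => by rw [h4 w w.2, Subtype.val_injective.map_swap]⟩
    rw [h7, Perm.mem_alternatingGroup, Perm.sign_swap (fun e => hxy (congrArg Subtype.val e))] at h8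
    exact absurd h8 (by decide)
  have F5 : 2 ≤ t → 3 ∣ h → 3 ∣ a := fun ht2 h3 => by
    obtain ⟨z, hz, hz1, hzz⟩ := exists_of_prime_dvd Nat.prime_three h3
    obtain ⟨s', hs', hc⟩ := Finset.exists_subset_card_eq (s := Γ) (n := t - 2) (by omega)
    obtain ⟨x, -, hx⟩ := Finset.exists_mem_notMem_of_card_lt_card (s := Γ) (t := Finset.univ)
      (by rw [Finset.card_univ]; omega)
    have hx1 := fixF_out hz hx
    have hx2 := fixF_out hz hx1
    have n1 : z • x ≠ x := fun e => hx (hS.mem hΓ hz hz1 e)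
    have n3 : z • z • z • x = x := by
      rw [← mul_smul, ← mul_smul, ← pow_three', hzz, one_smul]
    have n2 : z • z • x ≠ x := fun e => n1 (by rwa [e] at n3)
    have n4 : z • z • x ≠ z • x := fun e => n1 (smul_left_cancel z e)
    have h5 := ca (insert x (insert (z • x) (insert (z • z • x) s'))) (by
      rw [Finset.card_insert_of_notMem, Finset.card_insert_of_notMem, Finset.card_insert_of_notMem]
      · omega
      · exact fun e => hx2 (hs' e)
      · simp only [Finset.mem_insert, not_or]; exact ⟨n4.symm, fun e => hx1 (hs' e)⟩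
      · simp only [Finset.mem_insert, not_or]; exact ⟨n1.symm, n2.symm, fun e => hx (hs' e)⟩)
    refine h5 ▸ prime_dvd_indU Nat.prime_three hzz (fun w hw => ?_) (Finset.mem_insert_self _ _) n1
    simp only [Finset.mem_insert] at hw ⊢
    rcases hw with rfl | rfl | rfl | hw
    · simp
    · simp
    · exact Or.inl n3
    · rw [mem_fixF.1 hz w (hs' hw)]; tauto
  have hm3 : 3 ≤ h * d := by omega
  have hapos : 0 < a := Nat.card_pos
  have hb := Nat.le_of_dvd (by positivity) F3
  rw [hd] at F3 hb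
  have hd0 : 2 ≤ d := by
    rcases d with _ | _ | d
    · omega
    · omega
    · omega
  have hda : 2 * a ≤ d * a := Nat.mul_le_mul_right a hd0
  have hda' : d ≤ d * a := Nat.le_mul_of_pos_right d hapos
  have hhd : h * 2 ≤ h * d := Nat.mul_le_mul_left h hd0
  obtain rfl | rfl | rfl : t = 1 ∨ t = 2 ∨ t = 3 := by omega
  · norm_num [Nat.factorial] at F2
    exact (num1 d (by omega) h (by omega) a (by omega) F2 hd1 hm3 F3 fun e => (F4 e).1).elim
  · norm_num [Nat.factorial] at F2
    obtain ⟨e1, e2⟩ := num2 d (by omega) h (by omega) a (by omega) ⟨F2, hd1, hm3, F3,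
      (fun e => (F4 e).1), (F5 le_rfl)⟩
    have hn5 : Fintype.card α = 5 := by omega
    refine Or.inl ⟨hn5, rfl, ?_⟩
    rw [c0, hn5, e2]; rfl
  · norm_num [Nat.factorial] at F2
    rcases num3 d (by omega) h (by omega) a (by omega) ⟨F2, hd1, hm3, F3,
      (fun e => ⟨by have := hS.le_two_mul ht (by omega) hΓ e; omega, (F4 e).2 rfl⟩),
      (F5 (by omega))⟩ with ⟨e1, e2⟩ | ⟨e1, e2⟩ | ⟨e1, e2⟩ | ⟨e1, e2⟩
    · have hn5 : Fintype.card α = 6 := by omega
      refine Or.inr (Or.inl ⟨hn5, rfl, ?_⟩)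
      rw [c0, hn5, e2]; rfl
    · have hn5 : Fintype.card α = 7 := by omega
      refine (not_seven G ht (fun s hs => ?_) hn5 (by rw [c0, hn5, e2]; rfl)).elim
      obtain ⟨s', hs', hc⟩ := Finset.exists_subset_card_eq (s := s) (n := 3) hs
      obtain ⟨g, hg⟩ := exists_cj_fixF ht htn hΓ hc
      have h2 : fixF G s' = ⊥ := Subgroup.card_eq_one.1 (by rw [← hg, card_cj]; exact e2)
      exact eq_bot_iff.2 fun g hg => h2 ▸ mem_fixF.2 fun x hx => mem_fixF.1 hg x (hs' hx)
    · exact (not_twentyfour ht hS (by omega) hΓ e2).elim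
    · have hn5 : Fintype.card α = 9 := by omega
      refine Or.inr (Or.inr ⟨hn5, rfl, ?_⟩)
      rcases e2 with e2 | e2
      · left; rw [c0, hn5, e2]; rfl
      · right; rw [c0, hn5, e2]; rfl

end Cfsg.Agent.S0745
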