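import Cfsg.Statements.S0746
import Cfsg.Agent.S0745
import Cfsg.Agent.S0736

set_option autoImplicit false
open Cfsg

namespace Cfsg.Agent.S0746

/-- The Livingstone–Wagner Theorem, first form: a `k`-homogeneous group of degree `n` with `4 ≤ 2k ≤ n` is `(k-1)`-transitive. -/
theorem result {α : Type*} [Fintype α] [DecidableEq α] (G : Subgroup (Equiv.Perm α)) {k : ℕ} (hk : 2 ≤ k) (hkn : 2 * k ≤ Fintype.card α) (hh : MulAction.IsPretransitive G (Set.powersetCard α k)) : MulAction.IsMultiplyPretransitive G α (k - 1) := by
  have h1 : ∀ i, i < k → MulAction.IsPretransitive G (Set.powersetCard α (k - i)) := by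
    intro i
    induction i with
    | zero => intro _; exact hh
    | succ i ih =>
      intro hi
      exact Cfsg.Agent.S0736.result G (k := k - i) (by omega) (ih (by omega)) fun q _ hq => by
        have := Nat.le_of_dvd (by omega) hq
        omega
  have h2 : ∀ j, 1 ≤ j → j ≤ k → MulAction.IsPretransitive G (Set.powersetCard α j) := fun j _ _ => by
    have := h1 (k - j) (by omega)
    rwa [show k - (k - j) = j by omega] at this
  have h3 : ∀ t, t + 1 < k → MulAction.IsMultiplyPretransitive G α (t + 1) := by
    intro t
    induction t with
    | zero =>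
      intro _
      apply Cfsg.Lib.Perm.isMultiplyPretransitive_of_forall_fix
      intro s hs x y _ _
      obtain ⟨g, hg⟩ := Cfsg.Lib.Perm.exists_smul_eq_of_homog (h2 1 le_rfl (by omega))
        (Finset.card_singleton x) (Finset.card_singleton y)
      rw [Finset.image_singleton, Finset.singleton_inj] at hg
      refine ⟨g, fun z hz => ?_, hg⟩
      rw [Finset.card_eq_zero.1 (show s.card = 0 by omega)] at hz
      simp at hz
    | succ t ih =>
      intro ht
      by_contra h
      have := Cfsg.Agent.S0745.result G (k := t + 3) (by omega) (by omega) (ih (by omega)) h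
        (h2 (t + 2) (by omega) (by omega)) (h2 (t + 3) (by omega) (by omega))
      omega
  have := h3 (k - 2) (by omega)
  rwa [show k - 2 + 1 = k - 1 by omega] at this

end Cfsg.Agent.S0746
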