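import Cfsg.Statements.S0756
import Cfsg.Agent.Class.PlusDet

set_option autoImplicit false
open Cfsg

namespace Cfsg.Agent.S0756

/-- Classification of symmetric bilinear forms over finite fields of odd characteristic: if B is non-degenerate symmetric on V of dimension n + 1 and α is a fixed non-square of F, there is an orthogonal basis b_0, ..., b_n with B(b_i, b_i) = 1 for i < n and B(b_n, b_n) ∈ {1, α}. -/
theorem result {F V : Type*} [Field F] [Finite F] [AddCommGroup V] [Module F V] [FiniteDimensional F V] (h2 : (2 : F) ≠ 0) (B : LinearMap.BilinForm F V) (hS : B.IsSymm) (hB : B.Nondegenerate) {n : ℕ} (hn : Module.finrank F V = n + 1) (α : F) (hα : ¬ IsSquare α) : ∃ b : Module.Basis (Fin (n + 1)) F V, (∀ i j, i ≠ j → B (b i) (b j) = 0) ∧ (∀ i, i ≠ Fin.last n → B (b i) (b i) = 1) ∧ (B (b (Fin.last n)) (b (Fin.last n)) = 1 ∨ B (b (Fin.last n)) (b (Fin.last n)) = α) := by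
  induction n generalizing V with
  | zero =>
    let b₀ := Module.finBasisOfFinrankEq F V hn
    have hc : B (b₀ 0) (b₀ 0) ≠ 0 := by
      intro h
      apply b₀.ne_zero 0
      refine hB.1 _ fun y => ?_
      rw [← b₀.sum_repr y]
      simp [h]
    obtain ⟨s, hs0, hs⟩ : ∃ s : F, s ≠ 0 ∧
        (s ^ 2 * B (b₀ 0) (b₀ 0) = 1 ∨ s ^ 2 * B (b₀ 0) (b₀ 0) = α) := by
      by_cases h : IsSquare (B (b₀ 0) (b₀ 0))
      · obtain ⟨r, hr⟩ := h
        have hr0 : r ≠ 0 := by rintro rfl; exact hc (by simpa using hr)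
        exact ⟨r⁻¹, inv_ne_zero hr0, Or.inl (by rw [hr]; field_simp)⟩
      · obtain ⟨r, hr⟩ := Cfsg.Lib.Known.isSquare_mul_of_not_isSquare h hα
        have hr0 : r ≠ 0 := by
          rintro rfl
          have : α = 0 := by simpa [hc] using hr
          exact hα (this ▸ IsSquare.zero)
        refine ⟨r / B (b₀ 0) (b₀ 0), div_ne_zero hr0 hc, Or.inr ?_⟩
        field_simp
        linear_combination -hr
    refine ⟨b₀.unitsSMul fun _ => Units.mk0 s hs0, fun i j hij => ?_, fun i hi => ?_, ?_⟩
    · exact (hij (Subsingleton.elim (α := Fin 1) i j)).elim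
    · exact (hi (Subsingleton.elim (α := Fin 1) i _)).elim
    · simpa [Module.Basis.unitsSMul_apply, Units.smul_def, pow_two, mul_assoc] using hs
  | succ n ih =>
    obtain ⟨x, hx⟩ := Cfsg.Lib.Known.exists_quad_eq
      (Cfsg.Lib.Class.nondegenerate_polar_toQuadraticMap h2 hS hB) (by omega) 1
    have hx1 : B x x = 1 := hx
    have hx0 : B x x ≠ 0 := by rw [hx1]; exact one_ne_zero
    have hc := LinearMap.BilinForm.isCompl_span_singleton_orthogonal hx0
    rw [← Submodule.finrank_add_eq_of_isCompl hc.symm,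
      finrank_span_singleton (LinearMap.BilinForm.ne_zero_of_not_isOrtho_self x hx0)] at hn
    obtain ⟨v', h1, h3, h4⟩ := ih (B.restrict (B.orthogonal (F ∙ x))) (hS.restrict _)
      (LinearMap.BilinForm.restrict_nondegenerate_orthogonal_spanSingleton B hB hS.isRefl hx0)
      (Nat.succ.inj hn)
    have horth : ∀ y ∈ B.orthogonal (F ∙ x), B x y = 0 := fun y hy =>
      hy x (Submodule.mem_span_singleton_self x)
    let b := Module.Basis.mkFinCons x v'
      (fun c y hy h => by
        have := congrArg (B x) h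
        simpa [hx1, horth y hy] using this)
      (fun y => ⟨- B x y, fun z hz => by
        obtain ⟨c, rfl⟩ := Submodule.mem_span_singleton.1 hz
        simp [hx1]⟩)
    have b0 : b 0 = x := by simp [b]
    have bs : ∀ i, b (Fin.succ i) = v' i := fun i => by simp [b]
    refine ⟨b, fun i j => ?_, fun i => ?_, ?_⟩
    · refine Fin.cases ?_ (fun i => ?_) i <;> refine Fin.cases ?_ (fun j => ?_) j <;> intro hij
      · exact (hij rfl).elim
      · rw [b0, bs, horth _ (v' j).2]
      · rw [b0, bs, ← hS.eq, horth _ (v' i).2]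
      · rw [bs, bs]
        exact h1 i j fun h => hij (congrArg _ h)
    · refine Fin.cases ?_ (fun i => ?_) i <;> intro hi
      · rw [b0, hx1]
      · rw [bs]
        exact h3 i fun h => hi (by rw [h]; rfl)
    · rw [← Fin.succ_last, bs]
      exact h4

end Cfsg.Agent.S0756
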