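import Cfsg.Statements.S0757
import Mathlib

set_option autoImplicit false
open Cfsg

namespace Cfsg.Agent.S0757

theorem discr_wss {F : Type*} [Field F] [Invertible (2 : F)] {ι : Type*} [Fintype ι] [DecidableEq ι]
    (w : ι → F) : QuadraticForm.discr' (QuadraticMap.weightedSumSquares F w) = ∏ i, w i := by
  have h2 : (2 : F) ≠ 0 := Invertible.ne_zero 2
  have : QuadraticForm.toMatrix' (QuadraticMap.weightedSumSquares F w) = Matrix.diagonal w := by
    ext i j
    rw [QuadraticForm.toMatrix', LinearMap.toMatrix₂'_apply, QuadraticMap.associated_apply]
    simp only [QuadraticMap.weightedSumSquares_apply, Pi.add_apply, smul_eq_mul,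
      ← Finset.sum_sub_distrib]
    by_cases hij : i = j
    · subst hij
      rw [Finset.sum_eq_single i]
      · simp
        field_simp
        ring
      · intro k _ hk
        simp [hk]
      · simp
    · rw [Finset.sum_eq_zero]
      · simp [hij]
      · intro k _
        by_cases hi : k = i
        · subst hi; simp [hij]
        · by_cases hj : k = j
          · subst hj; simp [hi]
          · simp [hi, hj]
  rw [QuadraticForm.discr', this, Matrix.det_diagonal]

/-- The two diagonal forms Σ x_i^2 and Σ_(i<n) x_i^2 + α x_n^2 on F^(n+1), with α a non-square and 2 ≠ 0 in F, are inequivalent quadratic forms (so over a finite field of odd order there are exactly two classes of non-singular symmetric bilinear forms in each dimension). -/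
theorem result {F : Type*} [Field F] (h2 : (2 : F) ≠ 0) (n : ℕ) (α : F) (hα : ¬ IsSquare α) : ¬ (QuadraticMap.weightedSumSquares F (fun _ : Fin (n + 1) => (1 : F))).Equivalent (QuadraticMap.weightedSumSquares F (fun i : Fin (n + 1) => if i = Fin.last n then α else (1 : F))) := by
  rintro ⟨e⟩
  have : Invertible (2 : F) := invertibleOfNonzero h2
  have h := QuadraticForm.discr'_comp (Q := QuadraticMap.weightedSumSquares F
    (fun i : Fin (n + 1) => if i = Fin.last n then α else (1 : F))) e.toLinearEquiv.toLinearMap
  have h1 : (QuadraticMap.weightedSumSquares F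
      (fun i : Fin (n + 1) => if i = Fin.last n then α else (1 : F))).comp
      e.toLinearEquiv.toLinearMap =
      QuadraticMap.weightedSumSquares F (fun _ : Fin (n + 1) => (1 : F)) := by
    ext v
    exact e.map_app v
  rw [h1, discr_wss, discr_wss] at h
  simp only [Finset.prod_const_one, Finset.prod_ite_eq', Finset.mem_univ, if_true] at h
  apply hα
  set d := (LinearMap.toMatrix' e.toLinearEquiv.toLinearMap).det
  have hd : d ≠ 0 := by
    intro h0
    rw [h0] at h
    simp at h
  refine ⟨d⁻¹, ?_⟩
  field_simp
  linear_combination -h

end Cfsg.Agent.S0757
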