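import Cfsg.Statements.S0758
import Mathlib

set_option autoImplicit false
open Cfsg

namespace Cfsg.Agent.S0758

theorem isSquare_mul_of_not {F : Type*} [Field F] [Fintype F] {a b : F} (ha : ¬ IsSquare a)
    (hb : ¬ IsSquare b) : IsSquare (a * b) := by
  classical
  have ha0 : a ≠ 0 := by rintro rfl; exact ha IsSquare.zero
  have hb0 : b ≠ 0 := by rintro rfl; exact hb IsSquare.zero
  rw [← quadraticChar_neg_one_iff_not_isSquare] at ha hb
  rw [← quadraticChar_one_iff_isSquare (mul_ne_zero ha0 hb0), map_mul, ha, hb]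
  norm_num

theorem isotropic_iff {F : Type*} [Field F] {c : F} (hc : c ≠ 0) :
    (∃ x y : F, (x ≠ 0 ∨ y ≠ 0) ∧ x ^ 2 + c * y ^ 2 = 0) ↔ IsSquare (-c) := by
  constructor
  · rintro ⟨x, y, hxy, h⟩
    have hy : y ≠ 0 := by
      rintro rfl
      simp at h hxy
      exact hxy h
    refine ⟨x / y, ?_⟩
    field_simp
    linear_combination -h
  · rintro ⟨r, hr⟩
    exact ⟨r, 1, Or.inr one_ne_zero, by linear_combination -hr⟩

/-- For a finite field F of odd order q and a non-square α: the form x² + y² is isotropic iff q ≡ 1 mod 4, and the form x² + α y² is isotropic iff q ≡ 3 mod 4. -/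
theorem result {F : Type*} [Field F] [Fintype F] (h2 : (2 : F) ≠ 0) (α : F) (hα : ¬ IsSquare α) : ((∃ x y : F, (x ≠ 0 ∨ y ≠ 0) ∧ x ^ 2 + y ^ 2 = 0) ↔ Fintype.card F % 4 = 1) ∧ ((∃ x y : F, (x ≠ 0 ∨ y ≠ 0) ∧ x ^ 2 + α * y ^ 2 = 0) ↔ Fintype.card F % 4 = 3) := by
  have hodd : Fintype.card F % 2 = 1 := by
    by_contra h1
    have h3 : ringChar F = 2 := FiniteField.even_card_iff_char_two.2 (by omega)
    apply h2
    have := ringChar.charP F
    rw [h3] at this
    exact_mod_cast CharP.cast_eq_zero F 2
  have hα0 : α ≠ 0 := by rintro rfl; exact hα IsSquare.zero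
  have h1 := FiniteField.isSquare_neg_one_iff (F := F)
  constructor
  · have := isotropic_iff (F := F) one_ne_zero
    simp only [one_mul] at this
    rw [this, h1]
    omega
  · rw [isotropic_iff hα0]
    constructor
    · intro h
      by_contra h3
      apply hα
      have := (h1.2 h3).mul h
      simpa using this
    · intro h3
      have := isSquare_mul_of_not (a := -1) (b := α) (by rw [h1]; simpa using h3) hα
      simpa using this

end Cfsg.Agent.S0758
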