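import Cfsg.Statements.S0759
import Cfsg.Agent.Class.PlusDet

set_option autoImplicit false
open Cfsg

namespace Cfsg.Agent.S0759

/-- Type of the orthonormal form: over a finite field of odd order q and for m ≥ 1, the quadratic form Σ_(i<2m) x_i² on F^(2m) admits an m-dimensional subspace on which it vanishes identically if and only if it is not the case that q ≡ 3 (mod 4) and m is odd. -/
theorem result {F : Type*} [Field F] [Fintype F] (h2 : (2 : F) ≠ 0) (m : ℕ) (hm : 1 ≤ m) : (∃ W : Submodule F (Fin (2 * m) → F), Module.finrank F W = m ∧ ∀ w ∈ W, ∑ i, w i ^ 2 = 0) ↔ ¬ (Fintype.card F % 4 = 3 ∧ Odd m) := by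
  let B : LinearMap.BilinForm F (Fin (2 * m) → F) := Matrix.toBilin' 1
  have hB : ∀ u v, B u v = ∑ i, u i * v i := fun u v => by
    simp [B, Matrix.toBilin'_apply', dotProduct]
  have hS : B.IsSymm := ⟨fun u v => by simp [hB, mul_comm]⟩
  have hN : B.Nondegenerate := LinearMap.BilinForm.nondegenerate_toBilin'_of_det_ne_zero' _ (by simp)
  have key := Cfsg.Lib.Class.exists_isotropic_half_iff_isSquare h2 (Pi.basisFun F (Fin (2 * m)))
    hS hN (m := m) (by simp)
  have hdet : (LinearMap.BilinForm.toMatrix (Pi.basisFun F (Fin (2 * m))) B).det = 1 := by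
    rw [LinearMap.BilinForm.toMatrix_basisFun]
    simp [B]
  rw [hdet, mul_one] at key
  have e1 : (∃ W : Submodule F (Fin (2 * m) → F), Module.finrank F W = m ∧
      ∀ w ∈ W, ∑ i, w i ^ 2 = 0) ↔ (∃ X : Submodule F (Fin (2 * m) → F),
        Module.finrank F X = m ∧ ∀ x ∈ X, ∀ y ∈ X, B x y = 0) := by
    refine exists_congr fun W => and_congr_right fun _ => ⟨fun h x hx y hy => ?_, fun h w hw => ?_⟩
    · have h1 := h _ (W.add_mem hx hy)
      have h3 : ∑ i, (x + y) i ^ 2 = ∑ i, x i ^ 2 + ∑ i, y i ^ 2 + 2 * ∑ i, x i * y i := by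
        simp only [Pi.add_apply, Finset.mul_sum, ← Finset.sum_add_distrib]
        exact Finset.sum_congr rfl fun i _ => by ring
      rw [h3, h x hx, h y hy] at h1
      rw [hB]
      simpa [h2] using h1
    · simpa [hB, pow_two] using h w hw w hw
  rw [e1, key]
  rcases Nat.even_or_odd m with hm | hm
  · simp [hm.neg_one_pow, Nat.not_odd_iff_even.2 hm]
  · simp [hm.neg_one_pow, hm, FiniteField.isSquare_neg_one_iff]

end Cfsg.Agent.S0759
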