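import Cfsg.Statements.S0760
import Cfsg.Agent.Known.QuadNormal

set_option autoImplicit false
open Cfsg

namespace Cfsg.Agent.S0760

theorem aux {F V : Type*} [Field F] [AddCommGroup V] [Module F V] (Q : QuadraticForm F V)
    (W₁ : Submodule F V) (h₁ : ∀ w ∈ W₁, Q w = 0)
    (hmax₁ : ∀ W : Submodule F V, W₁ ≤ W → (∀ w ∈ W, Q w = 0) → W = W₁) (v : V)
    (hv : ∀ x ∈ W₁, QuadraticMap.polar Q x v = 0) (h0 : Q v = 0) : v ∈ W₁ := by
  rw [← hmax₁ (W₁ ⊔ Submodule.span F {v}) le_sup_left]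
  · exact Submodule.mem_sup_right (Submodule.mem_span_singleton_self v)
  · intro w hw
    obtain ⟨x, hx, y, hy, rfl⟩ := Submodule.mem_sup.1 hw
    obtain ⟨c, rfl⟩ := Submodule.mem_span_singleton.1 hy
    rw [Cfsg.Lib.Class.quad_add, Cfsg.Lib.Class.quad_smul, h₁ x hx, h0]
    simp [hv x hx]

/-- Witt index is well defined: if Q is a quadratic form on a finite-dimensional space V over a finite field with non-degenerate polar form, and W₁, W₂ are subspaces on which Q vanishes that are maximal with this property, then W₁ and W₂ have the same dimension, and twice this dimension is at most dim V. -/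
theorem result {F V : Type*} [Field F] [Finite F] [AddCommGroup V] [Module F V] [FiniteDimensional F V] (Q : QuadraticForm F V) (hQ : (QuadraticMap.polarBilin Q).Nondegenerate) (W₁ W₂ : Submodule F V) (h₁ : ∀ w ∈ W₁, Q w = 0) (h₂ : ∀ w ∈ W₂, Q w = 0) (hmax₁ : ∀ W : Submodule F V, W₁ ≤ W → (∀ w ∈ W, Q w = 0) → W = W₁) (hmax₂ : ∀ W : Submodule F V, W₂ ≤ W → (∀ w ∈ W, Q w = 0) → W = W₂) : Module.finrank F W₁ = Module.finrank F W₂ ∧ 2 * Module.finrank F W₁ ≤ Module.finrank F V := by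
  exact ⟨le_antisymm (Cfsg.Lib.Known.finrank_le_of_maximal_singular hQ (aux Q W₂ h₂ hmax₂) h₁)
    (Cfsg.Lib.Known.finrank_le_of_maximal_singular hQ (aux Q W₁ h₁ hmax₁) h₂),
    Cfsg.Lib.Known.two_mul_finrank_le_of_singular hQ h₁⟩

end Cfsg.Agent.S0760
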