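import Cfsg.Statements.S0762
import Cfsg.Agent.Class.Witt

set_option autoImplicit false
open Cfsg

namespace Cfsg.Agent.S0762

/-- In characteristic two over a finite field, a quadratic form on a space of dimension at least 3 vanishes on some non-zero vector. -/
theorem result {F V : Type*} [Field F] [Finite F] [CharP F 2] [AddCommGroup V] [Module F V] [FiniteDimensional F V] (Q : QuadraticForm F V) (h3 : 3 ≤ Module.finrank F V) : ∃ v : V, v ≠ 0 ∧ Q v = 0 := by
  have : Nontrivial V := Module.nontrivial_of_finrank_pos (R := F) (by omega)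
  obtain ⟨u, hu⟩ := exists_ne (0 : V)
  by_cases hQu : Q u = 0
  · exact ⟨u, hu, hQu⟩
  have h2 : (2 : F) = 0 := CharTwo.two_eq_zero
  let f : V →ₗ[F] F := QuadraticMap.polarBilin Q u
  have hk : 2 ≤ Module.finrank F (LinearMap.ker f) := by
    have h1 := LinearMap.finrank_range_add_finrank_ker f
    have h4 : Module.finrank F (LinearMap.range f) ≤ 1 := by
      simpa using Submodule.finrank_le (LinearMap.range f)
    omega
  have hnle : ¬ LinearMap.ker f ≤ Submodule.span F {u} := by
    intro h
    have := Submodule.finrank_mono h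
    rw [finrank_span_singleton hu] at this
    omega
  obtain ⟨v, hv, hvu⟩ := SetLike.not_le_iff_exists.1 hnle
  have hv' : QuadraticMap.polar Q u v = 0 := hv
  have := Fintype.ofFinite F
  obtain ⟨a, ha⟩ := FiniteField.isSquare_of_char_two (ringChar.eq F 2) (Q v / Q u)
  refine ⟨a • u + v, fun h => hvu ?_, ?_⟩
  · rw [eq_neg_of_add_eq_zero_right h]
    exact Submodule.neg_mem _ (Submodule.smul_mem _ _ (Submodule.mem_span_singleton_self u))
  · rw [Cfsg.Lib.Class.quad_add, Cfsg.Lib.Class.quad_smul, QuadraticMap.polar_smul_left, hv',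
      pow_two, ← ha, div_mul_cancel₀ _ hQu]
    linear_combination (Q v) * h2

end Cfsg.Agent.S0762
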