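import Cfsg.Statements.S0763
import Cfsg.Agent.Class.Witt

set_option autoImplicit false
open Cfsg

namespace Cfsg.Agent.S0763

/-- Binary quadratic forms in characteristic two over a finite field: if Q is a quadratic form on a 2-dimensional space whose polar form is non-degenerate, then either there are vectors v, w with Q v = Q w = 0 and polar value 1 (Q is xy in these coordinates), or there are v, w and μ with Q v = 1, Q w = μ, polar value 1 and x² + x + μ without roots in F (Q is x² + xy + μy²). -/
theorem result {F V : Type*} [Field F] [Finite F] [CharP F 2] [AddCommGroup V] [Module F V] (Q : QuadraticForm F V) (h2 : Module.finrank F V = 2) (hQ : (QuadraticMap.polarBilin Q).Nondegenerate) : (∃ v w : V, LinearIndependent F ![v, w] ∧ Q v = 0 ∧ Q w = 0 ∧ QuadraticMap.polar Q v w = 1) ∨ (∃ (v w : V) (μ : F), LinearIndependent F ![v, w] ∧ (∀ x : F, x ^ 2 + x + μ ≠ 0) ∧ Q v = 1 ∧ Q w = μ ∧ QuadraticMap.polar Q v w = 1) := by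
  have : FiniteDimensional F V := Module.finite_of_finrank_pos (by omega)
  have h0 : (2 : F) = 0 := CharTwo.two_eq_zero
  have hli : ∀ v w : V, QuadraticMap.polar Q v w = 1 → LinearIndependent F ![v, w] := by
    intro v w h
    rw [LinearIndependent.pair_iff]
    intro s t hst
    have e1 := congrArg (QuadraticMap.polar Q v) hst
    have e2 := congrArg (QuadraticMap.polar Q w) hst
    simp only [QuadraticMap.polar_add_right, QuadraticMap.polar_smul_right,
      Cfsg.Lib.Class.polar_self_eq, h0, QuadraticMap.polar_comm Q w v, h,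
      QuadraticMap.polar_zero_right] at e1 e2
    exact ⟨by simpa using e2, by simpa using e1⟩
  by_cases hiso : ∃ v : V, v ≠ 0 ∧ Q v = 0
  · obtain ⟨v, hv, hQv⟩ := hiso
    obtain ⟨w, hw, hvw, -⟩ := Cfsg.Lib.Class.exists_singular_partner Q hQ ⊥ (d := v) (by simpa)
      hQv (by simp)
    exact Or.inl ⟨v, w, hli v w hvw, hQv, hw, hvw⟩
  · right
    push Not at hiso
    have : Nontrivial V := Module.nontrivial_of_finrank_pos (R := F) (by omega)
    obtain ⟨u, hu⟩ := exists_ne (0 : V)
    have := Fintype.ofFinite F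
    obtain ⟨c, hc⟩ := FiniteField.isSquare_of_char_two (ringChar.eq F 2) (Q u)
    have hc0 : c ≠ 0 := by
      rintro rfl
      exact hiso u hu (by simpa using hc)
    have hv : Q (c⁻¹ • u) = 1 := by
      rw [Cfsg.Lib.Class.quad_smul, hc]; field_simp
    obtain ⟨w, -, hw⟩ := Cfsg.Lib.Class.exists_polar_eq_one Q hQ ⊥ (x := c⁻¹ • u)
      (by simp [hc0, hu])
    refine ⟨c⁻¹ • u, w, Q w, hli _ _ hw, fun x hx => ?_, hv, rfl, hw⟩
    refine hiso (x • c⁻¹ • u + w) (fun h => ?_) ?_
    · exact one_ne_zero ((LinearIndependent.pair_iff.1 (hli _ _ hw) x 1 (by simpa using h)).2)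
    · rw [Cfsg.Lib.Class.quad_add, Cfsg.Lib.Class.quad_smul, hv, QuadraticMap.polar_smul_left, hw]
      simp only [smul_eq_mul]
      linear_combination hx

end Cfsg.Agent.S0763
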