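import Cfsg.Statements.S0766
import Cfsg.Agent.Class.SpCore

set_option autoImplicit false
open Cfsg

namespace Cfsg.Agent.S0766

open Cfsg.Lib.Class

/-- The subgroup generated by the symplectic transvections acts transitively on ordered pairs (u, v) with f(u, v) = 1. -/
theorem result {F : Type*} [Field F] (m : ℕ) (u v u' v' : Fin m ⊕ Fin m → F) (h : Cfsg.sympForm m F u v = 1) (h' : Cfsg.sympForm m F u' v' = 1) : ∃ A ∈ Subgroup.closure {A : Matrix.symplecticGroup (Fin m) F | ∃ (w : Fin m ⊕ Fin m → F) (c : F), (A : Matrix (Fin m ⊕ Fin m) (Fin m ⊕ Fin m) F) = Cfsg.sympTransvection m w c}, (A : Matrix (Fin m ⊕ Fin m) (Fin m ⊕ Fin m) F).mulVec u = u' ∧ (A : Matrix (Fin m ⊕ Fin m) (Fin m ⊕ Fin m) F).mulVec v = v' := by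
  have htop : Subgroup.closure {A : Matrix.symplecticGroup (Fin m) F | ∃ (w : Fin m ⊕ Fin m → F) (c : F), (A : Matrix (Fin m ⊕ Fin m) (Fin m ⊕ Fin m) F) = Cfsg.sympTransvection m w c} = ⊤ :=
    symplecticGroup_eq_top_of_transvection_mem m _ fun v c => Subgroup.subset_closure ⟨v, c, rfl⟩
  rw [htop]
  have hA := sympBilin_isAlt (F := F) m
  rw [← sympBilin_apply] at h h'
  obtain ⟨g, hg, h1, h2⟩ := SpB_exists_pair (sympBilin_nondegenerate m) hA (x := u) (y := v)
    (x' := u') (y' := v') (by rintro rfl; simp at h) (by rintro rfl; simp at h')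
    (notMem_span_of_alt_ne_zero hA (by rw [h]; exact one_ne_zero))
    (notMem_span_of_alt_ne_zero hA (by rw [h']; exact one_ne_zero)) (h.trans h'.symm)
  exact ⟨(spEquivSpB m F).symm ⟨g, hg⟩, trivial, by rw [spEquivSpB_symm_mulVec]; exact h1,
    by rw [spEquivSpB_symm_mulVec]; exact h2⟩

end Cfsg.Agent.S0766
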