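import Cfsg.Statements.S0767
import Cfsg.Agent.Class.SpCore

set_option autoImplicit false
open Cfsg

namespace Cfsg.Agent.S0767

open Cfsg.Lib.Class

/-- The root group of a point: T_v(c) T_v(d) = T_v(c + d), and for A in the symplectic group with A v = a v, the conjugate A T_v(c) A⁻¹ is again some T_v(d). -/
theorem result {F : Type*} [Field F] (m : ℕ) (v : Fin m ⊕ Fin m → F) : (∀ c d : F, Cfsg.sympTransvection m v c * Cfsg.sympTransvection m v d = Cfsg.sympTransvection m v (c + d)) ∧ ∀ (A : Matrix (Fin m ⊕ Fin m) (Fin m ⊕ Fin m) F) (a : F), A ∈ Matrix.symplecticGroup (Fin m) F → A.mulVec v = a • v → ∀ c : F, ∃ d : F, A * Cfsg.sympTransvection m v c * A⁻¹ = Cfsg.sympTransvection m v d := by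
  have hA := sympBilin_isAlt (F := F) m
  refine ⟨fun c d => matrix_ext_mulVec fun x => ?_, fun A a hAm hv c => ⟨a ^ 2 * c, ?_⟩⟩
  · rw [← Matrix.mulVec_mulVec]
    simp only [sympTransvection_mulVec']
    rw [← LinearEquiv.mul_apply, altTEquiv_mul]
  · have h1 := spT_conj hA (spEquivSpB m F ⟨A, hAm⟩) v c
    rw [spEquivSpB_apply] at h1
    simp only at h1
    rw [hv, spT_smul] at h1
    have h2 := congrArg (fun g => (((spEquivSpB m F).symm g : Matrix.symplecticGroup (Fin m) F) :
      Matrix (Fin m ⊕ Fin m) (Fin m ⊕ Fin m) F)) h1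
    simp only [map_mul, map_inv, MulEquiv.symm_apply_apply, Submonoid.coe_mul,
      coe_spEquivSpB_symm_spT, SymplecticGroup.coe_inv'] at h2
    exact h2

end Cfsg.Agent.S0767
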