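import Cfsg.Statements.S0769


set_option autoImplicit false
open Cfsg

namespace Cfsg.Agent.S0769

theorem card_pairs (n : ℕ) : Fintype.card {p : Fin n × Fin n // p.2 < p.1} = n * (n - 1) / 2 := by
  have e : {p : Fin n × Fin n // p.2 < p.1} ≃ Σ i : Fin n, Fin i :=
    { toFun := fun p => ⟨p.1.1, ⟨p.1.2, p.2⟩⟩
      invFun := fun s => ⟨(s.1, ⟨s.2, s.2.2.trans s.1.2⟩), s.2.2⟩
      left_inv := fun _ => rfl
      right_inv := fun _ => rfl }
  rw [Fintype.card_congr e, Fintype.card_sigma]
  simp only [Fintype.card_fin]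
  rw [Fin.sum_univ_eq_sum_range (fun i => i) n, Finset.sum_range_id]

open Classical in
/-- The lower triangular matrix with given diagonal and given entries below the diagonal. -/
noncomputable def mk {F : Type*} [Field F] {n : ℕ} (d : Fin n → Fˣ)
    (a : {p : Fin n × Fin n // p.2 < p.1} → F) : Matrix (Fin n) (Fin n) F :=
  fun i j => if h : j < i then a ⟨(i, j), h⟩ else if i = j then d i else 0

theorem det_lower {F : Type*} [Field F] {n : ℕ} (M : Matrix (Fin n) (Fin n) F)
    (h : ∀ i j : Fin n, i < j → M i j = 0) : M.det = ∏ i, M i i :=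
  Matrix.det_of_isLowerTriangular M fun i j hij => h i j hij

/-- Order of the Borel subgroup of GL_n(q): the invertible lower-triangular n × n matrices over a field with q elements number q^(n(n-1)/2) (q-1)^n (unitriangular part times the diagonal torus). -/
theorem result {F : Type*} [Field F] [Fintype F] {q : ℕ} (hF : Fintype.card F = q) (n : ℕ) : Nat.card {g : Matrix.GeneralLinearGroup (Fin n) F // ∀ i j : Fin n, i < j → (g : Matrix (Fin n) (Fin n) F) i j = 0} = q ^ (n * (n - 1) / 2) * (q - 1) ^ n := by
  classical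
  have hmk : ∀ (d : Fin n → Fˣ) (a : {p : Fin n × Fin n // p.2 < p.1} → F) (i j : Fin n),
      i < j → mk d a i j = 0 := fun d a i j hij => by
    simp [mk, hij.ne, hij.not_gt]
  have hdet : ∀ (d : Fin n → Fˣ) (a : {p : Fin n × Fin n // p.2 < p.1} → F),
      (mk d a).det ≠ 0 := fun d a => by
    rw [det_lower _ (hmk d a), Finset.prod_ne_zero_iff]
    intro i _
    simp [mk]
  have hd : ∀ g : {g : Matrix.GeneralLinearGroup (Fin n) F // ∀ i j : Fin n, i < j →
      (g : Matrix (Fin n) (Fin n) F) i j = 0}, ∀ i, (g.1 : Matrix (Fin n) (Fin n) F) i i ≠ 0 := by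
    intro g i
    have := g.1.det_ne_zero
    rw [det_lower _ g.2, Finset.prod_ne_zero_iff] at this
    exact this i (Finset.mem_univ i)
  let e : {g : Matrix.GeneralLinearGroup (Fin n) F // ∀ i j : Fin n, i < j →
      (g : Matrix (Fin n) (Fin n) F) i j = 0} ≃
      ({p : Fin n × Fin n // p.2 < p.1} → F) × (Fin n → Fˣ) :=
    { toFun := fun g => (fun p => (g.1 : Matrix (Fin n) (Fin n) F) p.1.1 p.1.2,
        fun i => Units.mk0 _ (hd g i))
      invFun := fun x => ⟨Matrix.GeneralLinearGroup.mkOfDetNeZero _ (hdet x.2 x.1), hmk x.2 x.1⟩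
      left_inv := fun g => by
        refine Subtype.ext (Units.ext ?_)
        ext i j
        change mk _ _ i j = _
        unfold mk
        split_ifs with h1 h2
        · rfl
        · subst h2; rfl
        · exact (g.2 i j (lt_of_le_of_ne (not_lt.1 h1) h2)).symm
      right_inv := fun x => by
        refine Prod.ext ?_ ?_
        · ext p
          change mk _ _ _ _ = _
          simp [mk, p.2]
        · ext i
          change mk _ _ _ _ = _
          simp [mk] }
  rw [Nat.card_congr e, Nat.card_prod, Nat.card_fun, Nat.card_fun, Nat.card_units,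
    Nat.card_eq_fintype_card (α := F), hF, Nat.card_eq_fintype_card, card_pairs]
  simp

end Cfsg.Agent.S0769
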