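import Cfsg.Statements.S0770


set_option autoImplicit false
open Cfsg

namespace Cfsg.Agent.S0770

open Matrix

theorem mem_range_iff {F : Type*} [Field F] {n : ℕ} (d : Matrix.GeneralLinearGroup (Fin n) F) :
    d ∈ ((Units.map (Matrix.diagonalRingHom (Fin n) F).toMonoidHom).range :
      Subgroup (Matrix.GeneralLinearGroup (Fin n) F)) ↔
    ∀ i j, i ≠ j → (d : Matrix (Fin n) (Fin n) F) i j = 0 := by
  constructor
  · rintro ⟨u, rfl⟩ i j hij
    exact diagonal_apply_ne _ hij
  · intro h
    have e : (d : Matrix (Fin n) (Fin n) F) = diagonal fun i => (d : Matrix _ _ F) i i := by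
      ext i j
      by_cases hij : i = j
      · subst hij; simp
      · rw [h i j hij, diagonal_apply_ne _ hij]
    have h0 : ∀ i, (d : Matrix (Fin n) (Fin n) F) i i ≠ 0 := by
      intro i
      have := d.det_ne_zero
      rw [e, det_diagonal, Finset.prod_ne_zero_iff] at this
      exact this i (Finset.mem_univ i)
    refine ⟨⟨fun i => (d : Matrix (Fin n) (Fin n) F) i i, fun i => ((d : Matrix _ _ F) i i)⁻¹,
      ?_, ?_⟩, Units.ext e.symm⟩
    · ext i; simp [h0 i]
    · ext i; simp [h0 i]

theorem conj_diag {F : Type*} [Field F] {n : ℕ} (g d : Matrix.GeneralLinearGroup (Fin n) F)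
    (hg : ∀ i : Fin n, ∃! j : Fin n, (g : Matrix (Fin n) (Fin n) F) i j ≠ 0)
    (hd : ∀ i j, i ≠ j → (d : Matrix (Fin n) (Fin n) F) i j = 0) :
    ∀ i j, i ≠ j → ((g * d * g⁻¹ : Matrix.GeneralLinearGroup (Fin n) F) :
      Matrix (Fin n) (Fin n) F) i j = 0 := by
  choose σ hσ hσ' using hg
  have key : (g : Matrix (Fin n) (Fin n) F) * d =
      diagonal (fun i => (d : Matrix (Fin n) (Fin n) F) (σ i) (σ i)) * g := by
    ext i j
    rw [diagonal_mul, mul_apply, Finset.sum_eq_single j]
    · by_cases h : (g : Matrix (Fin n) (Fin n) F) i j = 0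
      · simp [h]
      · rw [← hσ' i j h, mul_comm]
    · intro b _ hb
      rw [hd b j hb, mul_zero]
    · simp
  intro i j hij
  rw [Units.val_mul, Units.val_mul, key, Matrix.mul_assoc, ← Units.val_mul, mul_inv_cancel,
    Units.val_one, Matrix.mul_one, diagonal_apply_ne _ hij]

theorem inv_monomial {F : Type*} [Field F] {n : ℕ} (g : Matrix.GeneralLinearGroup (Fin n) F)
    (hg : ∀ i : Fin n, ∃! j : Fin n, (g : Matrix (Fin n) (Fin n) F) i j ≠ 0) :
    ∀ i : Fin n, ∃! j : Fin n, ((g⁻¹ : Matrix.GeneralLinearGroup (Fin n) F) :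
      Matrix (Fin n) (Fin n) F) i j ≠ 0 := by
  choose σ hσ hσ' using hg
  have h1 : ∀ i k, (g : Matrix (Fin n) (Fin n) F) i (σ i) *
      ((g⁻¹ : Matrix.GeneralLinearGroup (Fin n) F) : Matrix (Fin n) (Fin n) F) (σ i) k =
      if i = k then 1 else 0 := by
    intro i k
    have := congrFun₂ (g.mul_inv) i k
    rw [mul_apply, Finset.sum_eq_single (σ i), one_apply] at this
    · exact this
    · intro b _ hb
      have : (g : Matrix (Fin n) (Fin n) F) i b = 0 := by
        by_contra h
        exact hb (hσ' i b h)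
      rw [this, zero_mul]
    · simp
  have hinj : Function.Injective σ := by
    intro i k hik
    by_contra hne
    have h2 := h1 i i
    have h3 := h1 k i
    rw [if_pos rfl] at h2
    rw [if_neg (Ne.symm hne), ← hik, mul_eq_zero] at h3
    rcases h3 with h3 | h3
    · exact hσ k (by rwa [← hik])
    · simp [h3] at h2
  have hsurj : Function.Surjective σ := Finite.injective_iff_surjective.1 hinj
  intro j
  obtain ⟨i, rfl⟩ := hsurj j
  refine ⟨i, fun h => ?_, fun k hk => ?_⟩
  · have := h1 i i
    simp [h] at this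
  · by_contra hne
    have := h1 i k
    rw [if_neg (Ne.symm hne), mul_eq_zero] at this
    exact this.elim (hσ i) hk

/-- For a field with at least 3 elements, an invertible matrix normalises the subgroup of invertible diagonal matrices of GL_n if and only if it is monomial (exactly one non-zero entry in each row). -/
theorem result {F : Type*} [Field F] (hF : ∃ a : F, a ≠ 0 ∧ a ≠ 1) (n : ℕ) (g : Matrix.GeneralLinearGroup (Fin n) F) : g ∈ Subgroup.normalizer ((Units.map (Matrix.diagonalRingHom (Fin n) F).toMonoidHom).range : Subgroup (Matrix.GeneralLinearGroup (Fin n) F)) ↔ ∀ i : Fin n, ∃! j : Fin n, (g : Matrix (Fin n) (Fin n) F) i j ≠ 0 := by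
  constructor
  · intro hg i
    obtain ⟨a, ha0, ha1⟩ := hF
    have hex : ∃ j, (g : Matrix (Fin n) (Fin n) F) i j ≠ 0 := by
      by_contra! h
      exact g.det_ne_zero (det_eq_zero_of_row_eq_zero i h)
    obtain ⟨j, hj⟩ := hex
    refine ⟨j, hj, fun k hk => ?_⟩
    by_contra hkj
    let u : (Fin n → F)ˣ := ⟨fun l => if l = j then a else 1, fun l => if l = j then a⁻¹ else 1,
      by ext l; by_cases h : l = j <;> simp [h, ha0], by ext l; by_cases h : l = j <;> simp [h, ha0]⟩
    have h1 := (Subgroup.mem_normalizer_iff.1 hg _).1 ⟨u, rfl⟩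
    obtain ⟨w, hw⟩ := h1
    have h2 : diagonal (w : Fin n → F) * (g : Matrix (Fin n) (Fin n) F) =
        g * diagonal (u : Fin n → F) := by
      have := congrArg Units.val (eq_mul_inv_iff_mul_eq.1 hw)
      exact this
    have h3 := congrFun₂ h2 i j
    have h4 := congrFun₂ h2 i k
    rw [diagonal_mul, mul_diagonal, mul_comm] at h3 h4
    have h5 := mul_left_cancel₀ hj h3
    have h6 := mul_left_cancel₀ hk h4
    apply ha1
    have : (u : Fin n → F) j = (u : Fin n → F) k := h5.symm.trans h6
    simpa [u, hkj] using this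
  · intro hg
    refine Subgroup.mem_normalizer_iff.2 fun d => ?_
    rw [mem_range_iff, mem_range_iff]
    refine ⟨conj_diag g d hg, fun h => ?_⟩
    have := conj_diag g⁻¹ _ (inv_monomial g hg) h
    simpa [mul_assoc] using this

end Cfsg.Agent.S0770
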