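import Cfsg.Statements.S0773
import Cfsg.Agent.Class.InvTranspose

set_option autoImplicit false
open Cfsg

namespace Cfsg.Agent.S0773

/-- The stabilisers in GL_n(F), F finite, of the coordinate subspaces of dimensions k and n − k are isomorphic groups, but when 2k ≠ n (and 0 < k < n) no element of GL_n conjugates one onto the other. -/
theorem result {F : Type*} [Field F] [Finite F] (n k : ℕ) (hk0 : 0 < k) (hkn : k < n) (h2 : 2 * k ≠ n) : Nonempty (↥(Cfsg.stabilizing (Cfsg.glToMat (Fin n) F) {v : Fin n → F | ∀ i : Fin n, k ≤ (i : ℕ) → v i = 0}) ≃* ↥(Cfsg.stabilizing (Cfsg.glToMat (Fin n) F) {v : Fin n → F | ∀ i : Fin n, n - k ≤ (i : ℕ) → v i = 0})) ∧ ∀ g : Matrix.GeneralLinearGroup (Fin n) F, (Cfsg.stabilizing (Cfsg.glToMat (Fin n) F) {v : Fin n → F | ∀ i : Fin n, k ≤ (i : ℕ) → v i = 0}).map (MulAut.conj g).toMonoidHom ≠ Cfsg.stabilizing (Cfsg.glToMat (Fin n) F) {v : Fin n → F | ∀ i : Fin n, n - k ≤ (i : ℕ) → v i = 0} := by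
  rw [Cfsg.Lib.Class.stabilizing_fin_eq, Cfsg.Lib.Class.stabilizing_fin_eq]
  have h1 := Cfsg.Lib.Class.finrank_coordSub_fin (F := F) n k hkn.le
  have h3 := Cfsg.Lib.Class.finrank_coordSub_fin (F := F) n (n - k) (by omega)
  set W := Cfsg.Lib.Class.coordSub F {i : Fin n | (i : ℕ) < k}
  set U := Cfsg.Lib.Class.coordSub F {i : Fin n | (i : ℕ) < n - k}
  constructor
  · have h4 := Cfsg.Lib.Class.finrank_dotPerp W
    simp only [Fintype.card_fin] at h4
    obtain ⟨g, hg⟩ := Cfsg.Lib.Class.exists_GL_map_eq (U := Cfsg.Lib.Class.dotPerp W) (W := U)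
      (by omega)
    rw [← hg, ← Cfsg.Lib.Class.subspaceStabilizer_map_conj,
      ← Cfsg.Lib.Class.map_invT_subspaceStabilizer]
    exact ⟨(Subgroup.equivMapOfInjective _ _ (Cfsg.Lib.Class.invT (Fin n) F).injective).trans
      (Subgroup.equivMapOfInjective _ _ (MulAut.conj g).injective)⟩
  · intro g hg
    rw [Cfsg.Lib.Class.subspaceStabilizer_map_conj] at hg
    have h5 := Cfsg.Lib.Class.finrank_map_GL g W
    have := Cfsg.Lib.Class.subspaceStabilizer_injOn
      (U := W.map (Matrix.toLin' (g : Matrix (Fin n) (Fin n) F))) (W := U)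
      (Cfsg.Lib.Class.ne_bot_of_finrank_pos (by omega))
      (Cfsg.Lib.Class.ne_top_of_finrank_lt (by simp only [Fintype.card_fin]; omega))
      (Cfsg.Lib.Class.ne_bot_of_finrank_pos (by omega))
      (Cfsg.Lib.Class.ne_top_of_finrank_lt (by simp only [Fintype.card_fin]; omega))
      (inf_le_left.trans hg.ge)
    rw [this] at h5
    omega

end Cfsg.Agent.S0773
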