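import Cfsg.Statements.S0774
import Cfsg.Agent.Class.SpStab

set_option autoImplicit false
open Cfsg

namespace Cfsg.Agent.S0774

open Cfsg.Lib.Class

/-- Borel subgroup of the symplectic group: the elements of Sp_2m(q) stabilising each of the totally isotropic coordinate subspaces ⟨e_0, ..., e_k⟩ (k < m) form a subgroup of order q^(m²) (q − 1)^m. -/
theorem result {F : Type*} [Field F] [Fintype F] {q : ℕ} (hF : Fintype.card F = q) (m : ℕ) : Nat.card ↥(⨅ k : Fin m, Cfsg.stabilizing (Cfsg.spToMat m F) {v : Fin m ⊕ Fin m → F | (∀ i : Fin m, (k : ℕ) < (i : ℕ) → v (Sum.inl i) = 0) ∧ ∀ i : Fin m, v (Sum.inr i) = 0}) = q ^ (m ^ 2) * (q - 1) ^ m := by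
  subst hF
  have hB := sympBilin_nondegenerate (F := F) m
  have hA := sympBilin_isAlt (F := F) m
  set q := Fintype.card F with hq
  let W : ℕ → Submodule F (Fin m ⊕ Fin m → F) := fun j =>
    coordSub F (Sum.inl '' {i : Fin m | (i : ℕ) < j})
  have hW : ∀ j v, v ∈ W j ↔ (∀ i : Fin m, j ≤ (i : ℕ) → v (Sum.inl i) = 0) ∧
      ∀ i, v (Sum.inr i) = 0 := fun j v => by
    simp only [W, mem_coordSub, Sum.forall, Sum.inl_injective.mem_set_image]
    simp
  have hWd : ∀ j ≤ m, Module.finrank F (W j) = j := fun j hj => by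
    rw [finrank_coordSub, Nat.card_image_of_injective Sum.inl_injective, ← finrank_coordSub (F := F),
      finrank_coordSub_fin m j hj]
  have hWi : ∀ j j', ∀ u ∈ W j, ∀ v ∈ W j', sympBilin m F u v = 0 := fun j j' u hu v hv => by
    simp [sympForm_eq, ((hW j u).1 hu).2, ((hW j' v).1 hv).2]
  have hmono : ∀ {j j'}, j ≤ j' → W j ≤ W j' := fun {j j'} h v hv =>
    (hW _ _).2 ⟨fun i hi => ((hW _ _).1 hv).1 i (h.trans hi), ((hW _ _).1 hv).2⟩
  let G := (⨅ k : Fin m, stabSub (W (k + 1))) ⊓ SpB (sympBilin m F)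
  rw [card_sp_subgroup m _ (⨅ k : Fin m, stabSub (W (k + 1))) fun g => by
    simp only [Subgroup.mem_iInf, mem_stabSub', hW]
    rfl]
  have hstep : ∀ j < m, Nat.card (fixSub G (W j)) =
      (q ^ (j + 1) - q ^ j) * Nat.card (fixSub G (W (j + 1))) := by
    intro j hj
    let e : Fin m ⊕ Fin m → F := Pi.single (Sum.inl ⟨j, hj⟩) 1
    have he : e ∈ W (j + 1) := (hW _ _).2 ⟨fun i hi => by
      have : i ≠ ⟨j, hj⟩ := by rintro rfl; simp at hi
      simp [e, this], fun i => by simp [e]⟩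
    have hdec : ∀ k, ∀ v ∈ W k, v - v (Sum.inl ⟨j, hj⟩) • e ∈ W k := fun k v hv => by
      refine (hW _ _).2 ⟨fun i hi => ?_, fun i => by simp [e, ((hW _ _).1 hv).2]⟩
      by_cases hij : i = ⟨j, hj⟩
      · simp [e, hij]
      · simp [e, hij, ((hW _ _).1 hv).1 i hi]
    have hmem : ∀ y, y ∈ W j ↔ y ∈ W (j + 1) ∧ y (Sum.inl ⟨j, hj⟩) = 0 := fun y => by
      refine ⟨fun h => ⟨hmono (Nat.le_succ j) h, ((hW _ _).1 h).1 _ le_rfl⟩, fun h =>
        (hW _ _).2 ⟨fun i hi => ?_, ((hW _ _).1 h.1).2⟩⟩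
      by_cases hij : i = ⟨j, hj⟩
      · rw [hij, h.2]
      · exact ((hW _ _).1 h.1).1 i (lt_of_le_of_ne hi fun h' => hij (Fin.ext h'.symm))
    have hsup : W (j + 1) = W j ⊔ Submodule.span F {e} := by
      refine le_antisymm (fun v hv => ?_) (sup_le (hmono (Nat.le_succ j))
        ((Submodule.span_singleton_le_iff_mem _ _).2 he))
      rw [← sub_add_cancel v (v (Sum.inl ⟨j, hj⟩) • e)]
      exact Submodule.add_mem_sup ((hmem _).2 ⟨hdec _ v hv, by simp [e]⟩)
        (Submodule.smul_mem _ _ (Submodule.mem_span_singleton_self _))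
    rw [card_eq_orbit_mul_stab _ e (fixSub G (W (j + 1))) (fun g => by
      rw [hsup]; exact mem_fixSub_sup_span) ((W (j + 1) : Set _) \ W j) fun y => ?_]
    · rw [Nat.card_coe_set_eq, Set.ncard_sdiff (hmono (Nat.le_succ j)), ← Nat.card_coe_set_eq,
        ← Nat.card_coe_set_eq]
      have c1 := natCard_submodule (W (j + 1))
      have c2 := natCard_submodule (W j)
      simp only [SetLike.coe_sort_coe]
      rw [c1, c2, hWd _ hj, hWd _ hj.le]
    · constructor
      · rintro ⟨hy1, hy2⟩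
        have hy3 : y (Sum.inl ⟨j, hj⟩) ≠ 0 := fun h => hy2 ((hmem y).2 ⟨hy1, h⟩)
        let X := W m ⊓ LinearMap.ker (LinearMap.proj (R := F) (φ := fun _ => F)
          (Sum.inl ⟨j, hj⟩ : Fin m ⊕ Fin m))
        obtain ⟨g, hg, h1, h2⟩ := SpB_exists_move hB hA X (x := e) (x' := y)
          (fun h => by simpa [e] using h.2) (fun h => hy3 h.2) fun z hz => by
            rw [hWi _ _ z hz.1 e he, hWi _ _ z hz.1 y hy1]
        refine ⟨g, ⟨⟨Subgroup.mem_iInf.2 fun k => mem_stabSub.2 fun v hv => ?_, hg⟩,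
          fun v hv => h2 v ⟨hmono hj.le hv, ((hmem v).1 hv).2⟩⟩, h1⟩
        rw [← sub_add_cancel v (v (Sum.inl ⟨j, hj⟩) • e), map_add, map_smul, h1,
          h2 _ ⟨hmono k.2 (hdec _ v hv), by simp [e]⟩]
        refine Submodule.add_mem _ (hdec _ v hv) ?_
        by_cases hjk : j ≤ k
        · exact Submodule.smul_mem _ _ (hmono (Nat.succ_le_succ hjk) hy1)
        · rw [((hW _ _).1 hv).1 ⟨j, hj⟩ (by simp; omega), zero_smul]
          exact Submodule.zero_mem _
      · rintro ⟨g, hg, rfl⟩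
        refine ⟨(Subgroup.mem_iInf.1 hg.1.1 ⟨j, hj⟩ e).1 he, fun h => ?_⟩
        have := g.injective (hg.2 _ h)
        rw [this] at h
        simpa [e] using ((hmem e).1 h).2
  have hind : ∀ j ≤ m, Nat.card G =
      (∏ i ∈ Finset.range j, (q ^ (i + 1) - q ^ i)) * Nat.card (fixSub G (W j)) := by
    intro j hj
    induction j with
    | zero =>
      have : W 0 = ⊥ := Submodule.finrank_eq_zero.1 (hWd 0 hj)
      rw [this, fixSub_bot]
      simp
    | succ j ih => rw [ih (by omega), hstep j hj, Finset.prod_range_succ, mul_assoc]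
  have hlast : fixSub G (W m) = fixSub (SpB (sympBilin m F)) (W m) := by
    ext g
    exact ⟨fun h => ⟨h.1.2, h.2⟩, fun h => ⟨⟨Subgroup.mem_iInf.2 fun k => mem_stabSub.2
      fun v hv => by rwa [h.2 v (hmono k.2 hv)], h.1⟩, h.2⟩⟩
  rw [hind m le_rfl, hlast, card_fixSub_SpB_isotropic hB hA (finrank_symp_space m) _
    (hWd m le_rfl) (hWi m m)]
  have h1 : ∀ i, q ^ (i + 1) - q ^ i = q ^ i * (q - 1) := fun i => by
    rw [Nat.mul_sub, mul_one, pow_succ]
  simp only [h1]
  rw [Finset.prod_mul_distrib, Finset.prod_pow_eq_pow_sum]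
  simp only [Finset.prod_const, Finset.card_range, Nat.sub_self, spOrd, ← hq]
  have h2 : ∑ i ∈ Finset.range m, i + m * (m + 1) / 2 = m ^ 2 := by
    have h3 := Finset.sum_range_id_mul_two m
    have h4 := Nat.div_mul_cancel (Nat.even_mul_succ_self m).two_dvd
    rcases m with _ | m
    · simp
    · simp only [Nat.add_sub_cancel] at h3
      nlinarith
  rw [← h2]
  simp [pow_add]
  ring

end Cfsg.Agent.S0774
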