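import Cfsg.Statements.S0776
import Cfsg.Agent.Class.SpStab

set_option autoImplicit false
open Cfsg

namespace Cfsg.Agent.S0776

open Cfsg.Lib.Class

/-- If W ≤ F^(2m) is a 2k-dimensional subspace on which the symplectic form is non-degenerate, then the stabiliser of W in Sp_2m(F) is isomorphic to Sp_2k(F) × Sp_(2m−2k)(F). -/
theorem result {F : Type*} [Field F] (m k : ℕ) (hk : k ≤ m) (W : Submodule F (Fin m ⊕ Fin m → F)) (hWk : Module.finrank F W = 2 * k) (hW : ∀ u ∈ W, (∀ v ∈ W, Cfsg.sympForm m F u v = 0) → u = 0) : Nonempty (↥(Cfsg.stabilizing (Cfsg.spToMat m F) (W : Set (Fin m ⊕ Fin m → F))) ≃* Matrix.symplecticGroup (Fin k) F × Matrix.symplecticGroup (Fin (m - k)) F) := by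
  have hB := sympBilin_nondegenerate (F := F) m
  have hA := sympBilin_isAlt (F := F) m
  have h := Form.good_of_isAlt _ hB hA
  have hW' : Form.NondegOn (σ := RingHom.id F) (sympBilin m F) W := fun u hu hu' =>
    hW u hu fun v hv => by rw [← sympBilin_apply]; exact hu' v hv
  have h1 := h.finrank_orth W
  rw [hWk, finrank_symp_space] at h1
  have key : ∀ (X : Submodule F (Fin m ⊕ Fin m → F)) (s : ℕ), Module.finrank F X = 2 * s →
      Form.NondegOn (σ := RingHom.id F) (sympBilin m F) X →
      Nonempty (Form.isomGroup (Form.restr (σ := RingHom.id F) (sympBilin m F) X) ≃*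
        Matrix.symplecticGroup (Fin s) F) := fun X s hs hX =>
    nonempty_SpB_equiv_symplecticGroup (B := Form.restr (σ := RingHom.id F) (sympBilin m F) X)
      ⟨(h.restrict hX).sep, (h.restrict hX).sep'⟩ (fun u => hA u) hs
  obtain ⟨e₁⟩ := key W k hWk hW'
  obtain ⟨e₂⟩ := key _ (m - k) (by omega) (h.nondegOn_orth hW')
  let e₀ : ↥(Cfsg.stabilizing (Cfsg.spToMat m F) (W : Set (Fin m ⊕ Fin m → F))) ≃*
      Form.stab (σ := RingHom.id F) (sympBilin m F) W :=
    { toFun := fun g => ⟨spEquivSpB m F g, g.2⟩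
      invFun := fun g => ⟨(spEquivSpB m F).symm g, by
        have := g.2
        rw [← (spEquivSpB m F).apply_symm_apply g] at this
        exact this⟩
      left_inv := fun g => by simp
      right_inv := fun g => by simp
      map_mul' := fun g g' => by ext; simp }
  exact ⟨e₀.trans ((h.stabEquivProd hW').trans (e₁.prodCongr e₂))⟩

end Cfsg.Agent.S0776
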