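import Cfsg.Statements.S0777
import Cfsg.Agent.Class.SpStab

set_option autoImplicit false
open Cfsg

namespace Cfsg.Agent.S0777

open Cfsg.Lib.Class

/-- Weyl group of type C_m: for q ≥ 4 the diagonal matrices of Sp_2m(q) form a torus T ≅ (C_(q−1))^m (the elements stabilising every coordinate axis), and the normaliser of T in Sp_2m(q) has order 2^m · m! · (q − 1)^m. -/
theorem result {F : Type*} [Field F] [Fintype F] {q : ℕ} (hF : Fintype.card F = q) (hq : 4 ≤ q) (m : ℕ) : Nat.card ↥(Subgroup.normalizer (⨅ i : Fin m ⊕ Fin m, Cfsg.stabilizing (Cfsg.spToMat m F) ((Submodule.span F {(Pi.single i (1 : F) : Fin m ⊕ Fin m → F)} : Submodule F (Fin m ⊕ Fin m → F)) : Set (Fin m ⊕ Fin m → F)) : Set (Matrix.symplecticGroup (Fin m) F))) = 2 ^ m * Nat.factorial m * (q - 1) ^ m := by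
  classical
  subst hF
  have hB := sympBilin_nondegenerate (F := F) m
  rw [Set.iInf_eq_iInter, ← Subgroup.coe_iInf]
  set T : Subgroup (Matrix.symplecticGroup (Fin m) F) := (⨅ i : Fin m ⊕ Fin m, Cfsg.stabilizing (Cfsg.spToMat m F) ((Submodule.span F {(Pi.single i (1 : F) : Fin m ⊕ Fin m → F)} : Submodule F (Fin m ⊕ Fin m → F)) : Set (Fin m ⊕ Fin m → F))) with hTdef
  let b : Fin m ⊕ Fin m → Fin m ⊕ Fin m → F := fun i => Pi.single i 1
  let act : Matrix.symplecticGroup (Fin m) F → (Fin m ⊕ Fin m → F) ≃ₗ[F] (Fin m ⊕ Fin m → F) :=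
    fun g => spEquivSpB m F g
  have act_mul : ∀ g h v, act (g * h) v = act g (act h v) := fun g h v => by simp [act]
  have act_inv : ∀ g v, act g⁻¹ (act g v) = v := fun g v => by
    rw [← act_mul, inv_mul_cancel]; simp [act]
  have act_inv' : ∀ g v, act g (act g⁻¹ v) = v := fun g v => by
    rw [← act_mul, mul_inv_cancel]; simp [act]
  have act_iso : ∀ g u v, sympBilin m F (act g u) (act g v) = sympBilin m F u v :=
    fun g => (spEquivSpB m F g).2
  have hb0 : ∀ i, b i ≠ 0 := fun i h => by simpa [b] using congrFun h i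
  have hT : ∀ g, g ∈ T ↔ ∀ i, ∃ c : F, act g (b i) = c • b i := fun g => by
    rw [hTdef, Subgroup.mem_iInf]
    refine forall_congr' fun i => ?_
    change act g ∈ stabSub (Submodule.span F {b i}) ↔ _
    rw [mem_stabSub]
    constructor
    · intro h
      obtain ⟨c, hc⟩ := Submodule.mem_span_singleton.1 (h _ (Submodule.mem_span_singleton_self _))
      exact ⟨c, hc.symm⟩
    · rintro ⟨c, hc⟩ v hv
      obtain ⟨a, rfl⟩ := Submodule.mem_span_singleton.1 hv
      rw [map_smul, hc]
      exact Submodule.smul_mem _ _ (Submodule.smul_mem _ _ (Submodule.mem_span_singleton_self _))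
  clear_value T
  clear hTdef
  have hll : ∀ i j, sympBilin m F (b (Sum.inl i)) (b (Sum.inl j)) = 0 := fun i j => by
    simp [b, sympForm_eq]
  have hrr : ∀ i j, sympBilin m F (b (Sum.inr i)) (b (Sum.inr j)) = 0 := fun i j => by
    simp [b, sympForm_eq]
  have hlr : ∀ i j, sympBilin m F (b (Sum.inl i)) (b (Sum.inr j)) = if i = j then -1 else 0 :=
    fun i j => by
      by_cases h : i = j <;> simp [b, sympForm_eq, Pi.single_apply, h, eq_comm]
  have hrl : ∀ i j, sympBilin m F (b (Sum.inr i)) (b (Sum.inl j)) = if i = j then 1 else 0 :=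
    fun i j => by
      by_cases h : i = j <;> simp [b, sympForm_eq, Pi.single_apply, h, eq_comm]
  let s : Bool → Fin m → Fin m ⊕ Fin m := fun ε k => if ε then Sum.inr k else Sum.inl k
  have hex : ∀ p : Equiv.Perm (Fin m) × (Fin m → Bool) × (Fin m → Fˣ), ∃ g,
      (∀ i, act g (b (Sum.inl i)) = (p.2.2 i : F) • b (s (p.2.1 i) (p.1 i))) ∧
      ∀ i, act g (b (Sum.inr i)) = ((if p.2.1 i then -1 else 1) * (p.2.2 i : F)⁻¹) •
        b (s (!p.2.1 i) (p.1 i)) := by
    rintro ⟨π, ε, c⟩
    obtain ⟨g, hg, e⟩ := exists_SpB_of_basis hB (Pi.basisFun F _)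
      (Sum.elim (fun i => (c i : F) • b (s (ε i) (π i)))
        fun i => ((if ε i then -1 else 1) * (c i : F)⁻¹) • b (s (!ε i) (π i))) (by
        simp only [Pi.basisFun_apply]
        change ∀ i j, _ = sympBilin m F (b i) (b j)
        rintro (i | i) (j | j) <;> obtain rfl | hij := eq_or_ne i j <;> cases hi : ε i <;>
          (try cases hj : ε j) <;> simp [s, hll, hrr, hlr, hrl, -sympBilin_apply, *])
    refine ⟨(spEquivSpB m F).symm ⟨g, hg⟩, fun i => ?_, fun i => ?_⟩
    · simpa [act, b] using e (Sum.inl i)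
    · simpa [act, b] using e (Sum.inr i)
  choose Ψ hΨ1 hΨ2 using hex
  obtain ⟨a, ha0, ha⟩ : ∃ a : F, a ≠ 0 ∧ a ^ 2 ≠ 1 := by
    by_contra! hcon
    have : (Finset.univ : Finset F) ⊆ {0, 1, -1} := fun x _ => by
      by_cases hx : x = 0
      · simp [hx]
      · rcases sq_eq_one_iff.1 (hcon x hx) with h | h <;> simp [h]
    have h1 := Finset.card_le_card this
    have h2 : ({0, 1, -1} : Finset F).card ≤ 3 := Finset.card_le_three
    rw [Finset.card_univ] at h1
    omega
  have hN : ∀ g, g ∈ Subgroup.normalizer (T : Set (Matrix.symplecticGroup (Fin m) F)) ↔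
      ∀ i, ∃ j, ∃ c : F, act g (b i) = c • b j := fun g => by
    constructor
    · intro hg i
      have hsep : ∀ j k : Fin m ⊕ Fin m, j ≠ k → ∃ t ∈ T, ∃ d : Fin m ⊕ Fin m → F, d j ≠ d k ∧
          ∀ l, act t (b l) = d l • b l := by
        intro j k hjk
        let u : Fˣ := Units.mk0 a ha0
        let c : Fin m → Fˣ := Function.update 1 (j.elim id id) u
        have h1 : ∀ l, act (Ψ (1, fun _ => false, c)) (b l) =
            Sum.elim (fun l => (c l : F)) (fun l => (c l : F)⁻¹) l • b l := by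
          rintro (l | l)
          · simpa [s] using hΨ1 (1, fun _ => false, c) l
          · simpa [s] using hΨ2 (1, fun _ => false, c) l
        refine ⟨_, (hT _).2 fun l => ⟨_, h1 l⟩, _, ?_, h1⟩
        have h2 : a ≠ 1 := by rintro rfl; simp at ha
        have h3 : a ≠ a⁻¹ := fun h => ha (by rw [sq]; nth_rw 2 [h]; exact mul_inv_cancel₀ ha0)
        rcases j with j | j <;> rcases k with k | k <;> obtain rfl | h := eq_or_ne k j <;>
          first | exact (hjk rfl).elim | simp [c, u, h2, h3, h3.symm, *]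
      have hv0 : act g (b i) ≠ 0 := by simpa using hb0 i
      obtain ⟨j, hj⟩ := Function.ne_iff.1 hv0
      refine ⟨j, act g (b i) j, ?_⟩
      ext k
      by_cases hjk : j = k
      · simp [b, hjk]
      obtain ⟨t, ht, d, hd, e⟩ := hsep j k hjk
      obtain ⟨c, hc⟩ := (hT _).1
        ((Subgroup.mem_normalizer_iff.1 ((Subgroup.normalizer _).inv_mem hg) t).1 ht) i
      rw [inv_inv, act_mul, act_mul] at hc
      have h1 := congrArg (act g) hc
      rw [act_inv', map_smul] at h1
      have h2 : ∀ v l, act t v l = d l * v l := fun v l => by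
        conv_lhs => rw [pi_eq_sum_univ' v]
        simp only [map_sum, map_smul]
        simp only [show ∀ l, act t (Pi.single l 1) = d l • b l from e]
        simp [b, Finset.sum_apply, Pi.single_apply, mul_comm]
      have h3 := congrFun h1 j
      have h4 := congrFun h1 k
      rw [h2, Pi.smul_apply, smul_eq_mul] at h3 h4
      have h5 : d j = c := mul_right_cancel₀ hj h3
      have h6 : act g (b i) k = 0 := by
        by_contra h
        exact hd (h5.trans (mul_right_cancel₀ h h4).symm)
      simp [h6, b, Ne.symm hjk]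
    · intro hg
      rw [← Subgroup.inv_mem_iff]
      refine Subgroup.mem_normalizer_fintype fun t ht => (hT _).2 fun i => ?_
      obtain ⟨j, c, hc⟩ := hg i
      obtain ⟨d, hd⟩ := (hT t).1 ht j
      refine ⟨d, ?_⟩
      rw [inv_inv, act_mul, act_mul, hc, map_smul, hd, smul_comm, ← hc, map_smul, act_inv]
  have hΨN : ∀ p, Ψ p ∈ Subgroup.normalizer (T : Set (Matrix.symplecticGroup (Fin m) F)) :=
    fun p => (hN _).2 (by
      rintro (i | i)
      exacts [⟨_, _, hΨ1 p i⟩, ⟨_, _, hΨ2 p i⟩])
  have hbinj : ∀ {i j} {c d : F}, c ≠ 0 → c • b i = d • b j → i = j ∧ c = d := by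
    intro i j c d hc h
    have h1 := congrFun h i
    by_cases hij : i = j
    · subst hij
      exact ⟨rfl, by simpa [b] using h1⟩
    · simp [b, hij, hc] at h1
  rw [← Nat.card_congr (Equiv.ofBijective (fun p => (⟨Ψ p, hΨN p⟩ :
    Subgroup.normalizer (T : Set (Matrix.symplecticGroup (Fin m) F)))) ⟨?_, ?_⟩)]
  · simp [Nat.card_prod, Fintype.card_perm, Fintype.card_units]
    ring
  · rintro ⟨π, ε, c⟩ ⟨π', ε', c'⟩ h
    have h1 : Ψ (π, ε, c) = Ψ (π', ε', c') := congrArg Subtype.val h
    have h2 := fun i => hbinj (c i).ne_zero ((hΨ1 (π, ε, c) i).symm.trans (h1 ▸ hΨ1 (π', ε', c') i))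
    have h3 : ∀ i, ε i = ε' i ∧ π i = π' i := fun i => by
      have := (h2 i).1
      cases hi : ε i <;> cases hi' : ε' i <;> simp [s, hi, hi'] at this ⊢ <;> exact this
    exact Prod.ext (Equiv.ext fun i => (h3 i).2) (Prod.ext (funext fun i => (h3 i).1)
      (funext fun i => Units.ext (h2 i).2))
  · rintro ⟨g, hg⟩
    choose σ c hc using (hN g).1 hg
    have hc0 : ∀ i, c i ≠ 0 := fun i h => by
      have := hc i
      rw [h, zero_smul] at this
      exact hb0 i (by simpa using this)
    have hπ : Function.Injective fun i => (σ (Sum.inl i)).elim id id := by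
      intro i j hij
      by_contra hne
      have h1 : σ (Sum.inl i) ≠ σ (Sum.inl j) := fun h => by
        have h2 : c (Sum.inl j) • b (Sum.inl i) = c (Sum.inl i) • b (Sum.inl j) :=
          (act g).injective (by rw [map_smul, map_smul, hc, hc, h, smul_comm])
        exact hne (Sum.inl_injective (hbinj (hc0 _) h2).1)
      have h2 := act_iso g (b (Sum.inl i)) (b (Sum.inl j))
      rw [hc, hc] at h2
      have h3 := hc0 (Sum.inl i)
      have h4 := hc0 (Sum.inl j)
      rcases hi : σ (Sum.inl i) with k | k <;> rcases hj : σ (Sum.inl j) with l | l <;>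
        simp only [hi, hj, Sum.elim_inl, Sum.elim_inr, id] at hij h1 h2 <;> subst hij <;>
        first | exact h1 rfl | simp [hll, hlr, hrl, h3, h4, -sympBilin_apply] at h2
    let p : Equiv.Perm (Fin m) × (Fin m → Bool) × (Fin m → Fˣ) :=
      (Equiv.ofBijective _ (Finite.injective_iff_bijective.1 hπ),
        fun i => (σ (Sum.inl i)).isRight, fun i => Units.mk0 _ (hc0 (Sum.inl i)))
    refine ⟨p, Subtype.ext ?_⟩
    have h1 : ∀ i, act (Ψ p) (b (Sum.inl i)) = act g (b (Sum.inl i)) := fun i => by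
      rw [hΨ1, hc]
      rcases hi : σ (Sum.inl i) with k | k <;> simp [p, s, hi]
    have h2 := (hN _).1 (mul_mem (inv_mem hg) (hΨN p))
    have h3 : ∀ i, act (g⁻¹ * Ψ p) (b (Sum.inl i)) = b (Sum.inl i) := fun i => by
      rw [act_mul, h1, act_inv]
    have h4 : ∀ i, act (g⁻¹ * Ψ p) (b (Sum.inr i)) = b (Sum.inr i) := fun i => by
      obtain ⟨j, d, hd⟩ := h2 (Sum.inr i)
      have h5 := act_iso (g⁻¹ * Ψ p) (b (Sum.inl i)) (b (Sum.inr i))
      rw [h3, hd] at h5
      rw [hd]
      rcases j with j | j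
      · simp [hll, hlr, -sympBilin_apply] at h5
      · obtain rfl | hij := eq_or_ne i j
        · simp [hlr, -sympBilin_apply] at h5
          rw [h5, one_smul]
        · simp [hlr, hij, -sympBilin_apply] at h5
    have h5 : act (g⁻¹ * Ψ p) = 1 := LinearEquiv.toLinearMap_injective
      ((Pi.basisFun F _).ext (by
        rintro (i | i)
        · simpa [b] using h3 i
        · simpa [b] using h4 i))
    have h6 : g⁻¹ * Ψ p = 1 := (spEquivSpB m F).injective (Subtype.ext (by
      rw [map_one]; exact h5))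
    exact (inv_mul_eq_one.1 h6).symm

end Cfsg.Agent.S0777
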