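import Cfsg.Statements.S0779
import Cfsg.Agent.Class.HermTransv

set_option autoImplicit false
open Cfsg

namespace Cfsg.Agent.S0779

open Cfsg.Lib.Class Cfsg.Lib.Class.Form

/-- Unitary transvections: let |F| = q², h the standard Hermitian form Σ x_i y_i^q and v ≠ 0 with h(v, v) = 0. The linear map x ↦ x + c h(x, v) v is an isometry of h if and only if c = 0 or c^(q−1) = −1. -/
theorem result {F : Type*} [Field F] [Fintype F] {q : ℕ} (hF : Fintype.card F = q ^ 2) (n : ℕ) (v : Fin n → F) (hv : v ≠ 0) (hv0 : Cfsg.hermForm n F q v v = 0) (c : F) : (∀ x y : Fin n → F, Cfsg.hermForm n F q ((Cfsg.unitaryTransvection n q v c).mulVec x) ((Cfsg.unitaryTransvection n q v c).mulVec y) = Cfsg.hermForm n F q x y) ↔ (c = 0 ∨ c ^ (q - 1) = -1) := by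
  have h := herm_hermSesq hF n
  have h2 := two_le_of_card_sq hF
  have hc : c + frobq hF c = 0 ↔ (c = 0 ∨ c ^ (q - 1) = -1) := by
    have : c + frobq hF c = c * (c ^ (q - 1) + 1) := by
      rw [frobq_apply, mul_add, ← pow_succ', Nat.sub_add_cancel (by omega)]; ring
    rw [this, mul_eq_zero, add_eq_zero_iff_eq_neg]
  rw [← hc]
  simp only [unitaryTransvection_mulVec hF]
  constructor
  · intro hg
    obtain ⟨x, hx⟩ := h.exists_ne hv
    have := hg x x
    have hv0' : hermSesq hF n v v = 0 := hv0
    simp only [← hermSesq_apply hF, map_add, map_smulₛₗ, LinearMap.add_apply, LinearMap.smul_apply,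
      smul_eq_mul, map_mul, RingHom.id_apply, hv0', h.conj] at this
    have hx' : hermSesq hF n x v ≠ 0 := fun h0 => hx (h.eq_zero_comm.1 h0)
    have h2 : (c + frobq hF c) * (hermSesq hF n v x * hermSesq hF n x v) = 0 := by
      linear_combination this
    exact (mul_eq_zero.1 h2).resolve_right (mul_ne_zero hx hx')
  · intro hc x y
    have hv0' : hermSesq hF n v v = 0 := hv0
    have := isom_apply (h.transv v hv0' c hc) y x
    rwa [h.transv_apply, h.transv_apply] at this

end Cfsg.Agent.S0779
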