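import Cfsg.Statements.S0780
import Cfsg.Agent.Class.HermTransv

set_option autoImplicit false
open Cfsg

namespace Cfsg.Agent.S0780

open Cfsg.Lib.Class Cfsg.Lib.Class.Form

/-- Generation of SU_n(q), n ≥ 3, (n, q) ≠ (3, 2), by unitary transvections: the subgroup generated by the elements whose matrix is x ↦ x + c h(x, v) v with v isotropic is all of SU_n(q). -/
theorem result {F : Type*} [Field F] [Fintype F] {q : ℕ} (hF : Fintype.card F = q ^ 2) (n : ℕ) (hn : 3 ≤ n) (h32 : ¬ (n = 3 ∧ q = 2)) : Subgroup.closure {A : ↥(Cfsg.SU n F q) | ∃ (v : Fin n → F) (c : F), Cfsg.hermForm n F q v v = 0 ∧ ((A : Matrix.SpecialLinearGroup (Fin n) F) : Matrix (Fin n) (Fin n) F) = Cfsg.unitaryTransvection n q v c} = ⊤ := by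
  have h := (herm_hermSesq hF n).closure_isTransv_eq_top (fun h3 =>
    exists_fixed_ne_of_ne_two hF fun h2 => h32 ⟨by simpa using h3, h2⟩)
  apply Subgroup.map_injective (f := (suEquivSIsom hF n).toMonoidHom) (suEquivSIsom hF n).injective
  rw [MonoidHom.map_closure, Subgroup.map_top_of_surjective _ (suEquivSIsom hF n).surjective, ← h]
  congr 1
  ext g
  obtain ⟨A, rfl⟩ := (suEquivSIsom hF n).surjective g
  constructor
  · rintro ⟨A', hA', hAA⟩
    obtain rfl : A' = A := (suEquivSIsom hF n).injective hAA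
    exact (isTransv_suEquivSIsom_iff hF n A').2 hA'
  · intro hA
    exact ⟨A, (isTransv_suEquivSIsom_iff hF n A).1 hA, rfl⟩

end Cfsg.Agent.S0780
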