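import Cfsg.Statements.S0787
import Cfsg.Agent.Class.OrthOmega

set_option autoImplicit false
open Cfsg

namespace Cfsg.Agent.S0787

open Cfsg.Lib Cfsg.Lib.Class Cfsg.Lib.Class.Orth

open Module in
theorem aux {F V : Type*} [Field F] [Finite F] [AddCommGroup V] [Module F V]
    [FiniteDimensional F V] {Q : QuadraticForm F V}
    (hQ : (QuadraticMap.polarBilin Q).Nondegenerate) (hE : ¬ Exc Q) (hn : 2 ≤ finrank F V) :
    ∃! H : Subgroup (detO Q).ker, H.index = 2 := by
  have hle : commutator (O Q) ≤ (detO Q).ker := fun g hg => commutator_le_ker' _ hg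
  have hi : ((commutator (O Q)).subgroupOf (detO Q).ker).index = 2 := by
    have := Subgroup.relIndex_mul_index hle
    by_cases h2 : (2 : F) = 0
    · have h3 : (detO Q).ker = ⊤ := eq_top_iff.2 fun g _ => detO_eq_one_of_char_two hQ h2 g
      rw [index_commutator_even hQ hE h2 (by omega)] at this
      have h4 : (detO Q).ker.index = 1 := by rw [h3, Subgroup.index_top]
      rw [h4, mul_one] at this
      exact this
    · have h3 : (detO Q).ker = (dickHom hQ hE).ker := by
        ext g; exact detO_eq_one_iff hQ h2 g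
      obtain ⟨a, -, ha, -⟩ := exists_refl_pair hQ h2 hn
      have h4 : (detO Q).ker.index = 2 := by
        rw [h3]; exact index_ker_eq_two _ (g := refl Q a) (dick_refl hQ ha)
      rw [index_commutator_odd hQ h2 hn, h4] at this
      change (commutator (O Q)).relIndex _ = 2
      omega
  refine ⟨_, hi, fun H hH => (eq_of_le_of_index_eq ?_ (hi.trans hH.symm) (by omega)).symm⟩
  let K : Subgroup (O Q) := Subgroup.normalClosure {x | ∃ g ∈ (detO Q).ker, x = g ^ 2}
  have h1 : commutator (O Q) ≤ K := commutator_le_of_sq hQ hE fun a b ha hb =>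
    Subgroup.subset_normalClosure ⟨_, by simp [MonoidHom.mem_ker, detO_refl ha, detO_refl hb], rfl⟩
  have h2 : K ≤ H.map (detO Q).ker.subtype := by
    refine (Subgroup.closure_le _).2 fun x hx => ?_
    obtain ⟨_, ⟨g, hg, rfl⟩, hx⟩ := Group.mem_conjugatesOfSet_iff.1 hx
    obtain ⟨c, rfl⟩ := isConj_iff.1 hx
    refine ⟨⟨c * g * c⁻¹, (MonoidHom.normal_ker _).conj_mem g hg c⟩ ^ 2,
      H.sq_mem_of_index_two hH _, ?_⟩
    simp [pow_two, mul_assoc]
  intro g hg
  obtain ⟨k, hk, hk'⟩ := h2 (h1 hg)
  rwa [← Subtype.ext hk']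

/-- Existence and uniqueness of Ω: if F is finite, n ≥ 2, Q is a quadratic form on F^n with non-degenerate polar form and (|F|, n) ≠ (2, 4), then the group of isometries of determinant one has a unique subgroup of index 2. -/
theorem result {F : Type*} [Field F] [Fintype F] {n : ℕ} (hn : 2 ≤ n) (Q : QuadraticForm F (Fin n → F)) (hQ : (QuadraticMap.polarBilin Q).Nondegenerate) (h : Fintype.card F ≠ 2 ∨ n ≠ 4) : ∃! H : Subgroup ↥(Cfsg.specialIsometryGroup F ⇑Q), H.index = 2 := by
  let e : Cfsg.specialIsometryGroup F Q ≃* (detO Q).ker :=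
    { toFun := fun g => ⟨oEquivIsom Q g.1, (mem_specialIsometryGroup_iff _).1 g.2⟩
      invFun := fun g => ⟨(oEquivIsom Q).symm g.1, (mem_specialIsometryGroup_iff _).2 (by
        rw [MulEquiv.apply_symm_apply]; exact g.2)⟩
      left_inv := fun g => by simp
      right_inv := fun g => by simp
      map_mul' := fun g k => Subtype.ext (map_mul (oEquivIsom Q) g.1 k.1) }
  refine (e.mapSubgroup.toEquiv.existsUnique_congr fun H => ?_).2
    (aux hQ (not_exc_fin h) (by simpa))
  change _ ↔ (H.map (e : _ →* (detO Q).ker)).index = 2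
  rw [Subgroup.index_map_equiv]

end Cfsg.Agent.S0787
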