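import Cfsg.Statements.S0790
import Cfsg.Agent.Class.OrthOmega

set_option autoImplicit false
open Cfsg

namespace Cfsg.Agent.S0790

open Cfsg.Lib Cfsg.Lib.Class Cfsg.Lib.Class.Orth

theorem aux {F : Type*} [Field F] {ι : Type} [Fintype ι] [DecidableEq ι]
    (Q : QuadraticForm F (ι → F)) :
    (∃ g : ↥(Cfsg.isometryGroup F Q), g ∈ Cfsg.Omega F Q ∧
      ((g : Matrix.GeneralLinearGroup ι F) : Matrix ι ι F) = -1) ↔
      negO Q ∈ commutator (O Q) := by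
  have h : ∀ g : Cfsg.isometryGroup F Q, mat g = -1 ↔ oEquivIsom Q g = negO Q := fun g =>
    mat_eq_iff g _ _ fun x => by simp [Matrix.neg_mulVec]
  constructor
  · rintro ⟨g, hg, hg'⟩
    rwa [mem_Omega_iff, (h g).1 hg'] at hg
  · intro H
    exact ⟨(oEquivIsom Q).symm (negO Q), by simpa [mem_Omega_iff] using H, (h _).2 (by simp)⟩

/-- −1 ∈ Ω⁺_2m(q) iff q^m ≡ 1 (mod 4), for q odd and m ≥ 1 (so that in the other case SO⁺_2m(q) = 2 × Ω⁺_2m(q)). -/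
theorem result {F : Type*} [Field F] [Fintype F] {q : ℕ} (hF : Fintype.card F = q) (hodd : Odd q) (m : ℕ) (hm : 1 ≤ m) : (∃ g : ↥(Cfsg.isometryGroup F (Cfsg.quadFormPlus m F)), g ∈ Cfsg.Omega F (Cfsg.quadFormPlus m F) ∧ ((g : Matrix.GeneralLinearGroup (Fin m ⊕ Fin m) F) : Matrix (Fin m ⊕ Fin m) (Fin m ⊕ Fin m) F) = -1) ↔ q ^ m % 4 = 1 := by
  rw [← coe_quadPlus, aux, negO_mem_commutator_iff (quadPlus_nondegenerate m)
    (two_ne_zero_of_odd_card (hF ▸ hodd)) (m := m) (by simp; ring), Nat.card_eq_fintype_card, hF]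
  simp [Known.isPlus_quadPlus]

end Cfsg.Agent.S0790
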