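import Cfsg.Statements.S0791
import Cfsg.Agent.Class.OrthOmega
import Cfsg.Agent.S0790

set_option autoImplicit false
open Cfsg

namespace Cfsg.Agent.S0791

open Cfsg.Lib Cfsg.Lib.Class Cfsg.Lib.Class.Orth

/-- −1 ∈ Ω⁻_2m(q) iff q^m ≡ −1 (mod 4), for q odd and m ≥ 1; for the minus-type form quadFormMinus (m−1) with anisotropic binary part. -/
theorem result {F : Type*} [Field F] [Fintype F] {q : ℕ} (hF : Fintype.card F = q) (hodd : Odd q) (m : ℕ) (hm : 1 ≤ m) (a b : F) (hab : ∀ z₁ z₂ : F, z₁ ^ 2 + a * z₁ * z₂ + b * z₂ ^ 2 = 0 → z₁ = 0 ∧ z₂ = 0) : (∃ g : ↥(Cfsg.isometryGroup F (Cfsg.quadFormMinus (m - 1) F a b)), g ∈ Cfsg.Omega F (Cfsg.quadFormMinus (m - 1) F a b) ∧ ((g : Matrix.GeneralLinearGroup ((Fin (m - 1) ⊕ Fin (m - 1)) ⊕ Fin 2) F) : Matrix ((Fin (m - 1) ⊕ Fin (m - 1)) ⊕ Fin 2) ((Fin (m - 1) ⊕ Fin (m - 1)) ⊕ Fin 2) F) = -1) ↔ q ^ m % 4 = 3 := by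
  obtain ⟨k, rfl⟩ : ∃ k, m = k + 1 := ⟨m - 1, by omega⟩
  change (∃ g : ↥(Cfsg.isometryGroup F (Cfsg.quadFormMinus k F a b)),
    g ∈ Cfsg.Omega F (Cfsg.quadFormMinus k F a b) ∧ mat g = -1) ↔ _
  rw [← coe_quadMinus, S0790.aux, negO_mem_commutator_iff (quadMinus_nondegenerate k hab)
    (two_ne_zero_of_odd_card (hF ▸ hodd)) (m := k + 1) (by simp; ring), Nat.card_eq_fintype_card,
    hF]
  have := Known.pow_mod_four_eq_one_or hodd (k + 1)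
  simp only [Known.not_isPlus_quadMinus k hab, false_iff]
  omega

end Cfsg.Agent.S0791
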