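import Cfsg.Statements.S0792
import Cfsg.Agent.Class.OrthOmega

set_option autoImplicit false
open Cfsg

namespace Cfsg.Agent.S0792

open Cfsg.Lib Cfsg.Lib.Class Cfsg.Lib.Class.Orth

/-- For q odd and Q with non-degenerate polar form on F^n, the determinant-one isometries form the subgroup generated by all products r_u r_v of two reflections (Q(u), Q(v) ≠ 0). -/
theorem result {F : Type*} [Field F] [Fintype F] (h2 : (2 : F) ≠ 0) {n : ℕ} (Q : QuadraticForm F (Fin n → F)) (hQ : (QuadraticMap.polarBilin Q).Nondegenerate) : Cfsg.specialIsometryGroup F ⇑Q = Subgroup.closure {g : ↥(Cfsg.isometryGroup F ⇑Q) | ∃ u v : Fin n → F, Q u ≠ 0 ∧ Q v ≠ 0 ∧ ((g : Matrix.GeneralLinearGroup (Fin n) F) : Matrix (Fin n) (Fin n) F) = Cfsg.reflectionMatrix ⇑Q u * Cfsg.reflectionMatrix ⇑Q v} := by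
  rw [closure_eq_comap (T := {g | ∃ u v, Q u ≠ 0 ∧ Q v ≠ 0 ∧ g = refl Q u * refl Q v})
    (fun g => by simp only [Set.mem_ofPred_eq, ← mat_eq_refl_mul_refl_iff])]
  ext g
  rw [mem_specialIsometryGroup_iff, Subgroup.mem_comap, MonoidHom.coe_coe]
  generalize oEquivIsom Q g = k
  constructor
  · intro h
    exact mem_of_dick_eq_one hQ (not_exc_of_two_ne_zero h2)
      (fun a b ha hb => Subgroup.subset_closure (by exact ⟨a, b, ha, hb, rfl⟩))
      ((detO_eq_one_iff hQ h2 k).1 h)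
  · intro h
    have : Subgroup.closure {g | ∃ u v, Q u ≠ 0 ∧ Q v ≠ 0 ∧ g = refl Q u * refl Q v} ≤
        (detO Q).ker := by
      rw [Subgroup.closure_le]
      rintro _ ⟨u, v, hu, hv, rfl⟩
      simp [MonoidHom.mem_ker, detO_refl hu, detO_refl hv]
    exact this h

end Cfsg.Agent.S0792
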