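import Cfsg.Statements.S0794
import Cfsg.Agent.Class.OrthSimple

set_option autoImplicit false
open Cfsg

namespace Cfsg.Agent.S0794

open Cfsg.Lib Cfsg.Lib.Class Cfsg.Lib.Class.Orth
open scoped commutatorElement

theorem aux {G H : Type*} [Group G] [Group H] (e : G ≃* H) {g : G} {a b : H}
    (h : e g = ⁅a, b⁆) : g ∈ commutatorSet G :=
  ⟨e.symm a, e.symm b, e.injective (by rw [h, map_commutatorElement]; simp)⟩

/-- For q odd, n ≥ 5 and Q with non-degenerate polar form: an isometry whose matrix is a Siegel transformation T_(u,v)(c) (u, v singular and orthogonal) is a commutator in the isometry group, so lies in Ω. -/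
theorem result {F : Type*} [Field F] [Fintype F] (h2 : (2 : F) ≠ 0) {n : ℕ} (hn : 5 ≤ n) (Q : QuadraticForm F (Fin n → F)) (hQ : (QuadraticMap.polarBilin Q).Nondegenerate) (u v : Fin n → F) (hu : Q u = 0) (hv : Q v = 0) (huv : QuadraticMap.polar ⇑Q u v = 0) (c : F) (g : ↥(Cfsg.isometryGroup F ⇑Q)) (hg : ((g : Matrix.GeneralLinearGroup (Fin n) F) : Matrix (Fin n) (Fin n) F) = Cfsg.siegelMatrix ⇑Q u v c) : g ∈ commutatorSet ↥(Cfsg.isometryGroup F ⇑Q) ∧ g ∈ Cfsg.Omega F ⇑Q := by
  have hg' := (mat_eq_siegel_iff g hu hv huv c).1 hg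
  obtain ⟨b, w, h⟩ := siegel_eq_commutator hQ (by simpa) hv (v := c • u)
    (by rw [Q_smul, hu, mul_zero]) (by rw [polar_smul_right', QuadraticMap.polar_comm, huv, mul_zero])
  refine ⟨aux (oEquivIsom Q) (hg'.trans h), (mem_Omega_iff g).2 ?_⟩
  rw [hg']
  exact eich_mem_commutator hQ (not_exc_of_two_ne_zero h2) _ _

end Cfsg.Agent.S0794
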