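import Cfsg.Statements.S0795
import Cfsg.Agent.Class.OrthSimple

set_option autoImplicit false
open Cfsg

namespace Cfsg.Agent.S0795

open Cfsg.Lib Cfsg.Lib.Class Cfsg.Lib.Class.Orth

/-- Generation of Ω by root elements: for q odd, n ≥ 5 and Q with non-degenerate polar form on F^n, the commutator subgroup of the isometry group equals the subgroup generated by the isometries whose matrices are Siegel transformations T_(u,v)(c) with u, v singular and orthogonal. -/
theorem result {F : Type*} [Field F] [Fintype F] (h2 : (2 : F) ≠ 0) {n : ℕ} (hn : 5 ≤ n) (Q : QuadraticForm F (Fin n → F)) (hQ : (QuadraticMap.polarBilin Q).Nondegenerate) : Cfsg.Omega F ⇑Q = Subgroup.closure {g : ↥(Cfsg.isometryGroup F ⇑Q) | ∃ (u v : Fin n → F) (c : F), Q u = 0 ∧ Q v = 0 ∧ QuadraticMap.polar ⇑Q u v = 0 ∧ ((g : Matrix.GeneralLinearGroup (Fin n) F) : Matrix (Fin n) (Fin n) F) = Cfsg.siegelMatrix ⇑Q u v c} := by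
  rw [closure_eq_comap (T := {g | ∃ (u v : Fin n → F) (c : F), Q u = 0 ∧ Q v = 0 ∧
    QuadraticMap.polar Q u v = 0 ∧ g = eich Q v (c • u)}) (fun g => ?_)]
  · ext g
    rw [mem_Omega_iff, Subgroup.mem_comap, MonoidHom.coe_coe]
    generalize oEquivIsom Q g = k
    revert k
    rw [← SetLike.ext_iff]
    apply le_antisymm
    · exact commutator_le_of_siegel hQ (by simpa) fun u v _ hu hv huv => Subgroup.subset_closure
        ⟨v, u, 1, hv, hu, by rwa [QuadraticMap.polar_comm], by rw [one_smul]⟩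
    · rw [Subgroup.closure_le]
      rintro _ ⟨u, v, c, -, -, -, rfl⟩
      exact eich_mem_commutator hQ (not_exc_of_two_ne_zero h2) _ _
  · constructor
    · rintro ⟨u, v, c, hu, hv, huv, h⟩
      exact ⟨u, v, c, hu, hv, huv, (mat_eq_siegel_iff g hu hv huv c).1 h⟩
    · rintro ⟨u, v, c, hu, hv, huv, h⟩
      exact ⟨u, v, c, hu, hv, huv, (mat_eq_siegel_iff g hu hv huv c).2 h⟩

end Cfsg.Agent.S0795
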