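import Cfsg.Statements.S0796


set_option autoImplicit false
open Cfsg

namespace Cfsg.Agent.S0796

/-- If G is finite and acts faithfully and primitively on X, H is the stabiliser of a point, A is a normal subgroup of H whose normal closure in G is G, then for every non-trivial normal subgroup K of G the quotient G ⧸ K is isomorphic to A ⧸ B for some normal subgroup B of A. -/
theorem result {G X : Type*} [Group G] [Finite G] [MulAction G X] [FaithfulSMul G X] (hprim : MulAction.IsPreprimitive G X) (x : X) (A : Subgroup G) (hA : A ≤ MulAction.stabilizer G x) (hAn : (A.subgroupOf (MulAction.stabilizer G x)).Normal) (hgen : Subgroup.normalClosure (A : Set G) = ⊤) (K : Subgroup G) [K.Normal] (hK : K ≠ ⊥) : ∃ (B : Subgroup A) (_ : B.Normal), Nonempty (G ⧸ K ≃* A ⧸ B) := by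
  have hfix : MulAction.fixedPoints K X ≠ Set.univ := by
    intro h
    apply hK
    rw [eq_bot_iff]
    intro k hk
    rw [Subgroup.mem_bot]
    apply FaithfulSMul.eq_of_smul_eq_smul (α := X)
    intro y
    rw [one_smul]
    exact (Set.eq_univ_iff_forall.1 h y) ⟨k, hk⟩
  have htr : MulAction.IsPretransitive K X :=
    MulAction.IsQuasiPreprimitive.isPretransitive_of_normal hfix
  let φ : A →* G ⧸ K := (QuotientGroup.mk' K).comp A.subtype
  have hnorm : (A.map (QuotientGroup.mk' K)).Normal := by
    refine ⟨?_⟩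
    rintro _ ⟨a, ha, rfl⟩ g
    obtain ⟨g, rfl⟩ := QuotientGroup.mk'_surjective K g
    obtain ⟨k, hk⟩ := MulAction.exists_smul_eq K (g • x) x
    have hh : (k : G) * g ∈ MulAction.stabilizer G x := by
      rw [MulAction.mem_stabilizer_iff, mul_smul]
      exact hk
    have h1 := hAn.conj_mem ⟨a, hA ha⟩ (by simpa [Subgroup.mem_subgroupOf] using ha) ⟨_, hh⟩
    rw [Subgroup.mem_subgroupOf] at h1
    refine ⟨_, h1, ?_⟩
    have hk1 : QuotientGroup.mk' K (k : G) = 1 := (QuotientGroup.eq_one_iff _).2 k.2
    simp only [Subgroup.coe_mul, Subgroup.coe_inv, map_mul, map_inv, hk1, one_mul]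
  have htop : A.map (QuotientGroup.mk' K) = ⊤ := by
    have h1 : Subgroup.normalClosure (A : Set G) ≤
        (A.map (QuotientGroup.mk' K)).comap (QuotientGroup.mk' K) :=
      Subgroup.normalClosure_le_normal fun a ha => ⟨a, ha, rfl⟩
    rw [hgen] at h1
    refine top_unique fun y _ => ?_
    obtain ⟨g, rfl⟩ := QuotientGroup.mk'_surjective K y
    exact h1 (Subgroup.mem_top g)
  have hφ : Function.Surjective φ := by
    intro y
    obtain ⟨a, ha, rfl⟩ := htop.ge (Subgroup.mem_top y)
    exact ⟨⟨a, ha⟩, rfl⟩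
  exact ⟨φ.ker, inferInstance, ⟨(QuotientGroup.quotientKerEquivOfSurjective φ hφ).symm⟩⟩

end Cfsg.Agent.S0796
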