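import Cfsg.Statements.S0797
import Cfsg.Agent.Class.OrthOmega

set_option autoImplicit false
open Cfsg

namespace Cfsg.Agent.S0797

open Cfsg.Lib Cfsg.Lib.Class Cfsg.Lib.Class.Orth

open Module in
theorem aux {F V : Type*} [Field F] [Finite F] [AddCommGroup V] [Module F V]
    [FiniteDimensional F V] {Q : QuadraticForm F V}
    (hQ : (QuadraticMap.polarBilin Q).Nondegenerate) (h2 : (2 : F) ≠ 0) (hn : 2 ≤ finrank F V) :
    Nat.card {H : Subgroup (O Q) // H.index = 2} = 3 := by
  have hE := not_exc_of_two_ne_zero (Q := Q) h2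
  obtain ⟨a, b, ha, hb, h1, h3⟩ := exists_refl_pair hQ h2 hn
  have hda : dickHom hQ hE (refl Q a) = -1 := dick_refl hQ ha
  have hdb : dickHom hQ hE (refl Q b) = -1 := dick_refl hQ hb
  have : {H : Subgroup (O Q) | H.index = 2} =
      {(dickHom hQ hE).ker, (spin hQ h2).ker, (dickHom hQ hE * spin hQ h2).ker} := by
    ext H
    constructor
    · intro hH
      obtain ⟨α, β, hα, hβ, H'⟩ := exists_hom_eq_odd hQ h2 (idxHom H hH)
      have e1 : ∀ u, pmHom (1 : ℤˣ) (by simp) u = 1 := fun u => by simp [pmHom]
      have e2 : ∀ u, pmHom (-1 : ℤˣ) (by simp) u = u := fun u => by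
        rcases Int.units_eq_one_or u with rfl | rfl <;> simp
      rw [← ker_idxHom H hH]
      rcases Int.units_eq_one_or α with rfl | rfl <;> rcases Int.units_eq_one_or β with rfl | rfl
      · exfalso
        have : H = ⊤ := by
          rw [← ker_idxHom H hH, eq_top_iff]
          intro g _
          rw [MonoidHom.mem_ker, H', e1, e1, one_mul]
        rw [this] at hH
        simp at hH
      · right; left
        congr 1; ext g; rw [H', e1, e2, one_mul]
      · left
        congr 1; ext g; rw [H', e1, e2, mul_one]; rfl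
      · right; right
        change _ = _
        congr 1; ext g; rw [H', e2, e2]; rfl
    · rintro (rfl | rfl | rfl)
      · exact index_ker_eq_two _ hda
      · exact index_ker_eq_two _ h3
      · exact index_ker_eq_two _ (g := refl Q a) (by rw [MonoidHom.mul_apply, hda, h1, mul_one])
  change Nat.card {H : Subgroup (O Q) | H.index = 2} = 3
  rw [this, Nat.card_coe_set_eq, Set.ncard_eq_three]
  refine ⟨_, _, _, fun h => ?_, fun h => ?_, fun h => ?_, rfl⟩
  · have : refl Q a ∈ (spin hQ h2).ker := h1
    rw [← h, MonoidHom.mem_ker, hda] at this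
    exact absurd this (by decide)
  · have : refl Q b ∈ (dickHom hQ hE * spin hQ h2).ker := by
      rw [MonoidHom.mem_ker, MonoidHom.mul_apply, hdb, h3]; simp
    rw [← h, MonoidHom.mem_ker, hdb] at this
    exact absurd this (by decide)
  · have : refl Q a ∈ (spin hQ h2).ker := h1
    rw [h, MonoidHom.mem_ker, MonoidHom.mul_apply, hda, h1] at this
    exact absurd this (by decide)

/-- O^ε_2m(q) ≅ Ω.2² for q odd: if F is finite of odd characteristic, n ≥ 2 is even and Q has non-degenerate polar form on F^n, the isometry group of Q has exactly three subgroups of index 2. -/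
theorem result {F : Type*} [Field F] [Fintype F] (h2 : (2 : F) ≠ 0) {n : ℕ} (hn : 2 ≤ n) (heven : Even n) (Q : QuadraticForm F (Fin n → F)) (hQ : (QuadraticMap.polarBilin Q).Nondegenerate) : Nat.card {H : Subgroup ↥(Cfsg.isometryGroup F ⇑Q) // H.index = 2} = 3 := by
  rw [← aux hQ h2 (by simpa)]
  refine Nat.card_congr (Equiv.subtypeEquiv (oEquivIsom Q).mapSubgroup.toEquiv fun H => ?_)
  change _ ↔ (H.map (oEquivIsom Q : _ →* O Q)).index = 2
  rw [Subgroup.index_map_equiv]

end Cfsg.Agent.S0797
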