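import Cfsg.Statements.S0798
import Cfsg.Agent.Class.OrthTwo

set_option autoImplicit false
open Cfsg

namespace Cfsg.Agent.S0798

open Cfsg.Lib Cfsg.Lib.Class Cfsg.Lib.Class.Orth

/-- For q odd, n ≥ 2 even, Q with non-degenerate polar form (n, |F|) ≠ (4, 3), and a fixed c ≠ 0: the subgroup of the isometry group generated by the reflections r_v with Q(v) ∈ c·(F^×)² has index 2. -/
theorem result {F : Type*} [Field F] [Fintype F] (h2 : (2 : F) ≠ 0) {n : ℕ} (hn : 2 ≤ n) (heven : Even n) (Q : QuadraticForm F (Fin n → F)) (hQ : (QuadraticMap.polarBilin Q).Nondegenerate) (h43 : ¬ (n = 4 ∧ Fintype.card F = 3)) (c : F) (hc : c ≠ 0) : (Subgroup.closure {g : ↥(Cfsg.isometryGroup F ⇑Q) | ∃ (v : Fin n → F) (t : F), t ≠ 0 ∧ Q v = c * t ^ 2 ∧ ((g : Matrix.GeneralLinearGroup (Fin n) F) : Matrix (Fin n) (Fin n) F) = Cfsg.reflectionMatrix ⇑Q v}).index = 2 := by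
  rw [closure_eq_comap (T := {g | ∃ (v : Fin n → F) (t : F), t ≠ 0 ∧ Q v = c * t ^ 2 ∧ g = refl Q v})
    (fun g => by simp only [Set.mem_ofPred_eq, ← mat_eq_refl_iff]),
    Subgroup.index_comap_of_surjective _ (oEquivIsom Q).surjective]
  refine index_reflClass hQ h2 ?_ hc
  rw [Module.finrank_fin_fun]
  obtain ⟨k, rfl⟩ := heven
  by_cases h4 : k + k = 4
  · refine Or.inr (Or.inr ⟨h4, exists_sq_ne_one ?_⟩)
    have h5 : Fintype.card F ≠ 3 := fun h => h43 ⟨h4, h⟩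
    obtain ⟨l, hl⟩ := odd_card_of_two_ne_zero h2
    have := Fintype.one_lt_card (α := F)
    omega
  · omega

end Cfsg.Agent.S0798
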