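import Cfsg.Statements.S0800
import Cfsg.Agent.Known.SL2Orders

set_option autoImplicit false
open Cfsg

namespace Cfsg.Agent.S0800

open Cfsg.Lib.Known.GL2 Matrix

/-- Tori of SL_2(q): if g ∈ SL_2(q) has order coprime to the characteristic p, then the order of g divides q − 1 or q + 1. -/
theorem result {F : Type*} [Field F] [Fintype F] {q : ℕ} (hF : Fintype.card F = q) (p : ℕ) [Fact p.Prime] [CharP F p] (g : Matrix.SpecialLinearGroup (Fin 2) F) (hg : Nat.Coprime (orderOf g) p) : orderOf g ∣ q - 1 ∨ orderOf g ∣ q + 1 := by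
  subst hF
  have h1 : ¬ p ∣ orderOf g := (Nat.Prime.coprime_iff_not_dvd Fact.out).1 hg.symm
  by_cases h2 : orderOf g ∣ Fintype.card F - 1
  · exact Or.inl h2
  · exact Or.inr (orderOf_dvd_of_pow_eq_one
      (pow_card_add_one_of_isEll_SL (isEll_of_orderOf_SL p h1 h2)))

end Cfsg.Agent.S0800
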