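import Cfsg.Statements.S0802
import Cfsg.Agent.Class.PGL2Poly

set_option autoImplicit false
open Cfsg

namespace Cfsg.Agent.S0802

open Cfsg.Lib.Class

/-- PSL_2(p^n) has a subgroup isomorphic to A_4 if and only if it is not the case that p = 2 and n is odd. -/
theorem result {F : Type*} [Field F] [Fintype F] (p n : ℕ) [Fact p.Prime] [CharP F p] (hF : Fintype.card F = p ^ n) : (∃ H : Subgroup (Matrix.ProjectiveSpecialLinearGroup (Fin 2) F), Nonempty (H ≃* alternatingGroup (Fin 4))) ↔ ¬ (p = 2 ∧ Odd n) := by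
  have hq : Nat.card F = p ^ n := by rw [Nat.card_eq_fintype_card, hF]
  constructor
  · rintro ⟨H, e⟩ ⟨rfl, k, rfl⟩
    have e' := e.map fun e => (mapPslιEquiv H).symm.trans e
    have h12 := card_of_equiv_A4 e'
    rcases dickson_pgl' 2 (H.map pslι) with ⟨x, hx⟩ | ⟨x, y, hT, _, hH⟩ | ⟨h, _⟩ | ⟨h, _⟩ |
      ⟨F₀, c, h3, h⟩
    · have h1 := Subgroup.card_dvd_of_le hx
      rw [card_stabilizer_pgl2, h12, hq] at h1
      have h2 : 2 ^ (2 * k + 1) % 3 = 2 := by
        rw [pow_succ, pow_mul, Nat.mul_mod, Nat.pow_mod]; simp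
      generalize 2 ^ (2 * k + 1) = q at *
      rcases (Nat.Prime.dvd_mul Nat.prime_three).1 (Dvd.dvd.trans (by norm_num) h1) with h | h <;>
        omega
    · exact IsPoly.not_le_stabPair (Or.inl e') hT.ne hH
    · exact h (by rw [h12]; norm_num)
    · omega
    · have h1 := IsSubfieldType.le_card h
      obtain ⟨m, _, hm⟩ := exists_card_eq_subfield_pow F₀
      rw [h12] at h1
      have h4 : Nat.card F₀ ≠ 3 := by
        intro h'
        rw [hq, h'] at hm
        have : 2 ∣ 3 ^ m := hm ▸ dvd_pow_self 2 (by omega)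
        exact absurd (Nat.prime_two.dvd_of_dvd_pow this) (by norm_num)
      have : 4 * 3 * 5 ≤ Nat.card F₀ * (Nat.card F₀ - 1) * (Nat.card F₀ + 1) :=
        Nat.mul_le_mul (Nat.mul_le_mul (by omega) (by omega)) (by omega)
      omega
  · intro h
    by_cases hp : p = 2
    · subst hp
      obtain ⟨k, rfl⟩ : Even n := Nat.not_odd_iff_even.1 fun h' => h ⟨rfl, h'⟩
      have h5 : 5 ∣ Nat.card F * (Nat.card F - 1) * (Nat.card F + 1) := by
        rw [mul_assoc, mul_comm (Nat.card F - 1), ← Nat.sq_sub_sq, one_pow, hq]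
        refine Dvd.dvd.mul_left ?_ _
        rw [← pow_mul, show (k + k) * 2 = 4 * k by ring, pow_mul]
        refine (Nat.modEq_iff_dvd' (Nat.one_le_pow _ _ (by norm_num))).1 ?_
        simpa using (Nat.ModEq.pow k (show 1 ≡ 2 ^ 4 [MOD 5] by decide))
      obtain ⟨H, e⟩ := exists_A5 h5
      obtain ⟨H₁, _, e₁⟩ := exists_A4_le_of_A5 e
      exact exists_subgroup_psl_mulEquiv (le_psl2_of_A4 e₁) e₁
    · obtain ⟨H, e⟩ := exists_A4 ((two_ne_zero_iff_char (F := F) p).2 hp)
      exact exists_subgroup_psl_mulEquiv (le_psl2_of_A4 e) e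

end Cfsg.Agent.S0802
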