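import Cfsg.Statements.S0803
import Cfsg.Agent.Class.PGL2Poly

set_option autoImplicit false
open Cfsg

namespace Cfsg.Agent.S0803

open Cfsg.Lib.Class

/-- PSL_2(q) has a subgroup isomorphic to S_4 iff q² ≡ 1 (mod 16). -/
theorem result {F : Type*} [Field F] [Fintype F] {q : ℕ} (hF : Fintype.card F = q) : (∃ H : Subgroup (Matrix.ProjectiveSpecialLinearGroup (Fin 2) F), Nonempty (H ≃* Equiv.Perm (Fin 4))) ↔ q ^ 2 % 16 = 1 := by
  have hq : Nat.card F = q := by rw [Nat.card_eq_fintype_card, hF]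
  have key : q ^ 2 % 16 = 1 ↔ q % 8 = 1 ∨ q % 8 = 7 := by
    rw [Nat.pow_mod]
    have h1 : q % 16 < 16 := Nat.mod_lt _ (by norm_num)
    have h2 : q % 8 = q % 16 % 8 := (Nat.mod_mod_of_dvd q (by norm_num)).symm
    rw [h2]
    generalize q % 16 = r at *
    interval_cases r <;> simp
  rw [key, ← hq]
  constructor
  · rintro ⟨H, e⟩
    exact mod_eight_of_S4_le_psl2 (e.map fun e => (mapPslιEquiv H).symm.trans e) (map_pslι_le H)
  · intro h
    have h2 : (2 : F) ≠ 0 := two_ne_zero_iff_odd.2 (Nat.odd_iff.2 (by omega))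
    obtain ⟨H, e⟩ := exists_S4 h2
    exact exists_subgroup_psl_mulEquiv ((le_psl2_iff_of_S4 h2 e).2
      (isSquare_two_iff'.2 (by omega))) e

end Cfsg.Agent.S0803
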