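import Cfsg.Statements.S0805
import Cfsg.Agent.Class.PSL2Subfield

set_option autoImplicit false
open Cfsg

namespace Cfsg.Agent.S0805

open Cfsg.Lib.Class

/-- Subfield subgroups: let F be a finite field of odd order q and K a finite field with |K|^m = q, m ≥ 1. Then PSL_2(F) has a subgroup isomorphic to PSL_2(K), and has a subgroup isomorphic to PGL_2(K) if and only if m is even. -/
theorem result {F K : Type*} [Field F] [Fintype F] [Field K] [Fintype K] {q : ℕ} (hF : Fintype.card F = q) (hodd : Odd q) (m : ℕ) (hm : 1 ≤ m) (hK : Fintype.card K ^ m = q) : (∃ H : Subgroup (Matrix.ProjectiveSpecialLinearGroup (Fin 2) F), Nonempty (H ≃* Matrix.ProjectiveSpecialLinearGroup (Fin 2) K)) ∧ ((∃ H : Subgroup (Matrix.ProjectiveSpecialLinearGroup (Fin 2) F), Nonempty (H ≃* Matrix.ProjGenLinGroup (Fin 2) K)) ↔ Even m) := by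
  have hq : Nat.card F = Nat.card K ^ m := by
    rw [Nat.card_eq_fintype_card, Nat.card_eq_fintype_card, hF, hK]
  have h2 : (2 : F) ≠ 0 := two_ne_zero_iff_odd.2 (by rwa [Nat.card_eq_fintype_card, hF])
  obtain ⟨F₀, ⟨φ⟩⟩ := exists_subfield_ringEquiv hq
  refine ⟨exists_subgroup_psl_mulEquiv (pslSub_le_psl2 F₀)
    ⟨(pslSubEquiv F₀).symm.trans (pslEquiv (Fin 2) φ.symm)⟩, ?_, fun he => ?_⟩
  · rintro ⟨H, ⟨e⟩⟩
    by_contra ho
    refine not_card_eq_of_odd h2 (two_le_card_field K) hq (Nat.not_even_iff_odd.1 ho)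
      (map_pslι_le H) ?_
    rw [card_map_pslι, Nat.card_congr e.toEquiv, card_PGL2]
  · exact exists_subgroup_psl_mulEquiv
      (pglSub_le_psl2_of_even h2 (by rw [hq, Nat.card_congr φ.toEquiv]) he)
      ⟨(pglSubEquiv F₀).symm.trans (pglEquiv (Fin 2) φ.symm)⟩

end Cfsg.Agent.S0805
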