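import Cfsg.Statements.S0809
import Cfsg.Agent.Known.SL2Sylow

set_option autoImplicit false
open Cfsg

namespace Cfsg.Agent.S0809

open Cfsg.Lib.Known Cfsg.Lib.Known.GL2 Matrix

/-- In SL_2(q), q odd: any two subgroups of order 4 are conjugate, and the normaliser of a subgroup of order 4 has order 2(q − 1) if q ≡ 1 (mod 4) and 2(q + 1) if q ≡ 3 (mod 4); consequently all involutions of PSL_2(q) are conjugate. -/
theorem result {F : Type*} [Field F] [Fintype F] {q : ℕ} (hF : Fintype.card F = q) (hodd : Odd q) (A : Subgroup (Matrix.SpecialLinearGroup (Fin 2) F)) (hA : Nat.card A = 4) : (∀ B : Subgroup (Matrix.SpecialLinearGroup (Fin 2) F), Nat.card B = 4 → ∃ g : Matrix.SpecialLinearGroup (Fin 2) F, B = A.map (MulAut.conj g).toMonoidHom) ∧ (q % 4 = 1 → Nat.card ↥(Subgroup.normalizer (A : Set (Matrix.SpecialLinearGroup (Fin 2) F))) = 2 * (q - 1)) ∧ (q % 4 = 3 → Nat.card ↥(Subgroup.normalizer (A : Set (Matrix.SpecialLinearGroup (Fin 2) F))) = 2 * (q + 1))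 ∧ (∀ x y : Matrix.ProjectiveSpecialLinearGroup (Fin 2) F, orderOf x = 2 → orderOf y = 2 → IsConj x y) := by
  subst hF
  have h2 := two_ne_zero_of_odd hodd
  have := (slLin F).finite
  have key : ∀ B : Subgroup (SL2 F), Nat.card B = 4 →
      ∃ i, ((slLin F).ρ i).trace = 0 ∧ B = Subgroup.zpowers i := by
    intro B hB
    have : ¬ B ≤ (slLin F).Z := fun h => by
      have := Subgroup.card_le_of_le h
      rw [hB, card_Z_SL h2] at this
      omega
    obtain ⟨i, hi, ht, -⟩ := exists_le_normalizer_of_two_group h2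
      (IsPGroup.of_card (n := 2) hB) this
    refine ⟨i, ht, (Subgroup.eq_of_le_of_card_ge (Subgroup.zpowers_le.2 hi) ?_).symm⟩
    rw [hB, Nat.card_zpowers, (orderOf_eq_four_iff_SL h2).2 ht]
  obtain ⟨i, hi, rfl⟩ := key A hA
  have hN : Nat.card (Subgroup.normalizer (Subgroup.zpowers i : Set (SL2 F))) =
      2 * Nat.card (Subgroup.centralizer ({i} : Set (SL2 F))) := by
    rw [IsTorus_normalizer_eq_SL (isTorus_of_trace h2 hi)
      (Subgroup.zpowers_le.2 (Subgroup.mem_centralizer_singleton_iff.2 rfl))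
      ⟨i, Subgroup.mem_zpowers i, not_mem_Z_of_trace_SL h2 hi⟩,
      (isTorus_of_trace h2 hi).card_normalizer (exists_not_mem_Z_of_trace h2 hi)]
  refine ⟨fun B hB => ?_, fun hq => ?_, fun hq => ?_, fun x y => isConj_of_orderOf_two_PSL⟩
  · obtain ⟨j, hj, rfl⟩ := key B hB
    obtain ⟨g, rfl⟩ := isConj_iff.1 (isConj_of_trace_zero_SL h2 hi hj)
    exact ⟨g, by rw [MonoidHom.map_zpowers]; rfl⟩
  · rcases card_centralizer_of_trace h2 hi with ⟨-, e⟩ | ⟨e, -⟩
    · rw [hN, e]
    · omega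
  · rcases card_centralizer_of_trace h2 hi with ⟨e, -⟩ | ⟨-, e⟩
    · omega
    · rw [hN, e]

end Cfsg.Agent.S0809
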