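import Cfsg.Statements.S0818
import Cfsg.Agent.Known.OrthOutMat

set_option autoImplicit false
open Cfsg

namespace Cfsg.Agent.S0818

open Cfsg.Lib.Known Cfsg.Lib.Class Cfsg.Lib.Class.Orth QuadraticMap Module

/-- |Aut(PΩ⁻_2m(q))| for q = p^f, m ≥ 4 (form quadFormMinus (m−1) with anisotropic binary part): |PΩ⁻_2m(q)| times f, times 2 if p = 2, and times 4 or 8 if p is odd according as m(q−1)/2 is even or odd. -/
theorem result {F : Type*} [Field F] [Fintype F] (p f : ℕ) [Fact p.Prime] (hf : 1 ≤ f) (hF : Fintype.card F = p ^ f) (m : ℕ) (hm : 4 ≤ m) (a b : F) (hab : ∀ z₁ z₂ : F, z₁ ^ 2 + a * z₁ * z₂ + b * z₂ ^ 2 = 0 → z₁ = 0 ∧ z₂ = 0) : Nat.card (MulAut (Cfsg.POmega F (Cfsg.quadFormMinus (m - 1) F a b))) = (if p = 2 then 2 else (if Even (m * (p ^ f - 1) / 2) then 4 else 8)) * f * Nat.card (Cfsg.POmega F (Cfsg.quadFormMinus (m - 1) F a b)) := by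
  have : NeZero f := ⟨by omega⟩
  rw [← coe_quadMinus, card_aut_eq (bigO_quadMinus (by omega) hab)
    (rhoM_surjective_minus (by omega) hab)]
  congr 1
  split_ifs with h1 h2
  · subst h1
    obtain ⟨e⟩ := nonempty_outG_minus_two hf hF hab (m := m - 1) (by omega)
    simp [Nat.card_congr e.toEquiv]
  · have ho := ((Fact.out : p.Prime).odd_of_ne_two h1).pow (n := f)
    rw [← pow_mod_four_eq_one_iff ho, ← not_not (a := _ = _), pow_mod_four_eq_three_iff ho] at h2
    obtain ⟨e⟩ := nonempty_outG_minus_twisted hf hF h1 hab (m := m - 1)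
      fun h' => h2 ⟨by
        have := h'.1
        rw [Nat.even_iff] at this
        rw [Nat.odd_iff]; omega, h'.2⟩
    simp [Nat.card_congr e.toEquiv]; ring
  · have ho := ((Fact.out : p.Prime).odd_of_ne_two h1).pow (n := f)
    rw [← pow_mod_four_eq_one_iff ho, pow_mod_four_eq_three_iff ho] at h2
    obtain ⟨e⟩ := nonempty_outG_minus_dihedral hf hF h1 hab (m := m - 1)
      ⟨h2.1.tsub_odd odd_one, h2.2⟩
    simp [Nat.card_congr e.toEquiv, DihedralGroup.card]

end Cfsg.Agent.S0818
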