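import Cfsg.Statements.S0829
import Cfsg.Agent.Class.HermParab

set_option autoImplicit false
open Cfsg

namespace Cfsg.Agent.S0829

open Cfsg.Lib.Class Cfsg.Lib.Class.Form

/-- The unitary quadrangle of PSU_4(q): with |F| = q², the number of 2-dimensional subspaces of F^4 on which the Hermitian form Σ x_i y_i^q vanishes is (q + 1)(q³ + 1). -/
theorem result {F : Type*} [Field F] [Fintype F] {q : ℕ} (hF : Fintype.card F = q ^ 2) : Nat.card {W : Submodule F (Fin 4 → F) // Module.finrank F W = 2 ∧ ∀ u ∈ W, ∀ v ∈ W, Cfsg.hermForm 4 F q u v = 0} = (q + 1) * (q ^ 3 + 1) := by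
  have h := herm_hermSesq hF 4
  have h2 := two_le_of_card_sq hF
  have := h.card_totIso hF (k := 2) (m := 0) (Module.finrank_fin_fun F)
  have e : Nat.card {W : Submodule F (Fin 4 → F) // Module.finrank F W = 2 ∧ ∀ u ∈ W, ∀ v ∈ W, Cfsg.hermForm 4 F q u v = 0} = Nat.card {W : Submodule F (Fin 4 → F) // Module.finrank F W = 2 ∧ TotIso (hermSesq hF 4) W} :=
    Nat.card_congr (Equiv.subtypeEquivRight fun W => and_congr_right fun _ =>
      ⟨fun hW u hu v hv => hW v hv u hu, fun hW u hu v hv => hW v hv u hu⟩)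
  rw [e]
  generalize Nat.card {W : Submodule F (Fin 4 → F) // Module.finrank F W = 2 ∧ TotIso (hermSesq hF 4) W} = N at this
  simp only [guOrder, Finset.prod_range_succ, Fin.prod_univ_succ] at this
  norm_num [Nat.even_add_one] at this
  have h1 : 1 ≤ q ^ 2 := Nat.one_le_pow _ _ (by omega)
  have h3 : 1 ≤ q ^ 4 := Nat.one_le_pow _ _ (by omega)
  have h4 : 1 ≤ (q ^ 2) ^ 2 := Nat.one_le_pow _ _ (by omega)
  have h5 : q ^ 2 ≤ (q ^ 2) ^ 2 := by nlinarith
  zify [h1, h3, h4, h5] at this ⊢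
  have hq : (2 : ℤ) ≤ q := by exact_mod_cast h2
  have h6 : (q : ℤ) ^ 6 * ((q ^ 4 - 1) * (q ^ 2 - 1)) ≠ 0 := by
    have : (1 : ℤ) < q ^ 4 := one_lt_pow₀ (by omega) (by omega)
    have : (1 : ℤ) < q ^ 2 := one_lt_pow₀ (by omega) (by omega)
    have : (0 : ℤ) < q ^ 6 := by positivity
    exact (mul_pos this (mul_pos (by omega) (by omega))).ne'
  apply mul_right_cancel₀ h6
  linear_combination this

end Cfsg.Agent.S0829
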