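import Cfsg.Statements.S0831
import Cfsg.Agent.Class.MaxSingular

set_option autoImplicit false
open Cfsg

namespace Cfsg.Agent.S0831

/-- The two families of maximal totally singular subspaces of the hyperbolic quadric: for the form Σ x_i y_i on F^(2m), m ≥ 1, and m-dimensional subspaces U, W, X on which it vanishes, the parities of m − dim(U ∩ W), m − dim(W ∩ X) and m − dim(U ∩ X) sum to an even number (so 'even codimension of the intersection' is an equivalence relation), and there exist two such subspaces meeting in codimension 1 (so there are exactly two classes). -/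
theorem result {F : Type*} [Field F] (m : ℕ) (hm : 1 ≤ m) : (∀ U W X : Submodule F (Fin m ⊕ Fin m → F), (Module.finrank F U = m ∧ ∀ w ∈ U, Cfsg.quadFormPlus m F w = 0) → (Module.finrank F W = m ∧ ∀ w ∈ W, Cfsg.quadFormPlus m F w = 0) → (Module.finrank F X = m ∧ ∀ w ∈ X, Cfsg.quadFormPlus m F w = 0) → Even ((m - Module.finrank F ↥(U ⊓ W)) + (m - Module.finrank F ↥(W ⊓ X)) + (m - Module.finrank F ↥(U ⊓ X)))) ∧ ∃ U W : Submodule F (Fin m ⊕ Fin m → F), (Module.finrank F U = m ∧ ∀ w ∈ U, Cfsg.quadFormPlus m F w = 0) ∧ (Module.finrank F W = m ∧ ∀ w ∈ W, Cfsg.quadFormPlus m F w = 0) ∧ Module.finrank F ↥(U ⊓ W) + 1 = m := by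
  have hQ := Cfsg.Lib.Class.quadPlus_nondegenerate (F := F) m
  have hV : Module.finrank F (Fin m ⊕ Fin m → F) = 2 * m := by simp [two_mul]
  refine ⟨fun U W X hU hW hX => Cfsg.Lib.Class.even_codim_inf_add hQ hV hU.1 hW.1 hX.1
    (by simpa using hU.2) (by simpa using hW.2) (by simpa using hX.2), ?_⟩
  have hh := Cfsg.Lib.Known.isHyp_quadPlus (F := F) m
  have fam : ∀ e f : Fin m → (Fin m ⊕ Fin m → F),
      Cfsg.Lib.Known.IsHyp (Cfsg.Lib.Class.quadPlus m F) e f →
      Module.finrank F (Submodule.span F (Set.range e)) = m ∧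
        ∀ w ∈ Submodule.span F (Set.range e), Cfsg.Lib.Class.quadPlus m F w = 0 := by
    intro e f h
    have hli : LinearIndependent F e := h.linearIndependent.comp Sum.inl Sum.inl_injective
    refine ⟨(finrank_span_eq_card hli).trans (Fintype.card_fin m), fun w hw => ?_⟩
    obtain ⟨c, rfl⟩ := (Submodule.mem_span_range_iff_exists_fun F).1 hw
    exact Cfsg.Lib.Known.quad_sum_smul_eq_zero _ _ _ h.qe h.ee c
  obtain ⟨r1, s1⟩ := fam _ _ hh
  obtain ⟨r2, s2⟩ := fam _ _ hh.symm
  obtain ⟨W', a, b, c, -⟩ := Cfsg.Lib.Class.exists_adjacent_closer hQ hV r1 r2 s1 s2 (by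
    intro h
    have i : Fin m := ⟨0, hm⟩
    have h1 : (Pi.single (Sum.inr i) 1 : Fin m ⊕ Fin m → F) ∈ Submodule.span F
        (Set.range fun i : Fin m => (Pi.single (Sum.inl i) 1 : Fin m ⊕ Fin m → F)) :=
      h ▸ Submodule.subset_span ⟨i, rfl⟩
    have h2 := Cfsg.Lib.Known.polar_eq_zero_of_forall_mem s1
      (Submodule.subset_span ⟨i, rfl⟩) h1
    rw [hh.ef] at h2
    simp at h2)
  exact ⟨_, W', ⟨r1, by simpa using s1⟩, ⟨a, by simpa using b⟩, c⟩

end Cfsg.Agent.S0831
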