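import Cfsg.Statements.S0835
import Cfsg.Agent.Class.PlusDet

set_option autoImplicit false
open Cfsg

namespace Cfsg.Agent.S0835

/-- Over a finite field with 2 ≠ 0: if B₁ on U (dim 2k, k ≥ 1) is non-degenerate symmetric of minus type (no totally isotropic k-subspace) and B₂ on W (dim 2l + 1) is non-degenerate symmetric, then B₁ ⊗ B₂ (dimension 2k(2l+1)) admits no totally isotropic subspace of dimension k(2l+1) (minus type). -/
theorem result {F U W : Type*} [Field F] [Fintype F] [AddCommGroup U] [Module F U] [FiniteDimensional F U] [AddCommGroup W] [Module F W] [FiniteDimensional F W] (h2 : (2 : F) ≠ 0) (B₁ : LinearMap.BilinForm F U) (B₂ : LinearMap.BilinForm F W) (h₁ : B₁.Nondegenerate) (h₂ : B₂.Nondegenerate) (hS₁ : B₁.IsSymm) (hS₂ : B₂.IsSymm) (k l : ℕ) (hk : 1 ≤ k) (hU : Module.finrank F U = 2 * k) (hW : Module.finrank F W = 2 * l + 1) (hm₁ : ¬ (∃ X : Submodule F (U), Module.finrank F X = k ∧ ∀ x ∈ X, ∀ y ∈ X, (B₁) x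 y = 0)) : ¬ (∃ X : Submodule F (TensorProduct F U W), Module.finrank F X = k * (2 * l + 1) ∧ ∀ x ∈ X, ∀ y ∈ X, (B₁.tmul B₂) x y = 0) := by
  have hS : LinearMap.BilinForm.IsSymm (B₁.tmul B₂) :=
    LinearMap.BilinForm.isSymm_iff.2 (LinearMap.IsSymm.tmul
      (LinearMap.BilinForm.isSymm_iff.1 hS₁) (LinearMap.BilinForm.isSymm_iff.1 hS₂))
  rw [Cfsg.Lib.Class.exists_isotropic_half_iff_isSquare h2
    ((Module.finBasis F U).tensorProduct (Module.finBasis F W)) hS
    (Cfsg.Lib.Class.nondegenerate_tmul h₁ h₂)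
    (by rw [Module.finrank_tensorProduct, hU, hW]; ring), Cfsg.Lib.Class.gramDet_tmul]
  rw [Cfsg.Lib.Class.exists_isotropic_half_iff_isSquare h2 (Module.finBasis F U) hS₁ h₁ hU] at hm₁
  rw [LinearMap.BilinForm.nondegenerate_iff_det_ne_zero (Module.finBasis F U)] at h₁
  rw [LinearMap.BilinForm.nondegenerate_iff_det_ne_zero (Module.finBasis F W)] at h₂
  simp only [Fintype.card_fin]
  generalize (LinearMap.BilinForm.toMatrix (Module.finBasis F U) B₁).det = d₁ at h₁ hm₁ ⊢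
  generalize (LinearMap.BilinForm.toMatrix (Module.finBasis F W) B₂).det = d₂ at h₂ ⊢
  rw [hU, hW]
  intro h
  apply hm₁
  have e : (-1 : F) ^ (k * (2 * l + 1)) * (d₁ ^ (2 * l + 1) * d₂ ^ (2 * k)) =
      ((-1) ^ (k * l) * d₁ ^ l * d₂ ^ k) ^ 2 * ((-1) ^ k * d₁) := by ring
  rw [e] at h
  exact (Cfsg.Lib.Known.isSquare_mul_iff_of_isSquare ⟨_, pow_two _⟩ (pow_ne_zero 2
    (mul_ne_zero (mul_ne_zero (pow_ne_zero _ (by simp)) (pow_ne_zero _ h₁))
      (pow_ne_zero _ h₂)))).1 h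

end Cfsg.Agent.S0835
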