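import Cfsg.Statements.S0836
import Cfsg.Agent.Class.SLGen
-- import your own Cfsg.Agent.* helpers here

set_option autoImplicit false
open Cfsg

namespace Cfsg.Agent.S0836

open scoped commutatorElement

/-- For i ≠ j and any scalar c, the elementary transvection 1 + c E_ij is a commutator ⁅g, h⁆ of two elements of SL_n(F) provided n ≥ 3, or n = 2 and F contains x ≠ 0 with x² ≠ 1. -/
theorem result {F : Type*} [Field F] (n : ℕ) (hn : 3 ≤ n ∨ (n = 2 ∧ ∃ x : F, x ≠ 0 ∧ x ^ 2 ≠ 1)) (i j : Fin n) (hij : i ≠ j) (c : F) (t : Matrix.SpecialLinearGroup (Fin n) F) (ht : (t : Matrix (Fin n) (Fin n) F) = Matrix.transvection i j c) : t ∈ commutatorSet (Matrix.SpecialLinearGroup (Fin n) F) := by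
  have ht' : t = Matrix.SpecialLinearGroup.transvection hij c := Subtype.ext ht
  subst ht'
  rcases hn with hn | ⟨rfl, a, ha, hasq⟩
  · obtain ⟨k, hik, hkj⟩ :=
      Cfsg.Lib.Class.exists_ne_ne_of_three_le_card (ι := Fin n) (by simpa using hn) i j
    have := Cfsg.Lib.Class.SL_transvection_commutator hij hik hkj c (1 : F)
    rw [mul_one] at this
    rw [← this]
    exact commutator_mem_commutatorSet _ _
  · have hsub : a ^ 2 - 1 ≠ 0 := sub_ne_zero_of_ne hasq
    fin_cases i
    · obtain rfl : j = 1 := by fin_cases j <;> tauto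
      have := Matrix.commutator_diag2_transvection a ha (c / (a ^ 2 - 1)) c
        (div_mul_cancel₀ c hsub).symm
      change Matrix.SpecialLinearGroup.transvection zero_ne_one c ∈ _
      rw [← this]
      exact commutator_mem_commutatorSet _ _
    · obtain rfl : j = 0 := by fin_cases j <;> tauto
      have (b c' : F) (hc : c' = b * (a ^ 2 - 1)) :
          ⁅Matrix.SpecialLinearGroup.diag2 a⁻¹ (inv_ne_zero ha),
            Matrix.SpecialLinearGroup.transvection one_ne_zero b⁆ =
          (Matrix.SpecialLinearGroup.transvection one_ne_zero c' :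
            Matrix.SpecialLinearGroup (Fin 2) F) := by
        rw [commutatorElement_def, Matrix.SpecialLinearGroup.diag2_inv a⁻¹ (inv_ne_zero ha),
          Matrix.SpecialLinearGroup.transvection_inv one_ne_zero b]
        refine Subtype.ext <| Matrix.ext fun i j ↦ ?_
        fin_cases i <;> fin_cases j <;>
        simp [hc, Matrix.SpecialLinearGroup.transvection_coe, Matrix.SpecialLinearGroup.diag2_coe,
          inv_inv, mul_add, add_mul,
          mul_inv_cancel₀ ha, inv_mul_cancel₀ ha, mul_comm a b, mul_assoc b a a, ← pow_two,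
          mul_sub_one, ← sub_eq_add_neg]
      change Matrix.SpecialLinearGroup.transvection one_ne_zero c ∈ _
      rw [← this (c / (a ^ 2 - 1)) c (div_mul_cancel₀ c hsub).symm]
      exact commutator_mem_commutatorSet _ _

end Cfsg.Agent.S0836
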