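import Cfsg.Statements.S0837
import Cfsg.Agent.Class.HermBasis

set_option autoImplicit false
open Cfsg

namespace Cfsg.Agent.S0837

open Cfsg.Lib.Class Cfsg.Lib.Class.Form

/-- If W ≤ F^n (|F| = q²) is a k-dimensional subspace on which the Hermitian form Σ x_i y_i^q is non-degenerate, then the stabiliser of W in GU_n(q) is isomorphic to GU_k(q) × GU_(n−k)(q). -/
theorem result {F : Type*} [Field F] [Fintype F] {q : ℕ} (hF : Fintype.card F = q ^ 2) (n k : ℕ) (hk : k ≤ n) (W : Submodule F (Fin n → F)) (hWk : Module.finrank F W = k) (hW : ∀ u ∈ W, (∀ v ∈ W, Cfsg.hermForm n F q u v = 0) → u = 0) : Nonempty (↥((Cfsg.stabilizing (Cfsg.glToMat (Fin n) F) (W : Set (Fin n → F))).subgroupOf (Cfsg.GU n F q)) ≃* ↥(Cfsg.GU k F q) × ↥(Cfsg.GU (n - k) F q)) := by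
  have h := herm_hermSesq hF n
  have hW' : NondegOn (hermSesq hF n) W := fun u hu hu' =>
    hW u hu fun v hv => h.eq_zero_comm.1 (hu' v hv)
  have h1 := h.finrank_orth W
  rw [hWk, Module.finrank_fin_fun] at h1
  obtain ⟨e₁⟩ := (h.restrict hW').nonempty_isomGroup_equiv_GU hF hWk
  obtain ⟨e₂⟩ := (h.restrict (h.nondegOn_orth hW')).nonempty_isomGroup_equiv_GU hF
    (n := n - k) (by omega)
  let e₀ : ↥((Cfsg.stabilizing (Cfsg.glToMat (Fin n) F) (W : Set (Fin n → F))).subgroupOf
      (Cfsg.GU n F q)) ≃* stab (hermSesq hF n) W :=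
    { toFun := fun g => ⟨guEquivIsomGroup hF n g, g.2⟩
      invFun := fun g => ⟨(guEquivIsomGroup hF n).symm g, by
        have := g.2
        rw [← (guEquivIsomGroup hF n).apply_symm_apply g] at this
        exact this⟩
      left_inv := fun g => by simp
      right_inv := fun g => by simp
      map_mul' := fun g g' => by ext; simp }
  exact ⟨e₀.trans ((h.stabEquivProd hW').trans (e₁.prodCongr e₂))⟩

end Cfsg.Agent.S0837
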