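import Cfsg.Statements.S0839
import Cfsg.Agent.Class.TvConj

set_option autoImplicit false
open Cfsg

namespace Cfsg.Agent.S0839

open Matrix Cfsg.Lib.Class

/-- Every transvection t ∈ SL_(n+2)(F) (rank(t − 1) = 1, (t − 1)² = 0) is conjugate in SL_(n+2)(F) to 1 + v·e_0ᵀ for some column vector v with v_0 = 0 (the group A of matrices that are the identity except in the first column below the diagonal); the dimension is written n + 2 ≥ 2. -/
theorem result {F : Type*} [Field F] (n : ℕ) (t : Matrix.SpecialLinearGroup (Fin (n + 2)) F) (ht : Cfsg.IsTransvection (t : Matrix (Fin (n + 2)) (Fin (n + 2)) F)) : ∃ (g : Matrix.SpecialLinearGroup (Fin (n + 2)) F) (v : Fin (n + 2) → F), v 0 = 0 ∧ ((g⁻¹ * t * g : Matrix.SpecialLinearGroup (Fin (n + 2)) F) : Matrix (Fin (n + 2)) (Fin (n + 2)) F) = 1 + Matrix.vecMulVec v (Pi.single 0 1) := by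
  obtain ⟨v, f, hv, hf, h, e⟩ := isTransvection_iff.1 ht
  have ht' : t = tvS v f := Subtype.ext (by rw [tvS_coe h]; exact e)
  obtain ⟨g, hg, hg'⟩ := exists_SL_vecMul_eq (ι := Fin (n + 2)) (by simp) hf
    (f' := Pi.single 0 1) (by simp)
  have h1 := conj_tvS (toSL g hg)⁻¹ h
  rw [inv_inv, coe_toSL, hg'] at h1
  have h2 : (Pi.single 0 1 : Fin (n + 2) → F) ⬝ᵥ
      ((((toSL g hg)⁻¹ : Matrix.SpecialLinearGroup _ F) : Matrix _ _ F) *ᵥ v) = 0 := by
    rw [← hg', SL_coe_inv, toGL_toSL, ← dotProduct_mulVec, GL_mulVec_inv_mulVec, h]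
  refine ⟨toSL g hg, _, by simpa only [single_dotProduct, one_mul] using h2, ?_⟩
  rw [ht', h1, tvS_coe h2]

end Cfsg.Agent.S0839
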