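import Cfsg.Statements.S0842
import Cfsg.Agent.Char.BSLocal

set_option autoImplicit false
open Cfsg

namespace Cfsg.Agent.S0842

/-- Suppose a Sylow 2-subgroup S of the finite group G is generalized quaternion of order at least 16, and let D be the commutator subgroup of S, C its centralizer and N its normalizer in G. Then there is a subgroup K of odd order, contained in C and normalized by N, with K ⊔ S = N and K ⊔ (S ⊓ C) = C, and C has index 2 in N. -/
theorem result {G : Type*} [Group G] [Finite G] (S : Sylow 2 G) (n : ℕ) (e : (S : Subgroup G) ≃* QuaternionGroup (2 ^ (n + 2))) (D : Subgroup G) (hD : D = ⁅(S : Subgroup G), (S : Subgroup G)⁆) : ∃ K : Subgroup G, Odd (Nat.card K) ∧ K ≤ Subgroup.centralizer (D : Set G) ∧ Subgroup.normalizer (D : Set G) ≤ Subgroup.normalizer (K : Set G) ∧ K ⊔ (S : Subgroup G) = Subgroup.normalizer (D : Set G) ∧ K ⊔ ((S : Subgroup G) ⊓ Subgroup.centralizer (D : Set G)) = Subgroup.centralizer (D : Set G) ∧ ((Subgroup.centralizer (D :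 Set G)).subgroupOf (Subgroup.normalizer (D : Set G))).index = 2 := by
  obtain ⟨a, b, h⟩ := Cfsg.Lib.Char.exists_qGen e
  have hm : 3 ≤ 2 ^ (n + 2) := by
    have : 0 < 2 ^ n := by positivity
    rw [pow_add]; omega
  rw [h.commutator_eq] at hD
  subst hD
  have hCN := Subgroup.centralizer_le_normalizer (Subgroup.zpowers (a ^ 2) : Set G)
  have hconj : ∀ g ∈ Subgroup.normalizer (Subgroup.zpowers (a ^ 2) : Set G),
      ∀ y ∈ Subgroup.centralizer (Subgroup.zpowers (a ^ 2) : Set G),
      g * y * g⁻¹ ∈ Subgroup.centralizer (Subgroup.zpowers (a ^ 2) : Set G) := by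
    intro g hg y hy
    rw [Subgroup.mem_centralizer_iff] at hy ⊢
    intro x hx
    have h1 : g⁻¹ * x * g ∈ Subgroup.zpowers (a ^ 2) := by
      rw [Subgroup.mem_normalizer_iff.1 hg]
      simpa [mul_assoc] using hx
    have h2 := hy _ h1
    calc x * (g * y * g⁻¹) = g * (g⁻¹ * x * g * y) * g⁻¹ := by group
      _ = g * y * g⁻¹ * x := by rw [h2]; group
  rw [Cfsg.Lib.Char.centralizer_zpowers_eq] at hCN hconj ⊢
  obtain ⟨K, hK, hodd, -, hdec⟩ := Cfsg.Lib.Char.quat_exists_odd_complement S e h hm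
  have hKC : K ≤ Subgroup.centralizer ({a ^ 2} : Set G) := fun x hx => ((hK x).1 hx).1
  have hC : K ⊔ ((S : Subgroup G) ⊓ Subgroup.centralizer ({a ^ 2} : Set G)) =
      Subgroup.centralizer ({a ^ 2} : Set G) := by
    apply le_antisymm (sup_le hKC inf_le_right)
    intro x hx
    obtain ⟨k, hk, i, rfl⟩ := hdec x hx
    rw [h.inf_centralizer hm]
    exact Subgroup.mul_mem_sup hk (Subgroup.zpow_mem_zpowers a i)
  have hCle : Subgroup.centralizer ({a ^ 2} : Set G) ≤ K ⊔ (S : Subgroup G) := by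
    rw [← hC]; exact sup_le_sup_left inf_le_left _
  have hKconj : ∀ g ∈ Subgroup.normalizer (Subgroup.zpowers (a ^ 2) : Set G), ∀ x ∈ K,
      g * x * g⁻¹ ∈ K := fun g hg x hx => (hK _).2 ⟨hconj g hg x (hKC hx), by
    rw [← MulAut.conj_apply, MulEquiv.orderOf_eq]; exact ((hK x).1 hx).2⟩
  refine ⟨K, hodd, hKC, fun g hg => ?_, ?_, hC, Cfsg.Lib.Char.quat_relIndex S e h hm⟩
  · rw [Subgroup.mem_normalizer_iff]
    refine fun x => ⟨hKconj g hg x, fun hx => ?_⟩
    simpa [mul_assoc] using hKconj g⁻¹ (Subgroup.inv_mem _ hg) _ hx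
  · apply le_antisymm (sup_le (hKC.trans hCN) (Cfsg.Lib.Char.quat_le_normalizer S h))
    intro g hg
    rcases Cfsg.Lib.Char.quat_mem_or_mul_inv_mem S e h hm hg with h1 | h1
    · exact hCle h1
    · simpa using Subgroup.mul_mem _ (hCle h1) (Subgroup.mem_sup_right h.b_mem)

end Cfsg.Agent.S0842
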