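import Cfsg.Statements.S0843
import Cfsg.Agent.Char.BSLocal

set_option autoImplicit false
open Cfsg

namespace Cfsg.Agent.S0843

/-- Suppose a Sylow 2-subgroup S of the finite group G is generalized quaternion of order at least 16; let D be the commutator subgroup of S and X the set of elements of the centralizer of D whose order is divisible by the order of D. Then D is contained in the cyclic subgroup generated by any element of X; an element of G conjugating some element of X into the centralizer of D normalizes D; and the normalizer of D maps X to itself under conjugation. -/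
theorem result {G : Type*} [Group G] [Finite G] (S : Sylow 2 G) (n : ℕ) (e : (S : Subgroup G) ≃* QuaternionGroup (2 ^ (n + 2))) (D : Subgroup G) (hD : D = ⁅(S : Subgroup G), (S : Subgroup G)⁆) : (∀ y : G, y ∈ Subgroup.centralizer (D : Set G) → Nat.card D ∣ orderOf y → D ≤ Subgroup.zpowers y) ∧ (∀ g y : G, y ∈ Subgroup.centralizer (D : Set G) → Nat.card D ∣ orderOf y → g * y * g⁻¹ ∈ Subgroup.centralizer (D : Set G) → g ∈ Subgroup.normalizer (D : Set G)) ∧ (∀ g y : G, g ∈ Subgroup.normalizer (D : Set G) → y ∈ Subgroup.centralizer (D : Set G) → Nat.card D ∣ orderOf y → g * y * g⁻¹ ∈ Subgroup.centralizer (D : Set G) ∧ Nat.card D ∣ orderOf (g * y * g⁻¹)) := by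
  obtain ⟨a, b, h⟩ := Cfsg.Lib.Char.exists_qGen e
  have hm : 3 ≤ 2 ^ (n + 2) := by
    have : 0 < 2 ^ n := by positivity
    rw [pow_add]; omega
  rw [h.commutator_eq] at hD
  subst hD
  rw [Cfsg.Lib.Char.centralizer_zpowers_eq, Nat.card_zpowers, h.orderOf_sq (by omega)]
  refine ⟨fun y hy hmy => Cfsg.Lib.Char.quat_zpowers_sq_le S e h hm hy hmy,
    fun g y hy hmy hgy => Cfsg.Lib.Char.quat_mem_normalizer S e h hm hy hmy hgy,
    fun g y hg hy hmy => ⟨?_, ?_⟩⟩
  · rw [← Cfsg.Lib.Char.centralizer_zpowers_eq] at hy ⊢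
    rw [Subgroup.mem_centralizer_iff] at hy ⊢
    intro x hx
    have h1 : g⁻¹ * x * g ∈ Subgroup.zpowers (a ^ 2) := by
      rw [Subgroup.mem_normalizer_iff.1 hg]
      simpa [mul_assoc] using hx
    have h2 := hy _ h1
    calc x * (g * y * g⁻¹) = g * (g⁻¹ * x * g * y) * g⁻¹ := by group
      _ = g * y * g⁻¹ * x := by rw [h2]; group
  · rw [← MulAut.conj_apply, MulEquiv.orderOf_eq]; exact hmy

end Cfsg.Agent.S0843
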