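import Cfsg.Statements.S0852
import Cfsg.Agent.Char.TIFNConst

set_option autoImplicit false
open Cfsg

namespace Cfsg.Agent.S0852

open Cfsg.Lib.Char

/-- Let K be a subgroup of the finite group G that meets each conjugate by an element outside its normalizer N trivially, is properly contained in N, and contains the centralizer of each of its non-identity elements (a T.I. subgroup with Frobenius normalizer). Let S be the set of irreducible characters of N taking at some element of K a value different from their degree, suppose S has at least two members, and let star be a linear isometry on the integer span of S into the generalized characters of G that agrees with induction on the members vanishing at the identity (so S is coherent, with star as the extending isometry). Then an irreducible character ψ of G is of the form star χ or -star χ for some χ in S if and only if ψ is not constant on the non-identity elements of K. -/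
theorem result {G : Type*} [Group G] [Fintype G] (K : Subgroup G) (hTI : ∀ g : G, g ∉ Subgroup.normalizer (K : Set G) → ∀ k ∈ K, g * k * g⁻¹ ∈ K → k = 1) (hlt : K < Subgroup.normalizer (K : Set G)) (hC : ∀ k ∈ K, k ≠ 1 → Subgroup.centralizer ({k} : Set G) ≤ K) [Fintype ↥(Subgroup.normalizer (K : Set G))] (S : Set (↥(Subgroup.normalizer (K : Set G)) → ℂ)) (hS : S = {χ : ↥(Subgroup.normalizer (K : Set G)) → ℂ | Cfsg.IsIrrCharacter ↥(Subgroup.normalizer (K : Set G)) χ ∧ ∃ k : ↥(Subgroup.normalizer (K : Set G)), (k : G) ∈ K ∧ χ k ≠ χ 1}) (htwo : ∃ χ ∈ S, ∃ ξ ∈ S, χ ≠ ξ) (star : (↥(Subgroup.normalizer (K : Set G)) → ℂ) → (G → ℂ)) (hstar : Cfsg.IsLinearIsometryOn (Cfsg.zspan S) star) (hext : ∀ α ∈ Cfsg.zspanOn S ({1}ᶜ : Set ↥(Subgroup.normalizer (K : Set G))), star α = Cfsg.indFun (Subgroup.normalizer (K : Set G)) α) (ψ : G → ℂ) (hψ : Cfsg.IsIrrCharacter G ψ) : (∃ χ ∈ S, ψ = star χ ∨ ψ = -star χ) ↔ ∃ a ∈ K, ∃ b ∈ K, a ≠ 1 ∧ b ≠ 1 ∧ ψ a ≠ ψ b := by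
  rw [star_eq_iff_not_const (K := K.subgroupOf (Subgroup.normalizer (K : Set G)))
    (fpf_of_notMem_of_centralizer_le fun n hn h1 x hx => hC n hn (by simpa using h1) (by
      rw [Subgroup.mem_centralizer_singleton_iff] at hx ⊢
      exact congrArg Subtype.val hx))
    (fun χ => by
      rw [hS]
      refine and_congr_right fun h => ?_
      rw [h.isCharacter.le_charKer_iff]
      push Not
      rfl) htwo hstar hext hψ]
  constructor
  · intro h
    by_contra h'
    push Not at h'
    by_cases hK : ∃ a ∈ K, a ≠ 1
    · obtain ⟨a, ha, ha1⟩ := hK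
      exact h ⟨ψ a, fun k hk hk1 => h' k hk a ha (by simpa using hk1) ha1⟩
    · exact h ⟨0, fun k hk hk1 => (hK ⟨k, hk, by simpa using hk1⟩).elim⟩
  · rintro ⟨a, ha, b, hb, ha1, hb1, h⟩ ⟨d, hd⟩
    exact h ((hd ⟨a, hlt.le ha⟩ ha (by simpa using ha1)).trans
      (hd ⟨b, hlt.le hb⟩ hb (by simpa using hb1)).symm)

end Cfsg.Agent.S0852
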