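import Cfsg.Statements.S0855
import Cfsg.Agent.Char.DegThompson

set_option autoImplicit false
open Cfsg

namespace Cfsg.Agent.S0855

open Cfsg.Lib.Char Cfsg.Lib.Char.Deg

/-- For a finite group G and a prime p: every irreducible character of G has degree a power of p if and only if G has an abelian normal subgroup whose order is prime to p and whose index is a power of p. -/
theorem result {G : Type*} [Group G] [Finite G] (p : ℕ) (hp : p.Prime) : (∀ χ : Cfsg.IrrCharacter G, ∃ k : ℕ, (χ : G → ℂ) 1 = (p : ℂ) ^ k) ↔ ∃ A : Subgroup G, A.Normal ∧ (∀ a ∈ A, ∀ b ∈ A, a * b = b * a) ∧ Nat.Coprime (Nat.card A) p ∧ ∃ k : ℕ, A.index = p ^ k := by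
  constructor
  · intro h
    have h1 : ∀ χ, IsIrrCharacter G χ → ∃ k, charDegree χ = p ^ k := fun χ hχ =>
      (h ⟨χ, hχ⟩).imp fun k hk => deg_eq (by rw [Nat.cast_pow]; exact hk)
    obtain ⟨N, hN, h2, h3⟩ := thompson_exists hp (G := G) fun χ hχ h4 => by
      obtain ⟨k, hk⟩ := h1 χ hχ
      rw [hk] at h4 ⊢
      exact dvd_pow_self p (by rintro rfl; exact h4 (pow_zero p))
    refine ⟨N, hN, comm_of_coprime_deg N fun χ hχ => ?_, h2, h3⟩
    obtain ⟨k, hk⟩ := h1 χ hχ
    exact hk ▸ h2.pow_right k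
  · rintro ⟨A, hA, h1, -, k, hk⟩ χ
    have := Fintype.ofFinite A
    obtain ⟨j, -, hj⟩ := (Nat.dvd_prime_pow hp).1 (hk ▸ ito χ.2 A h1)
    exact ⟨j, by rw [apply_one_eq χ.2.isCharacter, hj, Nat.cast_pow]⟩

end Cfsg.Agent.S0855
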