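import Cfsg.Statements.S0858
import Cfsg.Agent.Char.RelM

set_option autoImplicit false
open Cfsg

namespace Cfsg.Agent.S0858

/-- Let N be a normal subgroup of the finite group G with G / N solvable, and suppose that for every subgroup H containing N and all subgroups L < K between N and H that are normal in H with no subgroup normal in H strictly between them, the index of L in K is not a perfect square. Then every irreducible character χ of G is induced from an irreducible character ψ of some subgroup H containing N such that the restriction of ψ to N is irreducible. -/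
theorem result {G : Type*} [Group G] [Fintype G] (N : Subgroup G) [N.Normal] (hsolv : Group.IsSolvable (G ⧸ N)) (hchief : ∀ (H K L : Subgroup G), N ≤ L → L < K → K ≤ H → (∀ h ∈ H, ∀ k ∈ K, h * k * h⁻¹ ∈ K) → (∀ h ∈ H, ∀ l ∈ L, h * l * h⁻¹ ∈ L) → (∀ M : Subgroup G, L ≤ M → M ≤ K → (∀ h ∈ H, ∀ m ∈ M, h * m * h⁻¹ ∈ M) → M = L ∨ M = K) → ¬ IsSquare (L.relIndex K)) (χ : G → ℂ) (hχ : Cfsg.IsIrrCharacter G χ) : ∃ (H : Subgroup G) (hNH : N ≤ H) (ψ : H → ℂ), Cfsg.IsIrrCharacter H ψ ∧ Cfsg.indFun H ψ = χ ∧ Cfsg.IsIrrCharacter N (fun n : N => ψ ⟨(n : G), hNH n.2⟩) := by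
  obtain ⟨H, _, ψ, hNH, hψ, hind, hprim⟩ := Cfsg.Lib.Char.exists_isRelPrimitive_indFun_eq N hχ
  refine ⟨H, hNH, ψ, hψ, hind, ?_⟩
  have h := Cfsg.Lib.Char.Deg.res_irr_of_quasiPrimitive_of_nonsquare
    (Cfsg.Lib.Char.Deg.isSolvable_quotient_subgroupOf N H hsolv) hψ
    (hprim.isRelQuasiPrimitive hψ) (fun K L hK hL hNL hLK hc => ?_)
  · exact h.of_subgroupOf hNH
  have hn : ∀ X : Subgroup H, X.Normal → ∀ h ∈ H, ∀ k ∈ X.map H.subtype,
      h * k * h⁻¹ ∈ X.map H.subtype := by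
    rintro X hX h hh _ ⟨k, hk, rfl⟩
    exact ⟨_, hX.conj_mem k hk ⟨h, hh⟩, rfl⟩
  rw [← Subgroup.relIndex_map_map_of_injective L K H.subtype_injective]
  refine hchief H _ _ (fun n hn => ⟨⟨n, hNH hn⟩, hNL hn, rfl⟩)
    (Subgroup.map_subtype_lt_map_subtype.2 hLK) (Subgroup.map_subtype_le _) (hn K hK) (hn L hL)
    fun M h1 h2 h3 => ?_
  have hMH : M ≤ H := h2.trans (Subgroup.map_subtype_le _)
  have hM : (M.subgroupOf H).Normal := ⟨fun m hm h => h3 h h.2 m hm⟩
  rcases hc (M.subgroupOf H) hM (Subgroup.map_le_iff_le_comap.1 h1) (fun x hx => by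
    obtain ⟨y, hy, hyx⟩ := h2 hx
    exact (Subtype.ext hyx : y = x) ▸ hy) with e | e
  · left; rw [← e, Subgroup.map_subgroupOf_eq_of_le hMH]
  · right; rw [← e, Subgroup.map_subgroupOf_eq_of_le hMH]

end Cfsg.Agent.S0858
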