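import Cfsg.Statements.S0864
import Cfsg.Agent.Char.Extension

set_option autoImplicit false
open Cfsg

namespace Cfsg.Agent.S0864

open Cfsg.Lib.Char

/-- Let N be a normal subgroup of the finite group G and λ a character of N of degree 1 invariant under conjugation by G. Suppose that for every prime p dividing the order of λ (in the group of functions under pointwise multiplication) there is a subgroup H containing N, of index prime to p and with the index of N in H a power of p, together with a character of H of degree 1 restricting to λ. Then λ is the restriction of a character of G of degree 1. -/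
theorem result {G : Type*} [Group G] [Finite G] (N : Subgroup G) [hN : N.Normal] (lam : N → ℂ) (hlam : Cfsg.IsCharacter N lam ∧ lam 1 = 1) (hinv : ∀ (g : G) (n : N), lam ⟨g * n * g⁻¹, hN.conj_mem (n : G) n.2 g⟩ = lam n) (hsyl : ∀ p : ℕ, p.Prime → p ∣ orderOf lam → ∃ (H : Subgroup G) (hNH : N ≤ H) (ν : H → ℂ), Nat.Coprime H.index p ∧ (∃ k : ℕ, N.relIndex H = p ^ k) ∧ Cfsg.IsCharacter H ν ∧ ν 1 = 1 ∧ ∀ n : N, ν ⟨(n : G), hNH n.2⟩ = lam n) : ∃ μ : G → ℂ, Cfsg.IsCharacter G μ ∧ μ 1 = 1 ∧ ∀ n : N, μ n = lam n := by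
  obtain ⟨l, rfl⟩ := hlam.1.exists_monoidHom_of_apply_one hlam.2
  rw [orderOf_monoidHom_coe] at hsyl
  obtain ⟨μ, hμ⟩ := exists_extend_of_forall_prime_subgroup N.subtype
    (by rw [Subgroup.range_subtype]; exact hN) l
    (fun g n n' h => Units.ext (invariant_subtype (θ := fun n => (l n : ℂ)) hinv g n n' h))
    (fun p hp hpl => by
      obtain ⟨H, hNH, ν, h1, -, h3, h4, h5⟩ := hsyl p hp hpl
      obtain ⟨ν', rfl⟩ := h3.exists_monoidHom_of_apply_one h4
      exact ⟨H, fun n => hNH n.2, ν', hp.coprime_iff_not_dvd.mp h1.symm,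
        fun n => Units.ext (h5 n)⟩)
  exact ⟨fun g => μ g, (isIrrCharacter_monoidHom μ).isCharacter, by simp,
    fun n => congrArg Units.val (hμ n)⟩

end Cfsg.Agent.S0864
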