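import Cfsg.Statements.S0868
import Cfsg.Agent.Char.Ramified

set_option autoImplicit false
open scoped ComplexConjugate
open Cfsg

namespace Cfsg.Agent.S0868

/-- Let N be a normal subgroup of the finite group G, χ an irreducible character of G whose restriction ϑ to N is irreducible, and ψ an irreducible character of G. Define η on G by η g = (1 / order of N) * Σ over n in N of ψ (n * g) * conj (χ (n * g)). Then: if the restriction of ψ to N has nonzero inner product with ϑ, η is an irreducible character of G; if that inner product is zero, η vanishes identically; and if ψ = χ then η is identically 1. -/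
theorem result {G : Type*} [Group G] [Fintype G] (N : Subgroup G) [N.Normal] [Fintype N] (χ : G → ℂ) (hχ : Cfsg.IsIrrCharacter G χ) (hχN : Cfsg.IsIrrCharacter N (fun n : N => χ n)) (ψ : G → ℂ) (hψ : Cfsg.IsIrrCharacter G ψ) (η : G → ℂ) (hη : η = fun g => (Nat.card N : ℂ)⁻¹ * ∑ n : N, ψ ((n : G) * g) * conj (χ ((n : G) * g))) : (Cfsg.classInner (fun n : N => ψ n) (fun n : N => χ n) ≠ 0 → Cfsg.IsIrrCharacter G η) ∧ (Cfsg.classInner (fun n : N => ψ n) (fun n : N => χ n) = 0 → η = 0) ∧ (ψ = χ → η = fun _ => 1) := by
  subst hη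
  have h1 := Cfsg.Lib.Char.sum_coset_mul_conj_of_res_irr hχ.isCharacter hχN
  have hN := Cfsg.Lib.Char.card_ne_zero N
  refine ⟨fun h => ?_, fun h => ?_, fun h => ?_⟩
  · obtain ⟨β, hβ, hk, rfl⟩ := Cfsg.Lib.Char.gallagher_exists hχ.isCharacter hχN hψ h
    convert hβ using 2 with g
    have : ∀ n : N, β (n * g) = β g := fun n => hk n.2 g
    simp only [Pi.mul_apply, this, mul_assoc, ← Finset.mul_sum, h1]
    field_simp
  · funext g
    rw [Cfsg.Lib.Char.sum_coset_mul_conj_eq_zero hψ.isCharacter hχ.isCharacter h, mul_zero,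
      Pi.zero_apply]
  · subst h
    funext g
    rw [h1, inv_mul_cancel₀ hN]

end Cfsg.Agent.S0868
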