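import Cfsg.Statements.S0875
import Cfsg.Agent.Char.BrauerApps

set_option autoImplicit false
open Cfsg

namespace Cfsg.Agent.S0875

open Cfsg.Lib.Char Cfsg.Lib.Char.Brauer Cfsg.Lib.Char.Parts


/-- Let G be a finite group of order m * n with m and n coprime, and g an element whose order is coprime to m. Every x in G factors uniquely as x = u * v with u, v commuting, the order of u coprime to n and the order of v coprime to m; let ϑ be the function on G equal to n at those x whose factor v is conjugate to g and equal to 0 elsewhere. Then ϑ is a linear combination of the irreducible characters of G with algebraic-integer coefficients. -/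
theorem result {G : Type*} [Group G] [Fintype G] (m n : ℕ) (hmn : Nat.card G = m * n) (hcop : Nat.Coprime m n) (g : G) (hg : Nat.Coprime (orderOf g) m) (ϑ : G → ℂ) (hϑ1 : ∀ x : G, (∃ v : G, IsConj v g ∧ (∃ u : G, x = u * v ∧ Commute u v ∧ Nat.Coprime (orderOf u) n ∧ Nat.Coprime (orderOf v) m)) → ϑ x = n) (hϑ0 : ∀ x : G, (¬ ∃ v : G, IsConj v g ∧ (∃ u : G, x = u * v ∧ Commute u v ∧ Nat.Coprime (orderOf u) n ∧ Nat.Coprime (orderOf v) m)) → ϑ x = 0) : ∃ c : Cfsg.IrrCharacter G → ℂ, (∀ χ, c χ ∈ Cfsg.AlgInt) ∧ ϑ = ∑ᶠ χ : Cfsg.IrrCharacter G, c χ • (χ : G → ℂ) := by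
  classical
  let f : G → ℂ := fun v => if IsConj v g then 1 else 0
  have hf : IsClassFunction G f := by
    rw [isClassFunction_iff_isConj]
    intro a b hab
    exact if_congr ⟨fun h => hab.symm.trans h, fun h => hab.trans h⟩ rfl rfl
  have hint : ∀ v, IsIntegral ℤ (f v) := fun v => by
    simp only [f]
    split_ifs
    exacts [isIntegral_one, isIntegral_zero]
  have hall : ∀ x : G, x ^ (m * n) = 1 := pow_mul_eq_one_of_card_dvd hmn.dvd
  have hϑ : ϑ = fun x => (n : ℂ) * f (rpart m n x) := by
    funext x
    by_cases h : IsConj (rpart m n x) g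
    · rw [hϑ1 x ⟨rpart m n x, h, lpart m n x, (lpart_mul_rpart hcop x).symm,
        commute_lpart_rpart m n x, hcop.coprime_dvd_left (orderOf_lpart_dvd (hall x)),
        hcop.symm.coprime_dvd_left (orderOf_rpart_dvd (hall x))⟩]
      simp only [f, if_pos h, mul_one]
    · rw [hϑ0 x]
      · simp only [f, if_neg h, mul_zero]
      · rintro ⟨v, hv, u, rfl, huv, hu', hv'⟩
        rw [rpart_mul_eq hcop huv (pow_left_of_coprime (hall u) hu')
          (pow_right_of_coprime (hall v) hv')] at h
        exact h hv
  have hcl : IsClassFunction G ϑ := by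
    rw [hϑ]
    intro a b
    simp only [rpart_conj, hf _ b]
  refine ⟨fun χ => classInner ϑ χ, fun χ => ?_, ?_⟩
  · rw [hϑ]
    exact isIntegral_classInner_rpart hcop hmn.dvd hf hint χ.2.isCharacter
  · rw [finsum_irr]
    exact hcl.eq_sum_irr

end Cfsg.Agent.S0875
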