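import Cfsg.Statements.S0880
import Cfsg.Agent.Perm.ZassInvol

set_option autoImplicit false
open Cfsg

namespace Cfsg.Agent.S0880

open Cfsg.Lib.Perm Cfsg.Lib.Char.Zass MulAction

/-- Let G be a finite simple Zassenhaus group on Ω with n points whose two-point stabilizer E has odd order less than n - 2. Then there are two elements of G, each fixing no point of Ω, that are not conjugate. -/
theorem result {G Ω : Type*} [Group G] [Finite G] [MulAction G Ω] [Fintype Ω] (hZ : Cfsg.IsZassenhausGroup G Ω) {a b : Ω} (hab : a ≠ b) [IsSimpleGroup G] (hodd : Odd (Nat.card ↥(MulAction.stabilizer G a ⊓ MulAction.stabilizer G b : Subgroup G))) (hlt : Nat.card ↥(MulAction.stabilizer G a ⊓ MulAction.stabilizer G b : Subgroup G) < Fintype.card Ω - 2) : ∃ x y : G, (∀ c : Ω, x • c ≠ c) ∧ (∀ c : Ω, y • c ≠ c) ∧ ¬ IsConj x y := by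
  rw [← Nat.card_eq_fintype_card] at hlt
  have hz := Z2.of_zass hZ
  have h1 := hz.two_mul_ncard_fpf hab
  have hG := hz.card_group hab
  have he : 1 < Nat.card (stabilizer G a ⊓ stabilizer G b : Subgroup G) :=
    (Subgroup.one_lt_card_iff_ne_bot _).2 (stab2_ne_bot hZ hab)
  generalize Nat.card (stabilizer G a ⊓ stabilizer G b : Subgroup G) = e at *
  obtain ⟨m, hm⟩ : ∃ m, Nat.card Ω = m + 2 := ⟨Nat.card Ω - 2, by omega⟩
  rw [hm] at h1 hG hlt
  simp only [Nat.add_sub_cancel, show m + 2 - 1 = m + 1 from rfl] at h1 hG hlt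
  have he3 : 3 ≤ e := by obtain ⟨k, rfl⟩ := hodd; omega
  by_contra hcon
  push Not at hcon
  obtain ⟨g, hg⟩ : {g : G | ∀ c : Ω, g • c ≠ c}.Nonempty := by
    refine Set.nonempty_of_ncard_ne_zero fun h0 => ?_
    rw [h0, hG] at h1
    nlinarith [Nat.mul_le_mul_left ((m + 2) * (m + 1)) he3]
  have h2 : {g : G | ∀ c : Ω, g • c ≠ c} = orbit (ConjAct G) g := by
    ext x
    rw [ConjAct.mem_orbit_conjAct]
    refine ⟨fun hx => hcon x g hx hg, fun hx c e => ?_⟩
    obtain ⟨k, rfl⟩ := isConj_iff.1 hx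
    exact hg (k • c) (by rw [← mul_smul, inv_mul_cancel_right, mul_smul, e])
  have h3 : {g : G | ∀ c : Ω, g • c ≠ c}.ncard * Nat.card (stabilizer (ConjAct G) g) =
      Nat.card G := by
    rw [h2, ← index_stabilizer]
    exact Subgroup.index_mul_card _
  have h4 : 0 < Nat.card (stabilizer (ConjAct G) g) := by
    refine Nat.pos_of_ne_zero fun h0 => ?_
    rw [h0, mul_zero] at h3
    exact Nat.card_pos.ne h3
  generalize Nat.card (stabilizer (ConjAct G) g) = c at *
  generalize {g : G | ∀ c : Ω, g • c ≠ c}.ncard = n at *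
  have h5 : (m + 1) * (2 * ((m + 2) * e) + c * m) = (m + 1) * (c * ((m + 2) * e)) := by
    calc _ = 2 * (n * c) + c * ((m + 1) * m) := by rw [h3, hG]; ring
      _ = c * (2 * n + (m + 1) * m) := by ring
      _ = _ := by rw [h1, hG]; ring
  have h6 := Nat.eq_of_mul_eq_mul_left (Nat.succ_pos m) h5
  have h7 : (m + 2) * 3 ≤ (m + 2) * e := Nat.mul_le_mul_left _ he3
  generalize (m + 2) * e = w at *
  rcases Nat.lt_or_ge c 3 with h8 | h8
  · interval_cases c <;> omega
  · obtain ⟨d, rfl⟩ := Nat.exists_eq_add_of_le' h8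
    nlinarith [Nat.mul_le_mul_left d h7]

end Cfsg.Agent.S0880
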