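import Cfsg.Statements.S0882
import Cfsg.Agent.Perm.ZassInvol

set_option autoImplicit false
open Cfsg

namespace Cfsg.Agent.S0882

open Cfsg.Lib.Perm Cfsg.Lib.Char.Zass MulAction

/-- Let G be a finite simple Zassenhaus group on Ω with n = h + 1 points whose two-point stabilizer E has odd order e with 2e < h - 1. Then any two involutions of G are conjugate, and the number of involutions is e * (h + 1) if h is even and e * h if h is odd. -/
theorem result {G Ω : Type*} [Group G] [Finite G] [MulAction G Ω] [Fintype Ω] (hZ : Cfsg.IsZassenhausGroup G Ω) {a b : Ω} (hab : a ≠ b) [IsSimpleGroup G] (h e : ℕ) (hh : Fintype.card Ω = h + 1) (he : Nat.card ↥(MulAction.stabilizer G a ⊓ MulAction.stabilizer G b : Subgroup G) = e) (hodd : Odd e) (hlt : 2 * e < h - 1) : (∀ x y : G, orderOf x = 2 → orderOf y = 2 → IsConj x y) ∧ Nat.card {x : G // orderOf x = 2} = (if Even h then e * (h + 1) else e * h) := by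
  rw [← Nat.card_eq_fintype_card] at hh
  subst he
  obtain ⟨U, hU, -⟩ := (Z2.of_zass hZ).exists_kernel hab
  have hz := ZO.of_simple hZ hab hU hodd
  obtain rfl : h = Nat.card U := by have := hU.card; omega
  refine ⟨fun x y hx hy => ?_, ?_⟩
  · obtain ⟨hx1, hx2⟩ := orderOf_eq_two_iff'.1 hx
    obtain ⟨hy1, hy2⟩ := orderOf_eq_two_iff'.1 hy
    exact isConj_iff.2 (hz.z2.exists_conj_invol_of_odd hab hodd hx1 hx2 hy1 hy2)
  split_ifs with hev
  · exact hz.card_invol_of_even hev
  · exact hz.card_invol_of_odd (Nat.not_even_iff_odd.1 hev)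

end Cfsg.Agent.S0882
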