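import Cfsg.Statements.S0884
import Cfsg.Agent.Perm.ZassInvol

set_option autoImplicit false
open Cfsg

namespace Cfsg.Agent.S0884

open Cfsg.Lib.Perm Cfsg.Lib.Char.Zass MulAction

/-- Let G be a finite simple Zassenhaus group on Ω with h + 1 points whose two-point stabilizer E has odd order e with 2e < h - 1, and let H be the subgroup of the stabilizer of a consisting of the identity and the elements fixing no point other than a (given here as a subgroup of the stabilizer of order one less than the number of points whose non-identity elements fix only a; it is the Frobenius kernel of the stabilizer). Then at least e conjugacy classes of G contain no element of H. -/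
theorem result {G Ω : Type*} [Group G] [Finite G] [MulAction G Ω] [Fintype Ω] (hZ : Cfsg.IsZassenhausGroup G Ω) {a b : Ω} (hab : a ≠ b) [IsSimpleGroup G] (h e : ℕ) (hh : Fintype.card Ω = h + 1) (he : Nat.card ↥(MulAction.stabilizer G a ⊓ MulAction.stabilizer G b : Subgroup G) = e) (hodd : Odd e) (hlt : 2 * e < h - 1) (H : Subgroup G) (hHa : H ≤ MulAction.stabilizer G a) (hHcard : Nat.card H + 1 = Fintype.card Ω) (hHfix : ∀ u ∈ H, u ≠ 1 → ∀ c : Ω, u • c = c → c = a) : e ≤ Nat.card {C : ConjClasses G // ∀ g : G, ConjClasses.mk g = C → g ∉ H} := by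
  rw [← Nat.card_eq_fintype_card] at hh hHcard
  subst he
  rcases large_or_two_of_simple hZ hab ⟨hHa, hHcard, hHfix⟩ with h3 | ⟨h3, h4, h5⟩
  · exact absurd h3 (by change ¬ _ ≤ 2 * Nat.card (stabilizer G a ⊓ stabilizer G b : Subgroup G); omega)
  · exact h3.card_le_classes (stab2_ne_bot hZ hab) (ZO.even_of_nonab h4 h5)

end Cfsg.Agent.S0884
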