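import Cfsg.Statements.S0891
import Cfsg.Agent.Known.AltCover

set_option autoImplicit false
open Cfsg

namespace Cfsg.Agent.S0891

/-- For every n ≥ 4 there are a finite group Γ and a central element z of Γ of order 2 lying in the commutator subgroup of Γ such that the quotient of Γ by the (normal) subgroup generated by z is isomorphic to the alternating group on n letters. -/
theorem result (n : ℕ) (hn : 4 ≤ n) : ∃ (Γ : Type) (_ : Group Γ) (_ : Finite Γ) (z : Γ) (hz : z ∈ Subgroup.center Γ), orderOf z = 2 ∧ z ∈ commutator Γ ∧ ∃ _ : (Subgroup.zpowers z).Normal, Nonempty (Γ ⧸ Subgroup.zpowers z ≃* alternatingGroup (Fin n)) := by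
  let p : Fin 4 → Fin n := Fin.castLE hn
  have hp : ∀ i j, i ≠ j → p i ≠ p j := fun i j h => (Fin.castLE_injective hn).ne h
  have hN : (Subgroup.zpowers (Lib.AltCover.zs (Fin n))).Normal := by
    rw [← Lib.AltCover.ker_ps]; infer_instance
  exact ⟨Lib.AltCover.Spin (Fin n), inferInstance, inferInstance, Lib.AltCover.zs _,
    Lib.AltCover.zs_mem_center, Lib.AltCover.orderOf_zs,
    Lib.AltCover.zs_mem_commutator (hp 0 1 (by decide)) (hp 0 2 (by decide)) (hp 0 3 (by decide))
      (hp 1 2 (by decide)) (hp 1 3 (by decide)) (hp 2 3 (by decide)), hN,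
    ⟨(QuotientGroup.quotientMulEquivOfEq Lib.AltCover.ker_ps.symm).trans
      (QuotientGroup.quotientKerEquivOfSurjective _ Lib.AltCover.ps_surjective)⟩⟩

end Cfsg.Agent.S0891
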