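import Cfsg.Statements.S0893
import Cfsg.Agent.Char.DegExtraspecial

set_option autoImplicit false
open Cfsg

namespace Cfsg.Agent.S0893

/-- Let P be an extraspecial p-group of order p ^ (2 * n + 1), A an abelian subgroup of order p ^ (n + 1), and λ a character of A of degree 1 that is not identically 1 on the elements of A lying in the centre of P. Then the function induced from λ to P is an irreducible character of P and vanishes at every element outside the centre. -/
theorem result {P : Type*} [Group P] [Fintype P] (p n : ℕ) [Fact p.Prime] (hP : Cfsg.IsExtraspecial p P) (hcard : Nat.card P = p ^ (2 * n + 1)) (A : Subgroup P) (hab : ∀ a ∈ A, ∀ b ∈ A, a * b = b * a) (hA : Nat.card A = p ^ (n + 1)) (lam : A → ℂ) (hlam : Cfsg.IsCharacter A lam ∧ lam 1 = 1) (hZ : ∃ a : A, (a : P) ∈ Subgroup.center P ∧ lam a ≠ 1) : Cfsg.IsIrrCharacter P (Cfsg.indFun A lam) ∧ ∀ x : P, x ∉ Subgroup.center P → Cfsg.indFun A lam x = 0 := by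
  classical
  have hp : p.Prime := Fact.out
  have hirr := hlam.1.isIrrCharacter_of_apply_one hlam.2
  obtain ⟨χ, hχ, hin⟩ := Cfsg.Lib.Char.exists_irr_over hirr
  have hne : Cfsg.charDegree χ ≠ 1 := by
    rw [Ne, ← Cfsg.Lib.Char.Deg.center_le_charKer_iff_of_extraspecial hP hχ]
    intro hle
    obtain ⟨a, ha, ha1⟩ := hZ
    have := (hχ.isCharacter.res A).charKer_le_of_classInner_ne_zero hirr hin
    rw [hχ.isCharacter.charKer_res] at this
    exact ha1 ((hirr.mem_charKer_iff.1 (this (hle ha))).trans hlam.2)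
  have hidx : A.index = p ^ n := by
    have h := A.index_mul_card
    rw [hA, hcard, show 2 * n + 1 = n + (n + 1) by ring, pow_add p n (n + 1)] at h
    exact Nat.eq_of_mul_eq_mul_right (pow_pos hp.pos _) h
  have heq : Cfsg.indFun A lam = χ := by
    refine Cfsg.Lib.Char.Deg.eq_of_classInner_ne_zero_of_deg_le
      (Cfsg.Lib.Char.isCharacter_indFun hlam.1) hχ ?_ ?_
    · rwa [Cfsg.Lib.Char.classInner_indFun_irr_eq hlam.1 hχ.isCharacter]
    · rw [Cfsg.Lib.Char.Deg.deg_indFun A hlam.1, hidx,
        (Cfsg.Lib.Char.Deg.deg_eq_one_iff hlam.1).2 hlam.2, mul_one,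
        Cfsg.Lib.Char.Deg.deg_eq_of_extraspecial hP hcard hχ hne]
  rw [heq]
  exact ⟨hχ, fun x hx => Cfsg.Lib.Char.Deg.apply_eq_zero_of_extraspecial hP hχ hne hx⟩

end Cfsg.Agent.S0893
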