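import Cfsg.Statements.S0894
import Cfsg.Agent.Char.DegExtraspecial

set_option autoImplicit false
open Cfsg

namespace Cfsg.Agent.S0894

/-- Let P be an extraspecial p-group of order p ^ (2 * n + 1). Then every irreducible character of P has degree 1 or p ^ n, and exactly p - 1 of them have degree p ^ n. -/
theorem result {P : Type*} [Group P] [Finite P] (p n : ℕ) [Fact p.Prime] (hP : Cfsg.IsExtraspecial p P) (hcard : Nat.card P = p ^ (2 * n + 1)) : (∀ χ : Cfsg.IrrCharacter P, (χ : P → ℂ) 1 = 1 ∨ (χ : P → ℂ) 1 = (p : ℂ) ^ n) ∧ Nat.card {χ : Cfsg.IrrCharacter P // (χ : P → ℂ) 1 = (p : ℂ) ^ n} = p - 1 := by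
  have hp : p.Prime := Fact.out
  have hn : p ^ n ≠ 1 := by
    intro h
    apply Cfsg.Lib.Char.Deg.index_center_ne_one_of_extraspecial hP
    rw [Cfsg.Lib.Char.Deg.index_center_of_extraspecial hP hcard, mul_comm, pow_mul, h, one_pow]
  have key : ∀ χ : Cfsg.IrrCharacter P, (χ : P → ℂ) 1 = (p : ℂ) ^ n ↔
      Cfsg.charDegree (χ : P → ℂ) ≠ 1 := by
    intro χ
    rw [← Nat.cast_pow, ← Cfsg.Lib.Char.Deg.deg_eq_iff χ.2.isCharacter]
    exact ⟨fun h => h ▸ hn, Cfsg.Lib.Char.Deg.deg_eq_of_extraspecial hP hcard χ.2⟩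
  refine ⟨fun χ => ?_, ?_⟩
  · by_cases h : Cfsg.charDegree (χ : P → ℂ) = 1
    · exact Or.inl ((Cfsg.Lib.Char.Deg.deg_eq_one_iff χ.2.isCharacter).1 h)
    · exact Or.inr ((key χ).2 h)
  · rw [← Cfsg.Lib.Char.Deg.card_nonlinear_of_extraspecial hP]
    exact Nat.card_congr (Equiv.subtypeEquivRight key)

end Cfsg.Agent.S0894
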