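import Cfsg.Statements.S0897
import Cfsg.Agent.Char.DadeExt

set_option autoImplicit false
open Cfsg

namespace Cfsg.Agent.S0897

open Cfsg.Lib.Char Cfsg.Lib.Char.Deg Cfsg.Lib.Solv

/-- Let N be a normal subgroup of the finite group G with the index of N a power of the prime p, and P a Sylow p-subgroup of G such that P ⊓ N lies in the centre of P and every character of degree 1 of P ⊓ N is the restriction of a character of degree 1 of P. Then every irreducible character of N invariant under conjugation by G is the restriction of an irreducible character of G. -/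
theorem result {G : Type*} [Group G] [Fintype G] (p : ℕ) [Fact p.Prime] (N : Subgroup G) [hN : N.Normal] (hind : ∃ k : ℕ, N.index = p ^ k) (P : Sylow p G) (hcent : ∀ x ∈ (P : Subgroup G) ⊓ N, ∀ y ∈ (P : Subgroup G), x * y = y * x) (hlin : ∀ lam : ↥((P : Subgroup G) ⊓ N) → ℂ, Cfsg.IsCharacter ↥((P : Subgroup G) ⊓ N) lam → lam 1 = 1 → ∃ μ : ↥(P : Subgroup G) → ℂ, Cfsg.IsCharacter ↥(P : Subgroup G) μ ∧ μ 1 = 1 ∧ ∀ x : ↥((P : Subgroup G) ⊓ N), μ ⟨(x : G), x.2.1⟩ = lam x) (ϑ : N → ℂ) (hϑ : Cfsg.IsIrrCharacter N ϑ) (hinv : ∀ (g : G) (n : N), ϑ ⟨g * n * g⁻¹, hN.conj_mem (n : G) n.2 g⟩ = ϑ n) : ∃ χ : G → ℂ, Cfsg.IsIrrCharacter G χ ∧ ∀ n : N, χ n = ϑ n := by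
  classical
  have hp : p.Prime := Fact.out
  obtain ⟨k, hk⟩ := hind
  obtain ⟨E, φ, ⟨x, hxZ, hxp, j, hj⟩, hEN, hφ, -, m, hm, h⟩ :=
    exists_elementary_invariant_constituent hp hk hϑ hinv
  set M := N.subgroupOf E with hM
  obtain ⟨i, -, hi⟩ := (Nat.dvd_prime_pow hp).1 (hk ▸ Subgroup.relIndex_dvd_index_of_normal N E)
  obtain ⟨Q⟩ : Nonempty (Sylow p E) := inferInstance
  obtain ⟨P', hP'⟩ := (Q.isPGroup'.map E.subtype).exists_le_sylow
  obtain ⟨g, hg⟩ := MulAction.exists_smul_eq G P' P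
  have hc : ∀ y : E, y ∈ Q → g * y * g⁻¹ ∈ (P : Subgroup G) := fun y hy => by
    rw [← hg]
    exact Subgroup.smul_mem_pointwise_smul _ (MulAut.conj g) _ (hP' ⟨y, hy, rfl⟩)
  have hxM : Subgroup.zpowers x ≤ M := Subgroup.zpowers_le.2
    (Brauer.mem_of_relIndex_eq_pow (H := ⊤) (k := i) le_top
      (by rw [Subgroup.normalizer_eq_top]) (by rw [Subgroup.relIndex_top_right]; exact hi)
      (Subgroup.mem_top x) hxp)
  have hxZ' : Subgroup.zpowers x ≤ Subgroup.center E := Subgroup.zpowers_le.2 hxZ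
  have : (Subgroup.zpowers x).Normal := ⟨fun a ha g => by
    rwa [Subgroup.mem_center_iff.1 (hxZ' ha) g, mul_inv_cancel_right]⟩
  have hdec : ∀ e : E, ∃ y ∈ (Q : Subgroup E), ∃ z ∈ Subgroup.zpowers x, y * z = e := fun e =>
    Subgroup.mem_sup_of_normal_right.1 (sylow_sup_eq_top Q hj ▸ Subgroup.mem_top e)
  have hMZ : M ≤ Subgroup.center E := by
    intro a ha
    obtain ⟨y, hy, z, hz, rfl⟩ := hdec a
    refine mul_mem (Subgroup.mem_center_iff.2 fun e => ?_) (hxZ' hz)
    obtain ⟨y', hy', z', hz', rfl⟩ := hdec e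
    have h1 : y ∈ M := (M.mul_mem_cancel_right (hxM hz)).1 ha
    have h2 := hcent _ ⟨hc y hy, hN.conj_mem _ h1 g⟩ _ (hc y' hy')
    have h3 : y * y' = y' * y := Subtype.ext (mul_left_cancel (a := g) (by simpa [← mul_assoc] using h2))
    rw [mul_assoc, ← Subgroup.mem_center_iff.1 (hxZ' hz') y, ← mul_assoc, ← h3, mul_assoc]
  obtain ⟨lam, rfl⟩ := hφ.exists_monoidHom_of_comm fun a b =>
    Subtype.ext (Subgroup.mem_center_iff.1 (hMZ b.2) a)
  obtain ⟨μ, hμ⟩ := exists_extend_of_forall_prime M.subtype lam fun r hr _ => by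
    by_cases hrp : r = p
    swap
    · obtain ⟨ν, hν⟩ := exists_extend_pow_index M.subtype (by rw [Subgroup.range_subtype]; infer_instance)
        lam (fun k a a' h => by
          rw [Subgroup.mem_center_iff.1 (hMZ a.2 : M.subtype a ∈ _) k, mul_inv_cancel_right] at h
          rw [M.subtype_injective h]) M (fun a => a.2) lam fun _ => rfl
      refine ⟨_, ν, fun h => hrp ?_, hν⟩
      rw [show M.index = p ^ i from hi] at h
      exact (Nat.prime_dvd_prime_iff_eq hr hp).1 (hr.dvd_of_dvd_pow h)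
    subst hrp
    let c : (Q : Subgroup E) →* (P : Subgroup G) := ((MulAut.conj g).toMonoidHom.comp
      (E.subtype.comp (Q : Subgroup E).subtype)).codRestrict _ fun y => hc y y.2
    let f : M.subgroupOf Q →* ↥((P : Subgroup G) ⊓ N) := ((MulAut.conj g).toMonoidHom.comp
      (E.subtype.comp ((Q : Subgroup E).subtype.comp (M.subgroupOf Q).subtype))).codRestrict _
        fun y => ⟨hc _ (y : (Q : Subgroup E)).2, hN.conj_mem _ y.2 g⟩
    have hf : Function.Injective f := fun a b hab =>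
      Subtype.ext (Subtype.ext (Subtype.ext ((MulAut.conj g).injective (congrArg Subtype.val hab))))
    let l0 : M.subgroupOf Q →* ℂˣ := lam.comp
      (((Q : Subgroup E).subtype.comp (M.subgroupOf Q).subtype).codRestrict M fun y => y.2)
    obtain ⟨l1, hl1⟩ := exists_monoidHom_extend_of_comm (G := ↥((P : Subgroup G) ⊓ N))
      (fun a b => Subtype.ext (hcent a a.2 b b.2.1)) f.range
      (l0.comp (MonoidHom.ofInjective hf).symm.toMonoidHom)
    obtain ⟨ξ, hξ, hξ1, hξ2⟩ := hlin _ (isIrrCharacter_monoidHom l1).isCharacter (by simp)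
    obtain ⟨l2, rfl⟩ := hξ.exists_monoidHom_of_apply_one hξ1
    refine ⟨(Q : Subgroup E).index, MonoidHom.transfer (l2.comp c), Q.not_dvd_index, fun a => ?_⟩
    rw [MonoidHom.transfer_eq_pow _ _ fun k g₀ _ => by
      rw [mul_assoc, ← Subgroup.mem_center_iff.1 (pow_mem (hMZ a.2 : M.subtype a ∈ _) k) g₀, inv_mul_cancel_left],
      ← map_pow lam]
    generalize_proofs h1
    have h2 := hl1 (MonoidHom.ofInjective hf ⟨⟨_, h1⟩, (pow_mem a.2 _ : _ ∈ M)⟩)
    rw [MonoidHom.comp_apply, MulEquiv.coe_toMonoidHom, MulEquiv.symm_apply_apply] at h2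
    exact (Units.ext (hξ2 (f ⟨⟨_, h1⟩, (pow_mem a.2 _ : _ ∈ M)⟩))).trans h2
  exact exists_ext_of_linear_constituent hp hk hϑ hinv hEN μ hm
    ((congrArg _ (funext fun a => congrArg Units.val (hμ a))).trans h)

end Cfsg.Agent.S0897
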