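import Cfsg.Statements.S0900
import Cfsg.Agent.Char.Ramified

set_option autoImplicit false
open Cfsg

namespace Cfsg.Agent.S0900

/-- Let N be a normal subgroup of the finite group G, χ an irreducible character of G and ϑ an irreducible character of N having nonzero inner product with the restriction of χ. Consider: (a) the restriction of χ to N is e • ϑ for a natural number e with e ^ 2 equal to the index of N; (b) χ vanishes outside N and ϑ is invariant under conjugation by G; (c) ϑ is invariant and every irreducible character of G having nonzero inner product with the function induced from ϑ equals χ. Then (a) ↔ (b) and (a) ↔ (c). -/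
theorem result {G : Type*} [Group G] [Fintype G] (N : Subgroup G) [hN : N.Normal] [Fintype N] (χ : G → ℂ) (hχ : Cfsg.IsIrrCharacter G χ) (ϑ : N → ℂ) (hϑ : Cfsg.IsIrrCharacter N ϑ) (hcon : Cfsg.classInner (fun n : N => χ n) ϑ ≠ 0) : ((∃ e : ℕ, (fun n : N => χ n) = (e : ℂ) • ϑ ∧ e ^ 2 = N.index) ↔ ((∀ g : G, g ∉ N → χ g = 0) ∧ ∀ (g : G) (n : N), ϑ ⟨g * n * g⁻¹, hN.conj_mem (n : G) n.2 g⟩ = ϑ n)) ∧ ((∃ e : ℕ, (fun n : N => χ n) = (e : ℂ) • ϑ ∧ e ^ 2 = N.index) ↔ (∀ (g : G) (n : N), ϑ ⟨g * n * g⁻¹, hN.conj_mem (n : G) n.2 g⟩ = ϑ n ∧ ∀ ψ : G → ℂ, Cfsg.IsIrrCharacter G ψ → Cfsg.classInner (Cfsg.indFun N ϑ) ψ ≠ 0 → ψ = χ)) := by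
  have hinv : ∀ e : ℕ, (fun n : N => χ n) = (e : ℂ) • ϑ → e ^ 2 = N.index →
      ∀ (g : G) (n : N), ϑ ⟨g * n * g⁻¹, hN.conj_mem (n : G) n.2 g⟩ = ϑ n := fun e h he =>
    Cfsg.Lib.Char.invariant_of_res_eq_smul hχ.isClassFunction (by
      rintro h0
      rw [Nat.cast_eq_zero] at h0
      rw [h0] at he
      exact N.index_ne_zero_of_finite he.symm) h
  refine ⟨⟨?_, ?_⟩, ⟨?_, ?_⟩⟩
  · rintro ⟨e, h, he⟩
    exact ⟨(Cfsg.Lib.Char.vanish_iff_sq_eq_index hχ hϑ h).2 he, hinv e h he⟩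
  · rintro ⟨h1, h2⟩
    obtain ⟨e, -, -, h⟩ := Cfsg.Lib.Char.clifford_res_invariant_nat hχ hϑ h2 hcon
    exact ⟨e, h, (Cfsg.Lib.Char.vanish_iff_sq_eq_index hχ hϑ h).1 h1⟩
  · rintro ⟨e, h, he⟩ g n
    refine ⟨hinv e h he g n, fun ψ hψ hc => Cfsg.Lib.Char.eq_of_fullyRamified hχ hϑ h he hψ ?_⟩
    rwa [← Cfsg.Lib.Char.classInner_indFun_irr_eq hϑ.isCharacter hψ.isCharacter]
  · intro h
    refine Cfsg.Lib.Char.fullyRamified_of_unique hχ hϑ (fun g n => (h g n).1)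
      (fun ψ hψ hc => (h 1 1).2 ψ hψ ?_)
    rwa [Cfsg.Lib.Char.classInner_indFun_irr_eq hϑ.isCharacter hψ.isCharacter]

end Cfsg.Agent.S0900
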