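import Cfsg.Statements.S0901
import Mathlib.RingTheory.Polynomial.Cyclotomic.Basic
import Mathlib.Analysis.SpecialFunctions.Complex.CircleAddChar
import Mathlib.RingTheory.RootsOfUnity.Complex
import Mathlib.FieldTheory.Finite.Basic
import Mathlib.RingTheory.IntegralClosure.IsIntegralClosure.Basic
import Mathlib.RingTheory.Adjoin.PowerBasis

set_option autoImplicit false
open Cfsg

namespace Cfsg.Agent.S0901

/-- An integer prime to `p` does not lie in a proper ideal containing `p`. -/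
theorem natCast_not_mem {p : ℕ} {M : Ideal Cfsg.AlgInt} (hM : Cfsg.IsPModular p M) {m : ℕ}
    (hm : ¬ p ∣ m) : (m : Cfsg.AlgInt) ∉ M := by
  intro h
  have hc : IsCoprime (p : ℤ) (m : ℤ) := by
    rw [Nat.isCoprime_iff_coprime]
    exact (Nat.Prime.coprime_iff_not_dvd hM.1).2 hm
  obtain ⟨a, b, hab⟩ := hc
  apply hM.2.1.ne_top
  rw [Ideal.eq_top_iff_one]
  have h1 : ((a : Cfsg.AlgInt) * (p : Cfsg.AlgInt) + (b : Cfsg.AlgInt) * (m : Cfsg.AlgInt)) = 1 := by
    have := congrArg (Int.cast : ℤ → Cfsg.AlgInt) hab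
    simpa using this
  rw [← h1]
  exact M.add_mem (M.mul_mem_left _ hM.2.2) (M.mul_mem_left _ h)

/-- Every algebraic integer outside `M` has a power prime to `p` congruent to one. -/
theorem exists_pow_sub_one_mem {p : ℕ} {M : Ideal Cfsg.AlgInt} (hM : Cfsg.IsPModular p M)
    (a : Cfsg.AlgInt) (ha : a ∉ M) : ∃ m : ℕ, ¬ p ∣ m ∧ a ^ m - 1 ∈ M := by
  classical
  haveI : Fact p.Prime := ⟨hM.1⟩
  haveI := hM.2.1
  letI : Field (Cfsg.AlgInt ⧸ M) := Ideal.Quotient.field M
  have hp0 : ((p : ℕ) : Cfsg.AlgInt ⧸ M) = 0 := by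
    rw [← map_natCast (Ideal.Quotient.mk M), Ideal.Quotient.eq_zero_iff_mem]
    exact hM.2.2
  haveI : CharP (Cfsg.AlgInt ⧸ M) p := (CharP.charP_iff_prime_eq_zero hM.1).2 hp0
  letI : Algebra (ZMod p) (Cfsg.AlgInt ⧸ M) := ZMod.algebra _ p
  set x : Cfsg.AlgInt ⧸ M := Ideal.Quotient.mk M a with hx
  have hx0 : x ≠ 0 := by
    rw [hx, Ne, Ideal.Quotient.eq_zero_iff_mem]; exact ha
  have hai : IsIntegral ℤ a := integralClosure.isIntegral a
  have hxi : IsIntegral ℤ x := hai.map (Ideal.Quotient.mkₐ ℤ M)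
  have hxi' : IsIntegral (ZMod p) x := hxi.tower_top
  let K := IntermediateField.adjoin (ZMod p) {x}
  haveI : FiniteDimensional (ZMod p) K := IntermediateField.adjoin.finiteDimensional hxi'
  haveI : Finite K := Module.finite_of_finite (ZMod p)
  letI : Fintype K := Fintype.ofFinite K
  let y : K := ⟨x, IntermediateField.mem_adjoin_simple_self _ x⟩
  have hy0 : y ≠ 0 := fun h => hx0 (congrArg Subtype.val h)
  have hy := FiniteField.pow_card_sub_one_eq_one y hy0
  obtain ⟨n, -, hn⟩ := FiniteField.card K p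
  refine ⟨Fintype.card K - 1, ?_, ?_⟩
  · rw [hn]
    intro hd
    have h1 : p ∣ p ^ (n : ℕ) := dvd_pow_self p n.ne_zero
    have h2 : 1 ≤ p ^ (n : ℕ) := Nat.one_le_pow _ _ hM.1.pos
    have h3 : p ∣ p ^ (n : ℕ) - (p ^ (n : ℕ) - 1) := Nat.dvd_sub h1 hd
    rw [Nat.sub_sub_self h2] at h3
    exact hM.1.one_lt.ne' (Nat.dvd_one.1 h3)
  · rw [← Ideal.Quotient.eq_zero_iff_mem, map_sub, map_pow, map_one, sub_eq_zero]
    exact congrArg Subtype.val hy

/-- Let M be a maximal ideal of the ring of algebraic integers containing the prime p, and let U be the set of complex roots of unity of order prime to p. Then reduction modulo M is injective on U, and every algebraic integer not in M is congruent modulo M to an element of U (so U maps bijectively onto the nonzero residues). -/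
theorem result (p : ℕ) [Fact p.Prime] (M : Ideal Cfsg.AlgInt) (hM : Cfsg.IsPModular p M) : (∀ ε₁ ε₂ : Cfsg.AlgInt, (∃ m : ℕ, ¬ p ∣ m ∧ (ε₁ : ℂ) ^ m = 1) → (∃ m : ℕ, ¬ p ∣ m ∧ (ε₂ : ℂ) ^ m = 1) → ε₁ - ε₂ ∈ M → ε₁ = ε₂) ∧ (∀ a : Cfsg.AlgInt, a ∉ M → ∃ ε : Cfsg.AlgInt, (∃ m : ℕ, ¬ p ∣ m ∧ (ε : ℂ) ^ m = 1) ∧ a - ε ∈ M) := by
  have hprime : M.IsPrime := hM.2.1.isPrime
  refine ⟨?_, ?_⟩
  · rintro x y ⟨m₁, hm₁, hx⟩ ⟨m₂, hm₂, hy⟩ hxy
    by_contra hne
    have hm : ¬ p ∣ m₁ * m₂ := fun h => ((Nat.Prime.dvd_mul hM.1).1 h).elim hm₁ hm₂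
    set m := m₁ * m₂ with hmdef
    have hx' : x ^ m = 1 := by
      apply Subtype.ext
      simp only [hmdef, SubmonoidClass.coe_pow, OneMemClass.coe_one, pow_mul, hx, one_pow]
    have hy' : y ^ m = 1 := by
      apply Subtype.ext
      simp only [hmdef, SubmonoidClass.coe_pow, OneMemClass.coe_one, mul_comm m₁ m₂, pow_mul, hy,
        one_pow]
    have hgeom := Commute.geom_sum₂_mul (Commute.all x y) m
    rw [hx', hy', sub_self, mul_eq_zero] at hgeom
    have h0 := hgeom.resolve_right (sub_ne_zero.2 hne)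
    have hq : Ideal.Quotient.mk M x = Ideal.Quotient.mk M y := Ideal.Quotient.eq.2 hxy
    have h1 := congrArg (Ideal.Quotient.mk M) h0
    simp only [map_sum, map_mul, map_pow, hq, map_zero] at h1
    have hm0 : m ≠ 0 := by rintro h; exact hm (h ▸ dvd_zero p)
    have h2 : ∑ i ∈ Finset.range m, Ideal.Quotient.mk M y ^ i * Ideal.Quotient.mk M y ^ (m - 1 - i)
        = (m : Cfsg.AlgInt ⧸ M) * Ideal.Quotient.mk M y ^ (m - 1) := by
      rw [Finset.sum_congr rfl (g := fun _ => Ideal.Quotient.mk M y ^ (m - 1))]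
      · simp
      · intro i hi
        rw [← pow_add]
        congr 1
        have := Finset.mem_range.1 hi
        omega
    rw [h2] at h1
    have h3 : (m : Cfsg.AlgInt ⧸ M) = 0 := by
      have h4 := congrArg (· * Ideal.Quotient.mk M y) h1
      simp only [zero_mul, mul_assoc] at h4
      rw [← pow_succ, Nat.sub_add_cancel (Nat.one_le_iff_ne_zero.2 hm0), ← map_pow, hy', map_one,
        mul_one] at h4
      exact h4
    rw [← map_natCast (Ideal.Quotient.mk M), Ideal.Quotient.eq_zero_iff_mem] at h3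
    exact natCast_not_mem hM hm h3
  · intro a ha
    obtain ⟨m, hm, ham⟩ := exists_pow_sub_one_mem hM a ha
    have hm0 : m ≠ 0 := by rintro h; exact hm (h ▸ dvd_zero p)
    have hζ := Complex.isPrimitiveRoot_exp m hm0
    have hζi : IsIntegral ℤ (Complex.exp (2 * Real.pi * Complex.I / m)) :=
      hζ.isIntegral (Nat.pos_of_ne_zero hm0)
    let ζ : Cfsg.AlgInt := ⟨_, hζi⟩
    have hζ' : IsPrimitiveRoot ζ m :=
      IsPrimitiveRoot.of_map_of_injective (f := Cfsg.AlgInt.val) hζ Subtype.val_injective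
    have hprod := Polynomial.X_pow_sub_one_eq_prod (Nat.pos_of_ne_zero hm0) hζ'
    have hev := congrArg (Polynomial.eval a) hprod
    simp only [Polynomial.eval_sub, Polynomial.eval_pow, Polynomial.eval_X, Polynomial.eval_one,
      Polynomial.eval_prod, Polynomial.eval_C] at hev
    rw [hev] at ham
    obtain ⟨ε, hε, hmem⟩ := (Ideal.IsPrime.prod_mem_iff).1 ham
    refine ⟨ε, ⟨m, hm, ?_⟩, hmem⟩
    rw [Polynomial.mem_nthRootsFinset (Nat.pos_of_ne_zero hm0)] at hε
    have := congrArg (Subtype.val : Cfsg.AlgInt → ℂ) hε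
    simpa using this

end Cfsg.Agent.S0901
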