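import Cfsg.Statements.S0903
import Mathlib.GroupTheory.PGroup
import Mathlib.Tactic.Group

set_option autoImplicit false
open Cfsg

namespace Cfsg.Agent.S0903

/-- The conjugation action of `P` on the set of pairs with product `c`. -/
@[reducible] def pairAction {G : Type*} [Group G] (P : Subgroup G) (c : G)
    (hc : c ∈ Subgroup.centralizer (P : Set G)) (g h : G) :
    MulAction P {xy : G × G // IsConj g xy.1 ∧ IsConj h xy.2 ∧ xy.1 * xy.2 = c} where
  smul u xy := ⟨((u : G) * xy.1.1 * (u : G)⁻¹, (u : G) * xy.1.2 * (u : G)⁻¹),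
    xy.2.1.trans (isConj_iff.2 ⟨u, rfl⟩), xy.2.2.1.trans (isConj_iff.2 ⟨u, rfl⟩), by
      have h1 := xy.2.2.2
      have h2 : (u : G) * c = c * u := Subgroup.mem_centralizer_iff.1 hc u u.2
      calc (u : G) * xy.1.1 * (u : G)⁻¹ * ((u : G) * xy.1.2 * (u : G)⁻¹)
          = (u : G) * (xy.1.1 * xy.1.2) * (u : G)⁻¹ := by group
        _ = c := by rw [h1, h2]; group⟩
  one_smul xy := by
    apply Subtype.ext
    change ((((1 : P) : G) * xy.1.1 * ((1 : P) : G)⁻¹, ((1 : P) : G) * xy.1.2 * ((1 : P) : G)⁻¹) : G × G) = xy.1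
    simp
  mul_smul u v xy := by
    apply Subtype.ext
    change ((((u * v : P) : G) * xy.1.1 * ((u * v : P) : G)⁻¹,
      ((u * v : P) : G) * xy.1.2 * ((u * v : P) : G)⁻¹) : G × G) =
      ((u : G) * ((v : G) * xy.1.1 * (v : G)⁻¹) * (u : G)⁻¹,
        (u : G) * ((v : G) * xy.1.2 * (v : G)⁻¹) * (u : G)⁻¹)
    simp [mul_assoc]

/-- Let P be a p-subgroup of the finite group G, let c centralize P and let g, h ∈ G. The number of pairs (x, y) with x conjugate to g, y conjugate to h and x * y = c is congruent modulo p to the number of such pairs in which x and y both centralize P. (This is why the Brauer map on class sums is multiplicative.) -/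
theorem result {G : Type*} [Group G] [Finite G] (p : ℕ) [Fact p.Prime] (P : Subgroup G) (hP : IsPGroup p P) (c : G) (hc : c ∈ Subgroup.centralizer (P : Set G)) (g h : G) : Nat.card {xy : G × G // IsConj g xy.1 ∧ IsConj h xy.2 ∧ xy.1 * xy.2 = c} ≡ Nat.card {xy : G × G // IsConj g xy.1 ∧ IsConj h xy.2 ∧ xy.1 * xy.2 = c ∧ xy.1 ∈ Subgroup.centralizer (P : Set G) ∧ xy.2 ∈ Subgroup.centralizer (P : Set G)} [MOD p] := by
  letI := pairAction P c hc g h
  have key := hP.card_modEq_card_fixedPoints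
    {xy : G × G // IsConj g xy.1 ∧ IsConj h xy.2 ∧ xy.1 * xy.2 = c}
  have hfix : ∀ xy : {xy : G × G // IsConj g xy.1 ∧ IsConj h xy.2 ∧ xy.1 * xy.2 = c},
      xy ∈ MulAction.fixedPoints P {xy : G × G // IsConj g xy.1 ∧ IsConj h xy.2 ∧ xy.1 * xy.2 = c} ↔
        xy.1.1 ∈ Subgroup.centralizer (P : Set G) ∧ xy.1.2 ∈ Subgroup.centralizer (P : Set G) := by
    intro xy
    rw [MulAction.mem_fixedPoints]
    constructor
    · intro hx
      constructor
      · rw [Subgroup.mem_centralizer_iff]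
        intro u hu
        have h1 : u * xy.1.1 * u⁻¹ = xy.1.1 := congrArg (fun z => z.1.1) (hx ⟨u, hu⟩)
        calc u * xy.1.1 = u * xy.1.1 * u⁻¹ * u := by group
          _ = xy.1.1 * u := by rw [h1]
      · rw [Subgroup.mem_centralizer_iff]
        intro u hu
        have h1 : u * xy.1.2 * u⁻¹ = xy.1.2 := congrArg (fun z => z.1.2) (hx ⟨u, hu⟩)
        calc u * xy.1.2 = u * xy.1.2 * u⁻¹ * u := by group
          _ = xy.1.2 * u := by rw [h1]
    · rintro ⟨h1, h2⟩ u
      apply Subtype.ext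
      change (((u : G) * xy.1.1 * (u : G)⁻¹, (u : G) * xy.1.2 * (u : G)⁻¹) : G × G) = xy.1
      have e1 := Subgroup.mem_centralizer_iff.1 h1 u u.2
      have e2 := Subgroup.mem_centralizer_iff.1 h2 u u.2
      rw [e1, e2]
      simp
  refine key.trans ?_
  have : Nat.card (MulAction.fixedPoints P
      {xy : G × G // IsConj g xy.1 ∧ IsConj h xy.2 ∧ xy.1 * xy.2 = c}) =
      Nat.card {xy : G × G // IsConj g xy.1 ∧ IsConj h xy.2 ∧ xy.1 * xy.2 = c ∧ xy.1 ∈ Subgroup.centralizer (P : Set G) ∧ xy.2 ∈ Subgroup.centralizer (P : Set G)} := by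
    refine Nat.card_congr
      { toFun := fun z => ⟨z.1.1, z.1.2.1, z.1.2.2.1, z.1.2.2.2, (hfix z.1).1 z.2⟩
        invFun := fun z => ⟨⟨z.1, z.2.1, z.2.2.1, z.2.2.2.1⟩, (hfix _).2 z.2.2.2.2⟩
        left_inv := fun z => rfl
        right_inv := fun z => rfl }
  rw [this]

end Cfsg.Agent.S0903
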