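import Cfsg.Statements.S0904
import Cfsg.Agent.PrimeOne.SelfCent

set_option autoImplicit false
open Cfsg

namespace Cfsg.Agent.S0904

/-- Let G be a finite simple group of order p ^ a * q ^ b * r with p, q, r distinct primes. Then every Sylow r-subgroup S of G satisfies C_G(S) = S. -/
theorem result {G : Type*} [Group G] [Finite G] [IsSimpleGroup G] (p q r a b : ℕ) (hp : p.Prime) (hq : q.Prime) [Fact r.Prime] (hpq : p ≠ q) (hpr : p ≠ r) (hqr : q ≠ r) (hcard : Nat.card G = p ^ a * q ^ b * r) (S : Sylow r G) : Subgroup.centralizer (S : Set G) = (S : Subgroup G) := by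
  have hr : r.Prime := Fact.out
  have hS : Nat.card S = r := by
    rw [S.card_eq_multiplicity, hcard, Nat.factorization_mul (by positivity [hp.pos, hq.pos]) hr.ne_zero,
      Nat.factorization_mul (pow_ne_zero _ hp.ne_zero) (pow_ne_zero _ hq.ne_zero)]
    simp [hp.factorization_pow, hq.factorization_pow, hr.factorization, hpr, hqr]
  obtain ⟨⟨x, hxS⟩, hx⟩ := exists_prime_orderOf_dvd_card' (G := S) r (by rw [hS])
  have hx' : orderOf x = r := by rw [← hx, ← Subgroup.orderOf_coe]
  have hz : Subgroup.zpowers x = S := by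
    apply Subgroup.eq_of_le_of_card_ge (Subgroup.zpowers_le.2 hxS)
    rw [Nat.card_zpowers, hx']
    exact hS.le
  have h := Cfsg.Lib.PrimeOne.centralizer_eq_zpowers_of_card hp hq hr hpr hqr hcard hx'
  ext g
  change g ∈ Subgroup.centralizer ((S : Subgroup G) : Set G) ↔ _
  rw [← hz]
  constructor
  · intro hg
    rw [← h, Subgroup.mem_centralizer_singleton_iff]
    exact (hg x (Subgroup.mem_zpowers _)).symm
  · intro hg y hy
    obtain ⟨m, rfl⟩ := hg
    obtain ⟨n, rfl⟩ := hy
    exact zpow_mul_comm _ _ _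

end Cfsg.Agent.S0904
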