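import Cfsg.Statements.S0918
import Cfsg.Agent.Block.Induce

set_option autoImplicit false
open Cfsg Cfsg.Lib.Block Cfsg.Lib.Char

namespace Cfsg.Agent.S0918

/-- Let P be a p-subgroup of the finite group G and H a subgroup with P·C_G(P) ≤ H ≤ N_G(P); let b be a block of H and B a block of G relative to a maximal ideal M of the algebraic integers containing p. Then b induces B if and only if, for every g ∈ G, every ξ ∈ b and every χ ∈ B, the central character of χ at g is congruent modulo the local ideal at M to the sum of ξ h / ξ 1 over the elements h of H conjugate in G to g and centralizing P. -/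
theorem result {G : Type*} [Group G] [Finite G] (p : ℕ) [Fact p.Prime] (M : Ideal Cfsg.AlgInt) (hM : Cfsg.IsPModular p M) (P H : Subgroup G) (hP : IsPGroup p P) (hPH : P ≤ H) (hCH : Subgroup.centralizer (P : Set G) ≤ H) (hHN : H ≤ Subgroup.normalizer (P : Set G)) (b : Set (Cfsg.IrrCharacter H)) (hb : Cfsg.IsPBlock M b) (B : Set (Cfsg.IrrCharacter G)) (hB : Cfsg.IsPBlock M B) : Cfsg.IsInducedBlock M H b B ↔ ∀ ξ ∈ b, ∀ χ ∈ B, ∀ g : G, Cfsg.MemLocalIdeal M (Cfsg.brauerCentralChar P H (ξ : H → ℂ) g - Cfsg.centralChar (χ : G → ℂ) g) := by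
  have key : ∀ g : G, lamB M b (brH P H (classSum (kM M) g)) = lamB M b (resSub H (classSum (kM M) g)) :=
    fun g => lamB_brH hM hP hPH hHN hb (isFixedBy_of_mem_center (classSum_mem_center g) H)
  rw [isInducedBlock_iff_classSum hM]
  simp only [hb, hB, true_and, ← key]
  constructor
  · intro h ξ hξ χ hχ g
    rw [memLocalIdeal_brauer_sub_iff hM hHN ξ.2 χ.2, ← lamB_eq_lam hM hb hξ, ← lamB_eq_lam hM hB hχ]
    exact h g
  · intro h g
    obtain ⟨ξ, hξ⟩ := block_nonempty hM hb
    obtain ⟨χ, hχ⟩ := block_nonempty hM hB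
    rw [lamB_eq_lam hM hb hξ, lamB_eq_lam hM hB hχ, ← memLocalIdeal_brauer_sub_iff hM hHN ξ.2 χ.2]
    exact h ξ hξ χ hχ g

end Cfsg.Agent.S0918
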