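import Cfsg.Statements.S0920
import Cfsg.Agent.Block.FirstMain

set_option autoImplicit false
open Cfsg Cfsg.Lib.Block Cfsg.Lib.Char

namespace Cfsg.Agent.S0920

/-- Brauer's First Main Theorem. Let D be a p-subgroup of the finite group G with normalizer N, and fix a maximal ideal M of the algebraic integers containing p. Then (i) every block b of N having D as a defect group induces some block B of G having D as a defect group; (ii) every block of G with defect group D is induced by exactly one block of N with defect group D. -/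
theorem result {G : Type*} [Group G] [Finite G] (p : ℕ) [Fact p.Prime] (M : Ideal Cfsg.AlgInt) (hM : Cfsg.IsPModular p M) (D : Subgroup G) (hD : IsPGroup p D) : (∀ b : Set (Cfsg.IrrCharacter (Subgroup.normalizer (D : Set G))), Cfsg.IsPBlock M b → Cfsg.IsDefectGroup p M b (D.subgroupOf (Subgroup.normalizer (D : Set G))) → ∃ B : Set (Cfsg.IrrCharacter G), Cfsg.IsPBlock M B ∧ Cfsg.IsDefectGroup p M B D ∧ Cfsg.IsInducedBlock M (Subgroup.normalizer (D : Set G)) b B) ∧ (∀ B : Set (Cfsg.IrrCharacter G), Cfsg.IsPBlock M B → Cfsg.IsDefectGroup p M B D → ∃! b : Set (Cfsg.IrrCharacter (Subgroup.normalizer (D : Set G))), Cfsg.IsPBlock M b ∧ Cfsg.IsDefectGroup p M b (D.subgroupOf (Subgroup.normalizer (D : Set G))) ∧ Cfsg.IsInducedBlock M (Subgroup.normalizer (D : Set G)) b B) := by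
  constructor
  · intro b hb hbD
    obtain ⟨B, h⟩ := inducedBlockDefined_of_local hM hD Subgroup.le_normalizer
      (Subgroup.centralizer_le_normalizer _) le_rfl hb
    exact ⟨B, h.2.1, (defect_of_isInducedBlock_normalizer hM hbD h).1, h⟩
  · intro B hB hBD
    obtain ⟨b, hb, hbD, -⟩ := exists_brauerCorrespondent hM hB hBD
    exact ⟨b, ⟨hb.1, hbD, hb⟩, fun b' hb' => eq_of_isInducedBlock_normalizer hM hBD hb'.2.2 hb⟩

end Cfsg.Agent.S0920
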