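import Cfsg.Statements.S0921
import Cfsg.Agent.Block.Cover
import Cfsg.Agent.Solv.Cores

set_option autoImplicit false
open Cfsg Cfsg.Lib.Char Cfsg.Lib.Block

namespace Cfsg.Agent.S0921

/-- Let N = O_p'(G) be the largest normal subgroup of the finite group G of order prime to p, and fix a maximal ideal M of the algebraic integers containing p. If two irreducible characters χ, ψ of G lie in the same block relative to M, then an irreducible character of N occurs in the restriction of χ exactly when it occurs in the restriction of ψ. -/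
theorem result {G : Type*} [Group G] [Finite G] (p : ℕ) [Fact p.Prime] (M : Ideal Cfsg.AlgInt) (hM : Cfsg.IsPModular p M) [Fintype G] (χ ψ : Cfsg.IrrCharacter G) (h : Cfsg.SameBlock M (χ : G → ℂ) (ψ : G → ℂ)) (θ : Cfsg.IrrCharacter (Cfsg.pPrimeCore p G)) [Fintype (Cfsg.pPrimeCore p G)] : Cfsg.classInner (fun n : Cfsg.pPrimeCore p G => (χ : G → ℂ) n) (θ : Cfsg.pPrimeCore p G → ℂ) ≠ 0 ↔ Cfsg.classInner (fun n : Cfsg.pPrimeCore p G => (ψ : G → ℂ) n) (θ : Cfsg.pPrimeCore p G → ℂ) ≠ 0 := by
  have hint := isIntEl_fB_overSet hM (isIntEl_fB_of_not_dvd hM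
    (Cfsg.Lib.Solv.not_dvd_card_pPrimeCore p G) ({θ} : Set (IrrCharacter (pPrimeCore p G))))
  rw [← over_iff, ← over_iff]
  constructor
  · intro h1
    obtain ⟨_, rfl, h2⟩ := blockOf_subset_of_isIntEl hM hint (χ := χ) ⟨θ, rfl, h1⟩
      (show ψ ∈ _ from h)
    exact h2
  · intro h1
    obtain ⟨_, rfl, h2⟩ := blockOf_subset_of_isIntEl hM hint (χ := ψ) ⟨θ, rfl, h1⟩
      (show χ ∈ _ from sameBlock_symm hM h)
    exact h2

end Cfsg.Agent.S0921
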