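import Cfsg.Statements.S0927
import Cfsg.Agent.Block.DefectNum

set_option autoImplicit false
open Cfsg Cfsg.Lib.Block Cfsg.Lib.Char

namespace Cfsg.Agent.S0927

/-- Let B be a block of the finite group G relative to a maximal ideal M of the algebraic integers containing p, let y represent a defect class of B and let P be a Sylow p-subgroup of the centralizer of y. (a) If x ∈ P and χ ∈ B has height zero, then χ (x * y) is not in the local ideal at M. (b) If x lies in the centre of P, then for every χ ∈ B the central character of χ at x * y is not in the local ideal at M. -/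
theorem result {G : Type*} [Group G] [Finite G] (p : ℕ) [Fact p.Prime] (M : Ideal Cfsg.AlgInt) (hM : Cfsg.IsPModular p M) (B : Set (Cfsg.IrrCharacter G)) (hB : Cfsg.IsPBlock M B) (y : G) (hy : Cfsg.IsDefectClass M B y) (P : Sylow p (Subgroup.centralizer ({y} : Set G))) (x : Subgroup.centralizer ({y} : Set G)) (hx : x ∈ (P : Subgroup (Subgroup.centralizer ({y} : Set G)))) : (∀ χ ∈ B, Cfsg.blockHeight p B (χ : G → ℂ) = 0 → ¬ Cfsg.MemLocalIdeal M ((χ : G → ℂ) ((x : G) * y))) ∧ ((∀ w ∈ (P : Subgroup (Subgroup.centralizer ({y} : Set G))), x * w = w * x) → ∀ χ ∈ B, ¬ Cfsg.MemLocalIdeal M (Cfsg.centralChar (χ : G → ℂ) ((x : G) * y))) := by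
  have hP := isSylowIn_map p _ P
  have hxP : (x : G) ∈ (P : Subgroup (Subgroup.centralizer ({y} : Set G))).map
      (Subgroup.centralizer ({y} : Set G)).subtype := ⟨x, hx, rfl⟩
  constructor
  · intro χ hχ h0
    obtain ⟨k, hk⟩ := P.isPGroup' ⟨x, hx⟩
    have hk' : (x : G) ^ p ^ k = 1 := congrArg (fun z : P => ((z : Subgroup.centralizer ({y} : Set G)) : G)) hk
    rw [memLocalIdeal_iff_of_isIntegral hM (IsCharacter_isIntegral χ.2.isCharacter _),
      vM_char_mul_eq_one_of_isDefectClass hM hB hχ h0 hy
        (Subgroup.mem_centralizer_singleton_iff.mp x.2) hk']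
    exact lt_irrefl _
  · intro hc χ hχ
    rw [← lamB_classSum_ne_zero_iff hM hB hχ]
    refine lamB_classSum_mul_ne_zero hM hB hy hP hxP ?_
    rintro _ ⟨w, hw, rfl⟩
    exact congrArg Subtype.val (hc w hw).symm

end Cfsg.Agent.S0927
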