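import Cfsg.Statements.S0926
import Cfsg.Agent.S0924
import Cfsg.Agent.S0927

set_option autoImplicit false
open Cfsg

namespace Cfsg.Agent.S0926

/-- Let B be a block of the finite group G with defect group D (relative to a maximal ideal M of the algebraic integers containing p), let χ ∈ B have height zero, and let x be a p-element. Then some conjugate of x lies in D if and only if χ does not vanish on the whole p-section of x (the elements whose p-part is conjugate to x). -/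
theorem result {G : Type*} [Group G] [Finite G] (p : ℕ) [Fact p.Prime] (M : Ideal Cfsg.AlgInt) (hM : Cfsg.IsPModular p M) (B : Set (Cfsg.IrrCharacter G)) (hB : Cfsg.IsPBlock M B) (D : Subgroup G) (hD : Cfsg.IsDefectGroup p M B D) (χ : Cfsg.IrrCharacter G) (hχ : χ ∈ B) (h0 : Cfsg.blockHeight p B (χ : G → ℂ) = 0) (x : G) (hx : ∃ k : ℕ, orderOf x = p ^ k) : (∃ g : G, g * x * g⁻¹ ∈ D) ↔ ∃ u : G, (∃ z : G, Cfsg.IsPPart p u z ∧ IsConj x z) ∧ (χ : G → ℂ) u ≠ 0 := by
  have hp : p.Prime := Fact.out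
  constructor
  · rintro ⟨g, hg⟩
    obtain ⟨y, hy, P, rfl⟩ := hD
    obtain ⟨x', hx'P, hx'⟩ := hg
    have h := (Cfsg.Agent.S0927.result p M hM B hB y hy P x' hx'P).1 χ hχ h0
    refine ⟨(x' : G) * y, ⟨x', Cfsg.Lib.Block.isPPart_mul ?_ ?_ ?_, isConj_iff.2 ⟨g, hx'.symm⟩⟩, ?_⟩
    · exact Subgroup.mem_centralizer_singleton_iff.1 x'.2
    · obtain ⟨k, hk⟩ := IsPGroup.iff_orderOf.1 P.isPGroup' ⟨x', hx'P⟩
      exact ⟨k, by rw [← hk, Subgroup.orderOf_mk, Subgroup.orderOf_coe]⟩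
    · exact Cfsg.Lib.Block.not_dvd_orderOf_of_isDefectClass hM hB hy
    · intro h0
      apply h
      rw [h0]
      exact Cfsg.Lib.Block.Loc.ideal_zero hM
  · rintro ⟨u, ⟨z, hz, hxz⟩, hu⟩
    by_contra hcon
    refine hu (Cfsg.Agent.S0924.result p M hM χ u z hz fun E hE hzE => hcon ?_)
    rw [← Cfsg.Lib.Block.isPBlock_eq_blockOf hM hB hχ] at hE
    obtain ⟨c, hc⟩ := Cfsg.Lib.Block.defect_exists_conj hM hB hD hE
    obtain ⟨d, rfl⟩ := isConj_iff.1 hxz
    refine ⟨c * d, ?_⟩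
    rw [← hc]
    exact ⟨_, hzE, by simp [mul_assoc]⟩

end Cfsg.Agent.S0926
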