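import Cfsg.Statements.S0928
import Cfsg.Agent.Block.BlockOrth
import Cfsg.Agent.Block.BrauerMap
import Cfsg.Agent.Block.PrincBasic

set_option autoImplicit false
open Cfsg

namespace Cfsg.Agent.S0928

open MonoidAlgebra Cfsg.Lib.Block

theorem mul_eq_zero_of_invariant {k : Type*} [CommRing k] {C : Type*} [Group C] [Finite C]
    (p : ℕ) [Fact p.Prime] (hk : (p : k) = 0) (z : C) (hz : orderOf z = p)
    (hzc : ∀ c, z * c = c * z) (a b : k[C]) (ha : ∀ c, a.coeff (z * c) = a.coeff c)
    (hb : ∀ c, b.coeff (z * c) = b.coeff c) : a * b = 0 := by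
  classical
  let := Fintype.ofFinite C
  have hp : p.Prime := Fact.out
  have hQ : IsPGroup p (Subgroup.zpowers z) :=
    IsPGroup.of_card (n := 1) (by rw [Nat.card_zpowers, hz, pow_one])
  have inv : ∀ {a : k[C]}, (∀ c, a.coeff (z * c) = a.coeff c) →
      ∀ (n : ℕ) c, a.coeff (z ^ n * c) = a.coeff c := by
    intro a ha n
    induction n with
    | zero => simp
    | succ n ih => intro c; rw [pow_succ', mul_assoc, ha, ih]
  refine galg_ext fun g => ?_
  rw [coeff_mul_fintype, sum_eq_sum_fixedPoints hQ hk]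
  · refine Finset.sum_eq_zero fun x _ => if_neg fun hx => ?_
    have := hx ⟨z, Subgroup.mem_zpowers z⟩
    change z * x = x at this
    rw [mul_eq_right] at this
    rw [this, orderOf_one] at hz
    exact hp.one_lt.ne hz
  · rintro ⟨q, hq⟩ x
    obtain ⟨n, rfl⟩ := (Submonoid.mem_powers_iff _ _).1 ((mem_powers_iff_mem_zpowers).2 hq)
    change a.coeff (z ^ n * x) * b.coeff ((z ^ n * x)⁻¹ * g) = _
    have hc : Commute (z ^ n) x⁻¹ := (show Commute z x⁻¹ from hzc _).pow_left n
    rw [inv ha, ← inv hb n ((z ^ n * x)⁻¹ * g), mul_inv_rev, ← mul_assoc, ← mul_assoc, hc.eq]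
    simp

/-- Let χ be an irreducible character of the finite group G and p a prime. If χ g = 0 for every element g of order p, then the exponent of p in the degree χ(1) equals the exponent of p in the order of G (χ has p-defect zero). -/
theorem result {G : Type*} [Group G] [Finite G] (p : ℕ) [Fact p.Prime] (χ : Cfsg.IrrCharacter G) (hvan : ∀ g : G, orderOf g = p → (χ : G → ℂ) g = 0) : (Cfsg.charDegree (χ : G → ℂ)).factorization p = (Nat.card G).factorization p := by
  classical
  let := Fintype.ofFinite G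
  have hp : p.Prime := Fact.out
  obtain ⟨M, hM⟩ := Princ.exists_isPModular hp
  have hB := isPBlock_blockOf (M := M) χ
  have hχB := mem_blockOf_self hM χ
  set B := blockOf M (χ : G → ℂ) with hBdef
  obtain ⟨y, hy⟩ := exists_isDefectClass hM hB
  obtain ⟨hy1, hy2⟩ := (isDefectClass_iff_of_mem hM hB hχB y).1 hy
  -- the centralizer of `y` has order prime to `p`
  have hC : ¬ p ∣ Nat.card (Subgroup.centralizer ({y} : Set G)) := by
    intro hd
    obtain ⟨z, hz⟩ := exists_prime_orderOf_dvd_card' p hd
    have hzo : orderOf (z : G) = p := by rw [Subgroup.orderOf_coe, hz]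
    have hzy : Commute (z : G) y := Subgroup.mem_centralizer_singleton_iff.1 z.2
    let Ω : ℂ[G] := ofFun fun g => if g ^ p = 1 then 1 else 0
    have hΩc : Ω ∈ Subalgebra.center ℂ ℂ[G] := ofFun_mem_center fun x g => by
      simp only [conj_pow, conj_eq_one_iff]
    have hΩO : Ω ∈ OG M G := ofFun_mem_OG fun g => by split_ifs <;> simp
    have hom : Ht.om (χ : G → ℂ) (fun g => Ω.coeff g) = 1 := by
      rw [Ht.om_eq, Finset.sum_eq_single 1]
      · simp [Ω, χ.2.apply_one_ne_zero]
      · intro g _ hg
        by_cases h : g ^ p = 1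
        · rw [hvan g (orderOf_eq_prime h hg), mul_zero]
        · simp [Ω, h]
      · simp
    obtain ⟨w, hwO, hwc, hw⟩ := SM.exists_mul_mul_fI_eq (M := M) (B := B) hΩc hΩO (fun ψ hψ => by
      have h1 := Ht.ideal_om_sub_om hM ψ.2.isClassFunction χ.2.isClassFunction
        (sameBlock_of_mem hM hB hψ hχB) (SM.isClassFunction_coeff hΩc) (fun g => by
          simp only [Ω, coeff_ofFun]
          split_ifs
          · exact Loc.ring_one hM
          · exact Loc.ring_zero hM)
      rw [hom] at h1
      exact vM_eq_one_of_sub_lt (vM_lt_one_of_memLocalIdeal hM h1) (map_one _))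
    have hfO : SM.fI B ∈ OG M G := vM_blockCoeff_le_one hM hB
    let Q := Subgroup.zpowers (z : G)
    have hQ : IsPGroup p Q := IsPGroup.of_card (n := 1) (by rw [Nat.card_zpowers, hzo, pow_one])
    have hk := natCast_p_kM hM
    have fix : ∀ {a : ℂ[G]}, a ∈ Subalgebra.center ℂ ℂ[G] → IsFixedBy Q (redG M a) :=
      fun ha => isFixedBy_of_mem_center (redG_mem_center ha) Q
    set e := brC Q (redG M (SM.fI B)) with he
    set o := brC Q (redG M Ω) with ho
    set u := brC Q (redG M (w * SM.fI B)) with hu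
    have hwf : w * SM.fI B ∈ Subalgebra.center ℂ ℂ[G] := mul_mem hwc (SM.fI_mem_center B)
    have h1 : e = o * u := by
      rw [he, ho, hu, ← brC_mul hQ hk (fix hΩc) (fix hwf), ← redG_mul hΩO (mul_mem hwO hfO),
        ← mul_assoc, hw]
    have h2 : e * e = e := by
      rw [he, ← brC_mul hQ hk (fix (SM.fI_mem_center B)) (fix (SM.fI_mem_center B)),
        ← redG_mul hfO hfO, SM.fI_mul_self]
    have hzQ : ∀ c : Subgroup.centralizer (Q : Set G), Commute (z : G) c := fun c =>
      c.2 z (Subgroup.mem_zpowers _)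
    let z' : Subgroup.centralizer (Q : Set G) := ⟨z, fun g hg => by
      obtain ⟨n, rfl⟩ := Subgroup.mem_zpowers_iff.1 hg
      exact (Commute.zpow_self (z : G) n).eq⟩
    have h3 : o * o = 0 := by
      refine mul_eq_zero_of_invariant p hk z' ?_ (fun c => Subtype.ext (hzQ c).eq) o o ?_ ?_
      · rw [← Subgroup.orderOf_coe]; exact hzo
      all_goals
        intro c
        simp only [ho, coeff_resSub, coeff_redG, Ω, coeff_ofFun, Subgroup.coe_mul, z']
        rw [(hzQ c).mul_pow, ← hzo, pow_orderOf_eq_one, one_mul]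
    have hoc : o ∈ Subalgebra.center _ _ := brC_mem_center (redG_mem_center hΩc)
    have h4 : e = 0 := by
      rw [← h2, h1, mul_assoc, ← mul_assoc u, ← (commute_of_mem_center hoc u).eq, ← mul_assoc,
        ← mul_assoc, h3, zero_mul, zero_mul]
    refine (brC_ne_zero_iff.2 ⟨y, ?_, ?_⟩) h4
    · intro g hg
      obtain ⟨n, rfl⟩ := Subgroup.mem_zpowers_iff.1 hg
      exact (hzy.zpow_left n).eq
    · rw [coeff_redG, redM_ne_zero_iff]
      exact hy1
  refine le_antisymm (Ht.factorization_charDegree_le p χ.2) ?_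
  have hd0 := Ht.charDegree_ne_zero χ.2
  have hi0 : (Subgroup.centralizer ({y} : Set G)).index ≠ 0 := Subgroup.index_ne_zero_of_finite
  have h5 : vM M (charDegree (χ : G → ℂ) : ℂ) ≤
      vM M ((Subgroup.centralizer ({y} : Set G)).index : ℂ) := by
    rw [centralChar, map_div₀, ← Ht.cast_charDegree_irr, div_eq_one_iff_eq
      ((Valuation.ne_zero_iff _).2 (by exact_mod_cast hd0)), map_mul] at hy2
    rw [← hy2]
    exact mul_le_of_le_one_right' (vM_char_le_one χ.2.isCharacter y)
  rw [vM_natCast_le_iff hM hd0 hi0] at h5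
  rw [← (Subgroup.centralizer ({y} : Set G)).card_mul_index, Nat.factorization_mul Nat.card_pos.ne' hi0,
    Finsupp.add_apply, Nat.factorization_eq_zero_of_not_dvd hC, zero_add]
  exact h5

end Cfsg.Agent.S0928
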