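import Cfsg.Statements.S0932
import Mathlib.Algebra.BigOperators.Field

set_option autoImplicit false
open Cfsg

namespace Cfsg.Agent.S0932

theorem card_fiber {G : Type*} [Group G] [Fintype G] [DecidableEq G] (g y : G) (h : IsConj g y) :
    (Finset.univ.filter (fun x : G => x⁻¹ * g * x = y)).card =
      Nat.card (Subgroup.centralizer ({g} : Set G)) := by
  obtain ⟨c, hc⟩ := isConj_iff.1 h
  rw [← Nat.card_eq_finsetCard]
  symm
  refine Nat.card_congr
    { toFun := fun z => ⟨z.1 * c⁻¹, ?_⟩
      invFun := fun x => ⟨x.1 * c, ?_⟩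
      left_inv := fun z => by ext; simp
      right_inv := fun z => by ext; simp }
  · have hz := Subgroup.mem_centralizer_singleton_iff.1 z.2
    simp only [Finset.mem_filter, Finset.mem_univ, true_and]
    rw [← hc]
    calc (z.1 * c⁻¹)⁻¹ * g * (z.1 * c⁻¹) = c * (z.1⁻¹ * (g * z.1)) * c⁻¹ := by group
      _ = c * g * c⁻¹ := by rw [← hz]; group
  · have hx := x.2
    simp only [Finset.mem_filter, Finset.mem_univ, true_and] at hx
    rw [Subgroup.mem_centralizer_singleton_iff]
    have hx' := hx.trans hc.symm
    calc x.1 * c * g = x.1 * (c * g * c⁻¹) * c := by group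
      _ = g * (x.1 * c) := by rw [← hx']; group

open Classical in
theorem sum_conj {G : Type*} [Group G] [Fintype G] (f : G → ℂ) (g : G) :
    ∑ x : G, f (x⁻¹ * g * x) =
      (Nat.card (Subgroup.centralizer ({g} : Set G)) : ℂ) *
        ∑ y ∈ Finset.univ.filter (fun y => IsConj g y), f y := by
  rw [← Finset.sum_fiberwise_of_maps_to (s := Finset.univ)
    (t := Finset.univ.filter (fun y => IsConj g y)) (g := fun x => x⁻¹ * g * x), Finset.mul_sum]
  · refine Finset.sum_congr rfl fun y hy => ?_
    rw [Finset.sum_congr rfl (g := fun _ => f y), Finset.sum_const, card_fiber g y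
      (Finset.mem_filter.1 hy).2, nsmul_eq_mul]
    intro x hx
    rw [(Finset.mem_filter.1 hx).2]
  · intro x _
    simp only [Finset.mem_filter, Finset.mem_univ, true_and]
    exact isConj_iff.2 ⟨x⁻¹, by simp⟩

/-- Let H be a subgroup of the finite group G and ξ a character of H. For every g ∈ G, the sum of ξ h / ξ 1 over the elements h ∈ H that are conjugate in G to g equals the central character at g of the character of G induced from ξ (class size times value divided by degree). -/
theorem result {G : Type*} [Group G] [Fintype G] (H : Subgroup G) (ξ : H → ℂ) (hξ : Cfsg.IsCharacter H ξ) (g : G) : Cfsg.inducedCentralChar H ξ g = Cfsg.centralChar (Cfsg.indFun H ξ) g := by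
  classical
  have hext : ∀ h : H, extendByZero H ξ (h : G) = ξ h := fun h =>
    Subtype.val_injective.extend_apply _ _ _
  have hext0 : ∀ x : G, x ∉ H → extendByZero H ξ x = 0 := fun x hx => by
    unfold extendByZero
    rw [Function.extend_apply' _ _ _ (by rintro ⟨a, rfl⟩; exact hx a.2)]
    rfl
  have h1 : indFun H ξ 1 = (Nat.card H : ℂ)⁻¹ * (Nat.card G * ξ 1) := by
    unfold indFun
    have : ∀ x : G, extendByZero H ξ (x⁻¹ * 1 * x) = ξ 1 := fun x => by
      rw [mul_one, inv_mul_cancel]; exact hext 1
    simp only [this, Finset.sum_const, Finset.card_univ, nsmul_eq_mul, Nat.card_eq_fintype_card]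
  have h2 : ∑ y ∈ Finset.univ.filter (fun y => IsConj g y), extendByZero H ξ y =
      ∑ h ∈ Finset.univ.filter (fun h : H => IsConj g (h : G)), ξ h := by
    symm
    refine Finset.sum_of_injOn (fun h : H => (h : G)) Subtype.val_injective.injOn ?_ ?_ ?_
    · intro h hh
      simpa using hh
    · intro y hy hny
      apply hext0
      intro hyH
      apply hny
      refine ⟨⟨y, hyH⟩, ?_, rfl⟩
      simpa using hy
    · intro h _
      exact (hext h).symm
  have h3 : inducedCentralChar H ξ g =
      (∑ h ∈ Finset.univ.filter (fun h : H => IsConj g (h : G)), ξ h) / ξ 1 := by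
    unfold inducedCentralChar
    rw [finsum_mem_eq_finite_toFinset_sum _ (Set.toFinite _), Finset.sum_div]
    refine Finset.sum_congr ?_ fun _ _ => rfl
    ext; simp
  rw [h3, centralChar, h1]
  conv_rhs => rw [indFun]
  rw [sum_conj, h2]
  have hH : (Nat.card H : ℂ) ≠ 0 := Nat.cast_ne_zero.2 Nat.card_pos.ne'
  have hG : (Nat.card G : ℂ) ≠ 0 := Nat.cast_ne_zero.2 Nat.card_pos.ne'
  have hC := (Subgroup.centralizer ({g} : Set G)).card_mul_index
  have hC' : (Nat.card (Subgroup.centralizer ({g} : Set G)) : ℂ) *
    ((Subgroup.centralizer ({g} : Set G)).index : ℂ) = Nat.card G := by exact_mod_cast hC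
  by_cases h0 : ξ 1 = 0
  · simp [h0]
  · field_simp
    rw [← hC']; ring

end Cfsg.Agent.S0932
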