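import Cfsg.Statements.S0940
import Cfsg.Agent.Block.PElemSum

set_option autoImplicit false
open Cfsg

namespace Cfsg.Agent.S0940

open Cfsg.Lib.Char Cfsg.Lib.Block.Loc Cfsg.Lib.Block.Ht

/-- Let G be a finite group and M a maximal ideal of the algebraic integers containing the prime p. For every p-regular g, the idempotent coefficient of the principal block at g (the inverse of the group order times the sum over χ in the principal block of χ 1 * conj (χ g)) is congruent modulo the local ideal at M to N / R, where N is the number of pairs (x, y) with x of p-power order, y of order prime to p and x * y = g, and R is the number of elements of G of order prime to p. -/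
theorem result {G : Type*} [Group G] [Finite G] (p : ℕ) [Fact p.Prime] (M : Ideal Cfsg.AlgInt) (hM : Cfsg.IsPModular p M) (g : G) (hg : ¬ p ∣ orderOf g) : Cfsg.MemLocalIdeal M (Cfsg.blockCoeff (Cfsg.principalBlock M G) g - (Nat.card {xy : G × G // (∃ k : ℕ, orderOf xy.1 = p ^ k) ∧ ¬ p ∣ orderOf xy.2 ∧ xy.1 * xy.2 = g} : ℂ) / (Nat.card {y : G // ¬ p ∣ orderOf y} : ℂ)) := by
  classical
  have := Fintype.ofFinite G
  let o : IrrCharacter G := ⟨fun _ => 1, isIrrCharacter_one⟩
  have ho : o ∈ principalBlock M G := one_mem_principalBlock hM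
  have hB : IsPBlock M (principalBlock M G) := isPBlock_principalBlock
  let u : G → ℂ := pRegularPart p (fun _ => 1)
  have hu : IsClassFunction G u := isClassFunction_reg p (isClassFunction_const 1)
  have hur : ∀ x, MemLocalRing M (u x) := ring_reg hM fun _ => ring_one hM
  set R : ℕ := Nat.card {y : G // ¬ p ∣ orderOf y} with hR
  have hc : ((ordCompl[p] (Nat.card G) : ℕ) : ℂ) ≠ 0 := by
    exact_mod_cast (Nat.ordCompl_pos p Nat.card_pos.ne').ne'
  have hcc : ∀ χ : IrrCharacter G, om (χ : G → ℂ) u =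
      ((ordCompl[p] (Nat.card G) : ℕ) : ℂ) * cc p (o : G → ℂ) (χ : G → ℂ) := by
    intro χ
    rw [cc, ← om_const_mul]
    congr 1
    funext x
    simp only [zf, u, o, reg_apply, orderOf_inv]
    field_simp
  have hRo : om (o : G → ℂ) u = R := by
    simp only [om, o, mul_one, div_one, u, reg_apply]
    rw [hR, Nat.card_eq_fintype_card, Fintype.card_subtype, Finset.card_filter]
    push_cast
    refine Finset.sum_congr rfl fun x _ => ?_
    split_ifs <;> rfl
  have hRu : ¬ MemLocalIdeal M (R : ℂ) := by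
    rw [← hRo, hcc]
    exact not_ideal_mul hM (ring_natCast hM _) (not_ideal_ordCompl hM Nat.card_pos.ne')
      ((height_zero_iff_not_ideal_cc hM hB ho ho).1 (blockHeight_one_principalBlock p))
  have hR0 := ne_zero_of_not_ideal hM hRu
  have hRi := ring_inv hM (ring_natCast hM R) hRu
  let w : G → ℂ := blockCoeff (principalBlock M G) - (R : ℂ)⁻¹ • u
  have hw : IsClassFunction G w := (isClassFunction_blockCoeff _).sub (hu.smul _)
  have hwr : ∀ x, MemLocalRing M (w x) := fun x =>
    ring_sub hM (ring_blockCoeff hM hB x) (ring_mul hM hRi (hur x))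
  have hom : ∀ χ : IrrCharacter G, MemLocalIdeal M (om (χ : G → ℂ) w) := by
    intro χ
    rw [om_sub, om_smul]
    by_cases hχ : χ ∈ principalBlock M G
    · rw [om_blockCoeff_of_mem hχ, ← inv_mul_cancel₀ hR0, ← mul_sub]
      refine ideal_mul_left hM hRi ?_
      conv => enter [2, 1]; rw [← hRo]
      exact ideal_om_sub_om hM o.2.isClassFunction χ.2.isClassFunction hχ hu hur
    · rw [om_blockCoeff_of_notMem hχ, hcc]
      refine ideal_of_eq_zero hM ?_
      have h5 : o ∉ blockOf M (χ : G → ℂ) := fun h => hχ (sameBlock_symm hM h)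
      rw [cc_eq_zero hM (isPBlock_blockOf χ) h5 (mem_blockOf_self hM χ)]
      simp
  have h1 := ideal_sum_mul_pInd hM hw hwr hom g⁻¹
  simp only [w, Pi.sub_apply, Pi.smul_apply, smul_eq_mul, sub_mul, Finset.sum_sub_distrib,
    mul_assoc] at h1
  rw [sum_blockCoeff_mul_pInd hM hB hg, ← Finset.mul_sum] at h1
  have h2 : ∑ x, u x * pInd p (x * g⁻¹) = (Nat.card {xy : G × G //
      (∃ k : ℕ, orderOf xy.1 = p ^ k) ∧ ¬ p ∣ orderOf xy.2 ∧ xy.1 * xy.2 = g} : ℂ) := by
    have e : {xy : G × G // (∃ k : ℕ, orderOf xy.1 = p ^ k) ∧ ¬ p ∣ orderOf xy.2 ∧ xy.1 * xy.2 = g}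
        ≃ {y : G // ¬ p ∣ orderOf y ∧ ∃ k : ℕ, orderOf (y * g⁻¹) = p ^ k} :=
      { toFun := fun z => ⟨z.1.2, z.2.2.1, by
          have h3 : z.1.2 * g⁻¹ = z.1.1⁻¹ := by
            rw [mul_inv_eq_iff_eq_mul, eq_inv_mul_iff_mul_eq]; exact z.2.2.2
          rw [h3, orderOf_inv]; exact z.2.1⟩
        invFun := fun y => ⟨((y.1 * g⁻¹)⁻¹, y.1), by rw [orderOf_inv]; exact y.2.2, y.2.1, by group⟩
        left_inv := fun z => by
          apply Subtype.ext
          apply Prod.ext
          · change (z.1.2 * g⁻¹)⁻¹ = z.1.1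
            rw [inv_eq_iff_eq_inv, mul_inv_eq_iff_eq_mul, eq_inv_mul_iff_mul_eq]; exact z.2.2.2
          · rfl
        right_inv := fun y => rfl }
    rw [Nat.card_congr e, Nat.card_eq_fintype_card, Fintype.card_subtype, Finset.card_filter]
    push_cast
    refine Finset.sum_congr rfl fun x _ => ?_
    by_cases hx : p ∣ orderOf x
    · simp [u, reg_of_dvd _ hx, hx]
    · by_cases hy : ∃ k : ℕ, orderOf (x * g⁻¹) = p ^ k
      · rw [pInd_of_pElem hy, if_pos ⟨hx, hy⟩]
        simp [u, reg_of_not_dvd _ hx]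
      · rw [pInd_of_not_pElem hy, if_neg (fun h => hy h.2), mul_zero]
  rw [h2] at h1
  rwa [div_eq_inv_mul]

end Cfsg.Agent.S0940
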