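import Cfsg.Statements.S0946
import Cfsg.Agent.S0945
import Mathlib.GroupTheory.Transfer

set_option autoImplicit false
open Cfsg

namespace Cfsg.Agent.S0946

theorem zmod_two_torsion (m : ℕ) (hm : 1 ≤ m) (a : ZMod (2 ^ m)) (ha : a + a = 0) :
    a = 0 ∨ a = ((2 ^ (m - 1) : ℕ) : ZMod (2 ^ m)) := by
  have : NeZero (2 ^ m) := ⟨by positivity⟩
  obtain ⟨k, rfl⟩ : ∃ k, m = k + 1 := ⟨m - 1, by omega⟩
  have h1 : ((a.val + a.val : ℕ) : ZMod (2 ^ (k + 1))) = 0 := by
    push_cast
    simpa using ha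
  rw [ZMod.natCast_eq_zero_iff] at h1
  have hlt := ZMod.val_lt a
  obtain ⟨c, hc⟩ := h1
  have h2 : a.val = 2 ^ k * c := by
    have h5 : 2 ^ (k + 1) * c = 2 * (2 ^ k * c) := by ring
    omega
  have h3 : c < 2 := by
    have h5 : 2 ^ k * c < 2 ^ k * 2 := by rw [← h2, ← pow_succ]; exact hlt
    exact lt_of_mul_lt_mul_left h5 (Nat.zero_le _)
  have h4 : a = ((a.val : ℕ) : ZMod (2 ^ (k + 1))) := (ZMod.natCast_zmod_val a).symm
  interval_cases c
  · left
    rw [h4, h2]; simp
  · right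
    rw [h4, h2]; simp

/-- In a homocyclic group of rank two there are at most three involutions: among any three
distinct involutions lies every other one. -/
theorem invol_cases (m : ℕ) (hm : 1 ≤ m) (a b c d : ZMod (2 ^ m) × ZMod (2 ^ m))
    (ha : a + a = 0) (hb : b + b = 0) (hc : c + c = 0) (hd : d + d = 0)
    (ha0 : a ≠ 0) (hb0 : b ≠ 0) (hc0 : c ≠ 0) (hd0 : d ≠ 0)
    (hab : a ≠ b) (hbc : b ≠ c) : d = a ∨ d = b ∨ d = c ∨ a = c ∧ a + b = d := by
  obtain ⟨a1, a2⟩ := a
  obtain ⟨b1, b2⟩ := b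
  obtain ⟨c1, c2⟩ := c
  obtain ⟨d1, d2⟩ := d
  simp only [Prod.mk_add_mk, Prod.mk_eq_zero, ne_eq, Prod.mk.injEq] at *
  set t : ZMod (2 ^ m) := ((2 ^ (m - 1) : ℕ) : ZMod (2 ^ m)) with ht
  have htt : t + t = 0 := by
    rw [ht, ← Nat.cast_add, ← two_mul, ← pow_succ', Nat.sub_add_cancel hm, ZMod.natCast_self]
  rcases zmod_two_torsion m hm a1 ha.1 with h1 | h1 <;>
  rcases zmod_two_torsion m hm a2 ha.2 with h2 | h2 <;>
  rcases zmod_two_torsion m hm b1 hb.1 with h3 | h3 <;>
  rcases zmod_two_torsion m hm b2 hb.2 with h4 | h4 <;>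
  rcases zmod_two_torsion m hm c1 hc.1 with h5 | h5 <;>
  rcases zmod_two_torsion m hm c2 hc.2 with h6 | h6 <;>
  rcases zmod_two_torsion m hm d1 hd.1 with h7 | h7 <;>
  rcases zmod_two_torsion m hm d2 hd.2 with h8 | h8 <;>
  simp_all

/-- Let P be a Sylow 2-subgroup of the finite group G isomorphic to Z/2^m × Z/2^m with m ≥ 1. Then either P has a normal complement in G, or all involutions of G are conjugate. -/
theorem result {G : Type*} [Group G] [Finite G] (P : Sylow 2 G) (m : ℕ) (hm : 1 ≤ m) (e : (P : Subgroup G) ≃* Multiplicative (ZMod (2 ^ m) × ZMod (2 ^ m))) : (∃ N : Subgroup G, N.Normal ∧ Subgroup.IsComplement' N (P : Subgroup G)) ∨ ∀ s t : G, orderOf s = 2 → orderOf t = 2 → IsConj s t := by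
  classical
  have : Fact (Nat.Prime 2) := ⟨Nat.prime_two⟩
  obtain ⟨-, h2⟩ := Cfsg.Agent.S0945.result P m hm e
  by_cases hNC : Subgroup.normalizer (P : Set G) ≤ Subgroup.centralizer (P : Set G)
  · left
    exact ⟨_, inferInstance, MonoidHom.ker_transferSylow_isComplement' P hNC⟩
  right
  have hne : (Subgroup.centralizer (P : Set G)).relIndex (Subgroup.normalizer (P : Set G)) ≠ 1 :=
    fun h => hNC (Subgroup.relIndex_eq_one.1 h)
  have h3 := h2 hne
  obtain ⟨n, hnN, hnC⟩ := SetLike.not_le_iff_exists.1 hNC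
  -- `n` moves every nonidentity element of `P`
  have hmove : ∀ z ∈ (P : Subgroup G), z ≠ 1 → n * z * n⁻¹ ≠ z := by
    intro z hz hz1 h
    apply hnC
    rw [← h3 z hz hz1]
    refine Subgroup.mem_inf.2 ⟨?_, hnN⟩
    rw [Subgroup.mem_centralizer_iff]
    rintro w rfl
    calc w * n = (n * w * n⁻¹) * n := by rw [h]
      _ = n * w := by group
  have hconj : ∀ z ∈ (P : Subgroup G), n * z * n⁻¹ ∈ (P : Subgroup G) := fun z hz =>
    ((Subgroup.mem_normalizer_iff.1 hnN) z).1 hz
  -- involutions of `P` are conjugate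
  have hP : ∀ s ∈ (P : Subgroup G), ∀ t ∈ (P : Subgroup G), orderOf s = 2 → orderOf t = 2 →
      IsConj s t := by
    intro s hs t ht hs2 ht2
    let f : ↥(P : Subgroup G) → ZMod (2 ^ m) × ZMod (2 ^ m) := fun x => Multiplicative.toAdd (e x)
    have hfinj : Function.Injective f := Multiplicative.toAdd.injective.comp e.injective
    have hf1 : f 1 = 0 := by simp [f]
    have hfmul : ∀ x y, f (x * y) = f x + f y := by intro x y; simp [f]
    have hinv : ∀ x : (P : Subgroup G), orderOf (x : G) = 2 → f x + f x = 0 ∧ f x ≠ 0 := by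
      intro x hx
      constructor
      · rw [← hfmul, ← hf1]
        congr 1
        apply Subtype.ext
        have := pow_orderOf_eq_one (x : G)
        rw [hx, pow_two] at this
        exact this
      · intro h
        rw [← hf1] at h
        have := hfinj h
        rw [this] at hx
        simp at hx
    have hord : ∀ z : G, orderOf (n * z * n⁻¹) = orderOf z := fun z =>
      (MulAut.conj n).orderOf_eq z
    have hs1 : s ≠ 1 := by rintro rfl; simp at hs2
    have hns1 : n * s * n⁻¹ ≠ 1 := by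
      intro h
      have := hord s
      rw [h, hs2] at this
      simp at this
    let a : (P : Subgroup G) := ⟨s, hs⟩
    let b : (P : Subgroup G) := ⟨n * s * n⁻¹, hconj s hs⟩
    let c : (P : Subgroup G) := ⟨n * (n * s * n⁻¹) * n⁻¹, hconj _ (hconj s hs)⟩
    let d : (P : Subgroup G) := ⟨t, ht⟩
    have ha := hinv a hs2
    have hb := hinv b (by simp only [b]; rw [hord, hs2])
    have hc := hinv c (by simp only [c]; rw [hord, hord, hs2])
    have hd := hinv d ht2
    have hab : f a ≠ f b := fun h => hmove s hs hs1 (congrArg Subtype.val (hfinj h)).symm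
    have hbc : f b ≠ f c := fun h => hmove _ (hconj s hs) hns1 (congrArg Subtype.val (hfinj h)).symm
    rcases invol_cases m hm (f a) (f b) (f c) (f d) ha.1 hb.1 hc.1 hd.1 ha.2 hb.2 hc.2 hd.2 hab hbc
      with h | h | h | ⟨h, h'⟩
    · have : t = s := congrArg Subtype.val (hfinj h)
      rw [this]
    · have : t = n * s * n⁻¹ := congrArg Subtype.val (hfinj h)
      rw [this]
      exact isConj_iff.2 ⟨n, rfl⟩
    · have : t = n * (n * s * n⁻¹) * n⁻¹ := congrArg Subtype.val (hfinj h)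
      rw [this]
      exact isConj_iff.2 ⟨n * n, by group⟩
    · exfalso
      have h1 : s = n * (n * s * n⁻¹) * n⁻¹ := congrArg Subtype.val (hfinj h)
      rw [← hfmul] at h'
      have h4 : s * (n * s * n⁻¹) = t := congrArg Subtype.val (hfinj h')
      have hcomm : a * b = b * a := hfinj (by rw [hfmul, hfmul, add_comm])
      have hcomm' : s * (n * s * n⁻¹) = (n * s * n⁻¹) * s := congrArg Subtype.val hcomm
      have ht1 : t ≠ 1 := by rintro rfl; simp at ht2
      apply hmove t ht ht1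
      rw [← h4]
      calc n * (s * (n * s * n⁻¹)) * n⁻¹ = (n * s * n⁻¹) * (n * (n * s * n⁻¹) * n⁻¹) := by group
        _ = (n * s * n⁻¹) * s := by rw [← h1]
        _ = s * (n * s * n⁻¹) := hcomm'.symm
  have hinto : ∀ s : G, orderOf s = 2 → ∃ s' ∈ (P : Subgroup G), IsConj s s' := by
    intro s hs
    have hpg : IsPGroup 2 (Subgroup.zpowers s) := by
      apply IsPGroup.of_card (n := 1)
      rw [Nat.card_zpowers, hs, pow_one]
    obtain ⟨Q, hQ⟩ := hpg.exists_le_sylow
    obtain ⟨g, hg⟩ := MulAction.exists_smul_eq G Q P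
    refine ⟨g * s * g⁻¹, ?_, isConj_iff.2 ⟨g, rfl⟩⟩
    rw [← hg, Sylow.coe_subgroup_smul]
    exact Subgroup.smul_mem_pointwise_smul s (MulAut.conj g) _ (hQ (Subgroup.mem_zpowers s))
  intro s t hs ht
  obtain ⟨s', hs', hss'⟩ := hinto s hs
  obtain ⟨t', ht', htt'⟩ := hinto t ht
  have ho : ∀ x y : G, IsConj x y → orderOf y = orderOf x := by
    intro x y h
    obtain ⟨g, rfl⟩ := isConj_iff.1 h
    exact (MulAut.conj g).orderOf_eq x
  exact (hss'.trans (hP s' hs' t' ht' (by rw [ho _ _ hss', hs]) (by rw [ho _ _ htt', ht]))).trans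
    htt'.symm

end Cfsg.Agent.S0946
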