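import Cfsg.Statements.S0947
import Cfsg.Agent.Block.PrincNilp

set_option autoImplicit false
open Cfsg

open Cfsg.Lib.Block Cfsg.Lib.Block.Princ

namespace Cfsg.Agent.S0947

/-- Let z ≠ 1 be a p-element of the finite group G with centralizer H, and fix a maximal ideal M of the algebraic integers containing p. (i) For every y ∈ H of order prime to p, the sum over ζ in the principal block of G of |ζ (z * y)|² equals the sum over χ in the principal block of H of |χ y|². (ii) If moreover H has a normal p-complement (its largest normal subgroup of order prime to p has p-power index), that common value is the largest power of p dividing the order of H. -/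
theorem result {G : Type*} [Group G] [Finite G] (p : ℕ) [Fact p.Prime] (M : Ideal Cfsg.AlgInt) (hM : Cfsg.IsPModular p M) (z : G) (hz : ∃ k : ℕ, orderOf z = p ^ k) (hz1 : z ≠ 1) (y : Subgroup.centralizer ({z} : Set G)) (hy : ¬ p ∣ orderOf y) : (∑ᶠ ζ ∈ Cfsg.principalBlock M G, ‖(ζ : G → ℂ) (z * (y : G))‖ ^ 2 = ∑ᶠ χ ∈ Cfsg.principalBlock M (Subgroup.centralizer ({z} : Set G)), ‖(χ : Subgroup.centralizer ({z} : Set G) → ℂ) y‖ ^ 2) ∧ ((∃ k : ℕ, (Cfsg.pPrimeCore p (Subgroup.centralizer ({z} : Set G))).index = p ^ k) → ∑ᶠ ζ ∈ Cfsg.principalBlock M G, ‖(ζ : G → ℂ) (z * (y : G))‖ ^ 2 = ((p ^ (Nat.card (Subgroup.centralizer ({z} : Set G))).factorization p : ℕ) : ℝ)) := by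
  have key : ∀ (H : Type _) [Group H] [Finite H] (B : Set (IrrCharacter H)) (g : H),
      ((∑ᶠ ζ ∈ B, ‖(ζ : H → ℂ) g‖ ^ 2 : ℝ) : ℂ) =
        ∑ ζ ∈ irrFin B, (ζ : H → ℂ) g * (starRingEnd ℂ) ((ζ : H → ℂ) g) := by
    intro H _ _ B g
    rw [finsum_mem_irr, Complex.ofReal_sum]
    refine Finset.sum_congr rfl fun ζ _ => ?_
    rw [Complex.mul_conj, Complex.normSq_eq_norm_sq]
  refine ⟨?_, fun hnc => ?_⟩
  · apply Complex.ofReal_injective
    rw [key, key, sum_mul_conj_section_princ hM hz hy hy]
  · apply Complex.ofReal_injective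
    rw [key, sum_princ_section_of_index hM hz hnc hy hy, index_pPrimeCore_eq hnc]
    simp

end Cfsg.Agent.S0947
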