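import Cfsg.Statements.S0948
import Cfsg.Agent.Block.Klein

set_option autoImplicit false
open Cfsg

open Cfsg Cfsg.Lib.Char Cfsg.Lib.Block Cfsg.Lib.Block.Princ

namespace Cfsg.Agent.S0948

/-- Let the finite group G have a Sylow 2-subgroup P that is a Klein four-group, suppose all involutions of G are conjugate, and fix a maximal ideal M of the algebraic integers containing 2. Then the principal block consists of exactly four irreducible characters, the principal character and ζ₂, ζ₃, ζ₄, and there is a sign ε such that for every involution z: ζ₂ z = 1, ζ₃ z = ε, ζ₄ z = -1; moreover ζ₂ 1 ≡ 1, ζ₃ 1 ≡ ε, ζ₄ 1 ≡ -1 (mod 4), and 1 + ζ₂ y + ε ζ₃ y - ζ₄ y = 0 for every y of odd order. -/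
theorem result {G : Type*} [Group G] [Finite G] (M : Ideal Cfsg.AlgInt) (hM : Cfsg.IsPModular 2 M) (P : Sylow 2 G) (hP : IsKleinFour (P : Subgroup G)) (hone : ∀ s t : G, orderOf s = 2 → orderOf t = 2 → IsConj s t) : ∃ ζ₂ ζ₃ ζ₄ : Cfsg.IrrCharacter G, ∃ ε : ℤ, (ε = 1 ∨ ε = -1) ∧ (ζ₂ : G → ℂ) ≠ (fun _ => 1) ∧ (ζ₃ : G → ℂ) ≠ (fun _ => 1) ∧ ζ₂ ≠ ζ₃ ∧ ζ₂ ≠ ζ₄ ∧ ζ₃ ≠ ζ₄ ∧ Cfsg.principalBlock M G = {χ : Cfsg.IrrCharacter G | (χ : G → ℂ) = (fun _ => 1) ∨ χ = ζ₂ ∨ χ = ζ₃ ∨ χ = ζ₄} ∧ (∀ z : G, orderOf z = 2 → (ζ₂ : G → ℂ) z = 1 ∧ (ζ₃ : G → ℂ) z = (ε : ℂ) ∧ (ζ₄ : G → ℂ) z = -1) ∧ (4 : ℤ) ∣ (Cfsg.charDegree (ζ₂ : G → ℂ) : ℤ) - 1 ∧ (4 : ℤ) ∣ (Cfsg.charDegree (ζ₃ : G → ℂ) : ℤ) - ε ∧ (4 : ℤ) ∣ (Cfsg.charDegree (ζ₄ : G → ℂ) : ℤ) + 1 ∧ ∀ y : G, Odd (orderOf y) → 1 + (ζ₂ : G → ℂ) y + (ε : ℂ) * (ζ₃ : G → ℂ) y - (ζ₄ : G → ℂ) y = 0 := by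
  classical
  have hexp : ∀ x : (P : Subgroup G), x * x = 1 := fun x => IsKleinFour.mul_self x
  obtain ⟨f, hval, hsign, ht, hcard, hdvd, hrel⟩ := klein_values hM P hP.card_four hexp hone
  have htm : triv G ∈ irrFin (principalBlock M G) := mem_irrFin.2 (triv_mem_principalBlock hM)
  have hdeg : 1 + ∑ χ ∈ (irrFin (principalBlock M G)).erase (triv G),
      f χ * (charDegree (χ : G → ℂ) : ℤ) = 0 := by
    have h := hrel 1 (by simp)
    rw [← Finset.add_sum_erase _ _ htm, ht, triv_apply] at h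
    simp only [← irr_charDegree_cast] at h
    exact_mod_cast h
  have key : ∀ a b c : IrrCharacter G, a ≠ b → a ≠ c → b ≠ c →
      (irrFin (principalBlock M G)).erase (triv G) = {a, b, c} → f a = 1 → f c = -1 →
      ∃ ε : ℤ, (ε = 1 ∨ ε = -1) ∧ (a : G → ℂ) ≠ (fun _ => 1) ∧ (b : G → ℂ) ≠ (fun _ => 1) ∧
        a ≠ b ∧ a ≠ c ∧ b ≠ c ∧ Cfsg.principalBlock M G =
          {χ : Cfsg.IrrCharacter G | (χ : G → ℂ) = (fun _ => 1) ∨ χ = a ∨ χ = b ∨ χ = c} ∧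
        (∀ z : G, orderOf z = 2 → (a : G → ℂ) z = 1 ∧ (b : G → ℂ) z = (ε : ℂ) ∧
          (c : G → ℂ) z = -1) ∧ (4 : ℤ) ∣ (Cfsg.charDegree (a : G → ℂ) : ℤ) - 1 ∧
        (4 : ℤ) ∣ (Cfsg.charDegree (b : G → ℂ) : ℤ) - ε ∧
        (4 : ℤ) ∣ (Cfsg.charDegree (c : G → ℂ) : ℤ) + 1 ∧ ∀ y : G, Odd (orderOf y) →
          1 + (a : G → ℂ) y + (ε : ℂ) * (b : G → ℂ) y - (c : G → ℂ) y = 0 := by
    intro a b c hab hac hbc hS ha hc
    have hm : ∀ χ, χ = a ∨ χ = b ∨ χ = c ↔ χ ≠ triv G ∧ χ ∈ principalBlock M G := by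
      intro χ
      rw [← mem_irrFin, ← Finset.mem_erase, hS]
      simp
    have ha' := (hm a).1 (Or.inl rfl)
    have hb' := (hm b).1 (Or.inr (Or.inl rfl))
    have hc' := (hm c).1 (Or.inr (Or.inr rfl))
    refine ⟨f b, hsign b hb'.2, fun h => ha'.1 (eq_triv_iff.2 h), fun h => hb'.1 (eq_triv_iff.2 h),
      hab, hac, hbc, ?_, fun z hz => ?_, ha ▸ hdvd a ha'.2, hdvd b hb'.2, ?_, fun y hy => ?_⟩
    · ext χ
      rw [Set.mem_setOf_eq, hm, ← eq_triv_iff]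
      constructor
      · intro h
        by_cases h1 : χ = triv G
        · exact Or.inl h1
        · exact Or.inr ⟨h1, h⟩
      · rintro (rfl | h)
        · exact triv_mem_principalBlock hM
        · exact h.2
    · rw [hval a ha'.2 z (by rw [hz]), hval b hb'.2 z (by rw [hz]), hval c hc'.2 z (by rw [hz]),
        ha, hc]
      simp
    · have := hdvd c hc'.2
      rwa [hc, sub_neg_eq_add] at this
    · have h := hrel y hy.not_two_dvd_nat
      rw [← Finset.add_sum_erase _ _ htm, ht, triv_apply, hS, Finset.sum_insert (by simp [hab, hac]),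
        Finset.sum_pair hbc, ha, hc] at h
      push_cast at h
      linear_combination h
  obtain ⟨a, b, c, hab, hac, hbc, hS⟩ := Finset.card_eq_three.1
    (show ((irrFin (principalBlock M G)).erase (triv G)).card = 3 by
      rw [Finset.card_erase_of_mem htm, hcard])
  have hm : ∀ χ, χ = a ∨ χ = b ∨ χ = c → χ ∈ principalBlock M G := by
    intro χ h
    have : χ ∈ (irrFin (principalBlock M G)).erase (triv G) := by rw [hS]; simpa using h
    exact mem_irrFin.1 (Finset.mem_of_mem_erase this)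
  rw [hS, Finset.sum_insert (by simp [hab, hac]), Finset.sum_pair hbc] at hdeg
  have pa := irr_charDegree_pos a
  have pb := irr_charDegree_pos b
  have pc := irr_charDegree_pos c
  rcases hsign a (hm a (Or.inl rfl)) with ha | ha <;>
  rcases hsign b (hm b (Or.inr (Or.inl rfl))) with hb | hb <;>
  rcases hsign c (hm c (Or.inr (Or.inr rfl))) with hc | hc
  · rw [ha, hb, hc] at hdeg; omega
  · exact ⟨a, b, c, key a b c hab hac hbc hS ha hc⟩
  · exact ⟨a, c, b, key a c b hac hab hbc.symm (by rw [hS, Finset.pair_comm]) ha hb⟩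
  · exact ⟨a, b, c, key a b c hab hac hbc hS ha hc⟩
  · exact ⟨b, c, a, key b c a hbc hab.symm hac.symm (by rw [hS]; ext; simp; tauto) hb ha⟩
  · exact ⟨b, a, c, key b a c hab.symm hbc hac (by rw [hS]; ext; simp; tauto) hb hc⟩
  · exact ⟨c, b, a, key c b a hbc.symm hac.symm hab.symm (by rw [hS]; ext; simp; tauto) hc ha⟩
  · rw [ha, hb, hc] at hdeg; omega

end Cfsg.Agent.S0948
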