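import Cfsg.Statements.S0952
import Cfsg.Agent.Block.Height

set_option autoImplicit false
open scoped ComplexConjugate
open Cfsg

namespace Cfsg.Agent.S0952

open Cfsg.Lib.Char Cfsg.Lib.Block.Loc Cfsg.Lib.Block.Ht

/-- Let χ and ψ be irreducible characters of the finite group G lying in different blocks relative to a maximal ideal M of the algebraic integers containing the prime p. Then the sum of χ x * conj (ψ x) over the elements x of order prime to p is zero. -/
theorem result {G : Type*} [Group G] [Finite G] (p : ℕ) [Fact p.Prime] (M : Ideal Cfsg.AlgInt) (hM : Cfsg.IsPModular p M) (χ ψ : Cfsg.IrrCharacter G) (h : ¬ Cfsg.SameBlock M (χ : G → ℂ) (ψ : G → ℂ)) : ∑ᶠ x ∈ {x : G | ¬ p ∣ orderOf x}, (χ : G → ℂ) x * conj ((ψ : G → ℂ) x) = 0 := by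
  classical
  have := Fintype.ofFinite G
  have h1 := card_mul_classInner (pRegularPart p (χ : G → ℂ)) (ψ : G → ℂ)
  rw [classInner_reg_eq_zero' hM h, mul_zero] at h1
  rw [finsum_mem_def, finsum_eq_sum_of_fintype, h1]
  refine Finset.sum_congr rfl fun x _ => ?_
  by_cases hx : p ∣ orderOf x
  · rw [Set.indicator_of_notMem (by simpa using hx), reg_of_dvd _ hx, zero_mul]
  · rw [Set.indicator_of_mem (by simpa using hx), reg_of_not_dvd _ hx]

end Cfsg.Agent.S0952
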