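import Cfsg.Statements.S0953
import Cfsg.Agent.Block.DefectCount

set_option autoImplicit false
open Cfsg Cfsg.Lib.Block Cfsg.Lib.Char

namespace Cfsg.Agent.S0953

/-- Let P be a Sylow p-subgroup of the finite group G with normalizer N, and fix a maximal ideal M of the algebraic integers containing p. The number of blocks of G having P as a defect group equals the number of conjugacy classes of N consisting of elements of order prime to p that centralize P. -/
theorem result {G : Type*} [Group G] [Finite G] (p : ℕ) [Fact p.Prime] (M : Ideal Cfsg.AlgInt) (hM : Cfsg.IsPModular p M) (P : Sylow p G) : Nat.card {B : Set (Cfsg.IrrCharacter G) // Cfsg.IsPBlock M B ∧ Cfsg.IsDefectGroup p M B (P : Subgroup G)} = Nat.card {C : ConjClasses (Subgroup.normalizer ((P : Subgroup G) : Set G)) // ∀ n : Subgroup.normalizer ((P : Subgroup G) : Set G), ConjClasses.mk n = C → ¬ p ∣ orderOf n ∧ (n : G) ∈ Subgroup.centralizer ((P : Subgroup G) : Set G)} := by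
  have hP : IsSylowIn p (P : Subgroup G) ⊤ := isSylowIn_top_iff.mpr ⟨P, rfl⟩
  have h1 : Nat.card {B : Set (IrrCharacter G) // IsPBlock M B ∧ IsDefectGroup p M B (P : Subgroup G)}
      = Nat.card {B : Set (IrrCharacter G) // IsPBlock M B ∧
        blockDefect p B = (Nat.card G).factorization p} :=
    Nat.card_congr (Equiv.subtypeEquivRight fun B =>
      and_congr_right fun hB => isDefectGroup_sylow_iff hM hB P)
  rw [h1, card_blocks_max_defect hM]
  have key : ∀ c : G, c ∈ Subgroup.centralizer ((P : Subgroup G) : Set G) →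
      IsSylowIn p (P : Subgroup G) (Subgroup.centralizer ({c} : Set G)) := fun c hc =>
    hP.of_le (le_centralizer_singleton_iff.mpr hc) le_top
  symm
  refine Nat.card_congr (Equiv.ofBijective (fun C => ⟨ConjClasses.mk
    ((Quotient.out C.1 : Subgroup.normalizer ((P : Subgroup G) : Set G)) : G), _, rfl, ?_, ?_⟩)
    ⟨?_, ?_⟩)
  · rw [Subgroup.orderOf_coe]
    exact (C.2 _ (mk_out C.1)).1
  · exact Nat.pow_right_injective hM.1.two_le
      ((key _ (C.2 _ (mk_out C.1)).2).card_eq.symm.trans P.card_eq_multiplicity)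
  · intro C C' h
    have h2 := ConjClasses.mk_eq_mk_iff_isConj.mp (congrArg Subtype.val h)
    obtain ⟨n, hn, h3⟩ := exists_normalizer_conj_of_isSylowIn (key _ (C.2 _ (mk_out C.1)).2)
      (key _ (C'.2 _ (mk_out C'.1)).2) h2
    refine Subtype.ext ((mk_out C.1).symm.trans (Eq.trans ?_ (mk_out C'.1)))
    exact ConjClasses.mk_eq_mk_iff_isConj.mpr (isConj_iff.mpr ⟨⟨n, hn⟩, Subtype.ext h3⟩)
  · rintro ⟨_, g, rfl, hg, hd⟩
    obtain ⟨Q, hQ⟩ := exists_isSylowIn p (Subgroup.centralizer ({g} : Set G))
    have hQ' : IsSylowIn p Q ⊤ :=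
      isSylowIn_of_card le_top (by rw [hQ.card_eq, hd, Subgroup.card_top])
    obtain ⟨x, -, hx⟩ := hQ'.exists_conj hP
    have hc : x * g * x⁻¹ ∈ Subgroup.centralizer ((P : Subgroup G) : Set G) := by
      rw [← le_centralizer_singleton_iff, ← map_conj_centralizer_singleton, ← hx]
      exact Subgroup.map_mono hQ.le
    let c : Subgroup.normalizer ((P : Subgroup G) : Set G) :=
      ⟨x * g * x⁻¹, Subgroup.centralizer_le_normalizer _ hc⟩
    refine ⟨⟨ConjClasses.mk c, fun n hn => ?_⟩, Subtype.ext ?_⟩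
    · obtain ⟨y, rfl⟩ := isConj_iff.mp (ConjClasses.mk_eq_mk_iff_isConj.mp hn.symm)
      refine ⟨?_, (conj_mem_centralizer_iff y.2 _).mpr hc⟩
      rw [show orderOf (y * c * y⁻¹) = orderOf c from (MulAut.conj y).orderOf_eq c,
        ← Subgroup.orderOf_coe]
      rwa [show orderOf (c : G) = orderOf g from (MulAut.conj x).orderOf_eq g]
    · refine ConjClasses.mk_eq_mk_iff_isConj.mpr ?_
      exact ((Subgroup.subtype _).map_isConj (isConj_out c)).symm.trans
        (isConj_iff.mpr ⟨x, rfl⟩).symm

end Cfsg.Agent.S0953
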