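import Cfsg.Statements.S0957
import Mathlib.GroupTheory.Sylow
import Mathlib.Tactic.Group

set_option autoImplicit false
open Cfsg

namespace Cfsg.Agent.S0957

/-- If `n` divides the index of every point stabilizer then it divides the size of the set. -/
theorem dvd_card_of_dvd_index_stabilizer {H X : Type*} [Group H] [Finite X] [MulAction H X]
    (n : ℕ) (hn : ∀ x : X, n ∣ (MulAction.stabilizer H x).index) : n ∣ Nat.card X := by
  classical
  rw [Nat.card_congr (MulAction.selfEquivSigmaOrbitsQuotientStabilizer H X)]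
  have : Fintype (MulAction.orbitRel.Quotient H X) := Fintype.ofFinite _
  have : ∀ ω : MulAction.orbitRel.Quotient H X, Finite (H ⧸ MulAction.stabilizer H ω.out) :=
    fun ω => Finite.of_equiv _ (MulAction.orbitEquivQuotientStabilizer H ω.out)
  rw [Nat.card_sigma]
  exact Finset.dvd_sum fun ω _ => hn _

/-- The conjugation action of `P` on the set of pairs. -/
@[reducible] def pairAction {G : Type*} [Group G] (P : Subgroup G) (g h : G) :
    MulAction P {yz : G × G // IsConj g yz.1 ∧ IsConj h yz.2 ∧ yz.2 * yz.1⁻¹ ∈ P} where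
  smul u xy := ⟨((u : G) * xy.1.1 * (u : G)⁻¹, (u : G) * xy.1.2 * (u : G)⁻¹),
    xy.2.1.trans (isConj_iff.2 ⟨u, rfl⟩), xy.2.2.1.trans (isConj_iff.2 ⟨u, rfl⟩), by
      have h1 := xy.2.2.2
      have : (u : G) * xy.1.2 * (u : G)⁻¹ * ((u : G) * xy.1.1 * (u : G)⁻¹)⁻¹ =
          (u : G) * (xy.1.2 * xy.1.1⁻¹) * (u : G)⁻¹ := by group
      rw [this]
      exact P.mul_mem (P.mul_mem u.2 h1) (P.inv_mem u.2)⟩
  one_smul xy := by
    apply Subtype.ext
    change ((((1 : P) : G) * xy.1.1 * ((1 : P) : G)⁻¹, ((1 : P) : G) * xy.1.2 * ((1 : P) : G)⁻¹) : G × G) = xy.1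
    simp
  mul_smul u v xy := by
    apply Subtype.ext
    change ((((u * v : P) : G) * xy.1.1 * ((u * v : P) : G)⁻¹,
      ((u * v : P) : G) * xy.1.2 * ((u * v : P) : G)⁻¹) : G × G) =
      ((u : G) * ((v : G) * xy.1.1 * (v : G)⁻¹) * (u : G)⁻¹,
        (u : G) * ((v : G) * xy.1.2 * (v : G)⁻¹) * (u : G)⁻¹)
    simp [mul_assoc]

/-- Let P be a Sylow p-subgroup of the finite group G, let g, h ∈ G and let p ^ d be the order of a Sylow p-subgroup of the centralizer of g. Then the number of pairs (y, z) with y conjugate to g, z conjugate to h and z * y⁻¹ ∈ P is divisible by the order of P divided by p ^ d. -/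
theorem result {G : Type*} [Group G] [Finite G] (p : ℕ) [Fact p.Prime] (P : Sylow p G) (g h : G) (S : Sylow p (Subgroup.centralizer ({g} : Set G))) : Nat.card P / Nat.card S ∣ Nat.card {yz : G × G // IsConj g yz.1 ∧ IsConj h yz.2 ∧ yz.2 * yz.1⁻¹ ∈ (P : Subgroup G)} := by
  let _ := pairAction (P : Subgroup G) g h
  apply dvd_card_of_dvd_index_stabilizer (H := (P : Subgroup G))
  intro yz
  set T := MulAction.stabilizer (P : Subgroup G) yz with hT
  obtain ⟨c, hc⟩ := isConj_iff.1 yz.2.1
  -- the stabilizer embeds in the centralizer of `g`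
  let f : T →* Subgroup.centralizer ({g} : Set G) :=
    { toFun := fun t => ⟨c⁻¹ * ((t : (P : Subgroup G)) : G) * c, by
        rw [Subgroup.mem_centralizer_singleton_iff]
        have h1 : ((t : (P : Subgroup G)) : G) * yz.1.1 * ((t : (P : Subgroup G)) : G)⁻¹ = yz.1.1 :=
          congrArg (fun z => z.1.1) (MulAction.mem_stabilizer_iff.1 t.2)
        rw [← hc] at h1
        calc c⁻¹ * ((t : (P : Subgroup G)) : G) * c * g
            = c⁻¹ * (((t : (P : Subgroup G)) : G) * (c * g * c⁻¹) * ((t : (P : Subgroup G)) : G)⁻¹) *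
              ((t : (P : Subgroup G)) : G) * c := by group
          _ = g * (c⁻¹ * ((t : (P : Subgroup G)) : G) * c) := by rw [h1]; group⟩
      map_one' := by apply Subtype.ext; simp
      map_mul' := fun a b => by apply Subtype.ext; simp [mul_assoc] }
  have hf : Function.Injective f := by
    intro a b hab
    have h1 : c⁻¹ * ((a : (P : Subgroup G)) : G) * c = c⁻¹ * ((b : (P : Subgroup G)) : G) * c :=
      congrArg Subtype.val hab
    apply Subtype.ext
    apply Subtype.ext
    simpa using h1
  have hTp : IsPGroup p T := P.isPGroup'.to_subgroup T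
  have hr : IsPGroup p f.range := by
    rw [MonoidHom.range_eq_map]
    exact (hTp.to_subgroup ⊤).map f
  obtain ⟨Q, hQ⟩ := hr.exists_le_sylow
  have hTS : Nat.card T ∣ Nat.card S := by
    have e1 : Nat.card T = Nat.card f.range := Nat.card_congr (MonoidHom.ofInjective hf).toEquiv
    have e2 : Nat.card Q = Nat.card S := Nat.card_congr (Sylow.equiv Q S).toEquiv
    rw [e1, ← e2]
    exact Subgroup.card_dvd_of_le hQ
  have hSP : Nat.card S ∣ Nat.card P := by
    have hS : IsPGroup p ((S : Subgroup (Subgroup.centralizer ({g} : Set G))).map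
        (Subgroup.centralizer ({g} : Set G)).subtype) := S.isPGroup'.map _
    obtain ⟨Q', hQ'⟩ := hS.exists_le_sylow
    have e1 : Nat.card Q' = Nat.card P := Nat.card_congr (Sylow.equiv Q' P).toEquiv
    have e2 := Subgroup.card_map_of_injective (K := (S : Subgroup (Subgroup.centralizer ({g} : Set G))))
      (Subgroup.centralizer ({g} : Set G)).subtype_injective
    rw [← e1]
    change Nat.card (S : Subgroup (Subgroup.centralizer ({g} : Set G))) ∣ _
    rw [← e2]
    exact Subgroup.card_dvd_of_le hQ'
  have hidx : T.index = Nat.card P / Nat.card T := by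
    have := T.index_mul_card
    change T.index = Nat.card (P : Subgroup G) / Nat.card T
    rw [← this, Nat.mul_div_cancel _ Nat.card_pos]
  rw [hidx]
  exact Nat.div_dvd_div_left hSP hTS

end Cfsg.Agent.S0957
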