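import Cfsg.Statements.S0963
import Cfsg.Agent.Block.Cover
import Cfsg.Agent.Block.Bridge

set_option autoImplicit false
open Cfsg Cfsg.Lib.Char Cfsg.Lib.Block

namespace Cfsg.Agent.S0963

/-- Let N be a normal subgroup of the finite group G, χ an irreducible character of G and θ an irreducible character of N. Then θ occurs in the restriction of χ to N if and only if, for every n ∈ N, the central character of χ at n (class size in G times χ n over χ 1) equals the sum of θ m / θ 1 over the elements m of N conjugate in G to n. -/
theorem result {G : Type*} [Group G] [Fintype G] (N : Subgroup G) [N.Normal] [Fintype N] (χ : Cfsg.IrrCharacter G) (θ : Cfsg.IrrCharacter N) : Cfsg.classInner (fun n : N => (χ : G → ℂ) n) (θ : N → ℂ) ≠ 0 ↔ ∀ n : N, Cfsg.centralChar (χ : G → ℂ) (n : G) = Cfsg.inducedCentralChar N (θ : N → ℂ) (n : G) := by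
  rw [← over_iff]
  refine ⟨fun h n => ?_, fun h => ?_⟩
  · rw [← omega_classSum χ.2.isClassFunction, ← omega_resSub_classSum]
    refine h.omega_eq χ.2 θ.2 (classSum_mem_center _) fun g hg => ?_
    obtain ⟨c, rfl⟩ := isConj_iff.1 (isConj_of_coeff_classSum_ne_zero hg)
    exact ‹N.Normal›.conj_mem _ n.2 c
  · have hc := incSub_fB_mem_center (stabB_orbB ({θ} : Set (IrrCharacter N)))
    have key : omega (χ : G → ℂ) (incSub N (fB (orbB {θ}))) =
        omega (θ : N → ℂ) (resSub N (incSub N (fB (orbB {θ})))) := by
      refine center_induction (Q := fun a => omega (χ : G → ℂ) a =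
        omega (θ : N → ℂ) (resSub N a)) hc (by simp)
        (fun x y _ _ hx hy => by simp only [map_add, hx, hy]) fun g hg => ?_
      simp only [map_smul]
      rw [omega_classSum χ.2.isClassFunction, omega_resSub_classSum,
        h ⟨g, mem_of_coeff_incSub_ne_zero hg⟩]
    rw [resSub_incSub, omega_fB_of_mem (subset_orbB {θ} (Set.mem_singleton θ)), incSub_fB_orbB] at key
    by_contra hc
    rw [omega_fB_of_not_mem] at key
    · exact zero_ne_one key
    · rintro ⟨θ', rfl, h'⟩
      exact hc h'

end Cfsg.Agent.S0963
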