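import Cfsg.Statements.S0967
import Cfsg.Agent.Block.Quot

set_option autoImplicit false
open Cfsg Cfsg.Lib.Char Cfsg.Lib.Block

namespace Cfsg.Agent.S0967

/-- Let N be a normal subgroup of the finite group G of order prime to p and fix a maximal ideal M of the algebraic integers containing p. If χ is an irreducible character of G ⧸ N and ψ lies in the block of its inflation χ ∘ (quotient map), then ψ is itself inflated from an irreducible character ψ' of G ⧸ N lying in the block of χ. (Over a normal p'-subgroup, blocks of the quotient are whole blocks of G.) -/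
theorem result {G : Type*} [Group G] [Finite G] (p : ℕ) [Fact p.Prime] (M : Ideal Cfsg.AlgInt) (hM : Cfsg.IsPModular p M) (N : Subgroup G) [N.Normal] (hN : ¬ p ∣ Nat.card N) (χ : Cfsg.IrrCharacter (G ⧸ N)) (ψ : Cfsg.IrrCharacter G) (hψ : ψ ∈ Cfsg.blockOf M ((χ : G ⧸ N → ℂ) ∘ QuotientGroup.mk)) : ∃ ψ' : Cfsg.IrrCharacter (G ⧸ N), (ψ : G → ℂ) = (ψ' : G ⧸ N → ℂ) ∘ QuotientGroup.mk ∧ Cfsg.SameBlock M (χ : G ⧸ N → ℂ) (ψ' : G ⧸ N → ℂ) := by
  have hf := QuotientGroup.mk'_surjective N
  have hB : IsPBlock M (blockOf M ((χ : G ⧸ N → ℂ) ∘ QuotientGroup.mk)) :=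
    isPBlock_blockOf (infI hf χ)
  have hC := isPBlock_blockOf (M := M) χ
  have h := subset_preimage_of_mem hM hf hB hC (mem_blockOf_self hM χ)
    (mem_blockOf_self hM (infI hf χ))
  rw [eq_image_of_not_dvd hM hf (by rwa [QuotientGroup.ker_mk']) hB hC h] at hψ
  obtain ⟨ψ', hψ', rfl⟩ := hψ
  exact ⟨ψ', rfl, hψ'⟩

end Cfsg.Agent.S0967
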