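import Cfsg.Statements.S0970
import Cfsg.Agent.Block.CoverDefect
import Cfsg.Agent.Block.DefectNum

set_option autoImplicit false
open Cfsg Cfsg.Lib.Char Cfsg.Lib.Block Cfsg.Lib.Block.Pair

namespace Cfsg.Agent.S0970

/-- Let N be a normal subgroup of the finite group G and fix a maximal ideal M of the algebraic integers containing the prime p. Let b be a block of N that is invariant under conjugation by G, and B a block of G covering b (some χ ∈ B has a constituent in b) whose defect is at least that of every block covering b. If P is a defect group of B, then p does not divide the index of P ⊔ N, the subgroup P ∩ N of N is a defect group of b, and the defect of B equals the defect of b plus the exponent of p in the index of N. -/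
theorem result {G : Type*} [Group G] [Fintype G] (p : ℕ) [Fact p.Prime] (M : Ideal Cfsg.AlgInt) (hM : Cfsg.IsPModular p M) (N : Subgroup G) [hN : N.Normal] [Fintype N] (b : Set (Cfsg.IrrCharacter N)) (hb : Cfsg.IsPBlock M b) (hinv : ∀ g : G, ∀ θ ∈ b, ∀ θ' : Cfsg.IrrCharacter N, (∀ n : N, (θ' : N → ℂ) n = (θ : N → ℂ) ⟨g * n * g⁻¹, hN.conj_mem n n.2 g⟩) → θ' ∈ b) (B : Set (Cfsg.IrrCharacter G)) (hB : Cfsg.IsPBlock M B) (hcov : ∃ χ ∈ B, ∃ θ ∈ b, Cfsg.classInner (fun n : N => (χ : G → ℂ) n) (θ : N → ℂ) ≠ 0) (hmax : ∀ B' : Set (Cfsg.IrrCharacter G), Cfsg.IsPBlock M B' → (∃ χ ∈ B', ∃ θ ∈ b, Cfsg.classInner (fun n : N => (χ : G → ℂ) n) (θ : N → ℂ) ≠ 0) → Cfsg.blockDefect p B' ≤ Cfsg.blockDefect p B) (P : Subgroup G) (hP : Cfsg.IsDefectGroup p M B P) : ¬ p ∣ (P ⊔ N).index ∧ Cfsg.IsDefectGroup p M b ((P ⊓ N).subgroupOf N) ∧ Cfsg.blockDefect p B = Cfsg.blockDefect p b + N.index.factorization p := by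
  haveI := charP_kM hM
  have hst : stabB b = ⊤ := eq_top_iff.2 fun g _ => mem_stabB_iff_form₁.2 (hinv g)
  have hK : (⊤ : Subgroup G) ≤ stab (hat M N b) := by rw [← stabB_eq_stab hM hb, hst]
  have hKN : (⊤ : Subgroup G) ≤ Subgroup.normalizer (N : Set G) := by
    rw [Subgroup.normalizer_eq_top]
  have he := isPrim_hat hM hb
  have het := isPrim_hat_top hM hb hst
  obtain ⟨D, hD⟩ := het.exists_isDefect p le_top hKN
  obtain ⟨c, hc, hec, hcD⟩ := hD.exists_isPrim_below
    (fix_mono le_top le_rfl het.mem) het.idem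
  obtain ⟨B', hB', rfl⟩ := hc.exists_eq_eB hM
  have hcov' : Covers N B' b := by
    rw [covers_iff_mul_hat_ne_zero hM hB' hb,
      (commute_of_mem_fix le_rfl hc.mem (fix_mono le_top le_rfl het.mem)).eq, hec]
    exact hc.ne_zero
  have hle := hmax B' hB' (covers_iff.1 hcov')
  have hDc := card_defect hM hB' ((isDefectGroup_iff_isDefect hM hB').2 hcD)
  have hPc := card_defect hM hB hP
  have hPd := (isDefectGroup_iff_isDefect hM hB).1 hP
  have hne := (covers_iff_mul_hat_ne_zero hM hB hb).1 (covers_iff.2 hcov)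
  have hbr := hPd.br_ne_zero_of_stable_cover le_top he hK (isPrim_eB hM hB) hne
  have hPe : IsDefect p ⊤ (hat M N b) P :=
    hD.of_card_le hK le_top hPd.isPGroup hbr (by
      rw [hDc, hPc]
      exact Nat.pow_le_pow_right (Fact.out : p.Prime).pos hle)
  have h1 : ¬ p ∣ (P ⊔ N).index := by
    have := hPe.not_dvd_relIndex le_top hKN he hK
    rwa [Subgroup.relIndex_top_right, sup_comm] at this
  have h2 : IsDefectGroup p M b ((P ⊓ N).subgroupOf N) :=
    (isDefectGroup_subgroupOf_iff hM hb inf_le_right).2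
      (hPe.isDefect_inf_of_stable le_top hKN he hK)
  refine ⟨h1, h2, ?_⟩
  have h3 := card_defect hM hb h2
  rw [Nat.card_congr (Subgroup.subgroupOfEquivOfLe (inf_le_right : P ⊓ N ≤ N)).toEquiv] at h3
  have h4 : Nat.card (P ⊓ N : Subgroup G) * N.relIndex P = Nat.card P := by
    rw [← Subgroup.inf_relIndex_right, inf_comm N P,
      ← Nat.card_congr (Subgroup.subgroupOfEquivOfLe (inf_le_left : P ⊓ N ≤ P)).toEquiv]
    exact Subgroup.card_mul_index _
  have h5 : N.relIndex P * (P ⊔ N).index = N.index := by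
    rw [← Subgroup.relIndex_sup_right P N]
    exact Subgroup.relIndex_mul_index le_sup_right
  have hr : N.relIndex P ≠ 0 := Subgroup.index_ne_zero_of_finite
  have hi : (P ⊔ N).index ≠ 0 := Subgroup.index_ne_zero_of_finite
  have hp : p.Prime := Fact.out
  rw [← h5, Nat.factorization_mul hr hi, Finsupp.add_apply,
    Nat.factorization_eq_zero_of_not_dvd h1, add_zero]
  have h6 := congrArg (fun n => Nat.factorization n p) h4
  simp only [h3, hPc] at h6
  rw [Nat.factorization_mul (pow_ne_zero _ hp.ne_zero) hr, Finsupp.add_apply,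
    hp.factorization_pow, hp.factorization_pow, Finsupp.single_eq_same,
    Finsupp.single_eq_same] at h6
  exact h6.symm

end Cfsg.Agent.S0970
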