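import Cfsg.Statements.S0972
import Cfsg.Agent.Block.Reynolds2
import Cfsg.Agent.Char.Linear

set_option autoImplicit false
open Cfsg Cfsg.Lib.Char Cfsg.Lib.Block

namespace Cfsg.Agent.S0972

/-- Let B be a block of the finite group G (relative to a maximal ideal M of the algebraic integers containing the prime p) with a defect group P that is normal in G. Then P is commutative if and only if every member of B has height zero. -/
theorem result {G : Type*} [Group G] [Finite G] (p : ℕ) [Fact p.Prime] (M : Ideal Cfsg.AlgInt) (hM : Cfsg.IsPModular p M) (B : Set (Cfsg.IrrCharacter G)) (hB : Cfsg.IsPBlock M B) (P : Subgroup G) [P.Normal] (hP : Cfsg.IsDefectGroup p M B P) : (∀ a ∈ P, ∀ c ∈ P, a * c = c * a) ↔ ∀ χ ∈ B, Cfsg.blockHeight p B (χ : G → ℂ) = 0 := by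
  have hp : p.Prime := Fact.out
  constructor
  · intro h χ hχ
    obtain ⟨ζ, ho⟩ := exists_over_under P χ
    have h1 : (ζ : P → ℂ) 1 = 1 := ζ.2.apply_one_of_comm fun a b => Subtype.ext (h a a.2 b b.2)
    rw [← irr_charDegree_cast, Nat.cast_eq_one] at h1
    rw [blockHeight_of_normal_defect hM hB hP hχ ho, h1, Nat.factorization_one]
    rfl
  · intro h a ha c hc
    refine congrArg Subtype.val (comm_of_forall_irr_apply_one (G := P) (fun ζ hζ => ?_)
      ⟨a, ha⟩ ⟨c, hc⟩)
    obtain ⟨χ, hχ, ho⟩ := exists_over_of_isPGroup hM hB (defect_isPGroup hP) ⟨ζ, hζ⟩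
    have h1 := blockHeight_of_normal_defect hM hB hP hχ ho
    have h2 := Ht.charDegree_dvd_card hζ
    rw [card_defect hM hB hP] at h2
    obtain ⟨k, -, hk⟩ := (Nat.dvd_prime_pow hp).1 h2
    rw [h χ hχ, hk, hp.factorization_pow, Finsupp.single_eq_same] at h1
    have h3 := irr_charDegree_cast ⟨ζ, hζ⟩
    rw [hk, ← h1] at h3
    simpa using h3.symm

end Cfsg.Agent.S0972
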