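import Cfsg.Statements.S0973
import Cfsg.Agent.Block.CoverDefect

set_option autoImplicit false
open Cfsg Cfsg.Lib.Char Cfsg.Lib.Block Cfsg.Lib.Block.Pair

namespace Cfsg.Agent.S0973

/-- Let B be a block of the finite group G with defect group P (relative to a maximal ideal M of the algebraic integers containing p), and let L = P ⊔ C_G(P). Then (i) some block b of L with defect group P (viewed in L) induces B, and (ii) if b and b' are blocks of L both inducing B, there is n ∈ N_G(P) carrying b to b': for every θ ∈ b there is θ' ∈ b' with θ' x = θ (n x n⁻¹) for all x ∈ L. -/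
theorem result {G : Type*} [Group G] [Finite G] (p : ℕ) [Fact p.Prime] (M : Ideal Cfsg.AlgInt) (hM : Cfsg.IsPModular p M) (B : Set (Cfsg.IrrCharacter G)) (hB : Cfsg.IsPBlock M B) (P : Subgroup G) (hP : Cfsg.IsDefectGroup p M B P) : (∃ b : Set (Cfsg.IrrCharacter ↥(P ⊔ Subgroup.centralizer (P : Set G))), Cfsg.IsDefectGroup p M b (P.subgroupOf (P ⊔ Subgroup.centralizer (P : Set G))) ∧ Cfsg.IsInducedBlock M (P ⊔ Subgroup.centralizer (P : Set G)) b B) ∧ ∀ b b' : Set (Cfsg.IrrCharacter ↥(P ⊔ Subgroup.centralizer (P : Set G))), Cfsg.IsInducedBlock M (P ⊔ Subgroup.centralizer (P : Set G)) b B → Cfsg.IsInducedBlock M (P ⊔ Subgroup.centralizer (P : Set G)) b' B → ∃ n ∈ Subgroup.normalizer (P : Set G), ∀ θ ∈ b, ∃ θ' ∈ b', ∀ x : ↥(P ⊔ Subgroup.centralizer (P : Set G)), ∀ hx : n * (x : G) * n⁻¹ ∈ P ⊔ Subgroup.centralizer (P : Set G), (θ' : ↥(P ⊔ Subgroup.centralizer (P : Set G)) → ℂ) x = (θ : ↥(P ⊔ Subgroup.centralizer (P : Set G)) → ℂ) ⟨n * (x : G) * n⁻¹,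 hx⟩ := by
  haveI := charP_kM hM
  have hPp := defect_isPGroup hP
  have hLN : P ⊔ Subgroup.centralizer (P : Set G) ≤ Subgroup.normalizer (P : Set G) :=
    sup_le Subgroup.le_normalizer (Subgroup.centralizer_le_normalizer _)
  refine ⟨?_, fun b b' hb hb' => ?_⟩
  · obtain ⟨b, hb⟩ := (exists_isInducedBlock_iff hM hPp le_sup_left le_sup_right hLN hB).2
      (defect_brC_ne_zero hM hB hP)
    exact ⟨b, defect_subgroupOf_of_isInducedBlock hM le_sup_left hLN hP hb, hb⟩
  have hNL : Subgroup.normalizer (P : Set G) ≤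
      Subgroup.normalizer ((P ⊔ Subgroup.centralizer (P : Set G) : Subgroup G) : Set G) :=
    fun x hx => mem_normalizer_sup hx (normalizer_le_normalizer_centralizer P hx)
  have hc0 := isPrim_br_normalizer (isPrim_eB hM hB) ((isDefectGroup_iff_isDefect hM hB).1 hP)
  rw [top_inf_eq] at hc0
  have hc : IsPrim (P ⊔ Subgroup.centralizer (P : Set G)) (Subgroup.normalizer (P : Set G))
      (br P (eB M B)) :=
    ⟨⟨(suppOn_br P _).mono le_sup_right, hc0.le_stab⟩, hc0.idem, hc0.ne_zero,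
      fun c hc hi => hc0.prim c (fix_mono hLN le_rfl hc) hi⟩
  have hf := isPrim_hat hM hb.1
  have hf' := isPrim_hat hM hb'.1
  have h1 := (isInducedBlock_iff_br_mul hM hPp le_sup_left le_sup_right hLN hb.1 hB).1 hb
  have h2 := (isInducedBlock_iff_br_mul hM hPp le_sup_left le_sup_right hLN hb'.1 hB).1 hb'
  rw [hc.eq_orbSum le_rfl hLN hNL hNL hf h1] at h2
  obtain ⟨x, hx, hxf⟩ := hf.mem_orb_of_orbSum_mul_ne_zero le_rfl hNL hNL hf' h2
  have hxL := map_conj_eq_self_iff.2 (hNL hx)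
  rw [← hat_trB_conjIso x hxL] at hxf
  have hbb := block_eq_of_hat_eq hM (isPBlock_trB_of _ hb.1) hb'.1 hxf
  refine ⟨x⁻¹, inv_mem hx, fun θ hθ => ⟨irrComap (conjIso x hxL) θ, ?_, fun y hy => ?_⟩⟩
  · rw [← hbb]
    exact irrComap_mem_trB.2 hθ
  · rw [irrComap_apply]
    refine congrArg _ (Subtype.ext ?_)
    rw [coe_conjIso]
    simp

end Cfsg.Agent.S0973
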