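import Cfsg.Statements.S0986
import Mathlib.GroupTheory.Nilpotent

set_option autoImplicit false
open Cfsg

namespace Cfsg.Agent.S0986


theorem lt_inf_normalizer {G : Type*} [Group G] [Finite G] {p : ℕ} [Fact p.Prime] {P D : Subgroup G}
    (hP : IsPGroup p P) (h : D < P) : D < P ⊓ Subgroup.normalizer (D : Set G) := by
  have hnil : Group.IsNilpotent P := hP.isNilpotent
  have hnc : NormalizerCondition P := Group.normalizerCondition_of_isNilpotent
  have h1 : D.subgroupOf P < ⊤ := by
    rw [lt_top_iff_ne_top, Ne, Subgroup.subgroupOf_eq_top]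
    exact h.2
  have h2 := hnc _ h1
  obtain ⟨x, hx1, hx2⟩ := SetLike.exists_of_lt h2
  refine lt_of_le_of_ne (le_inf h.le Subgroup.le_normalizer) ?_
  intro he
  apply hx2
  rw [Subgroup.mem_subgroupOf, he]
  refine ⟨x.2, ?_⟩
  have := Subgroup.subgroupOf_normalizer_eq h.le
  rw [← this] at hx1
  exact hx1

theorem card_lt_of_lt {G : Type*} [Group G] [Finite G] {A B : Subgroup G} (h : A < B) :
    Nat.card A < Nat.card B := by
  by_contra hc
  exact h.ne (Subgroup.eq_of_le_of_card_ge h.le (not_lt.mp hc))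

/-- Let P and Q be distinct Sylow p-subgroups of a finite group G chosen so that the order of P ∩ Q is as large as possible among intersections of two distinct Sylow p-subgroups, and let N be the normalizer of P ∩ Q. Then N has more than one Sylow p-subgroup, any two distinct Sylow p-subgroups of N intersect exactly in P ∩ Q, and each Sylow p-subgroup of N lies in exactly one Sylow p-subgroup of G. -/
theorem result {G : Type*} [Group G] [Finite G] (p : ℕ) [Fact p.Prime] (P Q : Sylow p G) (hPQ : P ≠ Q) (hmax : ∀ P' Q' : Sylow p G, P' ≠ Q' → Nat.card ↥((P' : Subgroup G) ⊓ (Q' : Subgroup G)) ≤ Nat.card ↥((P : Subgroup G) ⊓ (Q : Subgroup G))) : 1 < Nat.card (Sylow p ↥(Subgroup.normalizer (((P : Subgroup G) ⊓ (Q : Subgroup G) : Subgroup G) : Set G))) ∧ (∀ S T : Sylow p ↥(Subgroup.normalizer (((P : Subgroup G) ⊓ (Q : Subgroup G) : Subgroup G) : Set G)), S ≠ T → (S : Subgroup _) ⊓ (T : Subgroup _) = ((P : Subgroup G) ⊓ (Q : Subgroup G)).subgroupOf (Subgroup.normalizer (((P : Subgroup G) ⊓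 (Q : Subgroup G) : Subgroup G) : Set G))) ∧ ∀ S : Sylow p ↥(Subgroup.normalizer (((P : Subgroup G) ⊓ (Q : Subgroup G) : Subgroup G) : Set G)), ∃! T : Sylow p G, (S : Subgroup _).map (Subgroup.normalizer (((P : Subgroup G) ⊓ (Q : Subgroup G) : Subgroup G) : Set G)).subtype ≤ (T : Subgroup G) := by
  set D : Subgroup G := (P : Subgroup G) ⊓ (Q : Subgroup G) with hD
  set N : Subgroup G := Subgroup.normalizer (D : Set G) with hN
  have hDN : D ≤ N := Subgroup.le_normalizer
  -- uniqueness of overgroups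
  have huniq : ∀ (R : Subgroup G), D < R → ∀ T1 T2 : Sylow p G, R ≤ T1 → R ≤ T2 → T1 = T2 := by
    intro R hR T1 T2 h1 h2
    by_contra hne
    have h3 := hmax T1 T2 hne
    have h4 : Nat.card D < Nat.card ↥((T1 : Subgroup G) ⊓ (T2 : Subgroup G)) :=
      card_lt_of_lt (lt_of_lt_of_le hR (le_inf h1 h2))
    omega
  have hDP : D < P := by
    refine lt_of_le_of_ne inf_le_left fun he => hPQ ?_
    have : (P : Subgroup G) ≤ Q := by rw [← he]; exact inf_le_right
    exact Sylow.ext (P.is_maximal' Q.isPGroup' this).symm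
  have hDQ : D < Q := by
    refine lt_of_le_of_ne inf_le_right fun he => hPQ ?_
    have : (Q : Subgroup G) ≤ P := by rw [← he]; exact inf_le_left
    exact Sylow.ext (Q.is_maximal' P.isPGroup' this)
  have hP1 : D < (P : Subgroup G) ⊓ N := lt_inf_normalizer P.isPGroup' hDP
  have hQ1 : D < (Q : Subgroup G) ⊓ N := lt_inf_normalizer Q.isPGroup' hDQ
  have hDp : IsPGroup p D := P.isPGroup'.to_inf_left
  have hDnorm : (D.subgroupOf N).Normal := Subgroup.normal_in_normalizer
  have hDS : ∀ S : Sylow p N, D.subgroupOf N ≤ S := fun S =>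
    IsPGroup.le_sylow_of_normal (N := D.subgroupOf N) hDp.comap_subtype S
  have hDS' : ∀ S : Sylow p N, D ≤ (S : Subgroup N).map N.subtype := fun S => by
    have := Subgroup.map_mono (f := N.subtype) (hDS S)
    rwa [Subgroup.subgroupOf_map_subtype, inf_eq_left.mpr hDN] at this
  obtain ⟨SP, hSP⟩ : ∃ S : Sylow p N, ((P : Subgroup G) ⊓ N).subgroupOf N ≤ S :=
    (P.isPGroup'.to_inf_left.comap_subtype).exists_le_sylow
  obtain ⟨SQ, hSQ⟩ : ∃ S : Sylow p N, ((Q : Subgroup G) ⊓ N).subgroupOf N ≤ S :=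
    (Q.isPGroup'.to_inf_left.comap_subtype).exists_le_sylow
  have hSP' : (P : Subgroup G) ⊓ N ≤ (SP : Subgroup N).map N.subtype := by
    have := Subgroup.map_mono (f := N.subtype) hSP
    rwa [Subgroup.subgroupOf_map_subtype, inf_assoc, inf_idem] at this
  have hSQ' : (Q : Subgroup G) ⊓ N ≤ (SQ : Subgroup N).map N.subtype := by
    have := Subgroup.map_mono (f := N.subtype) hSQ
    rwa [Subgroup.subgroupOf_map_subtype, inf_assoc, inf_idem] at this
  have hlt : ∀ S : Sylow p N, D < (S : Subgroup N).map N.subtype := by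
    intro S
    refine lt_of_le_of_ne (hDS' S) fun he => ?_
    have h1 : Nat.card ((S : Subgroup N).map N.subtype) = Nat.card ((SP : Subgroup N).map N.subtype) := by
      rw [Subgroup.card_map_of_injective N.subtype_injective,
        Subgroup.card_map_of_injective N.subtype_injective, S.card_eq_multiplicity,
        SP.card_eq_multiplicity]
    have h2 := card_lt_of_lt (lt_of_lt_of_le hP1 hSP')
    rw [← h1, ← he] at h2
    exact lt_irrefl _ h2
  have hex : ∀ S : Sylow p N, ∃ T : Sylow p G, (S : Subgroup N).map N.subtype ≤ T := fun S =>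
    (S.isPGroup'.map _).exists_le_sylow
  refine ⟨?_, ?_, ?_⟩
  · rw [Finite.one_lt_card_iff_nontrivial]
    refine ⟨SP, SQ, fun he => hPQ ?_⟩
    obtain ⟨T, hT⟩ := hex SP
    have h1 : P = T := huniq _ hP1 P T inf_le_left (hSP'.trans hT)
    have h2 : Q = T := huniq _ hQ1 Q T inf_le_left (hSQ'.trans (he ▸ hT))
    rw [h1, h2]
  · intro S T hST
    obtain ⟨S', hS'⟩ := S.exists_comap_subtype_eq
    obtain ⟨T', hT'⟩ := T.exists_comap_subtype_eq
    have hne : S' ≠ T' := by
      rintro rfl
      exact hST (Sylow.ext (hS'.symm.trans hT'))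
    have h1 := hmax S' T' hne
    have h2 : D ≤ (S' : Subgroup G) ⊓ T' := by
      refine le_inf ((hDS' S).trans ?_) ((hDS' T).trans ?_)
      · rw [← hS']; exact Subgroup.map_comap_le _ _
      · rw [← hT']; exact Subgroup.map_comap_le _ _
    have h3 : D = (S' : Subgroup G) ⊓ T' := Subgroup.eq_of_le_of_card_ge h2 h1
    rw [← hS', ← hT', ← Subgroup.comap_inf, ← h3]
    rfl
  · intro S
    obtain ⟨T, hT⟩ := hex S
    exact ⟨T, hT, fun T' hT' => huniq _ (hlt S) T' T hT' hT⟩

end Cfsg.Agent.S0986
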