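import Cfsg.Statements.S0987
import Cfsg.Agent.Trans.AutomizerOrder
import Cfsg.Agent.Known.SylowCount

set_option autoImplicit false
open Cfsg

namespace Cfsg.Agent.S0987

/-- If a finite group has order pqr for primes p < q < r, then its Sylow r-subgroups are normal. -/
theorem result {G : Type*} [Group G] [Finite G] (p q r : ℕ) (hp : p.Prime) (hq : q.Prime) [Fact r.Prime] (hpq : p < q) (hqr : q < r) (hG : Nat.card G = p * q * r) (R : Sylow r G) : (R : Subgroup G).Normal := by
  have hr : r.Prime := Fact.out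
  have := Fact.mk hp
  obtain ⟨P⟩ : Nonempty (Sylow p G) := inferInstance
  have hpq' : ¬ p ∣ q := fun h => hpq.ne ((Nat.prime_dvd_prime_iff_eq hp hq).1 h)
  have hpr : ¬ p ∣ r := fun h => (hpq.trans hqr).ne ((Nat.prime_dvd_prime_iff_eq hp hr).1 h)
  have hP : Nat.card P = p := by
    rw [Cfsg.Lib.Known.SC.sylow_card_eq_pow P (k := 1) (m := q * r) (by rw [hG]; ring)
      (fun h => ((Nat.Prime.dvd_mul hp).1 h).elim hpq' hpr), pow_one]
  have hco : ∀ s : ℕ, s.Prime → p ≤ s → s.Coprime (p - 1) := fun s hs h =>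
    (Nat.Prime.coprime_iff_not_dvd hs).2 fun h' => by
      have := Nat.le_of_dvd (by have := hp.two_le; omega) h'
      have := hp.two_le
      omega
  obtain ⟨P', N, hN, hc⟩ := Cfsg.Lib.Trans.hasNormalPComplement_of_isCyclic_of_coprime P
    (isCyclic_of_prime_card hP) (by
      rw [hG]
      exact ((hco p hp le_rfl).mul_left (hco q hq hpq.le)).mul_left (hco r hr (hpq.trans hqr).le))
  have hN1 : Nat.card N = r ^ 1 * q := by
    have := hc.card_mul
    rw [Cfsg.Lib.Known.SC.sylow_card_eq P' P, hP, hG] at this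
    apply Nat.eq_of_mul_eq_mul_right hp.pos
    rw [this]; ring
  have hrq : ¬ r ∣ q := fun h => hqr.ne' ((Nat.prime_dvd_prime_iff_eq hr hq).1 h)
  obtain ⟨Q⟩ : Nonempty (Sylow r N) := inferInstance
  have h1 : Nat.card (Sylow r N) = 1 := by
    rcases (Nat.dvd_prime hq).1 (Cfsg.Lib.Known.SC.card_sylow_dvd hN1 hrq) with h | h
    · exact h
    · have := card_sylow_modEq_one r N
      rw [h, Nat.ModEq, Nat.mod_eq_of_lt hqr, Nat.mod_eq_of_lt hr.one_lt] at this
      exact absurd this hq.one_lt.ne'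
  have : Subsingleton (Sylow r N) := (Nat.card_eq_one_iff_unique.1 h1).1
  have hQn : ((Q : Subgroup N).map N.subtype).Normal := inferInstance
  have hle : (Q : Subgroup N).map N.subtype ≤ R :=
    (Q.isPGroup'.map N.subtype).le_sylow_of_normal R
  have hR : Nat.card R = r ^ 1 :=
    Cfsg.Lib.Known.SC.sylow_card_eq_pow R (k := 1) (m := p * q) (by rw [hG]; ring)
      (fun h => ((Nat.Prime.dvd_mul hr).1 h).elim
        (fun h => (hpq.trans hqr).ne' ((Nat.prime_dvd_prime_iff_eq hr hp).1 h)) hrq)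
  have heq : (Q : Subgroup N).map N.subtype = R := by
    apply Subgroup.eq_of_le_of_card_ge hle
    rw [Subgroup.card_map_of_injective N.subtype_injective,
      Cfsg.Lib.Known.SC.sylow_card_eq_pow Q hN1 hrq, hR]
  exact heq ▸ hQn

end Cfsg.Agent.S0987
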