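import Cfsg.Statements.S0988
import Cfsg.Agent.PrimeOne.SqOrder
import Cfsg.Agent.S0496

set_option autoImplicit false
open Cfsg

namespace Cfsg.Agent.S0988

/-- If a finite simple group has order p^2 * q * r with p, q and r prime, then its order is 60. -/
theorem result {G : Type*} [Group G] [Finite G] [IsSimpleGroup G] (p q r : ℕ) (hp : p.Prime) (hq : q.Prime) (hr : r.Prime) (hG : Nat.card G = p ^ 2 * q * r) : Nat.card G = 60 := by
  open Cfsg.Lib.PrimeOne in focus
  have hc : ¬ IsMulCommutative G := not_comm_of_not_prime (by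
    rw [hG, mul_assoc, sq, mul_assoc]
    exact Nat.not_prime_mul hp.one_lt.ne' (fun h => hp.one_lt.ne' (Nat.eq_one_of_mul_eq_one_right h)))
  have h12 := twelve_or hc
  have odd : ∀ s : ℕ, s.Prime → s ≠ 2 → Nat.Coprime 2 s := fun s hs h =>
    (Nat.coprime_primes Nat.prime_two hs).2 h.symm
  have h4 : 2 ^ 2 ∣ Nat.card G := by omega
  obtain rfl : p = 2 := by
    by_contra h
    rw [hG, mul_assoc] at h4
    have h5 := ((odd p hp h).pow 2 2).dvd_of_dvd_mul_left h4
    by_cases h6 : q = 2
    · subst h6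
      obtain rfl := (Nat.prime_dvd_prime_iff_eq Nat.prime_two hr).1 (by omega)
      exact card_ne_two_primes hc hp Nat.prime_two (a := 2) (b := 2) (by rw [hG]; ring)
    · have := ((odd q hq h6).pow_left 2).dvd_of_dvd_mul_left h5
      rcases (Nat.dvd_prime hr).1 this with h | h
      · omega
      · rw [← h] at hr; norm_num at hr
  have hq2 : q ≠ 2 := by
    rintro rfl
    exact card_ne_two_primes hc hp hr (a := 3) (b := 1) (by rw [hG]; ring)
  have hr2 : r ≠ 2 := by
    rintro rfl
    exact card_ne_two_primes hc hp hq (a := 3) (b := 1) (by rw [hG]; ring)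
  have h1 : ¬ 2 ∣ q * r := (Nat.Prime.coprime_iff_not_dvd hp).1
    ((odd q hq hq2).mul_right (odd r hr hr2))
  rw [mul_assoc] at hG
  obtain ⟨s, hs, hn⟩ : ∃ s : ℕ, s.Prime ∧ Nat.card G = s ^ 1 * 12 := by
    rcases (Nat.Prime.dvd_mul Nat.prime_three).1 (show 3 ∣ q * r by omega) with h | h
    · obtain rfl := (Nat.prime_dvd_prime_iff_eq Nat.prime_three hq).1 h
      exact ⟨r, hr, by rw [hG]; ring⟩
    · obtain rfl := (Nat.prime_dvd_prime_iff_eq Nat.prime_three hr).1 h
      exact ⟨q, hq, by rw [hG]; ring⟩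
  have := Fact.mk hs
  have h2 : s ≤ 12 := by
    by_contra h2
    have h3 := Nat.le_of_dvd (by norm_num) (Cfsg.Lib.Known.SC.card_sylow_dvd hn
      fun h => h2 (Nat.le_of_dvd (by norm_num) h))
    have h5 := one_lt_card_sylow hc (p := s) (by rw [hn, pow_one]; exact dvd_mul_right _ _)
    have h6 := card_sylow_modEq_one s G
    rw [Nat.ModEq, Nat.mod_eq_of_lt (by omega), Nat.mod_eq_of_lt hs.one_lt] at h6
    omega
  rw [pow_one] at hn
  have := Cfsg.Agent.S0496.result hc (by omega)
  omega

end Cfsg.Agent.S0988
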