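import Cfsg.Statements.S0989
import Cfsg.Agent.Known.SylowPrimeOrder
import Mathlib.GroupTheory.Perm.Centralizer
import Mathlib.Data.Nat.Prime.Factorial

set_option autoImplicit false
open Cfsg

namespace Cfsg.Agent.S0989

open Nat in
/-- In the symmetric group on p or p + 1 letters, p a prime, the normalizer of a Sylow p-subgroup has order p * (p - 1). -/
theorem result {α : Type*} [Fintype α] [DecidableEq α] (p : ℕ) [Fact p.Prime] (hα : Fintype.card α = p ∨ Fintype.card α = p + 1) (P : Sylow p (Equiv.Perm α)) : Nat.card ↥(Subgroup.normalizer ((P : Subgroup (Equiv.Perm α)) : Set (Equiv.Perm α))) = p * (p - 1) := by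
  have hp : p.Prime := Fact.out
  have hp2 := hp.two_le
  have hle : p ≤ Fintype.card α := by omega
  have hlt : Fintype.card α < 2 * p := by omega
  have hcard : Nat.card (Equiv.Perm α) = (Fintype.card α)! := by
    rw [Nat.card_eq_fintype_card, Fintype.card_perm]
  have hP : Nat.card (P : Subgroup (Equiv.Perm α)) = p := by
    rw [P.card_eq_multiplicity, hcard]
    have h1 : (p !).factorization p = 1 := by
      obtain ⟨k, rfl⟩ : ∃ k, p = k + 1 := ⟨p - 1, by omega⟩
      rw [Nat.factorial_succ, Nat.factorization_mul (by omega) (Nat.factorial_ne_zero _)]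
      simp only [Finsupp.coe_add, Pi.add_apply, hp.factorization_self]
      have : (k !).factorization (k + 1) = 0 := by
        apply Nat.factorization_eq_zero_of_not_dvd
        rw [hp.dvd_factorial]; omega
      omega
    rcases hα with h | h
    · rw [h, h1, pow_one]
    · rw [h, Nat.factorial_succ, Nat.factorization_mul (by omega) (Nat.factorial_ne_zero _)]
      simp only [Finsupp.coe_add, Pi.add_apply, h1]
      have : (p + 1).factorization p = 0 := by
        apply Nat.factorization_eq_zero_of_not_dvd
        intro hd
        have := (Nat.dvd_add_right (dvd_refl p)).1 hd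
        exact hp.one_lt.ne' (Nat.dvd_one.1 this)
      rw [this]; simp
  have h1 := Cfsg.Lib.Known.card_orderOf_eq_of_sylow_card_prime P hP
  have h2 : Nat.card {x : Equiv.Perm α // orderOf x = p} = (p - 1)! * (Fintype.card α).choose p := by
    rw [← Equiv.Perm.card_of_cycleType_singleton hp2 hle, Nat.card_eq_fintype_card,
      Fintype.card_subtype]
    congr 1
    ext g
    simp only [Finset.mem_filter, Finset.mem_univ, true_and]
    constructor
    · intro hg
      have hc : g.IsCycle := Equiv.Perm.isCycle_of_prime_order' (hg ▸ hp) (hg ▸ hlt)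
      rw [hc.cycleType, ← hc.orderOf, hg]
    · intro hg
      rw [← Equiv.Perm.lcm_cycleType, hg]; simp
  have h3 := P.card_eq_index_normalizer
  have h4 := (Subgroup.normalizer ((P : Subgroup (Equiv.Perm α)) : Set (Equiv.Perm α))).card_mul_index
  rw [hcard] at h4
  have h5 := Nat.choose_mul_factorial_mul_factorial hle
  have h6 : (Fintype.card α - p)! = 1 := by
    rcases hα with h | h <;> simp [h]
  have h7 : p ! = p * (p - 1)! := (Nat.mul_factorial_pred hp.ne_zero).symm
  have h8 : (Subgroup.normalizer ((P : Subgroup (Equiv.Perm α)) : Set (Equiv.Perm α))).index ≠ 0 :=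
    Subgroup.index_ne_zero_of_finite
  rw [h6, h7, mul_one] at h5
  apply Nat.eq_of_mul_eq_mul_right (Nat.pos_of_ne_zero h8)
  rw [h4, ← h5]
  have h9 : Nat.card (Sylow p (Equiv.Perm α)) = (Subgroup.normalizer ((P : Subgroup (Equiv.Perm α)) : Set (Equiv.Perm α))).index := h3
  rw [← h9, mul_assoc p, mul_comm (p - 1), ← h1, h2]
  ring

end Cfsg.Agent.S0989
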