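import Cfsg.Statements.S0990


set_option autoImplicit false
open Cfsg

namespace Cfsg.Agent.S0990

/-- Let p be an odd prime and P a Sylow p-subgroup of the symmetric group on a finite set with at least two elements. Then P is contained in the alternating group, and twice the order of the normalizer of P inside the alternating group equals the order of the normalizer of P in the symmetric group. -/
theorem result {α : Type*} [Fintype α] [DecidableEq α] (hα : 2 ≤ Fintype.card α) (p : ℕ) [Fact p.Prime] (hp : p ≠ 2) (P : Sylow p (Equiv.Perm α)) : (P : Subgroup (Equiv.Perm α)) ≤ alternatingGroup α ∧ 2 * Nat.card ↥(Subgroup.normalizer ((((P : Subgroup (Equiv.Perm α)).subgroupOf (alternatingGroup α) : Subgroup ↥(alternatingGroup α)) : Set ↥(alternatingGroup α)))) = Nat.card ↥(Subgroup.normalizer ((P : Subgroup (Equiv.Perm α)) : Set (Equiv.Perm α))) := by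
  have hle : (P : Subgroup (Equiv.Perm α)) ≤ alternatingGroup α := by
    intro g hg
    obtain ⟨k, hk⟩ := P.isPGroup' ⟨g, hg⟩
    have h1 : g ^ p ^ k = 1 := congrArg Subtype.val hk
    have h2 := congrArg Equiv.Perm.sign h1
    rw [map_pow, map_one] at h2
    rw [Equiv.Perm.mem_alternatingGroup]
    rcases Int.units_eq_one_or (Equiv.Perm.sign g) with h | h
    · exact h
    · rw [h, Odd.neg_one_pow ((Nat.Prime.odd_of_ne_two Fact.out hp).pow)] at h2
      exact absurd h2 (by decide)
  refine ⟨hle, ?_⟩
  have : Nontrivial α := Fintype.one_lt_card_iff_nontrivial.1 hα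
  have h1 := Sylow.normalizer_sup_eq_top' P hle
  have h2 : (alternatingGroup α).relIndex
      (Subgroup.normalizer ((P : Subgroup (Equiv.Perm α)) : Set (Equiv.Perm α))) = 2 := by
    rw [← Subgroup.relIndex_sup_right]
    erw [h1]
    rw [Subgroup.relIndex_top_right, alternatingGroup.index_eq_two]
  rw [← Subgroup.subgroupOf_normalizer_eq hle, ← Subgroup.card_mul_index ((alternatingGroup α).subgroupOf
    (Subgroup.normalizer ((P : Subgroup (Equiv.Perm α)) : Set (Equiv.Perm α)))), ← Subgroup.relIndex,
    h2, mul_comm]
  congr 1
  rw [← Subgroup.card_map_of_injective (Subgroup.subtype_injective _),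
    ← Subgroup.card_map_of_injective (Subgroup.subtype_injective _) (K := Subgroup.subgroupOf _ _),
    Subgroup.subgroupOf_map_subtype, Subgroup.subgroupOf_map_subtype, inf_comm]

end Cfsg.Agent.S0990
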