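import Cfsg.Statements.S0995
import Cfsg.Agent.Known.SylowCount

set_option autoImplicit false

open Cfsg

namespace Cfsg.Agent.S0995

open Cfsg.Lib.Known.SC

/-- a self-centralizing subgroup of order `p` is a Sylow subgroup -/
theorem exists_sylow {G : Type*} [Group G] [Finite G] (p : ℕ) [hp : Fact p.Prime] (z : G)
    (hz : orderOf z = p) (hC : Subgroup.centralizer ({z} : Set G) = Subgroup.zpowers z) :
    ∃ P : Sylow p G, (P : Subgroup G) = Subgroup.zpowers z := by
  obtain ⟨P, hP⟩ := exists_sylow_mem_of_orderOf (k := 1) (p := p) (g := z) (by rw [hz, pow_one])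
  have hz1 : z ≠ 1 := by
    rintro rfl
    rw [orderOf_one] at hz
    exact hp.out.one_lt.ne hz
  have : Nontrivial (P : Subgroup G) := ⟨⟨⟨z, hP⟩, 1, fun h => hz1 (congrArg Subtype.val h)⟩⟩
  have := P.isPGroup'.center_nontrivial
  obtain ⟨⟨w, hw⟩, hw1⟩ := exists_ne (1 : Subgroup.center (P : Subgroup G))
  have hw2 : (w : G) ≠ 1 := fun h => hw1 (Subtype.ext (Subtype.ext h))
  have hw3 : (w : G) ∈ Subgroup.zpowers z := by
    rw [← hC, Subgroup.mem_centralizer_singleton_iff]
    exact (congrArg Subtype.val (Subgroup.mem_center_iff.mp hw ⟨z, hP⟩)).symm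
  have h4 : Subgroup.zpowers (w : G) = Subgroup.zpowers z :=
    zpowers_eq_of_card_prime hp.out (by rw [Nat.card_zpowers, hz]) hw3 hw2
  refine ⟨P, le_antisymm ?_ (Subgroup.zpowers_le.mpr hP)⟩
  rw [← hC, ← centralizer_zpowers, ← h4, centralizer_zpowers]
  intro x hx
  rw [Subgroup.mem_centralizer_singleton_iff]
  exact congrArg Subtype.val (Subgroup.mem_center_iff.mp hw ⟨x, hx⟩)

/-- Let G be a finite perfect group containing an element z of prime order p whose centralizer is the cyclic group it generates. Let t be the number of conjugacy classes of elements of order p. Then t divides p - 1, the number of Sylow p-subgroups has the form 1 + n * p, and |G| * t = (p - 1) * p * (1 + n * p). -/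
theorem result {G : Type*} [Group G] [Finite G] (hperf : commutator G = ⊤) (p : ℕ) [Fact p.Prime] (z : G) (hz : orderOf z = p) (hC : Subgroup.centralizer ({z} : Set G) = Subgroup.zpowers z) : ∃ n t : ℕ, t = Nat.card {c : ConjClasses G // ∃ g : G, ConjClasses.mk g = c ∧ orderOf g = p} ∧ t ∣ p - 1 ∧ Nat.card (Sylow p G) = 1 + n * p ∧ Nat.card G * t = (p - 1) * p * (1 + n * p) := by
  classical
  have hp : p.Prime := Fact.out
  obtain ⟨P, hP⟩ := exists_sylow p z hz hC
  have hPc : Nat.card (P : Subgroup G) = p := by rw [hP, Nat.card_zpowers, hz]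
  have hcent : ∀ g : G, orderOf g = p → Nat.card (Subgroup.centralizer ({g} : Set G)) = p := by
    intro g hg
    obtain ⟨Q, hQ⟩ := exists_sylow_mem_of_orderOf (k := 1) (p := p) (g := g) (by rw [hg, pow_one])
    obtain ⟨x, hx⟩ := MulAction.exists_smul_eq G Q P
    have h1 : x * g * x⁻¹ ∈ (P : Subgroup G) := by
      rw [← hx, Sylow.coe_subgroup_smul, Subgroup.mem_pointwise_smul_iff_inv_smul_mem]
      simpa [mul_assoc] using hQ
    have h2 : x * g * x⁻¹ ≠ 1 := by
      intro h
      have : g = 1 := by simpa using h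
      rw [this, orderOf_one] at hg
      exact hp.one_lt.ne hg
    rw [card_centralizer_eq_of_isConj (isConj_iff.mpr ⟨x, rfl⟩ : IsConj g (x * g * x⁻¹)),
      ← centralizer_zpowers, zpowers_eq_of_card_prime hp hPc h1 h2, hP, centralizer_zpowers, hC,
      Nat.card_zpowers, hz]
  obtain ⟨n, hn⟩ : ∃ n, Nat.card (Sylow p G) = 1 + n * p := by
    have h := card_sylow_modEq_one p G
    have h1 : 1 ≤ Nat.card (Sylow p G) := Nat.card_pos
    obtain ⟨n, hn⟩ := (Nat.modEq_iff_dvd' h1).mp h.symm
    exact ⟨n, by rw [mul_comm]; omega⟩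
  set T := {c : ConjClasses G // ∃ g : G, ConjClasses.mk g = c ∧ orderOf g = p} with hT
  have := Fintype.ofFinite T
  let e : (Σ c : T, {g : G // ConjClasses.mk g = c.1}) → {g : G // orderOf g = p} :=
    fun x => ⟨x.2.1, by
      obtain ⟨g, hg, hg'⟩ := x.1.2
      have : IsConj g x.2.1 := ConjClasses.mk_eq_mk_iff_isConj.mp (hg.trans x.2.2.symm)
      obtain ⟨c, hc⟩ := isConj_iff.mp this
      rw [← hc, ← hg']
      exact (MulAut.conj c).orderOf_eq g⟩
  have he : Function.Bijective e := by
    constructor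
    · rintro ⟨⟨c, hc⟩, g, hg⟩ ⟨⟨d, hd⟩, h, hh⟩ hij
      have hgh : g = h := congrArg Subtype.val hij
      subst hgh
      have : c = d := hg.symm.trans hh
      subst this
      rfl
    · rintro ⟨g, hg⟩
      exact ⟨⟨⟨ConjClasses.mk g, g, rfl, hg⟩, g, rfl⟩, rfl⟩
  have hcount : Nat.card {g : G // orderOf g = p} * p = Nat.card G * Nat.card T := by
    rw [← Nat.card_congr (Equiv.ofBijective e he), Nat.card_sigma, Finset.sum_mul]
    rw [Finset.sum_congr rfl (g := fun _ => Nat.card G)]
    · simp [mul_comm]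
    · rintro ⟨c, g, rfl, hg⟩ _
      rw [← card_isConj_mul_card_centralizer g, hcent g hg]
      congr 1
      refine Nat.card_congr (Equiv.subtypeEquivRight fun x => ?_)
      rw [ConjClasses.mk_eq_mk_iff_isConj]
      exact ⟨IsConj.symm, IsConj.symm⟩
  rw [card_orderOf_eq_prime P hPc] at hcount
  refine ⟨n, Nat.card T, rfl, ?_, hn, ?_⟩
  · have h1 := card_normalizer_mul_card_sylow P
    obtain ⟨e, he⟩ := Subgroup.card_dvd_of_le (Subgroup.le_normalizer (H := (P : Subgroup G)))
    rw [he, hPc] at h1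
    rw [← h1] at hcount
    refine ⟨e, ?_⟩
    have h2 : 0 < Nat.card (Sylow p G) * p := Nat.mul_pos Nat.card_pos hp.pos
    apply Nat.eq_of_mul_eq_mul_left h2
    linarith
  · rw [← hcount, hn]
    ring

end Cfsg.Agent.S0995
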