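import Cfsg.Statements.S0996
import Cfsg.Agent.PrimeOne.Brauer3

set_option autoImplicit false
open Cfsg

namespace Cfsg.Agent.S0996

/-- Let G be a finite perfect group containing an element z of prime order p whose centralizer is the cyclic group it generates, and suppose the number 1 + n * p of Sylow p-subgroups satisfies n < (p + 3) / 2. Then p > 3 and G is isomorphic to the projective special linear group of dimension 2 over the field with p elements, or p - 1 is a power of 2 and G is isomorphic to that group over the field with p - 1 elements. -/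
theorem result {G : Type*} [Group G] [Finite G] (hperf : commutator G = ⊤) (p : ℕ) [Fact p.Prime] (z : G) (hz : orderOf z = p) (hC : Subgroup.centralizer ({z} : Set G) = Subgroup.zpowers z) (hn : 2 * Nat.card (Sylow p G) < (p + 1) * (p + 2)) : (∃ (F : Type) (_ : Field F) (_ : Fintype F), Fintype.card F = p ∧ 3 < p ∧ Nonempty (G ≃* Matrix.ProjectiveSpecialLinearGroup (Fin 2) F)) ∨ (∃ (m : ℕ) (F : Type) (_ : Field F) (_ : Fintype F), Fintype.card F = 2 ^ m ∧ p = 2 ^ m + 1 ∧ 3 < p ∧ Nonempty (G ≃* Matrix.ProjectiveSpecialLinearGroup (Fin 2) F)) := by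
  open Cfsg.Lib.PrimeOne in focus
  obtain ⟨P, e, -, hP, hC', -⟩ := Cfsg.Lib.Block.PS.selfCent_data hz hC
  have h := (brauer_of_lt hP hperf hn).1
  rw [hC'] at h
  have hO : Cfsg.pPrimeCore p G = ⊥ := by
    rw [← inf_eq_right.2 h]
    exact Cfsg.Lib.Solv.inf_eq_bot_of_isPGroup_of_coprime P.isPGroup'
      (Cfsg.Lib.Solv.coprime_card_pPrimeCore p G)
  exact (concl_of_lt hP hperf hO hn).psl

end Cfsg.Agent.S0996
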