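import Cfsg.Statements.S1003
import Cfsg.Agent.Known.G168Facts

set_option autoImplicit false
open Cfsg

namespace Cfsg.Agent.S1003

/-- A simple group of order 168 has exactly 21 Sylow 2-subgroups, 28 Sylow 3-subgroups and 8 Sylow 7-subgroups. -/
theorem result {G : Type*} [Group G] [Finite G] [IsSimpleGroup G] (h : Nat.card G = 168) : Nat.card (Sylow 2 G) = 21 ∧ Nat.card (Sylow 3 G) = 28 ∧ Nat.card (Sylow 7 G) = 8 := by
  obtain ⟨e⟩ := Lib.Known.G168.nonempty_equiv h
  have : Fact (Nat.Prime 3) := ⟨Nat.prime_three⟩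
  refine ⟨?_, ?_, ?_⟩
  · obtain ⟨T⟩ : Nonempty (Sylow 2 G) := inferInstance
    have h1 := Lib.Known.SC.card_normalizer_mul_card_sylow T
    rw [Lib.Known.G168.normalizer_eq_of_card_eight e (Lib.Known.G168.card_sylow_two_eq e T),
      Lib.Known.G168.card_sylow_two_eq e T, h] at h1
    omega
  · obtain ⟨P⟩ : Nonempty (Sylow 3 G) := inferInstance
    have h1 := Lib.Known.SC.card_orderOf_eq_prime P
      (Lib.Known.SC.sylow_card_eq_pow P (k := 1) (m := 56) h (by norm_num))
    rw [Lib.Known.G168.card_orderOf_three e] at h1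
    omega
  · obtain ⟨P⟩ : Nonempty (Sylow 7 G) := inferInstance
    have h1 := Lib.Known.SC.card_orderOf_eq_prime P
      (Lib.Known.SC.sylow_card_eq_pow P (k := 1) (m := 24) h (by norm_num))
    rw [Lib.Known.G168.card_orderOf_seven e] at h1
    omega

end Cfsg.Agent.S1003
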