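import Cfsg.Statements.S1006
import Cfsg.Agent.Known.G168Facts

set_option autoImplicit false
open Cfsg

namespace Cfsg.Agent.S1006

/-- In a simple group of order 168 there are 56 elements of order 3, all conjugate; 42 elements of order 4, all conjugate; and 48 elements of order 7 falling into two conjugacy classes of size 24, an element of order 7 not being conjugate to its inverse. -/
theorem result {G : Type*} [Group G] [Finite G] [IsSimpleGroup G] (h : Nat.card G = 168) : Nat.card {g : G // orderOf g = 3} = 56 ∧ (∀ s t : G, orderOf s = 3 → orderOf t = 3 → IsConj s t) ∧ Nat.card {g : G // orderOf g = 4} = 42 ∧ (∀ s t : G, orderOf s = 4 → orderOf t = 4 → IsConj s t) ∧ Nat.card {g : G // orderOf g = 7} = 48 ∧ ∀ x : G, orderOf x = 7 → Nat.card {g : G // IsConj x g} = 24 ∧ ¬ IsConj x x⁻¹ := by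
  obtain ⟨e⟩ := Lib.Known.G168.nonempty_equiv h
  refine ⟨Lib.Known.G168.card_orderOf_three e,
    fun s t => Lib.Known.G168.isConj_of_rep e Lib.Known.G168.conj_three,
    Lib.Known.G168.card_orderOf_four e,
    fun s t => Lib.Known.G168.isConj_of_rep e Lib.Known.G168.conj_four,
    Lib.Known.G168.card_orderOf_seven e, fun x hx => ⟨?_, Lib.Known.G168.not_isConj_inv e hx⟩⟩
  have h1 := Lib.Known.SC.card_isConj_mul_card_centralizer x
  rw [Lib.Known.G168.card_centralizer_of_orderOf e x (by rintro rfl; simp at hx), hx, h] at h1
  simp only [show ¬ (7 = 2) by norm_num, if_false] at h1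
  omega

end Cfsg.Agent.S1006
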