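import Cfsg.Statements.S1007
import Cfsg.Agent.Known.G168Facts
import Cfsg.Agent.S1012

set_option autoImplicit false
open Cfsg

namespace Cfsg.Agent.S1007

open Cfsg.Lib.Known GTab G168

variable {G : Type*} [Group G]

/-- Membership in the four-group generated by `a` and `b`. -/
abbrev InK (a b x : G) : Prop := x = 1 ∨ x = a ∨ x = b ∨ x = a * b

theorem exists_gens {U : Subgroup G} (h : IsKleinFour U) : ∃ a b : G, orderOf a = 2 ∧
    orderOf b = 2 ∧ a ≠ b ∧ a * b = b * a ∧ ∀ x, x ∈ U ↔ InK a b x := by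
  classical
  have : Finite U := Nat.finite_of_card_ne_zero (by rw [h.card_four]; norm_num)
  have := Fintype.ofFinite U
  have h3 : 2 < Fintype.card U := by rw [IsKleinFour.card_four']; norm_num
  have : Nontrivial U := Fintype.one_lt_card_iff_nontrivial.1 (by omega)
  obtain ⟨a, ha⟩ := exists_ne (1 : U)
  obtain ⟨b, hb⟩ : ∃ b : U, b ≠ 1 ∧ b ≠ a := by
    by_contra hcon
    have : (Finset.univ : Finset U) ⊆ {1, a} := fun b _ => by
      by_contra h'
      exact hcon ⟨b, by simpa [not_or] using h'⟩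
    have := (Finset.card_le_card this).trans (Finset.card_le_two (a := 1) (b := a))
    rw [Finset.card_univ] at this
    omega
  have ho : ∀ x : U, x ≠ 1 → orderOf (x : G) = 2 := fun x hx => by
    rw [Subgroup.orderOf_coe]
    exact orderOf_eq_prime (by rw [sq, IsKleinFour.mul_self]) hx
  refine ⟨a, b, ho a ha, ho b hb.1, fun h => hb.2 (Subtype.ext h.symm),
    congrArg Subtype.val (IsKleinFour.isMulCommutative.1.1 a b), fun x => ⟨fun hx => ?_, ?_⟩⟩
  · have : (⟨x, hx⟩ : U) ∈ ({a * b, a, b, 1} : Finset U) := by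
      rw [IsKleinFour.eq_finset_univ ha hb.1 hb.2.symm]; exact Finset.mem_univ _
    simp only [Finset.mem_insert, Finset.mem_singleton, Subtype.ext_iff] at this
    tauto
  · rintro (rfl | rfl | rfl | rfl)
    exacts [U.one_mem, a.2, b.2, (a * b).2]

theorem exists_four {a b : G} (ha : orderOf a = 2) (hb : orderOf b = 2) (hab : a ≠ b)
    (hc : a * b = b * a) : ∃ U : Subgroup G, IsKleinFour U ∧ ∀ x, x ∈ U ↔ InK a b x := by
  classical
  have a2 : a * a = 1 := by rw [← sq, ← ha, pow_orderOf_eq_one]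
  have b2 : b * b = 1 := by rw [← sq, ← hb, pow_orderOf_eq_one]
  have a1 : a ≠ 1 := by rintro rfl; simp at ha
  have b1 : b ≠ 1 := by rintro rfl; simp at hb
  have aab : a * (a * b) = b := by rw [← mul_assoc, a2, one_mul]
  have bab : b * (a * b) = a := by rw [hc, ← mul_assoc, b2, one_mul]
  have aba : a * b * a = b := by rw [mul_assoc, ← hc, aab]
  have abb : a * b * b = a := by rw [mul_assoc, b2, mul_one]
  have abab : a * b * (a * b) = 1 := by rw [mul_assoc, bab, a2]
  have hsq : ∀ x, InK a b x → x * x = 1 := by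
    rintro _ (rfl | rfl | rfl | rfl)
    exacts [one_mul _, a2, b2, abab]
  let U : Subgroup G :=
    { carrier := {x | InK a b x}
      one_mem' := Or.inl rfl
      mul_mem' := by
        rintro _ _ (rfl | rfl | rfl | rfl) (rfl | rfl | rfl | rfl) <;>
          simp [InK, a2, b2, aab, bab, aba, abb, abab, ← hc]
      inv_mem' := fun {x} hx => by
        rw [inv_eq_of_mul_eq_one_right (hsq x hx)]; exact hx }
  refine ⟨U, ⟨?_, ?_⟩, fun _ => Iff.rfl⟩
  · have : (U : Set G) = ({1, a, b, a * b} : Finset G) := by ext x; simp [U, InK]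
    have h1 : (1 : G) ≠ a * b := fun h => hab (by rw [← bab, ← h, mul_one])
    rw [← SetLike.coe_sort_coe, this, Nat.card_coe_set_eq, Set.ncard_coe_finset,
      Finset.card_insert_of_notMem (by simp [a1.symm, b1.symm, h1]),
      Finset.card_insert_of_notMem (by simp [hab, b1]), Finset.card_pair (by simp [a1])]
  · have : Nontrivial U := ⟨⟨⟨a, Or.inr (Or.inl rfl)⟩, 1, fun h => a1 (congrArg Subtype.val h)⟩⟩
    exact (Monoid.exponent_eq_prime_iff Nat.prime_two).2 fun g hg =>
      orderOf_eq_prime (Subtype.ext (by rw [sq]; exact hsq g g.2)) hg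

set_option synthInstance.maxSize 2048 in
theorem factA : ∀ z : tab.El, ord z = 2 → ∃ a : tab.El, (ord a = 2 ∧ a * z = z * a ∧ z ≠ a) ∧
    ∃ b : tab.El, (ord b = 2 ∧ b * z = z * b ∧ z ≠ b ∧ ¬ InK z a b) ∧
      (∀ c : tab.El, ord c = 2 → c * z = z * c → ∀ d : tab.El, ord d = 2 → d * z = z * d →
        c ≠ d → c * d = d * c → (InK z a c ∧ InK z a d ∧ InK c d z ∧ InK c d a) ∨
          (InK z b c ∧ InK z b d ∧ InK c d z ∧ InK c d b)) ∧
      ∀ g : tab.El, InK z b (g * z * g⁻¹) → ¬ InK z b (g * a * g⁻¹) := by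
  decide +kernel

theorem factC : ∀ a : tab.El, ord a = 2 → ∀ b : tab.El, ord b = 2 → a ≠ b → a * b = b * a →
    cnt (fun g : tab.El => InK a b (g * a * g⁻¹) ∧ InK a b (g * b * g⁻¹)) = 24 := by
  decide +kernel

theorem eq_of_inK {U W : Subgroup G} {a b c d : G} (hU : ∀ x, x ∈ U ↔ InK a b x)
    (hW : ∀ x, x ∈ W ↔ InK c d x) (h : InK a b c ∧ InK a b d ∧ InK c d a ∧ InK c d b) : W = U := by
  have key : ∀ {U W : Subgroup G} {a b c d : G}, (∀ x, x ∈ U ↔ InK a b x) →
      (∀ x, x ∈ W ↔ InK c d x) → InK a b c → InK a b d → W ≤ U := by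
    intro U W a b c d hU hW h1 h2 x hx
    rcases (hW x).1 hx with rfl | rfl | rfl | rfl
    exacts [U.one_mem, (hU _).2 h1, (hU _).2 h2, U.mul_mem ((hU _).2 h1) ((hU _).2 h2)]
  exact le_antisymm (key hU hW h.1 h.2.1) (key hW hU h.2.2.1 h.2.2.2)

/-- Let G be a simple group of order 168 and T a Sylow 2-subgroup. Then T contains exactly two subgroups that are Klein four-groups; they are not conjugate in G; and the normalizer of every Klein four-subgroup of G is isomorphic to the symmetric group of degree 4. -/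
theorem result {G : Type*} [Group G] [Finite G] [IsSimpleGroup G] (h : Nat.card G = 168) (T : Sylow 2 G) : Nat.card {U : Subgroup G // U ≤ (T : Subgroup G) ∧ IsKleinFour ↥U} = 2 ∧ (∀ U W : Subgroup G, U ≤ (T : Subgroup G) → W ≤ (T : Subgroup G) → IsKleinFour ↥U → IsKleinFour ↥W → U ≠ W → ∀ g : G, U.map (MulAut.conj g).toMonoidHom ≠ W) ∧ ∀ U : Subgroup G, IsKleinFour ↥U → Nonempty (↥(Subgroup.normalizer (U : Set G)) ≃* Equiv.Perm (Fin 4)) := by
  obtain ⟨e⟩ := nonempty_equiv h
  have hT := card_sylow_two_eq e T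
  obtain ⟨z, hz, hz1, hz'⟩ := exists_central_of_card_eight hT
  obtain ⟨h2, hC⟩ := centralizer_eq_of_card_eight e hT hz1 hz'
  have hA : ∃ a : G, (orderOf a = 2 ∧ a * z = z * a ∧ z ≠ a) ∧
      ∃ b : G, (orderOf b = 2 ∧ b * z = z * b ∧ z ≠ b ∧ ¬ InK z a b) ∧
      (∀ c : G, orderOf c = 2 → c * z = z * c → ∀ d : G, orderOf d = 2 → d * z = z * d →
        c ≠ d → c * d = d * c → (InK z a c ∧ InK z a d ∧ InK c d z ∧ InK c d a) ∨
          (InK z b c ∧ InK z b d ∧ InK c d z ∧ InK c d b)) ∧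
      ∀ g : G, InK z b (g * z * g⁻¹) → ¬ InK z b (g * a * g⁻¹) := by
    obtain ⟨z, rfl⟩ := e.surjective z
    rw [orderOf_map] at h2
    simpa only [InK, e.surjective.exists, e.surjective.forall, ← map_mul, ← map_inv,
      e.apply_eq_iff_eq, Ne, map_eq_one_iff _ e.injective, orderOf_map] using factA z h2
  obtain ⟨a, ⟨a2, az, za⟩, b, ⟨b2, bz, zb, hab⟩, hall, hnc⟩ := hA
  obtain ⟨A, hA, hA'⟩ := exists_four h2 a2 za az.symm
  obtain ⟨B, hB, hB'⟩ := exists_four h2 b2 zb bz.symm
  have hmem : ∀ x, x ∈ (T : Subgroup G) ↔ x * z = z * x := fun x => by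
    rw [← hC, Subgroup.mem_centralizer_singleton_iff]
  have hle : ∀ {U : Subgroup G} {c : G}, (∀ x, x ∈ U ↔ InK z c x) → c * z = z * c →
      U ≤ (T : Subgroup G) := by
    intro U c hU hc x hx
    rcases (hU x).1 hx with rfl | rfl | rfl | rfl
    exacts [one_mem _, hz, (hmem _).2 hc, mul_mem hz ((hmem _).2 hc)]
  have hAB : A ≠ B := fun h' => hab ((hA' b).1 (h' ▸ (hB' b).2 (Or.inr (Or.inr (Or.inl rfl)))))
  have hcases : ∀ U : Subgroup G, U ≤ (T : Subgroup G) → IsKleinFour U → U = A ∨ U = B := by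
    intro U hU hU'
    obtain ⟨c, d, c2, d2, cd, hcd, hU''⟩ := exists_gens hU'
    exact (hall c c2 ((hmem c).1 (hU ((hU'' c).2 (Or.inr (Or.inl rfl))))) d d2
      ((hmem d).1 (hU ((hU'' d).2 (Or.inr (Or.inr (Or.inl rfl)))))) cd hcd).imp
      (eq_of_inK hA' hU'') (eq_of_inK hB' hU'')
  have hnc' : ∀ g : G, A.map (MulAut.conj g).toMonoidHom ≠ B := fun g hg =>
    hnc g ((hB' _).1 (hg ▸ ⟨z, (hA' _).2 (Or.inr (Or.inl rfl)), rfl⟩))
      ((hB' _).1 (hg ▸ ⟨a, (hA' _).2 (Or.inr (Or.inr (Or.inl rfl))), rfl⟩))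
  refine ⟨?_, fun U W hU hW hU' hW' hne g hg => ?_, fun U hU => ?_⟩
  · rw [Nat.card_eq_two_iff]
    refine ⟨⟨A, hle hA' az, hA⟩, ⟨B, hle hB' bz, hB⟩, fun h => hAB (congrArg Subtype.val h), ?_⟩
    rw [Set.eq_univ_iff_forall]
    rintro ⟨U, hU, hU'⟩
    simpa using hcases U hU hU'
  · rcases hcases U hU hU' with rfl | rfl <;> rcases hcases W hW hW' with rfl | rfl
    · exact hne rfl
    · exact hnc' g hg
    · refine hnc' g⁻¹ ?_
      rw [← hg, Subgroup.map_map]
      ext x
      simp [mul_assoc]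
    · exact hne rfl
  · obtain ⟨c, d, c2, d2, cd, hcd, hU'⟩ := exists_gens hU
    refine S1012.result ?_ fun g hg => ?_
    · obtain ⟨c, rfl⟩ := e.surjective c
      obtain ⟨d, rfl⟩ := e.surjective d
      rw [orderOf_map] at c2 d2
      rw [← factC c c2 d d2 (fun h => cd (by rw [h])) (e.injective (by simpa using hcd))]
      refine card_subtype_of_equiv e.toEquiv _ _ fun g => ?_
      have h1 : ∀ x : tab.El, InK c d x ↔ e x ∈ U := fun x => by
        simp only [hU', InK, ← map_mul, e.apply_eq_iff_eq, map_eq_one_iff _ e.injective]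
      rw [h1, h1, MulEquiv.toEquiv_eq_coe, EquivLike.coe_coe, map_mul, map_mul, map_mul, map_mul,
        map_inv]
      constructor
      · intro hg
        exact ⟨(Subgroup.mem_normalizer_iff.1 hg _).1 ((hU' _).2 (Or.inr (Or.inl rfl))),
          (Subgroup.mem_normalizer_iff.1 hg _).1 ((hU' _).2 (Or.inr (Or.inr (Or.inl rfl))))⟩
      · rintro ⟨k1, k2⟩
        refine Subgroup.mem_normalizer_fintype (S := (U : Set G)) fun x hx => ?_
        rcases (hU' x).1 hx with rfl | rfl | rfl | rfl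
        · simp
        · exact k1
        · exact k2
        · have := U.mul_mem k1 k2
          simpa [mul_assoc] using this
    · rw [← Subgroup.orderOf_coe] at hg
      rcases orderOf_cases e g with h | h | h | h | h <;> omega

end Cfsg.Agent.S1007
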