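import Cfsg.Statements.S1008
import Cfsg.Agent.Known.G168Facts
import Cfsg.Agent.S1012

set_option autoImplicit false
open Cfsg

namespace Cfsg.Agent.S1008

open Cfsg.Lib.Known GTab G168

def m1 : ℕ := 0x580000844042001080021402148208000010208011
def m2 : ℕ := 0x11004014400844049005000520420000020408011
def m3 : ℕ := 0xc7980098800011000000000000000000004008084b
def bad37 : ℕ := 0xefb95ffbaa9b7925937defb5210997afffc80e8ffa
def bad7 : ℕ := 0x21514222896005000ca8800109020bbbc80a0fca
def L2 : List (List ℕ × ℕ) := [([2], 0x5), ([75, 2], 0x40000008000000000000000005), ([78, 2], 0x1000000040000000000000000005), ([128], 0x200000100000000000000000000000000000005), ([13, 2], 0x40000008000000100010802005), ([14, 2], 0x1000000040000000400022004005), ([68, 2], 0x40009000800040100000000000000005), ([70, 2], 0x4000020044000008400000000000000005), ([75, 128], 0x200000100001040000048000000000000000005)]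
def L3 : List (List ℕ × ℕ) := [([4], 0x8011), ([68, 4], 0x4000000000001000100000000000008011), ([66, 4], 0x580000800042000080000400040000000000008011), ([70, 4], 0x11004010400040001004000400000000000008011), ([21, 4], 0x580000844042001080021402148208000010208011), ([22, 4], 0x11004014400844049005000520420000020408011)]
def L7 : List (List ℕ × ℕ) := [([1], 0x4008084b), ([112, 1], 0xc7980098800011000000000000000000004008084b), ([2, 1], 0xffffffffffffffffffffffffffffffffffffffffff)]

theorem c2 : tab.climb bad37 L2 = true := by decide +kernel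
theorem c3 : tab.climb bad7 L3 = true := by decide +kernel
theorem c7 : tab.climb 0 L7 = true := by decide +kernel

/-- The mask `m` is conjugate into one of the three maximal subgroups. -/
def Cov (m : ℕ) : Prop := ∃ c : tab.El,
  (∀ a : tab.El, bit m a.1 = true → bit m1 (c * a * c⁻¹).1 = true) ∨
  (∀ a : tab.El, bit m a.1 = true → bit m2 (c * a * c⁻¹).1 = true) ∨
  (∀ a : tab.El, bit m a.1 = true → bit m3 (c * a * c⁻¹).1 = true)

theorem cov2 : ∀ p ∈ L2, Cov p.2 := by unfold Cov; decide +kernel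
theorem cov3 : ∀ p ∈ L3, Cov p.2 := by unfold Cov; decide +kernel
theorem cov7 : ∀ p ∈ L7, Cov p.2 ∨ ∀ a : tab.El, bit p.2 a.1 = true := by
  unfold Cov; decide +kernel

theorem cover (H : Subgroup tab.El) (hH : H ≠ ⊤) : ∃ c : tab.El,
    (∀ a ∈ H, bit m1 (c * a * c⁻¹).1 = true) ∨ (∀ a ∈ H, bit m2 (c * a * c⁻¹).1 = true) ∨
    (∀ a ∈ H, bit m3 (c * a * c⁻¹).1 = true) := by
  have key : ∀ (g : tab.El) (m : ℕ),
      (∀ a : tab.El, a ∈ H.comap (MulAut.conj g).toMonoidHom ↔ bit m a.1 = true) → Cov m →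
      ∃ c : tab.El, (∀ a ∈ H, bit m1 (c * a * c⁻¹).1 = true) ∨
        (∀ a ∈ H, bit m2 (c * a * c⁻¹).1 = true) ∨ (∀ a ∈ H, bit m3 (c * a * c⁻¹).1 = true) := by
    rintro g m hm ⟨c, hc⟩
    have h1 : ∀ a ∈ H, bit m (g⁻¹ * a * g).1 = true := fun a ha => (hm _).1 (by
      simpa [mul_assoc] using ha)
    have h2 : ∀ a : tab.El, c * g⁻¹ * a * (c * g⁻¹)⁻¹ = c * (g⁻¹ * a * g) * c⁻¹ := fun a => by
      group
    refine ⟨c * g⁻¹, ?_⟩
    simp only [h2]
    exact hc.imp (fun h a ha => h _ (h1 a ha))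
      (Or.imp (fun h a ha => h _ (h1 a ha)) (fun h a ha => h _ (h1 a ha)))
  have hord : ∀ g a : tab.El, ord (g * a * g⁻¹) = ord a := fun g a => by
    rw [← orderOf_eq, ← orderOf_eq]
    exact (MulAut.conj g).orderOf_eq a
  by_cases h7 : ∃ x ∈ H, ord x = 7
  · obtain ⟨x, hx, hx7⟩ := h7
    obtain ⟨g, hg⟩ := conj_seven x hx7
    obtain ⟨p, hp, hp'⟩ := climb_sound (by decide) c7 (H.comap (MulAut.conj g).toMonoidHom)
      (fun a _ => by simp [bit_eq]) ⟨_, List.mem_cons_self, by
        rcases hg with hg | hg <;> simpa [hg] using hx⟩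
    rcases cov7 p hp with h | h
    · exact key g _ hp' h
    · refine (hH (eq_top_iff.2 fun a _ => ?_)).elim
      simpa [mul_assoc] using (hp' (g⁻¹ * a * g)).2 (h _)
  by_cases h3 : ∃ x ∈ H, ord x = 3
  · obtain ⟨x, hx, hx3⟩ := h3
    obtain ⟨g, hg⟩ := conj_three x hx3
    have hb : ∀ a : tab.El, ord a ≠ 7 → bit bad7 a.1 = false := by decide +kernel
    obtain ⟨p, hp, hp'⟩ := climb_sound (by decide +kernel) c3 (H.comap (MulAut.conj g).toMonoidHom)
      (fun a ha => hb a fun h => h7 ⟨_, ha, by simpa [hord] using h⟩)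
      ⟨_, List.mem_cons_self, by simpa [hg] using hx⟩
    exact key g _ hp' (cov3 p hp)
  by_cases h2 : ∃ x ∈ H, ord x = 2
  · obtain ⟨x, hx, hx2⟩ := h2
    obtain ⟨g, hg⟩ := conj_two x hx2
    have hb : ∀ a : tab.El, ord a ≠ 7 → ord a ≠ 3 → bit bad37 a.1 = false := by decide +kernel
    obtain ⟨p, hp, hp'⟩ := climb_sound (by decide +kernel) c2 (H.comap (MulAut.conj g).toMonoidHom)
      (fun a ha => hb a (fun h => h7 ⟨_, ha, by simpa [hord] using h⟩)
        (fun h => h3 ⟨_, ha, by simpa [hord] using h⟩))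
      ⟨_, List.mem_cons_self, by simpa [hg] using hx⟩
    exact key g _ hp' (cov2 p hp)
  · have hb : ∀ a : tab.El, ord a ≠ 7 → ord a ≠ 3 → ord a ≠ 2 → ord (a * a) ≠ 2 →
        bit m1 (1 * a * 1⁻¹).1 = true := by decide +kernel
    exact ⟨1, Or.inl fun a ha => hb a (fun h => h7 ⟨a, ha, h⟩) (fun h => h3 ⟨a, ha, h⟩)
      (fun h => h2 ⟨a, ha, h⟩) (fun h => h2 ⟨_, H.mul_mem ha ha, h⟩)⟩

noncomputable def M1 : Subgroup tab.El := tab.msub m1 (by decide +kernel) (by decide +kernel)
noncomputable def M2 : Subgroup tab.El := tab.msub m2 (by decide +kernel) (by decide +kernel)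
noncomputable def M3 : Subgroup tab.El := tab.msub m3 (by decide +kernel) (by decide +kernel)

theorem card_M1 : Nat.card M1 = 24 := by
  rw [card_eq_cnt_of_mask (m := m1) fun _ => Iff.rfl]; decide +kernel
theorem card_M2 : Nat.card M2 = 24 := by
  rw [card_eq_cnt_of_mask (m := m2) fun _ => Iff.rfl]; decide +kernel
theorem card_M3 : Nat.card M3 = 21 := by
  rw [card_eq_cnt_of_mask (m := m3) fun _ => Iff.rfl]; decide +kernel
theorem not_conj : ∀ g : tab.El, ∃ a : tab.El, bit m1 a.1 = true ∧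
    bit m2 (g * a * g⁻¹).1 = false := by decide +kernel

variable {G : Type*} [Group G]

theorem card_cj (H : Subgroup G) (g : G) :
    Nat.card (H.map (MulAut.conj g).toMonoidHom) = Nat.card H :=
  Subgroup.card_map_of_injective (MulAut.conj g).injective

theorem cj_cj (H : Subgroup G) (g k : G) :
    (H.map (MulAut.conj g).toMonoidHom).map (MulAut.conj k).toMonoidHom =
      H.map (MulAut.conj (k * g)).toMonoidHom := by
  rw [Subgroup.map_map]
  congr 1
  ext x
  simp [mul_assoc]

theorem cj_one (H : Subgroup G) : H.map (MulAut.conj (1 : G)).toMonoidHom = H := by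
  ext x; simp

theorem eq_cj_inv {H K : Subgroup G} {g : G} (h : H.map (MulAut.conj g).toMonoidHom = K) :
    H = K.map (MulAut.conj g⁻¹).toMonoidHom := by
  rw [← h, cj_cj, inv_mul_cancel, cj_one]

/-- In a simple group of order 168 every maximal subgroup is either isomorphic to the symmetric group of degree 4 or non-abelian of order 21; the maximal subgroups of order 21 form one conjugacy class and those isomorphic to the symmetric group of degree 4 form exactly two conjugacy classes. -/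
theorem result {G : Type*} [Group G] [Finite G] [IsSimpleGroup G] (h : Nat.card G = 168) : (∀ M : Subgroup G, IsCoatom M → Nonempty (↥M ≃* Equiv.Perm (Fin 4)) ∨ (Nat.card ↥M = 21 ∧ ¬ IsMulCommutative ↥M)) ∧ (∀ M M' : Subgroup G, IsCoatom M → IsCoatom M' → Nat.card ↥M = 21 → Nat.card ↥M' = 21 → ∃ g : G, M' = M.map (MulAut.conj g).toMonoidHom) ∧ ∃ M₁ M₂ : Subgroup G, IsCoatom M₁ ∧ IsCoatom M₂ ∧ Nonempty (↥M₁ ≃* Equiv.Perm (Fin 4)) ∧ Nonempty (↥M₂ ≃* Equiv.Perm (Fin 4)) ∧ (∀ g : G, M₂ ≠ M₁.map (MulAut.conj g).toMonoidHom) ∧ ∀ M : Subgroup G, IsCoatom M → Nonempty (↥M ≃* Equiv.Perm (Fin 4)) → ∃ g : G, M = M₁.map (MulAut.conj g).toMonoidHom ∨ M = M₂.map (MulAut.conj g).toMonoidHom := by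
  obtain ⟨e⟩ := nonempty_equiv h
  set N1 := M1.map e.toMonoidHom with hN1
  set N2 := M2.map e.toMonoidHom with hN2
  set N3 := M3.map e.toMonoidHom with hN3
  have k1 : Nat.card N1 = 24 := (Subgroup.card_map_of_injective e.injective).trans card_M1
  have k2 : Nat.card N2 = 24 := (Subgroup.card_map_of_injective e.injective).trans card_M2
  have k3 : Nat.card N3 = 21 := (Subgroup.card_map_of_injective e.injective).trans card_M3
  have hcov : ∀ H : Subgroup G, H ≠ ⊤ → ∃ g : G, H.map (MulAut.conj g).toMonoidHom ≤ N1 ∨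
      H.map (MulAut.conj g).toMonoidHom ≤ N2 ∨ H.map (MulAut.conj g).toMonoidHom ≤ N3 := by
    intro H hH
    obtain ⟨c, hc⟩ := cover (H.comap e.toMonoidHom) (fun h => hH (eq_top_iff.2 fun x _ => by
      obtain ⟨a, rfl⟩ := e.surjective x
      exact (h.ge (Subgroup.mem_top a) :)))
    refine ⟨e c, hc.imp (fun h => ?_) (Or.imp (fun h => ?_) (fun h => ?_))⟩ <;>
    · rintro _ ⟨x, hx, rfl⟩
      obtain ⟨a, rfl⟩ := e.surjective x
      exact ⟨c * a * c⁻¹, h a hx, by simp⟩
  have hne : ∀ K : Subgroup G, Nat.card K ≤ 24 → K ≠ ⊤ := by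
    rintro _ hK rfl
    rw [Subgroup.card_top, h] at hK
    omega
  have hmax : ∀ K : Subgroup G, Nat.card K = 24 → IsCoatom K := by
    intro K hK
    refine ⟨hne K hK.le, fun H hH => ?_⟩
    by_contra hcon
    obtain ⟨g, hg⟩ := hcov H hcon
    have h1 : Nat.card H ≤ 24 := by
      rw [← card_cj H g]
      rcases hg with hg | hg | hg <;> have := Subgroup.card_le_of_le hg <;> omega
    exact hH.ne (Subgroup.eq_of_le_of_card_ge hH.le (by omega))
  have hS4 : ∀ K : Subgroup G, Nat.card K = 24 → Nonempty (K ≃* Equiv.Perm (Fin 4)) := by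
    intro K hK
    refine S1012.result hK fun g hg => ?_
    rw [← Subgroup.orderOf_coe] at hg
    rcases orderOf_cases e g with h | h | h | h | h <;> omega
  have hcl : ∀ M : Subgroup G, IsCoatom M → ∃ g : G, M.map (MulAut.conj g).toMonoidHom = N1 ∨
      M.map (MulAut.conj g).toMonoidHom = N2 ∨ M.map (MulAut.conj g).toMonoidHom = N3 := by
    intro M hM
    obtain ⟨g, hg⟩ := hcov M hM.1
    have h1 : IsCoatom (M.map (MulAut.conj g).toMonoidHom) :=
      ((MulAut.conj g).mapSubgroup.isCoatom_iff M).2 hM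
    exact ⟨g, hg.imp (fun h => ((h1.le_iff.1 h).resolve_left (hne _ k1.le)).symm)
      (Or.imp (fun h => ((h1.le_iff.1 h).resolve_left (hne _ k2.le)).symm)
        (fun h => ((h1.le_iff.1 h).resolve_left (hne _ (by omega))).symm))⟩
  refine ⟨fun M hM => ?_, fun M M' hM hM' c c' => ?_, N1, N2, hmax _ k1, hmax _ k2, hS4 _ k1,
    hS4 _ k2, fun g hg => ?_, fun M hM hM' => ?_⟩
  · obtain ⟨g, hg⟩ := hcl M hM
    have h1 := card_cj M g
    rcases hg with hg | hg | hg <;> rw [hg] at h1
    · exact Or.inl (hS4 M (by omega))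
    · exact Or.inl (hS4 M (by omega))
    · refine Or.inr ⟨by omega, fun hc => ?_⟩
      have : Fact (Nat.Prime 3) := ⟨Nat.prime_three⟩
      obtain ⟨x, hx⟩ := exists_prime_orderOf_dvd_card' (G := M) 3 (by rw [← h1, k3]; norm_num)
      obtain ⟨y, hy⟩ := exists_prime_orderOf_dvd_card' (G := M) 7 (by rw [← h1, k3]; norm_num)
      have h2 := (show Commute x y from hc.1.1 x y).orderOf_mul_eq_mul_orderOf_of_coprime
        (by rw [hx, hy]; norm_num)
      rw [hx, hy, ← Subgroup.orderOf_coe] at h2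
      rcases orderOf_cases e (x * y : M) with h | h | h | h | h <;> omega
  · obtain ⟨g, hg⟩ := hcl M hM
    obtain ⟨g', hg'⟩ := hcl M' hM'
    have h1 := card_cj M g
    have h2 := card_cj M' g'
    have h3 : M.map (MulAut.conj g).toMonoidHom = N3 := by
      rcases hg with hg | hg | hg
      · rw [hg] at h1; omega
      · rw [hg] at h1; omega
      · exact hg
    have h4 : M'.map (MulAut.conj g').toMonoidHom = N3 := by
      rcases hg' with hg | hg | hg
      · rw [hg] at h2; omega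
      · rw [hg] at h2; omega
      · exact hg
    exact ⟨g'⁻¹ * g, by rw [eq_cj_inv h4, ← h3, cj_cj]⟩
  · obtain ⟨c, rfl⟩ := e.surjective g
    obtain ⟨a, ha, ha'⟩ := not_conj c
    have h1 : e (c * a * c⁻¹) ∈ N2 := hg ▸ ⟨e a, ⟨a, ha, rfl⟩, by simp⟩
    obtain ⟨b, hb, hb'⟩ := h1
    obtain rfl : b = c * a * c⁻¹ := e.injective hb'
    exact Bool.false_ne_true (ha'.symm.trans hb)
  · obtain ⟨g, hg⟩ := hcl M hM
    obtain ⟨φ⟩ := hM'
    have h1 := card_cj M g
    have h2 : Nat.card M = 24 := by rw [Nat.card_congr φ.toEquiv]; simp; rfl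
    rcases hg with hg | hg | hg
    · exact ⟨g⁻¹, Or.inl (eq_cj_inv hg)⟩
    · exact ⟨g⁻¹, Or.inr (eq_cj_inv hg)⟩
    · rw [hg] at h1; omega

end Cfsg.Agent.S1008
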