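import Cfsg.Statements.S1009

set_option autoImplicit false

open Cfsg

namespace Cfsg.Agent.S1009

open Pointwise

/-- If `P ⊓ Q` has least order among intersections of two Sylow subgroups and `K ≤ P ⊓ Q` is
normalised by `P` and `Q`, then `K` lies in every Sylow subgroup. -/
theorem le_of_min {G : Type*} [Group G] [Finite G] (p : ℕ) [Fact p.Prime] (P Q : Sylow p G)
    (hmin : ∀ P' Q' : Sylow p G, Nat.card ↥((P : Subgroup G) ⊓ (Q : Subgroup G)) ≤
      Nat.card ↥((P' : Subgroup G) ⊓ (Q' : Subgroup G)))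
    (K : Subgroup G) (hK : K ≤ (P : Subgroup G) ⊓ (Q : Subgroup G))
    (hP : (P : Subgroup G) ≤ Subgroup.normalizer (K : Set G))
    (hQ : (Q : Subgroup G) ≤ Subgroup.normalizer (K : Set G)) (R : Sylow p G) :
    K ≤ (R : Subgroup G) := by
  set N := Subgroup.normalizer (K : Set G) with hN
  have hR : IsPGroup p ((R : Subgroup G).subgroupOf N) := R.isPGroup'.comap_subtype
  obtain ⟨S, hS⟩ := hR.exists_le_sylow
  obtain ⟨x, hx⟩ := MulAction.exists_smul_eq N S (P.subtype hP)
  -- `x • R ⊓ Q ≤ P ⊓ Q`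
  have h1 : (((x : G) • R : Sylow p G) : Subgroup G) ⊓ (Q : Subgroup G) ≤
      (P : Subgroup G) ⊓ (Q : Subgroup G) := by
    intro y hy
    refine ⟨?_, hy.2⟩
    have hyN : y ∈ N := hQ hy.2
    have hy1 : y ∈ (((x : G) • R : Sylow p G) : Subgroup G) := hy.1
    rw [Sylow.coe_subgroup_smul, Subgroup.mem_pointwise_smul_iff_inv_smul_mem] at hy1
    have hy2 : x⁻¹ * ⟨y, hyN⟩ * x ∈ (S : Subgroup N) := by
      apply hS
      rw [Subgroup.mem_subgroupOf]
      simpa using hy1
    have hy3 : (⟨y, hyN⟩ : N) ∈ ((x • S : Sylow p N) : Subgroup N) := by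
      rw [Sylow.coe_subgroup_smul, Subgroup.mem_pointwise_smul_iff_inv_smul_mem]
      simpa using hy2
    rw [hx] at hy3
    exact hy3
  have h2 : (((x : G) • R : Sylow p G) : Subgroup G) ⊓ (Q : Subgroup G) =
      (P : Subgroup G) ⊓ (Q : Subgroup G) :=
    Subgroup.eq_of_le_of_card_ge h1 (hmin _ _)
  intro k hk
  have hk' : (x : G) * k * (x : G)⁻¹ ∈ K := (Subgroup.mem_normalizer_iff.mp x.2 k).mp hk
  have h3 : (x : G) * k * (x : G)⁻¹ ∈ (((x : G) • R : Sylow p G) : Subgroup G) := by
    have := hK hk'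
    rw [← h2] at this
    exact this.1
  rw [Sylow.coe_subgroup_smul, Subgroup.mem_pointwise_smul_iff_inv_smul_mem] at h3
  simpa [mul_assoc] using h3

/-- Brodkey's Theorem: if a finite group has abelian Sylow p-subgroups, then there are two Sylow p-subgroups whose intersection equals the intersection of all Sylow p-subgroups. -/
theorem result {G : Type*} [Group G] [Finite G] (p : ℕ) [Fact p.Prime] (hab : ∀ P : Sylow p G, IsMulCommutative ↥(P : Subgroup G)) : ∃ P Q : Sylow p G, (P : Subgroup G) ⊓ (Q : Subgroup G) = ⨅ R : Sylow p G, (R : Subgroup G) := by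
  obtain ⟨⟨P, Q⟩, hmin⟩ := exists_minimalFor_of_wellFoundedLT (fun _ : Sylow p G × Sylow p G => True)
    (fun x => Nat.card ↥((x.1 : Subgroup G) ⊓ (x.2 : Subgroup G))) ⟨default, trivial⟩
  have key : ∀ (S : Sylow p G) (K : Subgroup G), K ≤ S →
      (S : Subgroup G) ≤ Subgroup.normalizer (K : Set G) := by
    intro S K hK
    have := hab S
    refine le_trans ?_ (Subgroup.centralizer_le_normalizer _)
    exact le_trans (Subgroup.le_centralizer _) (Subgroup.centralizer_le hK)
  refine ⟨P, Q, le_antisymm (le_iInf fun R => ?_) (le_inf (iInf_le _ P) (iInf_le _ Q))⟩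
  refine le_of_min p P Q (fun P' Q' => ?_) _ le_rfl (key P _ inf_le_left) (key Q _ inf_le_right) R
  by_contra h
  push Not at h
  exact absurd (hmin.2 (j := (P', Q')) trivial h.le) (not_le.mpr h)

end Cfsg.Agent.S1009
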