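import Cfsg.Statements.S1014
import Mathlib

set_option autoImplicit false
open Cfsg

namespace Cfsg.Agent.S1014

/-- No finite simple group has order 1104 = 2^4 * 3 * 23. -/
theorem result {G : Type*} [Group G] [Finite G] [IsSimpleGroup G] : Nat.card G ≠ 1104 := by
  intro hG
  classical
  haveI : Fact (Nat.Prime 23) := ⟨by norm_num⟩
  haveI : Fact (Nat.Prime 2) := ⟨by norm_num⟩
  obtain ⟨P⟩ : Nonempty (Sylow 23 G) := inferInstance
  have hcard : ∀ Q : Sylow 23 G, Nat.card Q = 23 := by
    intro Q
    rw [Q.card_eq_multiplicity, hG]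
    have : Nat.factorization 1104 23 = 1 := by
      rw [show (1104 : ℕ) = 23 ^ 1 * 48 by norm_num, Nat.factorization_mul (by norm_num) (by norm_num),
        Nat.Prime.factorization_pow (by norm_num)]
      simp [Nat.factorization_eq_zero_of_not_dvd (show ¬ 23 ∣ 48 by norm_num)]
    rw [this, pow_one]
  have hidx : (P : Subgroup G).index = 48 := by
    have := (P : Subgroup G).card_mul_index
    rw [hcard P, hG] at this
    omega
  have hnormal : ∀ K : Subgroup G, K.Normal → Nat.card K = 1 ∨ Nat.card K = 1104 := by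
    intro K hK
    rcases hK.eq_bot_or_eq_top with h | h
    · left; rw [h]; simp
    · right; rw [h]; simpa using hG
  have hn : Nat.card (Sylow 23 G) = 24 := by
    have h1 := P.card_dvd_index
    rw [hidx] at h1
    have h2 := card_sylow_modEq_one 23 G
    have h3 : Nat.card (Sylow 23 G) ≠ 1 := by
      intro h
      haveI : Subsingleton (Sylow 23 G) := (Nat.card_eq_one_iff_unique.mp h).1
      have := hnormal _ P.normal_of_subsingleton
      rw [hcard P] at this
      omega
    have h4 : Nat.card (Sylow 23 G) ≤ 48 := Nat.le_of_dvd (by norm_num) h1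
    generalize Nat.card (Sylow 23 G) = n at *
    unfold Nat.ModEq at h2
    interval_cases n <;> simp_all
  set N := Subgroup.normalizer ((P : Subgroup G) : Set G) with hN
  have hNidx : N.index = 24 := by rw [← hn, P.card_eq_index_normalizer]; rfl
  have hNcard : Nat.card N = 46 := by
    have := N.card_mul_index
    rw [hNidx, hG] at this
    omega
  have hnot : ¬ N ≤ Subgroup.centralizer ((P : Subgroup G) : Set G) := by
    intro h
    have hc := MonoidHom.ker_transferSylow_isComplement' P h
    have h1 := hc.card_mul_card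
    rw [hcard P, hG] at h1
    have := hnormal (MonoidHom.transferSylow P h).ker inferInstance
    omega
  obtain ⟨t, ht⟩ := exists_prime_orderOf_dvd_card' (G := N) 2 (by rw [hNcard]; norm_num)
  have hcomm : IsMulCommutative (P : Subgroup G) := by
    haveI : IsCyclic (P : Subgroup G) := isCyclic_of_prime_card (hcard P)
    infer_instance
  have htC : (t : G) ∉ Subgroup.centralizer ((P : Subgroup G) : Set G) := by
    intro htc
    apply hnot
    set C := Subgroup.centralizer ((P : Subgroup G) : Set G) ⊓ N with hC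
    have h23 : 23 ∣ Nat.card C := by
      rw [← hcard P]
      apply Subgroup.card_dvd_of_le
      exact le_inf (Subgroup.le_centralizer _) Subgroup.le_normalizer
    have h2 : 2 ∣ Nat.card C := by
      have : orderOf (⟨t, htc, t.2⟩ : C) = 2 := by
        rw [← ht, ← Subgroup.orderOf_coe, ← Subgroup.orderOf_coe t]
      rw [← this]
      exact orderOf_dvd_natCard _
    have h46 : 46 ∣ Nat.card C :=
      Nat.Coprime.mul_dvd_of_dvd_of_dvd (show Nat.Coprime 23 2 by norm_num) h23 h2
    have : C = N := Subgroup.eq_of_le_of_card_ge inf_le_right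
      (by rw [hNcard]; exact Nat.le_of_dvd Nat.card_pos h46)
    rw [← this]
    exact inf_le_left
  -- the stabilisers in P of other Sylow subgroups are trivial
  have hstab : ∀ Q : Sylow 23 G, Q ≠ P → ∀ x ∈ (P : Subgroup G), x • Q = Q → x = 1 := by
    intro Q hQ x hx hxQ
    by_contra hx1
    have h1 : x ∈ (P : Subgroup G) ⊓ Subgroup.normalizer (Q : Set G) :=
      ⟨hx, Sylow.smul_eq_iff_mem_normalizer.mp hxQ⟩
    rw [P.isPGroup'.inf_normalizer_sylow Q] at h1
    have h2 : ∀ R : Sylow 23 G, x ∈ (R : Subgroup G) → Subgroup.zpowers x = R := by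
      intro R hR
      apply Subgroup.eq_of_le_of_card_ge ((Subgroup.zpowers_le).mpr hR)
      have h3 := Subgroup.card_dvd_of_le ((Subgroup.zpowers_le).mpr hR)
      rw [hcard R] at h3 ⊢
      rcases (Nat.dvd_prime (by norm_num)).mp h3 with h | h
      · exact absurd (Subgroup.zpowers_eq_bot.mp (Subgroup.card_eq_one.mp h)) hx1
      · exact h.ge
    exact hQ (Sylow.ext ((h2 Q h1.2).symm.trans (h2 P hx)))
  have htrans : ∀ Q R : Sylow 23 G, Q ≠ P → R ≠ P → ∃ x ∈ (P : Subgroup G), x • Q = R := by
    intro Q R hQ hR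
    let f : ↥(P : Subgroup G) → {S : Sylow 23 G // S ≠ P} := fun x => ⟨(x : G) • Q, by
      intro h
      apply hQ
      have : (x : G)⁻¹ • P = P := Sylow.smul_eq_iff_mem_normalizer.mpr
        (Subgroup.le_normalizer ((P : Subgroup G).inv_mem x.2))
      exact (eq_inv_smul_iff.mpr h).trans this⟩
    have hf : Function.Injective f := by
      intro x y hxy
      have h1 : (x : G) • Q = (y : G) • Q := congrArg Subtype.val hxy
      have h2 : ((y : G)⁻¹ * x) • Q = Q := by rw [mul_smul, h1, inv_smul_smul]
      have := hstab Q hQ _ ((P : Subgroup G).mul_mem ((P : Subgroup G).inv_mem y.2) x.2) h2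
      ext
      exact (inv_mul_eq_one.mp this).symm
    have hc : Nat.card {S : Sylow 23 G // S ≠ P} = 23 := by
      haveI : Fintype (Sylow 23 G) := Fintype.ofFinite _
      rw [Nat.card_eq_fintype_card] at hn ⊢
      rw [Fintype.card_subtype_compl (fun S : Sylow 23 G => S = P), hn]
      simp
    have hb : Function.Bijective f := hf.bijective_of_nat_card_le (by rw [hc, hcard P])
    obtain ⟨x, hx⟩ := hb.2 ⟨R, hR⟩
    exact ⟨x, x.2, congrArg Subtype.val hx⟩
  have htP : (t : G) • P = P := Sylow.smul_eq_iff_mem_normalizer.mpr t.2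
  have hfix : ∀ Q R : Sylow 23 G, Q ≠ P → R ≠ P → (t : G) • Q = Q → (t : G) • R = R → Q = R := by
    intro Q R hQ hR htQ htR
    obtain ⟨x, hx, rfl⟩ := htrans Q R hQ hR
    have hconj : (t : G) * x * (t : G)⁻¹ ∈ (P : Subgroup G) := (t.2 x).mp hx
    have h1 : (x⁻¹ * ((t : G) * x * (t : G)⁻¹)) • Q = Q := by
      have : (t : G)⁻¹ • Q = Q := by rw [inv_smul_eq_iff, htQ]
      rw [mul_smul, mul_smul, mul_smul, this, htR, inv_smul_smul]
    have h2 := hstab Q hQ _ ((P : Subgroup G).mul_mem ((P : Subgroup G).inv_mem hx) hconj) h1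
    by_cases hx1 : x = 1
    · simp [hx1]
    exfalso
    apply htC
    have h3 : Subgroup.zpowers x = P := by
      apply Subgroup.eq_of_le_of_card_ge ((Subgroup.zpowers_le).mpr hx)
      have h3 := Subgroup.card_dvd_of_le ((Subgroup.zpowers_le).mpr hx)
      rw [hcard P] at h3 ⊢
      rcases (Nat.dvd_prime (by norm_num)).mp h3 with h | h
      · exact absurd (Subgroup.zpowers_eq_bot.mp (Subgroup.card_eq_one.mp h)) hx1
      · exact h.ge
    have h4 : Commute x (t : G) := by
      have : (t : G) * x * (t : G)⁻¹ = x := by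
        rw [inv_mul_eq_one] at h2; exact h2.symm
      rw [mul_inv_eq_iff_eq_mul] at this
      exact this.symm
    intro y hy
    rw [← h3] at hy
    obtain ⟨k, rfl⟩ := hy
    exact (h4.zpow_left k).eq
  haveI : Fintype (Sylow 23 G) := Fintype.ofFinite _
  let φ : G →* ℤˣ := Equiv.Perm.sign.comp (MulAction.toPermHom G (Sylow 23 G))
  have hφ : φ.ker = ⊤ := by
    rcases (inferInstance : φ.ker.Normal).eq_bot_or_eq_top with h | h
    · exfalso
      have h1 := Nat.card_le_card_of_injective φ ((MonoidHom.ker_eq_bot_iff φ).mp h)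
      rw [hG] at h1
      simp at h1
    · exact h
  have h1 : φ t = 1 := by rw [← MonoidHom.mem_ker, hφ]; trivial
  set σ := MulAction.toPermHom G (Sylow 23 G) (t : G) with hσ
  have hσ2 : σ ^ 2 = 1 := by
    have : t ^ 2 = 1 := by rw [← ht, pow_orderOf_eq_one]
    rw [hσ, ← map_pow, ← Subgroup.coe_pow, this, OneMemClass.coe_one, map_one]
  have h2 : Equiv.Perm.sign σ = 1 := h1
  rw [Equiv.Perm.sign_of_pow_two_eq_one hσ2] at h2
  have hmod : Nat.card (Sylow 23 G) ≡ Nat.card (Function.fixedPoints σ) [MOD 2] := by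
    let fσ : Function.End (Sylow 23 G) := ⇑σ
    have := Equiv.Perm.card_fixedPoints_modEq (f := fσ) (p := 2) (n := 1)
      (by
        rw [pow_one, pow_two]
        funext x
        have := congrArg (fun τ : Equiv.Perm (Sylow 23 G) => τ x) hσ2
        rw [pow_two] at this
        exact this)
    simpa [Nat.card_eq_fintype_card, fσ] using this
  have hle : Nat.card (Function.fixedPoints σ) ≤ 2 := by
    let g : Function.fixedPoints σ → Prop := fun S => S.1 = P
    have hg : Function.Injective g := by
      intro S T hST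
      have hST' : S.1 = P ↔ T.1 = P := by simpa [g] using hST
      by_cases hS : S.1 = P
      · exact Subtype.ext (hS.trans (hST'.mp hS).symm)
      · exact Subtype.ext (hfix _ _ hS (fun h => hS (hST'.mpr h)) S.2 T.2)
    simpa using Nat.card_le_card_of_injective g hg
  have hpos : 0 < Nat.card (Function.fixedPoints σ) := by
    haveI : Nonempty (Function.fixedPoints σ) := ⟨⟨P, htP⟩⟩
    exact Nat.card_pos
  have h22 : Nat.card (Function.fixedPoints σ) = 2 := by
    rw [hn] at hmod
    unfold Nat.ModEq at hmod
    omega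
  rw [← Nat.card_eq_fintype_card, ← Nat.card_eq_fintype_card, hn, h22] at h2
  norm_num at h2

end Cfsg.Agent.S1014
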