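import Cfsg.Statements.S1015
import Cfsg.Agent.PrimeOne.Elim

set_option autoImplicit false
open Cfsg

namespace Cfsg.Agent.S1015

/-- No finite simple group has order 1200 = 2^4 * 3 * 5^2. -/
theorem result {G : Type*} [Group G] [Finite G] [IsSimpleGroup G] : Nat.card G ≠ 1200 := by
  exact Cfsg.Lib.PrimeOne.card_ne_of_kill (B := 80) (by norm_num) (by decide +kernel)

end Cfsg.Agent.S1015
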