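import Cfsg.Statements.S1018
import Cfsg.Agent.Known.SylowCount

set_option autoImplicit false
open Cfsg

namespace Cfsg.Agent.S1018

/-- Let P be a Sylow p-subgroup of order p of a finite group G, and consider the action of G on the left cosets of the normalizer N of P. Then every element of order p fixes exactly one coset, and an element of N that does not centralize P fixes at most as many cosets as there are orbits of P. -/
theorem result {G : Type*} [Group G] [Finite G] (p : ℕ) [Fact p.Prime] (P : Sylow p G) (hP : Nat.card ↥(P : Subgroup G) = p) : (∀ y : G, orderOf y = p → Nat.card (MulAction.fixedBy (G ⧸ Subgroup.normalizer ((P : Subgroup G) : Set G)) y) = 1) ∧ ∀ x : G, x ∈ Subgroup.normalizer ((P : Subgroup G) : Set G) → x ∉ Subgroup.centralizer ((P : Subgroup G) : Set G) → Nat.card (MulAction.fixedBy (G ⧸ Subgroup.normalizer ((P : Subgroup G) : Set G)) x) ≤ Nat.card (MulAction.orbitRel.Quotient ↥(P : Subgroup G) (G ⧸ Subgroup.normalizer ((P : Subgroup G) : Set G))) := by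
  have hp : p.Prime := Fact.out
  constructor
  · intro y hy
    have hy1 : y ≠ 1 := by rintro rfl; exact hp.one_lt.ne (by simpa using hy)
    obtain ⟨Q, hQ⟩ := Lib.Known.SC.exists_sylow_mem_of_orderOf (p := p) (k := 1) (g := y)
      (by rw [hy, pow_one])
    obtain ⟨g, rfl⟩ := MulAction.exists_smul_eq G P Q
    have hg : g⁻¹ * y * g ∈ (P : Subgroup G) := by
      rw [Sylow.coe_subgroup_smul, Subgroup.mem_pointwise_smul_iff_inv_smul_mem] at hQ
      simpa using hQ
    have key : ∀ k : G, y • (k : G ⧸ Subgroup.normalizer ((P : Subgroup G) : Set G)) = k ↔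
        k⁻¹ * y * k ∈ Subgroup.normalizer ((P : Subgroup G) : Set G) := fun k => by
      rw [eq_comm, MulAction.Quotient.smul_coe, QuotientGroup.eq, smul_eq_mul, mul_assoc]
    rw [Nat.card_eq_one_iff_exists]
    refine ⟨⟨g, (key g).2 (Subgroup.le_normalizer hg)⟩, ?_⟩
    rintro ⟨k, hk⟩
    induction k using QuotientGroup.induction_on with | H k =>
    have h1 := (key k).1 hk
    have ho : orderOf (k⁻¹ * y * k) = p := by
      rw [← hy]
      simpa using (MulAut.conj k⁻¹).orderOf_eq y
    have h2 : k⁻¹ * y * k ∈ (P : Subgroup G) := by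
      have h3 : IsPGroup p (Subgroup.zpowers (k⁻¹ * y * k)) :=
        IsPGroup.of_card (n := 1) (by rw [Nat.card_zpowers, ho, pow_one])
      exact ((h3.inf_normalizer_sylow P).le ⟨Subgroup.mem_zpowers _, h1⟩).2
    have h4 := Lib.Known.SC.zpowers_eq_of_card_prime hp hP hg (by
      intro h; apply hy1; simpa [mul_assoc, inv_mul_eq_one] using h)
    refine Subtype.ext (QuotientGroup.eq.2 ?_)
    refine Subgroup.mem_normalizer_fintype (S := ((P : Subgroup G) : Set G)) fun x hx => ?_
    obtain ⟨m, rfl⟩ := h4.ge hx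
    have : k⁻¹ * g * (g⁻¹ * y * g) ^ m * (k⁻¹ * g)⁻¹ = (k⁻¹ * y * k) ^ m := by
      rw [← conj_zpow]; congr 1; group
    exact this ▸ (P : Subgroup G).zpow_mem h2 m
  · intro x hx hx'
    refine Nat.card_le_card_of_injective (fun ω => Quotient.mk _ ω.1) ?_
    rintro ⟨ω, hω⟩ ⟨ω', hω'⟩ h
    obtain ⟨⟨u, hu⟩, h1⟩ := Quotient.exact h
    change u • ω' = ω at h1
    rw [MulAction.mem_fixedBy] at hω hω'
    rw [Subtype.mk.injEq]
    by_cases hu1 : u = 1
    · rw [← h1, hu1, one_smul]
    have hz := Lib.Known.SC.zpowers_eq_of_card_prime hp hP hu hu1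
    have h2 : u⁻¹ * (x * u * x⁻¹) ∈ (P : Subgroup G) :=
      mul_mem (inv_mem hu) ((Subgroup.mem_normalizer_iff.1 hx u).1 hu)
    have h3 : u⁻¹ * (x * u * x⁻¹) ≠ 1 := by
      intro h
      apply hx'
      rw [← hz]
      rintro _ ⟨m, rfl⟩
      rw [inv_mul_eq_one, eq_mul_inv_iff_mul_eq] at h
      exact (Commute.zpow_left h m).eq
    have h4 : u⁻¹ * (x * u * x⁻¹) ∈ MulAction.stabilizer G ω' := by
      rw [MulAction.mem_stabilizer_iff, mul_smul, mul_smul, mul_smul, inv_smul_eq_iff.2 hω'.symm,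
        h1, hω, inv_smul_eq_iff, h1]
    have h5 := Lib.Known.SC.zpowers_eq_of_card_prime hp hP h2 h3
    have h6 : u ∈ MulAction.stabilizer G ω' := (Subgroup.zpowers_le.2 h4) (h5.ge hu)
    rw [← h1, h6]

end Cfsg.Agent.S1018
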