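import Cfsg.Statements.S1035
import Cfsg.Agent.Chev.CoreAll
import Cfsg.Agent.Chev.StructMat
import Cfsg.Agent.Chev.CartanKer

set_option autoImplicit false
open Cfsg Cfsg.Lib.Chev Cfsg.Lib.Chev.Core

namespace Cfsg.Agent.S1035

/-- `d · |H| = (q - 1)^rank` over a field with `q` elements, with `d = 1` (G₂, F₄, E₈), `gcd(3, q-1)` (E₆), `gcd(2, q-1)` (E₇, B₂), `gcd(2, q-1)²` (D₄). -/
theorem result {F : Type*} [Field F] [Fintype F] {q : ℕ} (hq : Fintype.card F = q)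
    (p : Cfsg.Lie.ChevalleyDatum × ℕ)
    (hp : p ∈ [(Cfsg.Lie.chevG2, 1), (Cfsg.Lie.chevF4, 1), (Cfsg.Lie.chevE8, 1), (Cfsg.Lie.chevE6, Nat.gcd 3 (q - 1)),
      (Cfsg.Lie.chevE7, Nat.gcd 2 (q - 1)), (Cfsg.Lie.chevB2, Nat.gcd 2 (q - 1)), (Cfsg.Lie.chevD4, Nat.gcd 2 (q - 1) ^ 2)]) :
    p.2 * Nat.card (p.1.diagonalSubgroup F) = (q - 1) ^ p.1.rank := by
  have key : ∀ D ∈ [Lie.chevG2, Lie.chevB2, Lie.chevD4, Lie.chevF4, Lie.chevE6, Lie.chevE7, Lie.chevE8],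
      Nat.card (cartanHom D Fˣ).ker * Nat.card (D.diagonalSubgroup F) = (q - 1) ^ D.rank := by
    intro D hD
    obtain ⟨C, R⟩ := cert_root_of_mem hD
    rw [C.diagonalSubgroup_eq_Y R, C.Y_H R, C.card_ker_mul_card_hSub R, Nat.card_units,
      Nat.card_eq_fintype_card, hq]
  have hu : Nat.card Fˣ = q - 1 := by rw [Nat.card_units, Nat.card_eq_fintype_card, hq]
  simp only [List.mem_cons, List.not_mem_nil, or_false] at hp
  rcases hp with rfl | rfl | rfl | rfl | rfl | rfl | rfl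
  · rw [← key _ (by simp), card_ker_cartanHom_G2]
  · rw [← key _ (by simp), card_ker_cartanHom_F4]
  · rw [← key _ (by simp), card_ker_cartanHom_E8]
  · rw [← key _ (by simp), card_ker_cartanHom_E6, hu]
  · rw [← key _ (by simp), card_ker_cartanHom_E7, hu]
  · rw [← key _ (by simp), card_ker_cartanHom_B2, hu]
  · rw [← key _ (by simp), card_ker_cartanHom_D4, hu]

end Cfsg.Agent.S1035
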