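import Cfsg.Statements.S1039
import Cfsg.Agent.Chev.Order
import Cfsg.Agent.Chev.CoreAll

set_option autoImplicit false
open Cfsg

namespace Cfsg.Agent.S1039

open Cfsg.Lib.Chev Cfsg.Lib.Chev.Core

theorem aux {F : Type*} [Field F] {D : Cfsg.Lie.ChevalleyDatum} (C : Cert D) (R : RootData D)
    (M : CoxeterMatrix (Fin D.rank))
    (h : ∃ cs : CoxeterSystem M R.weyl.W, (∀ i, cs.simple i = R.weyl.s i) ∧
      ∀ w, cs.length w = R.weyl.len w) :
    ∃ φ : ↥(D.monomialSubgroup F) →* M.Group, Function.Surjective φ ∧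
      φ.ker = (D.diagonalSubgroup F).subgroupOf (D.monomialSubgroup F) ∧
      ∀ (i : Fin D.rank) (g : ↥(D.monomialSubgroup F)),
        ((g : GL D.Idx F) : Matrix D.Idx D.Idx F) = D.nMat F (D.simple i) 1 →
          φ g = M.simple i := by
  obtain ⟨cs, hcs, -⟩ := h
  rw [C.monomialSubgroup_eq_Y R, C.diagonalSubgroup_eq_Y R]
  have hY := C.faithful F R
  refine ⟨cs.mulEquiv.toMonoidHom.comp hY.weylHom,
    cs.mulEquiv.surjective.comp hY.weylHom_surjective, ?_, fun i g hg => ?_⟩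
  · rw [← hY.weylHom_ker]
    ext g
    simp
  · have e : g = ⟨(C.Y F R).n i, (C.Y F R).n_mem_N i⟩ := Subtype.ext ((C.eq_nel_iff R).1 hg)
    rw [e, MonoidHom.comp_apply, hY.weylHom_n, ← hcs]
    exact cs.mulEquiv.apply_symm_apply _

/-- `N/H ≅ W`: there is a surjective homomorphism from `N` onto the Coxeter group of the type (Mathlib's Coxeter matrix G₂, B₂, F₄, E₆, E₇, E₈, nodes numbered as the fundamental roots) with kernel `H`, mapping each `n_{p_i}` to the `i`-th simple reflection. -/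
theorem result {F : Type*} [Field F]
    (p : Cfsg.Lie.ChevalleyDatum × (Σ n : ℕ, CoxeterMatrix (Fin n)))
    (hp : p ∈ [(Cfsg.Lie.chevG2, ⟨2, CoxeterMatrix.G₂⟩), (Cfsg.Lie.chevB2, ⟨2, CoxeterMatrix.B 2⟩), (Cfsg.Lie.chevD4, ⟨4, Cfsg.Lie.coxeterD4⟩), (Cfsg.Lie.chevF4, ⟨4, CoxeterMatrix.F₄⟩),
      (Cfsg.Lie.chevE6, ⟨6, CoxeterMatrix.E₆⟩), (Cfsg.Lie.chevE7, ⟨7, CoxeterMatrix.E₇⟩), (Cfsg.Lie.chevE8, ⟨8, CoxeterMatrix.E₈⟩)]) :
    ∃ φ : ↥(p.1.monomialSubgroup F) →* p.2.2.Group, Function.Surjective φ ∧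
      φ.ker = (p.1.diagonalSubgroup F).subgroupOf (p.1.monomialSubgroup F) ∧
      ∀ (i : Fin p.2.1) (g : ↥(p.1.monomialSubgroup F)),
        ((g : GL p.1.Idx F) : Matrix p.1.Idx p.1.Idx F) = p.1.nMat F (p.1.simple i) 1 → φ g = p.2.2.simple i := by
  simp only [List.mem_cons, List.not_mem_nil, or_false] at hp
  rcases hp with rfl | rfl | rfl | rfl | rfl | rfl | rfl
  · exact aux certG2 rootG2 _ (coxeter_G2 (hasC_G2 rootG2))
  · exact aux certB2 rootB2 _ (coxeter_B2 (hasC_B2 rootB2))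
  · exact aux certD4 rootD4 _ (coxeter_D4 (hasC_D4 rootD4))
  · exact aux certF4 rootF4 _ (coxeter_F4 (hasC_F4 rootF4))
  · exact aux certE6 rootE6 _ (coxeter_E6 (hasC_E6 rootE6))
  · exact aux certE7 rootE7 _ (coxeter_E7 (hasC_E7 rootE7))
  · exact aux certE8 rootE8 _ (coxeter_E8 (hasC_E8 rootE8))

end Cfsg.Agent.S1039
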