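import Cfsg.Statements.S1042
import Cfsg.Agent.Chev.CoreAll
import Cfsg.Agent.Chev.StructMat

set_option autoImplicit false
open Cfsg Cfsg.Lib.Chev Cfsg.Lib.Chev.Core

namespace Cfsg.Agent.S1042

/-- The Chevalley group has a (B,N)-pair with `B = UH`, `N` the monomial subgroup and the `n_p`, `p` fundamental, as representatives of the distinguished involutions of `W = N/H`. -/
theorem result {F : Type*} [Field F] (D : Cfsg.Lie.ChevalleyDatum) (hD : D ∈ [Cfsg.Lie.chevG2, Cfsg.Lie.chevB2, Cfsg.Lie.chevD4, Cfsg.Lie.chevF4, Cfsg.Lie.chevE6, Cfsg.Lie.chevE7, Cfsg.Lie.chevE8]) :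
    ∃ P : Cfsg.BNPair ↥(D.group F),
      P.B = (D.borelSubgroup F).subgroupOf (D.group F) ∧ P.N = (D.monomialSubgroup F).subgroupOf (D.group F) ∧
      P.S = {n : ↥(D.group F) | ∃ i < D.rank, ((n : GL D.Idx F) : Matrix D.Idx D.Idx F) = D.nMat F (D.simple i) 1} := by
  obtain ⟨C, R⟩ := cert_root_of_mem hD
  refine ⟨(C.faithful F R).bnPair (C.group_eq_Y R).symm, ?_, ?_, ?_⟩
  · rw [C.borelSubgroup_eq_Y R]; rfl
  · rw [C.monomialSubgroup_eq_Y R]; rfl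
  · rw [RGD.Faithful.bnPair_S]
    ext m
    simp only [Set.mem_ofPred_eq, C.eq_nel_iff R]
    exact ⟨fun ⟨i, e⟩ => ⟨i, i.2, e⟩, fun ⟨i, hi, e⟩ => ⟨⟨i, hi⟩, e⟩⟩

end Cfsg.Agent.S1042
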