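import Cfsg.Statements.S1058
import Cfsg.Agent.Chev.RepB2Frame
import Cfsg.Agent.S0304
import Cfsg.Agent.S0247
import Cfsg.Agent.S0246

set_option autoImplicit false
open Cfsg

namespace Cfsg.Agent.S1058

/-- B₂(2) ≅ S₆. -/
theorem result {F : Type*} [Field F] [Fintype F] (hF : Fintype.card F = 2) :
    Nonempty (↥(Cfsg.Lie.chevB2.group F) ≃* Equiv.Perm (Fin 6)) := by
  open Cfsg.Lib.Chev Cfsg.Lib.Chev.Core in
  have h1 : ∀ a : F, a ≠ 0 → a = 1 := fun a ha => by simpa [hF] using FiniteField.pow_card_sub_one_eq_one a ha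
  have h2 : (-1 : F) = 1 := h1 _ (by simp)
  have : CharP F 2 := CharTwo.of_one_ne_zero_of_two_eq_zero one_ne_zero (by linear_combination -h2)
  have h3 : repB2.G0 codB2 F = isometryGroup F (quadFormOdd 2 F) := le_antisymm B2.G0_le fun g hg => by
    obtain ⟨k, hk, σ, a, ha, h⟩ := B2.exists_diag hg
    rw [eq_inv_of_mul_eq_one_right (show k * g = 1 from Units.ext (codB2.mat_ext fun b _ => by
      rw [h, h1 a ha]
      cases (σ || b != 0) <;> simp [h2]))]
    exact inv_mem hk
  exact ⟨(repB2.quotEquiv _ F rootB2).symm.trans ((centerQuotCongr ((MulEquiv.subgroupCongr h3).trans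
    (S0304.result 2).some)).trans (((QuotientGroup.quotientMulEquivOfEq (Subgroup.card_eq_one.1
      (S0246.result hF 2 one_le_two))).trans QuotientGroup.quotientBot).trans (S0247.result hF).some))⟩

end Cfsg.Agent.S1058
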