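import Cfsg.Statements.S1061
import Cfsg.Agent.Chev.Order
import Cfsg.Agent.Chev.CoreCertD4
import Cfsg.Agent.Chev.RootCertSmall

set_option autoImplicit false
open Cfsg

namespace Cfsg.Agent.S1061

open Cfsg.Lib.Chev Cfsg.Lib.Chev.Core

/-- `gcd(2, q-1)² · |D₄(q)| = q¹² (q² - 1)(q⁴ - 1)(q⁴ - 1)(q⁶ - 1)`. -/
theorem result {F : Type*} [Field F] [Fintype F] {q : ℕ} (hq : Fintype.card F = q) : Nat.gcd 2 (q - 1) ^ 2 * Nat.card ↥(Cfsg.Lie.chevD4.group F) = q ^ 12 * (q ^ 2 - 1) * (q ^ 4 - 1) * (q ^ 4 - 1) * (q ^ 6 - 1) := by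
  have h := certD4.card_ker_mul_card_group rootD4 hq
  have hq0 : 0 < q := hq ▸ Fintype.card_pos
  have hp := @poincare_D4 _ _ _ (hasC_D4 rootD4) q hq0 (WeylData.instFintypeW _)
  have hu : Nat.card Fˣ = q - 1 := by rw [Nat.card_units, Nat.card_eq_fintype_card, hq]
  rw [card_ker_cartanHom_D4, hu] at h
  rw [h]
  refine Eq.trans (congrArg (fun x => q ^ 12 * x) hp) ?_
  simp only [mul_assoc]

end Cfsg.Agent.S1061
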