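import Cfsg.Statements.S1084
import Cfsg.Agent.Chev.RepE6Frame

set_option autoImplicit false
open Cfsg

namespace Cfsg.Agent.S1084

/-- E₆ via the 27-dimensional cubic form: for a finite field with at least three elements, (isometries of the cubic form) / centre ≅ the Chevalley group E₆(F). -/
theorem result {F : Type*} [Field F] [Fintype F] (hF : 3 ≤ Fintype.card F) : Nonempty (Cfsg.Lie.E6 F ≃* ↥(Cfsg.Lie.chevE6.group F)) := by
  have h : ∃ a : F, a ≠ 0 ∧ a ≠ 1 := by
    classical
    by_contra hc
    push Not at hc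
    have : (Finset.univ : Finset F) ⊆ {0, 1} := fun a _ => by
      by_cases h : a = 0
      · simp [h]
      · simp [hc a h]
    have := (Finset.card_le_card this).trans Finset.card_le_two
    rw [Finset.card_univ] at this
    omega
  exact ⟨(Cfsg.Lib.Chev.Core.centerQuotCongr (MulEquiv.subgroupCongr (Cfsg.Lib.Chev.Core.E6univ_eq_G0 h))).trans
    (Cfsg.Lib.Chev.Core.repE6.quotEquiv _ F Cfsg.Lib.Chev.rootE6)⟩

end Cfsg.Agent.S1084
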