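import Cfsg.Statements.S1086
import Cfsg.Agent.Chev.TwistE6
-- import your own Cfsg.Agent.* helpers here

set_option autoImplicit false
open Cfsg

namespace Cfsg.Agent.S1086

open Cfsg.Lie Cfsg.Lib.Chev Cfsg.Lib.Chev.Core

/-- |U¹| = |G¹ ∩ U| = q ^ 36 for ²E₆(q). -/
theorem result {K : Type*} [Field K] [Fintype K] {q : ℕ} (hq : IsPrimePow q) (hK : Fintype.card K = q ^ 2) :
    Nat.card ↥(Cfsg.Lie.chevE6.posUnipotent K ⊓ Cfsg.Lie.twistedE6 K q) = q ^ 36 := by
  obtain ⟨f, hf, hq', h⟩ := exists_twE6 hK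
  have hY := Core.certE6.faithful K rootE6
  rw [← h, Core.certE6.posUnipotent_eq_Y rootE6, (twE6 f hf).inf_G1_eq hY le_rfl,
    (twE6 f hf).card_U hY (twE6_card_UL f hf hK hq'), rootE6.card_posRoots,
    show chevE6.nroots / 2 / 1 = 36 by decide +kernel]

end Cfsg.Agent.S1086
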