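import Cfsg.Statements.S1090
import Cfsg.Agent.Chev.TwistF4
-- import your own Cfsg.Agent.* helpers here

set_option autoImplicit false
open Cfsg

namespace Cfsg.Agent.S1090

open Cfsg.Lie Cfsg.Lib.Chev Cfsg.Lib.Chev.Core

/-- |U¹| = |G¹ ∩ U| = (2 ^ (2 * m + 1)) ^ 12 for ²F₄(2^(2m+1)). -/
theorem result {K : Type*} [Field K] [Fintype K] {m : ℕ} (hK : Fintype.card K = 2 ^ (2 * m + 1)) :
    Nat.card ↥(Cfsg.Lie.chevF4.posUnipotent K ⊓ Cfsg.Lie.twistedF4 K (2 ^ m)) = (2 ^ (2 * m + 1)) ^ 12 := by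
  obtain ⟨_, θ, hθ, -, h⟩ := exists_twF4 hK
  have hY := Core.certF4.faithful K rootF4
  rw [← h, Core.certF4.posUnipotent_eq_Y rootF4, (twF4' θ hθ).inf_G1_eq hY le_rfl,
    (twF4' θ hθ).card_U hY (twF4_card_UL θ hθ), rootF4.card_posRoots,
    show chevF4.nroots / 2 / 2 = 12 by decide +kernel, Nat.card_eq_fintype_card, hK]

end Cfsg.Agent.S1090
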