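import Cfsg.Statements.S1092
import Cfsg.Agent.Chev.WeylTypes
import Cfsg.Agent.Chev.RootCert

set_option autoImplicit false
open Cfsg

namespace Cfsg.Agent.S1092

open Cfsg.Lib.Chev

theorem aux {l : ℕ} {R : WeylData (Fin l) ℕ} {M : CoxeterMatrix (Fin l)} {n : ℕ}
    (h : ∃ cs : CoxeterSystem M R.W, (∀ i, cs.simple i = R.s i) ∧ ∀ w, cs.length w = R.len w)
    (hn : Nat.card R.W = n) : Nat.card M.Group = n := by
  obtain ⟨cs, -⟩ := h
  rw [← hn]
  exact Nat.card_congr cs.mulEquiv.symm.toEquiv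

/-- `|W(B₂)| = 8`, `|W(G₂)| = 12`, `|W(D₄)| = 192`, `|W(F₄)| = 1152` for the groups presented by the Coxeter matrices (the product of the degrees of the basic invariants). -/
theorem result (p : (Σ n : ℕ, CoxeterMatrix (Fin n)) × ℕ)
    (hp : p ∈ [(⟨2, CoxeterMatrix.B 2⟩, 8), (⟨2, CoxeterMatrix.G₂⟩, 12), (⟨4, Cfsg.Lie.coxeterD4⟩, 192), (⟨4, CoxeterMatrix.F₄⟩, 1152)]) :
    Nat.card p.1.2.Group = p.2 := by
  simp only [List.mem_cons, List.not_mem_nil, or_false] at hp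
  rcases hp with rfl | rfl | rfl | rfl
  · exact aux (coxeter_B2 (hasC_B2 rootB2)) (card_W_B2 (hasC_B2 rootB2))
  · exact aux (coxeter_G2 (hasC_G2 rootG2)) (card_W_G2 (hasC_G2 rootG2))
  · exact aux (coxeter_D4 (hasC_D4 rootD4)) (card_W_D4 (hasC_D4 rootD4))
  · exact aux (coxeter_F4 (hasC_F4 rootF4)) (card_W_F4 (hasC_F4 rootF4))

end Cfsg.Agent.S1092
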