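import Cfsg.Statements.S1094
import Cfsg.Agent.Chev.WeylTypes
import Cfsg.Agent.Chev.RootCert

set_option autoImplicit false
open Cfsg

namespace Cfsg.Agent.S1094

open Cfsg.Lib.Chev

theorem aux {l : ℕ} {R : WeylData (Fin l) ℕ} {M : CoxeterMatrix (Fin l)} {n : ℕ}
    (h : ∃ cs : CoxeterSystem M R.W, (∀ i, cs.simple i = R.s i) ∧ ∀ w, cs.length w = R.len w)
    (hn : orderOf (wprod R.s (List.finRange l)) = n) :
    orderOf ((List.finRange l).map M.simple).prod = n := by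
  obtain ⟨cs, hcs, -⟩ := h
  rw [← hn, ← cs.mulEquiv.symm.orderOf_eq]
  congr 1
  rw [← funext hcs]
  exact map_wprod cs.mulEquiv.symm.toMonoidHom M.simple _

/-- The Coxeter element `s₁ s₂ ⋯ s_l` of the Coxeter group of type B₂, G₂, D₄, F₄, E₆, E₇, E₈ has order `h = 2N/l` = 4, 6, 6, 12, 12, 18, 30. -/
theorem result (p : (Σ n : ℕ, CoxeterMatrix (Fin n)) × ℕ)
    (hp : p ∈ [(⟨2, CoxeterMatrix.B 2⟩, 4), (⟨2, CoxeterMatrix.G₂⟩, 6), (⟨4, Cfsg.Lie.coxeterD4⟩, 6), (⟨4, CoxeterMatrix.F₄⟩, 12),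
      (⟨6, CoxeterMatrix.E₆⟩, 12), (⟨7, CoxeterMatrix.E₇⟩, 18), (⟨8, CoxeterMatrix.E₈⟩, 30)]) :
    orderOf ((List.finRange p.1.1).map p.1.2.simple).prod = p.2 := by
  simp only [List.mem_cons, List.not_mem_nil, or_false] at hp
  rcases hp with rfl | rfl | rfl | rfl | rfl | rfl | rfl
  · exact aux (coxeter_B2 (hasC_B2 rootB2)) (orderOf_coxeterElt_B2 (hasC_B2 rootB2))
  · exact aux (coxeter_G2 (hasC_G2 rootG2)) (orderOf_coxeterElt_G2 (hasC_G2 rootG2))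
  · exact aux (coxeter_D4 (hasC_D4 rootD4)) (orderOf_coxeterElt_D4 (hasC_D4 rootD4))
  · exact aux (coxeter_F4 (hasC_F4 rootF4)) (orderOf_coxeterElt_F4 (hasC_F4 rootF4))
  · exact aux (coxeter_E6 (hasC_E6 rootE6)) (orderOf_coxeterElt_E6 (hasC_E6 rootE6))
  · exact aux (coxeter_E7 (hasC_E7 rootE7)) (orderOf_coxeterElt_E7 (hasC_E7 rootE7))
  · exact aux (coxeter_E8 (hasC_E8 rootE8)) (orderOf_coxeterElt_E8 (hasC_E8 rootE8))

end Cfsg.Agent.S1094
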