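import Cfsg.Statements.S1099
import Cfsg.Agent.Chev.StIso
-- import your own Cfsg.Agent.* helpers here

set_option autoImplicit false
open Cfsg

namespace Cfsg.Agent.S1099

open Cfsg.Lie Cfsg.Lib.Chev Cfsg.Lib.Chev.Core

/-- Graph automorphism of G₂ in characteristic 3 (K perfect): `x_a(t) ↦ x_b(t³)`, `x_b(t) ↦ x_a(t)`, `x_{-a}(t) ↦ x_{-b}(t³)`, `x_{-b}(t) ↦ x_{-a}(t)` extend to an automorphism of the group. -/
theorem result {K : Type*} [Field K] [CharP K 3] (hperf : ∀ x : K, ∃ y : K, y ^ 3 = x) :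
    ∃ α : ↥(Cfsg.Lie.chevG2.group K) ≃* ↥(Cfsg.Lie.chevG2.group K), ∀ (g : ↥(Cfsg.Lie.chevG2.group K)) (t : K),
      (((g : GL Cfsg.Lie.chevG2.Idx K) : Matrix _ _ K) = Cfsg.Lie.chevG2.x K Cfsg.Lie.g2a t →
        ((α g : GL Cfsg.Lie.chevG2.Idx K) : Matrix _ _ K) = Cfsg.Lie.chevG2.x K Cfsg.Lie.g2b (t ^ 3)) ∧
      (((g : GL Cfsg.Lie.chevG2.Idx K) : Matrix _ _ K) = Cfsg.Lie.chevG2.x K Cfsg.Lie.g2b t →
        ((α g : GL Cfsg.Lie.chevG2.Idx K) : Matrix _ _ K) = Cfsg.Lie.chevG2.x K Cfsg.Lie.g2a t) ∧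
      (((g : GL Cfsg.Lie.chevG2.Idx K) : Matrix _ _ K) = Cfsg.Lie.chevG2.x K Cfsg.Lie.g2ma t →
        ((α g : GL Cfsg.Lie.chevG2.Idx K) : Matrix _ _ K) = Cfsg.Lie.chevG2.x K Cfsg.Lie.g2mb (t ^ 3)) ∧
      (((g : GL Cfsg.Lie.chevG2.Idx K) : Matrix _ _ K) = Cfsg.Lie.chevG2.x K Cfsg.Lie.g2mb t →
        ((α g : GL Cfsg.Lie.chevG2.Idx K) : Matrix _ _ K) = Cfsg.Lie.chevG2.x K Cfsg.Lie.g2ma t) := by
  have : Fact (Nat.Prime 3) := ⟨Nat.prime_three⟩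
  obtain ⟨α, hα⟩ := isoG2.exists_aut rootG2 certG2 hperf
  have key : ∀ (r s e : ℕ) (g : chevG2.group K) (t : K), r < chevG2.nroots → isoG2.σ r = s →
      isoG2.e r = e → ((g : GL chevG2.Idx K) : Matrix _ _ K) = chevG2.x K r t →
      ((α g : GL chevG2.Idx K) : Matrix _ _ K) = chevG2.x K s (t ^ e) := by
    rintro r _ _ g t hr rfl rfl h
    rw [certG2.eq_xG_iff rootG2] at h ⊢
    rw [h, hα r hr]
  refine ⟨α, fun g t => ⟨key _ _ _ g t (by decide +kernel) rfl rfl, fun h => ?_,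
    key _ _ _ g t (by decide +kernel) rfl rfl, fun h => ?_⟩⟩
  · simpa using key _ g2a 1 g t (by decide +kernel) rfl rfl h
  · simpa using key _ g2ma 1 g t (by decide +kernel) rfl rfl h

end Cfsg.Agent.S1099
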