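import Cfsg.Statements.S1100
import Cfsg.Agent.Chev.CoreAll
import Cfsg.Agent.Chev.StructMat

set_option autoImplicit false
open Cfsg Cfsg.Lib.Chev Cfsg.Lib.Chev.Core

namespace Cfsg.Agent.S1100

/-- Canonical form `g = b n_w u` (`b ∈ B`, `u ∈ U_w⁻ = ⟨X_r : r > 0, n_w X_r n_w⁻¹ ≤ V⟩`): such a decomposition exists for every element of the group; the coset `n_w H` is determined by `g`; and for a fixed representative `n_w` the factors `b`, `u` are unique. -/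
theorem result {F : Type*} [Field F] (D : Cfsg.Lie.ChevalleyDatum) (hD : D ∈ [Cfsg.Lie.chevG2, Cfsg.Lie.chevB2, Cfsg.Lie.chevD4, Cfsg.Lie.chevF4, Cfsg.Lie.chevE6, Cfsg.Lie.chevE7, Cfsg.Lie.chevE8]) :
    (∀ g ∈ D.group F, ∃ b ∈ D.borelSubgroup F, ∃ n ∈ D.monomialSubgroup F,
      ∃ u ∈ Subgroup.closure {x : GL D.Idx F | ∃ (r : ℕ) (t : F), D.IsPosRoot r ∧
            (D.rootSubgroup F r).map (MulAut.conj n).toMonoidHom ≤ D.negUnipotent F ∧ (x : Matrix D.Idx D.Idx F) = D.x F r t},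
        g = b * n * u) ∧
    (∀ (b b' n n' u u' : GL D.Idx F), b ∈ D.borelSubgroup F → b' ∈ D.borelSubgroup F →
      n ∈ D.monomialSubgroup F → n' ∈ D.monomialSubgroup F →
      u ∈ Subgroup.closure {x : GL D.Idx F | ∃ (r : ℕ) (t : F), D.IsPosRoot r ∧
            (D.rootSubgroup F r).map (MulAut.conj n).toMonoidHom ≤ D.negUnipotent F ∧ (x : Matrix D.Idx D.Idx F) = D.x F r t} →
      u' ∈ Subgroup.closure {x : GL D.Idx F | ∃ (r : ℕ) (t : F), D.IsPosRoot r ∧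
            (D.rootSubgroup F r).map (MulAut.conj n').toMonoidHom ≤ D.negUnipotent F ∧ (x : Matrix D.Idx D.Idx F) = D.x F r t} →
      b * n * u = b' * n' * u' → n⁻¹ * n' ∈ D.diagonalSubgroup F ∧ (n = n' → b = b' ∧ u = u')) := by
  obtain ⟨C, R⟩ := cert_root_of_mem hD
  have hY := C.faithful F R
  have key : ∀ (n : GL D.Idx F) (w : R.weyl.W), (C.Y F R).Lifts n w →
      Subgroup.closure {x : GL D.Idx F | ∃ (r : ℕ) (t : F), D.IsPosRoot r ∧
        (D.rootSubgroup F r).map (MulAut.conj n).toMonoidHom ≤ D.negUnipotent F ∧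
          (x : Matrix D.Idx D.Idx F) = D.x F r t} = (C.Y F R).Uneg w := by
    intro n w hn
    rw [C.closure_x_eq₂ R, RGD.Uneg, C.Y_X R]
    congr 1
    ext r
    simp only [Set.mem_ofPred_eq, ← R.weyl_pos (r := r)]
    refine and_congr_right fun hr => ?_
    rw [C.rootSubgroup_eq_Y R, C.negUnipotent_eq_Y R, hn.map_X hr.1,
      hY.X_le_V_iff (R.weyl.smul_mem w hr.1)]
  rw [C.borelSubgroup_eq_Y R, C.monomialSubgroup_eq_Y R, C.group_eq_Y R, C.diagonalSubgroup_eq_Y R]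
  refine ⟨fun g hg => ?_, fun b b' n n' u u' hb hb' hn hn' hu hu' e => ?_⟩
  · obtain ⟨w, hw⟩ := RGD.mem_G0_iff.1 hg
    obtain ⟨m, hm⟩ := (C.Y F R).exists_lifts w
    obtain ⟨b, hb, u, hu, e⟩ := RGD.exists_normal_form hm hw
    exact ⟨b, hb, m, hm.mem_N, u, (key m w hm).ge hu, e⟩
  · obtain ⟨w, hw⟩ := RGD.mem_N_iff.1 hn
    obtain ⟨w', hw'⟩ := RGD.mem_N_iff.1 hn'
    rw [key n w hw] at hu
    rw [key n' w' hw'] at hu'
    obtain rfl : w = w' := hY.eq_of_mem_cell (g := b * n * u)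
      ⟨b, hb, n, hw, u, (C.Y F R).U_le_B ((C.Y F R).Uneg_le_U w hu), rfl⟩
      ⟨b', hb', n', hw', u', (C.Y F R).U_le_B ((C.Y F R).Uneg_le_U w' hu'), e⟩
    refine ⟨hw.inv_mul_mem_H hw', ?_⟩
    rintro rfl
    exact hY.normal_form_unique hw hb hb' hu hu' e

end Cfsg.Agent.S1100
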