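import Cfsg.Statements.S1101
import Cfsg.Agent.Chev.TwistG2
-- import your own Cfsg.Agent.* helpers here

set_option autoImplicit false
open Cfsg

namespace Cfsg.Agent.S1101

open Cfsg.Lie Cfsg.Lib.Chev Cfsg.Lib.Chev.Core

/-- For ²G₂ over `K` with `|K| = 3^(2m+1)`, `θ = 3^m`: `U¹ = G¹ ∩ U` consists exactly of the elements `x_a(t^θ) x_b(t) x_{a+b}(t^{θ+1}+u^θ) x_{2a+b}(t^{2θ+1}+v^θ) x_{3a+b}(u) x_{3a+2b}(v)`, `t, u, v ∈ K`, and it has `|K|³` elements. -/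
theorem result {K : Type*} [Field K] [Fintype K] {m : ℕ} (hK : Fintype.card K = 3 ^ (2 * m + 1)) :
    (∀ g : GL Cfsg.Lie.chevG2.Idx K, g ∈ Cfsg.Lie.chevG2.posUnipotent K ⊓ Cfsg.Lie.twistedG2 K (3 ^ m) ↔
      ∃ t u v : K, (g : Matrix Cfsg.Lie.chevG2.Idx Cfsg.Lie.chevG2.Idx K) = Cfsg.Lie.chevG2.wordMat K (Cfsg.Lie.reeWordU (3 ^ m) t u v)) ∧
    Nat.card ↥(Cfsg.Lie.chevG2.posUnipotent K ⊓ Cfsg.Lie.twistedG2 K (3 ^ m)) = (3 ^ (2 * m + 1)) ^ 3 := by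
  obtain ⟨_, θ, hθ, he, h⟩ := exists_twG2 hK
  have hY := Core.certG2.faithful K rootG2
  rw [← h, Core.certG2.posUnipotent_eq_Y rootG2]
  refine ⟨fun g => ?_, ?_⟩
  · simp only [mem_U_twG2, reeWordU_eq θ he, Core.certG2.eq_word_iff rootG2]
  · rw [(twG2 θ hθ).inf_G1_eq hY le_rfl, (twG2 θ hθ).card_U hY (twG2_card_UL θ hθ),
      rootG2.card_posRoots, show chevG2.nroots / 2 / 2 = 3 by decide +kernel,
      Nat.card_eq_fintype_card, hK]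

end Cfsg.Agent.S1101
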