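import Cfsg.Statements.S1103
import Cfsg.Agent.Chev.TwistE6
-- import your own Cfsg.Agent.* helpers here

set_option autoImplicit false
open Cfsg

namespace Cfsg.Agent.S1103

open Cfsg.Lie Cfsg.Lib.Chev Cfsg.Lib.Chev.Core

/-- `N¹/H¹ ≅ W¹`: a surjective homomorphism from `N¹ = G¹ ∩ N` onto the Coxeter group of type F₄ with kernel `H¹`. -/
theorem result {K : Type*} [Field K] [Fintype K] {q : ℕ} (hq : IsPrimePow q) (hK : Fintype.card K = q ^ 2) :
    ∃ φ : ↥(Cfsg.Lie.chevE6.monomialSubgroup K ⊓ Cfsg.Lie.twistedE6 K q) →* (CoxeterMatrix.F₄).Group, Function.Surjective φ ∧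
      φ.ker = (Cfsg.Lie.chevE6.diagonalSubgroup K ⊓ Cfsg.Lie.twistedE6 K q).subgroupOf (Cfsg.Lie.chevE6.monomialSubgroup K ⊓ Cfsg.Lie.twistedE6 K q) := by
  obtain ⟨f, hf, hq', h⟩ := exists_twE6 hK
  have hY := Core.certE6.faithful K rootE6
  obtain ⟨e⟩ := twist_E6_equiv (hasC_E6 rootE6) (subE6 f).S (subE6_π f)
  rw [Core.certE6.diagonalSubgroup_eq_Y rootE6, Core.certE6.monomialSubgroup_eq_Y rootE6]
  exact (twE6 f hf).exists_weylHom hY h e

end Cfsg.Agent.S1103
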