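import Cfsg.Statements.S1104
import Cfsg.Agent.Chev.TwistE6
-- import your own Cfsg.Agent.* helpers here

set_option autoImplicit false
open Cfsg

namespace Cfsg.Agent.S1104

open Cfsg.Lie Cfsg.Lib.Chev Cfsg.Lib.Chev.Core

/-- ²E₆(q) equals its derived subgroup. -/
theorem result {K : Type*} [Field K] [Fintype K] {q : ℕ} (hq : IsPrimePow q) (hK : Fintype.card K = q ^ 2) : commutator ↥(Cfsg.Lie.twistedE6 K q) = ⊤ := by
  obtain ⟨f, hf, hq', h⟩ := exists_twE6 hK
  have hY := Core.certE6.faithful K rootE6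
  have hp := commutator_twE6 f hf (by rw [hK]; have := two_le_of_card hK; nlinarith)
  rw [h] at hp
  exact hp

end Cfsg.Agent.S1104
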