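import Cfsg.Statements.S1105
import Cfsg.Agent.Chev.TwistE6
-- import your own Cfsg.Agent.* helpers here

set_option autoImplicit false
open Cfsg

namespace Cfsg.Agent.S1105

open Cfsg.Lie Cfsg.Lib.Chev Cfsg.Lib.Chev.Core

/-- The normal core of `B¹ = G¹ ∩ B` in ²E₆(q) is trivial. -/
theorem result {K : Type*} [Field K] [Fintype K] {q : ℕ} (hq : IsPrimePow q) (hK : Fintype.card K = q ^ 2) :
    ((Cfsg.Lie.chevE6.borelSubgroup K ⊓ Cfsg.Lie.twistedE6 K q).subgroupOf (Cfsg.Lie.twistedE6 K q)).normalCore = ⊥ := by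
  obtain ⟨f, hf, hq', h⟩ := exists_twE6 hK
  have hY := Core.certE6.faithful K rootE6
  rw [Subgroup.inf_subgroupOf_right, Core.certE6.borelSubgroup_eq_Y rootE6]
  exact (twE6 f hf).normalCore_eq_bot hY h (Core.certE6.twist_hZ _ _)

end Cfsg.Agent.S1105
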