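import Cfsg.Statements.S1108
import Cfsg.Agent.Chev.TwistD4
-- import your own Cfsg.Agent.* helpers here

set_option autoImplicit false
open Cfsg

namespace Cfsg.Agent.S1108

open Cfsg.Lie Cfsg.Lib.Chev Cfsg.Lib.Chev.Core

/-- ³D₄(q) equals its derived subgroup. -/
theorem result {K : Type*} [Field K] [Fintype K] {q : ℕ} (hq : IsPrimePow q) (hK : Fintype.card K = q ^ 3) : commutator ↥(Cfsg.Lie.twistedD4 K q) = ⊤ := by
  obtain ⟨f, hf, hq', h⟩ := exists_twD4 hK
  have hY := Core.certD4.faithful K rootD4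
  have hp := commutator_twD4 f hf (by
    rw [hK]; exact lt_of_lt_of_le (by norm_num) (Nat.pow_le_pow_left (two_le_of_card hK) 3))
  rw [h] at hp
  exact hp

end Cfsg.Agent.S1108
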