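import Cfsg.Statements.S1114
import Cfsg.Agent.Chev.TwistG2
-- import your own Cfsg.Agent.* helpers here

set_option autoImplicit false
open Cfsg

namespace Cfsg.Agent.S1114

open Cfsg.Lie Cfsg.Lib.Chev Cfsg.Lib.Chev.Core

/-- `|H¹| = |G¹ ∩ H|`: `|H¹| = 3 ^ (2 * m + 1) - 1` for ²G₂(3^(2m+1)). -/
theorem result {K : Type*} [Field K] [Fintype K] {m : ℕ} (hK : Fintype.card K = 3 ^ (2 * m + 1)) :
    Nat.card ↥(Cfsg.Lie.chevG2.diagonalSubgroup K ⊓ Cfsg.Lie.twistedG2 K (3 ^ m)) = 3 ^ (2 * m + 1) - 1 := by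
  obtain ⟨_, θ, hθ, he, h⟩ := exists_twG2 hK
  have hY := Core.certG2.faithful K rootG2
  rw [← h, Core.certG2.diagonalSubgroup_eq_Y rootG2, card_H_twG2 θ hθ hK, Nat.card_eq_fintype_card,
    hK]

end Cfsg.Agent.S1114
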