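import Cfsg.Statements.S1125
import Cfsg.Agent.Chev.RankOneFix

set_option autoImplicit false
open Cfsg

namespace Cfsg.Agent.S1125

open Cfsg.Lib.Chev.RankOne

/-- In the rank-one set-up (`G` finite and doubly transitive on `Ω`, `t` an involution moving `a`, `Q` normal in `G_a` with `G_a = Q D`, `Q ⊓ D = 1` for the two-point stabiliser `D = G_a ⊓ G_{t • a}`, `|Q|` even, `|D|` odd), let `X ⊆ D` fix at least three points of `Ω`. Then `C_G(X)` is doubly transitive on the fixed-point set of `X`, `|C_Q(X)|` is even, and `C_{G_a}(X) = C_Q(X) C_D(X)`. -/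
theorem result {G Ω : Type*} [Group G] [Finite G] [MulAction G Ω] {a : Ω} {t : G} {Q : Subgroup G}
    (hS : Cfsg.IsRankOneSetup G Ω a t Q)
    (X : Set G) (hX : X ⊆ ((MulAction.stabilizer G a ⊓ MulAction.stabilizer G (t • a)) : Set G))
    (h3 : ∃ b c d : Ω, b ≠ c ∧ b ≠ d ∧ c ≠ d ∧ ∀ x ∈ X, x • b = b ∧ x • c = c ∧ x • d = d) :
    (∀ b₁ b₂ c₁ c₂ : Ω, (∀ x ∈ X, x • b₁ = b₁ ∧ x • b₂ = b₂ ∧ x • c₁ = c₁ ∧ x • c₂ = c₂) →
        b₁ ≠ b₂ → c₁ ≠ c₂ → ∃ g ∈ Subgroup.centralizer X, g • b₁ = c₁ ∧ g • b₂ = c₂) ∧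
      Even (Nat.card ↥(Subgroup.centralizer X ⊓ Q)) ∧
      (Subgroup.centralizer X ⊓ Q) ⊔ (Subgroup.centralizer X ⊓ (MulAction.stabilizer G a ⊓ MulAction.stabilizer G (t • a))) = Subgroup.centralizer X ⊓ MulAction.stabilizer G a := by
  obtain ⟨e, he, he', heX⟩ := exists_third a (t • a) h3
  have hX' : ∀ x ∈ X, x ∈ DD a t := fun x hx => hX hx
  refine ⟨fun b₁ b₂ c₁ c₂ h hb hc => ?_, ?_, ?_⟩
  · exact cent_two_trans hS hX' he he' heX hb (fun x hx => (h x hx).1) (fun x hx => (h x hx).2.1)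
      hc (fun x hx => (h x hx).2.2.1) (fun x hx => (h x hx).2.2.2)
  · obtain ⟨u, hu, huX⟩ := exists_II_cent hS hX' he he' heX
    have h1 : orderOf u = 2 := orderOf_eq_prime (by rw [pow_two, hu.2.2]) hu.2.1
    have h2 := Subgroup.orderOf_dvd_natCard (Subgroup.centralizer X ⊓ Q) (x := u)
      ⟨huX, II_Q hS hu⟩
    rw [h1] at h2
    exact even_iff_two_dvd.2 h2
  · apply le_antisymm
    · exact sup_le (inf_le_inf_left _ hS.le) (inf_le_inf_left _ inf_le_left)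
    · rintro h ⟨hc, hh⟩
      obtain ⟨y, hyQ, hy, d, hd, hdX, rfl⟩ := cent_stab_decomp hS hX' hc hh
      exact Subgroup.mul_mem_sup ⟨hy, hyQ⟩ ⟨hdX, hd⟩

end Cfsg.Agent.S1125
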