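import Cfsg.Statements.S1135
import Cfsg.Agent.S1129

set_option autoImplicit false
open Cfsg

namespace Cfsg.Agent.S1135

open Cfsg.Lib.Chev.RankOne

/-- In the rank-one set-up (`G` finite and doubly transitive on `Ω`, `t` an involution moving `a`, `Q` normal in `G_a` with `G_a = Q D`, `Q ⊓ D = 1` for the two-point stabiliser `D = G_a ⊓ G_{t • a}`, `|Q|` even, `|D|` odd), with the action faithful and `G` containing two distinct commuting involutions: if `x = u v` with `u, v` involutions and `x² ≠ 1`, then `x` is conjugate to `u' t` for some involution `u'` of `G_a`, and `|C_G(x)|` is odd. -/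
theorem result {G Ω : Type*} [Group G] [Finite G] [MulAction G Ω] [FaithfulSMul G Ω] {a : Ω} {t : G} {Q : Subgroup G}
    (hS : Cfsg.IsRankOneSetup G Ω a t Q)
    (h2 : ∃ x y : G, x ≠ 1 ∧ y ≠ 1 ∧ x ≠ y ∧ x * x = 1 ∧ y * y = 1 ∧ x * y = y * x)
    (u v : G) (hu1 : u ≠ 1) (hu2 : u * u = 1) (hv1 : v ≠ 1) (hv2 : v * v = 1) (hx : (u * v) * (u * v) ≠ 1) :
    (∃ g : G, ∃ u' ∈ Cfsg.involutionsIn (MulAction.stabilizer G a : Set G), g * (u * v) * g⁻¹ = u' * t) ∧
      Odd (Nat.card ↥(Subgroup.centralizer {u * v})) := by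
  have hQ := Cfsg.Agent.S1129.result hS h2
  have huv : u * v ≠ v * u := by
    intro e
    apply hx
    calc u * v * (u * v) = u * (v * u) * v := by group
      _ = (u * u) * (v * v) := by rw [← e]; group
      _ = 1 := by rw [hu2, hv2, one_mul]
  obtain ⟨g, hg1, hg2⟩ := exists_conj_pair hS hQ hu1 hu2 hv1 hv2 huv
  have e : g * (u * v) * g⁻¹ = g * u * g⁻¹ * t := by rw [← hg2]; group
  refine ⟨⟨g, _, hg1, e⟩, ?_⟩
  have h1 := odd_card_cent_ut hS hg1
  rw [← e] at h1
  have h3 : Nat.card ↥(Subgroup.centralizer {u * v}) =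
      Nat.card ↥(Subgroup.centralizer {g * (u * v) * g⁻¹}) := by
    refine Nat.card_congr ⟨fun x => ⟨g * x * g⁻¹, ?_⟩, fun x => ⟨g⁻¹ * x * g, ?_⟩, fun x => ?_,
      fun x => ?_⟩
    · have := Subgroup.mem_centralizer_singleton_iff.1 x.2
      rw [Subgroup.mem_centralizer_singleton_iff]
      calc g * x * g⁻¹ * (g * (u * v) * g⁻¹) = g * (x * (u * v)) * g⁻¹ := by group
        _ = _ := by rw [this]; group
    · have := Subgroup.mem_centralizer_singleton_iff.1 x.2
      rw [Subgroup.mem_centralizer_singleton_iff]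
      calc g⁻¹ * x * g * (u * v) = g⁻¹ * (x * (g * (u * v) * g⁻¹)) * g := by group
        _ = _ := by rw [this]; group
    · apply Subtype.ext
      change g⁻¹ * (g * x * g⁻¹) * g = x
      group
    · apply Subtype.ext
      change g * (g⁻¹ * x * g) * g⁻¹ = x
      group
  rwa [h3]

end Cfsg.Agent.S1135
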