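import Cfsg.Statements.S1141
import Cfsg.Agent.Suz.UnitaryModel
import Cfsg.Agent.S1132

set_option autoImplicit false
open Cfsg

namespace Cfsg.Agent.S1141

open Cfsg.Lib.Suz Cfsg.Lib.Class Cfsg.Lib.Class.Form Cfsg.Lib.Chev.RankOne

theorem suzuki_of_equiv {P P' : Type*} [Group P] [Group P'] (e : P ≃* P') (h : IsSuzukiTwoGroup P) :
    IsSuzukiTwoGroup P' := by
  obtain ⟨h1, h2, ⟨x, y, h3⟩, ⟨u, v, h4, h5, h6, h7, h8⟩, K, hK, h9⟩ := h
  refine ⟨Finite.of_equiv _ e.toEquiv, h2.of_equiv e, ⟨e x, e y, fun h => h3 (e.injective (by simpa using h))⟩,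
    ⟨e u, e v, e.injective.ne h4, by simpa using h5, by rw [← map_mul, h6, map_one], by simpa using h7,
      by rw [← map_mul, h8, map_one]⟩, K.map (MulAut.congr e).toMonoidHom,
    isCyclic_of_surjective _ ((MulAut.congr e).subgroupMap K).surjective, fun x y hx hx2 hy hy2 => ?_⟩
  obtain ⟨x, rfl⟩ := e.surjective x
  obtain ⟨y, rfl⟩ := e.surjective y
  obtain ⟨k, hk, hk'⟩ := h9 x y (by simpa using hx) (e.injective (by simpa using hx2)) (by simpa using hy)
    (e.injective (by simpa using hy2))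
  refine ⟨⟨_, k, k.2, rfl⟩, by simpa using hk, ?_⟩
  rintro ⟨_, l, hl, rfl⟩ h
  have := hk' ⟨l, hl⟩ (by simpa using h)
  subst this
  rfl

/-- Let `q = 2^n ≥ 4` and `|F| = q²`. A Sylow 2-subgroup `S` of `PSU₃(q)` has order `q³`, its centre has order `q`, and `S` is a Suzuki 2-group. -/
theorem result {F : Type*} [Field F] [Fintype F] {n : ℕ} (hn : 2 ≤ n)
    (hF : Fintype.card F = (2 ^ n) ^ 2) (S : Sylow 2 (Cfsg.PSU 3 F (2 ^ n))) :
    Nat.card S = (2 ^ n) ^ 3 ∧ Nat.card (Subgroup.center ↥(S : Subgroup (Cfsg.PSU 3 F (2 ^ n)))) = 2 ^ n ∧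
      Cfsg.IsSuzukiTwoGroup ↥(S : Subgroup (Cfsg.PSU 3 F (2 ^ n))) := by
  obtain ⟨H, Q, t, u, hS, hu⟩ := exists_psu_model hF
  have hq : 2 ^ n ≠ 2 := fun h => by
    have := Nat.pow_le_pow_right two_pos hn
    omega
  have : CharP F 2 := charP_of_card_eq_prime_pow (f := n * 2) (by rw [hF, pow_mul])
  have h2 : (2 : F) = 0 := CharTwo.two_eq_zero
  have := isSimpleGroup_PSU hF 3 le_rfl (fun h => hq h.2)
  have := faithful_of_simple hS
  have hσ := frobq_frobq hF
  have hcard : Nat.card Q = (2 ^ n) ^ 3 := by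
    rw [← Nat.card_congr hu.equiv, Nat.card_congr (Equiv.subtypeProdEquivSigmaSubtype
      fun x y : F => y + frobq hF y = x * frobq hF x), Nat.card_sigma]
    have : ∀ x : F, Nat.card {y : F // y + frobq hF y = x * frobq hF x} = 2 ^ n := fun x =>
      card_trace_eq hF (by rw [← frobq_apply hF, map_mul, hσ, mul_comm])
    simp only [this, Finset.sum_const, Finset.card_univ, hF, smul_eq_mul]
    ring
  have hQ : IsPGroup 2 Q := IsPGroup.of_card (n := n * 3) (by rw [hcard, pow_mul])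
  obtain ⟨P, hP⟩ := exists_sylow_le hS
  have e : (S : Subgroup (PSU 3 F (2 ^ n))) ≃* Q :=
    (Sylow.equiv S P).trans (MulEquiv.subgroupCongr (P.is_maximal' hQ hP).symm)
  obtain ⟨ξ, hξ⟩ : ∃ ξ, frobq hF ξ ≠ ξ := by
    by_contra! h
    exact frobq_ne_id hF (RingHom.ext h)
  have hex : ∀ x : F, ∃ y, y + frobq hF y = x * frobq hF x := fun x =>
    exists_trace_eq (frobq_ne_id hF) hσ (by rw [map_mul, hσ, mul_comm])
  have hcen : ∀ p, hu.equiv p ∈ Subgroup.center Q ↔ p.1.1 = 0 := by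
    rintro ⟨⟨x, y⟩, hp⟩
    rw [Subgroup.mem_center_iff]
    refine ⟨fun h => ?_, fun h g => ?_⟩
    · have key : ∀ x', x' * frobq hF x = x * frobq hF x' := fun x' => by
        obtain ⟨y', hy'⟩ := hex x'
        have h1 : u x' y' * u x y = u x y * u x' y' :=
          congrArg Subtype.val (h (hu.equiv ⟨(x', y'), hy'⟩))
        rw [hu.mul hy' hp, hu.mul hp hy'] at h1
        linear_combination (hu.inj (uJ_mul_cond hσ hy' hp) (uJ_mul_cond hσ hp hy') h1).2
      have h1 := key 1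
      have h3 := key ξ
      rw [map_one, one_mul, mul_one] at h1
      rw [h1, mul_comm] at h3
      by_contra hx
      exact hξ (mul_left_cancel₀ hx h3).symm
    · obtain ⟨⟨⟨x', y'⟩, hp'⟩, rfl⟩ := hu.equiv.surjective g
      obtain rfl : x = 0 := h
      refine Subtype.ext ((hu.mul hp' hp).trans (Eq.trans ?_ (hu.mul hp hp').symm))
      simp [add_comm]
  refine ⟨by rw [← hcard]; exact Nat.card_congr e.toEquiv, ?_, suzuki_of_equiv e.symm ?_⟩
  · rw [Nat.card_congr (subgroupEquivOfIff e _ _ (mem_center_mulEquiv_iff e)).toEquiv]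
    refine Eq.trans ?_ (card_trace_eq hF (n := 0) (zero_pow (by positivity)))
    refine (Nat.card_congr (Equiv.ofBijective (fun y => ⟨hu.equiv ⟨(0, y.1), by simpa using y.2⟩,
      (hcen _).2 rfl⟩) ⟨fun y y' h => ?_, fun g => ?_⟩)).symm
    · exact Subtype.ext (congrArg (fun p => p.1.2) (hu.equiv.injective (congrArg Subtype.val h)))
    · obtain ⟨g, hg⟩ := g
      obtain ⟨⟨⟨x, y⟩, hp⟩, rfl⟩ := hu.equiv.surjective g
      obtain rfl : x = 0 := (hcen _).1 hg
      exact ⟨⟨y, by simpa using hp⟩, rfl⟩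
  obtain ⟨c, hc, hc0, hc1⟩ := exists_fixed_ne_of_ne_two hF hq
  have h01 : (1 : F) + frobq hF 1 = 0 * frobq hF 0 := by simp [CharTwo.add_self_eq_zero]
  have h0c : c + frobq hF c = 0 * frobq hF 0 := by rw [hc]; simp [CharTwo.add_self_eq_zero]
  have h00 : (0 : F) + frobq hF 0 = 0 * frobq hF 0 := by simp
  obtain ⟨T⟩ : Nonempty (Sylow 2 Q) := inferInstance
  have hT : (T : Subgroup Q) = ⊤ := (T.is_maximal' (hQ.to_subgroup ⊤) le_top).symm
  have e' : (T : Subgroup Q) ≃* Q := (MulEquiv.subgroupCongr hT).trans Subgroup.topEquiv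
  rcases Cfsg.Agent.S1132.result hS ⟨u 0 1, u 0 c,
    fun h => one_ne_zero (hu.inj h01 h00 (h.trans hu.zero.symm)).2,
    fun h => hc0 (hu.inj h0c h00 (h.trans hu.zero.symm)).2, fun h => hc1 (hu.inj h01 h0c h).2.symm,
    by rw [hu.mul h01 h01, ← hu.zero]; simp [CharTwo.add_self_eq_zero],
    by rw [hu.mul h0c h0c, ← hu.zero]; simp [CharTwo.add_self_eq_zero],
    by rw [hu.mul h01 h0c, hu.mul h0c h01]; simp [add_comm]⟩ T with h | h
  · obtain ⟨y, hy⟩ := hex 1
    refine absurd ((hcen ⟨(1, y), hy⟩).1 (Subgroup.mem_center_iff.2 fun g => ?_)) one_ne_zero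
    apply e'.symm.injective
    rw [map_mul, map_mul, mul_comm']
  · exact suzuki_of_equiv e' h

end Cfsg.Agent.S1141
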