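import Cfsg.Statements.S1148
import Cfsg.Agent.U3.OddMain
import Cfsg.Agent.S0322

set_option autoImplicit false
open Cfsg

namespace Cfsg.Agent.S1148

open MulAction

/-- Let `G` be finite simple with a (B,N)-pair of rank 1, `B = U H` with `U` nilpotent normal in `B`, `H = B ⊓ N`, `U ⊓ H = 1`, where `[G : B] = p^(3n) + 1` for an odd prime `p`, `|U| = p^(3n)` and `H` is cyclic of order `(p^(2n) - 1)/gcd(3, p^n + 1)`. Then `G ≅ PSU₃(p^n)`. -/
theorem result {G : Type*} [Group G] [Finite G] [IsSimpleGroup G]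
    (P : Cfsg.BNPair G) (h1 : P.rank = 1) {p n : ℕ} (hp : p.Prime) (hp2 : p ≠ 2) (hn : 1 ≤ n)
    (U : Subgroup G) (hUB : U ≤ P.B) (hUn : ∀ b ∈ P.B, ∀ u ∈ U, b * u * b⁻¹ ∈ U)
    (hUnil : Group.IsNilpotent U) (hsplit : U ⊔ (P.B ⊓ P.N) = P.B) (hdisj : U ⊓ (P.B ⊓ P.N) = ⊥)
    (hind : P.B.index = p ^ (3 * n) + 1) (hU : Nat.card U = p ^ (3 * n))
    (hHc : IsCyclic ↥(P.B ⊓ P.N))
    (hH : Nat.gcd 3 (p ^ n + 1) * Nat.card ↥(P.B ⊓ P.N) = p ^ (2 * n) - 1) :
    ∃ (F : Type) (_ : Field F) (_ : Fintype F), Fintype.card F = (p ^ n) ^ 2 ∧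
      Nonempty (G ≃* Cfsg.PSU 3 F (p ^ n)) := by
  obtain ⟨⟨s, hs⟩, -⟩ := Nat.card_eq_one_iff_exists.1 h1
  have hsN := P.subset hs
  have hsB : s ∉ P.B := fun h => P.conj_ne s hs (Set.ext fun x =>
    ⟨by rintro ⟨y, hy, rfl⟩; exact P.B.mul_mem (P.B.mul_mem h hy) h,
      fun hx => ⟨s⁻¹ * x * s⁻¹, P.B.mul_mem (P.B.mul_mem (P.B.inv_mem h) hx) (P.B.inv_mem h),
        by group⟩⟩)
  set a : G ⧸ P.B := ((1 : G) : G ⧸ P.B)
  have ha : ∀ g : G, g • a = a ↔ g ∈ P.B := fun g => by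
    rw [← mem_stabilizer_iff, stabilizer_quotient]
  have hne : s • a ≠ a := fun e => hsB ((ha s).1 e)
  have hHb : ∀ h ∈ P.B ⊓ P.N, h • s • a = s • a := fun h hh => by
    rw [← inv_smul_eq_iff, ← mul_smul, ← mul_smul, ha]
    simpa using P.conj_mem s⁻¹ (P.N.inv_mem hsN) h hh
  have dec : ∀ g ∈ P.B, ∃ u ∈ U, ∃ h ∈ P.B ⊓ P.N, g = u * h := by
    let V : Subgroup G :=
      { carrier := {g | ∃ u ∈ U, ∃ h ∈ P.B ⊓ P.N, g = u * h}
        one_mem' := ⟨1, U.one_mem, 1, Subgroup.one_mem _, by simp⟩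
        mul_mem' := by
          rintro _ _ ⟨u, hu, h, hh, rfl⟩ ⟨u', hu', h', hh', rfl⟩
          exact ⟨_, U.mul_mem hu (hUn h hh.1 u' hu'), _, Subgroup.mul_mem _ hh hh', by group⟩
        inv_mem' := by
          rintro _ ⟨u, hu, h, hh, rfl⟩
          exact ⟨_, hUn _ (P.B.inv_mem hh.1) _ (U.inv_mem hu), _, Subgroup.inv_mem _ hh,
            by group⟩ }
    have : U ⊔ (P.B ⊓ P.N) ≤ V := sup_le (fun u hu => ⟨u, hu, 1, Subgroup.one_mem _, by simp⟩)
      fun h hh => ⟨1, U.one_mem, h, hh, by simp⟩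
    rw [hsplit] at this
    exact this
  have tr : ∀ c, c ≠ a → ∃ x ∈ U, x • s • a = c := fun c hc => by
    obtain ⟨g, g1, g2⟩ := is_two_pretransitive_iff.1 (S0322.result P h1) hne.symm hc.symm
    obtain ⟨u, hu, h, hh, rfl⟩ := dec g ((ha g).1 g1)
    exact ⟨u, hu, by rw [← g2, mul_smul, hHb h hh]⟩
  have fr : ∀ x ∈ U, x • s • a = s • a → x = 1 := by
    let f : U → ({a}ᶜ : Set (G ⧸ P.B)) := fun u => ⟨(u : G) • s • a, fun e =>
      hne (MulAction.injective (u : G) (Eq.trans e ((ha u).2 (hUB u.2)).symm))⟩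
    have hf : Function.Surjective f := fun c => by
      obtain ⟨x, hx, e⟩ := tr c c.2
      exact ⟨⟨x, hx⟩, Subtype.ext e⟩
    have hb := hf.bijective_of_nat_card_le (by
      rw [Nat.card_coe_set_eq, Set.ncard_compl, Set.ncard_singleton, hU, ← Subgroup.index, hind]
      omega)
    intro x hx e
    exact congrArg Subtype.val (hb.1 (a₁ := ⟨x, hx⟩) (a₂ := 1) (Subtype.ext (by simpa [f] using e)))
  have hH' : stabilizer G a ⊓ stabilizer G (s • a) = P.B ⊓ P.N := by
    apply le_antisymm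
    · intro g hg
      obtain ⟨u, hu, h, hh, rfl⟩ := dec g ((ha g).1 hg.1)
      have : (u * h) • s • a = s • a := hg.2
      rw [mul_smul, hHb h hh] at this
      rw [fr u hu this, one_mul]
      exact hh
    · exact fun h hh => ⟨(ha h).2 hh.1, hHb h hh⟩
  let D : Lib.U3.OData G (G ⧸ P.B) :=
    { a := a
      b := s • a
      U := U
      p := p
      n := n
      hp := hp
      hp2 := hp2
      hn := hn
      ne := hne
      tr := exists_smul_eq G a
      U_fix := fun x hx => (ha x).2 (hUB hx)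
      norm := fun g hg => hUn g ((ha g).1 hg)
      trans := tr
      free := fr
      card_U := by rw [hU, mul_comm, pow_mul]
      cyc := hH' ▸ hHc
      card_H := by rw [hH', hH, mul_comm, pow_mul]
      faith := fun g hg => by
        rcases (toPermHom G (G ⧸ P.B)).normal_ker.eq_bot_or_eq_top with h | h
        · exact (h.le (show g ∈ _ from Equiv.ext hg) : g ∈ (⊥ : Subgroup G))
        · exact (hne (DFunLike.congr_fun (show s ∈ (toPermHom G (G ⧸ P.B)).ker from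
            h ▸ Subgroup.mem_top _) a)).elim }
  have := Fact.mk hp
  have := Fintype.ofFinite (GaloisField p (n * 2))
  have hE : Fintype.card (GaloisField p (n * 2)) = (p ^ n) ^ 2 := by
    rw [← Nat.card_eq_fintype_card, GaloisField.card p _ (by omega), pow_mul]
  exact ⟨GaloisField p (n * 2), inferInstance, this, hE, D.nonempty_equiv hE⟩

end Cfsg.Agent.S1148
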