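import Cfsg.Statements.S1151
import Cfsg.Agent.Known.ReeInst
import Cfsg.Agent.Known.ReeEasy

set_option autoImplicit false
open Cfsg

namespace Cfsg.Agent.S1151

open Cfsg.Lib.Known.Ree

/-- In the small Ree group ²G₂(q), q = 3^(2m+1), realised as G¹ inside the Chevalley group G₂ over the field with q elements (θ the 3^m-th power map), with H¹ = G¹ ∩ H and U¹ = G¹ ∩ U the intersections with the ambient diagonal and positive unipotent subgroups: `H¹` has exactly `(q - 1)/2` elements of odd order, and each non-identity one centralises no non-identity element of `U¹`. -/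
theorem result {K : Type*} [Field K] [Fintype K] {m : ℕ} (hK : Fintype.card K = 3 ^ (2 * m + 1)) :
    2 * Nat.card {h : ↥(Cfsg.Lie.chevG2.diagonalSubgroup K ⊓ Cfsg.Lie.twistedG2 K (3 ^ m)) // Odd (orderOf h)} = 3 ^ (2 * m + 1) - 1 ∧
      ∀ h ∈ (Cfsg.Lie.chevG2.diagonalSubgroup K ⊓ Cfsg.Lie.twistedG2 K (3 ^ m)), h ≠ 1 → Odd (orderOf h) →
        (Cfsg.Lie.chevG2.posUnipotent K ⊓ Cfsg.Lie.twistedG2 K (3 ^ m)) ⊓ Subgroup.centralizer {h} = ⊥ := by
  obtain ⟨τ, M, hU, hH, -⟩ := exists_model hK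
  refine ⟨?_, fun h hh h1 ho => ?_⟩
  · rw [← hK, ← M.two_mul_card_odd_H]
    congr 1
    exact Nat.card_congr ((infEquiv hH).toEquiv.subtypeEquiv fun a =>
      (congrArg Odd ((infEquiv hH).orderOf_eq a)).symm.to_iff)
  · rw [eq_bot_iff]
    rintro u ⟨hu, hc⟩
    exact congrArg Subtype.val (M.eq_one_of_commute_odd (g := ⟨h, hh.2⟩) (u := ⟨u, hu.2⟩) ((hH _).2 hh.1)
      (fun e => h1 (congrArg Subtype.val e)) (by rwa [← Subgroup.orderOf_coe]) ((hU _).2 hu.1)
      (Subtype.ext (Subgroup.mem_centralizer_singleton_iff.1 hc)))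

end Cfsg.Agent.S1151
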