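import Cfsg.Statements.S1152
import Cfsg.Agent.Known.ReeInst
import Cfsg.Agent.Known.ReeEasy

set_option autoImplicit false
open Cfsg

namespace Cfsg.Agent.S1152

open Cfsg.Lib.Known.Ree

/-- In the small Ree group ²G₂(q), q = 3^(2m+1), realised as G¹ inside the Chevalley group G₂ over the field with q elements (θ the 3^m-th power map), with H¹ = G¹ ∩ H and U¹ = G¹ ∩ U the intersections with the ambient diagonal and positive unipotent subgroups: for an involution `a ∈ H¹`, the centraliser of `a` in `G¹` is isomorphic to `Z₂ × PSL₂(q)`; and the Sylow 2-subgroups of `G¹` are elementary abelian of order 8. -/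
theorem result {K : Type*} [Field K] [Fintype K] {m : ℕ} (hK : Fintype.card K = 3 ^ (2 * m + 1))
    (a : ↥(Cfsg.Lie.twistedG2 K (3 ^ m))) (haH : (a : GL Cfsg.Lie.chevG2.Idx K) ∈ Cfsg.Lie.chevG2.diagonalSubgroup K) (ha1 : a ≠ 1) (ha2 : a * a = 1) :
    Nonempty (↥(Subgroup.centralizer {a}) ≃* Multiplicative (ZMod 2) × Matrix.ProjectiveSpecialLinearGroup (Fin 2) K) ∧
      ∀ S : Sylow 2 ↥(Cfsg.Lie.twistedG2 K (3 ^ m)), Nat.card S = 8 ∧ ∀ x ∈ S, x * x = 1 := by
  obtain ⟨τ, M, -, hH, -⟩ := exists_model hK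
  refine ⟨?_, fun S => ?_⟩
  · obtain ⟨l, rfl⟩ := M.mem_H.1 ((hH a).2 haH)
    rw [← map_mul, M.h_eq_one, Units.ext_iff, Units.val_mul, Units.val_one, mul_self_eq_one_iff] at ha2
    rcases ha2 with h | h
    · exact absurd (M.h_eq_one.2 (Units.ext h)) ha1
    · rw [show l = -1 from Units.ext h]
      exact M.nonempty_centralizer_t_equiv
  · obtain ⟨k, hk⟩ := M.exists_sylow_two_eq S
    refine ⟨?_, fun x hx => ?_⟩
    · rw [← M.card_S, ← card_map_equiv (MulAut.conj k) M.S, ← hk]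
    · obtain ⟨y, hy, rfl⟩ := hk ▸ (show x ∈ S.toSubgroup from hx)
      rw [← map_mul, M.mul_self_of_mem_S hy, map_one]

end Cfsg.Agent.S1152
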