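import Cfsg.Statements.S1167
import Cfsg.Agent.Perm.ZassInvol

set_option autoImplicit false
open Cfsg

namespace Cfsg.Agent.S1167

open Cfsg.Lib.Perm Cfsg.Lib.Char.Zass Cfsg.Lib.Suz Cfsg.Lib.Chev.RankOne MulAction

/-- Let `G` be a finite simple Zassenhaus group on `Ω`, `U` a normal subgroup of `G_a` regular on `Ω` minus `a` which is an abelian 2-group, and `v` an involution with `v • a ≠ a`. Then there is a unique `u₀ ∈ U`, `u₀ ≠ 1`, with `v u₀ v = u₀ v u₀`. -/
theorem result {G Ω : Type*} [Group G] [Finite G] [MulAction G Ω] [Finite Ω]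
    (hZ : Cfsg.IsZassenhausGroup G Ω) [IsSimpleGroup G] {a : Ω}
    (U : Subgroup G) (hUle : U ≤ MulAction.stabilizer G a)
    (hUn : ∀ h ∈ MulAction.stabilizer G a, ∀ u ∈ U, h * u * h⁻¹ ∈ U)
    (hreg : ∀ c d : Ω, c ≠ a → d ≠ a → ∃! u : U, (u : G) • c = d)
    (hU2 : IsPGroup 2 U) (hUab : ∀ u ∈ U, ∀ u' ∈ U, u * u' = u' * u)
    (v : G) (hv1 : v ≠ 1) (hv2 : v * v = 1) (hva : v • a ≠ a) :
    ∃! u₀ : G, u₀ ∈ U ∧ u₀ ≠ 1 ∧ v * u₀ * v = u₀ * v * u₀ := by
  have hab : a ≠ v • a := hva.symm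
  have hz2 := Z2.of_zass hZ
  have hN : IsNKer G a U := isNKer_of_regular hab hUle
    ⟨fun u hu h => hUn h h.2 u hu⟩ hreg
  have hK := stab2_ne_bot hZ hab
  have hc := hN.card
  have hdvd := hz2.card_stab2_dvd_card_sub_two hab
  have he := (Subgroup.one_lt_card_iff_ne_bot _).2 hK
  have h3 : 3 ≤ Nat.card Ω := three_le_card hZ
  have hev : Even (Nat.card U) := even_card_of_isPGroup hU2 (Z2.kernel_ne_bot hN.toIsKernel h3)
  have hodd := hz2.odd_card_stab2_of_odd hab (hc ▸ hev.add_one)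
  have hz := ZO.of_simple hZ hab hN.toIsKernel hodd
  have ht : v • v • a = a := by rw [← mul_smul, hv2, one_smul]
  have hS := hz.setup ht hev
  have hsq : ∀ u ∈ U, u * u = 1 := by
    have h1 : (II G a).ncard + 1 = Nat.card U := by
      rw [hz.card_II hev]
      obtain ⟨k, hk⟩ := hev
      rcases card_stab2_of_comm hZ hab hN hUab with h1 | ⟨h1, -⟩
      · change Nat.card (stabilizer G a ⊓ stabilizer G (v • a) : Subgroup G) + 1 = _
        omega
      · omega
    have h2 : insert 1 (II G a) = (U : Set G) := by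
      refine Set.eq_of_subset_of_ncard_le ?_ ?_
      · rintro x (rfl | hx)
        · exact U.one_mem
        · exact II_Q hS hx
      · rw [Set.ncard_insert_of_notMem (fun h => h.2.1 rfl), h1]
        rfl
    intro u hu
    rcases (h2 ▸ hu : u ∈ insert 1 (II G a)) with rfl | hu
    · exact mul_one _
    · exact hu.2.2
  obtain ⟨s, hs, r, hr, e⟩ := exists_struct hS
  rcases (hz.hyp ht hev hK).struct_cases hs hr e (by rw [hsq r hr, mul_one]) with ⟨-, h1⟩ | ⟨h1, -⟩
  swap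
  · exact absurd (hsq r hr) h1
  refine ⟨s, ⟨II_Q hS hs, hs.2.1, h1⟩, fun u ⟨hu, hu1, h2⟩ => ?_⟩
  exact (struct_unique hS ⟨hUle hu, hu1, hsq u hu⟩ hs hu (II_Q hS hs)
    (by rw [inv_eq_of_mul_eq_one_right (hsq u hu), h2])
    (by rw [inv_eq_of_mul_eq_one_right hs.2.2, h1])).1

end Cfsg.Agent.S1167
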