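import Cfsg.Statements.S1176
import Cfsg.Agent.Trans.Isolated

set_option autoImplicit false
open Cfsg

namespace Cfsg.Agent.S1176

open Cfsg.Lib.Trans Cfsg.Lib.Local
open scoped commutatorElement

/-- Let x₀ be an involution of the finite group G and D its conjugacy class. Assume (a) for each x ∈ D the subgroup W(x) generated by the members of D commuting with x is a 2-group of nilpotency class at most 2, and (b) the product of two distinct commuting members of D again lies in D. Then for all x, y ∈ D, if xy has even order greater than 2, its order is 4. -/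
theorem result {G : Type*} [Group G] [Finite G] (x₀ : G) (hx₀ : orderOf x₀ = 2) (ha : ∀ x : G, IsConj x₀ x → IsPGroup 2 ↥(Subgroup.closure {y : G | IsConj x₀ y ∧ Commute y x}) ∧ ⁅⁅Subgroup.closure {y : G | IsConj x₀ y ∧ Commute y x}, Subgroup.closure {y : G | IsConj x₀ y ∧ Commute y x}⁆, Subgroup.closure {y : G | IsConj x₀ y ∧ Commute y x}⁆ = ⊥) (hb : ∀ x y : G, IsConj x₀ x → IsConj x₀ y → x ≠ y → Commute x y → IsConj x₀ (x * y)) (x y : G) (hx : IsConj x₀ x) (hy : IsConj x₀ y) (heven : Even (orderOf (x * y))) (hgt : 2 < orderOf (x * y)) : orderOf (x * y) = 4 := by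
  have hx2 := mul_self_of_isConj (mul_self_of_orderOf_two hx₀) hx
  have hy2 := mul_self_of_isConj (mul_self_of_orderOf_two hx₀) hy
  obtain ⟨m, -, hm, hc1, hc2⟩ := exists_central_invol_of_even hx2 hy2 heven
  have h1 : IsConj x₀ (x * (x * y) ^ m) := by
    rcases Int.even_or_odd (m : ℤ) with h | h
    · obtain ⟨k, hk⟩ := exists_zpow_conj_eq_mul_zpow_even hx2 hy2 h
      rw [zpow_natCast] at hk
      exact hx.trans (isConj_iff.mpr ⟨_, hk⟩)
    · obtain ⟨k, hk⟩ := exists_zpow_conj_eq_mul_zpow_odd hx2 hy2 h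
      rw [zpow_natCast] at hk
      exact hy.trans (isConj_iff.mpr ⟨_, hk⟩)
  have h2 := hb x _ hx h1 (fun h => ne_one_of_orderOf_two hm (by simpa using h.symm))
    ((Commute.refl x).mul_right hc1)
  rw [← mul_assoc, hx2, one_mul] at h2
  have h3 := (ha _ h2).2
  have hxW : x ∈ Subgroup.closure {y' : G | IsConj x₀ y' ∧ Commute y' ((x * y) ^ m)} :=
    Subgroup.subset_closure ⟨hx, hc1⟩
  have hyW : y ∈ Subgroup.closure {y' : G | IsConj x₀ y' ∧ Commute y' ((x * y) ^ m)} :=
    Subgroup.subset_closure ⟨hy, hc2⟩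
  have h4 := Subgroup.commutator_mem_commutator (Subgroup.commutator_mem_commutator hxW hyW) hxW
  rw [h3, Subgroup.mem_bot, commutatorElement_eq_one_iff_mul_comm] at h4
  have h5 : ⁅x, y⁆ = (x * y) ^ (2 : ℤ) := by
    rw [commutatorElement_def, inv_eq_of_mul_eq_one_right hx2, inv_eq_of_mul_eq_one_right hy2,
      zpow_two]
    group
  rw [h5, dih_zpow_mul (dih_inverts hx2 hy2), mul_right_inj] at h4
  have h6 : (x * y) ^ 4 = 1 := by
    calc (x * y) ^ 4 = (x * y) ^ (2 : ℤ) * (x * y) ^ (2 : ℤ) := by group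
      _ = (x * y) ^ (-2 : ℤ) * (x * y) ^ (2 : ℤ) := by rw [h4]
      _ = 1 := by group
  have h7 := orderOf_dvd_of_pow_eq_one h6
  have h8 := Nat.le_of_dvd (by norm_num) h7
  interval_cases h : orderOf (x * y) <;> simp_all

end Cfsg.Agent.S1176
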