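import Cfsg.Statements.S1177
import Cfsg.Agent.Solv.Conj

set_option autoImplicit false
open Cfsg

namespace Cfsg.Agent.S1177

open Cfsg.Lib.Solv
open scoped Pointwise

/-- Let A be a nontrivial elementary abelian 2-subgroup of a finite group G which is a T.I. set (each conjugate of A meets A trivially or equals A) and which does not commute elementwise with any conjugate of A other than A itself. Then for every a ∈ A, a ≠ 1, every conjugate of A contained in C_G(a) is equal to A (A is weakly closed in C_G(a)). -/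
theorem result {G : Type*} [Group G] [Finite G] (A : Subgroup G) (hA : Cfsg.IsElementaryAbelian 2 A) (hA1 : A ≠ ⊥) (hTI : ∀ g : G, A.map (MulAut.conj g).toMonoidHom ⊓ A = ⊥ ∨ A.map (MulAut.conj g).toMonoidHom = A) (hb : ∀ g : G, (∀ a ∈ A, ∀ b ∈ A.map (MulAut.conj g).toMonoidHom, a * b = b * a) → A.map (MulAut.conj g).toMonoidHom = A) (a : G) (ha : a ∈ A) (ha1 : a ≠ 1) (g : G) (hg : A.map (MulAut.conj g).toMonoidHom ≤ Subgroup.centralizer ({a} : Set G)) : A.map (MulAut.conj g).toMonoidHom = A := by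
  simp only [map_conj_eq_smul] at hTI hb hg ⊢
  set B := MulAut.conj g • A with hB
  by_contra hne
  have hAB : B ⊓ A = ⊥ := (hTI g).resolve_right hne
  have hdis : ∀ x, x ∈ B → x ∈ A → x = 1 := fun x h1 h2 =>
    Subgroup.mem_bot.mp (hAB ▸ Subgroup.mem_inf.mpr ⟨h1, h2⟩)
  have hAc : ∀ x ∈ A, ∀ y ∈ A, x * y = y * x := fun x hx y hy =>
    congrArg Subtype.val (hA.1.is_comm.comm (⟨x, hx⟩ : A) ⟨y, hy⟩)
  have hA2 : ∀ x ∈ A, x * x = 1 := fun x hx => by rw [← pow_two]; exact hA.2 x hx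
  have hB2 : ∀ x ∈ B, x * x = 1 := by
    intro x hx
    obtain ⟨y, hy, rfl⟩ := mem_conj_smul_iff_exists.mp hx
    calc g * y * g⁻¹ * (g * y * g⁻¹) = g * (y * y) * g⁻¹ := by group
      _ = 1 := by rw [hA2 y hy]; simp
  have hBc : ∀ x ∈ B, ∀ y ∈ B, x * y = y * x := by
    intro x hx y hy
    obtain ⟨x, hx', rfl⟩ := mem_conj_smul_iff_exists.mp hx
    obtain ⟨y, hy', rfl⟩ := mem_conj_smul_iff_exists.mp hy
    calc g * x * g⁻¹ * (g * y * g⁻¹) = g * (x * y) * g⁻¹ := by group
      _ = _ := by rw [hAc x hx' y hy']; group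
  have conjB : ∀ h : G, MulAut.conj h • B = MulAut.conj g • MulAut.conj (g⁻¹ * h * g) • A := by
    intro h
    rw [hB, ← conj_mul_smul, ← conj_mul_smul]
    congr 2; group
  -- an element centralizing a nontrivial element of `A` normalizes `A`; likewise for `B`
  have hNA : ∀ x ∈ A, x ≠ 1 → ∀ h : G, h * x = x * h → MulAut.conj h • A = A := by
    intro x hx hx1 h hc
    refine (hTI h).resolve_left fun e => hx1 ?_
    have : x ∈ MulAut.conj h • A ⊓ A :=
      ⟨mem_conj_smul_iff_exists.mpr ⟨x, hx, by rw [hc]; group⟩, hx⟩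
    rwa [e, Subgroup.mem_bot] at this
  have hNB : ∀ x ∈ B, x ≠ 1 → ∀ h : G, h * x = x * h → MulAut.conj h • B = B := by
    intro x hx hx1 h hc
    rw [conjB, hNA (g⁻¹ * x * g) (mem_conj_smul.mp hx) (fun e => hx1 (by
      calc x = g * (g⁻¹ * x * g) * g⁻¹ := by group
        _ = 1 := by rw [e]; simp)) _ (by
      calc g⁻¹ * h * g * (g⁻¹ * x * g) = g⁻¹ * (h * x) * g := by group
        _ = _ := by rw [hc]; group)]
  have hBA : ∀ b ∈ B, ∀ x ∈ A, b * x * b⁻¹ ∈ A := by
    intro b hb x hx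
    rw [← hNA a ha ha1 b (Subgroup.mem_centralizer_singleton_iff.mp (hg hb))]
    exact conj_mem_conj_smul b hx
  -- elements of `A` normalizing `B` centralize it
  have hcent : ∀ x ∈ A, MulAut.conj x • B = B → ∀ b ∈ B, x * b = b * x := by
    intro x hx hxB b hb
    have h1 : x * b * x⁻¹ * b⁻¹ = 1 := by
      apply hdis
      · exact mul_mem (hxB ▸ conj_mem_conj_smul x hb) (inv_mem hb)
      · have := mul_mem hx (hBA b hb _ (inv_mem hx))
        simpa [mul_assoc] using this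
    calc x * b = x * b * x⁻¹ * b⁻¹ * (b * x) := by group
      _ = _ := by rw [h1, one_mul]
  apply hne
  apply hb
  intro x hx
  apply hcent x hx
  rw [conjB, hb (g⁻¹ * x * g)]
  -- `B` commutes with its conjugate under `x`
  have key : ∀ b ∈ B, ∀ b' ∈ B, b * (x * b' * x⁻¹) = (x * b' * x⁻¹) * b := by
    intro b hb b' hb'
    by_cases h1 : b' = 1
    · subst h1; simp
    have hc : x * (b' * x⁻¹ * b'⁻¹) ∈ A := mul_mem hx (hBA b' hb' _ (inv_mem hx))
    have hb'i : b'⁻¹ = b' := inv_eq_of_mul_eq_one_right (hB2 b' hb')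
    have hxi : x⁻¹ = x := inv_eq_of_mul_eq_one_right (hA2 x hx)
    have hcb : x * (b' * x⁻¹ * b'⁻¹) * b' = b' * (x * (b' * x⁻¹ * b'⁻¹)) := by
      have := hAc x hx _ (hBA b' hb' _ hx)
      rw [hxi, hb'i] at *
      calc x * (b' * x * b') * b' = (b' * x * b') * x * b' := by rw [this]
        _ = _ := by group
    have h2 := hcent _ hc (hNB b' hb' h1 _ hcb) b hb
    calc b * (x * b' * x⁻¹) = b * (x * (b' * x⁻¹ * b'⁻¹)) * b' := by group
      _ = x * (b' * x⁻¹ * b'⁻¹) * (b * b') := by rw [← h2]; group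
      _ = _ := by rw [hBc b hb b' hb']; group
  intro y hy y' hy'
  obtain ⟨w, hw, rfl⟩ := mem_conj_smul_iff_exists.mp hy'
  have := key _ (conj_mem_conj_smul g hy) _ (conj_mem_conj_smul g hw)
  calc y * (g⁻¹ * x * g * w * (g⁻¹ * x * g)⁻¹)
      = g⁻¹ * (g * y * g⁻¹ * (x * (g * w * g⁻¹) * x⁻¹)) * g := by group
    _ = _ := by rw [this]; group

end Cfsg.Agent.S1177
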