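import Cfsg.Statements.S1178
import Cfsg.Agent.Solv.Conj

set_option autoImplicit false
open Cfsg

namespace Cfsg.Agent.S1178

open Cfsg.Lib.Solv
open scoped Pointwise

/-- Let A be a subgroup of a Sylow 2-subgroup S of the finite group G which is weakly closed in S. If a conjugate g A g⁻¹ commutes elementwise with A, then g A g⁻¹ = A. -/
theorem result {G : Type*} [Group G] [Finite G] (S : Sylow 2 G) (A : Subgroup G) (hW : Cfsg.IsWeaklyClosed A (S : Subgroup G)) (g : G) (hc : ∀ a ∈ A, ∀ b ∈ A.map (MulAut.conj g).toMonoidHom, a * b = b * a) : A.map (MulAut.conj g).toMonoidHom = A := by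
  have hW2 : ∀ g : G, MulAut.conj g • A ≤ (S : Subgroup G) → MulAut.conj g • A = A := hW.2
  simp only [map_conj_eq_smul] at hc ⊢
  have hA : IsPGroup 2 A := S.2.to_le hW.1
  have h1 : IsPGroup 2 (MulAut.conj g • A ⊔ A : Subgroup G) := by
    apply (isPGroup_conj_smul hA g).to_sup_of_normal_right' hA
    intro b hb
    apply Subgroup.centralizer_le_normalizer
    intro a ha
    exact hc a ha b hb
  obtain ⟨Q, hQ⟩ := h1.exists_le_sylow
  obtain ⟨h, hh⟩ := MulAction.exists_smul_eq G Q S
  have h2 : ∀ K : Subgroup G, K ≤ Q → MulAut.conj h • K ≤ (S : Subgroup G) := by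
    intro K hK
    rw [← hh, coe_sylow_smul]
    exact conj_smul_mono h hK
  have e1 := hW2 h (h2 _ (le_sup_right.trans hQ))
  have e2 := hW2 (h * g) (by rw [conj_mul_smul]; exact h2 _ (le_sup_left.trans hQ))
  rw [conj_mul_smul, conj_smul_eq_iff] at e2
  rw [e2]
  exact (conj_smul_eq_iff.mp e1).symm

end Cfsg.Agent.S1178
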