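import Cfsg.Statements.S1181
import Cfsg.Agent.Trans.Isolated

set_option autoImplicit false
open Cfsg

namespace Cfsg.Agent.S1181

open Cfsg.Lib.Trans Cfsg.Lib.Local

/-- Let z be an isolated involution of the finite group G and N a normal subgroup with z ∉ N. Then the centralizer of zN in G/N is the image of C_G(z), and zN is an isolated involution of G/N. -/
theorem result {G : Type*} [Group G] [Finite G] (z : G) (hz : Cfsg.IsIsolatedInvolution z) (N : Subgroup G) [N.Normal] (hzN : z ∉ N) : Subgroup.centralizer ({(QuotientGroup.mk z : G ⧸ N)} : Set (G ⧸ N)) = (Subgroup.centralizer ({z} : Set G)).map (QuotientGroup.mk' N) ∧ Cfsg.IsIsolatedInvolution (QuotientGroup.mk z : G ⧸ N) := by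
  refine ⟨le_antisymm ?_ ?_, ?_, ?_⟩
  · intro x hx
    obtain ⟨g, rfl⟩ := QuotientGroup.mk_surjective x
    rw [Subgroup.mem_centralizer_singleton_iff] at hx
    have hr : z * (g * z * g⁻¹) ∈ N := by
      rw [← QuotientGroup.eq_one_iff]
      simp only [QuotientGroup.mk_mul, QuotientGroup.mk_inv]
      rw [hx, mul_inv_cancel_right, ← QuotientGroup.mk_mul, isolated_mul_self hz,
        QuotientGroup.mk_one]
    obtain ⟨k, hk⟩ := isolated_exists_zpow_conj hz (IsConj.refl z) (isConj_conj g z)
    have hn := zpow_mem hr k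
    generalize (z * (g * z * g⁻¹)) ^ k = n at hk hn
    refine ⟨n⁻¹ * g, ?_, ?_⟩
    · rw [SetLike.mem_coe, Subgroup.mem_centralizer_singleton_iff]
      calc n⁻¹ * g * z = n⁻¹ * (g * z * g⁻¹) * g := by group
        _ = _ := by rw [← hk]; group
    · simp only [QuotientGroup.mk'_apply, QuotientGroup.mk_mul, QuotientGroup.mk_inv]
      rw [(QuotientGroup.eq_one_iff n).mpr hn, inv_one, one_mul]
  · rintro _ ⟨c, hc, rfl⟩
    rw [SetLike.mem_coe, Subgroup.mem_centralizer_singleton_iff] at hc
    rw [Subgroup.mem_centralizer_singleton_iff, QuotientGroup.mk'_apply, ← QuotientGroup.mk_mul,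
      hc, QuotientGroup.mk_mul]
  · apply orderOf_two_of_mul_self
    · rw [← QuotientGroup.mk_mul, isolated_mul_self hz, QuotientGroup.mk_one]
    · rwa [Ne, QuotientGroup.eq_one_iff]
  · intro x hc
    obtain ⟨g, rfl⟩ := QuotientGroup.mk_surjective x
    have hodd := isolated_odd_orderOf_mul hz (IsConj.refl z) (isConj_conj g z)
    have hz2 : (z : G ⧸ N) * z = 1 := by
      rw [← QuotientGroup.mk_mul, isolated_mul_self hz, QuotientGroup.mk_one]
    have ht2 := mul_self_of_isConj hz2 (isConj_conj (g : G ⧸ N) z)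
    have hodd' : Odd (orderOf ((z : G ⧸ N) * (g * z * (g : G ⧸ N)⁻¹))) :=
      hodd.of_dvd_nat (orderOf_map_dvd (QuotientGroup.mk' N) _)
    have h1 := eq_one_of_odd_of_eq_inv hodd' (by
      rw [mul_inv_rev, inv_eq_of_mul_eq_one_right hz2, inv_eq_of_mul_eq_one_right ht2]
      exact hc.eq)
    rw [← inv_eq_iff_mul_eq_one, inv_eq_of_mul_eq_one_right hz2] at h1
    exact h1.symm

end Cfsg.Agent.S1181
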