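import Cfsg.Statements.S1182
import Cfsg.Agent.Trans.Isolated

set_option autoImplicit false
open Cfsg

namespace Cfsg.Agent.S1182

open Cfsg.Lib.Trans Cfsg.Lib.Solv

/-- Let z be an isolated involution of the finite group G and H a subgroup normalized by z. If x, y ∈ H both commute with z and y = h x h⁻¹ for some h ∈ H, then y = c x c⁻¹ for some c ∈ H commuting with z. -/
theorem result {G : Type*} [Group G] [Finite G] (z : G) (hz : Cfsg.IsIsolatedInvolution z) (H : Subgroup G) (hzH : z ∈ Subgroup.normalizer (H : Set G)) (x y : G) (hx : x ∈ H) (hy : y ∈ H) (hxz : Commute x z) (hyz : Commute y z) (h : G) (hh : h ∈ H) (hconj : h * x * h⁻¹ = y) : ∃ c ∈ H, Commute c z ∧ c * x * c⁻¹ = y := by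
  obtain ⟨k, hk⟩ := isolated_exists_zpow_conj hz (IsConj.refl z) (isConj_conj h⁻¹ z)
  have hr : z * (h⁻¹ * z * h⁻¹⁻¹) ∈ H := by
    have := mul_mem (conj_mem_of_mem_normalizer hzH (inv_mem hh)) hh
    rw [isolated_inv hz] at this
    simpa [mul_assoc] using this
  have hrx : Commute x (z * (h⁻¹ * z * h⁻¹⁻¹)) := by
    refine hxz.mul_right ?_
    have := hyz.eq
    rw [← hconj] at this
    show x * _ = _ * x
    calc x * (h⁻¹ * z * h⁻¹⁻¹) = h⁻¹ * (h * x * h⁻¹ * z) * h := by group
      _ = _ := by rw [this]; group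
  have hn := zpow_mem hr k
  have hnx := hrx.zpow_right k
  generalize (z * (h⁻¹ * z * h⁻¹⁻¹)) ^ k = n at hk hn hnx
  refine ⟨h * n, mul_mem hh hn, ?_, ?_⟩
  · show h * n * z = z * (h * n)
    calc h * n * z = h * (n * z * n⁻¹) * n := by group
      _ = _ := by rw [hk]; group
  · calc h * n * x * (h * n)⁻¹ = h * (n * x) * n⁻¹ * h⁻¹ := by group
      _ = y := by rw [← hnx.eq, ← hconj]; group

end Cfsg.Agent.S1182
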