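import Cfsg.Statements.S1183
import Cfsg.Agent.Trans.Isolated
import Cfsg.Agent.Trans.Frobenius
import Cfsg.Agent.S1182

set_option autoImplicit false
open Cfsg

namespace Cfsg.Agent.S1183

open Cfsg.Lib.Trans

/-- Let z be an isolated involution of the finite group G and C = C_G(z). Then the subgroup of G generated by its elements of odd order is all of G if and only if the subgroup of C generated by its elements of odd order is all of C. -/
theorem result {G : Type*} [Group G] [Finite G] (z : G) (hz : Cfsg.IsIsolatedInvolution z) : Cfsg.pResidual 2 G = ⊤ ↔ Cfsg.pResidual 2 ↥(Subgroup.centralizer ({z} : Set G)) = ⊤ := by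
  have h2 : IsPGroup 2 (Subgroup.zpowers z) :=
    IsPGroup.of_card (n := 1) (by rw [Nat.card_zpowers, hz.1, pow_one])
  obtain ⟨P, hP⟩ := h2.exists_le_sylow
  have hzP : z ∈ (P : Subgroup G) := hP (Subgroup.mem_zpowers z)
  have hPC : (P : Subgroup G) ≤ Subgroup.centralizer ({z} : Set G) := fun x hx =>
    Subgroup.mem_centralizer_singleton_iff.mpr
      (isolated_commute_of_mem_two_subgroup hz P.2 hzP hx).symm.eq
  have key := pResidual_inf_eq_of_controls_fusion P (Subgroup.centralizer ({z} : Set G)) hPC (by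
    intro x hx g hg
    obtain ⟨c, -, hc1, hc2⟩ := Cfsg.Agent.S1182.result z hz ⊤
      (Subgroup.le_normalizer (Subgroup.mem_top z)) x (g * x * g⁻¹)
      (Subgroup.mem_top _) (Subgroup.mem_top _)
      (Subgroup.mem_centralizer_singleton_iff.mp (hPC hx))
      (Subgroup.mem_centralizer_singleton_iff.mp (hPC hg)) g (Subgroup.mem_top _) rfl
    exact ⟨c, Subgroup.mem_centralizer_singleton_iff.mpr hc1, hc2⟩)
  constructor
  · intro h
    rw [← pResidual_sup_sylow (P.subtype hPC), eq_comm, sup_eq_left]
    intro x hx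
    have : (x : G) ∈ pResidual 2 G ⊓ (P : Subgroup G) := ⟨h ▸ Subgroup.mem_top _, hx⟩
    rw [key] at this
    obtain ⟨⟨y, hy, hyx⟩, -⟩ := this
    exact (Subtype.ext hyx : y = x) ▸ hy
  · intro h
    rw [← pResidual_sup_sylow P, eq_comm, sup_eq_left]
    intro x hx
    have : x ∈ pResidual 2 G ⊓ (P : Subgroup G) := by
      rw [key, h]
      exact ⟨⟨⟨x, hPC hx⟩, Subgroup.mem_top _, rfl⟩, hx⟩
    exact this.1

end Cfsg.Agent.S1183
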