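import Cfsg.Statements.S1185
import Cfsg.Agent.Trans.Isolated

set_option autoImplicit false
open Cfsg

namespace Cfsg.Agent.S1185

open Cfsg.Lib.Trans

/-- Let z be an isolated involution of the finite group G with centralizer C. Then for every g ∈ G there is exactly one element k in the coset gC that has odd order and is inverted by z. -/
theorem result {G : Type*} [Group G] [Finite G] (z : G) (hz : Cfsg.IsIsolatedInvolution z) (g : G) : ∃! k : G, (Odd (orderOf k) ∧ z * k * z⁻¹ = k⁻¹) ∧ g⁻¹ * k ∈ Subgroup.centralizer ({z} : Set G) := by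
  have key : ∀ k : G, z * k * z⁻¹ = k⁻¹ →
      (g⁻¹ * k ∈ Subgroup.centralizer ({z} : Set G) ↔ k ^ 2 = g * z * g⁻¹ * z) := by
    intro k hk
    have h1 : k * z * k⁻¹ = k ^ 2 * z := by
      have h2 : z * k⁻¹ = k * z := by
        rw [← hk, ← mul_assoc, ← mul_assoc, isolated_mul_self hz, one_mul, isolated_inv hz]
      rw [mul_assoc, h2, pow_two, mul_assoc]
    rw [Subgroup.mem_centralizer_singleton_iff]
    constructor
    · intro h
      calc k ^ 2 = k ^ 2 * z * z := by rw [mul_assoc, isolated_mul_self hz, mul_one]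
        _ = g * (g⁻¹ * k * z) * k⁻¹ * z := by rw [← h1]; group
        _ = _ := by rw [h]; group
    · intro h
      rw [h, mul_assoc _ z z, isolated_mul_self hz, mul_one] at h1
      calc g⁻¹ * k * z = g⁻¹ * (k * z * k⁻¹) * k := by group
        _ = _ := by rw [h1]; group
  have hr := (isolated_odd_inverted_iff (k := g * z * g⁻¹ * z) hz).mpr (by
    rw [mul_assoc _ z z, isolated_mul_self hz, mul_one]; exact isConj_conj g z)
  obtain ⟨m, hm⟩ := exists_pow_sq_eq_of_odd hr.1
  have hinv : z * (g * z * g⁻¹ * z) ^ m * z⁻¹ = ((g * z * g⁻¹ * z) ^ m)⁻¹ := by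
    rw [← conj_pow, hr.2, inv_pow]
  refine ⟨(g * z * g⁻¹ * z) ^ m, ⟨⟨odd_orderOf_pow hr.1 m, hinv⟩, (key _ hinv).mpr hm⟩, ?_⟩
  rintro k ⟨⟨hk1, hk2⟩, hk3⟩
  exact eq_of_sq_eq_sq_of_odd hk1 (odd_orderOf_pow hr.1 m) (((key k hk2).mp hk3).trans hm.symm)

end Cfsg.Agent.S1185
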