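import Cfsg.Statements.S1186
import Cfsg.Agent.Trans.Isolated
import Cfsg.Agent.Local.InvolCount

set_option autoImplicit false
open Cfsg

namespace Cfsg.Agent.S1186

open Cfsg.Lib.Trans Cfsg.Lib.Local

theorem card_eq {G : Type*} [Group G] [Finite G] {z : G} (hz : Cfsg.IsIsolatedInvolution z)
    {w : G} (hw : Commute z w) :
    Nat.card {k : G // Odd (orderOf k) ∧ z * k * z⁻¹ = k⁻¹ ∧ Commute k w} =
      Nat.card {t : G // IsConj z t ∧ Commute t w} := by
  refine Nat.card_congr (Equiv.subtypeEquiv (Equiv.mulRight z) fun k => ?_)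
  rw [← and_assoc, isolated_odd_inverted_iff hz]
  refine and_congr_right fun _ => ⟨fun h => h.mul_left hw, fun h => ?_⟩
  simpa using h.mul_left hw.inv_left

theorem exists_partner {G : Type*} [Group G] [Finite G] {z : G} (hz : Cfsg.IsIsolatedInvolution z)
    {s : G} (hs : orderOf s = 2) (hsz : Commute s z) {t : G} (ht : IsConj z t) :
    ∃ u : G, (IsConj z u ∧ Commute u s) ∧ Commute t (s * u) := by
  have hs2 := mul_self_of_orderOf_two hs
  have ht' := isolated_of_isConj hz ht
  have ht2 := isolated_mul_self ht'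
  by_cases h : s = z
  · subst h
    exact ⟨s, ⟨IsConj.refl _, Commute.refl _⟩, by rw [hs2]; exact Commute.one_right t⟩
  have hne : ¬ IsConj z s := fun hc => h (isolated_eq_of_isConj hz hc hsz.symm)
  rcases Nat.even_or_odd (orderOf (s * t)) with h1 | h1
  · obtain ⟨m, -, hm, hc1, hc2⟩ := exists_central_invol_of_even hs2 ht2 h1
    refine ⟨s * (s * t) ^ m, ⟨?_, (Commute.refl s).mul_left hc1.symm⟩, ?_⟩
    · rcases Int.even_or_odd (m : ℤ) with h2 | h2
      · exfalso
        obtain ⟨k, hk⟩ := exists_zpow_conj_eq_mul_zpow_odd hs2 ht2 (h2.add_one)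
        have h3 : s * (s * t) ^ ((m : ℤ) + 1) = t * (s * t) ^ m := by
          rw [add_comm, zpow_add, zpow_one, zpow_natCast, ← mul_assoc, ← mul_assoc, hs2, one_mul]
        rw [h3] at hk
        have := isolated_eq_of_isConj ht' (isConj_iff.mpr ⟨_, hk⟩)
          ((Commute.refl t).mul_right hc2)
        exact ne_one_of_orderOf_two hm (by simpa using this)
      · obtain ⟨k, hk⟩ := exists_zpow_conj_eq_mul_zpow_odd hs2 ht2 h2
        rw [zpow_natCast] at hk
        exact ht.trans (isConj_iff.mpr ⟨_, hk⟩)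
    · rw [← mul_assoc, hs2, one_mul]; exact hc2
  · obtain ⟨k, hk⟩ := exists_zpow_conj_of_odd_mul hs2 ht2 h1
    exact absurd (ht.trans (isConj_iff.mpr ⟨_, hk⟩).symm) hne

/-- Let z be an isolated involution of the finite group G, C = C_G(z), K the set of elements of odd order inverted by z, and s an involution of C. Then |G| = |C| · |C_K(sz)| · |C_K(s)|. -/
theorem result {G : Type*} [Group G] [Finite G] (z : G) (hz : Cfsg.IsIsolatedInvolution z) (s : G) (hs : orderOf s = 2) (hsz : Commute s z) : Nat.card G = Nat.card (Subgroup.centralizer ({z} : Set G)) * Nat.card {k : G // Odd (orderOf k) ∧ z * k * z⁻¹ = k⁻¹ ∧ Commute k (s * z)} * Nat.card {k : G // Odd (orderOf k) ∧ z * k * z⁻¹ = k⁻¹ ∧ Commute k s} := by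
  rw [card_eq hz ((hsz.symm).mul_right (Commute.refl z)), card_eq hz hsz.symm,
    ← card_isConj_mul_card_centralizer z, mul_comm, mul_assoc]
  congr 1
  have hs2 := mul_self_of_orderOf_two hs
  let f : (Σ u : {u : G // IsConj z u ∧ Commute u s}, {t : G // IsConj z t ∧ Commute t (s * u)}) →
      {t : G // IsConj z t} := fun p => ⟨p.2.1, p.2.2.1⟩
  have hf : Function.Bijective f := by
    constructor
    · rintro ⟨⟨u, hu⟩, ⟨t, ht⟩⟩ ⟨⟨u', hu'⟩, ⟨t', ht'⟩⟩ h
      have h1 : t = t' := congrArg Subtype.val h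
      subst h1
      have h2 : u = u' := by
        refine isolated_eq_of_commute_mul hz hu.1 hu'.1 ht.1 ?_
        have := (ht.2.inv_right.mul_right ht'.2).symm
        have hu2 := isolated_inv (isolated_of_isConj hz hu.1)
        simpa [mul_assoc, hu2] using this
      subst h2
      rfl
    · rintro ⟨t, ht⟩
      obtain ⟨u, hu, hc⟩ := exists_partner hz hs hsz ht
      exact ⟨⟨⟨u, hu⟩, ⟨t, ht, hc⟩⟩, rfl⟩
  rw [← Nat.card_congr (Equiv.ofBijective f hf)]
  have := Fintype.ofFinite {u : G // IsConj z u ∧ Commute u s}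
  rw [Nat.card_sigma, Finset.sum_congr rfl (g := fun _ =>
    Nat.card {t : G // IsConj z t ∧ Commute t (s * z)}), Finset.sum_const, smul_eq_mul, mul_comm,
    Finset.card_univ, ← Nat.card_eq_fintype_card]
  rintro ⟨u, hu⟩ -
  obtain ⟨k, hk⟩ := isolated_exists_zpow_conj hz (IsConj.refl z) hu.1
  have hc : Commute ((z * u) ^ k) s := (hsz.symm.mul_left hu.2).zpow_left k
  generalize (z * u) ^ k = c at hk hc
  symm
  refine Nat.card_congr (Equiv.subtypeEquiv (MulAut.conj c).toEquiv fun t => ?_)
  have h1 : s * u = c * (s * z) * c⁻¹ := by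
    rw [← hk, ← mul_assoc, ← mul_assoc, ← hc.eq, mul_assoc c s z]
  refine and_congr ⟨fun h => h.trans (isConj_conj c t), fun h => h.trans (isConj_conj c t).symm⟩ ?_
  simp only [h1]
  exact (Commute.conj_iff c).symm

end Cfsg.Agent.S1186
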