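import Cfsg.Statements.S1229
import Cfsg.Agent.Trans.StrEmbElemAb

set_option autoImplicit false
open Cfsg

namespace Cfsg.Agent.S1229

open Cfsg.Lib.Trans Cfsg.Lib.Local Cfsg.Lib.Solv

theorem regular {G : Type*} [Group G] [Finite G] {T : Sylow 2 G} (h : EAC T) (x y : G ⧸ eacH T)
    (hx : x ≠ QuotientGroup.mk 1) (hy : y ≠ QuotientGroup.mk 1) :
    ∃! t : G, t ∈ T ∧ t • x = y := by
  obtain ⟨a, rfl⟩ := QuotientGroup.mk_surjective x
  obtain ⟨b, rfl⟩ := QuotientGroup.mk_surjective y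
  have ha : a ∉ eacH T := fun e => hx (by rw [QuotientGroup.eq]; simpa using e)
  have hb : b ∉ eacH T := fun e => hy (by rw [QuotientGroup.eq]; simpa using e)
  obtain ⟨u, hu, hu2⟩ := h.se.exists_involution_not_mem
  obtain ⟨s, hs, hsa⟩ := h.exists_mem_trans hu2 hu ha
  obtain ⟨t, ht, htb⟩ := h.exists_mem_trans hu2 hu hb
  have key : ∀ r : G, r • (QuotientGroup.mk a : G ⧸ eacH T) = QuotientGroup.mk b ↔
      b⁻¹ * r * a ∈ eacH T := by
    intro r
    rw [MulAction.Quotient.smul_mk, eq_comm, QuotientGroup.eq, smul_eq_mul, mul_assoc]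
  have h1 : b⁻¹ * (t * s⁻¹) * a ∈ eacH T := by
    simpa [mul_assoc] using mul_mem htb (inv_mem hsa)
  refine ⟨t * s⁻¹, ⟨mul_mem ht (inv_mem hs), (key _).mpr h1⟩, ?_⟩
  rintro r ⟨hr, hra⟩
  have h2 := h.eq_one_of_conj_mem_eacH ha (mul_mem (inv_mem (mul_mem ht (inv_mem hs))) hr) (by
    simpa [mul_assoc] using mul_mem (inv_mem h1) ((key r).mp hra))
  exact (inv_mul_eq_one.mp h2).symm

theorem smul_one_iff {G : Type*} [Group G] {H : Subgroup G} (g : G) :
    g • (QuotientGroup.mk 1 : G ⧸ H) = QuotientGroup.mk 1 ↔ g ∈ H := by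
  rw [MulAction.Quotient.smul_mk, eq_comm, QuotientGroup.eq]
  simp

theorem two_trans {G : Type*} [Group G] [Finite G] {T : Sylow 2 G} (h : EAC T)
    {u : G} (hu : u ∉ eacH T) (x y : G ⧸ eacH T) (hxy : x ≠ y) :
    ∃ g : G, g • x = QuotientGroup.mk 1 ∧ g • y = QuotientGroup.mk u := by
  obtain ⟨a, ha⟩ := MulAction.exists_smul_eq G x (QuotientGroup.mk 1 : G ⧸ eacH T)
  obtain ⟨t, ⟨ht, hty⟩, -⟩ := regular h (a • y) (QuotientGroup.mk u)
    (fun e => hxy (MulAction.injective a (ha.trans e.symm)))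
    (fun e => hu (by rw [QuotientGroup.eq] at e; simpa using e))
  refine ⟨t * a, ?_, ?_⟩
  · rw [mul_smul, ha, smul_one_iff]; exact Subgroup.le_normalizer ht
  · rw [mul_smul, hty]

theorem exists_third {G : Type*} [Group G] [Finite G] {T : Sylow 2 G} (h : EAC T)
    {u : G} (hu : u ∉ eacH T) (x : G ⧸ eacH T) (h1 : x ≠ QuotientGroup.mk 1)
    (h2 : x ≠ QuotientGroup.mk u) :
    ∃ t ∈ (T : Subgroup G), t ≠ 1 ∧ x = QuotientGroup.mk (t * u) := by
  obtain ⟨t, ⟨ht, hty⟩, -⟩ := regular h (QuotientGroup.mk u) x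
    (fun e => hu (by rw [QuotientGroup.eq] at e; simpa using e)) h1
  exact ⟨t, ht, fun e => h2 (by rw [← hty, e, one_smul]), hty.symm⟩

theorem mem_of_fix {G : Type*} [Group G] {T : Sylow 2 G} {u d : G}
    (h1 : d • (QuotientGroup.mk 1 : G ⧸ eacH T) = QuotientGroup.mk 1)
    (h2 : d • (QuotientGroup.mk u : G ⧸ eacH T) = QuotientGroup.mk u) : d ∈ eacD T u := by
  rw [MulAction.Quotient.smul_mk, eq_comm, QuotientGroup.eq, smul_eq_mul, ← mul_assoc] at h2
  exact mem_eacD.mpr ⟨(smul_one_iff d).mp h1, h2⟩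

theorem smul_third {G : Type*} [Group G] {T : Sylow 2 G} {u d : G} (hd : d ∈ eacD T u) (t : G) :
    d • (QuotientGroup.mk (t * u) : G ⧸ eacH T) = QuotientGroup.mk (d * t * d⁻¹ * u) := by
  rw [MulAction.Quotient.smul_mk, QuotientGroup.eq]
  simpa [mul_assoc] using inv_mem (mem_eacD.mp hd).2

/-- Let G be a finite group with a Sylow 2-subgroup T that is neither cyclic nor normal, such that the centralizer of every involution is an elementary abelian 2-group; put H = N_G(T) and X = G/H. Then G is triply transitive on X, an element fixing three distinct points of X is the identity, and T acts regularly on X minus the point H. -/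
theorem result {G : Type*} [Group G] [Finite G] (T : Sylow 2 G) (hnc : ¬ IsCyclic (T : Subgroup G)) (hnn : ¬ (T : Subgroup G).Normal) (hC : ∀ t : G, orderOf t = 2 → IsMulCommutative (Subgroup.centralizer ({t} : Set G)) ∧ ∀ c ∈ Subgroup.centralizer ({t} : Set G), c ^ 2 = 1) : (∀ x₁ x₂ x₃ y₁ y₂ y₃ : G ⧸ Subgroup.normalizer ((T : Subgroup G) : Set G), x₁ ≠ x₂ → x₁ ≠ x₃ → x₂ ≠ x₃ → y₁ ≠ y₂ → y₁ ≠ y₃ → y₂ ≠ y₃ → ∃ g : G, g • x₁ = y₁ ∧ g • x₂ = y₂ ∧ g • x₃ = y₃) ∧ (∀ g : G, ∀ x₁ x₂ x₃ : G ⧸ Subgroup.normalizer ((T : Subgroup G) : Set G), x₁ ≠ x₂ → x₁ ≠ x₃ → x₂ ≠ x₃ → g • x₁ = x₁ → g • x₂ = x₂ → g • x₃ = x₃ → g = 1) ∧ (∀ x y : G ⧸ Subgroup.normalizer ((T : Subgroup G) : Set G), x ≠ QuotientGroup.mk 1 → y ≠ QuotientGroup.mk 1 → ∃! t : G, t ∈ T ∧ t • x = y) := by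
  have h : EAC T := ⟨hnc, hnn, hC⟩
  obtain ⟨u, hu, hu2⟩ := h.se.exists_involution_not_mem
  refine ⟨?_, ?_, regular h⟩
  · intro x₁ x₂ x₃ y₁ y₂ y₃ h12 h13 h23 k12 k13 k23
    obtain ⟨a, ha1, ha2⟩ := two_trans h hu x₁ x₂ h12
    obtain ⟨b, hb1, hb2⟩ := two_trans h hu y₁ y₂ k12
    obtain ⟨s, hs, hs1, hsa⟩ := exists_third h hu (a • x₃)
      (fun e => h13 (MulAction.injective a (ha1.trans e.symm)))
      (fun e => h23 (MulAction.injective a (ha2.trans e.symm)))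
    obtain ⟨t, ht, ht1, htb⟩ := exists_third h hu (b • y₃)
      (fun e => k13 (MulAction.injective b (hb1.trans e.symm)))
      (fun e => k23 (MulAction.injective b (hb2.trans e.symm)))
    obtain ⟨d, hd, hds⟩ := h.exists_conj hu2 hu hs hs1 ht ht1
    refine ⟨b⁻¹ * (d * a), ?_, ?_, ?_⟩
    · rw [mul_smul, mul_smul, ha1, (smul_one_iff d).mpr hd.1, ← hb1, inv_smul_smul]
    · rw [mul_smul, mul_smul, ha2, inv_smul_eq_iff, hb2]
      simpa using smul_third hd 1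
    · rw [mul_smul, mul_smul, hsa, smul_third hd, hds, ← htb, inv_smul_smul]
  · intro g x₁ x₂ x₃ h12 h13 h23 e1 e2 e3
    obtain ⟨a, ha1, ha2⟩ := two_trans h hu x₁ x₂ h12
    obtain ⟨s, hs, hs1, hsa⟩ := exists_third h hu (a • x₃)
      (fun e => h13 (MulAction.injective a (ha1.trans e.symm)))
      (fun e => h23 (MulAction.injective a (ha2.trans e.symm)))
    have hd : a * g * a⁻¹ ∈ eacD T u := mem_of_fix
      (by rw [← ha1, mul_smul, mul_smul, inv_smul_smul, e1])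
      (by rw [← ha2, mul_smul, mul_smul, inv_smul_smul, e2])
    have h3 := smul_third hd s
    rw [← hsa, mul_smul, mul_smul, inv_smul_smul, e3, hsa, QuotientGroup.eq] at h3
    have h4 := h.eq_one_of_conj_mem_eacH hu
      (mul_mem (inv_mem hs) (conj_mem_of_mem_normalizer hd.1 hs)) (by simpa [mul_assoc] using h3)
    have h5 := h.eq_one_of_odd_of_commute (h.orderOf_eq_two hs hs1) (h.odd_of_mem_eacD hu hd) (by
      rw [inv_mul_eq_one] at h4
      calc a * g * a⁻¹ * s = (a * g * a⁻¹ * s * (a * g * a⁻¹)⁻¹) * (a * g * a⁻¹) := by group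
        _ = _ := by rw [← h4])
    simpa using h5

end Cfsg.Agent.S1229
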