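import Cfsg.Statements.S1231
import Cfsg.Agent.FT.BG4.Elem
import Cfsg.Agent.Trans.SylowIn

set_option autoImplicit false
open Cfsg

namespace Cfsg.Agent.S1231

open Cfsg.Lib.Trans Cfsg.Lib.FT.BG4

theorem pRankLE_of_cj {G : Type*} [Group G] {p k : ℕ} {X : Subgroup G} {g : G}
    (h : PRankLE p k (cj g X)) : PRankLE p k X :=
  pRankLE_of_injective h (cjEquiv g X).toMonoidHom (cjEquiv g X).injective

/-- Let H be a subgroup of the finite group G, p a prime, k ≥ 1, and P a Sylow p-subgroup of H whose p-rank is at least k. Then N_G(X) ≤ H for every subgroup X of P of p-rank at least k if and only if H ∩ gHg⁻¹ has p-rank less than k for every g ∉ H. -/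
theorem result {G : Type*} [Group G] [Finite G] {p : ℕ} [Fact p.Prime] (k : ℕ) (hk : 1 ≤ k) (H : Subgroup G) (P : Sylow p ↥H) (hP : ¬ Cfsg.PRankLE p (k - 1) ↥(P : Subgroup ↥H)) : (∀ X : Subgroup G, X ≤ (P : Subgroup ↥H).map H.subtype → ¬ Cfsg.PRankLE p (k - 1) ↥X → Subgroup.normalizer (X : Set G) ≤ H) ↔ (∀ g : G, g ∉ H → Cfsg.PRankLE p (k - 1) ↥(H ⊓ H.map (MulAut.conj g).toMonoidHom)) := by
  constructor
  · intro hN g hg
    have hS := isSylowIn_map_subtype P
    have key : ∀ X : Subgroup G, IsPGroup p X → X ≤ H → ¬ PRankLE p (k - 1) X →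
        Subgroup.normalizer (X : Set G) ≤ H := by
      intro X hX hXH hr
      obtain ⟨h, hh, hhX⟩ := hS.exists_cj_le hX hXH
      have := hN _ hhX fun e => hr (pRankLE_of_cj e)
      rw [← cj_normalizer, cj_le_iff_le_cj_inv, cj_eq_of_mem (inv_mem hh)] at this
      exact this
    by_contra hr
    rw [pRankLE_subgroup_iff] at hr
    push Not at hr
    obtain ⟨E, hE, hEa, hEc⟩ := hr
    have hEp : IsPGroup p E := fun x => ⟨1, Subtype.ext (by simpa using hEa.2 x x.2)⟩
    obtain ⟨Q, hQ, hEQ⟩ := exists_isSylowIn_ge hEp hE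
    have hQr : ∀ x : G, ¬ PRankLE p (k - 1) (cj x Q) := fun x e =>
      hEc.not_ge (card_le_of_pRankLE (pRankLE_of_cj e) hEa hEQ)
    have h1 : Subgroup.normalizer (Q : Set G) ≤ H :=
      key Q hQ.isPGroup (hQ.le.trans inf_le_left) (by have := hQr 1; rwa [cj_one] at this)
    have h2' : cj g⁻¹ Q ≤ H := cj_inv_le_iff_le_cj.mpr (hQ.le.trans inf_le_right)
    have h2 : Subgroup.normalizer (Q : Set G) ≤ cj g H := by
      rw [← cj_inv_le_iff_le_cj, cj_normalizer]
      exact key _ (isPGroup_cj hQ.isPGroup _) h2' (hQr _)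
    have h3 : IsSylowIn p Q ⊤ := by
      refine isSylowIn_of_maximal le_top hQ.isPGroup fun R hR hQR _ => ?_
      by_contra hne
      have h4 := lt_inf_normalizer hR (lt_of_le_not_ge hQR hne)
      exact h4.ne' (hQ.eq_of_le hR.to_inf_left h4.le (inf_le_right.trans (le_inf h1 h2)))
    have h4 : IsSylowIn p Q H := h3.mono (hQ.le.trans inf_le_left) le_top
    have h5 : IsSylowIn p (cj g⁻¹ Q) H := (h3.cj_of_mem (Subgroup.mem_top g⁻¹)).mono h2' le_top
    obtain ⟨x, hx, e⟩ := h4.exists_cj_eq h5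
    rw [cj_cj, cj_eq_self_iff] at e
    exact hg (by simpa using mul_mem (inv_mem (h1 e)) hx)
  · intro h X hX hr g hg
    by_contra hgH
    have hXH : X ≤ H := hX.trans (Subgroup.map_subtype_le _)
    refine hr (pRankLE_of_le (h g hgH) (le_inf hXH ?_))
    rw [cj_def, ← cj_eq_of_mem_normalizer hg]
    exact cj_mono g hXH

end Cfsg.Agent.S1231
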