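import Cfsg.Statements.S1234
import Cfsg.Agent.Solv.HaradaE8c
import Cfsg.Agent.Solv.ExtraSub

set_option autoImplicit false
open Cfsg

namespace Cfsg.Agent.S1234

open Subgroup Cfsg.Lib.Solv Cfsg.Lib.Solv.PG

/-- Let S be a finite 2-group and Q ≤ S a subgroup of order 32 having an elementary abelian subgroup E of order 16 and an involution s ∉ E whose centralizer in E has order 4 (so Q ≅ (Z₂ × Z₂) ≀ Z₂). If C_S(Z(Q)) = Q, then every section of S has 2-rank at most 4. -/
theorem result {S : Type*} [Group S] [Finite S] (hS : IsPGroup 2 S) (Q E : Subgroup S) (hEQ : E ≤ Q) (hE : Cfsg.IsElementaryAbelian 2 E) (hE16 : Nat.card E = 16) (hQ32 : Nat.card Q = 32) (s : S) (hsQ : s ∈ Q) (hsE : s ∉ E) (hs : orderOf s = 2) (hfix : Nat.card ↥(E ⊓ Subgroup.centralizer ({s} : Set S)) = 4) (hC : Subgroup.centralizer (((Subgroup.center Q).map Q.subtype : Subgroup S) : Set S) = Q) : Cfsg.SectionalPRankLE 2 4 S := by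
  have hs2 : s ^ 2 = 1 := hs ▸ pow_orderOf_eq_one s
  have := hE.1
  have hmul : ∀ {x : S}, x ∈ Q → x ∉ E → x * s ∈ E := fun hx hxE =>
    mul_mem_of_card_eq_two_mul hEQ (by omega) hx hsQ hxE hsE
  have h1 : s ∈ centralizer ((E ⊓ centralizer {s} : Subgroup S) : Set S) := fun x hx =>
    mem_centralizer_singleton_iff.mp hx.2
  have h2 : s ∈ normalizer ((E ⊓ centralizer {s} : Subgroup S) : Set S) :=
    centralizer_le_normalizer _ h1
  refine secRank_four_of_selfCentralizing hS (A := E ⊓ centralizer {s} ⊔ zpowers s) (fun a ha => ?_)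
    (by rw [card_sup_zpowers Nat.prime_two h2 (fun h => hsE h.1) (hs2 ▸ one_mem _), hfix])
    fun c hc => ?_
  · obtain ⟨u, hu, n, rfl⟩ := (mem_sup_zpowers_iff h2).mp ha
    rw [((show Commute u s from h1 u hu).zpow_right n).mul_pow, hE.2 u hu.1, one_mul,
      ← zpow_natCast, ← zpow_mul, mul_comm, zpow_mul, zpow_natCast, hs2, one_zpow]
  have h3 : c ∈ Q := by
    rw [← hC]
    rintro _ ⟨z, hz, rfl⟩
    have h3 := mem_center_subgroup_iff.mp hz
    refine hc _ (mem_sup_left ⟨by_contra fun h4 => ?_, mem_centralizer_singleton_iff.mpr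
      (h3 s hsQ).symm⟩)
    have h5 : E ≤ centralizer {s} := fun e he => mem_centralizer_singleton_iff.mpr (by
      have h5 := mul_comm_of_mem he (hmul z.2 h4)
      rwa [← mul_assoc, h3 e (hEQ he), mul_assoc, mul_assoc, mul_right_inj] at h5)
    rw [inf_eq_left.mpr h5] at hfix
    omega
  have h4 : c ∈ centralizer ({s} : Set S) :=
    mem_centralizer_singleton_iff.mpr (hc s (mem_sup_right (mem_zpowers s))).symm
  by_cases h5 : c ∈ E
  · exact mem_sup_left ⟨h5, h4⟩
  · exact (mul_mem_cancel_right (mem_sup_right (mem_zpowers s))).mp (mem_sup_left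
      ⟨hmul h3 h5, mul_mem h4 (mem_centralizer_singleton_iff.mpr rfl)⟩)

end Cfsg.Agent.S1234
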