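import Cfsg.Statements.S1237
import Cfsg.Agent.Rank2.Trans

set_option autoImplicit false
set_option maxHeartbeats 400000
open Cfsg
open Cfsg.Lib.Rank2

namespace Cfsg.Agent.S1237

/-- Let T be a finite 2-group of 2-rank exactly 2 (it has a Klein four-subgroup but no elementary abelian subgroup of order 8) admitting an automorphism φ such that any two involutions of T are carried to one another by a power of φ. Then T ≅ Z_{2^n} × Z_{2^n} for some n ≥ 1, or T is isomorphic to a Sylow 2-subgroup of PSU(3) over the field with 16 elements. -/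
theorem result {T : Type*} [Group T] [Finite T] (hT : IsPGroup 2 T) (h2 : Cfsg.PRankLE 2 2 T) (h1 : ¬ Cfsg.PRankLE 2 1 T) (φ : MulAut T) (htrans : ∀ s t : T, orderOf s = 2 → orderOf t = 2 → ∃ k : ℕ, (φ ^ k) s = t) {F : Type*} [Field F] [Fintype F] (hF : Fintype.card F = 16) (P : Sylow 2 (Cfsg.PSU 3 F 4)) : (∃ n : ℕ, 1 ≤ n ∧ Nonempty (T ≃* Multiplicative (ZMod (2 ^ n) × ZMod (2 ^ n)))) ∨ Nonempty (T ≃* (P : Subgroup (Cfsg.PSU 3 F 4))) := by
  obtain ⟨s, t, hs, ht, hs1, ht1, hst, -⟩ := exists_two_invol h1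
  haveI : Nontrivial T := ⟨⟨s, t, hst⟩⟩
  have ho : ∀ v : T, v * v = 1 → v ≠ 1 → orderOf v = 2 := fun v hv h1 =>
    orderOf_eq_prime (by rw [pow_two, hv]) h1
  have hf : ∀ u, u * u = 1 → φ u = u → u = 1 := fun u hu e => by
    by_contra hu1
    have key : ∀ v, v * v = 1 → v ≠ 1 → v = u := fun v hv hv1 => by
      obtain ⟨k, hk⟩ := htrans u v (ho u hu hu1) (ho v hv hv1)
      rw [← hk]
      exact pow_mem (show φ ∈ MulAction.stabilizer (MulAut T) u from e) k
    exact hst ((key s hs hs1).trans (key t ht ht1).symm)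
  rcases homocyclic_or_isU34 hT h2 hf with h | h
  · exact Or.inl h
  · exact Or.inr (h.nonempty_mulEquiv (isU34_sylow hF P))

end Cfsg.Agent.S1237
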