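import Cfsg.Statements.S1239
import Cfsg.Agent.Rank2.FusCent
import Cfsg.Agent.Block.ZStarElt

set_option autoImplicit false
open Cfsg

open Cfsg.Lib.Rank2 Subgroup

namespace Cfsg.Agent.S1239

/-- Let X be a finite group whose Sylow 2-subgroup S is quasi-dihedral or wreathed, and suppose some involution of S is isolated in X. Then the product of the largest normal odd-order subgroup O(X) with the centre of S is normal in X. -/
theorem result {X : Type*} [Group X] [Finite X] (S : Sylow 2 X) (hS : Cfsg.IsQuasiDihedral (S : Subgroup X) ∨ Cfsg.IsWreathed (S : Subgroup X)) (z : X) (hzS : z ∈ S) (hz : Cfsg.IsIsolatedInvolution z) : (Cfsg.oddCore X ⊔ (Subgroup.center (S : Subgroup X)).map (S : Subgroup X).subtype).Normal := by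
  have h1 : ((center S).map (S : Subgroup X).subtype).map (QuotientGroup.mk' (oddCore X)) ≤
      center _ := by
    rintro _ ⟨_, ⟨c, hc, rfl⟩, rfl⟩
    refine Cfsg.Lib.Block.Princ.zstar_elt_quotient S c.2 fun g hg => ?_
    exact congrArg Subtype.val (qw_eq_of_isolated hS (E := SylEmb.ofSylow S) (z := ⟨z, hzS⟩) hz hc
      (y := ⟨_, hg⟩) (SylEmb.Fused.of_eq rfl))
  have h2 := (Subgroup.Normal.mk fun n hn g => by
    rwa [mem_center_iff.1 (h1 hn), mul_inv_cancel_right]).comap (QuotientGroup.mk' (oddCore X))
  rwa [comap_map_eq, QuotientGroup.ker_mk', sup_comm] at h2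

end Cfsg.Agent.S1239
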