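import Cfsg.Statements.S1242
import Cfsg.Agent.Trans.CentralTransfer

set_option autoImplicit false
open Cfsg

namespace Cfsg.Agent.S1242

open Cfsg.Lib.Trans
open scoped commutatorElement


/-- Let G be a finite group, p a prime and H a subgroup of index prime to p such that any two elements of H of p-power order that are conjugate in G are conjugate in H. Then (O^p(G)·G') ∩ H = O^p(H)·H', where O^p denotes the subgroup generated by the elements of order prime to p. -/
theorem result {G : Type*} [Group G] [Finite G] {p : ℕ} [Fact p.Prime] (H : Subgroup G) (hidx : Nat.Coprime p H.index) (hfus : ∀ g ∈ H, (∃ k : ℕ, orderOf g = p ^ k) → ∀ a : G, a * g * a⁻¹ ∈ H → ∃ h ∈ H, h * g * h⁻¹ = a * g * a⁻¹) : (Cfsg.pResidual p G ⊔ commutator G) ⊓ H = (Cfsg.pResidual p ↥H ⊔ commutator ↥H).map H.subtype := by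
  apply le_antisymm
  · apply pResidual_sup_commutator_inf_le
      ((Nat.Prime.coprime_iff_not_dvd Fact.out).mp hidx) le_rfl
    intro g hg a ha
    obtain ⟨h, hh, e⟩ := hfus g g.2 hg a⁻¹ (by simpa using ha)
    apply Subgroup.mem_sup_right
    have : g⁻¹ * ⟨_, ha⟩ = ⁅g⁻¹, (⟨h, hh⟩ : H)⁆ := by
      apply Subtype.ext
      simp only [commutatorElement_def, Subgroup.coe_mul, Subgroup.coe_inv, inv_inv] at e ⊢
      rw [← e]; group
    rw [this]
    exact Subgroup.commutator_mem_commutator (Subgroup.mem_top _) (Subgroup.mem_top _)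
  · refine le_inf ?_ (Subgroup.map_subtype_le _)
    rw [Subgroup.map_sup]
    refine sup_le_sup (map_pResidual_le _) ?_
    rw [Subgroup.map_subtype_commutator]
    exact Subgroup.commutator_mono le_top le_top

end Cfsg.Agent.S1242
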