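import Cfsg.Statements.S1244
import Cfsg.Agent.Trans.TransferTools
import Cfsg.Agent.Solv.Omega

set_option autoImplicit false
open Cfsg

namespace Cfsg.Agent.S1244

open Cfsg.Lib.Trans Cfsg.Lib.Solv.PG Subgroup
open scoped IsMulCommutative commutatorElement


/-- Let G be a finite group with no subgroup of index 2 whose Sylow 2-subgroup S is commutative, and let R ≤ S be a subgroup whose 2-rank is exactly one less than the 2-rank r of S. Then every involution of S is conjugate, by an element of N_G(S), to an element of R. -/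
theorem result {G : Type*} [Group G] [Finite G] (hG : ∀ H : Subgroup G, H.index ≠ 2) (S : Sylow 2 G) (hS : IsMulCommutative (S : Subgroup G)) (r : ℕ) (hr1 : 1 ≤ r) (hSr : Cfsg.PRankLE 2 r (S : Subgroup G) ∧ ¬ Cfsg.PRankLE 2 (r - 1) (S : Subgroup G)) (R : Subgroup G) (hRS : R ≤ S) (hRr : Cfsg.PRankLE 2 (r - 1) R ∧ (r = 1 ∨ ¬ Cfsg.PRankLE 2 (r - 2) R)) (t : G) (ht : orderOf t = 2) (htS : t ∈ S) : ∃ n ∈ Subgroup.normalizer ((S : Subgroup G) : Set G), n * t * n⁻¹ ∈ R := by
  haveI := hS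
  haveI : IsMulCommutative R := ⟨⟨fun a b => Subtype.ext (setLike_mul_comm (hRS a.2) (hRS b.2))⟩⟩
  obtain ⟨W, hWd⟩ : ∃ W, W = omegaOne 2 (S : Subgroup G) := ⟨_, rfl⟩
  obtain ⟨V, hVd⟩ : ∃ V, V = omegaOne 2 R := ⟨_, rfl⟩
  have hVW : V ≤ W := by rw [hVd, hWd]; exact omegaOne_mono hRS
  have hW : Nat.card W ≤ 2 ^ r := by
    subst hWd
    have h1 := isElementaryAbelian_omegaOne (p := 2) (S : Subgroup G)
    have h2 := hSr.1 ((omegaOne 2 (S : Subgroup G)).subgroupOf S) (by have := h1.1; infer_instance)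
      (fun a ha => Subtype.ext (h1.2 a ha))
    rwa [Nat.card_congr (subgroupOfEquivOfLe (omegaOne_le _)).toEquiv] at h2
  have hV : 2 ^ (r - 1) ≤ Nat.card V := by
    subst hVd
    rcases hRr.2 with h | h
    · subst h; exact Nat.card_pos
    · unfold PRankLE at h
      push Not at h
      obtain ⟨A, -, hA2, hA3⟩ := h
      have h1 : A.map R.subtype ≤ omegaOne 2 R := le_omegaOne (map_subtype_le _) (by
        rintro _ ⟨a, ha, rfl⟩
        exact congrArg Subtype.val (hA2 a ha))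
      have h2 := card_le_of_le h1
      rw [card_map_of_injective R.subtype_injective] at h2
      obtain ⟨k, hk⟩ := IsPGroup.iff_card.mp ((S.isPGroup'.to_le hRS).to_le (omegaOne_le (p := 2) R))
      rw [hk]
      have h3 := lt_of_lt_of_le hA3 h2
      rw [hk, Nat.pow_lt_pow_iff_right one_lt_two] at h3
      exact Nat.pow_le_pow_right two_pos (by omega)
  have hi : V.relIndex W ≤ 2 := by
    have h1 := (V.subgroupOf W).card_mul_index
    rw [Nat.card_congr (subgroupOfEquivOfLe hVW).toEquiv] at h1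
    have h2 : 2 ^ r = 2 ^ (r - 1) * 2 := by rw [← pow_succ]; congr 1; omega
    have h3 : 0 < Nat.card V := Nat.card_pos
    by_contra h4
    have h5 : 3 ≤ V.relIndex W := by omega
    change _ * V.relIndex W = _ at h1
    have h6 := Nat.mul_le_mul_left (Nat.card V) h5
    omega
  have hinv : ∀ u ∈ (S : Subgroup G), ∀ v ∈ (S : Subgroup G), orderOf u = 2 → orderOf v = 2 →
      u ∉ V → v ∉ V → u * v ∈ V := by
    intro u hu v hv hu2 hv2 huV hvV
    have huW : u ∈ W := by
      rw [hWd]; exact mem_omegaOne hu (orderOf_dvd_iff_pow_eq_one.mp hu2.dvd)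
    have hvW : v ∈ W := by
      rw [hWd]; exact mem_omegaOne hv (orderOf_dvd_iff_pow_eq_one.mp hv2.dvd)
    have h0 : V.relIndex W ≠ 0 := FiniteIndex.index_ne_zero
    have h1 : V.relIndex W ≠ 1 := fun h => huV (relIndex_eq_one.mp h huW)
    have h2 : V.relIndex W = 2 := by omega
    exact (mul_mem_iff_of_index_two h2 (a := ⟨u, huW⟩) (b := ⟨v, hvW⟩)).mpr
      (iff_of_false huV hvV)
  have e1 : ∀ x ∈ (S : Subgroup G), ∀ y ∈ (S : Subgroup G), ⁅x, y⁆ ∈ V := by
    intro x hx y hy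
    have : x * y = y * x := setLike_mul_comm (s := (S : Subgroup G)) hx hy
    rw [commutatorElement_eq_one_iff_mul_comm.mpr this]
    exact one_mem _
  have e2 : ∀ x ∈ (S : Subgroup G), ∃ k, x ^ 2 ^ k ∈ V := by
    intro x hx
    obtain ⟨k, hk⟩ := S.isPGroup' ⟨x, hx⟩
    exact ⟨k, by rw [show x ^ 2 ^ k = 1 from congrArg Subtype.val hk]; exact one_mem _⟩
  have e3 : t ∈ _root_.commutator G ⊔ pResidual 2 G := by
    rw [pResidual_two_eq_top_iff.mpr hG, sup_top_eq]; exact mem_top t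
  obtain ⟨a, h1, h2, -⟩ := thompson_transfer_involution S.not_dvd_index e1 e2 t ht hinv e3 ⊥
    IsPGroup.of_bot (fun x hx => by rw [mem_bot.mp hx, one_mul, mul_one])
  obtain ⟨n, hn, h3⟩ := S.conj_eq_normalizer_conj_of_mem t a htS h1
  rw [hVd] at h2
  exact ⟨n⁻¹, inv_mem hn, by rw [inv_inv, ← h3]; exact omegaOne_le R h2⟩

end Cfsg.Agent.S1244
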