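import Cfsg.Statements.S1247
import Cfsg.Agent.Trans.BenderMax

set_option autoImplicit false
open Cfsg

namespace Cfsg.Agent.S1247

open Cfsg.Lib Cfsg.Lib.Trans

open Subgroup

/-- Let G be a non-abelian finite simple group, A a maximal subgroup, F = F*(A) its generalized Fitting subgroup (viewed in G), and S ≤ F a subgroup subnormal in F with C_F(S) ≤ S. Let B be any subgroup of G containing S. Then (a) for every prime q not dividing |F(A)|, O_q(B) ∩ A = 1; and (b) for every prime p dividing |F(A)|, O_p(B) commutes elementwise with the subgroup of F generated by its elements of order prime to p. -/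
theorem result {G : Type*} [Group G] [Finite G] [IsSimpleGroup G] (hna : ¬ IsMulCommutative G) (A : Subgroup G) (hA : IsCoatom A) (S : Subgroup G) (hSF : S ≤ (Cfsg.generalizedFittingSubgroup ↥A).map A.subtype) (hSsn : (S.subgroupOf ((Cfsg.generalizedFittingSubgroup ↥A).map A.subtype)).IsSubnormal) (hSC : (Cfsg.generalizedFittingSubgroup ↥A).map A.subtype ⊓ Subgroup.centralizer (S : Set G) ≤ S) (B : Subgroup G) (hSB : S ≤ B) : (∀ q : ℕ, q.Prime → ¬ q ∣ Nat.card (Cfsg.fittingSubgroup ↥A) → (Cfsg.pCore q ↥B).map B.subtype ⊓ A = ⊥) ∧ (∀ p : ℕ, p.Prime → p ∣ Nat.card (Cfsg.fittingSubgroup ↥A) → ∀ x ∈ (Cfsg.pCore p ↥B).map B.subtype, ∀ y ∈ (Cfsg.pResidual p ↥(Cfsg.generalizedFittingSubgroup ↥A)).map ((Cfsg.generalizedFittingSubgroup ↥A).subtype) , x * (A.subtype y) = (A.subtype y) * x) := by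
  have h : Large A S := ⟨⟨hSF, hSsn⟩, hSC⟩
  refine ⟨fun q hq hd => ?_, fun p hp hd x hx y hy => ?_⟩
  · haveI := Fact.mk hq
    exact h.pCoreOf_inf_eq_bot hSB (by rwa [fittingOf, Solv.card_map_subtype])
  · haveI := Fact.mk hp
    have h1 := h.pCoreOf_le_centralizer hA hSB (p := p) (by rwa [fittingOf, Solv.card_map_subtype])
    have h2 : A.subtype y ∈ Local.resOf p (Local.MSS.fsOf A) := by
      rw [← Local.map_resOf]
      exact mem_map_of_mem _ hy
    exact (h1 hx _ h2).symm

end Cfsg.Agent.S1247
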