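import Cfsg.Statements.S1253
import Cfsg.Agent.Trans.Isolated

set_option autoImplicit false
open Cfsg

namespace Cfsg.Agent.S1253

open Cfsg.Lib.Trans Cfsg.Lib.Local Cfsg.Lib.Solv
open scoped Pointwise

/-- The odd order elements inverted by `z` lie in distinct cosets of the centralizer of any
conjugate of `z`. -/
theorem eq_of_commute {G : Type*} [Group G] [Finite G] {z : G} (hz : Cfsg.IsIsolatedInvolution z)
    {k k' t : G} (hk : IsConj z (k * z)) (hk' : IsConj z (k' * z)) (ht : IsConj z t)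
    (hc : Commute (k⁻¹ * k') t) : k = k' := by
  have h1 := isolated_eq_of_commute_mul hz hk hk' (ht.trans (isConj_conj z⁻¹ t)) (by
    have := (Commute.conj_iff z⁻¹).mpr hc
    have h2 : k * z = (k * z)⁻¹ := (isolated_inv (isolated_of_isConj hz hk)).symm
    rw [h2]
    simpa [mul_assoc] using this)
  simpa using h1

theorem inj {G : Type*} [Group G] [Finite G] {z : G} (hz : Cfsg.IsIsolatedInvolution z)
    {P : Subgroup G} (hP : ∀ x ∈ P, Odd (orderOf x)) {t : G} (ht : IsConj z t) :
    Function.Injective (fun p : {x : G // x ∈ P ∧ z * x * z⁻¹ = x⁻¹} ×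
      (P ⊓ Subgroup.centralizer ({t} : Set G) : Subgroup G) =>
        (⟨p.1.1 * p.2.1, mul_mem p.1.2.1 p.2.2.1⟩ : P)) := by
  rintro ⟨⟨k, hk⟩, ⟨c, hc⟩⟩ ⟨⟨k', hk'⟩, ⟨c', hc'⟩⟩ h
  have h1 : k * c = k' * c' := congrArg Subtype.val h
  have h2 : k = k' := by
    refine eq_of_commute hz (isConj_mul_of_odd_of_inverted (hP _ hk.1) hk.2)
      (isConj_mul_of_odd_of_inverted (hP _ hk'.1) hk'.2) ht ?_
    have : k⁻¹ * k' = c * c'⁻¹ := by
      calc k⁻¹ * k' = k⁻¹ * (k' * c') * c'⁻¹ := by group
        _ = _ := by rw [← h1]; group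
    rw [this]
    exact Subgroup.mem_centralizer_singleton_iff.mp (mul_mem hc.2 (inv_mem hc'.2))
  subst h2
  have h3 : c = c' := mul_left_cancel h1
  subst h3
  rfl

/-- Let z be an isolated involution of the finite group G with centralizer C, p an odd prime and P a Sylow p-subgroup of G normalized by z. Then P ∩ C has p-power-free index in C (it is a Sylow p-subgroup of C), and |P : C_P(z)| equals the number of elements x ∈ P with z x z⁻¹ = x⁻¹. -/
theorem result {G : Type*} [Group G] [Finite G] (z : G) (hz : Cfsg.IsIsolatedInvolution z) {p : ℕ} [Fact p.Prime] (hp : p ≠ 2) (P : Sylow p G) (hzP : z ∈ Subgroup.normalizer ((P : Subgroup G) : Set G)) : ¬ p ∣ ((P : Subgroup G) ⊓ Subgroup.centralizer ({z} : Set G)).relIndex (Subgroup.centralizer ({z} : Set G)) ∧ ((P : Subgroup G) ⊓ Subgroup.centralizer ({z} : Set G)).relIndex (P : Subgroup G) = Nat.card {x : G // x ∈ P ∧ z * x * z⁻¹ = x⁻¹} := by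
  have hP : ∀ x ∈ (P : Subgroup G), Odd (orderOf x) := by
    intro x hx
    have := P.2.orderOf_coprime ((Nat.coprime_primes Fact.out Nat.prime_two).mpr hp) ⟨x, hx⟩
    rw [Subgroup.orderOf_mk] at this
    exact Nat.coprime_two_right.mp this
  have hsurj : Function.Surjective (fun p : {x : G // x ∈ (P : Subgroup G) ∧ z * x * z⁻¹ = x⁻¹} ×
      ((P : Subgroup G) ⊓ Subgroup.centralizer ({z} : Set G) : Subgroup G) =>
        (⟨p.1.1 * p.2.1, mul_mem p.1.2.1 p.2.2.1⟩ : (P : Subgroup G))) := by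
    rintro ⟨g, hg⟩
    have hr : z * (g * z * g⁻¹) ∈ (P : Subgroup G) := by
      have := mul_mem (conj_mem_of_mem_normalizer hzP hg) (inv_mem hg)
      rw [isolated_inv hz] at this
      simpa [mul_assoc] using this
    obtain ⟨k, hk⟩ := isolated_exists_zpow_conj hz (IsConj.refl z) (isConj_conj g z)
    have hinv : z * (z * (g * z * g⁻¹)) ^ k * z⁻¹ = ((z * (g * z * g⁻¹)) ^ k)⁻¹ := by
      rw [← conj_zpow, dih_inverts (isolated_mul_self hz)
        (mul_self_of_isConj (isolated_mul_self hz) (isConj_conj g z)), inv_zpow]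
    have hn := zpow_mem hr k
    generalize (z * (g * z * g⁻¹)) ^ k = n at hk hn hinv
    refine ⟨⟨⟨n, hn, hinv⟩, ⟨n⁻¹ * g, Subgroup.mem_inf.mpr ⟨mul_mem (inv_mem hn) hg, ?_⟩⟩⟩,
      Subtype.ext (by simp)⟩
    rw [Subgroup.mem_centralizer_singleton_iff]
    calc n⁻¹ * g * z = n⁻¹ * (g * z * g⁻¹) * g := by group
      _ = _ := by rw [← hk]; group
  have h1 := Nat.card_congr (Equiv.ofBijective _ ⟨inj hz hP (IsConj.refl z), hsurj⟩)
  rw [Nat.card_prod] at h1
  constructor
  · set C := Subgroup.centralizer ({z} : Set G) with hC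
    have h2 : IsPGroup p (((P : Subgroup G) ⊓ C).subgroupOf C) :=
      (P.2.to_inf_left (K := C)).comap_subtype
    obtain ⟨R, hR⟩ := h2.exists_le_sylow
    obtain ⟨Q, hQ⟩ := (R.2.map C.subtype).exists_le_sylow
    obtain ⟨g, hg⟩ := MulAction.exists_smul_eq G Q P
    have h3 := Nat.card_le_card_of_injective _ (inj hz hP (isConj_conj g z))
    rw [Nat.card_prod, ← h1] at h3
    have hpos : 0 < Nat.card {x : G // x ∈ (P : Subgroup G) ∧ z * x * z⁻¹ = x⁻¹} :=
      Nat.card_pos_iff.mpr ⟨⟨⟨1, one_mem _, by simp⟩⟩, inferInstance⟩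
    have h4 := Nat.le_of_mul_le_mul_left h3 hpos
    have h5 : MulAut.conj g • (R : Subgroup C).map C.subtype ≤
        (P : Subgroup G) ⊓ Subgroup.centralizer ({g * z * g⁻¹} : Set G) := by
      apply le_inf
      · rw [← hg, coe_sylow_smul]; exact conj_smul_mono g hQ
      · rw [← conj_smul_centralizer_singleton]; exact conj_smul_mono g (Subgroup.map_subtype_le _)
    have h6 := Subgroup.card_le_of_le h5
    rw [card_conj_smul, Subgroup.card_subtype] at h6
    have h7 : ((P : Subgroup G) ⊓ C).subgroupOf C = R := by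
      apply Subgroup.eq_of_le_of_card_ge hR
      rw [Nat.card_congr (Subgroup.subgroupOfEquivOfLe inf_le_right).toEquiv]
      exact h6.trans h4
    rw [Subgroup.relIndex, h7]
    exact R.not_dvd_index
  · have h2 := (((P : Subgroup G) ⊓ Subgroup.centralizer ({z} : Set G)).subgroupOf
      (P : Subgroup G)).index_mul_card
    rw [Nat.card_congr (Subgroup.subgroupOfEquivOfLe inf_le_left).toEquiv, ← h1] at h2
    exact Nat.eq_of_mul_eq_mul_right Nat.card_pos h2

end Cfsg.Agent.S1253
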