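import Cfsg.Statements.S1254
import Cfsg.Agent.Rank2.FusDih

set_option autoImplicit false
open Cfsg

open Cfsg.Lib.Rank2 Cfsg.Lib.Trans Cfsg.Lib.Solv Subgroup

namespace Cfsg.Agent.S1254

/-- Let X be a finite group whose Sylow 2-subgroup S is dihedral (of order at least 4). Then X has a normal 2-complement if and only if, for every Klein four-subgroup U ≤ S, the normalizer N_X(U) is generated by C_X(U) and N_S(U). -/
theorem result {X : Type*} [Group X] [Finite X] (S : Sylow 2 X) (m : ℕ) (hm : 2 ≤ m) (eS : (S : Subgroup X) ≃* DihedralGroup m) : Cfsg.HasNormalPComplement 2 X ↔ ∀ U : Subgroup X, U ≤ S → IsKleinFour U → Subgroup.normalizer (U : Set X) = Subgroup.centralizer (U : Set X) ⊔ ((S : Subgroup X) ⊓ Subgroup.normalizer (U : Set X)) := by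
  obtain ⟨k, -, ⟨F⟩⟩ := exists_dFrame S.isPGroup' hm eS
  constructor
  · intro h U hUS hU
    refine le_antisymm ?_ (sup_le (centralizer_le_normalizer _) inf_le_right)
    obtain ⟨i, hi⟩ := exists_relIndex_eq_pow (p := 2) fun g hg ho =>
      mem_centralizer_of_hasNormalPComplement h (klein_isPGroup hU) hg ho
    rcases (Nat.dvd_prime Nat.prime_two).1 ((Nat.Coprime.pow_left i (by norm_num : Nat.Coprime 2 3)
      ).dvd_of_dvd_mul_right (hi ▸ klein_relIndex_dvd hU)) with h1 | h1 <;> rw [← hi] at h1
    · exact (relIndex_eq_one.1 h1).trans le_sup_left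
    have h2 := relIndex_mul_relIndex _ (centralizer (U : Set X) ⊔ (S ⊓ normalizer (U : Set X))) _
      le_sup_left (sup_le (centralizer_le_normalizer _) inf_le_right)
    rcases (Nat.prime_two.eq_one_or_self_of_dvd _ (Dvd.intro _ (h2.trans h1))) with h3 | h3
    · have h4 := le_sup_right.trans (relIndex_eq_one.1 h3)
      rcases hUS.eq_or_lt with rfl | h5
      · exact absurd h1.ge.antisymm' fun _ => (isSylowIn_of_le S le_normalizer).not_dvd_relIndex_of_le
          (klein_le_centralizer hU) h1.symm.dvd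
      · obtain ⟨w, hw⟩ := FusD.eq_four F (T := U.subgroupOf S)
          ⟨by rw [Nat.card_congr (subgroupOfEquivOfLe hUS).toEquiv, hU.card_four],
            by rw [Monoid.exponent_eq_of_mulEquiv (subgroupOfEquivOfLe hUS), hU.exponent_two]⟩
        refine absurd (fun x hx => ?_) (lt_inf_normalizer S.isPGroup' h5).not_ge
        exact hw.ge (FusD.centralizer_four F w (x := ⟨x, hx.1⟩) fun y hy =>
          Subtype.ext (h4 hx _ (hw.ge hy)))
    · rw [h3, h1] at h2
      exact relIndex_eq_one.1 (by omega)
  · refine fun h => FusD.hasNormalPComplement F (E := SylEmb.ofSylow S) fun w ⟨g, hg, ho, hc⟩ => ?_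
    have hU := SylEmb.klein_map (E := SylEmb.ofSylow S) (FusD.klein_four F w)
    have hz := (SylEmb.mem_map_iff (E := SylEmb.ofSylow S)).2
      ((FusD.r_mem_sub F (c := 2) (w := w) (u := 2 ^ k)).2 (by linear_combination FusD.two_h))
    refine klein_conj_ne hU hg ho hc hz (fun h1 => FusD.z_ne_one F (Subtype.ext h1)) ?_
    obtain ⟨c, hc', s, hs, rfl⟩ := (mem_sup_of_le_normalizer (inf_le_right.trans
      (Cfsg.Lib.Trans.normalizer_le_normalizer_centralizer _))).1 ((h _ (map_subtype_le _) hU).le hg)
    have h1 : s * _ = _ * s := congrArg Subtype.val (mem_center_iff.1 (FusD.z_mem_center F) ⟨s, hs.1⟩)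
    rw [mul_inv_rev, ← mul_assoc, mul_assoc c, mul_assoc c]
    erw [h1]
    rw [mul_inv_cancel_right]
    exact conj_eq_of_mem_centralizer hc' hz

end Cfsg.Agent.S1254
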