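import Cfsg.Statements.S1255
import Cfsg.Agent.Rank2.FusDih

set_option autoImplicit false
open Cfsg

open Cfsg.Lib.Rank2 Cfsg.Lib.Trans Cfsg.Lib.Solv Subgroup

namespace Cfsg.Agent.S1255

/-- Let X be a finite group whose Sylow 2-subgroup S is dihedral of order 2m ≥ 4. Then X has no subgroup of index 2 and no isolated involution if and only if either all involutions of X are conjugate, or for every Klein four-subgroup U ≤ S the index |N_X(U) : C_X(U)| equals 3 when |S| = 4 and equals 6 when |S| > 4. -/
theorem result {X : Type*} [Group X] [Finite X] (S : Sylow 2 X) (m : ℕ) (hm : 2 ≤ m) (eS : (S : Subgroup X) ≃* DihedralGroup m) : ((∀ H : Subgroup X, H.index ≠ 2) ∧ (∀ z : X, ¬ Cfsg.IsIsolatedInvolution z)) ↔ ((∀ a b : X, orderOf a = 2 → orderOf b = 2 → IsConj a b) ∨ (∀ U : Subgroup X, U ≤ S → IsKleinFour U → (Subgroup.centralizer (U : Set X)).relIndex (Subgroup.normalizer (U : Set X)) = (if Nat.card S = 4 then 3 else 6))) := by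
  obtain ⟨k, -, ⟨F⟩⟩ := exists_dFrame S.isPGroup' hm eS
  constructor
  · intro h
    have h1 := FusD.isConj_z F (FusD.has_of_perfect F (E := SylEmb.ofSylow S) h.1)
    exact Or.inl fun a b ha hb => (h1 a ha).symm.trans (h1 b hb)
  · intro h
    have h1 : ∀ w, (SylEmb.ofSylow S).Has (FusD.four F w) := h.elim (FusD.has_of_isConj F) fun h w =>
      SylEmb.has_of_relIndex _ (by
        refine (h _ (map_subtype_le _)
          (SylEmb.klein_map (E := SylEmb.ofSylow S) (FusD.klein_four F w))).symm ▸ ?_
        split_ifs <;> norm_num)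
    exact ⟨SylEmb.index_ne_two S.isPGroup' (FusD.res_eq_top F h1), FusD.not_isolated F h1⟩

end Cfsg.Agent.S1255
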