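import Cfsg.Statements.S1256
import Cfsg.Agent.Rank2.FusDih

set_option autoImplicit false
open Cfsg

open Cfsg.Lib.Rank2 Cfsg.Lib.Trans Cfsg.Lib.Solv Subgroup

namespace Cfsg.Agent.S1256

/-- Let X be a finite group whose Sylow 2-subgroup S is dihedral of order 2m ≥ 4. If |S| = 4, any two Klein four-subgroups of X are conjugate; if |S| > 4, there are Klein four-subgroups U₁, U₂ of X that are not conjugate, and every Klein four-subgroup of X is conjugate to U₁ or to U₂. -/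
theorem result {X : Type*} [Group X] [Finite X] (S : Sylow 2 X) (m : ℕ) (hm : 2 ≤ m) (eS : (S : Subgroup X) ≃* DihedralGroup m) : (Nat.card S = 4 → ∀ U V : Subgroup X, IsKleinFour U → IsKleinFour V → (∃ x : X, U.map (MulAut.conj x).toMonoidHom = V)) ∧ (4 < Nat.card S → ∃ U₁ U₂ : Subgroup X, IsKleinFour U₁ ∧ IsKleinFour U₂ ∧ ¬ (∃ x : X, U₁.map (MulAut.conj x).toMonoidHom = U₂) ∧ ∀ V : Subgroup X, IsKleinFour V → (∃ x : X, V.map (MulAut.conj x).toMonoidHom = U₁) ∨ (∃ x : X, V.map (MulAut.conj x).toMonoidHom = U₂)) := by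
  obtain ⟨k, hk, ⟨F⟩⟩ := exists_dFrame S.isPGroup' hm eS
  have key : ∀ V : Subgroup X, IsKleinFour V →
      ∃ x w, cj x V = (FusD.four F w).map (SylEmb.ofSylow S).j := fun V hV => by
    obtain ⟨x, -, hx⟩ := (isSylowIn_top S).exists_cj_le (klein_isPGroup hV) le_top
    have h := klein_cj hV x
    obtain ⟨w, hw⟩ := FusD.eq_four F (T := (cj x V).subgroupOf S)
      ⟨by rw [Nat.card_congr (subgroupOfEquivOfLe hx).toEquiv, h.card_four],
        by rw [Monoid.exponent_eq_of_mulEquiv (subgroupOfEquivOfLe hx), h.exponent_two]⟩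
    exact ⟨x, w, hw ▸ (map_subgroupOf_eq_of_le hx).symm⟩
  refine ⟨fun h U V hU hV => ?_, fun h => ⟨_, _,
    SylEmb.klein_map (E := SylEmb.ofSylow S) (FusD.klein_four F 0),
    SylEmb.klein_map (E := SylEmb.ofSylow S) (FusD.klein_four F 1),
    fun ⟨x, hx⟩ => FusD.cj_four_ne F ?_ x hx, fun V hV => ?_⟩⟩
  · obtain ⟨x, -, hx⟩ := ((isSylowIn_top S).of_card_ge (klein_isPGroup hV) le_top
      (h.trans hV.card_four.symm).le).exists_cj_eq ((isSylowIn_top S).of_card_ge
        (klein_isPGroup hU) le_top (h.trans hU.card_four.symm).le)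
    exact ⟨x, hx⟩
  · rintro rfl
    exact (h.trans_eq hk).false
  · obtain ⟨x, w, hx⟩ := key V hV
    obtain ⟨v, rfl | rfl⟩ := ZM.even_or_odd w
    · exact Or.inl ⟨(SylEmb.ofSylow S).j (F.r (-v)) * x, by
        rw [cj_def, cj_mul, hx, ← map_cj, FusD.cj_four]; congr 2; ring⟩
    · exact Or.inr ⟨(SylEmb.ofSylow S).j (F.r (-v)) * x, by
        rw [cj_def, cj_mul, hx, ← map_cj, FusD.cj_four]; congr 2; ring⟩

end Cfsg.Agent.S1256
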