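import Cfsg.Statements.S1263
import Cfsg.Agent.Trans.Component

set_option autoImplicit false
open Cfsg

namespace Cfsg.Agent.S1263

open Cfsg.Lib Cfsg.Lib.Trans

open Subgroup
theorem aux {G : Type*} [Group G] (S : Finset (Subgroup G)) (hS : ∀ L ∈ S, IsComponent L) :
    ∀ z ∈ S.sup id, (∀ L ∈ S, z ∈ centralizer (L : Set G)) →
      z ∈ ⨆ L : {K : Subgroup G // IsComponent K}, (center (L : Subgroup G)).map
        (L : Subgroup G).subtype := by
  classical
  induction S using Finset.induction_on with
  | empty =>
    intro z hz _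
    rw [Finset.sup_empty, mem_bot] at hz
    exact hz ▸ one_mem _
  | insert L S hLS ih =>
    intro z hz hc
    have hL := hS L (Finset.mem_insert_self L S)
    have hS' : ∀ K ∈ S, IsComponent K := fun K hK => hS K (Finset.mem_insert_of_mem hK)
    have h1 : ∀ K ∈ S, ⁅L, K⁆ = ⊥ := fun K hK =>
      IsComponent.commutator_eq_bot_of_ne hL (hS' K hK) fun h => hLS (h ▸ hK)
    have h2 : S.sup id ≤ centralizer (L : Set G) := Finset.sup_le fun K hK =>
      commutator_eq_bot_iff_le_centralizer.1 (commutator_eq_bot_symm (h1 K hK))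
    rw [Finset.sup_insert] at hz
    obtain ⟨l, hl, w, hw, rfl⟩ :=
      (mem_sup_of_le_normalizer (h2.trans (centralizer_le_normalizer _))).1 hz
    refine mul_mem (mem_iSup_of_mem ⟨L, hL⟩ ?_) (ih hS' w hw fun K hK => ?_)
    · rw [map_subtype_center]
      exact ⟨hl, (mul_mem_cancel_right (h2 hw)).1 (hc L (Finset.mem_insert_self L S))⟩
    · exact (mul_mem_cancel_left (commutator_eq_bot_iff_le_centralizer.1 (h1 K hK) hl)).1
        (hc K (Finset.mem_insert_of_mem hK))

/-- For a finite group G, Z(E(G)) is the subgroup generated by the centres Z(L) of the components L of G (all viewed as subgroups of G). -/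
theorem result {G : Type*} [Group G] [Finite G] : (Subgroup.center ↥(Cfsg.layer G)).map (Cfsg.layer G).subtype = ⨆ L : {K : Subgroup G // Cfsg.IsComponent K}, (Subgroup.center ↥(L : Subgroup G)).map (L : Subgroup G).subtype := by
  apply le_antisymm
  · rw [map_subtype_center]
    rintro z ⟨hz, hc⟩
    have hfin : {K : Subgroup G | IsComponent K}.Finite := Set.toFinite _
    refine aux hfin.toFinset (fun L hL => hfin.mem_toFinset.1 hL) z ?_ fun L hL =>
      centralizer_le (IsComponent.le_layer (hfin.mem_toFinset.1 hL)) hc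
    exact layer_le_iff.2 (fun K hK => Finset.le_sup (f := id) (hfin.mem_toFinset.2 hK)) hz
  · refine iSup_le fun L => ?_
    rw [map_subtype_center, map_subtype_center]
    exact IsComponent.center_le_center_layer L.2

end Cfsg.Agent.S1263
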