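import Cfsg.Statements.S1267
import Cfsg.Agent.Trans.PLocal

set_option autoImplicit false
open Cfsg

namespace Cfsg.Agent.S1267

open Cfsg.Lib Cfsg.Lib.Trans


/-- Let G be finite and P ≤ O_p(G). Then E(N_G(P)) = E(G). -/
theorem result {G : Type*} [Group G] [Finite G] (p : ℕ) [Fact p.Prime] (P : Subgroup G) (hP : P ≤ Cfsg.pCore p G) : (Cfsg.layer ↥(Subgroup.normalizer ((P : Subgroup G) : Set G))).map (Subgroup.normalizer ((P : Subgroup G) : Set G)).subtype = Cfsg.layer G := by
  have hP' : IsPGroup p P := (Solv.pCore_isPGroup p G).to_le hP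
  have hE : layer G ≤ Subgroup.normalizer (P : Set G) :=
    le_normalizer_of_commutator_eq_bot (commutator_eq_bot_of_le (commutator_layer_pCore p G) le_rfl hP)
  refine le_antisymm (map_layer_subtype_le_iff.2 fun K hKN hK => ?_) (layer_le_map_layer_subtype hE)
  have hq := isQuasisimple_of_isComponent_subgroupOf hKN hK
  have hsolv : ∀ U : Subgroup G, U ≤ Subgroup.normalizer (P : Set G) → Group.IsSolvable U →
      K ≤ Subgroup.normalizer (U : Set G) → ⁅K, U⁆ = ⊥ := fun U hU hs hn =>
    (le_or_commutator_eq_bot_of_subgroupOf_of_le_normalizer hKN hU hK hn).resolve_left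
      (IsQuasisimple.not_le_of_isSolvable hq hs)
  have hKP : K ≤ Subgroup.centralizer (P : Set G) :=
    Subgroup.commutator_eq_bot_iff_le_centralizer.1
      (hsolv P Subgroup.le_normalizer (Solv.isSolvable_of_isPGroup hP') hKN)
  have h1 : ⁅K, pCore p G⁆ = ⊥ := by
    refine commutator_eq_bot_of_pq hP' (Solv.pCore_isPGroup p G)
      (le_resOf_of_perfect (IsQuasisimple.perfect hq)) hKP (le_normalizer_of_normal' _ _)
      (le_normalizer_of_normal' _ _) (hsolv _ (inf_le_right.trans (Subgroup.centralizer_le_normalizer _))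
        (Solv.isSolvable_of_isPGroup ((Solv.pCore_isPGroup p G).to_le inf_le_left)) ?_)
    exact Solv.le_normalizer_inf (le_normalizer_of_normal' _ _) (hKP.trans Subgroup.le_normalizer)
  have h2 : ⁅K, fittingSubgroup G ⊓ pPrimeCore p G⁆ = ⊥ := by
    apply hsolv
    · refine inf_le_right.trans ((Solv.pPrimeCore_le_centralizer_pCore p G).trans ?_)
      exact (centralizer_anti hP).trans (Subgroup.centralizer_le_normalizer _)
    · exact isSolvable_of_le inf_le_left inferInstance
    · exact le_normalizer_of_normal' _ _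
  have h3 : ⁅K, fittingSubgroup G⁆ = ⊥ := by
    rw [Solv.fitting_eq_pCore_sup_inf_pPrimeCore p G]
    exact commutator_sup_eq_bot_right h1 h2
  refine (le_or_commutator_eq_bot_of_subgroupOf_of_le_normalizer hKN hE hK
    (le_normalizer_of_normal' _ _)).resolve_right fun h4 => ?_
  exact IsQuasisimple.not_le_of_isSolvable hq inferInstance (le_fitting_of_commutator_eq_bot h4 h3)

end Cfsg.Agent.S1267
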