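import Cfsg.Statements.S1271
import Cfsg.Agent.Trans.LocalBalance

set_option autoImplicit false
open Cfsg

namespace Cfsg.Agent.S1271

open Cfsg.Lib Cfsg.Lib.Trans

open Subgroup QuotientGroup

/-- Let G be finite with O_{p'}(G) = 1. Suppose that for every component L of G and every subgroup H ≥ L in which L is normal, the quotient H / C_H(L) is balanced for the prime p. Then G is balanced for p. -/
theorem result {G : Type*} [Group G] [Finite G] (p : ℕ) [Fact p.Prime] (hO : Cfsg.pPrimeCore p G = ⊥) (h : ∀ L : Subgroup G, Cfsg.IsComponent L → ∀ H : Subgroup G, L ≤ H → (L.subgroupOf H).Normal → ∀ [((Subgroup.centralizer (L : Set G)).subgroupOf H).Normal], Cfsg.IsBalancedFor p (↥H ⧸ (Subgroup.centralizer (L : Set G)).subgroupOf H)) : Cfsg.IsBalancedFor p G := by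
  intro x hx
  rw [hO, le_bot_iff]
  refine eq_bot_of_forall_component (B := zpowers x) (D := centralizerPPrimeCore p x) hO ?_
    (TJ.ea_zpowers (hx ▸ pow_orderOf_eq_one x)).2 ?_ le_rfl ?_
  · rw [Ne, zpowers_eq_bot]
    rintro rfl
    exact (Fact.out : p.Prime).ne_one (hx.symm.trans orderOf_one)
  · intro b hb hb1
    change ppCoreOf p _ ≤ _
    rw [← centralizer_zpowers_eq, ← centralizer_zpowers_eq, zpowers_eq_of_mem_of_ne_one hx hb hb1]
  intro K hK hxK hDK hf
  set D := centralizerPPrimeCore p x with hDdef
  have hDC : D ≤ centralizer ({x} : Set G) := ppCoreOf_le p _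
  set T := D ⊔ zpowers x with hT
  set H := K ⊔ T with hH
  have hTK : T ≤ normalizer (K : Set G) := sup_le hDK hxK
  have hHK : H ≤ normalizer (K : Set G) := sup_le le_normalizer hTK
  have hKH : K ≤ H := le_sup_left
  have hTH : T ≤ H := le_sup_right
  have hxH : x ∈ H := hTH (mem_sup_right (mem_zpowers x))
  haveI hn : ((centralizer (K : Set G)).subgroupOf H).Normal :=
    normal_subgroupOf_of_le_normalizer (Solv.le_normalizer_centralizer hHK)
  have hb := h K hK H hKH (normal_subgroupOf_of_le_normalizer hHK)
  set π := mk' ((centralizer (K : Set G)).subgroupOf H) with hπ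
  have hker : π.ker = (centralizer (K : Set G)).subgroupOf H := ker_mk' _
  let x' : H := ⟨x, hxH⟩
  have hx' : orderOf x' = p := by rw [← Subgroup.orderOf_coe, hx]
  have hxb : orderOf (π x') = p := by
    rw [← Nat.card_zpowers, ← MonoidHom.map_zpowers, TJ.card_map_of_injOn, Nat.card_zpowers, hx']
    rw [hker, ← zpowers_subgroupOf, ← subgroupOf_inf', hf, bot_subgroupOf]
  have hU : IsPGroup p (π.ker ⊓ K.subgroupOf H : Subgroup _) := by
    rw [hker, ← subgroupOf_inf']
    apply isPGroup_subgroupOf
    exact (Solv.pCore_isPGroup p G).to_le ((inf_comm _ _).trans_le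
      (center_le_pCore_of_isSubnormal hO (IsComponent.isSubnormal hK)))
  have h1 := subgroupOf_le_ppCoreOf_centralizer (le_sup_left.trans hTH) x' (D := D) le_rfl
  rw [← centralizer_zpowers_eq] at h1
  have h2 := map_le_ppCoreOf_map_sup π hU (isPGroup_zpowers_of_orderOf hx')
    (T := T.subgroupOf H) (zpowers_le.2 (mem_sup_right (mem_zpowers x)))
    (le_normalizer_subgroupOf hKH hTK) (by
      rw [centralizer_zpowers_eq, ← centralizer_singleton_subgroupOf]
      exact subgroupOf_mono' _ (sup_le hDC (zpowers_le.2 (mem_centralizer_singleton_iff.2 rfl))))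
    (subgroupOf_mono' _ le_sup_left) h1
  rw [← subgroupOf_sup hKH hTH, subgroupOf_self, map_top_of_surjective _ (mk'_surjective _),
    top_inf_eq, MonoidHom.map_zpowers, centralizer_zpowers_eq] at h2
  have h3 := h2.trans (hb _ hxb)
  -- the image of `K` is a component of order divisible by `p` with trivial centralizer
  have hKb : IsComponent ((K.subgroupOf H).map π) := by
    apply IsComponent.map_of_surjective (IsComponent.subgroupOf hK hKH) π (mk'_surjective _)
    rw [Ne, Subgroup.map_eq_bot_iff, hker, Solv.subgroupOf_le_subgroupOf_iff_of_le hKH]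
    exact IsComponent.not_le_centralizer hK
  have hd : p ∣ Nat.card ((K.subgroupOf H).map π) := by
    rw [Solv.card_map_mk', relIndex_subgroupOf hKH]
    exact dvd_relIndex_centralizer_of_perfect (IsComponent.perfect hK) (IsComponent.dvd_card hK hO)
  have h4 := commutator_eq_bot_of_le (IsComponent.commutator_eq_bot_of_coprime hKb hd
    (Solv.coprime_card_pPrimeCore p _) le_normalizer_of_normal) le_rfl h3
  rw [← map_commutator, Subgroup.map_eq_bot_iff, hker,
    ← Solv.subgroupOf_commutator_of_le hKH (le_sup_left.trans hTH),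
    Solv.subgroupOf_le_subgroupOf_iff_of_le ((commutator_mono hKH (le_sup_left.trans hTH)).trans
      (commutator_le_self H))] at h4
  exact commutator_eq_bot_iff_le_centralizer.1
    (commutator_eq_bot_symm (IsComponent.commutator_eq_bot_of_le_centralizer hK h4))

end Cfsg.Agent.S1271
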