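import Cfsg.Statements.S1279
import Cfsg.Agent.Trans.SigBasic

set_option autoImplicit false
open Cfsg

namespace Cfsg.Agent.S1279

open Pointwise Cfsg.Lib.Solv Cfsg.Lib.FT Cfsg.Lib.Trans.Sig

/-- Let A be a noncyclic elementary abelian p-subgroup of the finite group G such that C_G(a) is solvable for every non-identity a ∈ A. Then a ↦ O_{p'}(C_G(a)) is a solvable A-signalizer functor on G. -/
theorem result {G : Type*} [Group G] [Finite G] (p : ℕ) [Fact p.Prime] (A : Subgroup G) (hA : Cfsg.IsElementaryAbelian p A) (hA2 : p ^ 2 ≤ Nat.card ↥A) (hsolv : ∀ a ∈ A, a ≠ 1 → Group.IsSolvable ↥(Subgroup.centralizer ({a} : Set G))) : Cfsg.IsSolvableSignalizerFunctor p A (fun a => Cfsg.centralizerPPrimeCore p a) := by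
  have hE : ∀ a : G, Cfsg.centralizerPPrimeCore p a = piCoreOf {p}ᶜ (𝐂₁ a) := fun a =>
    (p'core_eq_map p _).symm
  have hp : p.Prime := Fact.out
  have hc : ∀ a ∈ A, A ≤ 𝐂₁ a := fun a ha =>
    (abelian_le_cent (abelem_abelian hA)).trans (cent_le_cent1 ha)
  simp only [hE]
  refine ⟨⟨fun a _ _ => pcore_sub _ _, fun a _ _ => (p'groupE hp).1 (pcore_pgroup _ _),
    fun a ha _ => normsP.1 (norms_pcore _ (normsG (hc a ha))), fun a ha h1 b hb hb1 => ?_⟩,
    fun a ha h1 => solvableS (pcore_sub _ _) (hsolv a ha h1)⟩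
  have h2 := p'core_cent_pgroup hp (H := 𝐂₁ b) (R := Subgroup.zpowers a)
    ((Subgroup.zpowers_le.2 ha).trans (hc b hb))
    (pgroup_iff.2 (isPGroupS (Subgroup.zpowers_le.2 ha) (abelem_pgroup hA))) (hsolv b hb hb1)
  rw [cent_zpowers] at h2
  refine le_trans ?_ h2
  refine le_trans (le_inf inf_le_left (le_inf inf_le_right (inf_le_left.trans (pcore_sub _ _))))
    (pcoreS _ inf_le_right)

end Cfsg.Agent.S1279
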