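import Cfsg.Statements.S1280
import Cfsg.Agent.Trans.SigBasic

set_option autoImplicit false
open Cfsg

namespace Cfsg.Agent.S1280

open Pointwise Cfsg.Lib.Solv Cfsg.Lib.FT Cfsg.Lib.Trans.Sig

/-- Let θ be a solvable A-signalizer functor (A a noncyclic elementary abelian p-subgroup of the finite group G), and X, Y members of its family with Y ≤ N_G(X). Then X ⊔ Y (= XY) is again in the family. -/
theorem result {G : Type*} [Group G] [Finite G] (p : ℕ) [Fact p.Prime] (A : Subgroup G) (hA : Cfsg.IsElementaryAbelian p A) (hA2 : p ^ 2 ≤ Nat.card ↥A) (θ : G → Subgroup G) (hθ : Cfsg.IsSolvableSignalizerFunctor p A θ) (X Y : Subgroup G) (hX : X ∈ Cfsg.signalizerFamily p A θ) (hY : Y ∈ Cfsg.signalizerFamily p A θ) (hn : Y ≤ Subgroup.normalizer (X : Set G)) : X ⊔ Y ∈ Cfsg.signalizerFamily p A θ := by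
  rw [← mem_iff_family] at hX hY ⊢
  refine ⟨Fpf.isSolvable_sup_of_le_normalizer hn hX.sol hY.sol,
    SF.not_dvd_perm (perm_of_norm hn) hX.cop hY.cop, normsY hX.norm hY.norm, fun a ha h1 => ?_⟩
  have hz := isPGroupS (Subgroup.zpowers_le.2 ha) (abelem_pgroup hA)
  have h2 := hX.le a ha h1
  have h3 := hY.le a ha h1
  rw [← cent_zpowers] at h2 h3 ⊢
  exact (perm_of_norm hn).inf_cent_le (zpowers_le_norm ha hX.norm) (zpowers_le_norm ha hY.norm)
    (cop_of_not_dvd hz hX.cop) (pgroup_sol hz) h2 h3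

end Cfsg.Agent.S1280
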