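import Cfsg.Statements.S1282
import Cfsg.Agent.Trans.SigBasic

set_option autoImplicit false
open Cfsg

namespace Cfsg.Agent.S1282

open Pointwise Cfsg.Lib.Solv Cfsg.Lib.FT Cfsg.Lib.Trans.Sig

/-- Let A be an elementary abelian p-subgroup of rank at least 3 of the finite group G, q ≠ p a prime, and Q₁, Q₂ q-subgroups normalized by A with D = Q₁ ∩ Q₂ different from both. Then there is a non-identity a ∈ A such that, for i = 1 and i = 2, N_{Q_i}(D) ∩ C_G(a) is not contained in D. -/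
theorem result {G : Type*} [Group G] [Finite G] (p : ℕ) [Fact p.Prime] (A : Subgroup G) (hA : Cfsg.IsElementaryAbelian p A) (hA3 : p ^ 3 ≤ Nat.card ↥A) (q : ℕ) [Fact q.Prime] (hqp : q ≠ p) (Q₁ Q₂ : Subgroup G) (h₁ : IsPGroup q ↥Q₁) (h₂ : IsPGroup q ↥Q₂) (hA₁ : A ≤ Subgroup.normalizer (Q₁ : Set G)) (hA₂ : A ≤ Subgroup.normalizer (Q₂ : Set G)) (hD₁ : Q₁ ⊓ Q₂ ≠ Q₁) (hD₂ : Q₁ ⊓ Q₂ ≠ Q₂) : ∃ a ∈ A, a ≠ 1 ∧ ¬ (Subgroup.normalizer ((Q₁ ⊓ Q₂ : Subgroup G) : Set G) ⊓ Q₁ ⊓ Subgroup.centralizer {a} ≤ Q₁ ⊓ Q₂) ∧ ¬ (Subgroup.normalizer ((Q₁ ⊓ Q₂ : Subgroup G) : Set G) ⊓ Q₂ ⊓ Subgroup.centralizer {a} ≤ Q₁ ⊓ Q₂) := by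
  have hne : A ≠ ⊥ := ne_bot_of_pow_le hA3
  have hnd : ∀ {Q : Subgroup G}, IsPGroup q Q → ¬ p ∣ Nat.card Q := fun hQ hd =>
    hqp (eq_of_pgroup_of_dvd hQ Fact.out hd).symm
  obtain ⟨B₁, hB₁, h1⟩ := exists_hyp_not_le hA hne (pgroup_nil h₁) (hnd h₁) hA₁ (normsI hA₁ hA₂)
    (lt_of_le_of_ne inf_le_left hD₁)
  obtain ⟨B₂, hB₂, h2⟩ := exists_hyp_not_le hA hne (pgroup_nil h₂) (hnd h₂) hA₂ (normsI hA₁ hA₂)
    (lt_of_le_of_ne inf_le_right hD₂)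
  obtain ⟨a, ha1, ha2, ha⟩ := hB₁.exists_mem_inf hB₂ hA3
  refine ⟨a, hB₁.1 ha1, ha, fun h => h1 (le_trans ?_ h), fun h => h2 (le_trans ?_ h)⟩
  · exact inf_le_inf (inf_comm _ _).le (cent_le_cent1 ha1)
  · exact inf_le_inf (inf_comm _ _).le (cent_le_cent1 ha2)

end Cfsg.Agent.S1282
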