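import Cfsg.Statements.S1286
import Cfsg.Agent.FT.Elem

set_option autoImplicit false
open Cfsg

namespace Cfsg.Agent.S1286

open Pointwise Cfsg.Lib.Solv Cfsg.Lib.FT Equiv

/-- first transposition -/
def a : Perm (Fin 5) := swap 0 1
/-- second transposition -/
def b : Perm (Fin 5) := swap 2 3
/-- a three-cycle commuting with `a` -/
def x : Perm (Fin 5) := swap 2 3 * swap 3 4
/-- a three-cycle commuting with `b` -/
def y : Perm (Fin 5) := swap 0 1 * swap 1 4

/-- the four-group -/
def A : Subgroup (Perm (Fin 5)) where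
  carrier := {1, a, b, a * b}
  one_mem' := by simp
  mul_mem' := by
    rintro g h (rfl | rfl | rfl | rfl) (rfl | rfl | rfl | rfl) <;>
      simp only [Set.mem_insert_iff, Set.mem_singleton_iff] <;> decide
  inv_mem' := by
    rintro g (rfl | rfl | rfl | rfl) <;>
      simp only [Set.mem_insert_iff, Set.mem_singleton_iff] <;> decide

theorem mem_A {g : Perm (Fin 5)} : g ∈ A ↔ g = 1 ∨ g = a ∨ g = b ∨ g = a * b := Iff.rfl

/-- the functor -/
def θ (g : Perm (Fin 5)) : Subgroup (Perm (Fin 5)) :=
  if g = a then Subgroup.zpowers x else if g = b then Subgroup.zpowers y else ⊥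

theorem θa : θ a = Subgroup.zpowers x := if_pos rfl
theorem θb : θ b = Subgroup.zpowers y := by
  rw [θ, if_neg (by decide), if_pos rfl]
theorem θab : θ (a * b) = ⊥ := by
  rw [θ, if_neg (by decide), if_neg (by decide)]

theorem cx : Nat.card (Subgroup.zpowers x) = 3 := by
  have : Fact (Nat.Prime 3) := ⟨Nat.prime_three⟩
  rw [Nat.card_zpowers, orderOf_eq_prime (p := 3) (by decide) (by decide)]

theorem cy : Nat.card (Subgroup.zpowers y) = 3 := by
  have : Fact (Nat.Prime 3) := ⟨Nat.prime_three⟩
  rw [Nat.card_zpowers, orderOf_eq_prime (p := 3) (by decide) (by decide)]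

theorem inv_of {g z : Perm (Fin 5)} (h : g * z * g⁻¹ = z ∨ g * z * g⁻¹ = z⁻¹) :
    ∀ w ∈ Subgroup.zpowers z, g * w * g⁻¹ ∈ Subgroup.zpowers z := by
  rintro _ ⟨k, rfl⟩
  rw [← conj_zpow]
  refine Subgroup.zpow_mem _ ?_ k
  rcases h with h | h <;> rw [h]
  · exact Subgroup.mem_zpowers z
  · exact inv_mem (Subgroup.mem_zpowers z)

theorem ti {g z : Perm (Fin 5)} (hz : Nat.card (Subgroup.zpowers z) = 3) (h : z * g ≠ g * z)
    (X : Subgroup (Perm (Fin 5))) : Subgroup.zpowers z ⊓ 𝐂₁ g ≤ X := by
  rw [prime_TIg (hz ▸ Nat.prime_three) fun h2 => h (mem_cent1.1 (h2 (Subgroup.mem_zpowers z)))]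
  exact bot_le

theorem sig : Cfsg.IsSolvableSignalizerFunctor 2 A θ := by
  refine ⟨⟨?_, ?_, ?_, ?_⟩, ?_⟩
  · rintro g (rfl | rfl | rfl | rfl) h1
    · exact absurd rfl h1
    · rw [θa, Subgroup.zpowers_le, mem_cent1]; decide
    · rw [θb, Subgroup.zpowers_le, mem_cent1]; decide
    · rw [θab]; exact bot_le
  · rintro g (rfl | rfl | rfl | rfl) h1
    · exact absurd rfl h1
    · rw [θa, cx]; decide
    · rw [θb, cy]; decide
    · rw [θab]; simp
  · rintro g (rfl | rfl | rfl | rfl) h1 h hh
    · exact absurd rfl h1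
    · rw [θa]
      refine inv_of ?_
      rcases hh with rfl | rfl | rfl | rfl <;> decide
    · rw [θb]
      refine inv_of ?_
      rcases hh with rfl | rfl | rfl | rfl <;> decide
    · rw [θab]
      rintro w hw
      rw [Subgroup.mem_bot.1 hw]
      simp
  · rintro g (rfl | rfl | rfl | rfl) h1 h hh h2
    · exact absurd rfl h1
    · rcases hh with rfl | rfl | rfl | rfl
      · exact absurd rfl h2
      · exact inf_le_left
      · rw [θa]; exact ti cx (by decide) _
      · rw [θa]; exact ti cx (by decide) _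
    · rcases hh with rfl | rfl | rfl | rfl
      · exact absurd rfl h2
      · rw [θb]; exact ti cy (by decide) _
      · exact inf_le_left
      · rw [θb]; exact ti cy (by decide) _
    · rw [θab]; simp
  · rintro g (rfl | rfl | rfl | rfl) h1
    · exact absurd rfl h1
    · rw [θa]; exact abelian_sol (abelian_zpowers _)
    · rw [θb]; exact abelian_sol (abelian_zpowers _)
    · rw [θab]; exact abelian_sol abelian_bot


/-- There exist a finite group X, an elementary abelian subgroup A of order 4 and a solvable A-signalizer functor θ on X for the prime 2 which is not complete. -/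
theorem result : ∃ (X : Type) (_ : Group X) (_ : Finite X) (A : Subgroup X) (θ : X → Subgroup X), Cfsg.IsElementaryAbelian 2 A ∧ Nat.card ↥A = 4 ∧ Cfsg.IsSolvableSignalizerFunctor 2 A θ ∧ ¬ Cfsg.IsCompleteSignalizerFunctor 2 A θ := by
  refine ⟨Perm (Fin 5), inferInstance, inferInstance, A, θ, ?_, ?_, sig, ?_⟩
  · refine abelem_of_abelian_of_pow (abelian_of_forall ?_) ?_
    · rintro g (rfl | rfl | rfl | rfl) h (rfl | rfl | rfl | rfl) <;> decide
    · rintro g (rfl | rfl | rfl | rfl) <;> decide
  · change Nat.card ({1, a, b, a * b} : Set (Perm (Fin 5))) = 4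
    have h1 : (1 : Perm (Fin 5)) ∉ ({a, b, a * b} : Set (Perm (Fin 5))) := by
      simp only [Set.mem_insert_iff, Set.mem_singleton_iff]
      decide
    have h2 : a ∉ ({b, a * b} : Set (Perm (Fin 5))) := by
      simp only [Set.mem_insert_iff, Set.mem_singleton_iff]
      decide
    rw [Nat.card_coe_set_eq, Set.ncard_insert_of_notMem h1, Set.ncard_insert_of_notMem h2,
      Set.ncard_pair (by decide)]
  · rintro ⟨-, X, -, -, h⟩
    have hx : x ∈ X := by
      have h1 := h a (Or.inr (Or.inl rfl)) (by decide)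
      rw [θa] at h1
      exact (h1.ge (Subgroup.mem_zpowers x)).1
    have hy : y ∈ X := by
      have h1 := h b (Or.inr (Or.inr (Or.inl rfl))) (by decide)
      rw [θb] at h1
      exact (h1.ge (Subgroup.mem_zpowers y)).1
    have h1 := h (a * b) (Or.inr (Or.inr (Or.inr rfl))) (by decide)
    rw [θab] at h1
    have h2 : x * y * x * y * x ∈ X ⊓ 𝐂₁ (a * b) :=
      ⟨X.mul_mem (X.mul_mem (X.mul_mem (X.mul_mem hx hy) hx) hy) hx, mem_cent1.2 (by decide)⟩
    rw [h1, Subgroup.mem_bot] at h2
    exact absurd h2 (by decide)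

end Cfsg.Agent.S1286
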