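import Cfsg.Statements.S1297
import Cfsg.Agent.Trans.LocalBalance

set_option autoImplicit false
open Cfsg

namespace Cfsg.Agent.S1297

open Cfsg.Lib Cfsg.Lib.Trans

open Subgroup

/-- Let G be finite. Suppose that for every involution x, writing C = C_G(x), every component K of C / O(C) has K / Z(K) locally balanced. Then G is balanced. -/
theorem result {G : Type*} [Group G] [Finite G] (h : ∀ x : G, orderOf x = 2 → ∀ K : Subgroup (↥(Subgroup.centralizer ({x} : Set G)) ⧸ Cfsg.oddCore ↥(Subgroup.centralizer ({x} : Set G))), Cfsg.IsComponent K → Cfsg.IsLocallyBalanced (↥K ⧸ Subgroup.center ↥K)) : Cfsg.IsBalanced G := by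
  have key : ∀ x y : G, orderOf x = 2 → orderOf y = 2 → x * y = y * x →
      centralizerPPrimeCore 2 x ⊓ centralizer {y} ≤ centralizerPPrimeCore 2 y ⊓ centralizer {x} := by
    intro x y hx hy hxy
    have h1 := signalizerDelta_inf_le (p := 2) (B := zpowers x) (H := centralizer {y}) le_rfl
      (zpowers_le.2 (mem_centralizer_singleton_iff.2 hxy))
      (TJ.ea_zpowers (hx ▸ pow_orderOf_eq_one x)) (by rw [Nat.card_zpowers, hx]; rfl)
      fun K hK => Or.inr (isLocallyKBalanced_one_of_isLocallyBalanced (h y hy K hK))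
    refine le_inf (le_trans (inf_le_inf_right _ ?_) h1) (inf_le_left.trans (ppCoreOf_le 2 _))
    refine le_iInf ?_
    rintro ⟨a, ha, ha1⟩
    change ppCoreOf 2 _ ≤ ppCoreOf 2 (centralizer {a})
    rw [← centralizer_zpowers_eq, ← centralizer_zpowers_eq, zpowers_eq_of_mem_of_ne_one hx ha ha1]
  intro x y hx hy hxy
  exact le_antisymm (key x y hx hy hxy) (key y x hy hx hxy.symm)

end Cfsg.Agent.S1297
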