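import Cfsg.Statements.S1299
import Cfsg.Agent.Trans.SigGen
import Cfsg.Agent.Trans.LocalBalance

set_option autoImplicit false
open Cfsg

namespace Cfsg.Agent.S1299

open Pointwise Cfsg.Lib.Solv Cfsg.Lib.FT Cfsg.Lib.Trans Cfsg.Lib.Trans.Sig
open scoped commutatorElement


/-- Let G be finite and k-balanced for the prime p (k ≥ 1), A an elementary abelian p-subgroup of order at least p^(k+2) such that O_{p'}(C_G(a)) is solvable for every non-identity a ∈ A. For a ∈ A put θ a = the subgroup generated by the Δ_G(D) ∩ C_G(a) over the subgroups D ≤ A of order p^k. Then θ is an A-signalizer functor. -/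
theorem result {G : Type*} [Group G] [Finite G] (p k : ℕ) [Fact p.Prime] (hk : 1 ≤ k) (hbal : Cfsg.IsKBalanced p k G) (A : Subgroup G) (hA : Cfsg.IsElementaryAbelian p A) (hAk : p ^ (k + 2) ≤ Nat.card ↥A) (hsolv : ∀ a ∈ A, a ≠ 1 → Group.IsSolvable ↥(Cfsg.centralizerPPrimeCore p a)) : Cfsg.IsSignalizerFunctor p A (fun a => ⨆ D : {D : Subgroup G // D ≤ A ∧ Nat.card ↥D = p ^ k}, Cfsg.signalizerDelta p (D : Subgroup G) ⊓ Subgroup.centralizer {a}) := by
  have hp : p.Prime := Fact.out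
  have hAp := abelem_pgroup hA
  have hAc := abelem_abelian hA
  have hA1 : A ≠ ⊥ := ne_bot_of_pow_le hAk
  have hE : ∀ a : G, centralizerPPrimeCore p a = piCoreOf {p}ᶜ (𝐂₁ a) := fun a =>
    (p'core_eq_map p _).symm
  have hO : ∀ a : G, ¬ p ∣ Nat.card (centralizerPPrimeCore p a) := fun a => by
    rw [hE]; exact (p'groupE hp).1 (pcore_pgroup _ _)
  have hc1 : ∀ a ∈ A, A ≤ 𝐂₁ a := fun a ha => (abelian_le_cent hAc).trans (cent_le_cent1 ha)
  have anti : ∀ E F : Subgroup G, E ≤ F → signalizerDelta p F ≤ signalizerDelta p E :=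
    fun E F h => le_iInf fun e => signalizerDelta_le F (h e.2.1) e.2.2
  have hex : ∀ E ≤ A, p ^ k ≤ Nat.card E → ∃ D ≤ E, Nat.card D = p ^ k := fun E hE h =>
    exists_le_card_pow (isPGroupS hE hAp) h
  have bal : ∀ E ≤ A, p ^ k ≤ Nat.card E → ∀ a ∈ A, a ≠ 1 →
      signalizerDelta p E ⊓ 𝐂₁ a ≤ centralizerPPrimeCore p a := fun E hE h a ha h1 => by
    obtain ⟨D, hD, hc⟩ := hex E hE h
    exact (inf_le_inf_right _ (anti D E hD)).trans (hbal D (abelemS (hD.trans hE) hA) hc a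
      (abelem_order_p hA ha h1) fun d hd => abelian_comm hAc (hE (hD hd)) ha)
  have bal' : ∀ E ≤ A, p ^ k ≤ Nat.card E → ∀ F ≤ A,
      signalizerDelta p E ⊓ 𝐂 F ≤ signalizerDelta p F := fun E hE h F hF =>
    le_iInf fun a => (inf_le_inf_left _ (cent_le_cent1 a.2.1)).trans (bal E hE h a (hF a.2.1) a.2.2)
  have large : ∀ E ≤ A, E.relIndex A ≤ p ^ 2 → p ^ k ≤ Nat.card E := fun E hE h => by
    rw [← card_mul_relIndex_of_le hE, pow_add] at hAk
    exact Nat.le_of_mul_le_mul_right (hAk.trans (Nat.mul_le_mul_left _ h)) (pow_pos hp.pos 2)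
  have hn : ∀ E ≤ A, ∀ a ∈ A, A ≤ 𝐍 (signalizerDelta p E ⊓ 𝐂₁ a) := fun E hE a ha =>
    normsI (le_normalizer_signalizerDelta ((abelian_le_cent hAc).trans (centS hE)))
      (norms_cent1 (hc1 a ha))
  have hle : ∀ a ∈ A, a ≠ 1 → (⨆ D : {D : Subgroup G // D ≤ A ∧ Nat.card ↥D = p ^ k},
      signalizerDelta p (D : Subgroup G) ⊓ 𝐂₁ a) ≤ centralizerPPrimeCore p a := fun a ha h1 =>
    iSup_le fun D => bal D D.2.1 D.2.2.ge a ha h1
  have hinv : ∀ a ∈ A, A ≤ 𝐍 (⨆ D : {D : Subgroup G // D ≤ A ∧ Nat.card ↥D = p ^ k},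
      signalizerDelta p (D : Subgroup G) ⊓ 𝐂₁ a : Subgroup G) := fun a ha =>
    Coprime.le_normalizer_iSup fun D => hn D D.2.1 a ha
  refine ⟨fun a _ _ => iSup_le fun _ => inf_le_right,
    fun a ha h1 hd => hO a (hd.trans (cardSg (hle a ha h1))),
    fun a ha _ => normsP.1 (hinv a ha), fun a ha h1 b hb hb1 => ?_⟩
  have hF : Fam p A (centralizerPPrimeCore p a) fun E => signalizerDelta p E ⊓ 𝐂₁ a :=
    ⟨fun E hE hi => le_inf (bal E hE (large E hE hi) a ha h1) (inf_le_left.trans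
        (le_centralizer_of_forall_le_ppCoreOf fun b hb h1 => signalizerDelta_le E hb h1)),
      fun E hE _ => hn E hE a ha, fun E hE hi F hF _ => le_inf
        ((inf_le_inf_right _ inf_le_left).trans (bal' E hE (large E hE hi) F hF))
        (inf_le_left.trans inf_le_right),
      fun E _ _ F _ h => inf_le_inf_right _ (anti E F h)⟩
  have h2 : (⨆ D : {D : Subgroup G // D ≤ A ∧ Nat.card ↥D = p ^ k},
      signalizerDelta p (D : Subgroup G) ⊓ 𝐂₁ a) ≤
      hypSup p A fun E => signalizerDelta p E ⊓ 𝐂₁ a := iSup_le fun D =>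
    le_of_hyp hA hA1 (hn D D.2.1 a ha)
      (fun hd => hO a (hd.trans (cardSg (bal D D.2.1 D.2.2.ge a ha h1)))) fun B hB =>
      le_trans (le_inf ((inf_le_inf_right _ inf_le_left).trans (bal' D D.2.1 D.2.2.ge B hB.1))
        (inf_le_left.trans inf_le_right))
        (le_hypSup (Δ := fun E => signalizerDelta p E ⊓ 𝐂₁ a) hB)
  refine le_of_hyp hA hA1 (normsI (hinv a ha) (norms_cent1 (hc1 b hb)))
    (fun hd => hO a (hd.trans (cardSg (inf_le_left.trans (hle a ha h1))))) fun B hB => ?_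
  have h3 := hF.hypSup_inf_cent_le hA (by rw [hE]; exact norms_pcore _ (normsG (hc1 a ha))) (hO a)
    (hsolv a ha h1) hB
  obtain ⟨D, hD, hc⟩ := hex B hB.1 (large B hB.1 hB.large)
  refine le_trans (le_inf ?_ (inf_le_left.trans inf_le_right))
    (le_iSup (fun D : {D : Subgroup G // D ≤ A ∧ Nat.card ↥D = p ^ k} =>
      signalizerDelta p (D : Subgroup G) ⊓ 𝐂₁ b) ⟨D, hD.trans hB.1, hc⟩)
  exact (((inf_le_inf_right _ (inf_le_left.trans h2)).trans h3).trans inf_le_left).trans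
    (anti D B hD)

end Cfsg.Agent.S1299
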