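import Cfsg.Statements.S1300
import Cfsg.Agent.FT.Elem

set_option autoImplicit false
open Cfsg

namespace Cfsg.Agent.S1300

open Pointwise Cfsg.Lib.Solv Cfsg.Lib.FT

/-- For a finite group G, balance in the sense of commuting involutions is the same as 1-balance for the prime 2. -/
theorem result {G : Type*} [Group G] [Finite G] : Cfsg.IsBalanced G ↔ Cfsg.IsKBalanced 2 1 G := by
  classical
  have : Fact (Nat.Prime 2) := ⟨Nat.prime_two⟩
  have hsub : ∀ x : G, centralizerPPrimeCore 2 x ≤ 𝐂₁ x := fun x => Subgroup.map_subtype_le _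
  constructor
  · intro h A hA hc b hb hab
    have hne : A ≠ ⊥ := by
      rintro rfl
      simp at hc
    obtain ⟨a, ha, ha1⟩ := trivgPn.1 hne
    have h1 : signalizerDelta 2 A ≤ centralizerPPrimeCore 2 a :=
      iInf_le (fun a : {a : G // a ∈ A ∧ a ≠ 1} => centralizerPPrimeCore 2 (a : G)) ⟨a, ha, ha1⟩
    refine (inf_le_inf_right _ h1).trans ?_
    rw [h a b (abelem_order_p hA ha ha1) hb (hab a ha)]
    exact inf_le_left
  · intro h
    have key : ∀ x y : G, orderOf x = 2 → orderOf y = 2 → x * y = y * x →
        centralizerPPrimeCore 2 x ⊓ 𝐂₁ y ≤ centralizerPPrimeCore 2 y ⊓ 𝐂₁ x := by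
      intro x y hx hy hxy
      refine le_inf (le_trans (inf_le_inf_right _ ?_) (h (Subgroup.zpowers x)
        (abelem_zpowers (by rw [← hx, pow_orderOf_eq_one])) (by rw [Nat.card_zpowers, hx, pow_one])
        y hy fun a ha => ?_)) (inf_le_left.trans (hsub x))
      · refine le_iInf fun a => ?_
        have h2 : (a : G) = x := by
          obtain ⟨a, ha, ha1⟩ := a
          rw [mem_zpowers_iff_mem_range_orderOf, hx] at ha
          simp only [Finset.mem_image, Finset.mem_range] at ha
          obtain ⟨k, hk, rfl⟩ := ha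
          interval_cases k
          · simp at ha1
          · simp
        rw [h2]
      · obtain ⟨k, rfl⟩ := ha
        exact ((show Commute x y from hxy).zpow_left k).eq
    exact fun x y hx hy hxy => le_antisymm (key x y hx hy hxy) (key y x hy hx hxy.symm)

end Cfsg.Agent.S1300
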