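import Cfsg.Statements.S1304
import Cfsg.Agent.Trans.Quasisimple
import Cfsg.Agent.Solv.CoprimeFixed

set_option autoImplicit false
open Cfsg

namespace Cfsg.Agent.S1304

open Cfsg.Lib Cfsg.Lib.Trans


/-- Let X be a perfect group and α an automorphism of X with α(x) x⁻¹ central for every x. Then α is the identity. -/
theorem result {X : Type*} [Group X] (hperf : commutator X = ⊤) (α : X ≃* X) (h : ∀ x : X, α x * x⁻¹ ∈ Subgroup.center X) : ∀ x : X, α x = x := by
  let f : X →* Subgroup.center X :=
    { toFun := fun x => ⟨α x * x⁻¹, h x⟩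
      map_one' := by ext; simp
      map_mul' := fun x y => by
        ext
        have := Subgroup.mem_center_iff.mp (h y) x⁻¹
        simp only [map_mul, mul_inv_rev, Subgroup.coe_mul]
        calc α x * α y * (y⁻¹ * x⁻¹) = α x * ((α y * y⁻¹) * x⁻¹) := by group
          _ = α x * (x⁻¹ * (α y * y⁻¹)) := by rw [this]
          _ = _ := by group }
  have hs : Group.IsSolvable (Subgroup.center X) := Solv.Coprime.isSolvable_of_isMulCommutative _
  have hk : (⊤ : Subgroup X) ≤ f.ker :=
    perfect_le_ker_of_isSolvable (L := ⊤) hperf f inferInstance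
  intro x
  have : α x * x⁻¹ = 1 := congrArg Subtype.val (MonoidHom.mem_ker.mp (hk (Subgroup.mem_top x)))
  exact mul_inv_eq_one.mp this

end Cfsg.Agent.S1304
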