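import Cfsg.Statements.S1305
import Cfsg.Agent.Trans.CompBal
import Cfsg.Agent.FT.BG4.Elem

set_option autoImplicit false
open Cfsg

namespace Cfsg.Agent.S1305

open Cfsg.Lib Cfsg.Lib.Trans

open Subgroup
open scoped Pointwise

/-- Let G be a finite group of component type with the B-property and no nontrivial normal subgroup of odd order. Let a be an involution and K a component of C_G(a) such that (a) |K| is maximal among the orders of components of centralizers of involutions of G, (b) subject to (a) the 2-rank of the centralizer of K in C_G(a) is as large as possible, and (c) K has 2-rank at least 2. If B is an elementary abelian 2-subgroup of that centralizer of the largest possible order, then K is a component of C_G(b) for every non-identity b ∈ B. -/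
theorem result {G : Type*} [Group G] [Finite G] (hO : Cfsg.oddCore G = ⊥) (hB : Cfsg.HasBProperty G) (hct : Cfsg.IsComponentType G) (a : G) (ha : orderOf a = 2) (K : Subgroup G) (hKa : K ≤ Subgroup.centralizer ({a} : Set G)) (hK : Cfsg.IsComponent (K.subgroupOf (Subgroup.centralizer ({a} : Set G)))) (hmax : ∀ y : G, orderOf y = 2 → ∀ K' : Subgroup G, K' ≤ Subgroup.centralizer ({y} : Set G) → Cfsg.IsComponent (K'.subgroupOf (Subgroup.centralizer ({y} : Set G))) → Nat.card ↥K' ≤ Nat.card ↥K ∧ (Nat.card ↥K' = Nat.card ↥K → ∀ k : ℕ, Cfsg.PRankLE 2 k ↥(Subgroup.centralizer ({a} : Set G) ⊓ Subgroup.centralizer (K : Set G)) → Cfsg.PRankLE 2 k ↥(Subgroup.centralizer ({y} : Set G) ⊓ Subgroup.centralizer (K' : Set G)))) (hrk : ¬ Cfsg.PRankLE 2 1 ↥K) (B : Subgroup G) (hBle : B ≤ Subgroup.centralizer ({a} : Set G) ⊓ Subgroup.centralizer (K : Set G)) (hBel : Cfsg.IsElementaryAbelian 2 B) (hBmax : ∀ B' : Subgroup G, B' ≤ Subgroup.centralizer ({a} : Set G) ⊓ Subgroup.centralizer (K : Set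 G) → Cfsg.IsElementaryAbelian 2 B' → Nat.card ↥B' ≤ Nat.card ↥B) (b : G) (hb : b ∈ B) (hb1 : b ≠ 1) : K ≤ Subgroup.centralizer ({b} : Set G) ∧ Cfsg.IsComponent (K.subgroupOf (Subgroup.centralizer ({b} : Set G))) := by
  have hKb : K ≤ centralizer ({b} : Set G) := fun k hk =>
    mem_centralizer_singleton_iff.2 ((hBle hb).2 k hk)
  refine ⟨hKb, ?_⟩
  have hb2 : orderOf b = 2 := orderOf_eq_prime (hBel.2 b hb) hb1
  have ha2 : a ^ 2 = 1 := ha ▸ pow_orderOf_eq_one a
  have haK : a ∈ centralizer (K : Set G) := fun l hl => mem_centralizer_singleton_iff.1 (hKa hl)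
  have haB : a ∈ B := by
    have h1 : a ∈ centralizer (B : Set G) := fun c hc =>
      mem_centralizer_singleton_iff.1 (hBle hc).1
    have h2 := hBmax (B ⊔ zpowers a) (sup_le hBle (zpowers_le.2
      ⟨mem_centralizer_singleton_iff.2 rfl, haK⟩))
      (FT.BG4.isElementaryAbelian_sup_zpowers hBel h1 ha2)
    rw [eq_of_le_of_card_ge le_sup_left h2]
    exact mem_sup_right (mem_zpowers a)
  have hBb : B ≤ centralizer ({b} : Set G) := fun c hc =>
    mem_centralizer_singleton_iff.2 (congrArg Subtype.val (hBel.1.is_comm.comm ⟨c, hc⟩ ⟨b, hb⟩))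
  have h1 : K ≤ centralizer ({b} : Set G) ⊓ centralizer {a} := le_inf hKb hKa
  obtain ⟨J, hJb, hJ, ⟨-, hKJ⟩ | ⟨-, h, hKd, hu⟩⟩ := exists_pumpup_in
    (pLayer_centralizer_le_layer hO hB hb2) ha (hBb haB) h1
    (isComponent_subgroupOf_of_le h1 inf_le_right hK)
  · rwa [eq_of_le_of_card_ge hKJ (hmax b hb2 J hJb hJ).1]
  exfalso
  obtain ⟨hJK, hr⟩ := hmax b hb2 J hJb hJ
  have hinj := h.injective_diag (hKd ▸ hJK)
  have hcard : Nat.card J = Nat.card K := le_antisymm hJK (hKd ▸ h.card_range_diag_le)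
  obtain ⟨k, hk⟩ := (FT.BG4.isPGroup_of_pow_eq_one hBel.2).exists_card_eq
  have hr' := hr hcard k (FT.BG4.pRankLE_subgroup_iff.2 fun E hE hE' => hk ▸ hBmax E hE hE')
  -- a four-group in `J`
  have hrJ : ¬ PRankLE 2 1 J := fun h' => hrk (hKd ▸ FT.BG4.pRankLE_of_injective h'
    (MonoidHom.ofInjective hinj).symm.toMonoidHom (MonoidHom.ofInjective hinj).symm.injective)
  obtain ⟨E, hEJ, hE, hE4⟩ := FT.BG4.exists_le_card_of_not_pRankLE hrJ
  have ha1 : a ≠ 1 := fun h1 => by
    rw [h1, orderOf_one] at ha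
    exact absurd ha (by norm_num)
  have hJJ := h a (mem_zpowers a) ha1
  have hab : a * b * a⁻¹ = b := by
    rw [mem_centralizer_singleton_iff.1 (hBb haB), mul_inv_cancel_right]
  -- `B₀ = C_B(J)` and `E^a`
  have hE' : IsElementaryAbelian 2 (MulAut.conj a • E) := FT.BG4.isElementaryAbelian_map hE _
  have hB0 : IsElementaryAbelian 2 (B ⊓ centralizer (J : Set G)) :=
    FT.BG4.isElementaryAbelian_of_le hBel inf_le_left
  have hcomm : ∀ c ∈ B, a * c * a⁻¹ = c := fun c hc => by
    rw [show a * c = c * a from congrArg Subtype.val (hBel.1.is_comm.comm ⟨a, haB⟩ ⟨c, hc⟩),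
      mul_inv_cancel_right]
  have hc : B ⊓ centralizer (J : Set G) ≤ centralizer ((MulAut.conj a • E : Subgroup G) : Set G) := by
    intro c hc
    rw [← Solv.conj_smul_centralizer, ← hcomm c hc.1]
    exact Solv.conj_mem_conj_smul a (centralizer_le hEJ hc.2)
  have hle := FT.BG4.card_le_of_pRankLE hr' (FT.BG4.isElementaryAbelian_sup hB0 hE' hc)
    (sup_le (inf_le_inf_right _ hBb) (le_inf (by
      rw [← hab, ← Solv.conj_smul_centralizer_singleton]
      exact Solv.conj_smul_mono a (hEJ.trans hJb))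
      ((Solv.conj_smul_mono a hEJ).trans (Solv.commutator_eq_bot_iff_le_centralizer'.1 hJJ))))
  rw [Solv.card_sup_of_disjoint_of_le_normalizer
    ((le_centralizer_iff.1 hc).trans (centralizer_le_normalizer _)), Solv.card_conj_smul] at hle
  · have h2 : (centralizer (J : Set G)).relIndex B ∣ 2 :=
      relIindex_dvd_two_iff'.2 ⟨a, haB, fun c hc => (hu c (hBb hc) (hBle hc).2).symm⟩
    have h3 := Solv.card_inf_mul_relIndex (centralizer (J : Set G)) B
    rw [inf_comm, hk] at h3
    have h4 := Nat.le_of_dvd two_pos h2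
    have h5 := Nat.card_pos (α := (B ⊓ centralizer (J : Set G) : Subgroup G))
    rw [← h3] at hle
    have h6 := (Nat.mul_le_mul_left _ hE4).trans (hle.trans (Nat.mul_le_mul_left _ h4))
    omega
  · rw [eq_bot_iff]
    rintro z ⟨⟨hzB, -⟩, hz⟩
    have hz' : z ∈ J := by
      have h2 := hEJ (Solv.mem_conj_smul.1 hz)
      rwa [← hcomm z hzB, show a⁻¹ * (a * z * a⁻¹) * a = z by group] at h2
    have h2 : h.diag ⟨z, hz'⟩ = 1 := by
      rw [h.diag_two ha]
      show z * (a * z * a⁻¹) = 1
      rw [hcomm z hzB, ← sq, hBel.2 z hzB]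
    exact congrArg Subtype.val ((injective_iff_map_eq_one _).1 hinj _ h2)

end Cfsg.Agent.S1305
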