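import Cfsg.Statements.S1307
import Cfsg.Agent.Trans.CompBal
import Cfsg.Agent.Local.StronglyEmb
import Cfsg.Agent.Bender.TwoRank

set_option autoImplicit false
open Cfsg

namespace Cfsg.Agent.S1307

open Cfsg.Lib Cfsg.Lib.Trans

open Subgroup
open scoped Pointwise

/-- Let G be finite, x an involution and L ≤ C_G(x) a component of C_G(x) of even order and 2-rank 1, such that L is a component of C_G(y) for every involution y ∈ C_G(L). Then some involution of L is a classical involution of G. -/
theorem result {G : Type*} [Group G] [Finite G] (x : G) (hx : orderOf x = 2) (L : Subgroup G) (hLx : L ≤ Subgroup.centralizer ({x} : Set G)) (hL : Cfsg.IsComponent (L.subgroupOf (Subgroup.centralizer ({x} : Set G)))) (heven : Even (Nat.card ↥L)) (hrk : Cfsg.PRankLE 2 1 ↥L) (hne : ∀ y : G, orderOf y = 2 → y ∈ Subgroup.centralizer (L : Set G) → L ≤ Subgroup.centralizer ({y} : Set G) ∧ Cfsg.IsComponent (L.subgroupOf (Subgroup.centralizer ({y} : Set G)))) : ∃ t ∈ L, Cfsg.IsClassicalInvolution t := by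
  have hq := isQuasisimple_of_isComponent_subgroupOf hLx hL
  have h2 : ¬ Chev.RankOne.TwoRank L := by
    intro h
    obtain ⟨a, b, ha, hb, hab, hc⟩ := Bender.twoRank_iff.1 h
    obtain ⟨h1, h2, h3, -⟩ := Bender.four_group ha hb hab hc
    have h4 := hrk _ h1 (fun c hc => by rw [sq]; exact h3 c hc)
    have h5 := Nat.card_pos (α := closure ({a, b} : Set L))
    apply h2
    by_cases h6 : Nat.card (closure ({a, b} : Set L)) = 1
    · haveI := (Nat.card_eq_one_iff_unique.1 h6).1
      exact isCyclic_of_subsingleton
    · exact isCyclic_of_prime_card (p := 2) (by omega)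
  obtain ⟨t, ht⟩ := exists_prime_orderOf_dvd_card' (G := L) 2 heven.two_dvd
  have hO : oddCore L ≤ center L := by
    refine (IsQuasisimple.eq_top_or_le_center hq _ inferInstance).resolve_left fun h => ?_
    have h1 := Solv.odd_card_oddCore L
    rw [h, card_top] at h1
    exact Nat.not_even_iff_odd.2 h1 heven
  have htZ : (t : G) ∈ centralizer (L : Set G) := by
    refine mem_centralizer_of_perfect (IsQuasisimple.perfect hq) (fun l hl => ?_)
      (le_normalizer t.2)
    have h1 := hO (Block.Princ.zstar (Bender.isolated_of_not_twoRank h2 ht) ⟨l, hl⟩)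
    rw [center_eq_subgroupOf] at h1
    exact h1
  have ht' : orderOf (t : G) = 2 := by rw [Subgroup.orderOf_coe, ht]
  obtain ⟨h3, h4⟩ := hne t ht' htZ
  refine ⟨t, t.2, ht', L, h3, t.2, h4.1, ?_⟩
  obtain ⟨P⟩ := (inferInstance : Nonempty (Sylow 2 L))
  rcases Bender.cyclic_or_quaternion h2 P.2 with hc | ⟨m, hm, he⟩
  · exfalso
    have hm : (Nat.card L).minFac = 2 := (Nat.minFac_eq_two_iff _).2 heven.two_dvd
    have h1 := hc.isComplement' hm
    have h5 : commutator L ≤
        (MonoidHom.transferSylow P (hc.normalizer_le_centralizer hm)).ker := by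
      rw [_root_.commutator_def, commutator_le]
      intro a _ b _
      rw [MonoidHom.mem_ker, map_commutatorElement, commutatorElement_eq_one_iff_mul_comm]
      exact hc.isMulCommutative.is_comm.comm _ _
    rw [IsQuasisimple.commutator_eq_top hq, top_le_iff] at h5
    have h6 := h1.symm.index_eq_card
    rw [h5, index_top] at h6
    apply P.not_dvd_index
    have h7 := heven.two_dvd
    rwa [← P.1.card_mul_index, ← h6, one_mul] at h7
  · obtain ⟨n, rfl⟩ : ∃ n, m = n + 1 := ⟨m - 1, by omega⟩
    exact ⟨P, n, he⟩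

end Cfsg.Agent.S1307
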