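import Cfsg.Statements.S1316
import Cfsg.Agent.Trans.GenFitting

set_option autoImplicit false
open Cfsg

namespace Cfsg.Agent.S1316

open Cfsg.Lib Cfsg.Lib.Trans


/-- For a finite group X, E(X) equals the intersection of the derived series of F*(X) (its last term). -/
theorem result {X : Type*} [Group X] [Finite X] : (⨅ n : ℕ, (derivedSeries ↥(Cfsg.generalizedFittingSubgroup X) n).map (Cfsg.generalizedFittingSubgroup X).subtype) = Cfsg.layer X := by
  refine le_antisymm ?_ (le_iInf fun n => ?_)
  · obtain ⟨n, hn⟩ := (inferInstance : Group.IsSolvable (Cfsg.fittingSubgroup X))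
    refine (iInf_le _ n).trans ?_
    have key : ∀ m : ℕ, (derivedSeries ↥(Cfsg.generalizedFittingSubgroup X) m).map
        (Cfsg.generalizedFittingSubgroup X).subtype ≤ Cfsg.layer X ⊔
          (derivedSeries ↥(Cfsg.fittingSubgroup X) m).map (Cfsg.fittingSubgroup X).subtype := by
      intro m
      induction m with
      | zero =>
        rw [derivedSeries_zero, derivedSeries_zero, ← MonoidHom.range_eq_map,
          ← MonoidHom.range_eq_map, Subgroup.range_subtype, Subgroup.range_subtype]
        exact le_rfl
      | succ m ih =>
        rw [derivedSeries_succ, derivedSeries_succ, Subgroup.map_commutator,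
          Subgroup.map_commutator]
        refine (Subgroup.commutator_mono ih ih).trans ?_
        rw [commutator_sup_self_of_commute (commutator_eq_bot_of_le (commutator_layer_fitting X)
          le_rfl (Subgroup.map_subtype_le _)), layer_perfect]
    have := key n
    rwa [hn, Subgroup.map_bot, sup_bot_eq] at this
  · induction n with
    | zero =>
      rw [derivedSeries_zero, ← MonoidHom.range_eq_map, Subgroup.range_subtype]
      exact layer_le_genFitting X
    | succ m ih =>
      rw [derivedSeries_succ, Subgroup.map_commutator, ← layer_perfect X]
      exact Subgroup.commutator_mono ih ih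

end Cfsg.Agent.S1316
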