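import Cfsg.Statements.S1328
import Cfsg.Agent.Trans.Pumpup

set_option autoImplicit false
open Cfsg

namespace Cfsg.Agent.S1328

open Cfsg.Lib Cfsg.Lib.Trans

open Subgroup

/-- Let G be finite, H ≤ G with O(H) = 1, t an involution of G normalizing H, and Y a nontrivial subgroup of O(C_H(t)). Then some component E of H is normalized by t and by Y and centralized by neither t nor Y. -/
theorem result {G : Type*} [Group G] [Finite G] (H : Subgroup G) (hO : Cfsg.oddCore ↥H = ⊥) (t : G) (ht : orderOf t = 2) (htH : t ∈ Subgroup.normalizer (H : Set G)) (Y : Subgroup G) (hY1 : Y ≠ ⊥) (hY : Y ≤ (Cfsg.oddCore ↥(H ⊓ Subgroup.centralizer ({t} : Set G))).map (H ⊓ Subgroup.centralizer ({t} : Set G)).subtype) : ∃ E : Subgroup ↥H, Cfsg.IsComponent E ∧ (E.map H.subtype).map (MulAut.conj t).toMonoidHom = E.map H.subtype ∧ Y ≤ Subgroup.normalizer ((E.map H.subtype : Subgroup G) : Set G) ∧ ¬ (t ∈ Subgroup.centralizer ((E.map H.subtype : Subgroup G) : Set G)) ∧ ¬ (Y ≤ Subgroup.centralizer ((E.map H.subtype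 : Subgroup G) : Set G)) := by
  set X := H ⊔ zpowers t with hX
  have hHX : H ≤ X := le_sup_left
  have htX : t ∈ X := mem_sup_right (mem_zpowers t)
  have hXH : X ≤ normalizer (H : Set G) := sup_le le_normalizer (zpowers_le.2 htH)
  have hz := isPGroup_zpowers_of_orderOf ht
  haveI hn : (H.subgroupOf X).Normal := normal_subgroupOf_of_le_normalizer hXH
  have hOX : pPrimeCore 2 X = ⊥ := by
    rw [← ppCoreOf_eq_bot_iff, eq_bot_iff, ← (ppCoreOf_eq_bot_iff.2 hO : ppCoreOf 2 H = ⊥),
      ppCoreOf_eq_inf_of_subnormalIn (Solv.SubnormalIn.of_le_normalizer hHX hXH)]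
    exact le_inf le_rfl ((le_resOf_of_coprime (Solv.coprime_card_map_pPrimeCore 2 X)).trans
      (Local.resOf_le_of_le_sup hz (zpowers_le.2 htH) (ppCoreOf_le 2 X)))
  have hYH : Y ≤ H := (hY.trans (ppCoreOf_le 2 _)).trans inf_le_left
  let t' : X := ⟨t, htX⟩
  have ht' : orderOf t' = 2 := by rw [Subgroup.orderOf_mk, ht]
  have hzp : (zpowers t).subgroupOf X = zpowers t' := by
    rw [← subgroupOf_map_subtype_self (zpowers t'), MonoidHom.map_zpowers]
    rfl
  have hY' : Y.subgroupOf X ≤ ppCoreOf 2 (centralizer (zpowers t' : Set X)) := by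
    rw [← hzp, ← Solv.subgroupOf_centralizer (zpowers_le.2 htX), centralizer_zpowers_eq,
      ← inf_subgroupOf_left (centralizer _), ppCoreOf_subgroupOf inf_le_left]
    refine comap_mono (hY.trans (ppCoreOf_le_of_subnormalIn ?_))
    exact (Solv.SubnormalIn.of_le_normalizer hHX hXH).inf_right _
  by_contra hne
  apply hY1
  have h1 := eq_bot_of_forall_component (B := zpowers t') (D := Y.subgroupOf X) hOX
    (by
      rw [Ne, zpowers_eq_bot]
      intro h
      rw [h, orderOf_one] at ht'
      exact absurd ht' (by norm_num))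
    (fun b hb => by
      obtain ⟨n, rfl⟩ := hb
      rw [← zpow_natCast, ← zpow_mul, mul_comm, zpow_mul, zpow_natCast, ← ht', pow_orderOf_eq_one,
        one_zpow])
    (fun b hb hb1 => by
      rwa [← centralizer_zpowers_eq, zpowers_eq_of_mem_of_ne_one ht' hb hb1]) le_rfl ?_
  · rwa [subgroupOf_eq_bot, disjoint_iff, inf_eq_left.2 (hYH.trans hHX)] at h1
  intro K hK htK hYK hf
  by_contra hc
  apply hne
  have hKH : K.map X.subtype ≤ H := by
    have h2 := perfect_map (IsComponent.perfect hK) X.subtype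
    exact (le_resOf_of_perfect h2).trans
      (Local.resOf_le_of_le_sup hz (zpowers_le.2 htH) (map_subtype_le K))
  have hE : ((K.map X.subtype).subgroupOf H).map H.subtype = K.map X.subtype :=
    map_subgroupOf_eq_of_le hKH
  have hN : ∀ g : X, g ∈ normalizer (K : Set X) →
      (g : G) ∈ normalizer ((K.map X.subtype : Subgroup G) : Set G) := fun g hg =>
    ((Solv.map_subtype_normalizer K).le (mem_map_of_mem _ hg)).2
  have hC : ∀ g : X, (g : G) ∈ centralizer ((K.map X.subtype : Subgroup G) : Set G) →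
      g ∈ centralizer (K : Set X) := fun g hg k hk =>
    Subtype.ext (hg k (mem_map_of_mem _ hk))
  refine ⟨(K.map X.subtype).subgroupOf H, isComponent_subgroupOf_of_le hKH hHX
    (by rwa [subgroupOf_map_subtype_self]), ?_, ?_, ?_, ?_⟩ <;> rw [hE]
  · exact Solv.mem_normalizer_iff_conj_smul_eq.1 (hN t' (htK (mem_zpowers t')))
  · exact fun y hy => hN ⟨y, hHX (hYH hy)⟩ (hYK hy)
  · intro h2
    have h3 : t' = 1 := mem_bot.1 (hf.le ⟨mem_zpowers t', hC t' h2⟩)
    rw [h3, orderOf_one] at ht'
    exact absurd ht' (by norm_num)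
  · exact fun h2 => hc fun y hy => hC y (h2 hy)

end Cfsg.Agent.S1328
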