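import Cfsg.Statements.S1330
import Cfsg.Agent.Trans.SigGen
import Cfsg.Agent.Trans.LocalBalance
import Cfsg.Agent.Gold.Tools

set_option autoImplicit false
open Cfsg

namespace Cfsg.Agent.S1330

open Pointwise Cfsg.Lib.Solv Cfsg.Lib.FT Cfsg.Lib.Trans Cfsg.Lib.Trans.Sig QuotientGroup
open scoped commutatorElement

set_option linter.unusedSectionVars false

section

variable {G : Type*} [Group G] [Finite G]

local instance : Fact (Nat.Prime 2) := ⟨Nat.prime_two⟩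

theorem odd_core (H : Subgroup G) : Odd (Nat.card (ppCoreOf 2 H)) := by
  rw [card_map_subtype]
  exact Nat.coprime_two_right.1 (coprime_card_pPrimeCore 2 H)

theorem comp_cent {K P D : Subgroup G} (hK : IsComponent K) (h : K ≤ 𝐂 P)
    (hD : D ≤ ppCoreOf 2 (𝐂 P)) : D ≤ 𝐂 K :=
  hD.trans (centsC.1 (commG1P.1 (IsComponent.commutator_eq_bot_of_isSolvable hK
    (odd_order_solvable (odd_core _)) (h.trans (le_normalizer_ppCoreOf 2 _)))))

theorem qim_le_core {H P D : Subgroup G} (hP : IsPGroup 2 P) (hPH : P ≤ H) (hD : D ≤ H)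
    (h : D ≤ ppCoreOf 2 (𝐂 P)) : qim 2 H D ≤ ppCoreOf 2 (𝐂 (qim 2 H P)) := by
  refine le_trans (Subgroup.map_mono ?_) (map_ppCoreOf_centralizer_le (isPGroup_subgroupOf hP H) _
    (coprime_card_pPrimeCore 2 H))
  rw [← subgroupOf_centralizer hPH, ← Subgroup.inf_subgroupOf_right (𝐂 P),
    ppCoreOf_subgroupOf inf_le_right]
  exact subgroupOf_mono' _ ((le_inf h (le_inf (h.trans (ppCoreOf_le 2 _)) hD)).trans
    (ppCoreOf_inf_le inf_le_left))

theorem le_core {H P W : Subgroup G} (hP : IsPGroup 2 P) (hPH : P ≤ H) (hW : W ≤ H)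
    (h : W ≤ ppCoreOf 2 (𝐂 P))
    (hc : ∀ K : Subgroup (H ⧸ pPrimeCore 2 H), IsComponent K → qim 2 H W ≤ 𝐂 K) :
    W ≤ ppCoreOf 2 H := by
  have h1 := qim_le_core hP hPH hW h
  have hP' : IsPGroup 2 (qim 2 H P) := (isPGroup_subgroupOf hP H).map _
  have h2 := le_pCore_of_commutator_eq_bot (pPrimeCore_quotient_pPrimeCore 2 H) (X := qim 2 H W)
    (commG1P.2 (centsC.1 (layer_le_iff.2 fun K hK => centsC.1 (hc K hK))))
    (eq_bot_iff.2 ((commgSS h1 le_rfl).trans (commutator_ppCoreOf_centralizer_pCore hP').le))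
  rw [← qim_eq_bot_iff hW, eq_bot_iff,
    ← coprime_TIg (cop_of_not_dvd (pCore_isPGroup 2 (H ⧸ pPrimeCore 2 H))
      (Odd.not_two_dvd_nat (odd_core (𝐂 (qim 2 H P)))))]
  exact le_inf h2 h1

/-- The commutator of the core of the centralizer of `P` with `U` centralizes each component
centralized by `U` or by `V`. -/
theorem comm_cent (hO : pPrimeCore 2 G = ⊥) {K U V P Z D : Subgroup G} (hK : IsComponent K)
    (hP : IsPGroup 2 P) (hD : D ≤ ppCoreOf 2 (𝐂 P)) (hUV : U ≤ 𝐂 V) (hPV : P ≤ 𝐂 V)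
    (hZ : Z ≤ 𝐂 (⊤ : Subgroup G)) (h1 : P ≤ Z ⊔ V ∨ U ≤ P ⊔ (Z ⊔ V)) (h2 : U ≤ 𝐂 K ∨ V ≤ 𝐂 K) :
    ⁅D, U⁆ ≤ 𝐂 K := by
  have hDn : ∀ L : Subgroup G, IsComponent L → D ≤ 𝐍 L := fun L hL =>
    hD.trans (ppCoreOf_centralizer_le_normalizer_component hO hP hL)
  rcases h2 with h2 | h2
  · exact (commgSS le_rfl h2).trans (commg_subr.2 (norms_cent (hDn K hK)))
  set E : Subgroup G := ⨆ L : {L : Subgroup G // IsComponent L ∧ V ≤ 𝐂 L}, L with hE
  have hKE : K ≤ E := le_iSup (fun L : {L : Subgroup G // IsComponent L ∧ V ≤ 𝐂 L} => L.1) ⟨K, hK, h2⟩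
  have hVE : 𝐂 V ≤ 𝐍 E := fun g hg => mem_norm_iSup fun L =>
    le_iSup (fun L : {L : Subgroup G // IsComponent L ∧ V ≤ 𝐂 L} => L.1)
      ⟨g •ᶜ L.1, IsComponent.conj_smul L.2.1 g, by
        rw [centJ]
        exact (normP.1 (cent_sub V hg)).ge.trans (conj_smul_mono g L.2.2)⟩
  have hT : Z ⊔ V ≤ 𝐂 E := sup_le (hZ.trans (centS le_top))
    (centsC.1 (iSup_le fun L => centsC.1 L.2.2))
  refine le_trans ?_ (centS hKE)
  rcases h1 with h1 | h1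
  · have h3 : D ≤ 𝐂 E := centsC.1 (iSup_le fun L => centsC.1 (comp_cent L.2.1
      (centsC.1 ((h1.trans hT).trans (centS (le_iSup
        (fun L : {L : Subgroup G // IsComponent L ∧ V ≤ 𝐂 L} => L.1) L)))) hD))
    exact (commgSS h3 le_rfl).trans (commg_subl.2 (norms_cent (hUV.trans hVE)))
  · refine (commgSS le_rfl (h1.trans (sup_le_sup_left hT P))).trans
      (commutator_sup_right_le_of_le_normalizer (norms_cent (hPV.trans hVE)) (normG _) ?_ ?_)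
    · rw [commG1P.2 (hD.trans (ppCoreOf_le 2 _))]
      exact bot_le
    · exact commg_subr.2 (norms_cent (Coprime.le_normalizer_iSup fun L => hDn L L.2.1))

/-- The separation hypothesis. -/
def Sep (U V : Subgroup G) : Prop :=
  ∀ a ∈ U ⊔ V, a ≠ 1 → ∀ K : Subgroup (𝐂₁ a ⧸ pPrimeCore 2 (𝐂₁ a)), IsComponent K →
    qim 2 (𝐂₁ a) U ≤ 𝐂 K ∨ qim 2 (𝐂₁ a) V ≤ 𝐂 K

theorem step1 {U V : Subgroup G} (hA : IsElementaryAbelian 2 (U ⊔ V : Subgroup G))
    (hU : Nat.card U = 4) (hs : Sep U V) {a : G} (ha : a ∈ U ⊔ V) :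
    ⁅ppCoreOf 2 (𝐂₁ a), U⁆ ⊓ 𝐂 U ≤ ppCoreOf 2 (𝐂 U) := by
  have hAc := abelem_abelian hA
  have hc1 : ∀ a ∈ U ⊔ V, U ⊔ V ≤ 𝐂₁ a := fun a ha =>
    (abelian_le_cent hAc).trans (cent_le_cent1 ha)
  have hUe := abelemS le_sup_left hA
  have hUn : U ≤ 𝐍 (ppCoreOf 2 (𝐂₁ a)) :=
    (le_sup_left.trans (hc1 a ha)).trans (le_normalizer_ppCoreOf 2 _)
  refine Cfsg.Lib.Gold.graded' (fun u hu => by rw [← pow_two]; exact hUe.2 u hu) hU.ge (odd_core _)
    hUn fun u hu hu1 => ?_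
  have hu' : u ∈ U ⊔ V := Subgroup.mem_sup_left hu
  refine le_trans (inf_le_inf_right _ ?_) (ppCoreOf_inf_le (cent_le_cent1 hu))
  have hz : Subgroup.zpowers a ≤ U ⊔ V := Subgroup.zpowers_le.2 ha
  have hzp := isPGroupS hz (abelem_pgroup hA)
  have hn : U ≤ 𝐍 (ppCoreOf 2 (𝐂₁ a) ⊓ 𝐂₁ u) :=
    normsI hUn (normsG (le_sup_left.trans (hc1 u hu')))
  have hH := hc1 u hu'
  have hzu : Subgroup.zpowers u ≤ 𝐂₁ u := Subgroup.zpowers_le.2 (cent1id u)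
  refine le_core hzp (hz.trans hH) ((commg_subl.2 hn).trans inf_le_right)
    (by rw [cent_zpowers]; exact (commg_subl.2 hn).trans inf_le_left) fun K hK => ?_
  rw [qim_commutator inf_le_right (le_sup_left.trans hH)]
  refine comm_cent (pPrimeCore_quotient_pPrimeCore 2 _) hK (P := qim 2 _ (Subgroup.zpowers a))
    (V := qim 2 _ V) (Z := qim 2 _ (Subgroup.zpowers u))
    ((isPGroup_subgroupOf hzp _).map _)
    (qim_le_core hzp (hz.trans hH) inf_le_right (by rw [cent_zpowers]; exact inf_le_left))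
    (qim_le_centralizer (le_sup_left.trans hH) (le_sup_right.trans hH)
      (centSS le_sup_right le_sup_left (abelian_le_cent hAc)))
    (qim_le_centralizer (hz.trans hH) (le_sup_right.trans hH)
      (centSS le_sup_right hz (abelian_le_cent hAc))) ?_ ?_ (hs u hu' hu1 K hK)
  · have h1 := qim_le_centralizer (p := 2) hzu le_rfl (centsC.1 (cent_zpowers u).ge)
    rwa [show qim 2 (𝐂₁ u) (𝐂₁ u) = ⊤ by
      rw [qim, Subgroup.subgroupOf_self]
      exact Subgroup.map_top_of_surjective _ (mk'_surjective _)] at h1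
  · rw [← qim_sup hzu (le_sup_right.trans hH), ← qim_sup (hz.trans hH)
      (sup_le hzu (le_sup_right.trans hH))]
    obtain ⟨x, hx, y, hy, rfl⟩ := (Cfsg.Lib.Solv.mem_sup_of_le_normalizer
      (le_sup_right.trans (sub_abelian_norm hAc le_sup_left))).1 ha
    by_cases hxu : x ∈ Subgroup.zpowers u
    · exact Or.inl (qim_mono _ (Subgroup.zpowers_le.2 (Subgroup.mul_mem_sup hxu hy)))
    · refine Or.inr (qim_mono _ ?_)
      have h2 := pnElem_sup_zpowers (p1Elem_zpowers hu (abelem_order_p hUe hu hu1)) hx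
        (centS (Subgroup.zpowers_le.2 hu) (abelian_le_cent (abelem_abelian hUe) hx))
        (hUe.2 x hx) hxu
      rw [← eq_of_le_of_card_le (pnElem_sub h2) (by rw [card_pnElem h2, hU]; norm_num)]
      refine sup_le (le_sup_left.trans le_sup_right) (Subgroup.zpowers_le.2 ?_)
      have h3 := mul_mem (Subgroup.mem_sup_left (T := Subgroup.zpowers u ⊔ V)
        (Subgroup.mem_zpowers (x * y))) (Subgroup.mem_sup_right (S := Subgroup.zpowers (x * y))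
        (Subgroup.mem_sup_right (S := Subgroup.zpowers u) (inv_mem hy)))
      rwa [mul_inv_cancel_right] at h3

/-- One factor of the functor. -/
abbrev part (U : Subgroup G) (a : G) : Subgroup G :=
  ⁅ppCoreOf 2 (𝐂₁ a), U⁆ ⊔ (ppCoreOf 2 (𝐂₁ a) ⊓ ppCoreOf 2 (𝐂 U))

theorem part_le {U : Subgroup G} {a : G} (h : U ≤ 𝐂₁ a) : part U a ≤ ppCoreOf 2 (𝐂₁ a) :=
  sup_le (commg_subl.2 (h.trans (le_normalizer_ppCoreOf 2 _))) inf_le_left

theorem norm_part {A U : Subgroup G} {a : G} (h1 : A ≤ 𝐂₁ a) (h2 : A ≤ 𝐂 U) : A ≤ 𝐍 (part U a) :=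
  normsY (normsR (h1.trans (le_normalizer_ppCoreOf 2 _)) (cents_norm h2))
    (normsI (h1.trans (le_normalizer_ppCoreOf 2 _)) (h2.trans (le_normalizer_ppCoreOf 2 _)))

theorem part_inf {U : Subgroup G} {a : G}
    (h : ⁅ppCoreOf 2 (𝐂₁ a), U⁆ ⊓ 𝐂 U ≤ ppCoreOf 2 (𝐂 U)) :
    part U a ⊓ 𝐂 U ≤ ppCoreOf 2 (𝐂 U) := by
  rintro x ⟨hx, hc⟩
  obtain ⟨y, hy, z, hz, rfl⟩ :=
    (Cfsg.Lib.Solv.mem_sup_of_le_normalizer (inf_le_left.trans (commg_norml _ U))).1 hx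
  exact mul_mem (h ⟨hy, ((𝐂 U).mul_mem_cancel_right (ppCoreOf_le 2 _ hz.2)).1 hc⟩) hz.2

theorem dec {U D : Subgroup G} (hU : IsPGroup 2 U) (hD : Odd (Nat.card D)) (hn : U ≤ 𝐍 D) :
    ⁅D, U⁆ ⊔ D ⊓ 𝐂 U = D :=
  coprime_cent_prod hn (cop_of_not_dvd hU (Odd.not_two_dvd_nat hD)).symm (Or.inl (pgroup_sol hU))

theorem le_part {U D : Subgroup G} {b : G} (hU : IsPGroup 2 U) (hn : U ≤ 𝐍 D)
    (h1 : D ≤ ppCoreOf 2 (𝐂₁ b)) (h2 : D ⊓ 𝐂 U ≤ ppCoreOf 2 (𝐂 U)) : D ≤ part U b := by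
  rw [← dec hU (oddSg h1 (odd_core _)) hn]
  exact sup_le_sup (commgSS h1 le_rfl) (le_inf (inf_le_left.trans h1) h2)

theorem step2 {H U D P : Subgroup G} (hU : IsPGroup 2 U) (hUH : U ≤ H) (hP : IsPGroup 2 P)
    (hPH : P ≤ H) (hD : D ≤ H) (h1 : D ≤ ppCoreOf 2 (𝐂 P)) (hn : U ≤ 𝐍 D)
    (h2 : D ⊓ 𝐂 U ≤ ppCoreOf 2 (𝐂 U)) {K : Subgroup (H ⧸ pPrimeCore 2 H)} (hK : IsComponent K)
    (h : qim 2 H U ≤ 𝐂 K) : qim 2 H D ≤ 𝐂 K := by
  rw [← dec hU (oddSg h1 (odd_core _)) hn, qim_sup ((commg_subl.2 hn).trans hD)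
    (inf_le_left.trans hD), qim_commutator hD hUH]
  refine sup_le ((commgSS le_rfl h).trans (commg_subr.2 (norms_cent ?_)))
    (comp_cent hK (centsC.1 h) (qim_le_core hU hUH (inf_le_left.trans hD) h2))
  exact (qim_le_core hP hPH hD h1).trans (ppCoreOf_centralizer_le_normalizer_component
    (pPrimeCore_quotient_pPrimeCore 2 _) ((isPGroup_subgroupOf hP _).map _) hK)

end


/-- Let A₁, A₂ be core-separated four-subgroups of the finite group G and A = A₁A₂. For a ∈ G put O_a = O(C_G(a)) and θ a = ⋂_{i=1,2} ( ⁅O_a, A_i⁆ · (O_a ∩ O(C_G(A_i))) ). Then θ is an A-signalizer functor for the prime 2. -/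
theorem result {G : Type*} [Group G] [Finite G] (A₁ A₂ : Subgroup G) (hcs : Cfsg.IsCoreSeparated A₁ A₂) : Cfsg.IsSignalizerFunctor 2 (A₁ ⊔ A₂) (fun a => (⁅Cfsg.centralizerPPrimeCore 2 a, A₁⁆ ⊔ (Cfsg.centralizerPPrimeCore 2 a ⊓ ((Cfsg.oddCore ↥(Subgroup.centralizer ((A₁ : Subgroup G) : Set G))).map (Subgroup.centralizer ((A₁ : Subgroup G) : Set G)).subtype))) ⊓ (⁅Cfsg.centralizerPPrimeCore 2 a, A₂⁆ ⊔ (Cfsg.centralizerPPrimeCore 2 a ⊓ ((Cfsg.oddCore ↥(Subgroup.centralizer ((A₂ : Subgroup G) : Set G))).map (Subgroup.centralizer ((A₂ : Subgroup G) : Set G)).subtype)))) := by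
  obtain ⟨he1, he2, hc1, hc2, -, -, hcomm, hsep⟩ := hcs
  have : Fact (Nat.Prime 2) := ⟨Nat.prime_two⟩
  have hA : IsElementaryAbelian 2 (A₁ ⊔ A₂ : Subgroup G) :=
    abelemY he1 he2 fun y hy => mem_cent.2 fun x hx => hcomm x hx y hy
  have hAc := abelian_le_cent (abelem_abelian hA)
  have hC : ∀ a ∈ A₁ ⊔ A₂, A₁ ⊔ A₂ ≤ 𝐂₁ a := fun a ha => hAc.trans (cent_le_cent1 ha)
  have hs : Sep A₁ A₂ := by
    intro a ha h1 K hK
    obtain ⟨E, hE, rfl⟩ := exists_isPComponent_map_eq hK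
    rw [← qim_map_subtype]
    refine (hsep a ha h1 E hE).imp (fun h => centsC.1 ?_) fun h => centsC.1 ?_
    · exact (commutator_le_ppCoreOf_iff (Subgroup.map_subtype_le _)
        (le_sup_left.trans (hC a ha))).1 h
    · exact (commutator_le_ppCoreOf_iff (Subgroup.map_subtype_le _)
        (le_sup_right.trans (hC a ha))).1 h
  have hs' : Sep A₂ A₁ := fun a ha h1 K hK => (hs a (sup_comm A₂ A₁ ▸ ha) h1 K hK).symm
  change IsSignalizerFunctor 2 (A₁ ⊔ A₂) fun a => part A₁ a ⊓ part A₂ a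
  have hle : ∀ a ∈ A₁ ⊔ A₂, part A₁ a ⊓ part A₂ a ≤ ppCoreOf 2 (𝐂₁ a) := fun a ha =>
    inf_le_left.trans (part_le (le_sup_left.trans (hC a ha)))
  have hn : ∀ a ∈ A₁ ⊔ A₂, A₁ ⊔ A₂ ≤ 𝐍 (part A₁ a ⊓ part A₂ a) := fun a ha =>
    normsI (norm_part (hC a ha) (hAc.trans (centS le_sup_left)))
      (norm_part (hC a ha) (hAc.trans (centS le_sup_right)))
  refine ⟨fun a ha _ => (hle a ha).trans (ppCoreOf_le 2 _),
    fun a ha _ => Odd.not_two_dvd_nat (oddSg (hle a ha) (odd_core _)),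
    fun a ha _ => normsP.1 (hn a ha), fun a ha h1 b hb hb1 => ?_⟩
  have hD := normsI (hn a ha) (normsG (hC b hb))
  have h2 : part A₁ a ⊓ part A₂ a ⊓ 𝐂₁ b ⊓ 𝐂 A₁ ≤ ppCoreOf 2 (𝐂 A₁) :=
    (inf_le_inf_right _ (inf_le_left.trans inf_le_left)).trans (part_inf (step1 hA hc1 hs ha))
  have h3 : part A₁ a ⊓ part A₂ a ⊓ 𝐂₁ b ⊓ 𝐂 A₂ ≤ ppCoreOf 2 (𝐂 A₂) :=
    (inf_le_inf_right _ (inf_le_left.trans inf_le_right)).trans
      (part_inf (step1 (sup_comm A₁ A₂ ▸ hA) hc2 hs' (sup_comm A₁ A₂ ▸ ha)))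
  have hz : Subgroup.zpowers a ≤ A₁ ⊔ A₂ := Subgroup.zpowers_le.2 ha
  have hzp := isPGroupS hz (abelem_pgroup hA)
  have h4 : part A₁ a ⊓ part A₂ a ⊓ 𝐂₁ b ≤ ppCoreOf 2 (𝐂 (Subgroup.zpowers a)) := by
    rw [cent_zpowers]
    exact inf_le_left.trans (hle a ha)
  have h5 : part A₁ a ⊓ part A₂ a ⊓ 𝐂₁ b ≤ ppCoreOf 2 (𝐂₁ b) := by
    refine le_core hzp (hz.trans (hC b hb)) inf_le_right h4 fun K hK => ?_
    rcases hs b hb hb1 K hK with h | h
    · exact step2 (abelem_pgroup he1) (le_sup_left.trans (hC b hb)) hzp (hz.trans (hC b hb))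
        inf_le_right h4 (le_sup_left.trans hD) h2 hK h
    · exact step2 (abelem_pgroup he2) (le_sup_right.trans (hC b hb)) hzp (hz.trans (hC b hb))
        inf_le_right h4 (le_sup_right.trans hD) h3 hK h
  exact le_inf (le_part (abelem_pgroup he1) (le_sup_left.trans hD) h5 h2)
    (le_part (abelem_pgroup he2) (le_sup_right.trans hD) h5 h3)

end Cfsg.Agent.S1330
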