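import Cfsg.Statements.S1336
import Cfsg.Agent.Local.StronglyEmb
import Cfsg.Agent.FT.BG4.Elem
import Cfsg.Agent.Trans.SylowIn

set_option autoImplicit false
open Cfsg

namespace Cfsg.Agent.S1336

open Cfsg.Lib.Trans Cfsg.Lib.FT.BG4 Cfsg.Lib.Local

/-- adjacency in the commuting graph -/
def Adj {G : Type*} [Group G] (p : ℕ) (A B : Subgroup G) : Prop :=
  IsElementaryAbelian p A ∧ p ^ 1 ≤ Nat.card A ∧ IsElementaryAbelian p B ∧ p ^ 1 ≤ Nat.card B ∧
    ∀ a ∈ A, ∀ b ∈ B, a * b = b * a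

theorem adj_symm {G : Type*} [Group G] {p : ℕ} {A B : Subgroup G} (h : Adj p A B) : Adj p B A :=
  ⟨h.2.2.1, h.2.2.2.1, h.1, h.2.1, fun b hb a ha => (h.2.2.2.2 a ha b hb).symm⟩

theorem conn_symm {G : Type*} [Group G] {p : ℕ} {A B : Subgroup G}
    (h : Relation.ReflTransGen (Adj p) A B) : Relation.ReflTransGen (Adj p) B A := by
  induction h with
  | refl => exact .refl
  | tail _ h ih => exact .head (adj_symm h) ih

theorem conn_cj {G : Type*} [Group G] {p : ℕ} {A B : Subgroup G}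
    (h : Relation.ReflTransGen (Adj p) A B) (g : G) :
    Relation.ReflTransGen (Adj p) (cj g A) (cj g B) := by
  induction h with
  | refl => exact .refl
  | tail _ h ih =>
    refine ih.tail ⟨isElementaryAbelian_map h.1 _, by rw [card_cj]; exact h.2.1,
      isElementaryAbelian_map h.2.2.1 _, by rw [card_cj]; exact h.2.2.2.1, ?_⟩
    rintro _ ⟨a, ha, rfl⟩ _ ⟨b, hb, rfl⟩
    rw [← map_mul, ← map_mul, h.2.2.2.2 a ha b hb]

theorem ea_zpowers {G : Type*} [Group G] {p : ℕ} {x : G} (hx : orderOf x = p) :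
    IsElementaryAbelian p (Subgroup.zpowers x) ∧ p ^ 1 ≤ Nat.card (Subgroup.zpowers x) := by
  refine ⟨⟨inferInstance, ?_⟩, by rw [Nat.card_zpowers, hx, pow_one]⟩
  rintro _ ⟨k, rfl⟩
  show (x ^ k) ^ p = 1
  rw [← zpow_natCast, ← zpow_mul, mul_comm, zpow_mul, zpow_natCast, ← hx, pow_orderOf_eq_one,
    one_zpow]

theorem ea_isPGroup {G : Type*} [Group G] {p : ℕ} {E : Subgroup G} (h : IsElementaryAbelian p E) :
    IsPGroup p E := fun x => ⟨1, Subtype.ext (by simpa using h.2 x x.2)⟩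

theorem ne_bot_of_card {G : Type*} [Group G] {p : ℕ} [hp : Fact p.Prime] {E : Subgroup G}
    (h : p ^ 1 ≤ Nat.card E) : E ≠ ⊥ := by
  rintro rfl
  have := hp.out.one_lt
  simp at h
  omega

theorem conn_of_le {G : Type*} [Group G] [Finite G] {p : ℕ} [Fact p.Prime] {P A B : Subgroup G}
    (hP : IsPGroup p P) (hA : IsElementaryAbelian p A) (hA1 : p ^ 1 ≤ Nat.card A) (hAP : A ≤ P)
    (hB : IsElementaryAbelian p B) (hB1 : p ^ 1 ≤ Nat.card B) (hBP : B ≤ P) :
    Relation.ReflTransGen (Adj p) A B := by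
  obtain ⟨z, -, hz, hc⟩ := exists_central_orderOf_eq hP
    (fun e => ne_bot_of_card hA1 (le_bot_iff.mp (e ▸ hAP)))
  have key : ∀ C : Subgroup G, IsElementaryAbelian p C → p ^ 1 ≤ Nat.card C → C ≤ P →
      Adj p C (Subgroup.zpowers z) := by
    refine fun C h1 h2 h3 => ⟨h1, h2, (ea_zpowers hz).1, (ea_zpowers hz).2, ?_⟩
    rintro a ha _ ⟨k, rfl⟩
    exact ((show Commute z a from hc a (h3 ha)).zpow_left k).symm.eq
  exact (Relation.ReflTransGen.single (key A hA hA1 hAP)).tail (adj_symm (key B hB hB1 hBP))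

/-- Let G be finite and p prime. Then G has a proper subgroup H with p ∣ |H| and p ∤ |H ∩ gHg⁻¹| for every g ∉ H (a strongly p-embedded subgroup) if and only if G is not 1-connected for p. -/
theorem result {G : Type*} [Group G] [Finite G] (p : ℕ) [Fact p.Prime] : (∃ H : Subgroup G, H ≠ ⊤ ∧ p ∣ Nat.card ↥H ∧ ∀ g : G, g ∉ H → ¬ p ∣ Nat.card ↥(H ⊓ H.map (MulAut.conj g).toMonoidHom)) ↔ ¬ Cfsg.IsKConnected p 1 G := by
  constructor
  · rintro ⟨H, hH⟩ hc
    have h := se_iff_not_dvd_inf.mpr hH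
    obtain ⟨x, hx, hxo⟩ := h.exists_orderOf
    obtain ⟨g, hg⟩ : ∃ g, g ∉ H := by
      by_contra hc
      push Not at hc
      exact h.ne_top (eq_top_iff.mpr fun g _ => hc g)
    have hgx : orderOf (g * x * g⁻¹) = p := by rw [orderOf_conj, hxo]
    have h1 : Relation.ReflTransGen (Adj p) _ _ :=
      hc _ _ (ea_zpowers hxo).1 (ea_zpowers hxo).2 (ea_zpowers hgx).1 (ea_zpowers hgx).2
    have key : ∀ B : Subgroup G, Relation.ReflTransGen (Adj p) (Subgroup.zpowers x) B → B ≤ H := by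
      intro B hB
      induction hB with
      | refl => exact Subgroup.zpowers_le.mpr hx
      | tail _ hA ih =>
        obtain ⟨a, ha, hao⟩ := exists_orderOf_eq_of_isPGroup (ea_isPGroup hA.1)
          (ne_bot_of_card hA.2.1)
        exact fun b hb => h.mem_of_commute (ih ha) hao (hA.2.2.2.2 a ha b hb).symm
    exact hg (h.mem_of_conj x hx hxo g (key _ h1 (Subgroup.mem_zpowers _)))
  · intro hc
    unfold IsKConnected at hc
    push Not at hc
    obtain ⟨E, E', hE, hE1, hE', hE1', hc⟩ := hc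
    change ¬ Relation.ReflTransGen (Adj p) E E' at hc
    let H : Subgroup G :=
      { carrier := {g | Relation.ReflTransGen (Adj p) E (cj g E)}
        one_mem' := by
          show Relation.ReflTransGen (Adj p) E (cj 1 E)
          rw [cj_one]
        mul_mem' := fun {a b} ha hb => by
          show Relation.ReflTransGen (Adj p) E (cj (a * b) E)
          rw [cj_mul]
          exact Relation.ReflTransGen.trans ha (conn_cj hb a)
        inv_mem' := fun {a} ha => by
          have := conn_cj ha a⁻¹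
          rw [cj_inv_cj] at this
          exact conn_symm this }
    obtain ⟨P, hP⟩ := (ea_isPGroup hE).exists_le_sylow
    refine ⟨H, se_iff_not_dvd_inf.mp (SE.of_normalizers ?_ P
      (fun e => ne_bot_of_card hE1 (le_bot_iff.mp (e ▸ hP))) ?_)⟩
    · intro e
      obtain ⟨g, -, hg⟩ := (isSylowIn_top P).exists_cj_le (ea_isPGroup hE') le_top
      have h1 := conn_cj (conn_of_le P.2 hE hE1 hP (isElementaryAbelian_map hE' _)
        (by rw [card_cj]; exact hE1') hg) g⁻¹
      rw [cj_inv_cj] at h1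
      have h2 : g⁻¹ ∈ H := e ▸ Subgroup.mem_top _
      exact hc (Relation.ReflTransGen.trans h2 h1)
    · intro A hA hA1 n hn
      obtain ⟨a, ha, hao⟩ := exists_orderOf_eq_of_isPGroup (P.2.to_le hA) hA1
      have hna : orderOf (n * a * n⁻¹) = p := by rw [orderOf_conj, hao]
      have h1 := conn_cj (conn_of_le P.2 hE hE1 hP (ea_zpowers hao).1 (ea_zpowers hao).2
        (Subgroup.zpowers_le.mpr (hA ha))) n
      rw [cj_zpowers] at h1
      exact (conn_of_le P.2 hE hE1 hP (ea_zpowers hna).1 (ea_zpowers hna).2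
        (Subgroup.zpowers_le.mpr (hA (mem_normalizer_conj hn ha)))).trans (conn_symm h1)

end Cfsg.Agent.S1336
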