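import Cfsg.Statements.S1338
import Cfsg.Agent.Trans.Connected
import Cfsg.Agent.S0122

set_option autoImplicit false
open Cfsg

namespace Cfsg.Agent.S1338

open Subgroup Cfsg.Lib.Trans Cfsg.Lib.Solv.PG

/-- A finite 3-group of 3-rank at least 4 is 2-connected for the prime 3: its commuting graph on elementary abelian subgroups of order ≥ 9 is connected. -/
theorem result {P : Type*} [Group P] [Finite P] (hP : IsPGroup 3 P) (hrk : ¬ Cfsg.PRankLE 3 3 P) : Cfsg.IsKConnected 3 2 P := by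
  have : Fact (Nat.Prime 3) := ⟨Nat.prime_three⟩
  obtain ⟨E, hE, hEc⟩ := Cfsg.Lib.FT.BG4.exists_card_of_not_pRankLE hrk
  obtain ⟨E', hE', hE'c⟩ := Sylow.exists_subgroup_le_card_pow_prime_of_le_card Nat.prime_three hP hEc
  obtain ⟨A, hAn, hA, hAc⟩ := Cfsg.Agent.S0122.result (by norm_num) hP E'
    (Cfsg.Lib.FT.BG4.isElementaryAbelian_of_le hE hE') hE'c
  obtain ⟨U, hUn, hUA, hUc⟩ := exists_normal_card_eq hP A 2 (by rw [hAc]; norm_num)
  have hU := Cfsg.Lib.FT.BG4.isElementaryAbelian_of_le hA hUA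
  intro X X' hX hXc hX' hX'c
  obtain ⟨Y, hY, hYc, h1, h2⟩ := exists_sq_commuting hP U hUc.le
    (not_pRankLE_centralizer_of_normal hA hAc.ge hX hXc)
  obtain ⟨Y', hY', hY'c, h1', h2'⟩ := exists_sq_commuting hP U hUc.le
    (not_pRankLE_centralizer_of_normal hA hAc.ge hX' hX'c)
  exact (((Relation.ReflTransGen.single ⟨hX, hXc, hY, hYc.ge, fun a ha b hb =>
    mem_centralizer_iff.mp (h1 hb) a ha⟩).tail ⟨hY, hYc.ge, hU, hUc.ge, fun a ha b hb =>
    (mem_centralizer_iff.mp (h2 ha) b hb).symm⟩).tail ⟨hU, hUc.ge, hY', hY'c.ge, fun a ha b hb =>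
    mem_centralizer_iff.mp (h2' hb) a ha⟩).tail ⟨hY', hY'c.ge, hX', hX'c, fun a ha b hb =>
    (mem_centralizer_iff.mp (h1' ha) b hb).symm⟩

end Cfsg.Agent.S1338
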