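import Cfsg.Statements.S1343
import Cfsg.Agent.Trans.ExtLayer

set_option autoImplicit false
open Cfsg

namespace Cfsg.Agent.S1343

open Cfsg.Lib Cfsg.Lib.Trans


/-- Let X be finite. Then L*_{2'}(X) = L_{2'}(X) ⊔ F for some subgroup F of odd order normalized by a Sylow 2-subgroup of X. -/
theorem result {X : Type*} [Group X] [Finite X] : ∃ F : Subgroup X, Odd (Nat.card ↥F) ∧ (∃ S : Sylow 2 X, (S : Subgroup X) ≤ Subgroup.normalizer (F : Set X)) ∧ Cfsg.extendedTwoLayer X = Cfsg.pLayer 2 X ⊔ F := by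
  obtain ⟨S⟩ : Nonempty (Sylow 2 X) := inferInstance
  have hT := isSylowIn_inf_of_normal S (pLayer 2 X ⊔ pPrimePCore 2 X)
  refine ⟨pPrimeCore 2 X ⊔ ppCoreOf 2 (Subgroup.centralizer
    (((S : Subgroup X) ⊓ (pLayer 2 X ⊔ pPrimePCore 2 X) : Subgroup X) : Set X)), ?_, ⟨S, ?_⟩, ?_⟩
  · rw [← Nat.coprime_two_right]
    exact Nat.Coprime.coprime_dvd_left
      (Solv.card_sup_dvd_of_le_normalizer (le_normalizer_of_normal' _ _))
      (Nat.Coprime.mul_left (Solv.coprime_card_pPrimeCore 2 X) (Solv.coprime_card_map_pPrimeCore 2 _))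
  · refine Solv.le_normalizer_sup (le_normalizer_of_normal' _ _) (le_trans ?_
      (Solv.normalizer_le_normalizer_map_pPrimeCore 2 _))
    exact Solv.le_normalizer_centralizer
      (Solv.le_normalizer_inf Subgroup.le_normalizer (le_normalizer_of_normal' _ _))
  · rw [extendedTwoLayer_eq, extL_eq_of_isSylowIn hT, sup_assoc]

end Cfsg.Agent.S1343
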