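import Cfsg.Statements.S1346
import Cfsg.Agent.Trans.ZStarTwo

set_option autoImplicit false
open Cfsg

namespace Cfsg.Agent.S1346

open Cfsg.Lib Cfsg.Lib.Trans


/-- Let G be a finite group all of whose 2-local subgroups have known non-abelian composition factors, and x, y commuting involutions. Then the extended 2-layer of L*_{2'}(C_G(x)) ∩ C_G(y) (as a group) is contained in L*_{2'}(C_G(y)). -/
theorem result {G : Type*} [Group G] [Finite G] (hK : ∀ T : Subgroup G, IsPGroup 2 ↥T → T ≠ ⊥ → Cfsg.IsCompositionKGroup ↥(Subgroup.normalizer (T : Set G))) (x y : G) (hx : orderOf x = 2) (hy : orderOf y = 2) (hxy : x * y = y * x) : (Cfsg.extendedTwoLayer ↥((Cfsg.extendedTwoLayer ↥(Subgroup.centralizer ({x} : Set G))).map (Subgroup.centralizer ({x} : Set G)).subtype ⊓ Subgroup.centralizer ({y} : Set G))).map ((Cfsg.extendedTwoLayer ↥(Subgroup.centralizer ({x} : Set G))).map (Subgroup.centralizer ({x} : Set G)).subtype ⊓ Subgroup.centralizer ({y} : Set G)).subtype ≤ (Cfsg.extendedTwoLayer ↥(Subgroup.centralizer ({y} : Set G))).map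 (Subgroup.centralizer ({y} : Set G)).subtype := by
  rw [extendedTwoLayer_eq, extendedTwoLayer_eq, extendedTwoLayer_eq]
  refine map_extL_le_map_extL zStarHyp_two (isPGroup_zpowers_of_orderOf hx)
    (Subgroup.zpowers_le.2 (Subgroup.mem_centralizer_singleton_iff.2 hxy)) ?_
  rw [centralizer_zpowers_eq, inf_comm (Subgroup.centralizer {y})]
  exact (Solv.SubnormalIn.of_le_normalizer (Subgroup.map_subtype_le _)
    (Solv.le_normalizer_map_subtype _)).inf_right _

end Cfsg.Agent.S1346
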