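import Cfsg.Statements.S1348
import Cfsg.Agent.Class.Corner
import Cfsg.Agent.Class.PSLSimple
import Cfsg.Agent.Class.SLGen
import Cfsg.Agent.Trans.Component
import Cfsg.Agent.S1306

set_option autoImplicit false
open Cfsg

namespace Cfsg.Agent.S1348

open Subgroup Matrix Cfsg.Lib.Class Cfsg.Lib.Trans

variable {F : Type*} [Field F] {m : ℕ}

/-- The inclusion of the first coordinates. -/
def PP (F : Type*) [Field F] (m : ℕ) : Matrix (Fin (m + 1)) (Fin m) F :=
  (1 : Matrix _ _ F).submatrix id Fin.castSucc

theorem hP : (PP F m)ᵀ * PP F m = 1 := by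
  ext i j
  simp [PP, Matrix.mul_apply, Matrix.one_apply, eq_comm]

/-- The upper left corner. -/
def LL (F : Type*) [Field F] (m : ℕ) : Subgroup (SpecialLinearGroup (Fin (m + 1)) F) :=
  (cornerSL (PP F m) (PP F m)ᵀ hP).range

theorem ent (M : Matrix (Fin m) (Fin m) F) :
    (∀ a b, (PP F m * M * (PP F m)ᵀ) a.castSucc b.castSucc = M a b) ∧
    (∀ i, (PP F m * M * (PP F m)ᵀ) (Fin.last m) i = 0) ∧
    (∀ i, (PP F m * M * (PP F m)ᵀ) i (Fin.last m) = 0) := by
  refine ⟨fun a b => ?_, fun i => ?_, fun i => ?_⟩ <;>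
    simp [PP, Matrix.mul_apply, Matrix.one_apply, (Fin.castSucc_lt_last _).ne']

theorem mem_LL {g : SpecialLinearGroup (Fin (m + 1)) F} :
    g ∈ LL F m ↔ (∀ a : Fin m, g (Fin.last m) a.castSucc = 0 ∧ g a.castSucc (Fin.last m) = 0) ∧
      g (Fin.last m) (Fin.last m) = 1 := by
  constructor
  · rintro ⟨M, rfl⟩
    have h := ent ((M : Matrix (Fin m) (Fin m) F) - 1)
    refine ⟨fun a => ⟨?_, ?_⟩, ?_⟩
    · change (1 + PP F m * (M.1 - 1) * (PP F m)ᵀ : Matrix _ _ F) _ _ = _
      rw [Matrix.add_apply, h.2.1, one_apply_ne (Fin.castSucc_lt_last _).ne', add_zero]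
    · change (1 + PP F m * (M.1 - 1) * (PP F m)ᵀ : Matrix _ _ F) _ _ = _
      rw [Matrix.add_apply, h.2.2, one_apply_ne (Fin.castSucc_lt_last _).ne, add_zero]
    · change (1 + PP F m * (M.1 - 1) * (PP F m)ᵀ : Matrix _ _ F) _ _ = _
      rw [Matrix.add_apply, h.2.2, one_apply_eq, add_zero]
  · rintro ⟨h1, h2⟩
    have e : cornerMat (PP F m) (PP F m)ᵀ hP (g.1.submatrix Fin.castSucc Fin.castSucc) = g.1 := by
      have h := ent (g.1.submatrix Fin.castSucc Fin.castSucc - 1)
      ext i j
      rw [cornerMat_apply, Matrix.add_apply]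
      induction i using Fin.lastCases with
      | last =>
        rw [h.2.1]
        induction j using Fin.lastCases with
        | last => rw [one_apply_eq, add_zero]; exact h2.symm
        | cast b => rw [one_apply_ne (Fin.castSucc_lt_last _).ne', add_zero]; exact (h1 b).1.symm
      | cast a =>
        induction j using Fin.lastCases with
        | last =>
          rw [h.2.2, one_apply_ne (Fin.castSucc_lt_last _).ne, add_zero]; exact (h1 a).2.symm
        | cast b => rw [h.1]; simp [Matrix.one_apply]
    refine ⟨⟨g.1.submatrix Fin.castSucc Fin.castSucc, ?_⟩, Subtype.ext e⟩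
    rw [← det_cornerMat (PP F m) (PP F m)ᵀ hP, e, g.2]

theorem mul_eq_iff {ι : Type*} [Fintype ι] [DecidableEq ι] (a b c d : SpecialLinearGroup ι F) :
    a * b = c * d ↔ a.1 * b.1 = c.1 * d.1 :=
  ⟨fun h => congrArg Subtype.val h, fun h => Subtype.ext h⟩

theorem cent_LL (hm : 2 ≤ m) {c : SpecialLinearGroup (Fin (m + 1)) F}
    (hc : c ∈ centralizer (LL F m : Set (SpecialLinearGroup (Fin (m + 1)) F))) :
    ∃ x y : F, c.1 = diagonal fun i => if i = Fin.last m then y else x := by
  have key : ∀ a b : Fin m, a ≠ b → ∀ k l, (if b.castSucc = l then c.1 k a.castSucc else 0) =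
      if k = a.castSucc then c.1 b.castSucc l else 0 := by
    intro a b hab k l
    have hne : a.castSucc ≠ b.castSucc := fun h => hab (Fin.castSucc_injective _ h)
    obtain ⟨u, hu⟩ : ∃ u : SpecialLinearGroup (Fin (m + 1)) F,
        u.1 = transvection a.castSucc b.castSucc 1 := ⟨⟨_, det_transvection_of_ne _ _ hne 1⟩, rfl⟩
    have h1 : u ∈ LL F m := by
      rw [mem_LL, hu]
      refine ⟨fun d => ⟨?_, ?_⟩, ?_⟩ <;>
        simp [transvection, (Fin.castSucc_lt_last _).ne, (Fin.castSucc_lt_last _).ne']
    have h2 := congrFun (congrFun ((mul_eq_iff _ _ _ _).1 (hc _ h1)) k) l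
    simp only [hu, transvection, Matrix.add_mul, Matrix.mul_add,
      Matrix.one_mul, Matrix.mul_one, Matrix.add_apply, add_right_inj] at h2
    simpa [Matrix.mul_apply, Matrix.single, ite_and, eq_comm] using h2.symm
  have : Nontrivial (Fin m) := Fin.nontrivial_iff_two_le.2 hm
  let a0 : Fin m := ⟨0, by omega⟩
  refine ⟨c.1 a0.castSucc a0.castSucc, c.1 (Fin.last m) (Fin.last m), ?_⟩
  ext i j
  by_cases hij : i = j
  · subst hij
    rw [diagonal_apply_eq]
    induction i using Fin.lastCases with
    | last => simp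
    | cast a =>
      rw [if_neg (Fin.castSucc_lt_last _).ne]
      by_cases h : a = a0
      · rw [h]
      · simpa using key a a0 h a.castSucc a0.castSucc
  · rw [diagonal_apply_ne _ hij]
    induction j using Fin.lastCases with
    | last =>
      obtain ⟨b, rfl⟩ := Fin.exists_castSucc_eq.2 hij
      obtain ⟨a, ha⟩ := exists_ne b
      simpa [(Fin.castSucc_lt_last _).ne] using (key a b ha a.castSucc (Fin.last m)).symm
    | cast a =>
      obtain ⟨b, hb⟩ := exists_ne a
      simpa [hij] using key a b hb.symm i b.castSucc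

/-- Let F be a finite field of odd order, n ≥ 7 odd, and t ∈ SL(n, F) the diagonal matrix with entries −1, …, −1, 1. Then E(C(t)) is a standard subgroup of SL(n, F). -/
theorem result {F : Type*} [Field F] [Fintype F] [DecidableEq F] (hF : Odd (Fintype.card F)) (n : ℕ) (hn : 7 ≤ n) (hodd : Odd n) (t : Matrix.SpecialLinearGroup (Fin n) F) (ht : (t : Matrix (Fin n) (Fin n) F) = Matrix.diagonal (fun i : Fin n => if (i : ℕ) + 1 = n then (1 : F) else -1)) : Cfsg.IsStandardSubgroup ((Cfsg.layer ↥(Subgroup.centralizer ({t} : Set (Matrix.SpecialLinearGroup (Fin n) F)))).map (Subgroup.centralizer ({t} : Set (Matrix.SpecialLinearGroup (Fin n) F))).subtype) := by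
  obtain ⟨m, rfl⟩ : ∃ m, n = m + 1 := ⟨n - 1, by omega⟩
  have h2 : (2 : F) ≠ 0 := Ring.two_ne_zero fun h => by
    have := FiniteField.even_card_of_char_two h
    rw [Nat.odd_iff] at hF; omega
  have hme : Even m := by simpa [Nat.odd_add_one] using hodd
  have ht' : t.1 = diagonal fun i => if i = Fin.last m then (1 : F) else -1 := by
    rw [ht]; congr 1; ext i; simp [Fin.ext_iff]
  have hq : IsQuasisimple (LL F m) := IsQuasisimple.of_mulEquiv
    (⟨⟨SL_commutator_eq_top (by simp; omega)⟩, PSL_isSimpleGroup (by simp; omega)⟩ :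
      IsQuasisimple (SpecialLinearGroup (Fin m) F))
    (MonoidHom.ofInjective (cornerSL_injective _ _ hP))
  set C := centralizer ({t} : Set (SpecialLinearGroup (Fin (m + 1)) F)) with hC
  have hmem : ∀ g : SpecialLinearGroup (Fin (m + 1)) F, g ∈ C ↔
      ∀ a : Fin m, g (Fin.last m) a.castSucc = 0 ∧ g a.castSucc (Fin.last m) = 0 := by
    intro g
    rw [hC, mem_centralizer_singleton_iff, mul_eq_iff, ht']
    constructor
    · intro h a
      have e1 := congrFun (congrFun h (Fin.last m)) a.castSucc
      have e2 := congrFun (congrFun h a.castSucc) (Fin.last m)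
      simp only [mul_diagonal, diagonal_mul, if_neg (Fin.castSucc_lt_last a).ne, if_true] at e1 e2
      exact ⟨(mul_eq_zero.1 (by linear_combination -e1 : 2 * g.1 _ _ = 0)).resolve_left h2,
        (mul_eq_zero.1 (by linear_combination e2 : 2 * g.1 _ _ = 0)).resolve_left h2⟩
    · intro h
      ext i j
      rw [mul_diagonal, diagonal_mul]
      induction i using Fin.lastCases with
      | last =>
        induction j using Fin.lastCases with
        | last => simp
        | cast b => rw [show g.1 _ _ = 0 from (h b).1]; simp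
      | cast a =>
        induction j using Fin.lastCases with
        | last => rw [show g.1 _ _ = 0 from (h a).2]; simp
        | cast b => simp [(Fin.castSucc_lt_last _).ne]
  have hLC : LL F m ≤ C := fun g hg => (hmem g).2 (mem_LL.1 hg).1
  let φ : C →* F :=
    { toFun := fun g => g.1.1 (Fin.last m) (Fin.last m)
      map_one' := by simp
      map_mul' := fun g h => by
        change (g.1.1 * h.1.1) _ _ = _
        rw [Matrix.mul_apply, Fin.sum_univ_castSucc, Finset.sum_eq_zero, zero_add]
        intro a _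
        rw [show g.1.1 _ _ = 0 from ((hmem _).1 g.2 a).1, zero_mul] }
  have hker : φ.toHomUnits.ker = (LL F m).subgroupOf C := by
    ext g
    rw [MonoidHom.mem_ker, mem_subgroupOf, mem_LL, Units.ext_iff, and_iff_right ((hmem _).1 g.2)]
    rfl
  have hN : ((LL F m).subgroupOf C).Normal := hker ▸ inferInstance
  have hcomp : IsComponent ((LL F m).subgroupOf C) :=
    isComponent_of_normal ((isQuasisimple_subgroupOf_iff hLC).2 hq)
  have hlay : layer C = (LL F m).subgroupOf C := by
    refine le_antisymm (sSup_le fun K hK => ?_) (le_sSup hcomp)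
    rw [← Subgroup.isPerfect_iff.1 hK.2.1, ← hker]
    exact (commutator_mono le_top le_top).trans (Abelianization.commutator_subset_ker _)
  rw [hlay, subgroupOf_map_subtype, inf_eq_left.2 hLC]
  have hne : (1 : F) ≠ -1 := fun h => h2 (by linear_combination h)
  have ho : orderOf t = 2 := by
    refine orderOf_eq_prime ((sq t).trans (Subtype.ext ?_)) fun h => ?_
    · change t.1 * t.1 = 1
      rw [ht', diagonal_mul_diagonal, ← diagonal_one]
      congr 1; ext i; by_cases h : i = Fin.last m <;> simp [h]
    · have := congrFun (congrFun ht' (Fin.castSucc ⟨0, by omega⟩)) (Fin.castSucc ⟨0, by omega⟩)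
      rw [h, diagonal_apply_eq, if_neg (Fin.castSucc_lt_last _).ne] at this
      exact hne (by simpa using this)
  refine Cfsg.Agent.S1306.result t ho _ hLC hcomp (fun y hy hyc => ?_) fun g _ h => ?_
  · obtain ⟨a, b, hab⟩ := cent_LL (by omega) hyc
    have h1 : y.1 * y.1 = 1 := congrArg Subtype.val
      (show y * y = 1 by rw [← sq, ← hy, pow_orderOf_eq_one])
    have h3 := congrFun (congrFun h1 (Fin.castSucc ⟨0, by omega⟩)) (Fin.castSucc ⟨0, by omega⟩)
    rw [hab, diagonal_mul_diagonal, diagonal_apply_eq, if_neg (Fin.castSucc_lt_last _).ne,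
      one_apply_eq] at h3
    have h4 := y.2
    rw [hab, det_diagonal, Fin.prod_univ_castSucc] at h4
    simp only [(Fin.castSucc_lt_last _).ne, if_false, if_true, Finset.prod_const, Finset.card_univ,
      Fintype.card_fin] at h4
    rcases mul_self_eq_one_iff.1 h3 with rfl | rfl
    · rw [one_pow, one_mul] at h4
      subst h4
      have : y = 1 := Subtype.ext (by rw [hab]; simp)
      rw [this, orderOf_one] at hy
      omega
    · rw [hme.neg_one_pow, one_mul] at h4
      subst h4
      obtain rfl : y = t := Subtype.ext (hab.trans ht'.symm)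
      exact ⟨hLC, hcomp⟩
  · rw [Subgroup.commutator_comm, commutator_eq_bot_iff_le_centralizer] at h
    have h1 : ⁅(LL F m).map (MulAut.conj g).toMonoidHom, (LL F m).map (MulAut.conj g).toMonoidHom⁆ =
        ⊥ := by
      rw [commutator_eq_bot_iff_le_centralizer]
      intro x hx y hy
      obtain ⟨a, b, e1⟩ := cent_LL (by omega) (h hx)
      obtain ⟨c, d, e2⟩ := cent_LL (by omega) (h hy)
      rw [mul_eq_iff, e1, e2, diagonal_mul_diagonal, diagonal_mul_diagonal]
      simp only [mul_comm]
    rw [← map_commutator, Subgroup.isPerfect_iff.1 hq.1,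
      map_eq_bot_iff_of_injective _ (MulAut.conj g).injective] at h1
    have h3 := hq.2.toNontrivial
    rw [h1] at h3
    exact false_of_nontrivial_of_subsingleton (↥(⊥ : Subgroup (SpecialLinearGroup (Fin (m + 1)) F)) ⧸
      center _)

end Cfsg.Agent.S1348
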