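import Cfsg.Statements.S1386
import Cfsg.Agent.Solv.CyclicP
import Cfsg.Agent.Solv.Conj

set_option autoImplicit false
open Cfsg

namespace Cfsg.Agent.S1386

open Cfsg Cfsg.Lib.Solv
open scoped commutatorElement


/-- Let G be a finite group, W₁, W₂ subgroups forming a self-normalizing cyclic pair, S a subgroup with W₂ ≤ S and W₁ a complement to S' in S, and (W₁, U, W₂') type-P data for S. Then W₂' = W₂ (that is, C_{S'}(W₁) = W₂). -/
theorem result {G : Type*} [Group G] [Finite G] (W₁ W₂ S U W₂' : Subgroup G) (hW : Cfsg.IsSelfNormalizingCyclic W₁ W₂)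
    (hSW : Cfsg.IsComplIn ⁅S, S⁆ W₁ S) (hW₂S : W₂ ≤ S) (hP : Cfsg.IsTypePWith S W₁ U W₂') :
    W₂' = W₂ := by
  obtain ⟨h1, h2, hinf, hcomm, hcyc, hnorm⟩ := hW
  obtain ⟨-, hW₁S, hdis, hfac⟩ := hSW
  obtain ⟨-, -, -, hcomm', hcyc', -⟩ := hP.selfNormalizing
  obtain ⟨⟨x, hx⟩, hx1⟩ := (Subgroup.ne_bot_iff_exists_ne_one).1 h1
  obtain ⟨⟨y, hy⟩, hy1⟩ := (Subgroup.ne_bot_iff_exists_ne_one).1 h2
  have hx1' : x ≠ 1 := fun h => hx1 (Subtype.ext h)
  have hy1' : y ≠ 1 := fun h => hy1 (Subtype.ext h)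
  have hcop : (Nat.card W₁).Coprime (Nat.card W₂) := by
    by_contra h
    obtain ⟨p, hp, hp1, hp2⟩ := Nat.Prime.not_coprime_iff_dvd.1 h
    haveI := Fact.mk hp
    obtain ⟨a, ha⟩ := exists_prime_orderOf_dvd_card' p hp1
    obtain ⟨b, hb⟩ := exists_prime_orderOf_dvd_card' p hp2
    rw [← Subgroup.orderOf_coe] at ha hb
    have h3 : Subgroup.zpowers (a : G) = Subgroup.zpowers (b : G) :=
      PG.eq_of_card_eq_of_isCyclic (A := W₁ ⊔ W₂)
        ((Subgroup.zpowers_le.2 a.2).trans le_sup_left)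
        ((Subgroup.zpowers_le.2 b.2).trans le_sup_right)
        (by rw [Nat.card_zpowers, Nat.card_zpowers, ha, hb])
    have h4 : (a : G) ∈ W₁ ⊓ W₂ :=
      ⟨a.2, Subgroup.zpowers_le.2 b.2 (h3 ▸ Subgroup.mem_zpowers _)⟩
    rw [hinf, Subgroup.mem_bot] at h4
    rw [h4, orderOf_one] at ha
    exact hp.one_lt.ne ha
  have hSn : S ≤ Subgroup.normalizer ((⁅S, S⁆ : Subgroup G) : Set G) :=
    left_le_normalizer_commutator S S
  have hle : W₂ ≤ ⁅S, S⁆ := by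
    intro w hw
    obtain ⟨d, hd, a, ha, hwa⟩ := hfac w (hW₂S hw)
    -- powers of `w = d * a`
    have key : ∀ n : ℕ, w ^ n * (a ^ n)⁻¹ ∈ ⁅S, S⁆ := by
      intro n
      induction n with
      | zero => simp
      | succ n ih =>
        have : w ^ (n + 1) * (a ^ (n + 1))⁻¹ = (w ^ n * d * (w ^ n)⁻¹) * (w ^ n * (a ^ n)⁻¹) := by
          rw [pow_succ w, pow_succ' a]
          nth_rewrite 2 [hwa]
          group
        rw [this]
        exact mul_mem (conj_mem_of_mem_normalizer (hSn (S.pow_mem (hW₂S hw) n)) hd) ih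
    have h5 := key (Nat.card W₂)
    rw [PG.pow_card_eq_one_of_mem hw, one_mul, inv_mem_iff] at h5
    have h6 : a ^ Nat.card W₂ ∈ ⁅S, S⁆ ⊓ W₁ := ⟨h5, W₁.pow_mem ha _⟩
    rw [hdis, Subgroup.mem_bot] at h6
    have h7 : a = 1 := orderOf_eq_one_iff.1 (Nat.eq_one_of_dvd_coprimes hcop
      (Subgroup.orderOf_dvd_natCard W₁ ha) (orderOf_dvd_of_pow_eq_one h6))
    rw [hwa, h7, mul_one]; exact hd
  have hC := hP.W₂_centralizer x hx hx1'
  have hle2 : W₂ ≤ W₂' := by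
    rw [← hC]
    exact le_inf hle (fun w hw => Subgroup.mem_centralizer_singleton_iff.2 (hcomm x hx w hw).symm)
  refine le_antisymm (fun w hw => ?_) hle2
  have hN := hnorm {x * y} (by
    rintro _ rfl
    refine ⟨Subgroup.mul_mem_sup hx hy, ?_⟩
    rintro (h | h)
    · have : y ∈ W₁ ⊓ W₂ := ⟨(W₁.mul_mem_cancel_left hx).1 h, hy⟩
      rw [hinf] at this; exact hy1' this
    · have : x ∈ W₁ ⊓ W₂ := ⟨hx, (W₂.mul_mem_cancel_right hy).1 h⟩
      rw [hinf] at this; exact hx1' this) (Set.singleton_nonempty _)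
  have hwx : x * w = w * x := hcomm' x hx w hw
  have hwy : w * y = y * w := congrArg Subtype.val (hcyc'.isMulCommutative.1.1
    (⟨w, Subgroup.mem_sup_right hw⟩ : ↥(W₁ ⊔ W₂')) ⟨y, Subgroup.mem_sup_right (hle2 hy)⟩)
  have hwN : w ∈ W₁ ⊔ W₂ := by
    rw [← hN]
    refine Subgroup.centralizer_le_normalizer _ (Subgroup.mem_centralizer_singleton_iff.2 ?_)
    rw [← mul_assoc, ← hwx, mul_assoc, hwy, mul_assoc]
  have hn : W₁ ≤ Subgroup.normalizer (W₂ : Set G) :=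
    fun a ha => Subgroup.centralizer_le_normalizer _ (fun b hb => (hcomm a ha b hb).symm)
  rw [sup_comm] at hwN
  obtain ⟨b, hb, a, ha, hab⟩ := (mem_sup_of_le_normalizer hn).1 hwN
  have h8 : a ∈ ⁅S, S⁆ ⊓ W₁ := ⟨by
    have : a = b⁻¹ * w := by rw [← hab]; group
    rw [this]
    exact Subgroup.mul_mem _ (Subgroup.inv_mem _ (hle hb))
      ((hC ▸ hw : w ∈ ⁅S, S⁆ ⊓ Subgroup.centralizer {x}).1), ha⟩
  rw [hdis, Subgroup.mem_bot] at h8
  rw [← hab, h8, mul_one]; exact hb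

end Cfsg.Agent.S1386
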