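import Cfsg.Statements.S1387

set_option autoImplicit false
open Cfsg

namespace Cfsg.Agent.S1387

theorem fittingHall_coprime (M : Type*) [Group M] [Finite M] :
    (Nat.card (fittingHall M)).Coprime (fittingHall M).index := by
  classical
  have hfin : {N : Subgroup M | N.Normal ∧ Group.IsNilpotent N ∧
      (Nat.card N).Coprime N.index}.Finite := Set.toFinite _
  have key : ∀ S : Set (Subgroup M), S.Finite →
      (∀ N ∈ S, N.Normal ∧ (Nat.card N).Coprime N.index) →
      (sSup S).Normal ∧ (Nat.card ↥(sSup S)).Coprime (sSup S).index := by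
    intro S hS
    induction S, hS using Set.Finite.induction_on with
    | empty =>
      intro _
      rw [sSup_empty]
      exact ⟨inferInstance, by simp⟩
    | @insert a s _ _ ih =>
      intro h
      obtain ⟨h1, h2⟩ := ih fun N hN => h N (Set.mem_insert_of_mem _ hN)
      obtain ⟨h3, h4⟩ := h a (Set.mem_insert _ _)
      rw [sSup_insert]
      refine ⟨Subgroup.sup_normal _ _, ?_⟩
      have hd : Nat.card ↥(a ⊔ sSup s) ∣ Nat.card a * Nat.card ↥(sSup s) := by
        have e1 := Subgroup.relIndex_sup_left (sSup s) a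
        have e2 : Nat.card ↥(a ⊔ sSup s) = Nat.card a * a.relIndex (a ⊔ sSup s) := by
          rw [Subgroup.relIndex, ← Subgroup.card_mul_index (a.subgroupOf (a ⊔ sSup s))]
          congr 1
          exact Nat.card_congr (Subgroup.subgroupOfEquivOfLe le_sup_left).toEquiv
        rw [e2, e1]
        exact Nat.mul_dvd_mul_left _ (Subgroup.relIndex_dvd_card _ _)
      refine Nat.Coprime.coprime_dvd_left hd (Nat.Coprime.mul_left ?_ ?_)
      · exact h4.coprime_dvd_right (Subgroup.index_dvd_of_le le_sup_left)
      · exact h2.coprime_dvd_right (Subgroup.index_dvd_of_le le_sup_right)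
  exact (key _ hfin fun N hN => ⟨hN.1, hN.2.2⟩).2

/-- Let M be a subgroup of a finite group G with type-P data (W₁, U, W₂) and H = M_F. Then the Fitting subgroup F(M) is generated by H and the centralizer of H in U. -/
theorem result {G : Type*} [Group G] [Finite G] (M W₁ U W₂ : Subgroup G) (hP : Cfsg.IsTypePWith M W₁ U W₂) :
    Cfsg.fittingOf M = Cfsg.fittingHallOf M ⊔ (U ⊓ Subgroup.centralizer (Cfsg.fittingHallOf M : Set G)) := by
  obtain ⟨hHM', hUM', hHU, hfac⟩ := hP.U_compl
  have hM'M : ⁅M, M⁆ ≤ M := by
    rw [Subgroup.commutator_le]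
    intro a ha b hb
    rw [commutatorElement_def]
    exact M.mul_mem (M.mul_mem (M.mul_mem ha hb) (M.inv_mem ha)) (M.inv_mem hb)
  rw [← hP.fitting_eq]
  apply le_antisymm
  · refine sup_le le_sup_left ?_
    intro c hc
    have hc' : c ∈ ⁅M, M⁆ := by
      apply hP.fitting_le
      rw [← hP.fitting_eq]
      exact Subgroup.mem_sup_right hc
    obtain ⟨h, hh, u, hu, rfl⟩ := hfac c hc'
    refine Subgroup.mul_mem_sup hh ⟨hu, ?_⟩
    have huM : u ∈ M := hM'M (hUM' hu)
    have hcomm : Commute h (h * u) := (Subgroup.mem_centralizer_iff.mp hc.2 h hh)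
    have hu_eq : u = h⁻¹ * (h * u) := by group
    set n := Nat.card (fittingHall M) with hn
    have hcard : Nat.card (fittingHallOf M) = n :=
      Nat.card_congr (Subgroup.equivMapOfInjective _ _ M.subtype_injective).symm.toEquiv
    have hhn : h ^ n = 1 := by
      have := pow_card_eq_one' (x := (⟨h, hh⟩ : fittingHallOf M))
      rw [hcard] at this
      exact congrArg Subtype.val this
    have hun : u ^ n ∈ Subgroup.centralizer (fittingHallOf M : Set G) := by
      rw [hu_eq, hcomm.inv_left.mul_pow, inv_pow, hhn, inv_one, one_mul]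
      exact Subgroup.pow_mem _ hc.2 _
    have hui : u ^ (fittingHall M).index = 1 := by
      have h1 := (fittingHall M).pow_index_mem (⟨u, huM⟩ : M)
      have h2 : u ^ (fittingHall M).index ∈ fittingHallOf M := ⟨_, h1, by simp⟩
      have h3 : u ^ (fittingHall M).index ∈ fittingHallOf M ⊓ U := ⟨h2, U.pow_mem hu _⟩
      rwa [hHU, Subgroup.mem_bot] at h3
    have hcop : n.Coprime (orderOf u) :=
      (fittingHall_coprime M).coprime_dvd_right (orderOf_dvd_of_pow_eq_one hui)
    have : u ∈ Subgroup.zpowers (u ^ n) := by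
      rw [mem_zpowers_pow_iff]
      exact hcop
    exact (Subgroup.zpowers_le.mpr hun) this
  · exact sup_le_sup_left (inf_le_inf_right _ (hUM'.trans hM'M)) _

end Cfsg.Agent.S1387
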