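import Cfsg.Statements.S1393
import Cfsg.Agent.FT.BG7.Trans

set_option autoImplicit false
open Cfsg

namespace Cfsg.Agent.S1393

/-- Let G be a minimal simple group of odd order, A a subgroup satisfying the transitivity hypothesis whose centre has rank at least 3, K = O_{π(A)'}(C_G(A)), and q a prime not dividing the order of A. Then any two maximal A-invariant q-subgroups of G are conjugate by an element of K. -/
theorem result {G : Type*} [Group G] [Finite G] (hG : Cfsg.IsMinSimpleOddOrder G)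
    (A : Subgroup G) (hA : Cfsg.TransitivityHypothesis A) (hZ : ¬ Cfsg.RankLE 2 ↥(A ⊓ Subgroup.centralizer (A : Set G)))
    (q : ℕ) (hq : q.Prime) (hqA : ¬ q ∣ Nat.card A) :
    ∀ Q₁ ∈ Cfsg.maxInvSubgroups ⊤ A {q}, ∀ Q₂ ∈ Cfsg.maxInvSubgroups ⊤ A {q}, ∃ k ∈ Cfsg.piCoreOf (Cfsg.primesNotDvd (Nat.card A)) (Subgroup.centralizer (A : Set G)), Q₂ = Q₁.map (MulAut.conj k).toMonoidHom := by
  rw [Cfsg.Lib.FT.piCoreOf_primesNotDvd]
  refine Cfsg.Lib.FT.normed_constrained_rank3_trans hG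
    (Cfsg.Lib.FT.normedConstrained_iff_transitivityHypothesis.2 hA) hq hqA ?_
  by_contra h
  exact hZ (Cfsg.Lib.FT.X10.rank_le_iff.1 (Nat.lt_succ_iff.1 (not_le.1 h)))

end Cfsg.Agent.S1393
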