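import Cfsg.Statements.S1396
import Cfsg.Agent.FT.BG7

set_option autoImplicit false
open Cfsg

namespace Cfsg.Agent.S1396

open Cfsg.Lib.FT

/-- Let G be a minimal simple group of odd order, p a prime dividing the order of G and A an abelian p-subgroup. Suppose either (1) A consists exactly of the elements x of C_G(A) with x^p = 1, and every proper subgroup of G has p-length at most one, or (2) A is normal and self-centralizing in some Sylow p-subgroup of G and has rank at least 2. Then A satisfies the transitivity hypothesis. -/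
theorem result {G : Type*} [Group G] [Finite G] (hG : Cfsg.IsMinSimpleOddOrder G)
    (p : ℕ) [Fact p.Prime] (hp : p ∣ Nat.card G) (A : Subgroup G) (hAp : IsPGroup p A) (hAc : IsMulCommutative A)
    (h : (∀ x ∈ Subgroup.centralizer (A : Set G), x ^ p = 1 ↔ x ∈ A) ∧ (∀ H : Subgroup G, H ≠ ⊤ → Cfsg.PLengthLE p 1 H) ∨
      ∃ P : Sylow p G, Cfsg.IsSCN (P : Subgroup G) A ∧ ¬ Cfsg.PRankLE p 1 A) :
    Cfsg.TransitivityHypothesis A := by
  have hpr : p.Prime := Fact.out
  rw [← normedConstrained_iff_transitivityHypothesis]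
  rcases h with ⟨h1, h2⟩ | ⟨P, h1, h2⟩
  · have hA : A ∈ MaxElem p (⊤ : Subgroup G) := by
      refine pmaxElem_LdivP.2 fun x => ⟨fun hx => (h1 x hx.1.2).1 hx.2, fun hx => ?_⟩
      have hc := abelian_le_cent hAc hx
      exact ⟨⟨Subgroup.mem_top x, hc⟩, (h1 x hc).2 hx⟩
    refine plength_1_normed_constrained hG hpr ?_ hA h2
    rintro rfl
    obtain ⟨x, hx⟩ := exists_prime_orderOf_dvd_card' p hp
    have h3 : x ∈ (⊥ : Subgroup G) :=
      (h1 x (by rw [cent_bot]; exact Subgroup.mem_top x)).1 (hx ▸ pow_orderOf_eq_one x)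
    rw [Subgroup.mem_bot.1 h3, orderOf_one] at hx
    exact hpr.one_lt.ne hx
  · exact SCN_normed_constrained hG hpr (Sylow_top P) h1
      (le_trans (lt_pRank_iff.2 h2) (p_rank_le_rank p A))

end Cfsg.Agent.S1396
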