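import Cfsg.Statements.S1397
import Cfsg.Agent.FT.BG8

set_option autoImplicit false
open Cfsg

namespace Cfsg.Agent.S1397

open Cfsg.Lib.FT

/-- Let G be a minimal simple group of odd order, M a maximal subgroup, p a prime and A₀ an elementary abelian p-subgroup of F(M) of order at least p ^ 3 that is maximal among elementary abelian p-subgroups of F(M). (a) If F(M) is not a p-group, then F(M) ∩ C_G(A₀) lies in exactly one maximal subgroup of G. (b) If F(M) is a p-group and P is a Sylow p-subgroup of M, then p does not divide the index of P in G, and every normal self-centralizing subgroup A of P containing an elementary abelian subgroup of order p ^ 3 is contained in F(M) and lies in exactly one maximal subgroup of G. -/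
theorem result {G : Type*} [Group G] [Finite G] (hG : Cfsg.IsMinSimpleOddOrder G)
    (M : Subgroup G) (hM : IsCoatom M) (p : ℕ) [Fact p.Prime] (A₀ : Subgroup G)
    (hA₀ : A₀ ≤ Cfsg.fittingOf M) (hA₀e : Cfsg.IsElementaryAbelian p A₀) (hA₀3 : p ^ 3 ≤ Nat.card A₀)
    (hA₀max : ∀ B : Subgroup G, B ≤ Cfsg.fittingOf M → Cfsg.IsElementaryAbelian p B → A₀ ≤ B → B = A₀) :
    (¬ IsPGroup p ↥(Cfsg.fittingOf M) → Cfsg.InUniqueMaximal (Cfsg.fittingOf M ⊓ Subgroup.centralizer (A₀ : Set G))) ∧
      (IsPGroup p ↥(Cfsg.fittingOf M) → ∀ P : Sylow p M,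
        ¬ p ∣ ((P : Subgroup M).map M.subtype).index ∧
        ∀ A : Subgroup G, Cfsg.IsSCN ((P : Subgroup M).map M.subtype) A → ¬ Cfsg.PRankLE p 2 ↥A →
          A ≤ Cfsg.fittingOf M ∧ Cfsg.InUniqueMaximal A) := by
  have hpr : p.Prime := Fact.out
  refine ⟨fun hF => ?_, fun hF P => ?_⟩
  · obtain ⟨E, hE⟩ := abelem_pnElem hA₀e hA₀3
    exact non_pcore_Fitting_Uniqueness hG hpr hM (fun h => hF (pgroup_iff.1 h))
      ⟨hA₀, hA₀e, hA₀max⟩ (le_p_rank_of_pnElem hE)
  · have hP := Sylow_map_subtype P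
    have key := fun A hA hA3 =>
      SCN_Fitting_Uniqueness' (A := A) hG hpr hM (pgroup_iff.2 hF) hP hA hA3
    refine ⟨?_, fun A hA hA3 =>
      (key A hA (le_trans (lt_pRank_iff.2 hA3) (p_rank_le_rank p A))).2⟩
    obtain ⟨E, hE⟩ := abelem_pnElem hA₀e hA₀3
    obtain ⟨A, hA, hA3⟩ := rank3_SCN3 hpr (Sylow_pgroup hP) (mFT_odd hG _) (by
      rw [p_rank_Sylow hP]
      exact (le_p_rank_of_pnElem hE).trans (p_rankS p (hA₀.trans (Fitting_sub M))))
    have h := Sylow_index (key A hA hA3).1
    rwa [Subgroup.relIndex_top_right] at h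

end Cfsg.Agent.S1397
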