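import Cfsg.Statements.S1441
import Cfsg.Agent.S1442

set_option autoImplicit false
open Cfsg

namespace Cfsg.Agent.S1441

/-- Let G be a finite group, H a solvable subgroup and A a subgroup normalizing H. Suppose there is a chain H = H₀ ≥ H₁ ≥ ⋯ ≥ H_n = 1 of subgroups normal in H and normalized by A such that A acts trivially on each factor H_{i-1}/H_i (that is, [H_{i-1}, A] ≤ H_i). Then every prime dividing the index of C_A(H) in A divides the order of H. -/
theorem result {G : Type*} [Group G] [Finite G] (H A : Subgroup G) (hH : Group.IsSolvable H) (hA : (A ≤ Subgroup.normalizer (H : Set G)))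
    (n : ℕ) (c : Fin (n + 1) → Subgroup G) (hc0 : c 0 = H) (hcn : c (Fin.last n) = ⊥) (hanti : Antitone c)
    (hcN : ∀ i, H ≤ Subgroup.normalizer ((c i : Subgroup G) : Set G)) (hcA : ∀ i, A ≤ Subgroup.normalizer ((c i : Subgroup G) : Set G))
    (htriv : ∀ i : Fin n, ⁅c i.castSucc, A⁆ ≤ c i.succ) :
    ∀ p : ℕ, p.Prime → p ∣ (A ⊓ Subgroup.centralizer (H : Set G)).relIndex A → p ∣ Nat.card H := by
  intro p hp hdvd
  by_contra hpH
  have : Fact p.Prime := ⟨hp⟩
  obtain ⟨P⟩ : Nonempty (Sylow p A) := inferInstance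
  have hle : ∀ i, c i ≤ H := fun i => hc0 ▸ hanti (Fin.zero_le i)
  have hcent : ∀ a : A, a ∈ (P : Subgroup A) → ∀ i, ∀ x ∈ c i, Commute (a : G) x := by
    intro a ha i
    induction i using Fin.reverseInduction with
    | last =>
      intro x hx
      rw [hcn, Subgroup.mem_bot] at hx
      rw [hx]; exact Commute.one_right _
    | cast i ih =>
      intro x hx
      have hd : x⁻¹ * a * x * (a : G)⁻¹ ∈ c i.succ := by
        have := htriv i (Subgroup.commutator_mem_commutator ((c _).inv_mem hx) a.2)
        simpa [commutatorElement_def] using this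
      apply S1442.commute_of_commute_commutator x a (ih _ hd).symm
      obtain ⟨k, hk⟩ := IsPGroup.iff_orderOf.mp P.2 ⟨a, ha⟩
      rw [Subgroup.orderOf_mk, ← Subgroup.orderOf_coe] at hk
      rw [hk]
      apply Nat.Coprime.pow_left
      exact Nat.Coprime.coprime_dvd_right (H.orderOf_dvd_natCard (hle _ hd))
        ((Nat.Prime.coprime_iff_not_dvd hp).mpr hpH)
  have hPle : (P : Subgroup A) ≤ (A ⊓ Subgroup.centralizer (H : Set G)).subgroupOf A := by
    intro a ha
    refine ⟨a.2, ?_⟩
    intro x hx
    exact (hcent a ha 0 x (hc0 ▸ hx)).eq.symm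
  exact P.not_dvd_index (hdvd.trans (Subgroup.index_dvd_of_le hPle))

end Cfsg.Agent.S1441
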