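import Cfsg.Statements.S1451
import Cfsg.Agent.FT.BG4.Chief

set_option autoImplicit false
open Cfsg

namespace Cfsg.Agent.S1451

/-- Let G be a solvable group of odd order such that G, or its Fitting subgroup, has no elementary abelian subgroup of order q ^ 3 for any prime q. Then G' is nilpotent; for every Sylow subgroup S of G, every characteristic subgroup T of S with T ≤ [S, S] is normal in G; and for every prime p, G has a characteristic subgroup that is a Hall subgroup for the set of primes greater than p. -/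
theorem result {G : Type*} [Group G] [Finite G] [Group.IsSolvable G] (hodd : Odd (Nat.card G)) (hr : Cfsg.RankLE 2 G ∨ Cfsg.RankLE 2 (Cfsg.fittingSubgroup G)) :
    Group.IsNilpotent ↥(commutator G) ∧
      (∀ (q : ℕ) [Fact q.Prime] (S : Sylow q G) (T : Subgroup ↥(S : Subgroup G)), T.Characteristic → T.map (S : Subgroup G).subtype ≤ ⁅(S : Subgroup G), (S : Subgroup G)⁆ →
        (T.map (S : Subgroup G).subtype).Normal) ∧
      ∀ p : ℕ, ∃ N : Subgroup G, N.Characteristic ∧ Cfsg.IsPiHall {q | q.Prime ∧ p < q} N := by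
  have hs : Group.IsSolvable (⊤ : Subgroup G) := inferInstance
  have ho : Odd (Nat.card (⊤ : Subgroup G)) := by rwa [Subgroup.card_top]
  have hF : Cfsg.Lib.FT.rank (fittingOf (⊤ : Subgroup G)) ≤ 2 := by
    rw [Cfsg.Lib.Solv.fittingOf_top, Cfsg.Lib.FT.rank_le_iff]
    exact hr.elim (fun h => Cfsg.Lib.FT.BG4.rankLE_of_injective h _ (Subgroup.subtype_injective _)) id
  refine ⟨Cfsg.Lib.FT.rank2_der1_nil ho hs hF, fun q hq S T hT hTS => ?_, fun p => ?_⟩
  · refine Cfsg.Lib.FT.normal_top_iff.1 (Cfsg.Lib.FT.rank2_char_Sylow_normal hq.out ho hs hF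
      (Cfsg.Lib.FT.Sylow_top S) (inf_le_right.trans ?_) hTS)
    exact Cfsg.Lib.Solv.normalizer_le_normalizer_map_subtype_of_char T
  · refine ⟨piCore {q | p + 1 ≤ q} G, inferInstance, ?_⟩
    have h := Cfsg.Lib.FT.rank2_ge_pcore_Hall (p + 1) ho hs hF
    rw [Cfsg.Lib.FT.pcore_top] at h
    exact Cfsg.Lib.FT.pHall_top.1
      (Cfsg.Lib.FT.eq_in_pHall (fun r hr _ => ⟨fun h => ⟨hr, h⟩, fun h => h.2⟩) h)

end Cfsg.Agent.S1451
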