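import Cfsg.Statements.S1454
import Cfsg.Agent.FT.BG5.Prime

set_option autoImplicit false
open Cfsg

namespace Cfsg.Agent.S1454

/-- Let G be a finite group, p an odd prime, R a narrow p-subgroup and A a solvable subgroup of odd order normalizing R with A ∩ C_G(R) = 1. Then [A, A] ≤ O_p(A) and the index of O_p(A) in A is coprime to p; if R has an elementary abelian subgroup of order p ^ 3 then the order of every element of A of order coprime to p divides p − 1; and if the order of A is a prime not dividing p(p − 1), then 2·#A divides p + 1, and if in addition [R, A] = R and R is non-abelian then #R = p ^ 3. -/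
theorem result {G : Type*} [Group G] [Finite G] (p : ℕ) [Fact p.Prime] (hp : p ≠ 2) (R A : Subgroup G) (hR : IsPGroup p R) (hRn : Cfsg.IsNarrow p R)
    (hA : (A ≤ Subgroup.normalizer (R : Set G))) (hAs : Group.IsSolvable A) (hAodd : Odd (Nat.card A)) (hfaith : A ⊓ Subgroup.centralizer (R : Set G) = ⊥) :
    (commutator ↥A ≤ Cfsg.pCore p ↥A ∧ ((Cfsg.pCore p ↥A).index).Coprime p) ∧
      (¬ Cfsg.PRankLE p 2 R → ∀ a ∈ A, (orderOf a).Coprime p → orderOf a ∣ p - 1) ∧
      ((Nat.card A).Prime → ¬ Nat.card A ∣ p * (p - 1) →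
        2 * Nat.card A ∣ p + 1 ∧ (⁅R, A⁆ = R → ¬ IsMulCommutative R → Nat.card R = p ^ 3)) := by
  have hp' : p.Prime := Fact.out
  have ho := Cfsg.Lib.FT.BG4.odd_card_of_isPGroup hp hR
  refine ⟨?_, fun hr a ha hap => ?_, fun hq hnd => ?_⟩
  · have h1 : IsPGroup p ↥⁅A, A⁆ := Cfsg.Lib.Solv.PG.isPGroup_of_forall_mem fun x hx => by
      obtain ⟨k, hk⟩ := Cfsg.Lib.FT.der1_norm_narrow_pgroup hp' hR ho hRn hA hAodd x hx
      exact ⟨k, Subgroup.mem_bot.1 (hfaith ▸ ⟨pow_mem (Cfsg.Lib.FT.der_sub A hx) _, hk⟩)⟩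
    obtain ⟨h2, h3⟩ := Cfsg.Lib.FT.BG4.pcore_index_of_der_pgroup h1
    rw [Cfsg.Lib.FT.pcore_eq_map] at h2 h3
    constructor
    · rwa [← Cfsg.Lib.FT.BG4.map_commutator_top,
        Subgroup.map_le_map_iff_of_injective A.subtype_injective] at h3
    · rw [Subgroup.relIndex, Subgroup.subgroupOf,
        Subgroup.comap_map_eq_self_of_injective A.subtype_injective] at h2
      exact (hp'.coprime_iff_not_dvd.2 fun h => h2 p hp' h rfl).symm
  · have h1 := Cfsg.Lib.FT.norm_narrow_rank3_pow hp' hR ho hRn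
      ((Cfsg.Lib.FT.BG4.lt_rank_iff_of_isPGroup hp' hR).2 hr) (hA ha) hap
    exact orderOf_dvd_of_pow_eq_one (Subgroup.mem_bot.1 (hfaith ▸ ⟨pow_mem ha _, h1⟩))
  · exact (Cfsg.Lib.FT.narrow_prime_action hp' hR ho hRn hA
      (fun h => Cfsg.Lib.FT.prime_ne_bot hq (by rw [← hfaith, inf_eq_left.2 h])) hq hAodd hnd).2

end Cfsg.Agent.S1454
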