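import Cfsg.Statements.S1458
import Cfsg.Agent.Trans.ZJFactor
import Cfsg.Agent.Trans.TransvPair

set_option autoImplicit false
open Cfsg

namespace Cfsg.Agent.S1458

open Cfsg.Lib Cfsg.Lib.Trans Cfsg.Lib.Trans.TJ
open scoped commutatorElement

/-- Let G be a solvable group of odd order, p a prime and S a Sylow p-subgroup of G. Then the subgroup generated by the centre of the Thompson subgroup of S and O_{p'}(G) is normal in G. -/
theorem result {G : Type*} [Group G] [Finite G] [Group.IsSolvable G] (hodd : Odd (Nat.card G)) (p : ℕ) [Fact p.Prime] (S : Sylow p G) :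
    (Cfsg.centerThompsonOf p (S : Subgroup G) ⊔ Cfsg.pPrimeCore p G).Normal := by
  rw [sup_comm]
  by_cases hp : p = 2
  · subst hp
    have h1 : (S : Subgroup G) = ⊥ := (isSylowIn_top S).eq_bot_iff.mpr (by
      rw [Subgroup.card_top]; exact hodd.not_two_dvd_nat)
    have h2 : centerThompsonOf 2 (S : Subgroup G) = ⊥ :=
      eq_bot_iff.mpr ((centerThompsonOf_le _ _).trans h1.le)
    rw [h2, sup_bot_eq]; infer_instance
  · exact zj_sup_normal hp (Or.inr rfl) (Solv.isPConstrained_of_isSolvable p G)
      (stableOnNormal_of_isPStableOn fun V _ hV =>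
        ((Quad.transvFree_of_odd hodd).quotient _).isPStableOn V hV) S

end Cfsg.Agent.S1458
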