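import Cfsg.Statements.S1461
import Cfsg.Agent.FT.PLength

set_option autoImplicit false
open Cfsg

namespace Cfsg.Agent.S1461

open Subgroup Cfsg.Lib.FT

theorem comm_of_mem {G : Type*} [Group G] [Finite G] {p : ℕ} {K S : Subgroup G} [hK : K.Normal]
    (hKp : (Nat.card K).Coprime p) (hS : IsPGroup p S) {k y : G} (hk : k ∈ K) (hy : y ∈ S)
    (hky : k * y * k⁻¹ ∈ S) : y * k = k * y := by
  have h1 : k * y * k⁻¹ * y⁻¹ ∈ K ⊓ S := by
    refine mem_inf.mpr ⟨?_, mul_mem hky (inv_mem hy)⟩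
    have := mul_mem hk (hK.conj_mem _ (inv_mem hk) y)
    simpa [mul_assoc] using this
  rw [pl_inf_eq_bot hKp hS, mem_bot] at h1
  calc y * k = (k * y * k⁻¹ * y⁻¹) * (y * k) := by rw [h1, one_mul]
    _ = k * y := by group

/-- Let G be a finite solvable group, p a prime with G = O_{p',p,p'}(G), and S a Sylow p-subgroup. Then: if S ≤ G' then S ≤ [N_G(S), N_G(S)]; if Y ⊆ S and xYx⁻¹ ⊆ S then x = g c for some g ∈ N_G(S) and c centralizing Y; and for every p-subgroup Q there is x ∈ C_G(Q ∩ S) with xQx⁻¹ ≤ S. -/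
theorem result {G : Type*} [Group G] [Finite G] [Group.IsSolvable G] (p : ℕ) [Fact p.Prime] (hpl : Cfsg.PLengthLE p 1 G) (S : Sylow p G) :
    ((S : Subgroup G) ≤ commutator G → (S : Subgroup G) ≤ ⁅Subgroup.normalizer ((S : Subgroup G) : Set G), Subgroup.normalizer ((S : Subgroup G) : Set G)⁆) ∧
      (∀ (Y : Set G) (x : G), Y ⊆ (S : Subgroup G) → (fun y => x * y * x⁻¹) '' Y ⊆ (S : Subgroup G) →
        ∃ g ∈ Subgroup.normalizer ((S : Subgroup G) : Set G), ∃ c ∈ Subgroup.centralizer Y, g * c = x) ∧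
      ∀ Q : Subgroup G, IsPGroup p Q → ∃ x ∈ Subgroup.centralizer ((Q ⊓ (S : Subgroup G) : Subgroup G) : Set G), Q.map (MulAut.conj x).toMonoidHom ≤ (S : Subgroup G) := by
  set K := pPrimeCore p G with hKdef
  set N := Subgroup.normalizer ((S : Subgroup G) : Set G) with hNdef
  have hKp : (Nat.card K).Coprime p := pl_coprime_pPrimeCore
  have hfr : N ⊔ K = ⊤ := plength_one_frattini hpl S
  have hdec : ∀ x : G, ∃ g ∈ N, ∃ k ∈ K, g * k = x := fun x =>
    (mem_sup_of_normal_right).mp (hfr ▸ mem_top x)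
  have hSN : (S : Subgroup G) ≤ N := le_normalizer
  have hconj : ∀ g ∈ N, ∀ y, y ∈ (S : Subgroup G) ↔ g * y * g⁻¹ ∈ (S : Subgroup G) :=
    fun g hg y => mem_normalizer_iff.mp hg y
  refine ⟨fun hS => ?_, fun Y x hY hxY => ?_, fun Q hQ => ?_⟩
  · -- the derived group is contained in `⁅N, N⁆ K`
    have h1 : commutator G ≤ ⁅N, N⁆ ⊔ K := by
      have h2 : (commutator G).map (QuotientGroup.mk' K) ≤ ⁅N, N⁆.map (QuotientGroup.mk' K) := by
        have h3 : N.map (QuotientGroup.mk' K) = (⊤ : Subgroup G).map (QuotientGroup.mk' K) := by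
          rw [← hfr, Subgroup.map_sup, QuotientGroup.map_mk'_self, sup_bot_eq]
        rw [_root_.commutator_def, map_commutator, map_commutator, h3]
      rwa [map_le_iff_le_comap, comap_map_eq, QuotientGroup.ker_mk'] at h2
    intro s hs
    obtain ⟨d, hd, k, hk, hdk⟩ := (mem_sup_of_normal_right).mp (h1 (hS hs))
    have hdN : d ∈ N := commutator_le_self N hd
    have hkN : k ∈ N := by
      have : k = d⁻¹ * s := by rw [← hdk]; group
      rw [this]; exact mul_mem (inv_mem hdN) (hSN hs)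
    -- work in the abelianization of `N`
    let φ : N →* Abelianization N := Abelianization.of
    have hφ : ∀ x : N, φ x = 1 ↔ (x : G) ∈ ⁅N, N⁆ := by
      intro x
      rw [← MonoidHom.mem_ker, Abelianization.ker_of, ← map_subtype_commutator N]
      exact (mem_map_iff_mem N.subtype_injective).symm
    have hs' : φ ⟨s, hSN hs⟩ = φ ⟨k, hkN⟩ := by
      have : (⟨s, hSN hs⟩ : N) = ⟨d, hdN⟩ * ⟨k, hkN⟩ := Subtype.ext hdk.symm
      rw [this, map_mul, (hφ _).mpr hd, one_mul]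
    obtain ⟨n, hn⟩ := (pl_isPGroup_iff _).mp S.isPGroup' s hs
    have h4 : orderOf (φ ⟨s, hSN hs⟩) ∣ p ^ n := by
      apply orderOf_dvd_of_pow_eq_one
      rw [← map_pow, show (⟨s, hSN hs⟩ : N) ^ p ^ n = 1 from Subtype.ext hn, map_one]
    have h5 : orderOf (φ ⟨s, hSN hs⟩) ∣ Nat.card K := by
      rw [hs']
      refine (orderOf_map_dvd φ _).trans ?_
      rw [← orderOf_coe]
      exact K.orderOf_dvd_natCard hk
    exact (hφ ⟨s, hSN hs⟩).mp
      (orderOf_eq_one_iff.mp (Nat.eq_one_of_dvd_coprimes (hKp.pow_right n) h5 h4))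
  · obtain ⟨g, hg, k, hk, rfl⟩ := hdec x
    refine ⟨g, hg, k, fun y hy => ?_, rfl⟩
    refine comm_of_mem hKp S.isPGroup' hk (hY hy) ?_
    rw [hconj g hg]
    have : (g * k) * y * (g * k)⁻¹ ∈ (S : Subgroup G) := hxY ⟨y, hy, rfl⟩
    simpa only [mul_assoc, mul_inv_rev] using this
  · obtain ⟨T, hT⟩ := hQ.exists_le_sylow
    obtain ⟨x, hx⟩ := MulAction.exists_smul_eq G T S
    obtain ⟨g, hg, k, hk, rfl⟩ := hdec x
    have h1 : ∀ y ∈ Q, k * y * k⁻¹ ∈ (S : Subgroup G) := by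
      intro y hy
      rw [hconj g hg, ← hx, Sylow.coe_subgroup_smul, mem_pointwise_smul_iff_inv_smul_mem]
      simpa [mul_assoc] using hT hy
    refine ⟨k, fun y hy => comm_of_mem hKp S.isPGroup' hk hy.2 (h1 y hy.1), ?_⟩
    rintro _ ⟨y, hy, rfl⟩
    exact h1 y hy

end Cfsg.Agent.S1461
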