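import Cfsg.Statements.S1465
import Cfsg.Agent.FT.PStable

set_option autoImplicit false
open Cfsg

namespace Cfsg.Agent.S1465

/-- Let p be an odd prime, G a solvable group of odd order, P a normal p-subgroup of G, and X the subgroup generated by a family of abelian p-subgroups of G each normalized by P. Then the image of X in G/C_G(P) lies in O_p(G/C_G(P)); and if O_{p'}(G) = 1 and O_p(G) ∩ C_G(P) ≤ P then X ≤ O_p(G). -/
theorem result {G : Type*} [Group G] [Finite G] [Group.IsSolvable G] (hodd : Odd (Nat.card G)) (p : ℕ) [Fact p.Prime] (hp : p ≠ 2) (P : Subgroup G) [P.Normal] (hP : IsPGroup p P)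
    (S : Set (Subgroup G)) (hS : ∀ B ∈ S, IsMulCommutative B ∧ IsPGroup p B ∧ P ≤ Subgroup.normalizer (B : Set G)) :
    (sSup S).map (QuotientGroup.mk' (Subgroup.centralizer (P : Set G))) ≤ Cfsg.pCore p (G ⧸ Subgroup.centralizer (P : Set G)) ∧
      (Cfsg.pPrimeCore p G = ⊥ → Cfsg.pCore p G ⊓ Subgroup.centralizer (P : Set G) ≤ P → sSup S ≤ Cfsg.pCore p G) := by
  refine ⟨?_, fun h1 h2 => sSup_le fun B hB =>
    Cfsg.Lib.FT.odd_abelian_gen_constrained_top hodd hP h1 h2 (hS B hB).1 (hS B hB).2.2⟩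
  obtain ⟨D, hD, -, hDp, hDA⟩ := Cfsg.Lib.FT.odd_p_stable_all (H := ⊤) (P := P)
    (by rwa [Subgroup.card_top]) hP Subgroup.le_normalizer_of_normal
  have hDn : D.Normal := Cfsg.Lib.FT.normal_top_iff.1 hD
  have h1 : sSup S ≤ D := sSup_le fun B hB =>
    hDA B le_top (Cfsg.Lib.FT.quadratic_of_abelian_norm (hS B hB).1 (hS B hB).2.2)
  refine (Subgroup.map_mono h1).trans
    (Cfsg.Lib.Solv.le_pCore (hDn.map _ (QuotientGroup.mk'_surjective _)) ?_)
  rintro ⟨_, x, hx, rfl⟩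
  obtain ⟨k, hk⟩ := hDp x hx
  refine ⟨k, Subtype.ext ?_⟩
  simp only [SubgroupClass.coe_pow, QuotientGroup.mk'_apply, OneMemClass.coe_one]
  rw [← QuotientGroup.mk_pow, QuotientGroup.eq_one_iff]
  exact hk

end Cfsg.Agent.S1465
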