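import Cfsg.Statements.S1469
import Cfsg.Agent.FT.BGAB

set_option autoImplicit false
open Cfsg

namespace Cfsg.Agent.S1469

/-- Let p be an odd prime, G a solvable group of odd order and S a Sylow p-subgroup, and let Z be the centre of the Puig subgroup L(S), viewed inside G. Then G is generated by O_{p'}(G) and N_G(Z); and if O_{p'}(G) = 1 then Z is normal in G. -/
theorem result {G : Type*} [Group G] [Finite G] [Group.IsSolvable G] (hodd : Odd (Nat.card G)) (p : ℕ) [Fact p.Prime] (hp : p ≠ 2) (S : Sylow p G) :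
    Cfsg.pPrimeCore p G ⊔ Subgroup.normalizer ((((Subgroup.center ↥(Cfsg.puigSubgroup ↥(S : Subgroup G))).map (Cfsg.puigSubgroup ↥(S : Subgroup G)).subtype).map (S : Subgroup G).subtype : Subgroup G) : Set G) = ⊤ ∧
      (Cfsg.pPrimeCore p G = ⊥ → (((Subgroup.center ↥(Cfsg.puigSubgroup ↥(S : Subgroup G))).map (Cfsg.puigSubgroup ↥(S : Subgroup G)).subtype).map (S : Subgroup G).subtype).Normal) := by
  have e : (((Subgroup.center ↥(Cfsg.puigSubgroup ↥(S : Subgroup G))).map
      (Cfsg.puigSubgroup ↥(S : Subgroup G)).subtype).map (S : Subgroup G).subtype : Subgroup G) =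
      Cfsg.Lib.FT.centerOf (Cfsg.Lib.FT.Puig (S : Subgroup G)) := by
    rw [Cfsg.Lib.FT.Puig, ← Cfsg.Lib.FT.ab_map_center _ le_top (Cfsg.Lib.FT.ab_ker_subtype _ _)]
    congr 1
    ext x
    constructor
    · rintro ⟨y, hy, rfl⟩
      exact ⟨y.2, fun z hz => congrArg Subtype.val (Subgroup.mem_center_iff.mp hy ⟨z, hz⟩)⟩
    · rintro ⟨hx, hc⟩
      exact ⟨⟨x, hx⟩, Subgroup.mem_center_iff.mpr fun z => Subtype.ext (hc z z.2), rfl⟩
  rw [e]
  exact ⟨Cfsg.Lib.FT.Puig_factorization_top hodd S, Cfsg.Lib.FT.Puig_center_normal_top hodd S⟩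

end Cfsg.Agent.S1469
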