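import Cfsg.Statements.S1474
import Cfsg.Agent.Solv.CNGroup
import Cfsg.Agent.Solv.FittingOf

set_option autoImplicit false
open Cfsg

namespace Cfsg.Agent.S1474

/-- Let G be a finite group in which every non-identity element has nilpotent centralizer, not itself nilpotent, and having a nontrivial normal Sylow p-subgroup for some prime p. Let H be the largest normal nilpotent Hall subgroup of G. Then H is a nontrivial proper normal subgroup with a complement E that is a Frobenius complement in G (no non-identity element of E centralizes a non-identity element of H), and G/H is nilpotent. -/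
theorem result {G : Type*} [Group G] [Finite G] (hCN : Cfsg.IsCNGroup G) (hnn : ¬ Group.IsNilpotent G) (p : ℕ) [Fact p.Prime] (P : Sylow p G)
    (hP1 : (P : Subgroup G) ≠ ⊥) (hPn : (P : Subgroup G).Normal) :
    Cfsg.fittingHall G ≠ ⊥ ∧ Cfsg.fittingHall G ≠ ⊤ ∧
      (∃ E : Subgroup G, Subgroup.IsComplement' (Cfsg.fittingHall G) E ∧ Cfsg.IsFrobeniusComplement E ∧
        ∀ e ∈ E, e ≠ 1 → Cfsg.fittingHall G ⊓ Subgroup.centralizer ({e} : Set G) = ⊥) ∧
      Group.IsNilpotent (G ⧸ Cfsg.fittingHall G) := by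
  open Cfsg.Lib.FT Cfsg.Lib.Solv Pointwise in
  · have hH1 : fittingHall G ≠ ⊥ := subG1_contra (sylow_le_fittingHall_of_normal P hPn) hP1
    have hHT : fittingHall G ≠ ⊤ := fun h => hnn (fittingHall_eq_top_iff.1 h)
    have hco := fittingHall_coprime G
    have hn : Group.IsNilpotent (fittingHall G) := inferInstance
    obtain ⟨E, hE⟩ := Subgroup.exists_right_complement'_of_coprime hco
    have hE1 : E ≠ ⊥ := by
      rintro rfl
      exact hHT (by simpa using hE.sup_eq_top)
    have hcard : Nat.card E = (fittingHall G).index := hE.symm.index_eq_card.symm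
    have hfpf : ∀ e ∈ E, e ≠ 1 → fittingHall G ⊓ 𝐂₁ e = ⊥ := by
      intro e he he1
      by_contra h
      obtain ⟨y, hy, hyp⟩ := exists_prime_order_pow he1
      have hy1 : y ≠ 1 := fun e => by simp [e, Nat.not_prime_one] at hyp
      have hyE : y ∈ E := Subgroup.zpowers_le.2 he hy
      have h1 : fittingHall G ⊓ 𝐂₁ y ≠ ⊥ :=
        subG1_contra (inf_le_inf_left _ (cent1_le_cent1_of_mem_zpowers hy)) h
      have := Fact.mk hyp
      have h2 : IsPGroup (orderOf y) (Subgroup.zpowers y) :=
        isPGroup_of_card_prime (Nat.card_zpowers y)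
      obtain ⟨R, hR, hyR⟩ := Sylow_superset (le_top (a := Subgroup.zpowers y)) h2
      have h3 : (Nat.card (fittingHall G)).Coprime (orderOf y) :=
        hco.coprime_dvd_right (hcard ▸ order_dvdG hyE)
      have h4 : R ≤ 𝐂 (fittingHall G) := CN.cent_of_inf_cent1_ne_bot hCN hn
        (pgroup_nil (Sylow_pgroup hR)) (coprime_card_of_isPGroup (Sylow_pgroup hR) h3).symm
        (hyR (Subgroup.mem_zpowers y)) hy1 h1
      have h5 : 𝐍 (𝐂 (fittingHall G)) ≤ 𝐍 R :=
        nilpotent_Hall_norm (CN.nil_cent hCN hH1) (pHall_subl h4 le_top hR)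
      have h6 : R.Normal := normal_top_iff.1
        ⟨le_top, (norms_cent Subgroup.le_normalizer_of_normal).trans h5⟩
      have h7 : R ≤ fittingHall G := le_fittingHall h6 (pgroup_nil (Sylow_pgroup hR)) (by
        simpa using pHall_coprime hR)
      exact hy1 (Subgroup.disjoint_def.1 hE.disjoint (h7 (hyR (Subgroup.mem_zpowers y))) hyE)
    refine ⟨hH1, hHT, ⟨E, hE, (Fpf.frobenius_of_fpf hE.sup_eq_top hH1 hE1 hfpf).1, hfpf⟩, ?_⟩
    have h8 := CN.nil_of_fpf hCN Subgroup.le_normalizer_of_normal hH1 hfpf
    exact Group.nilpotent_of_mulEquiv hE.symm.QuotientMulEquiv.symm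

end Cfsg.Agent.S1474
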