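import Cfsg.Statements.S1476
import Cfsg.Agent.Solv.CNGroup

set_option autoImplicit false
open Cfsg

namespace Cfsg.Agent.S1476

/-- Let G be a finite solvable group in which every non-identity element has nilpotent centralizer. Then either G is nilpotent; or G has a normal subgroup K with a Frobenius complement E (K E = G, K ∩ E = 1, E meets its conjugates by outside elements trivially) such that E is cyclic or E is generated by two elementwise-commuting subgroups, one cyclic of odd order and one isomorphic to a generalized quaternion group; or G is a three-step group with respect to some prime p. -/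
theorem result {G : Type*} [Group G] [Finite G] [Group.IsSolvable G] (hCN : Cfsg.IsCNGroup G) :
    Group.IsNilpotent G ∨
      (∃ K E : Subgroup G, K.Normal ∧ Subgroup.IsComplement' K E ∧ Cfsg.IsFrobeniusComplement E ∧
        (IsCyclic E ∨ ∃ C Q : Subgroup G, C ⊔ Q = E ∧ (∀ a ∈ C, ∀ b ∈ Q, a * b = b * a) ∧ IsCyclic C ∧ Odd (Nat.card C) ∧
          ∃ n : ℕ, Nonempty (↥Q ≃* QuaternionGroup (2 ^ n)))) ∨
      ∃ p : ℕ, p.Prime ∧ Cfsg.IsThreeStepGroup p G := by
  open Cfsg.Lib.FT Cfsg.Lib.Solv Pointwise in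
  · by_cases hnil : Group.IsNilpotent G
    · exact Or.inl hnil
    right
    have hG : Nontrivial G := by
      by_contra h
      rw [not_nontrivial_iff_subsingleton] at h
      exact hnil inferInstance
    set F := fittingSubgroup G with hF
    have hF1 : F ≠ ⊥ := fitting_ne_bot_of_isSolvable G
    have hn : Group.IsNilpotent F := inferInstance
    have hFn : F ⊲ ⊤ := normal_top_iff.2 inferInstance
    obtain ⟨A, hA⟩ := Hall_exists (piOf (Nat.card F))ᶜ (M := (⊤ : Subgroup G)) inferInstance
    have hco : (Nat.card F).Coprime (Nat.card A) := pnat_coprime (pgroup_pi F) (pHall_pgroup hA)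
    have hfpf : ∀ a ∈ A, a ≠ 1 → F ⊓ 𝐂₁ a = ⊥ := fun a ha ha1 =>
      CN.fitting_inf_cent1 hCN ha1 (hco.coprime_dvd_right (order_dvdG ha))
    have hAF : A ≤ 𝐍 F := le_top.trans hFn.norm
    have hAn := CN.nil_of_fpf hCN hAF hF1 hfpf
    by_cases hFA : F ⊔ A = ⊤
    · have hA1 : A ≠ ⊥ := by
        rintro rfl
        rw [sup_bot_eq] at hFA
        exact hnil (fitting_eq_top_iff.1 hFA)
      exact Or.inl ⟨F, A, inferInstance, Fpf.isComplement'_of_normal (coprime_TIg hco) hFA,
        (Fpf.frobenius_of_fpf hFA hF1 hA1 hfpf).1,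
        CN.cyclic_or_quaternion_of_nil_fpf hAF hF1 hfpf hAn⟩
    right
    -- some Sylow subgroup is not covered
    obtain ⟨p, hp, P, hP, hPF⟩ : ∃ p : ℕ, ∃ _ : Fact p.Prime, ∃ P : Subgroup G,
        IsSylowOf p P ⊤ ∧ ¬ P ≤ F ⊔ A ∧ p ∣ Nat.card F := by
      by_contra hcon
      push Not at hcon
      refine hFA (top_le_iff.1 (le_of_forall_Sylow_le fun r hr _ => ?_))
      by_cases hd : r ∣ Nat.card F
      · obtain ⟨R, hR⟩ := Sylow_exists r (⊤ : Subgroup G)
        refine ⟨R, hR, ?_⟩
        by_contra h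
        exact hcon r hr R hR h hd
      · obtain ⟨R, hR⟩ := Sylow_exists r A
        refine ⟨R, Sylow_of le_top (Sylow_pgroup hR) fun h => ?_, (pHall_sub hR).trans le_sup_right⟩
        rw [← Subgroup.relIndex_mul_relIndex R A ⊤ (pHall_sub hR) le_top] at h
        rcases (Nat.Prime.dvd_mul hr.out).1 h with h | h
        · exact Sylow_index hR h
        · exact pHall_index hA r hr.out h fun h' => hd h'.2
    obtain ⟨hPF, hpF⟩ := hPF
    have hFp : IsPGroup p F := by
      by_contra h
      refine hPF ((CN.le_fitting_of_p'core_ne_bot hCN hpF (fun h0 => h ?_) (Sylow_pgroup hP)).trans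
        le_sup_left)
      rw [← (nilpotent_pcoreC {p} hn).sdprod.eq_left_of_right_eq_bot h0]
      exact pcore_isPGroup p _
    have hFO : pCore p G = F := le_antisymm (pCore_le_fitting p G) (le_pCore_of_le_fitting hFp le_rfl)
    have hA' : IsPiHallOf ({p}ᶜ : Set ℕ) A ⊤ := by
      refine pHall_of le_top (pi'_p'group (pHall_pgroup hA) ⟨hp.out, hpF⟩) fun r hr hd => ?_
      have h1 := pHall_index hA r hr hd
      rw [compl_compl] at h1 ⊢
      exact eq_of_pgroup_of_dvd hFp hr h1.2
    have hA1 : A ≠ ⊥ := by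
      rintro rfl
      have h1 := p'group_of_Hall_bot hA'
      rw [compl_compl, pgroup_iff] at h1
      exact hnil (Group.nilpotent_of_mulEquiv Subgroup.topEquiv (_h := pgroup_nil h1))
    -- the quotient by `F`
    let f := QuotientGroup.mk' F
    have hf : Function.Surjective f := QuotientGroup.mk'_surjective F
    have hCN' : IsCNGroup (G ⧸ F) := CN.quotient hCN F (nilpotent_sol hn)
    set B := fittingSubgroup (G ⧸ F) with hB
    have hBn : Group.IsNilpotent B := inferInstance
    have hBN : B ⊲ ⊤ := normal_top_iff.2 inferInstance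
    have hO : pCore p (G ⧸ F) = ⊥ := by
      rw [eq_bot_iff, ← Subgroup.map_comap_eq_self_of_surjective hf (pCore p (G ⧸ F)), le_bot_iff,
        Subgroup.map_eq_bot_iff, QuotientGroup.ker_mk']
      exact (le_pCore inferInstance ((pCore_isPGroup p _).comap_of_ker_isPGroup f (by
        rw [QuotientGroup.ker_mk']; exact hFp))).trans hFO.le
    have hBp : IsPiSubgroup ({p}ᶜ : Set ℕ) B := by
      rw [p'groupE hp.out]
      intro hd
      refine Sylow_ne_bot (nilpotent_pcore_Hall {p} hBn) hd (eq_bot_iff.2 ?_)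
      rw [← hO]
      exact le_pCore_of_le_fitting (pcore_isPGroup p _) (pcore_sub _ _)
    have hAf : IsPiHallOf ({p}ᶜ : Set ℕ) (A.map f) ⊤ := by
      refine pHall_of le_top (pgroup_map f (pHall_pgroup hA')) ?_
      have h1 := pHall_index hA'
      rw [Subgroup.relIndex_top_right] at h1 ⊢
      exact h1.of_dvd (A.index_map_dvd hf)
    have hBA : B ≤ A.map f := normal_sub_Hall hAf hBp hBN
    have hAfn : Group.IsNilpotent (A.map f) := isNilpotent_map f A hAn
    have hpf : ∀ x : G ⧸ F, x ≠ 1 → PiElt {p} x → B ⊓ 𝐂₁ x = ⊥ := fun x hx1 hx =>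
      CN.fitting_inf_cent1 hCN' hx1 (by
        rw [← Nat.card_zpowers]; exact p'nat_coprime hBp (pgroup_zpowers.2 hx))
    obtain ⟨u, huP, hu⟩ := SetLike.not_le_iff_exists.1 hPF
    have hu1 : f u ≠ 1 := fun h => hu (Subgroup.mem_sup_left ((QuotientGroup.eq_one_iff u).1 h))
    have hup : PiElt {p} (f u) :=
      mem_p_elt (pgroup_map f (pHall_pgroup hP)) (Subgroup.mem_map_of_mem f huP)
    have hinj : ∀ a ∈ A, f a = 1 → a = 1 := fun a ha e => by
      have : a ∈ F ⊓ A := ⟨(QuotientGroup.eq_one_iff a).1 e, ha⟩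
      rwa [coprime_TIg hco] at this
    have hdvd : ∀ r : ℕ, r.Prime → r ∣ Nat.card (A.map f) → r ∣ Nat.card B := by
      intro r hr hd
      have := Fact.mk hr
      by_contra h
      obtain ⟨R, hR⟩ := Sylow_exists r (A.map f)
      have hc : (Nat.card B).Coprime (Nat.card R) :=
        (coprime_card_of_isPGroup (Sylow_pgroup hR) ((Nat.Prime.coprime_iff_not_dvd hr).2 h).symm).symm
      have h1 : R ≤ B := (sub_nilpotent_cent2 hAfn hBA (pHall_sub hR) hc).trans
        (centralizer_fitting_le _)
      refine Sylow_ne_bot hR hd ?_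
      rw [← coprime_TIg hc, inf_eq_right.2 h1]
    have hodd : Odd (Nat.card A) := by
      rw [← Nat.not_even_iff_odd, even_iff_two_dvd]
      intro h2
      obtain ⟨s, hs, hs2⟩ := Cauchy Nat.prime_two h2
      have hs3 : orderOf (f s) = 2 := orderOf_eq_prime (by rw [← map_pow, ← hs2, pow_orderOf_eq_one,
        map_one]) fun e => by simp [hinj s hs e] at hs2
      obtain ⟨t, ht, ht2⟩ := Cauchy Nat.prime_two
        (hdvd 2 Nat.prime_two (hs3 ▸ order_dvdG (Subgroup.mem_map_of_mem f hs)))
      have hu2 : ∀ t ∈ B, orderOf t = 2 → t = f s := by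
        classical
        intro t ht ht2
        obtain ⟨a, ha, rfl⟩ := hBA ht
        have h3 : a ^ 2 = 1 := hinj _ (A.pow_mem ha 2) (by rw [map_pow, ← ht2, pow_orderOf_eq_one])
        have h4 := Fpf.involution_mem_centralizer hAF hF1 hfpf ha (by rwa [← pow_two])
        have h5 := Fpf.mem_zpowers_of_commute hAF hF1 hfpf Nat.prime_two hs ha hs2 h3
          (mem_cent.1 h4 s hs)
        rw [mem_zpowers_iff_mem_range_orderOf, hs2] at h5
        obtain ⟨k, hk, rfl⟩ := Finset.mem_image.1 h5
        rw [Finset.mem_range] at hk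
        interval_cases k
        · simp at ht2
        · simp
      have h6 : t ∈ B ⊓ 𝐂₁ (f u) := by
        refine ⟨ht, mem_cent1.2 ?_⟩
        have h7 := hu2 _ ((fitting_normal _).conj_mem t ht (f u)) (by rw [orderJ, ht2])
        rw [← hu2 t ht ht2] at h7
        exact (mul_inv_eq_iff_eq_mul.1 h7).symm
      rw [hpf _ hu1 hup, Subgroup.mem_bot] at h6
      simp [h6] at ht2
    have hcyc : IsCyclic A := CN.cyclic_of_nil_fpf_odd hAF hF1 hfpf hAn hodd
    have hAB : A.map f = B := by
      refine le_antisymm (le_trans ?_ (centralizer_fitting_le _)) hBA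
      exact (cents_map (abelian_le_cent (cyclic_abelian hcyc)) f).trans (centS hBA)
    have hsup : F ⊔ A = B.comap f := by
      rw [← hAB, Subgroup.comap_map_eq, QuotientGroup.ker_mk', sup_comm]
    refine ⟨p, hp.out, ?_⟩
    rw [IsThreeStepGroup, hFO]
    refine ⟨hF1, A, hA1, hcyc, hodd, (p'group_iff_coprime hp.out).1 (pHall_pgroup hA'), ?_, hFA, ?_,
      hfpf, fun x hx a ha ha1 h => hx ?_⟩
    · rw [hsup]; infer_instance
    · have h1 := pHall_index hA'
      rw [Subgroup.relIndex_top_right, compl_compl] at h1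
      exact (isPiNum_singleton_iff hp.out Subgroup.index_ne_zero_of_finite).1
        (h1.of_dvd (Subgroup.index_dvd_of_le le_sup_right))
    · rw [hsup, Subgroup.mem_comap]
      have h1 : f a ≠ 1 := fun e => ha1 (hinj a ha e)
      have h2 : Commute (f x) (f a) := by
        have := (QuotientGroup.eq_one_iff _).2 h
        rw [← commutatorElement_eq_one_iff_commute, ← map_commutatorElement]
        exact this
      have h3 : constt {p} (f x) = 1 := by
        by_contra h4
        have h5 : f a ∈ B ⊓ 𝐂₁ (constt {p} (f x)) :=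
          ⟨hAB ▸ Subgroup.mem_map_of_mem f ha, mem_cent1_iff_commute.2 (commute_constt _ h2).symm⟩
        rw [hpf _ h4 (p_elt_constt _ _)] at h5
        exact h1 h5
      exact (mem_normal_Hall (hAB ▸ hAf) hBN.norm (Subgroup.mem_top _)).2 (constt1P.1 h3)

end Cfsg.Agent.S1476
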