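import Cfsg.Statements.S1481
import Cfsg.Agent.FT.BG7Defs
import Cfsg.Agent.FT.BG1.Coprime
import Cfsg.Agent.FT.Img
import Cfsg.Agent.Solv.CoprimeSylow
import Cfsg.Agent.Solv.CoprimeAbelian
import Cfsg.Agent.S0028

set_option autoImplicit false
open Cfsg

namespace Cfsg.Agent.S1481

/-- Let G be a finite group and H a local subgroup (the normalizer of a nontrivial subgroup of prime-power order) not properly contained in any local subgroup; let F = F(H), suppose at least two primes divide #F, put X = H ∩ C_G(F), let M ≤ F with F ∩ C_G(M) ≤ M, and let R be a solvable subgroup normalized by M and by X. Then for every prime q not dividing #F there is exactly one maximal M-invariant q-subgroup of R, and it is a Sylow q-subgroup of the largest normal subgroup of R of order coprime to #F. -/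
theorem result {G : Type*} [Group G] [Finite G] (H : Subgroup G) (hH : Cfsg.IsLocalSubgroup H) (hHmax : ∀ L : Subgroup G, Cfsg.IsLocalSubgroup L → H ≤ L → L = H)
    (hF2 : 2 ≤ (Nat.card (Cfsg.fittingOf H)).primeFactors.card)
    (M : Subgroup G) (hM : M ≤ Cfsg.fittingOf H) (hCM : Cfsg.fittingOf H ⊓ Subgroup.centralizer (M : Set G) ≤ M)
    (R : Subgroup G) (hR : Group.IsSolvable R) (hMR : M ≤ Subgroup.normalizer (R : Set G))
    (hXR : H ⊓ Subgroup.centralizer (Cfsg.fittingOf H : Set G) ≤ Subgroup.normalizer (R : Set G))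
    (q : ℕ) [Fact q.Prime] (hq : ¬ q ∣ Nat.card (Cfsg.fittingOf H)) :
    ∃! Q : Subgroup G, Q ∈ Cfsg.maxInvSubgroups R M {q} ∧
      (∀ Q' : Subgroup G, Q' ∈ Cfsg.maxInvSubgroups R M {q} →
        Q' ≤ Cfsg.piCoreOf (Cfsg.primesNotDvd (Nat.card (Cfsg.fittingOf H))) R ∧
        ¬ q ∣ Q'.relIndex (Cfsg.piCoreOf (Cfsg.primesNotDvd (Nat.card (Cfsg.fittingOf H))) R)) := by
  open Cfsg.Lib.FT Cfsg.Lib.Solv Pointwise in
  · have hqp : q.Prime := Fact.out
    set F := fittingOf H with hF
    set π := piOf (Nat.card F) with hπ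
    have hL0 : piCoreOf (primesNotDvd (Nat.card F)) R = piCoreOf πᶜ R :=
      eq_in_pcore fun r hr _ => ⟨fun h h' => h.2 h'.2, fun h => ⟨hr, fun h' => h ⟨hr, h'⟩⟩⟩
    rw [hL0]
    set L := piCoreOf πᶜ R with hL
    have hFn : Group.IsNilpotent F := Fitting_nil H
    have hFH : F ⊲ H := Fitting_normal H
    have hFπ : IsPiSubgroup π F := pgroup_pi F
    have hMπ : IsPiSubgroup π M := pgroupS hM hFπ
    have hMH : M ≤ H := hM.trans hFH.le
    -- the subgroups `Z r`
    have hZ : ∀ r : ℕ, r.Prime → r ∣ Nat.card F → ∃ Z : Subgroup G, Z ≤ centerOf F ∧ Z ≤ M ∧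
        IsPGroup r Z ∧ 𝐍 Z = H := by
      intro r hr hd
      have := Fact.mk hr
      have h1 : piCoreOf {r} F ≠ ⊥ := Sylow_ne_bot (nilpotent_pcore_Hall {r} hFn) hd
      have h2 := meet_center_nil hFn (pcore_normal {r} F) h1
      have h3 : IsPGroup r (piCoreOf {r} F ⊓ centerOf F : Subgroup G) :=
        (pcore_isPGroup r F).to_le inf_le_left
      refine ⟨_, inf_le_right, (inf_le_right.trans (le_inf inf_le_left
        (inf_le_right.trans (centS hM)))).trans hCM, h3, hHmax _ ⟨r, _, hr, h3, h2, rfl⟩ ?_⟩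
      exact normsI (norms_pcore _ hFH.norm) (norms_center hFH.norm)
    -- invariant `π'`-subgroups of `R` meet `H` trivially
    have hTI : ∀ Y : Subgroup G, Y ≤ R → IsPiSubgroup πᶜ Y → M ≤ 𝐍 Y → Y ⊓ H = ⊥ := by
      intro Y hYR hY hMY
      have h0 : F ⊓ Y = ⊥ := pgroup_TI hFπ hY
      have hW : Y ⊓ H ≤ 𝐍 F := inf_le_right.trans hFH.norm
      have h1 : Y ⊓ H ≤ 𝐂 M := by
        rw [← commG1P, eq_bot_iff, ← h0]
        exact le_inf ((commgSS le_rfl hM).trans (commg_subr.2 hW))
          ((commgSS inf_le_left le_rfl).trans (commg_subl.2 hMY))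
      have h2 : M ≤ F ⊓ 𝐂 (Y ⊓ H) := le_inf hM (centsC.1 h1)
      have h3 : Y ⊓ H ≤ 𝐂 F := coprime_nil_faithful_cent_stab hW
        (pnat_coprime hFπ (pgroupS inf_le_left hY)) hFn
        (((inf_le_inf_left _ (centS h2)).trans hCM).trans h2)
      have h4 : (H ⊓ 𝐂 F) ⊓ R ⊲ H ⊓ 𝐂 F := norm_normalI hXR
      have h5 : fittingOf ((H ⊓ 𝐂 F) ⊓ R) ≤ F :=
        (Fitting_normal_le h4).trans (Fitting_normal_le (norm_subcent_normal hFH.norm))
      have h6 : (H ⊓ 𝐂 F) ⊓ R ≤ F :=
        ((le_inf le_rfl ((inf_le_left.trans inf_le_right).trans (centS h5))).trans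
          (cent_sub_Fitting (solvableS inf_le_right hR))).trans h5
      rw [eq_bot_iff, ← h0]
      exact le_inf ((le_inf (le_inf inf_le_right h3) (inf_le_left.trans hYR)).trans h6) inf_le_left
    have hLR : L ≤ R := pcore_sub _ _
    have hLπ : IsPiSubgroup πᶜ L := pcore_pgroup _ _
    have hML : M ≤ 𝐍 L := norms_pcore _ hMR
    -- invariant `π'`-subgroups of `R` lie in `L`
    have hcore : ∀ Y : Subgroup G, Y ≤ R → IsPiSubgroup πᶜ Y → M ≤ 𝐍 Y → Y ≤ L := by
      intro Y hYR hY hMY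
      have hRN : R ≤ 𝐍 R := normG R
      have : (L.subgroupOf (𝐍 R)).Normal := normal_subgroupOf (norm_pcore _ _)
      set f := qmk (𝐍 R) L with hf
      have hker : pre f ⊥ = L := ker_qmk (hLR.trans hRN)
      have hO : piCoreOf πᶜ (img f R) = ⊥ := by
        rw [← img_pcore hRN (hker.le.trans hLR) (pgroupS hker.le hLπ)]
        exact img_eq_bot_of_le hker.ge
      have hc : ∀ (p : ℕ) [Fact p.Prime], piCoreOf {p} (img f R) ≤ 𝐂 (img f Y) := by
        intro p hp
        by_cases hpπ : p ∈ π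
        swap
        · exact (sub_pcore (Set.singleton_subset_iff.2 hpπ) _).trans (hO.le.trans bot_le)
        obtain ⟨r, hr, hrp⟩ := Finset.exists_mem_ne hF2 p
        have hr' := Nat.prime_of_mem_primeFactors hr
        have := Fact.mk hr'
        obtain ⟨Z, hZF, hZM, hZp, hZN⟩ := hZ p hp.out hpπ.2
        obtain ⟨W, hWF, hWM, hWr, hWN⟩ := hZ r hr' (Nat.dvd_of_mem_primeFactors hr)
        set S := piCoreOf {p} (img f R) with hS
        have hSp : IsPGroup p S := pcore_isPGroup p _
        have hMS : img f M ≤ 𝐍 S := norms_pcore _ (img_norms f hMR)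
        have hWp : (Nat.card (img f W)).Coprime p :=
          (p'group_iff_coprime hp.out).1 (pgroup_p'group_of_ne (isPGroup_img f hWr) hrp)
        have h1 : img f W ≤ 𝐂 S := by
          refine Cfsg.Agent.S0028.result p (img f Z) _ _ (isPGroup_img f hZp) hWp hSp
            (img_cents f ((hZF.trans inf_le_right).trans (centS (hWF.trans inf_le_left))))
            ((img_mono f hZM).trans hMS) ((img_mono f hWM).trans hMS) ?_
          have h2 : S ⊓ 𝐂 (img f Z) ≤ img f H := by
            refine (inf_le_inf_right _ (pcore_sub _ _)).trans ?_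
            rw [← coprime_quotient_cent f (hZM.trans hMR) hRN (hZM.trans hMR) ?_
              (Or.inl (pgroup_sol hZp))]
            · exact img_mono f (inf_le_right.trans ((cent_sub Z).trans hZN.le))
            · rw [hker]
              exact p'nat_coprime (pgroupS inf_le_right hLπ) (pgroupS hZM hMπ)
          rw [← commG1P, eq_bot_iff, ← inf_eq_bot_of_isPGroup_of_coprime hSp hWp]
          exact le_inf ((commgSS inf_le_left le_rfl).trans
            (commg_subl.2 ((img_mono f hWM).trans hMS)))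
            (commg_subr.2 (h2.trans (img_norms f hWN.ge)))
        have h3 : ⁅Y, W⁆ = Y := by
          have h4 := coprime_cent_prod (hWM.trans hMY) (p'nat_coprime hY (pgroupS hWM hMπ))
            (Or.inl (pgroup_sol hWr))
          have h5 : Y ⊓ 𝐂 W = ⊥ := by
            rw [eq_bot_iff, ← hTI Y hYR hY hMY]
            exact inf_le_inf_left _ ((cent_sub W).trans hWN.le)
          rwa [h5, sup_bot_eq] at h4
        rw [centsC, ← h3, img_commutator (hYR.trans hRN) (hWM.trans hMR)]
        exact Coprime.commutator_le_centralizer_of_le_centralizer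
          ((img_mono f hYR).trans (pcore_normal _ _).norm) h1
      have h6 : fittingOf (img f R) ≤ 𝐂 (img f Y) :=
        fittingOf_le_of_forall_pCore_le fun p _ => by rw [← pcore_eq_map]; exact hc p
      have h7 : img f Y ≤ fittingOf (img f R) :=
        (le_inf (img_mono f hYR) (centsC.1 h6)).trans (cent_sub_Fitting (solvable_img f hR))
      have h8 := sub_Fitting_pcore h7 (pgroup_img f hY)
      rw [hO, le_bot_iff, img_eq_bot_iff (hYR.trans hRN), hker] at h8
      exact h8
    have hqπ : q ∈ πᶜ := fun h => hq h.2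
    have hcop : (Nat.card M).Coprime (Nat.card L) := pnat_coprime hMπ hLπ
    have hsol : Group.IsSolvable M ∨ Group.IsSolvable L := Or.inr (solvableS hLR hR)
    have hall : ∀ Q' : Subgroup G, Q' ∈ maxInvSubgroups R M {q} →
        Q' ≤ L ∧ ¬ q ∣ Q'.relIndex L := by
      intro Q hQ
      obtain ⟨h1, h2, h3⟩ := mem_invSubgroups.1 hQ.1
      have h4 := hcore Q h1 (pi_singleton_pgroup h2 hqπ) h3
      obtain ⟨P, hP1, hP2, hP3, hP4, hP5⟩ := Coprime.exists_le_invariant_sylow' (p := q) hML hcop hsol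
        h4 (pgroup_iff.1 h2) h3
      have h5 := hQ.2 P (mem_invSubgroups.2 ⟨hP2.trans hLR, pgroup_iff.2 hP3, hP5⟩) hP1
      exact ⟨h4, h5 ▸ hP4⟩
    obtain ⟨Q, hQ, -⟩ := max_normed_exists_in (H := R) (A := M) (X := ⊥) (π := {q})
      (mem_invSubgroups.2 ⟨bot_le, pgroup1, norms1 _⟩)
    refine ⟨Q, ⟨hQ, hall⟩, fun Q' hQ' => ?_⟩
    obtain ⟨h1, h2, h3⟩ := mem_invSubgroups.1 hQ.1
    obtain ⟨h4, h5, h6⟩ := mem_invSubgroups.1 hQ'.1.1
    obtain ⟨c, hc, e⟩ := Coprime.invariant_sylow_conj' (p := q) hML hcop hsol (hall Q hQ).1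
      (pgroup_iff.1 h2) (hall Q hQ).2 h3 (hall Q' hQ'.1).1 (pgroup_iff.1 h5) (hall Q' hQ'.1).2 h6
    obtain ⟨r, hr, -⟩ := Finset.exists_mem_ne hF2 0
    obtain ⟨Z, -, hZM, -, hZN⟩ := hZ r (Nat.prime_of_mem_primeFactors hr)
      (Nat.dvd_of_mem_primeFactors hr)
    have h7 : c ∈ L ⊓ H := ⟨hc.1, hZN.le (cent_sub Z (centS hZM hc.2))⟩
    rw [hTI L hLR hLπ hML, Subgroup.mem_bot] at h7
    rw [← e, h7, conj_one_smul]

end Cfsg.Agent.S1481
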