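import Cfsg.Statements.S1487
import Cfsg.Agent.Char.Clifford
import Cfsg.Agent.Char.Kernel

set_option autoImplicit false
open Cfsg

namespace Cfsg.Agent.S1487

/-- Let A ≤ H be normal subgroups of the finite group G and θ an irreducible character of H. Then θ takes the value θ 1 on all of A if and only if the function induced from θ to G takes its value at 1 on all of A. -/
theorem result {G : Type*} [Group G] [Fintype G] (A H : Subgroup G) [A.Normal] [H.Normal] (hAH : A ≤ H) (θ : H → ℂ) (hθ : Cfsg.IsIrrCharacter H θ) : (∀ a : H, (a : G) ∈ A → θ a = θ 1) ↔ (∀ a : G, a ∈ A → Cfsg.indFun H θ a = Cfsg.indFun H θ 1) := by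
  classical
  have hA : A.Normal := inferInstance
  constructor
  · intro h a ha
    have h1 := Cfsg.Lib.Char.indFun_normal_apply H θ ⟨a, hAH ha⟩
    have h2 := Cfsg.Lib.Char.indFun_normal_apply H θ 1
    simp only [OneMemClass.coe_one] at h1 h2
    rw [h1, h2]
    congr 1
    refine Finset.sum_congr rfl fun x _ => ?_
    rw [h _ (hA.conj_mem a ha x)]
    exact (h _ (hA.conj_mem 1 A.one_mem x)).symm
  · intro h a ha
    have hχ := (Cfsg.Lib.Char.isCharacter_indFun hθ.isCharacter).res H
    have h1 : a ∈ Cfsg.Lib.Char.charKer (fun x : H => Cfsg.indFun H θ x) :=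
      hχ.mem_charKer_iff.2 (h a ha)
    refine hθ.mem_charKer_iff.1 (hχ.charKer_le_of_classInner_ne_zero hθ ?_ h1)
    rw [← Cfsg.Lib.Char.classInner_indFun_right H θ (Cfsg.Lib.Char.indFun_isClassFunction H θ)]
    intro h0
    exact Cfsg.Lib.Char.indFun_ne_zero_of_apply_one hθ.apply_one_ne_zero
      (Cfsg.Lib.Char.classInner_self_eq_zero.1 h0)

end Cfsg.Agent.S1487
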