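import Cfsg.Statements.S1488
import Cfsg.Agent.Char.IndTransport

set_option autoImplicit false
open Cfsg

namespace Cfsg.Agent.S1488

/-- Let A be a normal subgroup of the finite group G contained in the subgroup H, let θ be a function on H and θ₁ a function on the image of H in G ⧸ A whose composite with the projection is θ. Then the function induced from θ₁ to G ⧸ A, composed with the projection G → G ⧸ A, equals the function induced from θ to G. -/
theorem result {G : Type*} [Group G] [Fintype G] (A H : Subgroup G) [A.Normal] (hAH : A ≤ H) [Fintype (G ⧸ A)] [Fintype ↥(H.map (QuotientGroup.mk' A))] (θ : H → ℂ) (θ₁ : ↥(H.map (QuotientGroup.mk' A)) → ℂ) (hθ : ∀ x : H, θ₁ ⟨QuotientGroup.mk' A x, Subgroup.mem_map_of_mem _ x.2⟩ = θ x) (g : G) : Cfsg.indFun (H.map (QuotientGroup.mk' A)) θ₁ (QuotientGroup.mk' A g) = Cfsg.indFun H θ g := by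
  refine (Cfsg.Lib.Char.indFun_comp_surjective (QuotientGroup.mk' A)
    (QuotientGroup.mk'_surjective A) H _ (fun x => ⟨fun hx => Subgroup.mem_map_of_mem _ hx, ?_⟩)
    θ θ₁ (fun h => (hθ h).symm) g).symm
  intro hx
  have : x ∈ (H.map (QuotientGroup.mk' A)).comap (QuotientGroup.mk' A) := hx
  rwa [Subgroup.comap_map_eq, QuotientGroup.ker_mk', sup_eq_left.2 hAH] at this

end Cfsg.Agent.S1488
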