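import Cfsg.Statements.S1490
import Cfsg.Agent.Char.Ramified

set_option autoImplicit false
open Cfsg

namespace Cfsg.Agent.S1490

/-- Let H be a normal subgroup of the finite group G, θ an irreducible character of H with inertia group T, and suppose the commutator of any two elements of T lies in H (T/H abelian). Then there are a positive integer e and a finite set C of irreducible characters of G with e ^ 2 * |C| * |H| = |T|, such that the function induced from θ is e times the sum of the members of C and every member of C has degree [G:T] * e * θ(1). -/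
theorem result {G : Type*} [Group G] [Fintype G] (H T : Subgroup G) [hN : H.Normal] (θ : H → ℂ) (hθ : Cfsg.IsIrrCharacter H θ) (hT : ∀ g : G, g ∈ T ↔ ∀ h : H, θ ⟨g * h * g⁻¹, hN.conj_mem h h.2 g⟩ = θ h) (hab : ∀ x ∈ T, ∀ y ∈ T, x * y * x⁻¹ * y⁻¹ ∈ H) : ∃ (e : ℕ) (C : Finset (G → ℂ)), 0 < e ∧ (∀ χ ∈ C, Cfsg.IsIrrCharacter G χ) ∧ e ^ 2 * C.card * Nat.card H = Nat.card T ∧ Cfsg.indFun H θ = (e : ℂ) • ∑ χ ∈ C, χ ∧ ∀ χ ∈ C, χ 1 = (T.index : ℂ) * e * θ 1 := by
  classical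
  obtain rfl := Cfsg.Lib.Char.eq_inertia hT
  set T := Cfsg.Lib.Char.inertia H θ with hTdef
  have hHT : H ≤ T := Cfsg.Lib.Char.le_inertia hθ.isClassFunction
  have hcomm : commutator T ≤ H.subgroupOf T := by
    rw [commutator_def, Subgroup.commutator_le]
    intro x _ y _
    exact hab x x.2 y y.2
  obtain ⟨e, he0, h1, h2, h3⟩ := Cfsg.Lib.Char.indFun_eq_smul_sum_of_abelian hcomm
    (hθ.subgroupOf hHT) (fun t n => Cfsg.Lib.Char.mem_inertia'.1 t.2 ⟨((n : T) : G), n.2⟩)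
  set C₀ := Finset.univ.filter (fun χ : Cfsg.IrrCharacter T =>
    Cfsg.classInner (fun n : H.subgroupOf T => χ.1 n)
      (fun n : H.subgroupOf T => θ ⟨((n : T) : G), n.2⟩) ≠ 0) with hC₀
  have hover : ∀ ψ ∈ C₀, Cfsg.classInner (fun n : H => ψ.1 ⟨n, hHT n.2⟩) θ ≠ 0 := fun ψ hψ => by
    have := (Finset.mem_filter.1 hψ).2
    rwa [Cfsg.Lib.Char.classInner_res_subgroupOf hHT] at this
  have hinj : Set.InjOn (fun ψ : Cfsg.IrrCharacter T => Cfsg.indFun T ψ.1) C₀ :=
    fun a ha b hb h => Subtype.ext (Cfsg.Lib.Char.clifford_indFun_injective hHT le_rfl hθ a.2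
      (hover a ha) b.2 (hover b hb) h)
  refine ⟨e, C₀.image (fun ψ => Cfsg.indFun T ψ.1), he0, ?_, ?_, ?_, ?_⟩
  · intro χ hχ
    obtain ⟨ψ, hψ, rfl⟩ := Finset.mem_image.1 hχ
    exact (Cfsg.Lib.Char.clifford_indFun_irr hHT le_rfl hθ ψ.2 (hover ψ hψ)).1
  · rw [Finset.card_image_of_injOn hinj, h3, mul_comm, ← (H.subgroupOf T).card_mul_index,
      Nat.card_congr (Subgroup.subgroupOfEquivOfLe hHT).toEquiv]
  · rw [Finset.sum_image hinj, ← Cfsg.Lib.Char.indFun_indFun_subgroupOf H T hHT θ]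
    erw [h2]
    rw [Cfsg.Lib.Char.indFun_smul, Cfsg.Lib.Char.indFun_sum]
  · intro χ hχ
    obtain ⟨ψ, hψ, rfl⟩ := Finset.mem_image.1 hχ
    have h4 := congrFun (h1 ψ.1 ψ.2 (Finset.mem_filter.1 hψ).2) 1
    rw [Cfsg.Lib.Char.indFun_one, mul_assoc]
    congr 1

end Cfsg.Agent.S1490
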