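import Cfsg.Statements.S1491
import Cfsg.Agent.FT.CFExt

set_option autoImplicit false
open Cfsg

namespace Cfsg.Agent.S1491

/-- Let H be a normal subgroup of the finite group G and θ an irreducible character of H with inertia group T, where T/H is abelian (commutators of T lie in H) and the index of H in T is coprime to the order of H. Then the function induced from θ is the sum of a set of exactly [T:H] irreducible characters of G, each of degree [G:T] * θ(1). -/
theorem result {G : Type*} [Group G] [Fintype G] (H T : Subgroup G) [hN : H.Normal] (θ : H → ℂ) (hθ : Cfsg.IsIrrCharacter H θ) (hT : ∀ g : G, g ∈ T ↔ ∀ h : H, θ ⟨g * h * g⁻¹, hN.conj_mem h h.2 g⟩ = θ h) (hab : ∀ x ∈ T, ∀ y ∈ T, x * y * x⁻¹ * y⁻¹ ∈ H) (hcop : Nat.Coprime (Nat.card H) (H.relIndex T)) : ∃ C : Finset (G → ℂ), (∀ χ ∈ C, Cfsg.IsIrrCharacter G χ) ∧ C.card = H.relIndex T ∧ Cfsg.indFun H θ = ∑ χ ∈ C, χ ∧ ∀ χ ∈ C, χ 1 = (T.index : ℂ) * θ 1 := by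
  open Cfsg.Lib.FT in
  have hθ' := extendByZero_mem_Irr.mpr hθ
  open Cfsg.Lib.FT in
  have hT' : T = ⊤ ⊓ inertia (extendByZero H θ) := by
    ext g
    rw [top_inf_eq, hT, mem_inertia_iff_of_norm ((normal_top_iff.mpr hN).2 trivial) (irr_cf hθ')]
    refine ⟨fun h x hx => ?_, fun h x => ?_⟩
    · exact (extendByZero_coe' H θ ⟨_, hN.conj_mem x hx g⟩).trans
        ((h ⟨x, hx⟩).trans (extendByZero_coe' H θ ⟨x, hx⟩).symm)
    · exact (extendByZero_coe' H θ ⟨_, hN.conj_mem x x.2 g⟩).symm.trans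
        ((h x x.2).trans (extendByZero_coe' H θ x))
  open Cfsg.Lib.FT in
  obtain ⟨h1, h2, h3⟩ := cfInd_Hall_central_Inertia (normal_top_iff.mpr hN) hθ' hT'
    (Subgroup.commutator_le.mpr hab) hcop
  open Cfsg.Lib.FT in
  refine ⟨_, fun χ hχ => mem_Irr_top.mp (irrConstt_subset _ _ hχ), h2,
    (ind_extendByZero_top H θ).symm.trans h1, fun χ hχ => ?_⟩
  open Cfsg.Lib.FT in
  rw [irr_deg_eq (irrConstt_subset _ _ hχ), h3 χ hχ, Subgroup.relIndex_top_right, Nat.cast_mul,
    ← irr_deg_eq hθ', ← extendByZero_coe' H θ 1]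
  rfl

end Cfsg.Agent.S1491
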