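import Cfsg.Statements.S1492
import Cfsg.Agent.Char.Clifford
import Cfsg.Agent.Char.CharCenter

set_option autoImplicit false
open Cfsg

namespace Cfsg.Agent.S1492

/-- Let ψ be an irreducible character of the finite group G and B ≤ D ≤ C subgroups with B normal in C, every commutator of an element of D with an element of C lying in B (so D/B is central in C/B), and ψ constant equal to ψ 1 on B. Then ψ(1) ^ 2 * |C| * |D| ≤ |G| ^ 2. -/
theorem result {G : Type*} [Group G] [Finite G] (ψ : G → ℂ) (hψ : Cfsg.IsIrrCharacter G ψ) (B C D : Subgroup G) (hBD : B ≤ D) (hDC : D ≤ C) (hBn : ∀ c ∈ C, ∀ b ∈ B, c * b * c⁻¹ ∈ B) (hcent : ∀ d ∈ D, ∀ c ∈ C, d * c * d⁻¹ * c⁻¹ ∈ B) (hker : ∀ b ∈ B, ψ b = ψ 1) : ‖ψ 1‖ ^ 2 * (Nat.card C : ℝ) * (Nat.card D : ℝ) ≤ (Nat.card G : ℝ) ^ 2 := by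
  classical
  have := Fintype.ofFinite G
  obtain ⟨χ, hχ, h⟩ := Cfsg.Lib.Char.exists_irr_under C hψ
  have hk : B.subgroupOf C ≤ Cfsg.Lib.Char.charKer χ := by
    refine le_trans ?_ ((hψ.isCharacter.res C).charKer_le_of_classInner_ne_zero hχ h)
    rw [hψ.isCharacter.charKer_res]
    intro b hb
    exact hψ.mem_charKer_iff.2 (hker b hb)
  have hz : D.subgroupOf C ≤ Cfsg.Lib.Char.charCenter χ := fun d hd =>
    hχ.mem_charCenter_iff_commutator.2 fun c => hk (hcent d hd c c.2)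
  obtain ⟨a, -, ha⟩ := hχ.exists_nat_degree_pos
  obtain ⟨b, -, hb⟩ := hψ.exists_nat_degree_pos
  have h1 := hχ.nat_degree_sq_le_index hz ha
  have h2 := (Cfsg.Lib.Char.isCharacter_indFun hχ.isCharacter).degree_le_of_classInner_ne_zero hψ
    (by
      rw [Cfsg.Lib.Char.classInner_indFun_left C χ hψ.isClassFunction]
      exact fun h' => h (Cfsg.Lib.Char.classInner_eq_zero_comm.1 h'))
  rw [Cfsg.Lib.Char.indFun_one, ha, hb, ← Nat.cast_mul, Complex.natCast_re, Complex.natCast_re,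
    Nat.cast_le] at h2
  have h3 := (D.subgroupOf C).index_mul_card
  rw [Nat.card_congr (Subgroup.subgroupOfEquivOfLe hDC).toEquiv] at h3
  have h4 := C.index_mul_card
  rw [hb, Complex.norm_natCast]
  have h5 : b ^ 2 * Nat.card C * Nat.card D ≤ Nat.card G ^ 2 := by
    calc b ^ 2 * Nat.card C * Nat.card D ≤ (C.index * a) ^ 2 * Nat.card C * Nat.card D := by gcongr
      _ = C.index ^ 2 * Nat.card C * (a ^ 2 * Nat.card D) := by ring
      _ ≤ C.index ^ 2 * Nat.card C * ((D.subgroupOf C).index * Nat.card D) := by gcongr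
      _ = Nat.card G ^ 2 := by rw [h3, ← h4]; ring
  exact_mod_cast h5

end Cfsg.Agent.S1492
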