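import Cfsg.Statements.S1495
import Mathlib.RingTheory.RootsOfUnity.Lemmas
import Mathlib.RingTheory.RootsOfUnity.Complex
import Mathlib.RingTheory.RootsOfUnity.Minpoly
import Mathlib.RingTheory.IntegralClosure.IntegrallyClosed
import Mathlib.Algebra.GCDMonoid.IntegrallyClosed
import Mathlib.RingTheory.Localization.Integral
import Mathlib.Algebra.Ring.GeomSum

set_option autoImplicit false
open Cfsg

namespace Cfsg.Agent.S1495

/-- Let p be a prime, ε = exp(2πi/p), and n an integer such that n = (1 − ε) * ω for some algebraic integer ω. Then p divides n. -/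
theorem result (p : ℕ) (hp : p.Prime) (n : ℤ) (ω : ℂ) (hω : IsIntegral ℤ ω) (h : (n : ℂ) = (1 - Complex.exp (2 * Real.pi * Complex.I / p)) * ω) : (p : ℤ) ∣ n := by
  have hε := Complex.isPrimitiveRoot_exp p hp.ne_zero
  set ε := Complex.exp (2 * Real.pi * Complex.I / p) with hεdef
  obtain ⟨m, rfl⟩ : ∃ m, p = m + 1 := ⟨p - 1, (Nat.succ_pred_eq_of_pos hp.pos).symm⟩
  have hεint : IsIntegral ℤ ε := hε.isIntegral hp.pos
  -- each factor
  have key : ∀ k ∈ Finset.range m, ∃ w : ℂ, IsIntegral ℤ w ∧ (n : ℂ) = (1 - ε ^ (k + 1)) * w := by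
    intro k hk
    have hk' : k < m := Finset.mem_range.mp hk
    have hcop : (k + 1).Coprime (m + 1) :=
      (Nat.coprime_of_lt_prime (by omega) (by omega) hp).symm
    have hprim : IsPrimitiveRoot (ε ^ (k + 1)) (m + 1) := hε.pow_of_coprime _ hcop
    obtain ⟨j, -, hj⟩ := hprim.eq_pow_of_pow_eq_one hε.pow_eq_one
    refine ⟨(∑ i ∈ Finset.range j, (ε ^ (k + 1)) ^ i) * ω, ?_, ?_⟩
    · refine IsIntegral.mul ?_ hω
      exact IsIntegral.sum _ fun i _ => (hεint.pow _).pow _
    · rw [← mul_assoc, mul_neg_geom_sum, hj, h]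
  choose! w hw using key
  have hprod : (n : ℂ) ^ m = ((m : ℂ) + 1) * ∏ k ∈ Finset.range m, w k := by
    rw [← hε.prod_one_sub_pow_eq_order, ← Finset.prod_mul_distrib]
    rw [Finset.prod_congr rfl fun k hk => (hw k hk).2.symm]
    simp
  have hint : IsIntegral ℤ (∏ k ∈ Finset.range m, w k) :=
    IsIntegral.prod _ fun k hk => (hw k hk).1
  have hm1 : ((m : ℂ) + 1) ≠ 0 := by exact_mod_cast Nat.succ_ne_zero m
  have hq : (∏ k ∈ Finset.range m, w k) = algebraMap ℚ ℂ ((n : ℚ) ^ m / (m + 1)) := by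
    simp only [map_div₀, map_pow, map_intCast, map_add, map_natCast, map_one]
    rw [eq_div_iff hm1, hprod, mul_comm]
  rw [hq, isIntegral_algebraMap_iff (algebraMap ℚ ℂ).injective] at hint
  obtain ⟨z, hz⟩ := IsIntegrallyClosed.isIntegral_iff.mp hint
  have hm1' : ((m : ℚ) + 1) ≠ 0 := by exact_mod_cast Nat.succ_ne_zero m
  rw [eq_div_iff hm1'] at hz
  have hz' : z * ((m : ℤ) + 1) = n ^ m := by
    have : ((z * ((m : ℤ) + 1) : ℤ) : ℚ) = ((n ^ m : ℤ) : ℚ) := by
      push_cast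
      simpa using hz
    exact_mod_cast this
  have hpr : Prime ((m + 1 : ℕ) : ℤ) := Nat.prime_iff_prime_int.mp hp
  apply hpr.dvd_of_dvd_pow (n := m)
  rw [← hz']
  push_cast
  exact Dvd.intro_left z rfl

end Cfsg.Agent.S1495
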