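import Cfsg.Statements.S1497
import Cfsg.Agent.FT.PF2.Basic

set_option autoImplicit false
open Cfsg

namespace Cfsg.Agent.S1497

/-- Let A be a nonempty subset of the finite group G not containing 1 and L a subgroup. Then A is a TI-subset whose normaliser is L if and only if the Dade hypothesis holds for A, L and the constant choice H(a) = ⊥. -/
theorem result {G : Type*} [Group G] [Finite G] (A : Set G) (hA : A.Nonempty) (h1 : (1 : G) ∉ A) (L : Subgroup G) : (Cfsg.IsTISubset A ∧ Subgroup.normalizer A = L) ↔ Cfsg.DadeHypothesis A L (fun _ => ⊥) := by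
  open Cfsg.Lib.FT in
  constructor
  · rintro ⟨h, rfl⟩
    exact normedTI_Dade (normedTI_of_isTISubset h hA h1) h1
  · intro h
    have := (Dade_normedTI_P h).mpr ⟨hA, fun _ _ => rfl⟩
    exact ⟨this.isTISubset, this.normalizer_eq⟩

end Cfsg.Agent.S1497
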