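import Cfsg.Statements.S1498
-- import your own Cfsg.Agent.* helpers here

set_option autoImplicit false
open Cfsg

namespace Cfsg.Agent.S1498

/-- An element of `C_G(a)` is a product of an element of `H a` and an element of `C_L(a)`. -/
theorem exists_mul_of_mem_centralizer {G : Type*} [Group G] {A : Set G} {L : Subgroup G}
    {H : G → Subgroup G} (hD : Cfsg.DadeHypothesis A L H) {a : G} (ha : a ∈ A) {u : G}
    (hu : u ∈ Subgroup.centralizer ({a} : Set G)) :
    ∃ h ∈ H a, ∃ l ∈ L ⊓ Subgroup.centralizer ({a} : Set G), u = h * l := by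
  rw [← hD.sup_eq a ha] at hu
  have hnorm : L ⊓ Subgroup.centralizer ({a} : Set G) ≤ Subgroup.normalizer (H a : Set G) := by
    intro c hc
    rw [Subgroup.mem_normalizer_iff]
    intro h
    constructor
    · intro hh
      exact hD.conj_mem_H a ha c hc.2 h hh
    · intro hh
      have := hD.conj_mem_H a ha c⁻¹ (inv_mem hc.2) _ hh
      simpa [mul_assoc] using this
  have := Subgroup.coe_mul_of_right_le_normalizer_left (H a) _ hnorm
  have hu' : u ∈ ((H a ⊔ (L ⊓ Subgroup.centralizer ({a} : Set G)) : Subgroup G) : Set G) := hu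
  rw [this] at hu'
  obtain ⟨h, hh, l, hl, rfl⟩ := hu'
  exact ⟨h, hh, l, hl, rfl⟩

/-- An element of `C_G(a)` of order coprime to `|C_L(a)|` lies in `H a`. -/
theorem mem_H_of_coprime {G : Type*} [Group G] [Finite G] {A : Set G} {L : Subgroup G}
    {H : G → Subgroup G} (hD : Cfsg.DadeHypothesis A L H) {a : G} (ha : a ∈ A) {u : G}
    (hu : u ∈ Subgroup.centralizer ({a} : Set G))
    (hcop : (orderOf u).Coprime (Nat.card ↥(L ⊓ Subgroup.centralizer ({a} : Set G)))) :
    u ∈ H a := by
  obtain ⟨h, hh, l, hl, rfl⟩ := exists_mul_of_mem_centralizer hD ha hu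
  have hpow : ∀ n : ℕ, ∃ h' ∈ H a, (h * l) ^ n = h' * l ^ n := by
    intro n
    induction n with
    | zero => exact ⟨1, one_mem _, by simp⟩
    | succ n ih =>
      obtain ⟨h', hh', e⟩ := ih
      refine ⟨h' * (l ^ n * h * (l ^ n)⁻¹), mul_mem hh'
        (hD.conj_mem_H a ha _ (pow_mem hl.2 n) h hh), ?_⟩
      rw [pow_succ, e, pow_succ]
      group
  obtain ⟨h', hh', e⟩ := hpow (Nat.card ↥(L ⊓ Subgroup.centralizer ({a} : Set G)))
  have hl1 : l ^ (Nat.card ↥(L ⊓ Subgroup.centralizer ({a} : Set G))) = 1 := by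
    have := pow_card_eq_one' (G := ↥(L ⊓ Subgroup.centralizer ({a} : Set G))) (x := ⟨l, hl⟩)
    exact congrArg Subtype.val this
  rw [hl1, mul_one] at e
  obtain ⟨m, hm⟩ := exists_pow_eq_self_of_coprime hcop.symm
  rw [← hm, e]
  exact pow_mem hh' m

/-- Under the Dade hypothesis for (A, L, H): for a ∈ A and x ∈ L, the subgroup attached to x * a * x⁻¹ is the conjugate of H a by x. -/
theorem result {G : Type*} [Group G] [Finite G] (A : Set G) (L : Subgroup G) (H : G → Subgroup G) (hD : Cfsg.DadeHypothesis A L H) (a : G) (ha : a ∈ A) (x : G) (hx : x ∈ L) : H (x * a * x⁻¹) = (H a).map (MulAut.conj x).toMonoidHom := by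
  have ha' : x * a * x⁻¹ ∈ A := hD.conj_mem x hx a ha
  ext u
  rw [Subgroup.mem_map]
  constructor
  · intro hu
    refine ⟨x⁻¹ * u * x, ?_, by simp [mul_assoc]⟩
    apply mem_H_of_coprime hD ha
    · have := hD.le_centralizer _ ha' hu
      rw [Subgroup.mem_centralizer_singleton_iff] at this ⊢
      calc x⁻¹ * u * x * a = x⁻¹ * (u * (x * a * x⁻¹)) * x := by group
        _ = x⁻¹ * ((x * a * x⁻¹) * u) * x := by rw [this]
        _ = a * (x⁻¹ * u * x) := by group
    · have h1 : orderOf (x⁻¹ * u * x) = orderOf u := by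
        have := (MulAut.conj x⁻¹).orderOf_eq u
        simpa using this
      rw [h1]
      exact (hD.coprime _ ha' a ha).coprime_dvd_left (Subgroup.orderOf_dvd_natCard _ hu)
  · rintro ⟨v, hv, rfl⟩
    change x * v * x⁻¹ ∈ _
    apply mem_H_of_coprime hD ha'
    · have := hD.le_centralizer _ ha hv
      rw [Subgroup.mem_centralizer_singleton_iff] at this ⊢
      calc x * v * x⁻¹ * (x * a * x⁻¹) = x * (v * a) * x⁻¹ := by group
        _ = x * (a * v) * x⁻¹ := by rw [this]
        _ = x * a * x⁻¹ * (x * v * x⁻¹) := by group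
    · have h1 : orderOf (x * v * x⁻¹) = orderOf v := by
        have := (MulAut.conj x).orderOf_eq v
        simpa using this
      rw [h1]
      exact (hD.coprime _ ha _ ha').coprime_dvd_left (Subgroup.orderOf_dvd_natCard _ hv)

end Cfsg.Agent.S1498
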