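import Cfsg.Statements.S1504
-- import your own Cfsg.Agent.* helpers here

set_option autoImplicit false
open Cfsg

namespace Cfsg.Agent.S1504

theorem eq_one_of_trivial {G : Type*} [Group G] (W₁ W₂ : Subgroup G) (χ : ↥(W₁ ⊔ W₂) →* ℂˣ)
    (h₁ : ∀ w : ↥(W₁ ⊔ W₂), (w : G) ∈ W₁ → χ w = 1)
    (h₂ : ∀ w : ↥(W₁ ⊔ W₂), (w : G) ∈ W₂ → χ w = 1) : χ = 1 := by
  have hk : (χ.ker).map (W₁ ⊔ W₂).subtype = W₁ ⊔ W₂ := by
    apply le_antisymm (Subgroup.map_subtype_le _)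
    apply sup_le
    · intro x hx
      exact ⟨⟨x, Subgroup.mem_sup_left hx⟩, h₁ _ hx, rfl⟩
    · intro x hx
      exact ⟨⟨x, Subgroup.mem_sup_right hx⟩, h₂ _ hx, rfl⟩
  ext w
  have hw : (w : G) ∈ (χ.ker).map (W₁ ⊔ W₂).subtype := by rw [hk]; exact w.2
  obtain ⟨y, hy, hyw⟩ := hw
  have : y = w := Subtype.ext hyw
  subst this
  have : χ y = 1 := hy
  simp [this]

theorem linearIndependent_units_hom (W : Type*) [Group W] :
    LinearIndependent ℂ (fun χ : W →* ℂˣ => fun w : W => (χ w : ℂ)) := by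
  have h := (linearIndependent_monoidHom W ℂ).comp
    (fun χ : W →* ℂˣ => (Units.coeHom ℂ).comp χ) (by
      intro a b hab
      ext w
      exact DFunLike.congr_fun hab w)
  exact h


/-- Let W₁, W₂ be subgroups of a finite group with W₁ ⊓ W₂ = ⊥ whose elements commute, and W = W₁ ⊔ W₂. For linear characters φ, ψ of W with φ trivial on W₂ and ψ trivial on W₁, the function (1 − φ)(1 − ψ) vanishes on W₁ ∪ W₂; and the family of these functions, indexed by pairs (φ, ψ) with φ ≠ 1 ≠ ψ, is linearly independent over ℂ. -/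
theorem result {G : Type*} [Group G] [Finite G] (W₁ W₂ : Subgroup G) (hdisj : W₁ ⊓ W₂ = ⊥) (hcomm : ∀ a ∈ W₁, ∀ b ∈ W₂, a * b = b * a) : (∀ φ ψ : ↥(W₁ ⊔ W₂) →* ℂˣ, (∀ w : ↥(W₁ ⊔ W₂), (w : G) ∈ W₂ → φ w = 1) → (∀ w : ↥(W₁ ⊔ W₂), (w : G) ∈ W₁ → ψ w = 1) → ∀ w : ↥(W₁ ⊔ W₂), ((w : G) ∈ W₁ ∨ (w : G) ∈ W₂) → (1 - (φ w : ℂ) - (ψ w : ℂ) + (φ w : ℂ) * (ψ w : ℂ)) = 0) ∧ LinearIndependent ℂ (fun p : {p : (↥(W₁ ⊔ W₂) →* ℂˣ) × (↥(W₁ ⊔ W₂) →* ℂˣ) // p.1 ≠ 1 ∧ p.2 ≠ 1 ∧ (∀ w : ↥(W₁ ⊔ W₂), (w : G) ∈ W₂ → p.1 w = 1) ∧ (∀ w : ↥(W₁ ⊔ W₂), (w : G) ∈ W₁ → p.2 w = 1)} => fun w : ↥(W₁ ⊔ W₂) => 1 - (p.1.1 w : ℂ) - (p.1.2 w : ℂ) + (p.1.1 w : ℂ) * (p.1.2 w : ℂ)) := by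
  classical
  refine ⟨?_, ?_⟩
  · intro φ ψ hφ hψ w hw
    rcases hw with hw | hw
    · simp [hψ w hw]
    · simp [hφ w hw]
  · have hli := linearIndependent_units_hom ↥(W₁ ⊔ W₂)
    set I := {p : (↥(W₁ ⊔ W₂) →* ℂˣ) × (↥(W₁ ⊔ W₂) →* ℂˣ) // p.1 ≠ 1 ∧ p.2 ≠ 1 ∧ (∀ w : ↥(W₁ ⊔ W₂), (w : G) ∈ W₂ → p.1 w = 1) ∧ (∀ w : ↥(W₁ ⊔ W₂), (w : G) ∈ W₁ → p.2 w = 1)}
    let v : I → ((↥(W₁ ⊔ W₂) →* ℂˣ) →₀ ℂ) := fun p =>
      Finsupp.single 1 1 - Finsupp.single p.1.1 1 - Finsupp.single p.1.2 1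
        + Finsupp.single (p.1.1 * p.1.2) 1
    have key : ∀ p q : I, v q (p.1.1 * p.1.2) = if p = q then 1 else 0 := by
      rintro ⟨⟨φ, ψ⟩, hφ1, hψ1, hφ, hψ⟩ ⟨⟨φ', ψ'⟩, hφ1', hψ1', hφ', hψ'⟩
      dsimp only at hφ1 hψ1 hφ hψ hφ1' hψ1' hφ' hψ'
      have e1 : (1 : ↥(W₁ ⊔ W₂) →* ℂˣ) ≠ φ * ψ := by
        intro h
        apply hφ1
        apply eq_one_of_trivial W₁ W₂ φ _ hφ
        intro w hw
        have := DFunLike.congr_fun h w
        simpa [hψ w hw] using this.symm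
      have e2 : φ' ≠ φ * ψ := by
        intro h
        apply hψ1
        apply eq_one_of_trivial W₁ W₂ ψ hψ
        intro w hw
        have := DFunLike.congr_fun h w
        simpa [hφ w hw, hφ' w hw] using this.symm
      have e3 : ψ' ≠ φ * ψ := by
        intro h
        apply hφ1
        apply eq_one_of_trivial W₁ W₂ φ _ hφ
        intro w hw
        have := DFunLike.congr_fun h w
        simpa [hψ w hw, hψ' w hw] using this.symm
      have e4 : φ' * ψ' = φ * ψ → φ = φ' ∧ ψ = ψ' := by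
        intro h
        have h1 : φ * φ'⁻¹ = 1 := by
          apply eq_one_of_trivial W₁ W₂
          · intro w hw
            have := DFunLike.congr_fun h w
            simp only [MonoidHom.mul_apply, hψ w hw, hψ' w hw, mul_one] at this
            simp [this]
          · intro w hw
            simp [hφ w hw, hφ' w hw]
        have h2 : φ = φ' := mul_inv_eq_one.mp h1
        subst h2
        exact ⟨rfl, (mul_left_cancel h).symm⟩
      simp only [v, Finsupp.add_apply, Finsupp.sub_apply, Finsupp.single_apply, if_neg e1,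
        if_neg e2, if_neg e3]
      by_cases h : φ' * ψ' = φ * ψ
      · obtain ⟨rfl, rfl⟩ := e4 h
        simp
      · rw [if_neg h, if_neg]
        · simp
        · intro hh
          apply h
          have := congrArg Subtype.val hh
          simp only [Prod.mk.injEq] at this
          rw [this.1, this.2]
    have hv : LinearIndependent ℂ v := by
      apply LinearIndependent.of_pairwise_dual_eq_zero_one v
        (fun p : I => Finsupp.lapply (p.1.1 * p.1.2))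
      · intro p q hpq
        simp only [Finsupp.lapply_apply, key, if_neg hpq]
      · intro p
        simp only [Finsupp.lapply_apply, key, if_pos]
    have hmap := hv.map' (Finsupp.linearCombination ℂ
      (fun χ : ↥(W₁ ⊔ W₂) →* ℂˣ => fun w : ↥(W₁ ⊔ W₂) => (χ w : ℂ)))
      (LinearMap.ker_eq_bot.mpr hli)
    have heq : (fun p : I => fun w : ↥(W₁ ⊔ W₂) =>
        1 - (p.1.1 w : ℂ) - (p.1.2 w : ℂ) + (p.1.1 w : ℂ) * (p.1.2 w : ℂ)) =
        ⇑(Finsupp.linearCombination ℂ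
          (fun χ : ↥(W₁ ⊔ W₂) →* ℂˣ => fun w : ↥(W₁ ⊔ W₂) => (χ w : ℂ))) ∘ v := by
      ext p w
      simp [v]
    rw [heq]
    exact hmap

end Cfsg.Agent.S1504
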