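import Cfsg.Statements.S1505
import Cfsg.Agent.FT.PF3.Stmt

set_option autoImplicit false
open Cfsg

namespace Cfsg.Agent.S1505

open Classical in
/-- Let W₁, W₂ ≤ G form a self-normalising cyclic subgroup W = W₁ ⊔ W₂. For nontrivial linear characters φ, φ' of W trivial on W₂ and ψ, ψ' trivial on W₁, put α = (1 − φ)(1 − ψ) and α' = (1 − φ')(1 − ψ'). Then the function induced from α to G has inner product 1 with the principal character, and the inner product of the functions induced from α and α' is 1 + a + b + ab where a = 1 if φ = φ' (else 0) and b = 1 if ψ = ψ' (else 0). -/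
theorem result {G : Type*} [Group G] [Fintype G] (W₁ W₂ : Subgroup G) (hW : Cfsg.IsSelfNormalizingCyclic W₁ W₂) (φ φ' ψ ψ' : ↥(W₁ ⊔ W₂) →* ℂˣ) (hφ : φ ≠ 1) (hφ' : φ' ≠ 1) (hψ : ψ ≠ 1) (hψ' : ψ' ≠ 1) (hφ₂ : ∀ w : ↥(W₁ ⊔ W₂), (w : G) ∈ W₂ → φ w = 1 ∧ φ' w = 1) (hψ₁ : ∀ w : ↥(W₁ ⊔ W₂), (w : G) ∈ W₁ → ψ w = 1 ∧ ψ' w = 1) : Cfsg.classInner (Cfsg.indFun (W₁ ⊔ W₂) (fun w => 1 - (φ w : ℂ) - (ψ w : ℂ) + (φ w : ℂ) * (ψ w : ℂ))) (fun _ => 1) = 1 ∧ Cfsg.classInner (Cfsg.indFun (W₁ ⊔ W₂) (fun w => 1 - (φ w : ℂ) - (ψ w : ℂ) + (φ w : ℂ) * (ψ w : ℂ))) (Cfsg.indFun (W₁ ⊔ W₂) (fun w => 1 - (φ' w : ℂ) - (ψ' w : ℂ) + (φ' w : ℂ) * (ψ' w : ℂ))) = 1 + (if φ = φ' then 1 else 0) + (if ψ = ψ' then 1 else 0) + (if φ = φ' then 1 else 0) * (if ψ = ψ' then 1 else 0) := by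
  open Cfsg.Lib.FT in
  focus
    have hd := selfNorm_dprod hW
    have e1 := eq_cycTIhat_left hd fun w hw => (hφ₂ w hw).1
    have e2 := eq_cycTIhat_left hd fun w hw => (hφ₂ w hw).2
    have e3 := eq_cycTIhat_right hd fun w hw => (hψ₁ w hw).1
    have e4 := eq_cycTIhat_right hd fun w hw => (hψ₁ w hw).2
    generalize resHat hd.le_left φ = i at e1
    generalize resHat hd.le_left φ' = i' at e2
    generalize resHat hd.le_right ψ = j at e3
    generalize resHat hd.le_right ψ' = j' at e4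
    subst e1 e2 e3 e4
    have hi : i ≠ 1 := fun e => hφ (by rw [e, cycTIhat_one])
    have hi' : i' ≠ 1 := fun e => hφ' (by rw [e, cycTIhat_one])
    have hj : j ≠ 1 := fun e => hψ (by rw [e, cycTIhat_one])
    have hj' : j' ≠ 1 := fun e => hψ' (by rw [e, cycTIhat_one])
    rw [← cfCycTI_coe hd, ← cfCycTI_coe hd, ← ind_top_eq_indFun, ← ind_top_eq_indFun,
      ← dot_top_eq_classInner, ← dot_top_eq_classInner]
    constructor
    · rw [show (fun _ : G => (1 : ℂ)) = cf1 ⊤ from cf1_top.symm,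
        dot_ind_left le_top _ (cf1_mem_CF ⊤), res_cf1 le_top, cfdot_cfCycTI_cf1 hd hi hj]
    · rw [normedTI_isometry (selfNorm_normedTI hW) (fun _ hx => hx.1) _ (cfCycTI_on hd _ _) _
        (cfCycTI_on hd _ _), cfdot_cfCycTI hd hi hi' hj hj']
      simp only [cycTIhat_inj hd, and_true, true_and]
      by_cases h1 : i = i' <;> by_cases h2 : j = j' <;> simp [h1, h2] <;> norm_num

end Cfsg.Agent.S1505
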