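import Cfsg.Statements.S1507
import Cfsg.Agent.FT.PF3.Stmt

set_option autoImplicit false
open Cfsg Cfsg.Lib.FT

namespace Cfsg.Agent.S1507

open Classical in
/-- Let W₁, W₂ ≤ G form a self-normalising cyclic subgroup W = W₁ ⊔ W₂ of odd order with Nat.card W₁ < Nat.card W₂, and χ an orthonormal family of irreducible characters of G up to sign, indexed by the linear characters ω of W, with χ_1 = 1, χ_ω = ω on W outside W₁ ∪ W₂, and the induction identity for (1 − φ)(1 − ψ). Let θ be a class function of G vanishing on W outside W₁ ∪ W₂, and suppose fewer than 2 · Nat.card W₁ linear characters ω of W have ⟨θ, χ ω⟩ ≠ 0. Then one of: all ⟨θ, χ ω⟩ vanish; or there are ψ₀ and a with ⟨θ, χ ω⟩ = a when ω ψ₀⁻¹ is trivial on W₂ and 0 otherwise; or there are φ₀ and a with ⟨θ, χ ω⟩ = a when ω φ₀⁻¹ is trivial on W₁ and 0 otherwise. -/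
theorem result {G : Type*} [Group G] [Fintype G] (W₁ W₂ : Subgroup G) (hW : Cfsg.IsSelfNormalizingCyclic W₁ W₂) (hodd : Odd (Nat.card ↥(W₁ ⊔ W₂))) (χ : (↥(W₁ ⊔ W₂) →* ℂˣ) → (G → ℂ)) (hχ : Cfsg.IsCyclicTIFamily W₁ W₂ χ) (hlt : Nat.card W₁ < Nat.card W₂) (θ : G → ℂ) (hθ : Cfsg.IsClassFunction G θ) (hθV : ∀ w : ↥(W₁ ⊔ W₂), (w : G) ∉ W₁ → (w : G) ∉ W₂ → θ w = 0) (hfew : Nat.card {ω : ↥(W₁ ⊔ W₂) →* ℂˣ // Cfsg.classInner θ (χ ω) ≠ 0} < 2 * Nat.card W₁) : (∀ ω, Cfsg.classInner θ (χ ω) = 0) ∨ (∃ (ψ₀ : ↥(W₁ ⊔ W₂) →* ℂˣ) (a : ℂ), ∀ ω, Cfsg.classInner θ (χ ω) = if (∀ w : ↥(W₁ ⊔ W₂), (w : G) ∈ W₂ → (ω * ψ₀⁻¹) w = 1) then a else 0) ∨ (∃ (φ₀ : ↥(W₁ ⊔ W₂) →* ℂˣ) (a : ℂ), ∀ ω, Cfsg.classInner θ (χ ω) = if (∀ w : ↥(W₁ ⊔ W₂), (w : G) ∈ W₁ → (ω * φ₀⁻¹) w = 1) then a else 0) := by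
  have h := cyclicTIHyp_top_iff.mpr ⟨hW, hodd⟩
  have hd := h.dprod
  simp only [eq_eta_of_isCyclicTIFamily h hχ, ← dot_top_eq_classInner] at hfew ⊢
  by_cases h0 : ∀ ω, dot ⊤ θ (cycTIeta ⊤ (resHat hd.le_left ω) (resHat hd.le_right ω)) = 0
  · exact Or.inl h0
  right
  push Not at h0
  obtain ⟨ω₀, h0⟩ := h0
  have hNC : cycTI_NC ⊤ W₁ W₂ θ = Nat.card {ω : ↥(W₁ ⊔ W₂) →* ℂˣ //
      dot ⊤ θ (cycTIeta ⊤ (resHat hd.le_left ω) (resHat hd.le_right ω)) ≠ 0} := by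
    rw [Nat.card_eq_fintype_card, Fintype.card_subtype, cycTI_NC]
    refine Finset.card_bij (fun p _ => cycTIhat hd p.1 p.2) (fun p hp => ?_)
      (fun p _ q _ e => Prod.ext ((cycTIhat_inj hd).mp e).1 ((cycTIhat_inj hd).mp e).2)
      fun ω hω => ⟨(resHat hd.le_left ω, resHat hd.le_right ω), by simpa using hω,
        cycTIhat_resHat hd ω⟩
    simpa [(resHat_cycTIhat hd p.1 p.2).1, (resHat_cycTIhat hd p.1 p.2).2] using hp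
  rcases small_cycTI_NC h (mem_CF_top.mpr hθ)
    (fun x hx => hθV ⟨x, hx.1⟩ (mem_cyclicTIset.mp hx).2.1 (mem_cyclicTIset.mp hx).2.2)
    (by rw [hNC, min_eq_left hlt.le]; exact hfew) _ _ h0 with hc | hc
  · refine Or.inl ⟨ω₀, _, fun ω => (hc _ _).trans (if_congr ?_ rfl rfl)⟩
    rw [resHat_mul_inv_eq_one_iff hd.le_right]
  · refine Or.inr ⟨ω₀, _, fun ω => (hc _ _).trans (if_congr ?_ rfl rfl)⟩
    rw [resHat_mul_inv_eq_one_iff hd.le_left]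

end Cfsg.Agent.S1507
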