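import Cfsg.Statements.S1510
-- import your own Cfsg.Agent.* helpers here

set_option autoImplicit false
open Cfsg

namespace Cfsg.Agent.S1510

/-- Let L be a finite group with a normal subgroup K and a nontrivial cyclic subgroup W₁ of order coprime to its index, K ⊓ W₁ = ⊥ and K ⊔ W₁ = ⊤; let W₂ ≠ ⊥ be a cyclic subgroup of K with K ⊓ C_L(x) = W₂ for every non-identity x ∈ W₁, and suppose W₁ ⊔ W₂ has odd order. Then (W₁, W₂) is a self-normalising cyclic pair in L. -/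
theorem result {L : Type*} [Group L] [Fintype L] (K W₁ W₂ : Subgroup L) [hK : K.Normal] (hKW₁ : K ⊓ W₁ = ⊥) (hKW₁' : K ⊔ W₁ = ⊤) (hW₁ : W₁ ≠ ⊥) (hW₁c : IsCyclic W₁) (hHall : Nat.Coprime (Nat.card W₁) W₁.index) (hW₂ : W₂ ≠ ⊥) (hW₂c : IsCyclic W₂) (hW₂K : W₂ ≤ K) (hC : ∀ x ∈ W₁, x ≠ 1 → K ⊓ Subgroup.centralizer ({x} : Set L) = W₂) (hodd : Odd (Nat.card ↥(W₁ ⊔ W₂))) : Cfsg.IsSelfNormalizingCyclic W₁ W₂ := by
  have hcomm : ∀ a ∈ W₁, ∀ b ∈ W₂, a * b = b * a := by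
    intro a ha b hb
    by_cases h1 : a = 1
    · simp [h1]
    · rw [← hC a ha h1] at hb
      exact (Subgroup.mem_centralizer_singleton_iff.mp hb.2).symm
  have hinf : W₁ ⊓ W₂ = ⊥ := by
    rw [eq_bot_iff, ← hKW₁]
    exact fun x hx => ⟨hW₂K hx.2, hx.1⟩
  have hcompl : Subgroup.IsComplement' K W₁ :=
    Subgroup.isComplement'_of_disjoint_and_mul_eq_univ (disjoint_iff.mpr hKW₁)
      (by rw [← Subgroup.normal_mul, hKW₁']; rfl)
  have hcop : (Nat.card W₁).Coprime (Nat.card W₂) := by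
    rw [hcompl.index_eq_card] at hHall
    exact hHall.coprime_dvd_right (Subgroup.card_dvd_of_le hW₂K)
  -- decomposition of elements of `W₁ ⊔ W₂`
  have hdec : ∀ x ∈ W₁ ⊔ W₂, ∃ a ∈ W₁, ∃ b ∈ W₂, x = a * b := by
    intro x hx
    have hnorm : W₂ ≤ Subgroup.normalizer (W₁ : Set L) := by
      rw [Subgroup.le_normalizer_iff]
      intro b hb a ha
      rw [← hcomm a ha b hb]
      simpa using ha
    have := Subgroup.coe_mul_of_right_le_normalizer_left W₁ W₂ hnorm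
    have hx' : x ∈ ((W₁ ⊔ W₂ : Subgroup L) : Set L) := hx
    rw [this] at hx'
    obtain ⟨a, ha, b, hb, rfl⟩ := hx'
    exact ⟨a, ha, b, hb, rfl⟩
  have hcyc : IsCyclic ↥(W₁ ⊔ W₂) := by
    obtain ⟨a, ha⟩ := (Subgroup.isCyclic_iff_exists_zpowers_eq_top W₁).mp hW₁c
    obtain ⟨b, hb⟩ := (Subgroup.isCyclic_iff_exists_zpowers_eq_top W₂).mp hW₂c
    have haW : a ∈ W₁ := ha ▸ Subgroup.mem_zpowers a
    have hbW : b ∈ W₂ := hb ▸ Subgroup.mem_zpowers b
    have hc : Commute a b := hcomm a haW b hbW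
    have hoa : orderOf a = Nat.card W₁ := by rw [← ha, Nat.card_zpowers]
    have hob : orderOf b = Nat.card W₂ := by rw [← hb, Nat.card_zpowers]
    rw [Subgroup.isCyclic_iff_exists_zpowers_eq_top]
    refine ⟨a * b, le_antisymm ?_ (sup_le ?_ ?_)⟩
    · rw [Subgroup.zpowers_le]
      exact mul_mem (Subgroup.mem_sup_left haW) (Subgroup.mem_sup_right hbW)
    · rw [← ha, Subgroup.zpowers_le]
      have h1 : (a * b) ^ orderOf b = a ^ orderOf b := by
        rw [hc.mul_pow, pow_orderOf_eq_one, mul_one]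
      obtain ⟨m, hm⟩ := exists_pow_eq_self_of_coprime (x := a) (n := orderOf b)
        (by rw [hoa, hob]; exact hcop.symm)
      have h2 := pow_mem (pow_mem (Subgroup.mem_zpowers (a * b)) (orderOf b)) m
      rwa [h1, hm] at h2
    · rw [← hb, Subgroup.zpowers_le]
      have h1 : (a * b) ^ orderOf a = b ^ orderOf a := by
        rw [hc.mul_pow, pow_orderOf_eq_one, one_mul]
      obtain ⟨m, hm⟩ := exists_pow_eq_self_of_coprime (x := b) (n := orderOf a)
        (by rw [hoa, hob]; exact hcop)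
      have h2 := pow_mem (pow_mem (Subgroup.mem_zpowers (a * b)) (orderOf a)) m
      rwa [h1, hm] at h2
  have hWcomm : ∀ x ∈ W₁ ⊔ W₂, ∀ y ∈ W₁ ⊔ W₂, x * y = y * x := by
    intro x hx y hy
    have := hcyc.isMulCommutative.is_comm.comm (⟨x, hx⟩ : ↥(W₁ ⊔ W₂)) ⟨y, hy⟩
    exact congrArg Subtype.val this
  refine ⟨hW₁, hW₂, hinf, hcomm, hcyc, ?_⟩
  intro X hX hXne
  have hle : W₁ ⊔ W₂ ≤ Subgroup.normalizer X := by
    rw [Subgroup.le_set_normalizer_iff]
    intro w hw x hx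
    rw [hWcomm w hw x (hX hx).1]
    simpa using hx
  refine le_antisymm ?_ hle
  intro g hg
  obtain ⟨x, hx⟩ := hXne
  have hg' : g ∈ ((K ⊔ W₁ : Subgroup L) : Set L) := by rw [hKW₁']; trivial
  rw [Subgroup.normal_mul] at hg'
  obtain ⟨k, hk, w, hw, rfl⟩ := hg'
  have hwN : w ∈ Subgroup.normalizer X := hle (Subgroup.mem_sup_left hw)
  have hkN : k ∈ Subgroup.normalizer X := by
    have := mul_mem hg (inv_mem hwN)
    simpa using this
  have hkx : k * x * k⁻¹ ∈ X := (Subgroup.mem_set_normalizer_iff.mp hkN x).mp hx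
  obtain ⟨a, ha, b, hb, e⟩ := hdec x (hX hx).1
  obtain ⟨a', ha', b', hb', e'⟩ := hdec _ (hX hkx).1
  have ha1 : a ≠ 1 := by
    rintro rfl
    apply (hX hx).2
    right
    rw [e, one_mul]
    exact hb
  have haa : a = a' := by
    have h1 : a⁻¹ * a' ∈ K ⊓ W₁ := by
      refine Subgroup.mem_inf.mpr ⟨?_, mul_mem (inv_mem ha) ha'⟩
      have h2 : a' = k * (a * b) * k⁻¹ * b'⁻¹ := by rw [← e, e']; group
      have h3 : a⁻¹ * a' = (a⁻¹ * k * a⁻¹⁻¹) * b * k⁻¹ * b'⁻¹ := by rw [h2]; group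
      rw [h3]
      exact mul_mem (mul_mem (mul_mem (hK.conj_mem k hk _) (hW₂K hb)) (inv_mem hk))
        (inv_mem (hW₂K hb'))
    rw [hKW₁, Subgroup.mem_bot] at h1
    exact inv_mul_eq_one.mp h1
  subst haa
  have hpow : ∀ b ∈ W₂, (a * b) ^ Nat.card W₂ = a ^ Nat.card W₂ := by
    intro b hb
    have hc : Commute a b := hcomm a ha b hb
    have : b ^ Nat.card W₂ = 1 :=
      congrArg Subtype.val (pow_card_eq_one' (G := W₂) (x := ⟨b, hb⟩))
    rw [hc.mul_pow, this, mul_one]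
  have hne : a ^ Nat.card W₂ ≠ 1 := by
    intro h
    apply ha1
    have h1 := orderOf_dvd_of_pow_eq_one h
    have h2 := Subgroup.orderOf_dvd_natCard _ ha
    have := Nat.dvd_gcd h2 h1
    rw [hcop] at this
    exact orderOf_eq_one_iff.mp (Nat.dvd_one.mp this)
  have hkW : k ∈ W₂ := by
    rw [← hC _ (pow_mem ha _) hne]
    refine ⟨hk, Subgroup.mem_centralizer_singleton_iff.mpr ?_⟩
    have h1 : (k * x * k⁻¹) ^ Nat.card W₂ = k * x ^ Nat.card W₂ * k⁻¹ := conj_pow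
    rw [e', hpow b' hb', e, hpow b hb] at h1
    calc k * a ^ Nat.card W₂ = (k * a ^ Nat.card W₂ * k⁻¹) * k := by group
      _ = a ^ Nat.card W₂ * k := by rw [← h1]
  exact mul_mem (Subgroup.mem_sup_right hkW) (Subgroup.mem_sup_left hw)

end Cfsg.Agent.S1510
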