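import Cfsg.Statements.S1511
import Cfsg.Agent.FT.PF4.Stmt

set_option autoImplicit false
open Cfsg

namespace Cfsg.Agent.S1511

/-- Let L be a finite group with K normal with complement W₁ ≠ 1 a cyclic Hall subgroup, and W₂ ≠ 1 a cyclic subgroup of K equal to C_K(x) for every non-identity x ∈ W₁, with W₁W₂ of odd order. Then there are a map μ from the linear characters of W = W₁ ⊔ W₂ to irreducible characters of L, injective, and a sign δ(ω) ∈ {1, −1} depending only on the values of ω on W₂, such that: for ω, ω' agreeing on W₂, the function induced to L from ω − ω' equals δ(ω) • (μ ω − μ ω'); μ ω x = δ(ω) ω x for x ∈ W outside W₂; every irreducible character of L not of the form μ ω vanishes on W outside W₂; and μ ω 1 − δ(ω) is an integer multiple of Nat.card W₁. -/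
theorem result {L : Type*} [Group L] [Fintype L] (K W₁ W₂ : Subgroup L) [hK : K.Normal] (hKW₁ : K ⊓ W₁ = ⊥) (hKW₁' : K ⊔ W₁ = ⊤) (hW₁ : W₁ ≠ ⊥) (hW₁c : IsCyclic W₁) (hHall : Nat.Coprime (Nat.card W₁) W₁.index) (hW₂ : W₂ ≠ ⊥) (hW₂c : IsCyclic W₂) (hW₂K : W₂ ≤ K) (hC : ∀ x ∈ W₁, x ≠ 1 → K ⊓ Subgroup.centralizer ({x} : Set L) = W₂) (hodd : Odd (Nat.card ↥(W₁ ⊔ W₂))) : ∃ (μ : (↥(W₁ ⊔ W₂) →* ℂˣ) → (L → ℂ)) (δ : (↥(W₁ ⊔ W₂) →* ℂˣ) → ℂ), Function.Injective μ ∧ (∀ ω, Cfsg.IsIrrCharacter L (μ ω)) ∧ (∀ ω, δ ω = 1 ∨ δ ω = -1) ∧ (∀ ω ω' : ↥(W₁ ⊔ W₂) →* ℂˣ, (∀ w : ↥(W₁ ⊔ W₂), (w : L) ∈ W₂ → ω w = ω' w) → δ ω = δ ω' ∧ Cfsg.indFun (W₁ ⊔ W₂) (fun w => (ω w : ℂ) - (ω' w : ℂ)) = δ ω • (μ ω - μ ω')) ∧ (∀ ω, ∀ w : ↥(W₁ ⊔ W₂), (w : L) ∉ W₂ → μ ω w = δ ω * (ω w : ℂ)) ∧ (∀ θ : L → ℂ, Cfsg.IsIrrCharacter L θ → (∀ ω, θ ≠ μ ω) → ∀ w : ↥(W₁ ⊔ W₂), (w : L) ∉ W₂ → θ w = 0) ∧ (∀ ω,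 ∃ n : ℤ, μ ω 1 - δ ω = n * (Nat.card W₁ : ℂ)) := by
  open Cfsg.Lib.FT in
  focus
    have h := primeTIHyp_top_of K W₁ W₂ hKW₁ hKW₁' hW₁ hW₁c hHall hW₂ hW₂c hW₂K hC hodd
    have hd := h.dprod
    refine ⟨fun ω => primeTIirr ⊤ (resHat hd.le_left ω) (resHat hd.le_right ω),
      fun ω => primeTIsign ⊤ W₁ (resHat hd.le_right ω), fun ω ω' e => ?_,
      fun ω => mem_Irr_top.mp (prTIirr_mem_Irr h _ _), fun ω => prTIsign_casesC _,
      fun ω ω' e => ?_, fun ω w hw => ?_, fun θ hθ hne w hw => ?_, fun ω => prTIirr1_mod h _ _⟩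
    · exact (resHat_inj hd).mp ((prTIirr_inj h).mp e)
    · have e2 := (resHat_eq_iff hd.le_right).mpr e
      refine ⟨by simp only [e2], ?_⟩
      simp only [← e2]
      rw [← cfInd_sub_prTIirr h, ind_top_eq_indFun]
      congr 1
      funext w
      rw [Pi.sub_apply, cycTIirr_resHat hd, e2, cycTIirr_resHat hd, linCF_coe, linCF_coe]
    · simp only
      rw [prTIirr_id h _ _ w.2 hw, cycTIirr_resHat hd, linCF_coe]
    · refine not_prTIirr_vanish h (mem_Irr_top.mpr hθ) (fun i j e => hne (cycTIhat hd i j) ?_) w.2 hw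
      simp only [(resHat_cycTIhat hd i j).1, (resHat_cycTIhat hd i j).2]
      exact e

end Cfsg.Agent.S1511
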