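import Cfsg.Statements.S1512
import Mathlib.GroupTheory.Perm.Cycle.Type

set_option autoImplicit false
open Cfsg

namespace Cfsg.Agent.S1512

/-- Let K be a normal subgroup of the finite group L and x a non-identity element whose order is coprime to the order of K, such that K ⊓ C_L(y) = W₂ for every non-identity element y of the cyclic group generated by x. Then the number of conjugacy classes of K mapped to themselves by conjugation by x is at most Nat.card W₂. -/
theorem result {L : Type*} [Group L] [Finite L] (K W₂ : Subgroup L) [hK : K.Normal] (x : L) (hx1 : x ≠ 1) (hx : Nat.Coprime (orderOf x) (Nat.card K)) (hC : ∀ y ∈ Subgroup.zpowers x, y ≠ 1 → K ⊓ Subgroup.centralizer ({y} : Set L) = W₂) : Nat.card {C : ConjClasses K // ConjClasses.map (MulEquiv.toMonoidHom ((MulAut.conjNormal x : MulAut K))) C = C} ≤ Nat.card W₂ := by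
  classical
  have hW : W₂ ≤ K := (hC x (Subgroup.mem_zpowers x) hx1) ▸ inf_le_left
  have ho : orderOf x ≠ 1 := fun h => hx1 (orderOf_eq_one_iff.mp h)
  obtain ⟨p, hp, hpo⟩ := Nat.exists_prime_and_dvd ho
  have := Fact.mk hp
  have ho0 : orderOf x ≠ 0 := (orderOf_pos x).ne'
  set m := orderOf x / p with hm
  have hy : orderOf (x ^ m) = p := orderOf_pow_orderOf_div ho0 hpo
  have hy1 : x ^ m ≠ 1 := fun h => hp.one_lt.ne' (by rw [← hy, h, orderOf_one])
  have hpK : ¬ p ∣ Nat.card K := fun h => hp.one_lt.ne' (Nat.eq_one_of_dvd_coprimes hx hpo h)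
  have key : ∀ C : ConjClasses K, ConjClasses.map
      (MulEquiv.toMonoidHom ((MulAut.conjNormal x : MulAut K))) C = C →
      ∃ w : W₂, ConjClasses.mk (Subgroup.inclusion hW w) = C := by
    intro C hfix
    obtain ⟨c, rfl⟩ := ConjClasses.mk_surjective C
    have h1 : ∀ k : K, IsConj c k → IsConj c ((MulAut.conjNormal x : MulAut K) k) := fun k hk =>
      (ConjClasses.mk_eq_mk_iff_isConj.mp hfix).symm.trans
        ((MulEquiv.toMonoidHom (MulAut.conjNormal x : MulAut K)).map_isConj hk)
    have h2 : ∀ (n : ℕ) (k : K), IsConj c k →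
        IsConj c ((MulAut.conjNormal (x ^ n) : MulAut K) k) := by
      intro n
      induction n with
      | zero => intro k hk; simpa using hk
      | succ n ih =>
        intro k hk
        rw [pow_succ', map_mul]
        exact h1 _ (ih k hk)
    have h3 : ∀ k : K, IsConj c ((MulAut.conjNormal (x ^ m) : MulAut K) k) ↔ IsConj c k := by
      intro k
      refine ⟨fun hk => ?_, h2 m k⟩
      have := h2 (m * (p - 1)) _ hk
      rwa [← MulAut.mul_apply, ← map_mul, pow_mul, ← pow_succ, Nat.sub_add_cancel hp.one_le,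
        ← hy, pow_orderOf_eq_one, map_one, MulAut.one_apply] at this
    have := Fintype.ofFinite K
    let τ : Equiv.Perm K := MulAut.toPerm K (MulAut.conjNormal (x ^ m))
    have hτ : τ ^ p = 1 := by
      rw [← map_pow, ← map_pow, ← hy, pow_orderOf_eq_one, map_one, map_one]
    have h4 : ∀ k : K, IsConj c (τ k) ↔ IsConj c k := h3
    let σ : Equiv.Perm {k : K // IsConj c k} := τ.subtypePerm h4
    have hσ : σ ^ p ^ 1 = 1 := by
      rw [pow_one, show σ = τ.subtypePerm h4 from rfl, Equiv.Perm.subtypePerm_pow]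
      ext k
      simp [hτ]
    have hcard : ¬ p ∣ Fintype.card {k : K // IsConj c k} := by
      intro h
      apply hpK
      have e := MulAction.card_orbit_mul_card_stabilizer_eq_card_group (ConjAct K) c
      have e2 : Fintype.card (MulAction.orbit (ConjAct K) c) =
          Fintype.card {k : K // IsConj c k} := by
        refine Fintype.card_congr (Equiv.subtypeEquivRight fun k => ?_)
        rw [ConjAct.mem_orbit_conjAct, isConj_comm]
      rw [Nat.card_eq_fintype_card, ← ConjAct.card, ← e, e2]
      exact h.mul_right _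
    obtain ⟨⟨k, hk⟩, hfixk⟩ := Equiv.Perm.exists_fixed_point_of_prime hcard hσ
    have hk' : x ^ m * k * (x ^ m)⁻¹ = k := congrArg (fun t => ((t.1 : K) : L)) hfixk
    have hkW : (k : L) ∈ W₂ := by
      rw [← hC (x ^ m) (Subgroup.npow_mem_zpowers x m) hy1]
      refine ⟨k.2, Subgroup.mem_centralizer_singleton_iff.mpr ?_⟩
      rw [mul_inv_eq_iff_eq_mul] at hk'
      exact hk'.symm
    exact ⟨⟨k, hkW⟩, (ConjClasses.mk_eq_mk_iff_isConj.mpr hk).symm⟩
  choose f hf using key
  refine Nat.card_le_card_of_injective (fun C => f C.1 C.2) fun C C' e => Subtype.ext ?_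
  rw [← hf C.1 C.2, ← hf C'.1 C'.2]
  exact congrArg (fun w => ConjClasses.mk (Subgroup.inclusion hW w)) e

end Cfsg.Agent.S1512
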