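import Cfsg.Statements.S1513
import Cfsg.Agent.FT.PF4.Stmt

set_option autoImplicit false
open Cfsg

namespace Cfsg.Agent.S1513

/-- Let L be a finite group with K normal with complement W₁ ≠ 1 a cyclic Hall subgroup, and W₂ ≠ 1 a cyclic subgroup of K equal to C_K(x) for every non-identity x ∈ W₁, with W₁W₂ of odd order. For an irreducible character θ of K: if θ is not fixed under conjugation by some element of W₁, then the function induced from θ to L is an irreducible character of L; and the irreducible characters of K fixed by all of W₁ are exactly Nat.card W₂ in number, each inducing to the sum of Nat.card W₁ pairwise distinct irreducible characters of L. -/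
theorem result {L : Type*} [Group L] [Fintype L] (K W₁ W₂ : Subgroup L) [hK : K.Normal] (hKW₁ : K ⊓ W₁ = ⊥) (hKW₁' : K ⊔ W₁ = ⊤) (hW₁ : W₁ ≠ ⊥) (hW₁c : IsCyclic W₁) (hHall : Nat.Coprime (Nat.card W₁) W₁.index) (hW₂ : W₂ ≠ ⊥) (hW₂c : IsCyclic W₂) (hW₂K : W₂ ≤ K) (hC : ∀ x ∈ W₁, x ≠ 1 → K ⊓ Subgroup.centralizer ({x} : Set L) = W₂) (hodd : Odd (Nat.card ↥(W₁ ⊔ W₂))) : (∀ θ : K → ℂ, Cfsg.IsIrrCharacter K θ → (∃ x ∈ W₁, (fun k : K => θ ⟨x * k * x⁻¹, hK.conj_mem (k : L) k.2 x⟩) ≠ θ) → Cfsg.IsIrrCharacter L (Cfsg.indFun K θ)) ∧ Nat.card {θ : Cfsg.IrrCharacter K // ∀ x ∈ W₁, (fun k : K => (θ : K → ℂ) ⟨x * k * x⁻¹, hK.conj_mem (k : L) k.2 x⟩) = θ} = Nat.card W₂ ∧ (∀ θ : K → ℂ, Cfsg.IsIrrCharacter K θ → (∀ x ∈ W₁, (fun k : K => θ ⟨x * k * x⁻¹, hK.conj_mem (k : L) k.2 x⟩) = θ) → ∃ C : Finset (L → ℂ), C.card = Nat.card W₁ ∧ (∀ μ ∈ C, Cfsg.IsIrrCharacter L μ) ∧ Cfsg.indFun K θ = ∑ μ ∈ C, μ) := by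
  open Cfsg.Lib.FT in
  focus
    have h := primeTIHyp_top_of K W₁ W₂ hKW₁ hKW₁' hW₁ hW₁c hHall hW₂ hW₂c hW₂K hC hodd
    have key : ∀ θ : K → ℂ, IsIrrCharacter K θ →
        ((∀ x ∈ W₁, (fun k : K => θ ⟨x * k * x⁻¹, hK.conj_mem (k : L) k.2 x⟩) = θ) ↔
          ∃ j : Hat W₂, extendByZero K θ = primeTIres ⊤ K W₁ j) := fun θ hθ => by
      rw [← prTIres_iff_W₁_le_inertia h (extendByZero_mem_Irr.mpr hθ)]
      exact forall₂_congr fun x _ => (mem_inertia_extendByZero θ x).symm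
    refine ⟨fun θ hθ ⟨x, hx, hne⟩ => ?_, ?_, fun θ hθ hfix => ?_⟩
    · rcases prTIres_irr_cases h (extendByZero_mem_Irr.mpr hθ) with hj | hj
      · exact absurd ((key θ hθ).mpr hj x hx) hne
      · rw [← ind_extendByZero_top]
        exact mem_Irr_top.mp hj.1
    · have hres : ∀ j : Hat W₂, extendByZero K (fun k : K => primeTIres ⊤ K W₁ j k) =
          primeTIres ⊤ K W₁ j := fun j => by
        rw [extendByZero_res, res_id (irr_cf (prTIres_mem_Irr h j))]
      have hirr : ∀ j : Hat W₂, IsIrrCharacter K (fun k : K => primeTIres ⊤ K W₁ j k) :=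
        fun j => (mem_Irr.mp (prTIres_mem_Irr h j)).2
      rw [← (prime_cycTIhyp h).card_Hat₂, ← Nat.card_eq_fintype_card]
      symm
      refine Nat.card_eq_of_bijective
        (fun j => ⟨⟨_, hirr j⟩, (key _ (hirr j)).mpr ⟨j, hres j⟩⟩) ⟨fun j j' e => ?_, ?_⟩
      · apply prTIres_inj h
        rw [← hres j, ← hres j']
        exact congrArg (fun t => extendByZero K t.1.1) e
      · rintro ⟨⟨θ, hθ⟩, hfix⟩
        obtain ⟨j, hj⟩ := (key θ hθ).mp hfix
        refine ⟨j, Subtype.ext (Subtype.ext ?_)⟩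
        funext k
        simp only [← hj, extendByZero_coe']
    · obtain ⟨j, hj⟩ := (key θ hθ).mp hfix
      have hinj : Function.Injective fun i : Hat W₁ => primeTIirr ⊤ i j :=
        fun i i' e => ((prTIirr_inj h).mp e).1
      refine ⟨Finset.univ.map ⟨_, hinj⟩, ?_, fun μ hμ => ?_, ?_⟩
      · rw [Finset.card_map, Finset.card_univ, (prime_cycTIhyp h).card_Hat₁]
      · obtain ⟨i, -, rfl⟩ := Finset.mem_map.mp hμ
        exact mem_Irr_top.mp (prTIirr_mem_Irr h i j)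
      · rw [← ind_extendByZero_top, hj, cfInd_prTIres h, Finset.sum_map]
        rfl

end Cfsg.Agent.S1513
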