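import Cfsg.Statements.S1514
import Cfsg.Agent.FT.CohBridge

set_option autoImplicit false
open Cfsg

namespace Cfsg.Agent.S1514

/-- Let S be a nonempty set of irreducible characters of the finite group L, closed under complex conjugation and containing no real-valued member, and τ a linear isometry on the integer combinations of S vanishing at 1, with values virtual characters of G vanishing at 1. Then there is a choice R making (S, τ, R) a coherence system. -/
theorem result {L : Type*} [Group L] [Fintype L] {G : Type*} [Group G] [Fintype G] (S : Set (L → ℂ)) (hS : S.Nonempty) (hirr : ∀ χ ∈ S, Cfsg.IsIrrCharacter L χ) (hconj : ∀ χ ∈ S, Cfsg.conjFun χ ∈ S ∧ Cfsg.conjFun χ ≠ χ) (τ : (L → ℂ) → (G → ℂ)) (hτ : Cfsg.IsLinearIsometryOn (Cfsg.zspanOn S {1}ᶜ) τ) (hτ1 : ∀ α ∈ Cfsg.zspanOn S {1}ᶜ, τ α 1 = 0) : ∃ R : (L → ℂ) → Finset (G → ℂ), Cfsg.IsCoherenceSystem S τ R := by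
  open Cfsg.Lib.FT Cfsg.Lib.Solv Pointwise in
  · have hsub : S ⊆ (Irr (⊤ : Subgroup L) : Set (L → ℂ)) := fun χ hχ => mem_Irr_top.2 (hirr χ hχ)
    lift S to Finset (L → ℂ) using (Finset.finite_toSet _).subset hsub
    obtain ⟨ν, hν, hiso, hvc⟩ := linIso_exists_linear hτ
    obtain ⟨R, hR⟩ := irr_subcoherent (L := ⊤) (T := ⊤) (S := S) (τ := ν)
      ⟨hsub, fun χ hχ => (hconj χ hχ).1⟩ (fun χ hχ => (hconj χ hχ).2) hiso
      (fun φ hφ => mem_VCon_compl_one.2 ⟨hvc φ hφ, by rw [hν φ hφ]; exact hτ1 φ hφ⟩)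
    exact ⟨R, coherenceSystem_of_subcoherent hS hτ hν hR⟩

end Cfsg.Agent.S1514
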