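import Cfsg.Statements.S1515
import Cfsg.Agent.FT.CohBridge

set_option autoImplicit false
open Cfsg

namespace Cfsg.Agent.S1515

/-- Let (S, τ, R) be a coherence system from L to G, χ ∈ S, and ψ an integer combination of S with ⟨χ, ψ⟩ = ⟨conj χ, ψ⟩ = 0. Let τ₁ be a linear isometry on the integer combinations of χ − ψ and χ − conj χ, with virtual-character values, agreeing with τ on integer multiples of χ − conj χ. Then the sum over α ∈ R χ of the squared absolute values of ⟨τ₁(χ − ψ), α⟩ is at least ⟨χ, χ⟩; and if ⟨τ₁(χ − ψ), τ₁(χ − ψ)⟩ minus that sum is at least ⟨ψ, ψ⟩, then the sum equals ⟨χ, χ⟩ and every ⟨τ₁(χ − ψ), α⟩ with α ∈ R χ is 0 or 1. -/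
theorem result {L : Type*} [Group L] [Fintype L] {G : Type*} [Group G] [Fintype G] (S : Set (L → ℂ)) (τ : (L → ℂ) → (G → ℂ)) (R : (L → ℂ) → Finset (G → ℂ)) (hS : Cfsg.IsCoherenceSystem S τ R) (χ : L → ℂ) (hχ : χ ∈ S) (ψ : L → ℂ) (hψ : ψ ∈ Cfsg.zspan S) (h1 : Cfsg.classInner χ ψ = 0) (h2 : Cfsg.classInner (Cfsg.conjFun χ) ψ = 0) (τ₁ : (L → ℂ) → (G → ℂ)) (hτ₁ : Cfsg.IsLinearIsometryOn (Cfsg.zspan {χ - ψ, χ - Cfsg.conjFun χ}) τ₁) (hagree : ∀ n : ℤ, τ₁ (n • (χ - Cfsg.conjFun χ)) = τ (n • (χ - Cfsg.conjFun χ))) : (Cfsg.classInner χ χ).re ≤ ∑ α ∈ R χ, ‖Cfsg.classInner (τ₁ (χ - ψ)) α‖ ^ 2 ∧ ((Cfsg.classInner ψ ψ).re ≤ (Cfsg.classInner (τ₁ (χ - ψ)) (τ₁ (χ - ψ))).re - ∑ α ∈ R χ, ‖Cfsg.classInner (τ₁ (χ - ψ)) α‖ ^ 2 → (∑ α ∈ R χ, ‖Cfsg.classInner (τ₁ (χ - ψ)) α‖ ^ 2 = (Cfsg.classInner χ χ).re ∧ ∀ α ∈ R χ, Cfsg.classInner (τ₁ (χ - ψ)) α = 0 ∨ Cfsg.classInner (τ₁ (χ - ψ))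 α = 1)) := by
  open Cfsg.Lib.FT Cfsg.Lib.Solv Pointwise in
  · obtain ⟨S', τ', rfl, h3, hs⟩ := coherenceSystem_exists hS
    have m1 : χ - ψ ∈ zspan {χ - ψ, χ - conjFun χ} := Submodule.subset_span (by simp)
    have m2 : χ - conjFun χ ∈ zspan {χ - ψ, χ - conjFun χ} := Submodule.subset_span (by simp)
    have e2 : τ₁ (χ - conjFun χ) = τ' (χ - cj χ) := by
      have := hagree 1
      rw [one_smul] at this
      rw [this]
      exact (h3 _ (hs.sub_cj_mem hχ)).symm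
    have hO := hs.R_orthoN χ hχ
    set β := τ₁ (χ - ψ) with hβ
    have hβv : β ∈ VC ⊤ := linIso_vc hτ₁ _ m1
    have hY : ∀ α ∈ R χ, dot ⊤ (∑ α ∈ R χ, dot ⊤ β α • α - β) α = 0 := fun α hα => by
      rw [← neg_sub, dot_neg_left, hO.dot_sub_proj β hα, neg_zero]
    have hX : ∑ α ∈ R χ, dot ⊤ β α • α ∈ Submodule.span ℂ (R χ : Set (G → ℂ)) :=
      Submodule.sum_mem _ fun α hα => Submodule.smul_mem _ _ (Submodule.subset_span hα)
    have hXY := dot_eq_zero_comm.1 (dot_eq_zero_of_mem_span_right hY hX)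
    have e : ∑ α ∈ R χ, dot ⊤ β α • α - (∑ α ∈ R χ, dot ⊤ β α • α - β) = β := by abel
    obtain ⟨a1, a2⟩ := subcoherent_norm' (ψ := ψ) hs hχ (by rw [dot_top_eq_classInner]; exact h1)
      (by rw [dot_top_eq_classInner]; exact h2) (e.symm ▸ hβv)
      (by rw [e]; exact linIso_dot hτ₁ _ m1 _ m1) (by rw [e, ← e2]; exact linIso_dot hτ₁ _ m1 _ m2)
      hXY hY
    have hB := hO.nrm_eq_sum_add β
    rw [nrm_sub_comm] at hB
    rw [hO.nrm_sum_smul] at a1 a2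
    simp only [← dot_top_eq_classInner]
    refine ⟨a1, fun h => ?_⟩
    obtain ⟨b1, -, E, hE, b3⟩ := a2 (by unfold nrm at hB ⊢; linarith)
    refine ⟨b1, fun α hα => ?_⟩
    rw [← hO.dot_sum_smul (fun α => dot ⊤ β α) hα, b3]
    by_cases hαE : α ∈ E
    · exact Or.inr ((hO.mono (Finset.coe_subset.2 hE)).dot_sum_self hαE)
    · left
      rw [dot_sum_left]
      exact Finset.sum_eq_zero fun γ hγ => hO.2 γ (hE hγ) α hα fun h => hαE (h ▸ hγ)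

end Cfsg.Agent.S1515
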