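import Cfsg.Statements.S1516
import Cfsg.Agent.FT.CohBridge

set_option autoImplicit false
open Cfsg

namespace Cfsg.Agent.S1516

/-- Let (S, τ, R) be a coherence system from L to G with degrees φ 1 = d φ and squared norms ⟨φ, φ⟩ = n φ for φ ∈ S. Let S₁ ⊆ S be a finite subset closed under complex conjugation such that (S₁, L minus 1, τ) is coherent, let χ ∈ S with χ ∉ S₁ and conj χ ∉ S₁, and let χ₁ ∈ S₁ with d χ₁ dividing d χ and 2 d χ d χ₁ < Σ_{φ ∈ S₁} (d φ)² / n φ. Then S₁ together with χ and conj χ is coherent. -/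
theorem result {L : Type*} [Group L] [Fintype L] {G : Type*} [Group G] [Fintype G] (S : Set (L → ℂ)) (τ : (L → ℂ) → (G → ℂ)) (R : (L → ℂ) → Finset (G → ℂ)) (hS : Cfsg.IsCoherenceSystem S τ R) (d n : (L → ℂ) → ℕ) (hd : ∀ φ ∈ S, φ 1 = (d φ : ℂ)) (hn : ∀ φ ∈ S, Cfsg.classInner φ φ = (n φ : ℂ)) (S₁ : Finset (L → ℂ)) (hS₁ : ↑S₁ ⊆ S) (hS₁c : ∀ φ ∈ S₁, Cfsg.conjFun φ ∈ S₁) (hcoh : Cfsg.IsCoherent (↑S₁ : Set (L → ℂ)) {1}ᶜ τ) (χ : L → ℂ) (hχ : χ ∈ S) (hχ₁ : χ ∉ S₁) (hχ₂ : Cfsg.conjFun χ ∉ S₁) (χ₁ : L → ℂ) (hχ₁S : χ₁ ∈ S₁) (hdvd : d χ₁ ∣ d χ) (hineq : (2 * d χ * d χ₁ : ℝ) < ∑ φ ∈ S₁, ((d φ : ℝ) ^ 2 / (n φ : ℝ))) : Cfsg.IsCoherent (↑S₁ ∪ {χ, Cfsg.conjFun χ} : Set (L → ℂ)) {1}ᶜ τ := by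
  open Cfsg.Lib.FT Cfsg.Lib.Solv Pointwise in
  · obtain ⟨S', τ', rfl, h1, h2⟩ := coherenceSystem_exists hS
    have hc : CjSubset S₁ S' := ⟨hS₁, hS₁c⟩
    have hd' : ∀ φ ∈ S', deg φ = d φ := fun φ hφ => deg_eq_of (hd φ hφ)
    have hn' : ∀ φ ∈ S', nrm ⊤ φ = n φ := fun φ hφ => by
      rw [nrm_eq_natCast_iff, dot_top_eq_classInner, hn φ hφ]
    have h3 := extend_coherent h2 hc
      (coherent_of_isCoherent hcoh fun α hα => h1 α (zson_mono hS₁ hα)) hχ₁S hχ hχ₁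
      (by rw [hd' _ hχ, hd' _ (hS₁ hχ₁S)]; exact hdvd) (by
        rw [hd' _ hχ, hd' _ (hS₁ hχ₁S),
          Finset.sum_congr rfl fun φ hφ => by rw [hd' _ (hS₁ hφ), hn' _ (hS₁ hφ)]]
        exact hineq)
    have e : (↑S₁ ∪ {χ, Cfsg.conjFun χ} : Set (L → ℂ)) = ↑(insert χ (insert (cj χ) S₁)) := by
      ext φ
      simp only [Set.mem_union, Set.mem_insert_iff, Set.mem_singleton_iff, Finset.coe_insert,
        cj_eq_conjFun]
      tauto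
    have hc' : CjSubset (insert χ (insert (cj χ) S₁)) S' := by
      have := (cjSubset_pair hχ (h2.cjClosed χ hχ)).union hc
      rwa [Finset.insert_union, ← Finset.insert_eq] at this
    rw [e]
    exact isCoherent_of_coherent h3 (fun α hα => h1 α (zson_mono (Finset.coe_subset.2 hc'.sub) hα))
      (h2.exists_ne_zero hc' (Finset.insert_nonempty _ _))

end Cfsg.Agent.S1516
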