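import Cfsg.Statements.S1518
import Cfsg.Agent.FT.CF
import Cfsg.Agent.S1500
import Cfsg.Agent.S1501

set_option autoImplicit false
open Cfsg

namespace Cfsg.Agent.S1518

/-- Under the Dade hypothesis for (A, L, H): if χ is an irreducible character of L vanishing at every non-identity element of L outside A, then the Dade image of χ − conj χ equals μ − conj μ for some irreducible character μ of G. -/
theorem result {G : Type*} [Group G] [Fintype G] (A : Set G) (L : Subgroup G) [Fintype L] (H : G → Subgroup G) (hD : Cfsg.DadeHypothesis A L H) (χ : L → ℂ) (hχ : Cfsg.IsIrrCharacter L χ) (hsupp : ∀ x : L, x ≠ 1 → (x : G) ∉ A → χ x = 0) : ∃ μ : G → ℂ, Cfsg.IsIrrCharacter G μ ∧ Cfsg.dadeIsometry A L H (χ - Cfsg.conjFun χ) = μ - Cfsg.conjFun μ := by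
  open Cfsg.Lib.FT Cfsg.Lib.Solv Pointwise in
  · have hχ' := mem_Irr_top.2 hχ
    by_cases hr : cj χ = χ
    · refine ⟨_, mem_Irr_top.1 (cf1_mem_Irr ⊤), ?_⟩
      rw [← cj_eq_conjFun, ← cj_eq_conjFun, hr, cfAut_cf1, sub_self, sub_self]
      funext g
      simp [dadeIsometry]
    have hv : χ - conjFun χ ∈ VC (⊤ : Subgroup L) :=
      Submodule.sub_mem _ (irr_vchar hχ') (irr_vchar (cj_mem_Irr hχ'))
    have h0 : ∀ x : L, (x : G) ∉ A → (χ - conjFun χ) x = 0 := fun x hx => by
      by_cases h1 : x = 1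
      · rw [h1, Pi.sub_apply, sub_eq_zero]
        exact (irr_char hχ').conj_one.symm
      · simp [conjFun, hsupp x h1 hx]
    have hc := mem_CF_top.1 (vchar_cf hv)
    have h2 := (S1500.result A L H hD _ hc h0).1 _ hc h0
    have h3 := mem_VC_top.2 (S1501.result A L H hD _ (mem_VC_top.1 hv) h0)
    have h4 : dadeIsometry A L H (χ - conjFun χ) 1 = 0 := by
      unfold dadeIsometry
      rw [dif_neg]
      rintro ⟨a, ha, x, u, hu, e⟩
      rw [mul_one, mul_inv_cancel, eq_comm, mul_eq_one_iff_eq_inv] at e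
      have : (a : G) ∈ H a ⊓ (L ⊓ Subgroup.centralizer {(a : G)}) :=
        ⟨e ▸ (H a).inv_mem hu, a.2, Subgroup.mem_centralizer_singleton_iff.2 rfl⟩
      rw [hD.inf_eq_bot a ha, Subgroup.mem_bot] at this
      exact hD.one_not_mem (this ▸ ha)
    have h5 : cj (dadeIsometry A L H (χ - conjFun χ)) = - dadeIsometry A L H (χ - conjFun χ) := by
      funext g
      rw [cj_apply, Pi.neg_apply]
      unfold dadeIsometry
      split_ifs <;> simp [conjFun]
    obtain ⟨α, hα, β, hβ, hne, e⟩ := vchar_norm2 h3 h4 (nrm_eq_natCast_iff (n := 2) |>.2 (by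
      rw [dot_top_eq_classInner, h2, ← dot_top_eq_classInner, ← cj_eq_conjFun, dot_sub_left,
        dot_sub_right, dot_sub_right, dot_irr_self hχ', dot_irr_self (cj_mem_Irr hχ'),
        dot_irr_of_ne hχ' (cj_mem_Irr hχ') (Ne.symm hr), dot_irr_of_ne (cj_mem_Irr hχ') hχ' hr]
      norm_num))
    rw [e, map_sub, neg_sub] at h5
    refine ⟨α, mem_Irr_top.1 hα, ?_⟩
    rw [e, ← cj_eq_conjFun, (irr_sub_eq_sub hβ hα (cj_mem_Irr hα) (cj_mem_Irr hβ) hne.symm h5.symm).1]

end Cfsg.Agent.S1518
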