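import Cfsg.Statements.S1519
import Cfsg.Agent.FT.CohBridge

set_option autoImplicit false
open Cfsg

namespace Cfsg.Agent.S1519

/-- Let K be a solvable normal subgroup of the finite group L and (S, τ, R) a coherence system from L to G where S is the set of functions induced from non-principal irreducible characters of K; write S(A) for those induced from characters whose kernel contains A. Let A, B, C, D be normal subgroups of L with A < K, B < K, B ≤ D ≤ C ≤ K and every commutator of D with C in B. If S(A) is coherent and 4 * [L:C]^2 * [C:D] < ([K:A] − 1)^2, then S(B) is coherent. -/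
theorem result {L : Type*} [Group L] [Fintype L] {G : Type*} [Group G] [Fintype G] (K : Subgroup L) [hK : K.Normal] (hsolv : Group.IsSolvable K) (τ : (L → ℂ) → (G → ℂ)) (R : (L → ℂ) → Finset (G → ℂ)) (hS : Cfsg.IsCoherenceSystem (Cfsg.inducedIrrAbove K ⊥) τ R) (A B C D : Subgroup L) [A.Normal] [B.Normal] [C.Normal] [D.Normal] (hAK : A < K) (hBK : B < K) (hBD : B ≤ D) (hDC : D ≤ C) (hCK : C ≤ K) (hcent : ∀ x ∈ D, ∀ y ∈ C, x * y * x⁻¹ * y⁻¹ ∈ B) (hA : Cfsg.IsCoherent (Cfsg.inducedIrrAbove K A) {1}ᶜ τ) (hlt : 4 * C.index ^ 2 * D.relIndex C < (A.relIndex K - 1) ^ 2) : Cfsg.IsCoherent (Cfsg.inducedIrrAbove K B) {1}ᶜ τ := by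
  open Cfsg.Lib.FT Cfsg.Lib.Solv Pointwise in
  · obtain ⟨τ', h1, -, h2, h3⟩ := inducedIrrAbove_setup hS
    have nK : K ⊲ ⊤ := normal_top_iff.2 hK
    have nt : ∀ X : Subgroup L, X.Normal → X ⊲ ⊤ := fun X h => normal_top_iff.2 h
    obtain ⟨φ, hφ, -⟩ := exists_linInd nK hsolv hBK (le_top.trans (nt B ‹_›).norm)
    refine h3 B hBK.le ⟨φ, hφ⟩ ((coherent_seqIndD_bound nK hsolv h1 (nt A ‹_›) (nt B ‹_›) (nt C ‹_›)
      (nt D ‹_›) hAK hBD hDC hCK (Subgroup.commutator_le.2 hcent) (h2 A hAK.le hA)).resolve_right ?_)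
    rw [Subgroup.relIndex_top_right, not_le]
    have h4 : ((4 * C.index ^ 2 * D.relIndex C : ℕ) : ℝ) < ((A.relIndex K - 1) ^ 2 : ℕ) :=
      Nat.cast_lt.2 hlt
    rw [Nat.cast_pow, Nat.cast_sub (relIndex_pos A K)] at h4
    push_cast at h4
    refine lt_of_pow_lt_pow_left₀ 2 ?_ ?_
    · have : (1 : ℝ) ≤ A.relIndex K := Nat.one_le_cast.2 (relIndex_pos A K)
      linarith
    · rw [mul_pow, mul_pow, Real.sq_sqrt (Nat.cast_nonneg _)]
      linarith

end Cfsg.Agent.S1519
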