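import Cfsg.Statements.S1520
import Cfsg.Agent.FT.CohBridge

set_option autoImplicit false
open Cfsg

namespace Cfsg.Agent.S1520

/-- Let K be a solvable normal subgroup of the finite group L and (S, τ, R) a coherence system from L to G with S the functions induced from non-principal irreducible characters of K; S(A) the members of S induced from characters whose kernel contains A. Let M ≤ H₁ ≤ H ≤ K be normal subgroups of L such that every term of the lower central series of H eventually lies in M (H/M nilpotent), S(H₁) is coherent and [H:H₁] > 4 * [L:K]^2 + 1. Then S(M) is coherent. -/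
theorem result {L : Type*} [Group L] [Fintype L] {G : Type*} [Group G] [Fintype G] (K : Subgroup L) [hK : K.Normal] (hsolv : Group.IsSolvable K) (τ : (L → ℂ) → (G → ℂ)) (R : (L → ℂ) → Finset (G → ℂ)) (hS : Cfsg.IsCoherenceSystem (Cfsg.inducedIrrAbove K ⊥) τ R) (M H₁ H : Subgroup L) [M.Normal] [H₁.Normal] [H.Normal] (hMH₁ : M ≤ H₁) (hH₁H : H₁ ≤ H) (hHK : H ≤ K) [(M.subgroupOf H).Normal] (hnil : Group.IsNilpotent (↥H ⧸ M.subgroupOf H)) (hcoh : Cfsg.IsCoherent (Cfsg.inducedIrrAbove K H₁) {1}ᶜ τ) (hbig : 4 * K.index ^ 2 + 1 < H₁.relIndex H) : Cfsg.IsCoherent (Cfsg.inducedIrrAbove K M) {1}ᶜ τ := by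
  open Cfsg.Lib.FT Cfsg.Lib.Solv Pointwise in
  · obtain ⟨τ', h1, -, h2, h3⟩ := inducedIrrAbove_setup hS
    have nK : K ⊲ ⊤ := normal_top_iff.2 hK
    have nt : ∀ X : Subgroup L, X.Normal → X ⊲ ⊤ := fun X h => normal_top_iff.2 h
    have hlt : M < K := lt_of_le_of_ne (hMH₁.trans (hH₁H.trans hHK)) fun e => by
      have : H₁.relIndex H = 1 := Subgroup.relIndex_eq_one.2 (hHK.trans (e ▸ hMH₁))
      omega
    obtain ⟨φ, hφ, -⟩ := exists_linInd nK hsolv hlt (le_top.trans (nt M ‹_›).norm)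
    exact h3 M hlt.le ⟨φ, hφ⟩ (bounded_seqIndD_coherence nK hsolv h1 (nt M ‹_›) (nt H ‹_›) (nt H₁ ‹_›)
      hMH₁ hH₁H hHK (nilMod_of_quotient hnil) (h2 H₁ (hH₁H.trans hHK) hcoh)
      (by rwa [Subgroup.relIndex_top_right]))

end Cfsg.Agent.S1520
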