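import Cfsg.Statements.S1521
import Cfsg.Agent.FT.CohBridge

set_option autoImplicit false
open Cfsg

namespace Cfsg.Agent.S1521

/-- Let K be a solvable normal subgroup of the finite group L of odd order and (S, τ, R) a coherence system from L to G with S the functions induced from non-principal irreducible characters of K; S(A) as before. Let M ≤ K be normal in L with K/M nilpotent, H₁ = [K, K] ⊔ M, H₁ < K < L, and suppose every element of K outside H₁ is centralised modulo H₁ only from inside K (L/H₁ is a Frobenius group with kernel K/H₁). Suppose one of the following: some normal subgroup of L lies strictly between H₁ and K; or [K:H₁] > 4[L:K]^2 + 1; or [K:M] is not a prime power; or [K,K] ≤ M; or [K:M] is a power of a prime p with [L:K] dividing p − 1. Then S(M) is coherent. -/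
theorem result {L : Type*} [Group L] [Fintype L] {G : Type*} [Group G] [Fintype G] (K : Subgroup L) [hK : K.Normal] (hsolv : Group.IsSolvable K) (τ : (L → ℂ) → (G → ℂ)) (R : (L → ℂ) → Finset (G → ℂ)) (hS : Cfsg.IsCoherenceSystem (Cfsg.inducedIrrAbove K ⊥) τ R) (hodd : Odd (Nat.card L)) (M : Subgroup L) [M.Normal] (hMK : M ≤ K) [(M.subgroupOf K).Normal] (hnil : Group.IsNilpotent (↥K ⧸ M.subgroupOf K)) (H₁ : Subgroup L) (hH₁ : H₁ = ⁅K, K⁆ ⊔ M) (hH₁K : H₁ < K) (hKL : K < ⊤) (hfrob : ∀ k ∈ K, k ∉ H₁ → ∀ x : L, x * k * x⁻¹ * k⁻¹ ∈ H₁ → x ∈ K) (hgood : (∃ N : Subgroup L, N.Normal ∧ H₁ < N ∧ N < K) ∨ 4 * K.index ^ 2 + 1 < H₁.relIndex K ∨ (¬ ∃ p m : ℕ, p.Prime ∧ M.relIndex K = p ^ m) ∨ ⁅K, K⁆ ≤ M ∨ (∃ p m : ℕ, p.Prime ∧ M.relIndex K = p ^ m ∧ K.index ∣ p - 1)) : Cfsg.IsCoherent (Cfsg.inducedIrrAbove K M) {1}ᶜ τ := by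
  open Cfsg.Lib.FT Cfsg.Lib.Solv Pointwise in
  · obtain ⟨τ', h1, -, h2, h3⟩ := inducedIrrAbove_setup hS
    have nK : K ⊲ ⊤ := normal_top_iff.2 hK
    have nt : ∀ X : Subgroup L, X.Normal → X ⊲ ⊤ := fun X h => normal_top_iff.2 h
    subst hH₁
    have hlt : M < K := lt_of_le_of_lt le_sup_right hH₁K
    obtain ⟨φ, hφ, -⟩ := exists_linInd nK hsolv hlt (le_top.trans (nt M ‹_›).norm)
    have hF : OddFrobQuot K ⊤ M := ⟨by rwa [Subgroup.card_top], nt M ‹_›, hMK, nilMod_of_quotient hnil,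
      fun x hx hx' y _ hy => hfrob x hx hx' y hy⟩
    refine h3 M hMK ⟨φ, hφ⟩ ((non_coherent_chief nK hsolv h1 hF).resolve_right ?_)
    rintro ⟨c1, c2, p, hp, ⟨n, hn⟩, c3, c4⟩
    rw [Subgroup.relIndex_top_right] at c2 c4
    rcases hgood with ⟨N, hN, a1, a2⟩ | h | h | h | ⟨q, m, hq, a1, a2⟩
    · rcases c1.minimal N a1.le a2.le (nt N hN).norm with e | e
      · exact a1.ne' e
      · exact a2.ne e
    · omega
    · exact h ⟨p, n, hp, hn⟩
    · exact c3 h
    · have hn0 : n ≠ 0 := fun e => by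
        rw [e, pow_zero, Subgroup.relIndex_eq_one] at hn
        exact hlt.not_ge hn
      have : p ∣ q ^ m := by rw [← a1, hn]; exact dvd_pow_self p hn0
      rw [(Nat.prime_dvd_prime_iff_eq hp hq).1 (hp.dvd_of_dvd_pow this)] at c4
      exact c4 a2

end Cfsg.Agent.S1521
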