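import Cfsg.Statements.S1522
import Cfsg.Agent.FT.CohBridge

set_option autoImplicit false
open Cfsg

namespace Cfsg.Agent.S1522

/-- Let K be a nilpotent normal subgroup of the finite group L of odd order with [K,K] < K < L and L/[K,K] a Frobenius group with kernel K/[K,K] (elements of K outside [K,K] are centralised modulo [K,K] only from inside K); let (S, τ, R) be a coherence system from L to G with S the functions induced from non-principal irreducible characters of K. Let Z be a nontrivial normal subgroup of L contained in the centre of K, and suppose every member of S outside S(Z) is an irreducible character of L. Then S minus S(Z) is the set of irreducible characters χ of L with χ z ≠ χ 1 for some z ∈ Z, and it is coherent. -/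
theorem result {L : Type*} [Group L] [Fintype L] {G : Type*} [Group G] [Fintype G] (K : Subgroup L) [hK : K.Normal] (hsolv : Group.IsSolvable K) (τ : (L → ℂ) → (G → ℂ)) (R : (L → ℂ) → Finset (G → ℂ)) (hS : Cfsg.IsCoherenceSystem (Cfsg.inducedIrrAbove K ⊥) τ R) (hodd : Odd (Nat.card L)) (hnil : Group.IsNilpotent K) (hH₁K : ⁅K, K⁆ < K) (hKL : K < ⊤) (hfrob : ∀ k ∈ K, k ∉ ⁅K, K⁆ → ∀ x : L, x * k * x⁻¹ * k⁻¹ ∈ ⁅K, K⁆ → x ∈ K) (Z : Subgroup L) [Z.Normal] (hZ1 : Z ≠ ⊥) (hZK : Z ≤ K) (hZc : ∀ z ∈ Z, ∀ k ∈ K, z * k = k * z) (hirr : ∀ χ ∈ Cfsg.inducedIrrAbove K ⊥ \ Cfsg.inducedIrrAbove K Z, Cfsg.IsIrrCharacter L χ) : Cfsg.inducedIrrAbove K ⊥ \ Cfsg.inducedIrrAbove K Z = {χ | Cfsg.IsIrrCharacter L χ ∧ ∃ z ∈ Z, χ z ≠ χ 1} ∧ Cfsg.IsCoherent (Cfsg.inducedIrrAbove K ⊥ \ Cfsg.inducedIrrAbove K Z) {1}ᶜ τ := by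
  open Cfsg.Lib.FT Cfsg.Lib.Solv Pointwise in
  · obtain ⟨τ', h1, h2, -, -⟩ := inducedIrrAbove_setup hS
    have nK : K ⊲ ⊤ := normal_top_iff.2 hK
    have nZ : Z ⊲ ⊤ := normal_top_iff.2 ‹_›
    have e : inducedIrrAbove K ⊥ \ inducedIrrAbove K Z = ↑(seqIndD K ⊤ Z ⊥) := by
      rw [inducedIrrAbove_eq K bot_le, inducedIrrAbove_eq K hZK]
      ext φ
      simp only [Set.mem_sdiff, Finset.mem_coe]
      rw [mem_seqIndD_iff_cfker nK nK.norm (norms1 _) le_rfl bot_le,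
        mem_seqIndD_iff_cfker nK nK.norm nZ.norm le_rfl hZK,
        mem_seqIndD_iff_cfker nK nZ.norm (norms1 _) hZK bot_le]
      have : K ≤ cfker ⊤ φ → Z ≤ cfker ⊤ φ := hZK.trans
      tauto
    rw [e] at hirr ⊢
    have hF : OddFrobQuot K ⊤ ⊥ := ⟨by rwa [Subgroup.card_top], normal_top_iff.2 inferInstance, bot_le,
      nilMod_bot_iff.2 hnil, fun x hx hx' y _ hy => by
        rw [sup_bot_eq] at hx' hy
        exact hfrob x hx hx' y hy⟩
    obtain ⟨h3, h4⟩ := seqIndD_irr_coherence nK h1 hF nZ hZ1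
      (fun z hz => ⟨hZK hz, Subgroup.mem_centralizer_iff.2 fun k hk => (hZc z hz k hk).symm⟩)
      (fun χ hχ => mem_Irr_top.2 (hirr χ hχ))
    refine ⟨?_, h2 _ (seqInd_conjC_subset1 hZK) (seqIndD_nonempty ⟨hZK, le_top.trans nZ.norm⟩
      ⟨bot_le, norms1 _⟩ (bot_lt_iff_ne_bot.2 hZ1)) h4⟩
    ext χ
    rw [Finset.mem_coe, h3, Set.mem_ofPred_eq, ← mem_Irr_top]
    refine and_congr_right fun hχ => ?_
    rw [(irr_char hχ).le_cfker_iff le_top]
    push Not
    rfl

end Cfsg.Agent.S1522
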