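import Cfsg.Statements.S1524
import Cfsg.Agent.FT.CohFeit

set_option autoImplicit false
open Cfsg

namespace Cfsg.Agent.S1524

/-- Let G be a finite group and H ≤ L subgroups with L of odd order, H ≠ ⊥ nilpotent and normal in L with a nontrivial complement W₁ in L (H ⊓ W₁ = ⊥, H ⊔ W₁ = L) acting on H without non-identity fixed points (L is a Frobenius group with kernel H), and suppose the underlying set of H is a TI-subset of G whose normaliser is L. Let S be the set of functions on L induced from the non-principal irreducible characters of H. Then (S, L minus 1, induction to G) is coherent. -/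
theorem result {G : Type*} [Group G] [Fintype G] (H L W₁ : Subgroup G) [Fintype L] (hodd : Odd (Nat.card L)) (hHL : H ≤ L) (hW₁L : W₁ ≤ L) (hH1 : H ≠ ⊥) (hW1 : W₁ ≠ ⊥) (hnil : Group.IsNilpotent H) (hHn : ∀ x ∈ L, ∀ h ∈ H, x * h * x⁻¹ ∈ H) (hinf : H ⊓ W₁ = ⊥) (hsup : H ⊔ W₁ = L) (hfpf : ∀ w ∈ W₁, w ≠ 1 → ∀ h ∈ H, w * h = h * w → h = 1) (hTI : Cfsg.IsTISubset (H : Set G)) (hN : Subgroup.normalizer (H : Set G) = L) : Cfsg.IsCoherent (Cfsg.inducedIrrAbove (H.subgroupOf L) ⊥) {1}ᶜ (fun α : L → ℂ => Cfsg.indFun L α) := by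
  open Cfsg.Lib.FT Cfsg.Lib.Solv Pointwise in
  · have nH : H ⊲ L := ⟨hHL, normsP.2 hHn⟩
    have frob : IsFrobKer L H := ⟨W₁, SDProd.of_normal nH hsup hinf, hH1, hW1,
      Semiregular.of_forall fun w hw hw1 y hy e => hfpf w hw hw1 y hy e.symm⟩
    obtain ⟨χ, hχ⟩ := seqIndD_nonempty (L := L) (normal_refl H) (normal1 H) (bot_lt_iff_ne_bot.2 hH1)
    rw [inducedIrrAbove_subgroupOf hHL]
    exact isCoherent_ind_of_coherent (fun φ hφ => irr_cf (frob.seqIndD_irr le_rfl hφ))
      (Sibley_coherence_frob hodd hnil (hN ▸ normedTI_sharp_of_isTISubset hTI hH1) frob)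
      (exists_ne_zero_of_one_lt_card (frob.seqIndD_irr le_rfl) (seqInd_nontrivial nH hodd le_rfl hχ))

end Cfsg.Agent.S1524
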