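import Cfsg.Statements.S1526
import Cfsg.Agent.FT.PF7
import Cfsg.Agent.Solv.FpfThompson
import Cfsg.Agent.Inst.S0108

set_option autoImplicit false
open Cfsg

namespace Cfsg.Agent.S1526

open Cfsg.Lib.FT

/-- Let G be a finite group of odd order and (L i, H i), i in a finite index type with at least two elements, pairs of subgroups with H i a nontrivial proper normal subgroup of L i such that every non-identity element of H i has its centraliser within L i contained in H i (L i is a Frobenius group with kernel H i), the orders of the H i pairwise coprime, and the underlying set of each H i a TI-subset of G with normaliser L i. If every non-identity element of G is conjugate to an element of some H i, we reach a contradiction. -/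
theorem result {G : Type*} [Group G] [Finite G] (hodd : Odd (Nat.card G)) {ι : Type*} [Fintype ι] (hι : 2 ≤ Fintype.card ι) (L H : ι → Subgroup G) (hHL : ∀ i, H i < L i) (hH1 : ∀ i, H i ≠ ⊥) (hHn : ∀ i, ∀ x ∈ L i, ∀ h ∈ H i, x * h * x⁻¹ ∈ H i) (hfrob : ∀ i, ∀ h ∈ H i, h ≠ 1 → L i ⊓ Subgroup.centralizer ({h} : Set G) ≤ H i) (hcop : ∀ i j, i ≠ j → Nat.Coprime (Nat.card (H i)) (Nat.card (H j))) (hTI : ∀ i, Cfsg.IsTISubset (H i : Set G) ∧ Subgroup.normalizer (H i : Set G) = L i) (hcover : ∀ g : G, g ≠ 1 → ∃ i, ∃ x : G, x * g * x⁻¹ ∈ H i) : False := by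
  have frobL : ∀ i, IsFrobKer (L i) (H i) := fun i =>
    IsFrobKer.of_cent1 (hH1 i) (hHL i) ⟨(hHL i).le, fun x hx =>
      mem_normalizer_set.mpr (hHn i x hx)⟩ (hfrob i)
  have nilH : ∀ i, Group.IsNilpotent (H i) := fun i => by
    obtain ⟨E, hE⟩ := frobL i
    exact Cfsg.Lib.Solv.Fpf.isNilpotent_kernel hE.norm hE.compl_ne hE.regular
  obtain ⟨x, hx, h⟩ := Frobenius_partition hodd frobL nilH
    (fun i => (hTI i).2 ▸ normedTI_sharp_of_isTISubset (hTI i).1 (hH1 i)) hcop hι
  obtain ⟨i, y, hy⟩ := hcover x hx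
  exact h i (mem_classSupport_iff.mpr ⟨y, trivial, hy, fun e => hx (conjg_eq1.mp e)⟩)

end Cfsg.Agent.S1526
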