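import Cfsg.Statements.S1527
-- import your own Cfsg.Agent.* helpers here

set_option autoImplicit false
open Cfsg

namespace Cfsg.Agent.S1527

theorem card_conjugates_ti {G : Type*} [Group G] [Finite G] (H : Subgroup G)
    (hTI : IsTISubset (H : Set G)) :
    Nat.card {g : G // g ≠ 1 ∧ ∃ x : G, x * g * x⁻¹ ∈ H} =
      (Subgroup.normalizer (H : Set G)).index * (Nat.card H - 1) := by
  classical
  have h1 : Nat.card {h : H // h ≠ 1} = Nat.card H - 1 := by
    have := Fintype.ofFinite H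
    rw [Nat.card_eq_fintype_card, Nat.card_eq_fintype_card, Fintype.card_subtype_compl,
      Fintype.card_subtype_eq]
  rw [← h1, Subgroup.index, ← Nat.card_prod]
  symm
  let f : (G ⧸ Subgroup.normalizer (H : Set G)) × {h : H // h ≠ 1} →
      {g : G // g ≠ 1 ∧ ∃ x : G, x * g * x⁻¹ ∈ H} := fun c =>
    ⟨c.1.out * (c.2.1 : G) * (c.1.out)⁻¹, by
      constructor
      · intro h
        apply c.2.2
        apply Subtype.ext
        have : (c.2.1 : G) = (c.1.out)⁻¹ * (c.1.out * (c.2.1 : G) * (c.1.out)⁻¹) * c.1.out := by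
          group
        rw [this, h]; simp
      · refine ⟨(c.1.out)⁻¹, ?_⟩
        have : (c.1.out)⁻¹ * (c.1.out * (c.2.1 : G) * (c.1.out)⁻¹) * (c.1.out)⁻¹⁻¹ = c.2.1 := by
          group
        rw [this]; exact c.2.1.2⟩
  apply Nat.card_congr (Equiv.ofBijective f ⟨?_, ?_⟩)
  · rintro ⟨a, h⟩ ⟨b, k⟩ hab
    have e : a.out * (h.1 : G) * (a.out)⁻¹ = b.out * (k.1 : G) * (b.out)⁻¹ :=
      congrArg Subtype.val hab
    have e2 : (b.out⁻¹ * a.out) * (h.1 : G) * (b.out⁻¹ * a.out)⁻¹ = k.1 := by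
      calc _ = b.out⁻¹ * (a.out * (h.1 : G) * (a.out)⁻¹) * b.out := by group
        _ = _ := by rw [e]; group
    have hN : b.out⁻¹ * a.out ∈ Subgroup.normalizer (H : Set G) := by
      by_contra hN
      apply h.2
      apply Subtype.ext
      exact hTI _ hN _ h.1.2 (by rw [e2]; exact k.1.2)
    have hba : b = a := by
      rw [← b.out_eq', ← a.out_eq']
      exact QuotientGroup.eq.mpr hN
    subst hba
    have : (h.1 : G) = k.1 := by simpa using e2
    rw [Subtype.ext (Subtype.ext this : h.1 = k.1)]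
  · rintro ⟨g, hg1, x, hx⟩
    obtain ⟨n, hn⟩ := QuotientGroup.mk_out_eq_mul (Subgroup.normalizer (H : Set G)) x⁻¹
    have hm : (n : G)⁻¹ * (x * g * x⁻¹) * n ∈ H :=
      (Subgroup.mem_normalizer_iff''.1 n.2 _).1 hx
    refine ⟨(QuotientGroup.mk x⁻¹, ⟨⟨_, hm⟩, ?_⟩), ?_⟩
    · intro h
      apply hg1
      have h' : (n : G)⁻¹ * (x * g * x⁻¹) * n = 1 := congrArg Subtype.val h
      calc g = x⁻¹ * n * ((n : G)⁻¹ * (x * g * x⁻¹) * n) * (n : G)⁻¹ * x := by group
        _ = 1 := by rw [h']; group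
    · apply Subtype.ext
      simp only [f, hn]
      group

/-- Let G be a finite group and H i (i in a finite index type) subgroups of pairwise coprime orders, each of whose underlying sets is a TI-subset of G, such that every non-identity element of G is conjugate to an element of some H i. Then Nat.card G − 1 = Σ_i [G : N_G(H i)] · (Nat.card (H i) − 1). -/
theorem result {G : Type*} [Group G] [Finite G] {ι : Type*} [Fintype ι] (H : ι → Subgroup G) (hcop : ∀ i j, i ≠ j → Nat.Coprime (Nat.card (H i)) (Nat.card (H j))) (hTI : ∀ i, Cfsg.IsTISubset (H i : Set G)) (hcover : ∀ g : G, g ≠ 1 → ∃ i, ∃ x : G, x * g * x⁻¹ ∈ H i) : Nat.card G - 1 = ∑ i, (Subgroup.normalizer (H i : Set G)).index * (Nat.card (H i) - 1) := by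
  classical
  have h1 : Nat.card {g : G // g ≠ 1} = Nat.card G - 1 := by
    have := Fintype.ofFinite G
    rw [Nat.card_eq_fintype_card, Nat.card_eq_fintype_card, Fintype.card_subtype_compl,
      Fintype.card_subtype_eq]
  rw [← h1]
  simp_rw [← fun i => card_conjugates_ti (H i) (hTI i)]
  rw [← Nat.card_sigma]
  symm
  let f : (Σ i, {g : G // g ≠ 1 ∧ ∃ x : G, x * g * x⁻¹ ∈ H i}) → {g : G // g ≠ 1} :=
    fun c => ⟨c.2.1, c.2.2.1⟩
  apply Nat.card_congr (Equiv.ofBijective f ⟨?_, ?_⟩)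
  · rintro ⟨i, g, hg1, x, hx⟩ ⟨j, g', hg1', y, hy⟩ hab
    have e : g = g' := congrArg Subtype.val hab
    subst e
    have hij : i = j := by
      by_contra hij
      apply hg1
      have hi : orderOf g ∣ Nat.card (H i) := by
        have := (H i).orderOf_dvd_natCard hx
        rwa [← MulAut.conj_apply, MulEquiv.orderOf_eq] at this
      have hj : orderOf g ∣ Nat.card (H j) := by
        have := (H j).orderOf_dvd_natCard hy
        rwa [← MulAut.conj_apply, MulEquiv.orderOf_eq] at this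
      exact orderOf_eq_one_iff.mp (Nat.eq_one_of_dvd_coprimes (hcop i j hij) hi hj)
    subst hij
    rfl
  · rintro ⟨g, hg⟩
    obtain ⟨i, x, hx⟩ := hcover g hg
    exact ⟨⟨i, g, hg, x, hx⟩, rfl⟩

end Cfsg.Agent.S1527
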