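import Cfsg.Statements.S1528
import Cfsg.Agent.FT.CF

set_option autoImplicit false
open Cfsg

namespace Cfsg.Agent.S1528

/-- Let N be a normal subgroup of the finite group G such that every element of G commuting with a non-identity element of N lies in N. If χ is an irreducible character of G with χ n ≠ χ 1 for some n ∈ N, then χ is the function induced from some irreducible character of N. -/
theorem result {G : Type*} [Group G] [Fintype G] (N : Subgroup G) [N.Normal] (hC : ∀ n ∈ N, n ≠ 1 → Subgroup.centralizer ({n} : Set G) ≤ N) (χ : G → ℂ) (hχ : Cfsg.IsIrrCharacter G χ) (hker : ∃ n ∈ N, χ n ≠ χ 1) : ∃ φ : N → ℂ, Cfsg.IsIrrCharacter N φ ∧ χ = Cfsg.indFun N φ := by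
  open Cfsg.Lib.FT Cfsg.Lib.Solv Pointwise in
  · have hχ' := mem_Irr_top.2 hχ
    obtain ⟨n, hn, hne⟩ := hker
    rcases eq_or_ne N ⊤ with rfl | hN
    · refine ⟨fun x => χ x, irr_isIrr hχ', ?_⟩
      rw [← ind_top_eq_indFun, ind_self (irr_cf hχ')]
    have hF : IsFrobKer ⊤ N := IsFrobKer.of_cent1 (fun h => hne (by rw [h] at hn; rw [hn])) hN.lt_top
      (normal_top_iff.2 ‹_›) fun x hx hx1 => inf_le_right.trans (hC x hx hx1)
    obtain ⟨θ, h1, -, h2⟩ := (Frobenius_Ind_irrP hF hχ').1 fun h => hne (cfker1 (h hn))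
    exact ⟨fun x => θ x, irr_isIrr h1, h2.trans (ind_top_eq_indFun N θ)⟩

end Cfsg.Agent.S1528
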