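import Cfsg.Statements.S1529
import Cfsg.Agent.FT.CohBridge

set_option autoImplicit false
open Cfsg

namespace Cfsg.Agent.S1529

/-- Let N be a subgroup of the finite group G, S a set of irreducible characters of N with at least two members, and τ₁ a linear isometry on the integer combinations of S with virtual-character values such that τ₁ α vanishes at 1 whenever α ∈ ℤ[S] does. Then there is ε ∈ {1, −1} such that ε • τ₁ χ is an irreducible character of G for every χ ∈ S, and distinct members of S give distinct characters. -/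
theorem result {G : Type*} [Group G] [Fintype G] (N : Subgroup G) [Fintype N] (S : Set (N → ℂ)) (hirr : ∀ χ ∈ S, Cfsg.IsIrrCharacter N χ) (htwo : ∃ χ ∈ S, ∃ ψ ∈ S, χ ≠ ψ) (τ₁ : (N → ℂ) → (G → ℂ)) (hτ₁ : Cfsg.IsLinearIsometryOn (Cfsg.zspan S) τ₁) (h0 : ∀ α ∈ Cfsg.zspan S, α 1 = 0 → τ₁ α 1 = 0) : ∃ ε : ℂ, (ε = 1 ∨ ε = -1) ∧ (∀ χ ∈ S, Cfsg.IsIrrCharacter G (ε • τ₁ χ)) ∧ (∀ χ ∈ S, ∀ ψ ∈ S, τ₁ χ = τ₁ ψ → χ = ψ) := by
  open Cfsg.Lib.FT Cfsg.Lib.Solv Pointwise in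
  · have hm : ∀ χ ∈ S, χ ∈ zspan S := fun χ hχ => Submodule.subset_span hχ
    have hI : ∀ χ ∈ S, χ ∈ Irr (⊤ : Subgroup N) := fun χ hχ => mem_Irr_top.2 (hirr χ hχ)
    obtain ⟨ν, hν, hiso, hvc⟩ := linIso_exists_linear hτ₁
    have hD : ∀ χ ∈ S, τ₁ χ ∈ Dirr ⊤ := fun χ hχ => vchar_norm1 (linIso_vc hτ₁ χ (hm χ hχ))
      ((linIso_dot hτ₁ χ (hm χ hχ) χ (hm χ hχ)).trans (dot_irr_self (hI χ hχ)))
    obtain ⟨χ₀, h₀, -⟩ := htwo
    have key : ∀ χ ∈ S, (deg χ₀ : ℝ) * (τ₁ χ 1).re = deg χ * (τ₁ χ₀ 1).re := fun χ hχ => by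
      have hα : χ₀ 1 • χ - χ 1 • χ₀ ∈ ZSon S {1}ᶜ := pivot_mem_ZSon (hm χ₀ h₀) (hm χ hχ)
        (irr_char (hI χ₀ h₀)).exists_int (irr_char (hI χ hχ)).exists_int
      have := h0 _ hα.1 (hα.2 1 (by simp))
      rw [← hν _ hα.1, map_sub, map_smul, map_smul, hν _ (hm χ hχ), hν _ (hm χ₀ h₀),
        irr_deg_eq (hI χ hχ), irr_deg_eq (hI χ₀ h₀), Pi.sub_apply, sub_eq_zero] at this
      simpa using congrArg Complex.re this
    have hp : ∀ χ ∈ S, (0 : ℝ) < deg χ := fun χ hχ => Nat.cast_pos.2 (irr_deg_pos (hI χ hχ))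
    have hinj : ∀ χ ∈ S, ∀ ψ ∈ S, τ₁ χ = τ₁ ψ → χ = ψ := fun χ hχ ψ hψ h =>
      IsoOn.injOn (L₁ := ⊤) (T := ⊤) (linIso_dot hτ₁) (hm χ hχ) (hm ψ hψ) h
    rcases mem_Dirr.1 (hD χ₀ h₀) with h | h
    · refine ⟨1, Or.inl rfl, fun χ hχ => mem_Irr_top.1 ?_, hinj⟩
      rw [one_smul]
      refine dirr_irr_of_pos (hD χ hχ) (pos_of_mul_pos_left ?_ (hp χ₀ h₀).le)
      rw [mul_comm, key χ hχ]
      exact mul_pos (hp χ hχ) (irr_re_one_pos h)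
    · refine ⟨-1, Or.inr rfl, fun χ hχ => mem_Irr_top.1 ?_, hinj⟩
      rw [neg_one_smul]
      refine dirr_irr_of_pos (neg_mem_Dirr.2 (hD χ hχ)) (pos_of_mul_pos_left ?_ (hp χ₀ h₀).le)
      have := mul_pos (hp χ hχ) (irr_re_one_pos h)
      rw [Pi.neg_apply, Complex.neg_re] at this ⊢
      linarith [key χ hχ]

end Cfsg.Agent.S1529
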