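import Cfsg.Statements.S1530
import Cfsg.Agent.FT.CohIrr

set_option autoImplicit false
open Cfsg

namespace Cfsg.Agent.S1530

/-- Let N be a subgroup of the finite group G and S₀ a finite set of irreducible characters of N, χ an irreducible character of N not in S₀, with degrees ξ 1 = d ξ. Let τ be a linear isometry on the integer combinations of S₀ ∪ {χ} vanishing at 1, with values virtual characters of G vanishing at 1, such that (S₀, N minus 1, τ) is coherent. If some ψ ∈ S₀ has d ψ dividing d χ and 2 · d ψ · d χ < Σ_{ξ ∈ S₀} (d ξ)², then (S₀ ∪ {χ}, N minus 1, τ) is coherent. -/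
theorem result {G : Type*} [Group G] [Fintype G] (N : Subgroup G) [Fintype N] (S₀ : Finset (N → ℂ)) (χ : N → ℂ) (hirr : ∀ ξ ∈ S₀, Cfsg.IsIrrCharacter N ξ) (hχ : Cfsg.IsIrrCharacter N χ) (hχS : χ ∉ S₀) (d : (N → ℂ) → ℕ) (hd : ∀ ξ ∈ insert χ S₀, ξ 1 = (d ξ : ℂ)) (τ : (N → ℂ) → (G → ℂ)) (hτ : Cfsg.IsLinearIsometryOn (Cfsg.zspanOn (↑(insert χ S₀) : Set (N → ℂ)) {1}ᶜ) τ) (hτ1 : ∀ α ∈ Cfsg.zspanOn (↑(insert χ S₀) : Set (N → ℂ)) {1}ᶜ, τ α 1 = 0) (hcoh : Cfsg.IsCoherent (↑S₀ : Set (N → ℂ)) {1}ᶜ τ) (ψ : N → ℂ) (hψ : ψ ∈ S₀) (hdvd : d ψ ∣ d χ) (hlt : 2 * d ψ * d χ < ∑ ξ ∈ S₀, d ξ ^ 2) : Cfsg.IsCoherent (↑(insert χ S₀) : Set (N → ℂ)) {1}ᶜ τ := by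
  open Cfsg.Lib.FT Cfsg.Lib.Solv Pointwise in
  · have hI : S₀ ⊆ Irr ⊤ := fun ξ hξ => mem_Irr_top.2 (hirr ξ hξ)
    have e : ((insert χ S₀ : Finset (N → ℂ)) : Set (N → ℂ)) = insert χ (S₀ : Set (N → ℂ)) :=
      Finset.coe_insert _ _
    simp only [Finset.coe_insert, Finset.mem_insert] at hτ hτ1 hd ⊢
    rw [← e] at hτ hτ1 ⊢
    obtain ⟨ν, hν, hiso, hvc⟩ := linIso_exists_linear hτ
    have hsub : ZSon (S₀ : Set (N → ℂ)) {1}ᶜ ≤ ZSon ((insert χ S₀ : Finset (N → ℂ)) : Set (N → ℂ)) {1}ᶜ :=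
      zson_mono (Finset.coe_subset.2 (Finset.subset_insert _ _))
    have hd' : ∀ ξ ∈ S₀, deg ξ = d ξ := fun ξ hξ => deg_eq_of (hd ξ (Or.inr hξ))
    obtain ⟨α, hα, h0⟩ := hcoh.1
    refine isCoherent_of_coherent (feit_extend_coherent hI (mem_Irr_top.2 hχ) hχS
      ⟨hiso, fun φ hφ => mem_VCon_compl_one.2 ⟨hvc φ hφ, by rw [hν φ hφ]; exact hτ1 φ hφ⟩⟩
      (coherent_of_isCoherent hcoh fun α hα => hν α (hsub hα)) hψ ?_ ?_) hν ⟨α, hsub hα, h0⟩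
    · rwa [hd' ψ hψ, deg_eq_of (hd χ (Or.inl rfl))]
    · rwa [hd' ψ hψ, deg_eq_of (hd χ (Or.inl rfl)), Finset.sum_congr rfl fun ξ hξ => by rw [hd' ξ hξ]]

end Cfsg.Agent.S1530
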