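import Cfsg.Statements.S1531
import Cfsg.Agent.FT.CohIrr

set_option autoImplicit false
open Cfsg

namespace Cfsg.Agent.S1531

open Cfsg.Lib.FT in
theorem aux {G : Type*} [Group G] [Finite G] {T : Subgroup G} {a a' b b' : G → ℂ}
    (ha : a ∈ Dirr T) (ha' : a' ∈ Dirr T) (hb : b ∈ Dirr T) (hb' : b' ∈ Dirr T)
    (o1 : dot T a a' = 0) (o2 : dot T b b' = 0) {d d' e e' : ℕ} (hd : 0 < d) (hd' : 0 < d')
    (he : 0 < e) (he' : 0 < e')
    (h : e' * d' * dot T a b - e * d' * dot T a b' - e' * d * dot T a' b + e * d * dot T a' b' = 0)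
    (h1 : d' * a 1 = d * a' 1) (h2 : e' * b 1 = e * b' 1) : dot T a b = 0 := by
  by_contra hne
  have p1 : ((d' * e + e' * d : ℕ) : ℂ) ≠ 0 := Nat.cast_ne_zero.2 (by positivity)
  have p2 : ((e' * d' : ℕ) : ℂ) ≠ 0 := Nat.cast_ne_zero.2 (by positivity)
  have p3 : ((e' * d' + e * d : ℕ) : ℂ) ≠ 0 := Nat.cast_ne_zero.2 (by positivity)
  have r := dirr_one_ne_zero hb
  push_cast at p1 p2 p3
  have o1' := dot_eq_zero_comm.1 o1
  rcases dirr_eq_or_eq_neg_of_dot_ne_zero ha hb hne with rfl | rfl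
  · rw [o2, o1', dirr_dot_self ha, dot_dirr ha' hb'] at h
    split_ifs at h with c1 c2
    · exact p3 (by linear_combination h)
    · subst c2
      rw [Pi.neg_apply] at h1
      exact mul_ne_zero p1 r (by linear_combination (e : ℂ) * h1 + (d : ℂ) * h2)
    · exact p2 (by linear_combination h)
  · rw [dot_neg_right, neg_eq_zero] at o1'
    rw [dot_neg_left, dot_neg_left, o2, o1', dirr_dot_self hb, dot_dirr ha' hb'] at h
    split_ifs at h with c1 c2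
    · subst c1
      rw [Pi.neg_apply] at h1
      exact mul_ne_zero p1 r (by linear_combination -(e : ℂ) * h1 + (d : ℂ) * h2)
    · exact p3 (by linear_combination -h)
    · exact p2 (by linear_combination -h)

/-- Let N be a subgroup of the finite group G, S a set of irreducible characters of N, and α a linear isometry on the integer combinations of S vanishing at 1 with values virtual characters of G vanishing at 1. Let X, Y ⊆ S be disjoint, each with at least two members, and σ, τ linear isometries on ℤ[X], ℤ[Y] into virtual characters agreeing with α on the members vanishing at 1. Then ⟨σ χ, τ η⟩ = 0 for χ ∈ X, η ∈ Y; and if for some χ₀ ∈ X, η₀ ∈ Y with degrees c = χ₀ 1, e = η₀ 1 one has α (c • η₀ − e • χ₀) = c • τ η₀ − e • σ χ₀, then (X ∪ Y, N minus 1, α) is coherent. -/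
theorem result {G : Type*} [Group G] [Fintype G] (N : Subgroup G) [Fintype N] (S X Y : Set (N → ℂ)) (hirr : ∀ ξ ∈ S, Cfsg.IsIrrCharacter N ξ) (hXS : X ⊆ S) (hYS : Y ⊆ S) (hXY : Disjoint X Y) (hX2 : ∃ a ∈ X, ∃ b ∈ X, a ≠ b) (hY2 : ∃ a ∈ Y, ∃ b ∈ Y, a ≠ b) (α : (N → ℂ) → (G → ℂ)) (hα : Cfsg.IsLinearIsometryOn (Cfsg.zspanOn S {1}ᶜ) α) (hα1 : ∀ θ ∈ Cfsg.zspanOn S {1}ᶜ, α θ 1 = 0) (σ τ : (N → ℂ) → (G → ℂ)) (hσ : Cfsg.IsLinearIsometryOn (Cfsg.zspan X) σ) (hσα : ∀ θ ∈ Cfsg.zspanOn X {1}ᶜ, σ θ = α θ) (hτ : Cfsg.IsLinearIsometryOn (Cfsg.zspan Y) τ) (hτα : ∀ θ ∈ Cfsg.zspanOn Y {1}ᶜ, τ θ = α θ) : (∀ χ ∈ X, ∀ η ∈ Y, Cfsg.classInner (σ χ) (τ η) = 0) ∧ ((∃ χ₀ ∈ X, ∃ η₀ ∈ Y, α (χ₀ 1 • η₀ - η₀ 1 • χ₀) = χ₀ 1 • τ η₀ - η₀ 1 • σ χ₀) → Cfsg.IsCoherent (X ∪ Y) {1}ᶜ α) := by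
  open Cfsg.Lib.FT Cfsg.Lib.Solv Pointwise in
  · have hI : ∀ ξ ∈ S, ξ ∈ Irr (⊤ : Subgroup N) := fun ξ hξ => mem_Irr_top.2 (hirr ξ hξ)
    lift X to Finset (N → ℂ) using (Finset.finite_toSet _).subset fun ξ hξ => hI ξ (hXS hξ)
    lift Y to Finset (N → ℂ) using (Finset.finite_toSet _).subset fun ξ hξ => hI ξ (hYS hξ)
    obtain ⟨a, ha, ha1, -⟩ := linIso_exists_linear hα
    obtain ⟨s, hs, hs1, hs2⟩ := linIso_exists_linear hσ
    obtain ⟨t, ht, ht1, ht2⟩ := linIso_exists_linear hτ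
    have cX : CoherentWith ⊤ ⊤ X {1}ᶜ a s :=
      ⟨hs1, hs2, fun φ hφ => by rw [hs φ hφ.1, hσα φ hφ, ha φ (zson_mono hXS hφ)]⟩
    have cY : CoherentWith ⊤ ⊤ Y {1}ᶜ a t :=
      ⟨ht1, ht2, fun φ hφ => by rw [ht φ hφ.1, hτα φ hφ, ha φ (zson_mono hYS hφ)]⟩
    have other : ∀ Z : Finset (N → ℂ), (∃ a ∈ (Z : Set (N → ℂ)), ∃ b ∈ (Z : Set (N → ℂ)), a ≠ b) →
        ∀ χ, ∃ χ' ∈ Z, χ' ≠ χ := by
      rintro Z ⟨a, ha, b, hb, hab⟩ χ
      by_cases h : a = χ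
      · exact ⟨b, hb, fun e => hab (h.trans e.symm)⟩
      · exact ⟨a, ha, h⟩
    have hO : ∀ χ ∈ X, ∀ η ∈ Y, dot ⊤ χ η = 0 := fun χ hχ η hη =>
      dot_irr_of_ne (hI χ (hXS hχ)) (hI η (hYS hη)) fun e => Set.disjoint_left.1 hXY hχ (e ▸ hη)
    have hint : ∀ ξ ∈ S, ∃ n : ℤ, ξ 1 = n := fun ξ hξ => (irr_char (hI ξ hξ)).exists_int
    have key : ∀ χ ∈ X, ∀ η ∈ Y, dot ⊤ (s χ) (t η) = 0 := by
      intro χ hχ η hη
      obtain ⟨χ', hχ', n1⟩ := other X hX2 χ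
      obtain ⟨η', hη', n2⟩ := other Y hY2 η
      have p1 := pivot_mem_ZSon (U := X) (zs_mem hχ') (zs_mem hχ) (hint _ (hXS hχ')) (hint _ (hXS hχ))
      have p2 := pivot_mem_ZSon (U := Y) (zs_mem hη') (zs_mem hη) (hint _ (hYS hη')) (hint _ (hYS hη))
      have e1 := ha1 _ (zson_mono hXS p1) _ (zson_mono hYS p2)
      have e2 := hα1 _ (zson_mono hXS p1)
      have e3 := hα1 _ (zson_mono hYS p2)
      rw [← ha _ (zson_mono hXS p1), ← cX.eq _ p1] at e2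
      rw [← ha _ (zson_mono hYS p2), ← cY.eq _ p2] at e3
      rw [← cX.eq _ p1, ← cY.eq _ p2] at e1
      have d1 := cX.dirr hχ (hI _ (hXS hχ))
      have d2 := cX.dirr hχ' (hI _ (hXS hχ'))
      have d3 := cY.dirr hη (hI _ (hYS hη))
      have d4 := cY.dirr hη' (hI _ (hYS hη'))
      have o1 : dot ⊤ (s χ) (s χ') = 0 := by
        rw [cX.dot_map hχ hχ', dot_irr_of_ne (hI _ (hXS hχ)) (hI _ (hXS hχ')) n1.symm]
      have o2 : dot ⊤ (t η) (t η') = 0 := by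
        rw [cY.dot_map hη hη', dot_irr_of_ne (hI _ (hYS hη)) (hI _ (hYS hη')) n2.symm]
      simp only [map_sub, map_smul, dot_sub_left, dot_sub_right, dot_smul_left, dot_smul_right,
        hO _ hχ _ hη, hO _ hχ _ hη', hO _ hχ' _ hη, hO _ hχ' _ hη', Pi.sub_apply, Pi.smul_apply,
        smul_eq_mul, irr_deg_eq (hI _ (hXS hχ)), irr_deg_eq (hI _ (hXS hχ')),
        irr_deg_eq (hI _ (hYS hη)), irr_deg_eq (hI _ (hYS hη')), Complex.conj_natCast] at e1 e2 e3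
      exact aux d1 d2 d3 d4 o1 o2 (irr_deg_pos (hI _ (hXS hχ))) (irr_deg_pos (hI _ (hXS hχ')))
        (irr_deg_pos (hI _ (hYS hη))) (irr_deg_pos (hI _ (hYS hη'))) (by linear_combination e1)
        (sub_eq_zero.1 e2) (sub_eq_zero.1 e3)
    refine ⟨fun χ hχ η hη => by rw [← hs χ (zs_mem hχ), ← ht η (zs_mem hη), ← dot_top_eq_classInner,
      key χ hχ η hη], ?_⟩
    rintro ⟨χ₀, hχ₀, η₀, hη₀, e⟩
    have p0 := pivot_mem_ZSon (U := S) (zs_mem (hXS hχ₀)) (zs_mem (hYS hη₀)) (hint _ (hXS hχ₀))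
      (hint _ (hYS hη₀))
    obtain ⟨ν, hν, -⟩ := bridge_coherent' (χ := χ₀ 1 • η₀) (φ := η₀ 1 • χ₀)
      (fun φ hφ => (Finset.mem_union.1 hφ).elim (fun h => hint φ (hYS h)) fun h => hint φ (hXS h))
      cY cX (Finset.disjoint_coe.1 hXY).symm
      (fun φ hφ ψ hψ => by rw [dot_eq_zero_comm.1 (key ψ hψ φ hφ), dot_eq_zero_comm.1 (hO ψ hψ φ hφ)])
      (smul_mem_of_int (hint _ (hXS hχ₀)) (zs_mem hη₀))
      (mul_ne_zero (irr_one_ne_zero (hI _ (hXS hχ₀))) (irr_one_ne_zero (hI _ (hYS hη₀))))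
      (smul_mem_of_int (hint _ (hYS hη₀)) (zs_mem hχ₀)) (mul_comm _ _)
      (by rw [ha _ p0, e, map_smul, map_smul, ht _ (zs_mem hη₀), hs _ (zs_mem hχ₀)])
    have hU : ((Y ∪ X : Finset (N → ℂ)) : Set (N → ℂ)) ⊆ S := by
      rw [Finset.coe_union]; exact Set.union_subset hYS hXS
    rw [Set.union_comm, ← Finset.coe_union]
    refine isCoherent_of_coherent ⟨ν, hν⟩ (fun β hβ => ha β (zson_mono hU hβ)) ⟨_,
      pivot_mem_ZSon (zs_mem (by simp [Finset.mem_coe.1 hχ₀])) (zs_mem (by simp [Finset.mem_coe.1 hη₀]))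
        (hint _ (hXS hχ₀)) (hint _ (hYS hη₀)), fun h0 => irr_one_ne_zero (hI _ (hXS hχ₀)) ?_⟩
    have := congrArg (fun α => dot ⊤ α η₀) h0
    simpa [dot_sub_left, dot_smul_left, dot_irr_self (hI _ (hYS hη₀)), hO _ hχ₀ _ hη₀] using this

end Cfsg.Agent.S1531
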