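import Cfsg.Statements.S1532
import Cfsg.Agent.FT.CohFeit

set_option autoImplicit false
open Cfsg

namespace Cfsg.Agent.S1532

/-- Let G be a finite group, p an odd prime and P a Sylow p-subgroup that is non-abelian, whose underlying set is a TI-subset of G, with P properly contained in its set normaliser N and C_G(x) ≤ P for every non-identity x ∈ P. Let Z be a nontrivial subgroup of the centre of P normalised by N. Then the set of irreducible characters χ of N with χ z ≠ χ 1 for some z ∈ Z is coherent for the map induced by induction from N to G. -/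
theorem result {G : Type*} [Group G] [Fintype G] (p : ℕ) [Fact p.Prime] (hp : p ≠ 2) (P : Sylow p G) (hna : ¬ IsMulCommutative (P : Subgroup G)) (hTI : Cfsg.IsTISubset ((P : Subgroup G) : Set G)) (hlt : (P : Subgroup G) < Subgroup.normalizer ((P : Subgroup G) : Set G)) (hC : ∀ k ∈ (P : Subgroup G), k ≠ 1 → Subgroup.centralizer ({k} : Set G) ≤ (P : Subgroup G)) [Fintype ↥(Subgroup.normalizer ((P : Subgroup G) : Set G))] (Z : Subgroup G) (hZ1 : Z ≠ ⊥) (hZP : ∀ z ∈ Z, z ∈ (P : Subgroup G) ∧ ∀ y ∈ (P : Subgroup G), z * y = y * z) (hZn : ∀ x ∈ Subgroup.normalizer ((P : Subgroup G) : Set G), ∀ z ∈ Z, x * z * x⁻¹ ∈ Z) : Cfsg.IsCoherent {χ : ↥(Subgroup.normalizer ((P : Subgroup G) : Set G)) → ℂ | Cfsg.IsIrrCharacter ↥(Subgroup.normalizer ((P : Subgroup G) : Set G)) χ ∧ ∃ z : ↥(Subgroup.normalizer ((P : Subgroup G) : Set G)), (z : G) ∈ Z ∧ χ z ≠ χ 1} {1}ᶜ (fun α => Cfsg.indFun (Subgroup.normalizer ((P : Subgroup G) : Set G)) α) := by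
  open Cfsg.Lib.FT Cfsg.Lib.Solv Pointwise in
  · have hP1 : (P : Subgroup G) ≠ ⊥ := fun h => hna (h ▸ abelian_bot)
    have frob := isFrobKer_norm hP1 hlt hC
    have nil : Group.IsNilpotent (P : Subgroup G) := pgroup_nil P.2
    have sZP : Z ≤ P := fun z hz => (hZP z hz).1
    have nZ : Z ⊲ 𝐍 (P : Subgroup G) := ⟨sZP.trans (normG _), normsP.2 hZn⟩
    have hS := frob.mem_seqIndD_iff nZ sZP
    have hodd : Odd (Nat.card (P : Subgroup G)) := by
      obtain ⟨n, hn⟩ := IsPGroup.iff_card.1 P.2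
      rw [hn]
      exact ((Fact.out : p.Prime).odd_of_ne_two hp).pow
    have hoddN : Odd (Nat.card (𝐍 (P : Subgroup G))) := by
      have : Nat.card (𝐍 (P : Subgroup G)) =
          Nat.card (P : Subgroup G) * (P : Subgroup G).relIndex (𝐍 (P : Subgroup G)) := by
        exact_mod_cast (cardC_mul_relIndex frob.normal.le).symm
      rw [this]
      exact hodd.mul (Nat.not_even_iff_odd.1 fun h => hna (frob.abelian_of_even h))
    obtain ⟨χ, hχ⟩ := seqIndD_nonempty (L := 𝐍 (P : Subgroup G)) (normalS sZP (normG _) nZ)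
      (normal1 _) (bot_lt_iff_ne_bot.2 hZ1)
    rw [irr_not_ker_eq_image nZ.le hS]
    exact isCoherent_ind_of_coherent (fun φ hφ => irr_cf (frob.seqIndD_irr sZP hφ))
      (subset_coherent (seqInd_sub sZP)
        (sibley_coherence_odd frob nil (normedTI_sharp_of_isTISubset hTI hP1) hodd))
      (exists_ne_zero_of_one_lt_card (frob.seqIndD_irr sZP) (seqInd_nontrivial frob.normal hoddN sZP hχ))

end Cfsg.Agent.S1532
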