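import Cfsg.Statements.S1533
import Cfsg.Agent.FT.CohFeit

set_option autoImplicit false
open Cfsg

namespace Cfsg.Agent.S1533

/-- Let G be a finite group, p an odd prime, and P a nontrivial Sylow p-subgroup whose underlying set is a TI-subset of G, with P properly contained in its set normaliser N and C_G(x) ≤ P for every non-identity x ∈ P. Let S be the set of irreducible characters χ of N with χ x ≠ χ 1 for some x ∈ P. Then either S has exactly one member, P is elementary abelian and Nat.card P = [N:P] + 1; or (S, N minus 1, induction to G) is coherent. -/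
theorem result {G : Type*} [Group G] [Fintype G] (p : ℕ) [Fact p.Prime] (hp : p ≠ 2) (P : Sylow p G) (hP1 : (P : Subgroup G) ≠ ⊥) (hTI : Cfsg.IsTISubset ((P : Subgroup G) : Set G)) (hlt : (P : Subgroup G) < Subgroup.normalizer ((P : Subgroup G) : Set G)) (hC : ∀ k ∈ (P : Subgroup G), k ≠ 1 → Subgroup.centralizer ({k} : Set G) ≤ (P : Subgroup G)) [Fintype ↥(Subgroup.normalizer ((P : Subgroup G) : Set G))] : (Nat.card {χ : ↥(Subgroup.normalizer ((P : Subgroup G) : Set G)) → ℂ // Cfsg.IsIrrCharacter ↥(Subgroup.normalizer ((P : Subgroup G) : Set G)) χ ∧ ∃ x : ↥(Subgroup.normalizer ((P : Subgroup G) : Set G)), (x : G) ∈ (P : Subgroup G) ∧ χ x ≠ χ 1} = 1 ∧ Cfsg.IsElementaryAbelian p (P : Subgroup G) ∧ Nat.card (P : Subgroup G) = ((P : Subgroup G).subgroupOf (Subgroup.normalizer ((P : Subgroup G) : Set G))).index + 1) ∨ Cfsg.IsCoherent {χ : ↥(Subgroup.normalizer ((P : Subgroup G) : Set G)) → ℂ | Cfsg.IsIrrCharacter ↥(Subgroup.normalizer ((P : Subgroup G) : Set G)) χ ∧ ∃ x : ↥(Subgroup.normalizer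 ((P : Subgroup G) : Set G)), (x : G) ∈ (P : Subgroup G) ∧ χ x ≠ χ 1} {1}ᶜ (fun α => Cfsg.indFun (Subgroup.normalizer ((P : Subgroup G) : Set G)) α) := by
  open Cfsg.Lib.FT Cfsg.Lib.Solv Pointwise in
  · have frob := isFrobKer_norm hP1 hlt hC
    have nil : Group.IsNilpotent (P : Subgroup G) := pgroup_nil P.2
    have hS := frob.mem_seqIndD_iff frob.normal le_rfl
    by_cases h : Nat.card (P : Subgroup G) = (P : Subgroup G).relIndex (𝐍 (P : Subgroup G)) + 1
    · left
      refine ⟨(card_irr_not_ker frob.normal.le hS).trans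
        ((frob.card_seqIndC1_eq_one (nilpotent_sol nil)).2 h), ?_, h⟩
      obtain ⟨q, hq, h1, h2⟩ := frob.abelem_of_card (nilpotent_sol nil) h
      obtain ⟨x, hx, ho⟩ := Cauchy (Fact.out : p.Prime) (pgroup_dvd_card P.2 hP1)
      have : p ∣ q := ho ▸ orderOf_dvd_of_pow_eq_one (h2 x hx)
      exact ⟨h1, fun a ha => (Nat.prime_dvd_prime_iff_eq Fact.out hq).1 this ▸ h2 a ha⟩
    · right
      rw [irr_not_ker_eq_image frob.normal.le hS]
      refine isCoherent_ind_of_coherent (fun φ hφ => irr_cf (frob.seqIndD_irr le_rfl hφ))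
        (sibley_coherence_odd frob nil (normedTI_sharp_of_isTISubset hTI hP1) ?_)
        (exists_ne_zero_of_one_lt_card (frob.seqIndD_irr le_rfl)
          (frob.one_lt_card_seqIndC1 (nilpotent_sol nil) h))
      obtain ⟨n, hn⟩ := IsPGroup.iff_card.1 P.2
      rw [hn]
      exact ((Fact.out : p.Prime).odd_of_ne_two hp).pow

end Cfsg.Agent.S1533
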