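import Cfsg.Statements.S1534
import Cfsg.Agent.FT.CohFeit

set_option autoImplicit false
open Cfsg

namespace Cfsg.Agent.S1534

/-- Let G be a finite group and K a nontrivial nilpotent subgroup whose underlying set is a TI-subset of G, properly contained in its set normaliser N, with C_G(k) ≤ K for every non-identity k ∈ K; let e be the index of K in N and S the set of irreducible characters χ of N with χ k ≠ χ 1 for some k ∈ K. Then one of: S has exactly one member, Nat.card K = e + 1 and K is an elementary abelian p-group for some prime p; or K is a Sylow 2-subgroup of G (Nat.card K is the largest power of 2 dividing Nat.card G) and [K : [K,K]] < 4e²; or (S, N minus 1, induction to G) is coherent. -/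
theorem result {G : Type*} [Group G] [Fintype G] (K : Subgroup G) (hK1 : K ≠ ⊥) (hnil : Group.IsNilpotent K) (hTI : Cfsg.IsTISubset (K : Set G)) (hlt : K < Subgroup.normalizer (K : Set G)) (hC : ∀ k ∈ K, k ≠ 1 → Subgroup.centralizer ({k} : Set G) ≤ K) [Fintype ↥(Subgroup.normalizer (K : Set G))] : (Nat.card {χ : ↥(Subgroup.normalizer (K : Set G)) → ℂ // Cfsg.IsIrrCharacter ↥(Subgroup.normalizer (K : Set G)) χ ∧ ∃ k : ↥(Subgroup.normalizer (K : Set G)), (k : G) ∈ K ∧ χ k ≠ χ 1} = 1 ∧ Nat.card K = (K.subgroupOf (Subgroup.normalizer (K : Set G))).index + 1 ∧ ∃ p : ℕ, p.Prime ∧ Cfsg.IsElementaryAbelian p K) ∨ (Nat.card K = 2 ^ (Nat.card G).factorization 2 ∧ (⁅K, K⁆.subgroupOf K).index < 4 * (K.subgroupOf (Subgroup.normalizer (K : Set G))).index ^ 2) ∨ Cfsg.IsCoherent {χ : ↥(Subgroup.normalizer (K : Set G)) → ℂ | Cfsg.IsIrrCharacter ↥(Subgroup.normalizer (K : Set G)) χ ∧ ∃ k : ↥(Subgroup.normalizer (K : Set G)), (k : G) ∈ K ∧ χ k ≠ χ 1} {1}ᶜ (fun α => Cfsg.indFun (Subgroup.normalizer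 (K : Set G)) α) := by
  open Cfsg.Lib.FT Cfsg.Lib.Solv Pointwise in
  · have frob := isFrobKer_norm hK1 hlt hC
    have hS := frob.mem_seqIndD_iff frob.normal le_rfl
    have ti := normedTI_sharp_of_isTISubset hTI hK1
    by_cases h : Nat.card K = K.relIndex (𝐍 K) + 1
    · exact Or.inl ⟨(card_irr_not_ker frob.normal.le hS).trans
        ((frob.card_seqIndC1_eq_one (nilpotent_sol hnil)).2 h), h,
        frob.abelem_of_card (nilpotent_sol hnil) h⟩
    right
    have fin : Coherent (𝐍 K) ⊤ (seqIndD K (𝐍 K) K ⊥) {1}ᶜ (ind (𝐍 K) ⊤) → _ := fun hc =>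
      isCoherent_ind_of_coherent (fun φ hφ => irr_cf (frob.seqIndD_irr le_rfl hφ)) hc
        (exists_ne_zero_of_one_lt_card (frob.seqIndD_irr le_rfl)
          (frob.one_lt_card_seqIndC1 (nilpotent_sol hnil) h))
    rw [irr_not_ker_eq_image frob.normal.le hS]
    rcases feit_coherence frob hnil (normedTI_isoTo_seqInd frob.normal ti (seqIndD_subT _ _ _ _)) with
      hc | ⟨p, hp, h1, h2, h3⟩
    · exact Or.inr (fin hc)
    have := Fact.mk hp
    obtain ⟨n, hn⟩ := IsPGroup.iff_card.1 h1
    by_cases hp2 : p = 2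
    swap
    · exact Or.inr (fin (sibley_coherence_odd frob hnil ti (hn ▸ (hp.odd_of_ne_two hp2).pow)))
    subst hp2
    left
    constructor
    · obtain ⟨S, hS⟩ := h1.exists_le_sylow
      obtain ⟨k, hk, hk1⟩ := trivgPn.1 hK1
      obtain ⟨z, hz, hz1⟩ := trivgPn.1 (mt (center_nil_eq1 (pgroup_nil S.2)).1 (subG1_contra hS hK1))
      have hzK : z ∈ K := hC k hk hk1 (cent_le_cent1 (hS hk) hz.2)
      rw [le_antisymm hS ((le_cent1_iff.2 hz.2).trans (hC z hzK hz1)), Sylow.card_eq_multiplicity]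
    · change (⁅K, K⁆).relIndex K < 4 * K.relIndex (𝐍 K) ^ 2
      obtain ⟨m, -, hm⟩ := (Nat.dvd_prime_pow hp).1 (hn ▸ Subgroup.relIndex_dvd_card ⁅K, K⁆ K)
      have he : Odd (K.relIndex (𝐍 K)) := Nat.not_even_iff_odd.1 fun h =>
        h2 (abelian_iff_der.1 (frob.abelian_of_even h))
      have he1 := one_lt_relIndex_of_lt hlt
      rw [hm] at h3 ⊢
      generalize K.relIndex (𝐍 K) = e at h3 he he1
      by_contra hle
      rcases (by omega : 2 ^ m = 4 * e ^ 2 ∨ 2 ^ m = 4 * e ^ 2 + 1) with h4 | h4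
      · obtain ⟨j, -, rfl⟩ := (Nat.dvd_prime_pow hp).1
          (h4 ▸ (Dvd.intro_left (4 * e) (by ring) : e ∣ 4 * e ^ 2))
        rcases j with _ | j
        · simp at he1
        · exact Nat.not_even_iff_odd.2 he (by simp [pow_succ])
      · rcases m with _ | m
        · simp at h4
          omega
        · rw [pow_succ] at h4
          omega

end Cfsg.Agent.S1534
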