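import Cfsg.Statements.S1535
import Cfsg.Agent.FT.CohFeit
import Cfsg.Agent.Inst.S0108
import Cfsg.Agent.Solv.FpfThompson

set_option autoImplicit false
open Cfsg

namespace Cfsg.Agent.S1535

/-- Let N be a finite group with a proper nontrivial normal subgroup H such that every element commuting with a non-identity element of H lies in H (N is a Frobenius group with kernel H); let e be the index of H and suppose Nat.card H ≠ e + 1. Let S be the set of irreducible characters χ of N with χ h ≠ χ 1 for some h ∈ H, and τ a linear isometry on the integer combinations of S vanishing at 1, with values virtual characters of a finite group G vanishing at 1. Then (S, N minus 1, τ) is coherent, or there is a prime p with Nat.card H a power of p, H non-abelian and [H : [H,H]] ≤ 4e² + 1. -/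
theorem result {N : Type*} [Group N] [Fintype N] {G : Type*} [Group G] [Fintype G] (H : Subgroup N) [H.Normal] (hH1 : H ≠ ⊥) (hH2 : H ≠ ⊤) (hC : ∀ h ∈ H, h ≠ 1 → Subgroup.centralizer ({h} : Set N) ≤ H) (he : Nat.card H ≠ H.index + 1) (τ : (N → ℂ) → (G → ℂ)) (hτ : Cfsg.IsLinearIsometryOn (Cfsg.zspanOn {χ : N → ℂ | Cfsg.IsIrrCharacter N χ ∧ ∃ h ∈ H, χ h ≠ χ 1} {1}ᶜ) τ) (hτ1 : ∀ α ∈ Cfsg.zspanOn {χ : N → ℂ | Cfsg.IsIrrCharacter N χ ∧ ∃ h ∈ H, χ h ≠ χ 1} {1}ᶜ, τ α 1 = 0) : Cfsg.IsCoherent {χ : N → ℂ | Cfsg.IsIrrCharacter N χ ∧ ∃ h ∈ H, χ h ≠ χ 1} {1}ᶜ τ ∨ ∃ p : ℕ, p.Prime ∧ (∃ m : ℕ, Nat.card H = p ^ m) ∧ ¬ IsMulCommutative H ∧ (⁅H, H⁆.subgroupOf H).index ≤ 4 * H.index ^ 2 + 1 := by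
  open Cfsg.Lib.FT Cfsg.Lib.Solv Pointwise in
  · have nH : H ⊲ ⊤ := normal_top_iff.2 ‹_›
    have frob : IsFrobKer ⊤ H := IsFrobKer.of_cent1 hH1 hH2.lt_top nH
      fun x hx hx1 => inf_le_right.trans (hC x hx hx1)
    have nil : Group.IsNilpotent H := by
      obtain ⟨W, hW⟩ := frob
      exact Fpf.isNilpotent_kernel hW.norm hW.compl_ne hW.regular
    have e : {χ : N → ℂ | IsIrrCharacter N χ ∧ ∃ h ∈ H, χ h ≠ χ 1} = ↑(seqIndD H ⊤ H ⊥) := by
      ext χ
      rw [Finset.mem_coe, frob.mem_seqIndD_iff nH le_rfl, Set.mem_ofPred_eq, ← mem_Irr_top]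
      refine and_congr_right fun hχ => ?_
      rw [(irr_char hχ).le_cfker_iff le_top]
      push Not
      rfl
    rw [e] at hτ hτ1 ⊢
    obtain ⟨ν, hν, hiso, hvc⟩ := linIso_exists_linear hτ
    rcases feit_coherence frob nil
      ⟨hiso, fun φ hφ => mem_VCon_compl_one.2 ⟨hvc φ hφ, by rw [hν φ hφ]; exact hτ1 φ hφ⟩⟩ with
      h | ⟨p, hp, h1, h2, h3⟩
    · exact Or.inl (isCoherent_of_coherent h hν (exists_ne_zero_of_one_lt_card (frob.seqIndD_irr le_rfl)
        (frob.one_lt_card_seqIndC1 (nilpotent_sol nil) (by rwa [Subgroup.relIndex_top_right]))))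
    · have := Fact.mk hp
      rw [Subgroup.relIndex_top_right] at h3
      exact Or.inr ⟨p, hp, IsPGroup.iff_card.1 h1, fun h => h2 (abelian_iff_der.1 h), h3⟩

end Cfsg.Agent.S1535
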