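import Cfsg.Statements.S1536
import Cfsg.Agent.FT.CF

set_option autoImplicit false
open Cfsg

namespace Cfsg.Agent.S1536

/-- Let H be a normal subgroup of the finite group M whose order is coprime to its index. For x ∈ M: some non-principal irreducible character of H is unchanged under h ↦ θ(x h x⁻¹) if and only if some non-identity element of H commutes with x. -/
theorem result {M : Type*} [Group M] [Finite M] (H : Subgroup M) [hN : H.Normal] (hHall : Nat.Coprime (Nat.card H) H.index) (x : M) : (∃ θ : H → ℂ, Cfsg.IsIrrCharacter H θ ∧ θ ≠ (fun _ => 1) ∧ (fun h : H => θ ⟨x * h * x⁻¹, hN.conj_mem h h.2 x⟩) = θ) ↔ ∃ h ∈ H, h ≠ 1 ∧ x * h = h * x := by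
  open Cfsg.Lib.FT Cfsg.Lib.Solv Pointwise in
  · classical
    have hx : x ∈ 𝐍 H := (normal_top_iff.2 hN).2 trivial
    constructor
    · rintro ⟨θ, h1, h2, h3⟩
      by_contra hne
      push Not at hne
      have hθ := extendByZero_mem_Irr.2 h1
      have := eq_cf1_of_mem_inertia hx (eq_bot_iff.2 fun h hh => by
        by_contra h0
        exact hne h hh.1 h0 (Subgroup.mem_centralizer_singleton_iff.1 hh.2).symm) hθ
        ((mem_inertia_iff_of_norm hx (irr_cf hθ)).2 fun y hy =>
          (extendByZero_coe' H θ ⟨_, hN.conj_mem y hy x⟩).trans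
            ((congrFun h3 ⟨y, hy⟩).trans (extendByZero_coe' H θ ⟨y, hy⟩).symm))
      exact h2 (by rw [← res_extendByZero_fun H θ, this, cf1_coe_fun])
    · rintro ⟨h, hh, h1, hc⟩
      have h2 : 1 < ((Irr H).filter (fun χ => cfConj x χ = χ)).card := by
        have := card_afix_irr_classes hx
        refine lt_of_lt_of_eq ?_ (by convert this.symm)
        refine (Set.one_lt_ncard (Set.toFinite _)).2 ⟨classSupport {1} H, ⟨1, H.one_mem, rfl,
          subset_classSupport _ _ (by simp)⟩, classSupport {h} H, ⟨h, hh, rfl,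
          subset_classSupport _ _ (by simp [hc])⟩, fun e => h1 ?_⟩
        have : (1 : M) ∈ classSupport {h} H := e ▸ subset_classSupport _ _ rfl
        exact (one_mem_classSupport.1 this).symm
      obtain ⟨χ, hχ, hne⟩ := Finset.exists_mem_ne h2 (cf1 H)
      obtain ⟨h3, h4⟩ := Finset.mem_filter.1 hχ
      refine ⟨fun y => χ y, irr_isIrr h3, fun e => hne (eq_of_res_eq (irr0 h3) (cf1_mem_CF H).1
        (e.trans (cf1_coe_fun H).symm)), ?_⟩
      funext y
      exact mem_inertia_iff.1 h4 y

end Cfsg.Agent.S1536
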