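import Cfsg.Statements.S1546
import Mathlib.FieldTheory.Finite.Basic
import Mathlib.Algebra.Ring.GeomSum
import Mathlib.Algebra.BigOperators.ModEq
import Mathlib.Data.Nat.Factorization.Induction

set_option autoImplicit false
open Cfsg

namespace Cfsg.Agent.S1546

/-- Let p and q be odd primes and N = (p ^ q − 1) / (p − 1) = 1 + p + ⋯ + p^(q−1). Then N is odd; if p ≡ 1 (mod q) then q ∣ N; and if p is not ≡ 1 (mod q) then N is coprime to p − 1 and every divisor of N is ≡ 1 (mod q). -/
theorem result (p q : ℕ) (hp : p.Prime) (hq : q.Prime) (hp2 : p ≠ 2) (hq2 : q ≠ 2) : Odd ((p ^ q - 1) / (p - 1)) ∧ (p % q = 1 → q ∣ (p ^ q - 1) / (p - 1)) ∧ (p % q ≠ 1 → Nat.Coprime ((p ^ q - 1) / (p - 1)) (p - 1) ∧ ∀ x : ℕ, x ∣ (p ^ q - 1) / (p - 1) → x % q = 1) := by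
  have hp1 : 2 ≤ p := hp.two_le
  have hN : (p ^ q - 1) / (p - 1) = ∑ k ∈ Finset.range q, p ^ k := (Nat.geomSum_eq hp1 q).symm
  have hpo : Odd p := hp.odd_of_ne_two hp2
  have hqo : Odd q := hq.odd_of_ne_two hq2
  have hmod : ∀ m : ℕ, p ≡ 1 [MOD m] → (∑ k ∈ Finset.range q, p ^ k) ≡ q [MOD m] := by
    intro m hm
    have h1 : (∑ k ∈ Finset.range q, p ^ k) ≡ (∑ _k ∈ Finset.range q, 1) [MOD m] := by
      apply Nat.ModEq.sum
      intro k _
      simpa using hm.pow k
    simpa using h1
  rw [hN]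
  refine ⟨?_, ?_, ?_⟩
  · have h2 : p ≡ 1 [MOD 2] := Nat.odd_iff.mp hpo
    have := hmod 2 h2
    rw [Nat.odd_iff]
    rw [Nat.odd_iff] at hqo
    unfold Nat.ModEq at this
    omega
  · intro h
    have h1 : p ≡ 1 [MOD q] := by
      unfold Nat.ModEq
      rw [h, Nat.mod_eq_of_lt hq.one_lt]
    have := hmod q h1
    exact (Nat.modEq_zero_iff_dvd).mp (this.trans (Nat.modEq_zero_iff_dvd.mpr dvd_rfl))
  · intro h
    have hcop : Nat.Coprime (∑ k ∈ Finset.range q, p ^ k) (p - 1) := by
      have h1 : p ≡ 1 [MOD (p - 1)] := ((Nat.modEq_iff_dvd' (by omega)).mpr dvd_rfl).symm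
      have h2 := hmod _ h1
      have h3 : Nat.Coprime q (p - 1) := by
        rw [Nat.Prime.coprime_iff_not_dvd hq]
        intro hd
        apply h
        have : 1 ≡ p [MOD q] := (Nat.modEq_iff_dvd' (by omega)).mpr hd
        unfold Nat.ModEq at this
        rw [← this, Nat.mod_eq_of_lt hq.one_lt]
      unfold Nat.Coprime
      rw [h2.gcd_eq]
      exact h3
    refine ⟨hcop, ?_⟩
    have hprime : ∀ r : ℕ, r.Prime → r ∣ (∑ k ∈ Finset.range q, p ^ k) → r ≡ 1 [MOD q] := by
      intro r hr hd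
      have : Fact r.Prime := ⟨hr⟩
      have hd2 : r ∣ p ^ q - 1 := by
        have : (∑ k ∈ Finset.range q, p ^ k) * (p - 1) = p ^ q - 1 := by
          have := Nat.geomSum_eq hp1 q
          rw [this]
          exact Nat.div_mul_cancel (by simpa using Nat.sub_dvd_pow_sub_pow p 1 q)
        rw [← this]
        exact hd.mul_right _
      have hpq : ((p : ZMod r)) ^ q = 1 := by
        have h1 : 1 ≡ p ^ q [MOD r] :=
          (Nat.modEq_iff_dvd' (Nat.one_le_pow _ _ (by omega))).mpr hd2
        have := (ZMod.natCast_eq_natCast_iff _ _ _).mpr h1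
        simpa using this.symm
      have hne : (p : ZMod r) ≠ 1 := by
        intro h1
        have h2 : ((p : ℕ) : ZMod r) = ((1 : ℕ) : ZMod r) := by simpa using h1
        have h3 := (ZMod.natCast_eq_natCast_iff _ _ _).mp h2
        have h4 : r ∣ p - 1 := (Nat.modEq_iff_dvd' (by omega)).mp h3.symm
        have := Nat.dvd_gcd hd h4
        rw [hcop] at this
        exact hr.one_lt.ne' (Nat.dvd_one.mp this)
      have : Fact q.Prime := ⟨hq⟩
      have hord : orderOf (p : ZMod r) = q := orderOf_eq_prime hpq hne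
      have h0 : (p : ZMod r) ≠ 0 := by
        intro h0
        rw [h0, zero_pow hq.ne_zero] at hpq
        exact zero_ne_one hpq
      have hdiv : q ∣ r - 1 := by
        rw [← hord]
        exact ZMod.orderOf_dvd_card_sub_one h0
      exact ((Nat.modEq_iff_dvd' hr.one_le).mpr hdiv).symm
    have hpos : (∑ k ∈ Finset.range q, p ^ k) ≠ 0 := by
      intro h0
      have := Finset.sum_eq_zero_iff.mp h0 0 (Finset.mem_range.mpr hq.pos)
      simp at this
    intro x hx
    have key : ∀ x : ℕ, x ∣ (∑ k ∈ Finset.range q, p ^ k) → x ≡ 1 [MOD q] := by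
      intro x
      induction x using Nat.recOnMul with
      | zero => intro h0; exact absurd (Nat.eq_zero_of_zero_dvd h0) hpos
      | one => intro _; rfl
      | prime r hr => exact hprime r hr
      | mul a b iha ihb =>
        intro hab
        have := (iha ((dvd_mul_right a b).trans hab)).mul (ihb ((dvd_mul_left b a).trans hab))
        simpa using this
    have := key x hx
    unfold Nat.ModEq at this
    rw [this, Nat.mod_eq_of_lt hq.one_lt]

end Cfsg.Agent.S1546
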