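import Cfsg.Statements.S1551
import Cfsg.Agent.Spor.M24Graph
import Cfsg.Agent.Spor.GeoSextet

set_option autoImplicit false
open scoped Pointwise
open Cfsg

namespace Cfsg.Agent.S1551

open Cfsg.Lib.Spor Cfsg.Lib.Spor.Orb MulAction
open scoped Pointwise Matrix

def aP : List (ℕ × List ℕ) :=
  [(464199074804482842426740333169255652, [9, 11, 10, 15, 17, 16, 12, 14, 13, 8, 7, 6, 1, 0, 2, 3, 5, 4]),
   (208062362704901814534986201970526913, [12, 13, 14, 7, 6, 8, 3, 5, 4, 11, 10, 9, 15, 17, 16, 0, 1, 2]),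
   (979121071158219704299181131031480352, [0, 1, 2, 3, 4, 5, 6, 7, 8, 9, 10, 11, 12, 13, 14, 15, 16, 17]),
   (971592882964418941354553515258775584, [0, 1, 2, 3, 4, 5, 6, 7, 8, 9, 10, 11, 12, 13, 14, 15, 16, 17]),
   (971269592446826249552146775608034368, [0, 1, 2, 3, 4, 5, 6, 7, 8, 9, 10, 11, 12, 13, 14, 15, 16, 17]),
   (971819396280820402089423123271160928, [0, 1, 2, 3, 4, 5, 6, 7, 8, 9, 10, 11, 12, 13, 14, 15, 16, 17]),
   (735088026238331349752160938756245550, [0, 1, 2, 3, 4, 5, 6, 7, 8, 9, 10, 11, 12, 13, 14, 15, 16, 17]),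
   (605194567047727787246479485724427345, [0, 1, 2, 3, 4, 5, 6, 7, 8, 9, 10, 11, 12, 13, 14, 15, 16, 17])]

def aC : List Cfsg.Lib.Spor.PK.Cert :=
  [⟨0, [256, 1409, 902, 1095, 1281, 514, 707, 837, 640, 65, 1154, 771, 1479, 448, 386, 1219, 960, 132, 197, 1027,
    321, 579, 1348], [[0, 1, 0, 4, 1, 3, 0, 1], [1, 0, 0, 7, 3, 0, 1]]⟩,
   ⟨4, [768, 129, 449, 192, 385, 833, 1281, 1025, 1216, 1153, 1345, 512, 577, 960, 65, 705, 641, 1408, 321], [[1,
    1, 1, 1, 0, 1, 1, 0, 1, 1, 0], [1, 0, 1, 1, 0, 1, 1, 1, 1, 0, 1], [1, 0, 1, 1, 1, 0, 1, 1, 1, 1, 1, 0,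
    1]]⟩,
   ⟨1, [1408, 193, 130, 577, 1026, 1152, 768, 1218, 320, 1345, 961, 449, 1281, 386, 642], [[0, 1, 2, 0, 2, 1, 0],
    [1, 0, 2, 0, 1], [2, 0, 1, 2, 0, 2, 1, 0, 1]]⟩,
   ⟨2, [192, 321], [[2, 0], [0, 1, 2, 1, 0]]⟩,
   ⟨6, [1024, 1344], [[1]]⟩,
   ⟨3, [320], []⟩]

def aD : List Cfsg.Lib.Spor.PK.Cert :=
  [⟨0, [832, 961, 512, 65, 192, 769, 576, 321, 1025, 385, 705, 449, 897, 257, 640, 129, 1088], [[1, 0, 0, 1, 1],
    [0, 1, 0, 1]]⟩,
   ⟨1, [128], [[0, 0], [1]]⟩,
   ⟨3, [384, 257, 832, 961, 448, 321, 897, 1024, 577, 768, 1089, 512, 641, 704], [[1, 0, 0, 1, 0], [0, 0, 1, 0,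
    1]]⟩,
   ⟨6, [640, 1089, 833], []⟩]

theorem a_chk : homChk 10 9 18 aP aC aD = true := by decide +kernel

def aN : List ℕ :=
  [979121071158219704299181131031480352, 971592882964418941354553515258775584, 971269592446826249552146775608034368, 971819396280820402089423123271160928, 735088026238331349752160938756245550, 605194567047727787246479485724427345]

def aE : List Cfsg.Lib.Spor.PK.Cert :=
  [⟨4, [512, 705, 835], [[1, 5, 0], [3, 2, 1], [3, 5], [1, 4]]⟩,
   ⟨1, [128, 321, 193], [[3], [1, 2]]⟩,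
   ⟨0, [896, 1089, 1473], []⟩]

def tbl : List ℕ :=
  [0, 21077638437978097526952805462872430, 984311814989845145604657326788811089, 15804065863877384374081224431871214, 958287607971066893459446540842588561, 65293295545172292060043128508809954, 21077638437978097526952805462872430, 0, 29182921867771703228355785177273399, 976339682345344139827193568350540846, 17735199081803248849901638440256686, 348749202704187742396639721491105956, 984311814989845145604657326788811089, 29182921867771703228355785177273399, 0, 735127360547536388883598016557189280, 731691358918902897888372871990904928, 439379682087267100563137028907240518, 15804065863877384374081224431871214, 976339682345344139827193568350540846, 735127360547536388883598016557189280, 0, 9760050169060749014126695018562670, 894016463920743658616431586059521191, 958287607971066893459446540842588561, 17735199081803248849901638440256686, 731691358918902897888372871990904928, 9760050169060749014126695018562670, 0, 664910883641407277315724352033985654,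 65293295545172292060043128508809954, 348749202704187742396639721491105956, 439379682087267100563137028907240518, 894016463920743658616431586059521191, 664910883641407277315724352033985654, 0]

theorem base : ∃ φ : stabilizer Cfsg.M24 (fam 6 sext0) →* Equiv.Perm (Fin 18),
    Nat.card φ.ker = 64 ∧ ∀ x ∈ φ.ker, x * x = 1 := by
  have h3 : ∀ p ∈ aP, fixFam p.1 6 sext0 = true := by decide +kernel
  have hm : ∀ p ∈ aP, pkM24 p.1 = true → m24 p.1 ∈ stabilizer Cfsg.M24 (fam 6 sext0) :=
    fun p hp h => smul_of_fixFam h (h3 p hp)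
  obtain ⟨φ, h4, h5⟩ := exists_hom_of_gens (PK.ptsOk_fin 18)
    (fun p hp => exists_actL_fin (by revert p; decide +kernel)) a_chk hm
    (card_stab_sextet sext0_mem).le
  obtain ⟨h6, h7⟩ := forall_of_gens φ.ker (ns := aN)
    (mem_ker_of_gens (PK.ptsOk_fin 18) hm h5 (by decide +kernel)) (cert := aE) (by decide +kernel)
    (card_ker_le φ h4 (by decide +kernel) (card_stab_sextet sext0_mem))
    (f := fun c => Nat.beq (MP.pmul c c) MP.pid) (by decide +kernel)
  refine ⟨φ, h6, fun x hx => ?_⟩
  obtain ⟨c, c1, c2, c3⟩ := h7 x hx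
  have := (m24_sq_iff c1).2 c3
  rw [c2] at this
  exact Subtype.ext this


/-- Structure of a sextet stabiliser: it induces every permutation of the six tetrads, the subgroup fixing each tetrad setwise has order 192, and there is a normal subgroup of order 64 consisting of elements squaring to the identity. -/
theorem result (S : Finset (Finset Cfsg.GolayPt)) (hS : S ∈ Cfsg.sextets) : (∀ e : Equiv.Perm ↥S, ∃ g ∈ MulAction.stabilizer Cfsg.M24 S, ∀ t : ↥S, (g : Equiv.Perm Cfsg.GolayPt) • (t : Finset Cfsg.GolayPt) = ((e t : ↥S) : Finset Cfsg.GolayPt)) ∧ Nat.card {g : ↥(MulAction.stabilizer Cfsg.M24 S) // ∀ t ∈ S, ((g : Cfsg.M24) : Equiv.Perm Cfsg.GolayPt) • t = t} = 192 ∧ ∃ N : Subgroup ↥(MulAction.stabilizer Cfsg.M24 S), N.Normal ∧ Nat.card N = 64 ∧ ∀ x ∈ N, x * x = 1 := by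
  have h1 := setHom_fam_surjective (famOk_of_isSext isSext_sext0) tbl (by decide +kernel)
    (trans_sextets sext0_mem hS)
  refine ⟨fun e => ?_, ?_, ?_⟩
  · obtain ⟨g, rfl⟩ := h1 e
    exact ⟨g.1, g.2, fun t => rfl⟩
  · have h2 := card_ker_mul h1
    rw [card_stab_sextet hS, Nat.card_perm, Nat.card_eq_finsetCard, hS.1,
      show Nat.factorial 6 = 720 by rfl] at h2
    rw [← show Nat.card (setHom Cfsg.M24 S).ker = 192 by omega]
    exact Nat.card_congr (Equiv.subtypeEquivRight fun g => (mem_ker_setHom (h := g)).symm)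
  · obtain ⟨e⟩ := nonempty_stab_equiv (trans_sextets sext0_mem hS)
      (H := stabilizer Cfsg.M24 (fam 6 sext0)) (K := stabilizer Cfsg.M24 S)
      (fun _ => Iff.rfl) (fun _ => Iff.rfl)
    obtain ⟨φ, h2, h3⟩ := base
    refine ⟨(φ.comp e.toMonoidHom).ker, inferInstance, (card_ker_comp φ e).trans h2, fun x hx => ?_⟩
    apply e.injective
    rw [map_mul, map_one]
    exact h3 _ hx

end Cfsg.Agent.S1551
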