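import Cfsg.Statements.S1552
import Cfsg.Agent.Spor.GeoSextet

set_option autoImplicit false
open scoped Pointwise
open Cfsg

namespace Cfsg.Agent.S1552

/-- A sextet stabiliser has four orbits on the 1771 sextets, of sizes 1, 90, 240, 1440; and the stabiliser is a maximal proper subgroup. -/
theorem result (S : Finset (Finset Cfsg.GolayPt)) (hS : S ∈ Cfsg.sextets) : ∃ X₁ ∈ Cfsg.sextets, ∃ X₂ ∈ Cfsg.sextets, ∃ X₃ ∈ Cfsg.sextets, (MulAction.orbit ↥(MulAction.stabilizer Cfsg.M24 S) X₁).ncard = 90 ∧ (MulAction.orbit ↥(MulAction.stabilizer Cfsg.M24 S) X₂).ncard = 240 ∧ (MulAction.orbit ↥(MulAction.stabilizer Cfsg.M24 S) X₃).ncard = 1440 ∧ Cfsg.sextets = {S} ∪ MulAction.orbit ↥(MulAction.stabilizer Cfsg.M24 S) X₁ ∪ MulAction.orbit ↥(MulAction.stabilizer Cfsg.M24 S) X₂ ∪ MulAction.orbit ↥(MulAction.stabilizer Cfsg.M24 S) X₃ ∧ IsCoatom (MulAction.stabilizer Cfsg.M24 S) := by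
  open Cfsg Cfsg.Lib.Spor Cfsg.Lib.Spor.Orb MulAction in
  obtain ⟨X₁, h1, X₂, h2, X₃, h3, e1, e2, e3, e4⟩ := (rank_sext_sext hS).one_three
    (H := stabilizer M24 S) (fun g => mem_stabilizer_iff) hS (hist_self_sext hS) rfl
  open Cfsg Cfsg.Lib.Spor Cfsg.Lib.Spor.Orb MulAction in
  exact ⟨X₁, h1, X₂, h2, X₃, h3, e1, e2, e3, e4, (rank_sext_sext hS).isCoatom hS
    (fun y => ⟨trans_sextets hS, fun ⟨g, hg⟩ => hg ▸ smul_mem_sextets' g hS⟩) 0
    (hist_self_sext hS) (by decide) (by decide)⟩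

end Cfsg.Agent.S1552
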