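import Cfsg.Statements.S1553
import Cfsg.Agent.Spor.OctadStab

set_option autoImplicit false
open scoped Pointwise
open Cfsg

namespace Cfsg.Agent.S1553

open Cfsg.Lib.Spor Cfsg.Lib.Spor.Orb MulAction

/-- The stabiliser of an octad in the group of the length-24 code induces on the octad exactly its alternating group. -/
theorem result (o : Finset Cfsg.GolayPt) (ho : o ∈ Cfsg.octads) : {e : Equiv.Perm ↥o | ∃ g : Equiv.Perm Cfsg.GolayPt, g ∈ Cfsg.M24 ∧ ∃ h : (∀ x, g x ∈ o ↔ x ∈ o), g.subtypePerm h = e} = (alternatingGroup ↥o : Set (Equiv.Perm ↥o)) := by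
  rw [← range_setHom_octad ho]
  ext e
  constructor
  · rintro ⟨g, hg, h, rfl⟩
    have h1 : (⟨g, hg⟩ : Cfsg.M24) ∈ stabilizer Cfsg.M24 o := by
      rw [mem_stabilizer_iff]
      apply Finset.eq_of_subset_of_card_le _ (by rw [Finset.card_smul_finset])
      intro y hy
      obtain ⟨x, hx, rfl⟩ := Finset.mem_smul_finset.1 hy
      exact (h x).2 hx
    exact ⟨⟨_, h1⟩, rfl⟩
  · rintro ⟨g, rfl⟩
    refine ⟨g.1.1, g.1.2, fun x => ?_, rfl⟩
    have h2 : g.1 • o = o := g.2
    have := mem_smul_iff g.1 x o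
    rwa [h2] at this

end Cfsg.Agent.S1553
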