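import Cfsg.Statements.S1554
import Cfsg.Agent.Spor.OctadStab

set_option autoImplicit false
open scoped Pointwise
open Cfsg

namespace Cfsg.Agent.S1554

open Cfsg.Lib.Spor Cfsg.Lib.Spor.Orb MulAction
open scoped Pointwise

/-- An octad stabiliser is a split extension: the joint stabiliser of the octad and a point outside it is a complement to the pointwise stabiliser of the octad, and is isomorphic to the alternating group of degree 8. -/
theorem result (o : Finset Cfsg.GolayPt) (ho : o ∈ Cfsg.octads) (p : Cfsg.GolayPt) (hp : p ∉ o) : (Cfsg.M24 ⊓ fixingSubgroup (Equiv.Perm Cfsg.GolayPt) (o : Set Cfsg.GolayPt)) ⊓ (Cfsg.M24 ⊓ MulAction.stabilizer (Equiv.Perm Cfsg.GolayPt) o ⊓ MulAction.stabilizer (Equiv.Perm Cfsg.GolayPt) p) = ⊥ ∧ (Cfsg.M24 ⊓ fixingSubgroup (Equiv.Perm Cfsg.GolayPt) (o : Set Cfsg.GolayPt)) ⊔ (Cfsg.M24 ⊓ MulAction.stabilizer (Equiv.Perm Cfsg.GolayPt) o ⊓ MulAction.stabilizer (Equiv.Perm Cfsg.GolayPt)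 p) = (Cfsg.M24 ⊓ MulAction.stabilizer (Equiv.Perm Cfsg.GolayPt) o) ∧ Nonempty (↥(Cfsg.M24 ⊓ MulAction.stabilizer (Equiv.Perm Cfsg.GolayPt) o ⊓ MulAction.stabilizer (Equiv.Perm Cfsg.GolayPt) p) ≃* alternatingGroup (Fin 8)) := by
  have hc : o.card = 8 := (mem_octads_iff'.1 ho).2
  refine ⟨?_, ?_, ?_⟩
  · rw [Subgroup.eq_bot_iff_forall]
    rintro g ⟨⟨hg, h1⟩, -, h2⟩
    have := eq_one_of_fix_octad_pt (g := ⟨g, hg⟩) ho hp h1 h2
    exact congrArg Subtype.val this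
  · apply le_antisymm
    · refine sup_le ?_ inf_le_left
      rintro g ⟨hg, h1⟩
      exact ⟨hg, smul_eq_of_mem_ptStab (g := ⟨g, hg⟩) h1⟩
    · rintro g ⟨hg, h1⟩
      have h2 : (⟨g, hg⟩ : Cfsg.M24) • o = o := h1
      have h3 : (⟨g, hg⟩ : Cfsg.M24) • p ∉ o :=
        fun h => hp ((mem_smul_iff ⟨g, hg⟩ p o).1 (by rwa [h2]))
      obtain ⟨e, he, hep⟩ := exists_ptStab_smul ho hp h3
      have h4 : g = e.1 * (e⁻¹ * ⟨g, hg⟩ : Cfsg.M24).1 := by
        rw [← Subgroup.coe_mul, mul_inv_cancel_left]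
      rw [h4]
      refine Subgroup.mul_mem_sup ⟨e.2, he⟩ ⟨⟨Subtype.prop _, ?_⟩, ?_⟩
      · show (e⁻¹ * ⟨g, hg⟩ : Cfsg.M24) • o = o
        rw [mul_smul, h2, smul_eq_of_mem_ptStab ((ptStab o).inv_mem he)]
      · show (e⁻¹ * ⟨g, hg⟩ : Cfsg.M24) • p = p
        rw [mul_smul, ← hep, inv_smul_smul]
  · set A := Cfsg.M24 ⊓ stabilizer (Equiv.Perm Cfsg.GolayPt) o ⊓
      stabilizer (Equiv.Perm Cfsg.GolayPt) p with hA
    let ι : A →* stabilizer Cfsg.M24 o :=
      { toFun := fun g => ⟨⟨g.1, g.2.1.1⟩, g.2.1.2⟩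
        map_one' := rfl
        map_mul' := fun _ _ => rfl }
    let φ : A →* alternatingGroup o :=
      ((setHom Cfsg.M24 o).comp ι).codRestrict _ fun g => by
        rw [← range_setHom_octad ho]; exact ⟨_, rfl⟩
    have hinj : Function.Injective φ := by
      rw [injective_iff_map_eq_one]
      intro g hg
      have h1 : ι g ∈ (setHom Cfsg.M24 o).ker := congrArg Subtype.val hg
      have h2 := eq_one_of_fix_octad_pt (g := (ι g).1) ho hp
        (mem_ptStab.2 (mem_ker_setHom.1 h1)) g.2.2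
      have h3 : ((ι g).1 : Equiv.Perm Cfsg.GolayPt) = 1 := congrArg Subtype.val h2
      exact Subtype.ext h3
    have hsurj : Function.Surjective φ := by
      rintro ⟨e, he⟩
      rw [← range_setHom_octad ho] at he
      obtain ⟨g, rfl⟩ := he
      have h2 : g.1 • o = o := g.2
      have h3 : g.1 • p ∉ o := fun h => hp ((mem_smul_iff g.1 p o).1 (by rwa [h2]))
      obtain ⟨e, he, hep⟩ := exists_ptStab_smul ho hp h3
      refine ⟨⟨(e⁻¹ * g.1).1, ⟨Subtype.prop _, ?_⟩, ?_⟩, ?_⟩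
      · show (e⁻¹ * g.1) • o = o
        rw [mul_smul, h2, smul_eq_of_mem_ptStab ((ptStab o).inv_mem he)]
      · show (e⁻¹ * g.1) • p = p
        rw [mul_smul, ← hep, inv_smul_smul]
      · refine Subtype.ext (Equiv.ext fun x => Subtype.ext ?_)
        show (e⁻¹ * g.1) • (x : Cfsg.GolayPt) = g.1 • (x : Cfsg.GolayPt)
        rw [mul_smul]
        refine mem_ptStab.1 ((ptStab o).inv_mem he) _ ?_
        exact (setHom Cfsg.M24 o g x).2
    have e : o ≃ Fin 8 := Finset.equivFinOfCardEq hc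
    exact ⟨(MulEquiv.ofBijective φ ⟨hinj, hsurj⟩).trans e.altCongrHom⟩

end Cfsg.Agent.S1554
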