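import Cfsg.Statements.S1558
import Cfsg.Agent.Spor.M24Graph
import Cfsg.Agent.Spor.GeoTrio

set_option autoImplicit false
open scoped Pointwise
open Cfsg

namespace Cfsg.Agent.S1558

open Cfsg.Lib.Spor Cfsg.Lib.Spor.Orb MulAction
open scoped Pointwise Matrix

def aP : List (ℕ × List ℕ) :=
  [(334429812458339226297681720738824781, [5, 6, 0, 4, 2, 1, 3, 9, 8, 7]),
   (126806265027945550289283272586929483, [6, 0, 5, 4, 1, 3, 2, 8, 9, 7]),
   (984330238668445353307680420861740096, [0, 1, 2, 3, 4, 5, 6, 7, 8, 9]),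
   (984232233431490913630068531325373600, [0, 1, 2, 3, 4, 5, 6, 7, 8, 9]),
   (984193134333667655196206109968142752, [0, 1, 2, 3, 4, 5, 6, 7, 8, 9]),
   (766116672427438191009849162902574188, [0, 1, 2, 3, 4, 5, 6, 7, 8, 9]),
   (722119245071071830182446189049320558, [0, 1, 2, 3, 4, 5, 6, 7, 8, 9]),
   (944482944150388553674377319761876080, [0, 1, 2, 3, 4, 5, 6, 7, 8, 9])]

def aC : List Cfsg.Lib.Spor.PK.Cert :=
  [⟨0, [832, 1281, 773, 902, 1031, 258, 515, 68, 709, 1344, 1218, 387, 452, 583, 961, 1414, 1095, 641, 1159, 128,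
    1472, 324, 197], [[0, 3, 0, 1, 7, 1, 0], [0, 3, 7, 2, 0]]⟩,
   ⟨1, [640, 193, 1280, 705, 577, 960, 257, 1217, 128, 1345, 321, 832, 449, 385, 512], [[1, 0, 1, 1, 1, 0, 0, 0,
    0, 0, 1], [1, 1, 0, 1, 0, 1, 1, 1]]⟩,
   ⟨3, [704, 513, 128, 320, 832, 257], [[1, 0, 0, 1, 1, 0, 0, 1, 1], [1, 0, 1, 1]]⟩,
   ⟨2, [832, 321, 256, 704, 512], [[1, 1], [0, 1, 0]]⟩,
   ⟨4, [512, 705, 833], []⟩]

def aD : List Cfsg.Lib.Spor.PK.Cert :=
  [⟨0, [128, 65, 256, 385, 320, 192], [[0, 1, 1], [1, 1, 0, 1, 0]]⟩,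
   ⟨1, [384, 129, 192, 257, 320], [[1, 1], [1, 0, 0, 0, 1], [0, 0, 1, 0, 0]]⟩,
   ⟨3, [256, 322, 386], [[2, 2], [0, 1]]⟩,
   ⟨7, [512, 577], [[1, 0]]⟩,
   ⟨8, [576], []⟩]

theorem a_chk : homChk 10 8 10 aP aC aD = true := by decide +kernel

def aN : List ℕ :=
  [984330238668445353307680420861740096, 984232233431490913630068531325373600, 984193134333667655196206109968142752, 766116672427438191009849162902574188, 722119245071071830182446189049320558, 944482944150388553674377319761876080]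

def aE : List Cfsg.Lib.Spor.PK.Cert :=
  [⟨1, [128, 321, 834, 195, 258, 514, 707], [[1, 4, 0], [3, 4], [3, 5]]⟩,
   ⟨0, [896, 1409, 1090, 769, 1474, 1154, 1026], []⟩]

def tbl : List ℕ :=
  [0, 29910402320794707502309575739284110, 131741354996575850126099074222114317, 29910402320794707502309575739284110, 0, 427635204847190396509109373472257109, 131741354996575850126099074222114317, 427635204847190396509109373472257109, 0]

def vec (i : ℕ) (j : Fin 3) : ZMod 2 := ((i + 1) / 2 ^ (j : ℕ) : ℕ)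

theorem pts : PK.PtsOk (GL (Fin 3) (ZMod 2) × Equiv.Perm (Fin 3)) (7 + 3)
    (PK.ptS 7 vec (Fin.ofNat 3)) :=
  (PK.ptsOk_GL (by decide +kernel) (by decide +kernel)).sum (PK.ptsOk_fin 3)

theorem card_stab_trio {T : Finset (Finset Cfsg.GolayPt)} (hT : T ∈ Cfsg.trios) :
    Nat.card (stabilizer Cfsg.M24 T) = 64512 := by
  have := card_stabilizer_M24 (A := Cfsg.trios) (x := T) fun y =>
    ⟨trans_trios hT, fun ⟨g, hg⟩ => hg ▸ smul_mem_trios' g hT⟩
  rw [ncard_trios] at this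
  omega

theorem card_Q : Nat.card (GL (Fin 3) (ZMod 2) × Equiv.Perm (Fin 3)) = 1008 := by
  rw [Nat.card_prod, Matrix.card_GL_field, Nat.card_perm, Nat.card_fin, ZMod.card]; rfl

theorem base : ∃ φ : stabilizer Cfsg.M24 (fam 3 trio0) →* GL (Fin 3) (ZMod 2) × Equiv.Perm (Fin 3),
    Function.Surjective φ ∧ Nat.card φ.ker = 64 ∧ ∀ x ∈ φ.ker, x * x = 1 := by
  have h3 : ∀ p ∈ aP, fixFam p.1 3 trio0 = true := by decide +kernel
  have hm : ∀ p ∈ aP, pkM24 p.1 = true → m24 p.1 ∈ stabilizer Cfsg.M24 (fam 3 trio0) :=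
    fun p hp h => smul_of_fixFam h (h3 p hp)
  have hq : ∀ p ∈ aP, ∃ q : GL (Fin 3) (ZMod 2) × Equiv.Perm (Fin 3),
      PK.ActL (PK.ptS 7 vec (Fin.ofNat 3)) (7 + 3) p.2 q := by
    simp only [aP, List.forall_mem_cons, List.not_mem_nil, false_imp_iff, implies_true, and_true]
    refine ⟨?_, ?_, ⟨1, actL_range _ _⟩, ⟨1, actL_range _ _⟩, ⟨1, actL_range _ _⟩, ⟨1, actL_range _ _⟩, ⟨1, actL_range _ _⟩, ⟨1, actL_range _ _⟩⟩
    · exact exists_actL_pair (l₁ := [5, 6, 0, 4, 2, 1, 3]) (l₂ := [2, 1, 0])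
        (exists_actL_GL !![0, 1, 1; 1, 1, 0; 1, 1, 1] !![1, 0, 1; 1, 1, 1; 0, 1, 1] (by decide +kernel)) (exists_actL_fin (by decide))
    · exact exists_actL_pair (l₁ := [6, 0, 5, 4, 1, 3, 2]) (l₂ := [1, 2, 0])
        (exists_actL_GL !![1, 1, 1; 1, 0, 0; 1, 0, 1] !![0, 1, 0; 1, 0, 1; 0, 1, 1] (by decide +kernel)) (exists_actL_fin (by decide))
  obtain ⟨φ, h4, h5⟩ := exists_hom_of_gens pts hq a_chk hm (card_stab_trio trio0_mem).le
  obtain ⟨h6, h7⟩ := forall_of_gens φ.ker (ns := aN)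
    (mem_ker_of_gens pts hm h5 (by decide +kernel)) (cert := aE) (by decide +kernel)
    (card_ker_le φ h4 (by decide +kernel) (card_stab_trio trio0_mem))
    (f := fun c => Nat.beq (MP.pmul c c) MP.pid) (by decide +kernel)
  refine ⟨φ, surjective_of_card_le φ (card_Q ▸ h4), h6, fun x hx => ?_⟩
  obtain ⟨c, c1, c2, c3⟩ := h7 x hx
  have := (m24_sq_iff c1).2 c3
  rw [c2] at this
  exact Subtype.ext this


/-- Structure of a trio stabiliser: every permutation of the three octads is induced, and there is a normal subgroup of order 64 of elements squaring to the identity whose quotient is isomorphic to the product of GL(3, 2) with the symmetric group of degree 3. -/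
theorem result (T : Finset (Finset Cfsg.GolayPt)) (hT : T ∈ Cfsg.trios) : (∀ e : Equiv.Perm ↥T, ∃ g ∈ MulAction.stabilizer Cfsg.M24 T, ∀ o : ↥T, (g : Equiv.Perm Cfsg.GolayPt) • (o : Finset Cfsg.GolayPt) = ((e o : ↥T) : Finset Cfsg.GolayPt)) ∧ ∃ (N : Subgroup ↥(MulAction.stabilizer Cfsg.M24 T)) (_ : N.Normal), Nat.card N = 64 ∧ (∀ x ∈ N, x * x = 1) ∧ Nonempty (↥(MulAction.stabilizer Cfsg.M24 T) ⧸ N ≃* GL (Fin 3) (ZMod 2) × Equiv.Perm (Fin 3)) := by
  have h1 := setHom_fam_surjective (famOk_of_isTrio isTrio_trio0) tbl (by decide +kernel)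
    (trans_trios trio0_mem hT)
  refine ⟨fun e => ?_, ?_⟩
  · obtain ⟨g, rfl⟩ := h1 e
    exact ⟨g.1, g.2, fun t => rfl⟩
  · obtain ⟨e⟩ := nonempty_stab_equiv (trans_trios trio0_mem hT)
      (H := stabilizer Cfsg.M24 (fam 3 trio0)) (K := stabilizer Cfsg.M24 T)
      (fun _ => Iff.rfl) (fun _ => Iff.rfl)
    obtain ⟨φ, h0, h2, h3⟩ := base
    refine ⟨(φ.comp e.toMonoidHom).ker, inferInstance, (card_ker_comp φ e).trans h2, fun x hx => ?_,
      ⟨QuotientGroup.quotientKerEquivOfSurjective _ (h0.comp e.surjective)⟩⟩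
    apply e.injective
    rw [map_mul, map_one]
    exact h3 _ hx

end Cfsg.Agent.S1558
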