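import Cfsg.Statements.S1560
import Cfsg.Agent.S0386

set_option autoImplicit false
open scoped Pointwise
open Cfsg

namespace Cfsg.Agent.S1560

/-- Intersection numbers of dodecads: a dodecad meets every other dodecad in 0, 4, 6 or 8 points, meeting 495 of them in 4 points, 1584 in 6 points and 495 in 8 points. -/
theorem result (d : Finset Cfsg.GolayPt) (hd : d ∈ Cfsg.dodecads) : (∀ d' ∈ Cfsg.dodecads, d' ≠ d → (d ∩ d').card = 0 ∨ (d ∩ d').card = 4 ∨ (d ∩ d').card = 6 ∨ (d ∩ d').card = 8) ∧ {d' : Finset Cfsg.GolayPt | d' ∈ Cfsg.dodecads ∧ (d ∩ d').card = 4}.ncard = 495 ∧ {d' : Finset Cfsg.GolayPt | d' ∈ Cfsg.dodecads ∧ (d ∩ d').card = 6}.ncard = 1584 ∧ {d' : Finset Cfsg.GolayPt | d' ∈ Cfsg.dodecads ∧ (d ∩ d').card = 8}.ncard = 495 := by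
  have h : ∀ j, {d' : Finset Cfsg.GolayPt | d' ∈ Cfsg.dodecads ∧ (d ∩ d').card = j}.ncard = _ :=
    fun j => by
      simp only [Finset.inter_comm d]
      exact Cfsg.Agent.S0386.ncard_inter_dodecad d hd 12 j
  refine ⟨fun d' hd' hne => ?_, (h 4).trans (by decide +kernel), (h 6).trans (by decide +kernel),
    (h 8).trans (by decide +kernel)⟩
  have h1 := Cfsg.Lib.Spor.card_symmDiff_add d d'
  have h2 := Cfsg.Lib.Spor.card_of_mem_golaySets
    (Cfsg.Lib.Spor.symmDiff_mem_golaySets hd.1 hd'.1)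
  have h3 : (symmDiff d d').card ≠ 0 := by
    rw [Finset.card_ne_zero, Finset.nonempty_iff_ne_empty, ← Finset.bot_eq_empty, Ne,
      symmDiff_eq_bot]
    exact hne.symm
  rw [hd.2, hd'.2] at h1
  omega

end Cfsg.Agent.S1560
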