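import Cfsg.Statements.S1561
import Cfsg.Agent.Spor.GeoDodecad

set_option autoImplicit false
open scoped Pointwise
open Cfsg

namespace Cfsg.Agent.S1561

/-- Two dodecads meeting a fixed dodecad in equally many points lie in one orbit of its stabiliser. -/
theorem result (d d' d'' : Finset Cfsg.GolayPt) (hd : d ∈ Cfsg.dodecads) (hd' : d' ∈ Cfsg.dodecads) (hd'' : d'' ∈ Cfsg.dodecads) (h : (d ∩ d').card = (d ∩ d'').card) : ∃ g : Equiv.Perm Cfsg.GolayPt, g ∈ Cfsg.M24 ∧ g • d = d ∧ g • d' = d'' := by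
  open Cfsg Cfsg.Lib.Spor Cfsg.Lib.Spor.Orb MulAction in
  obtain ⟨g, h1, h2⟩ := (rank_dod_dod hd).trans _ hd' _ hd'' h
  exact ⟨g, g.2, h1, h2⟩

end Cfsg.Agent.S1561
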