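import Cfsg.Statements.S1562
import Cfsg.Agent.Spor.GeoSmall

set_option autoImplicit false
open scoped Pointwise
open Cfsg

namespace Cfsg.Agent.S1562

open Cfsg.Lib.Spor Cfsg.Lib.Spor.Orb MulAction

theorem phi_eq {T U : Finset GolayPt} (h : Disjoint T U) :
    phiU T U = four (∃ o ∈ octads, T ∪ U ⊆ o) := by
  rw [phiU, Finset.disjoint_iff_inter_eq_empty.1 h, Finset.card_empty, zero_add]

theorem phi_iff {T U : Finset GolayPt} (hT : T.card = 3) :
    (phiU T U = 4 ↔ Disjoint T U ∧ ∃ o ∈ octads, T ∪ U ⊆ o) ∧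
    (phiU T U = 0 ↔ Disjoint T U ∧ ¬ ∃ o ∈ octads, T ∪ U ⊆ o) := by
  have h1 : (T ∩ U).card ≤ 3 := hT ▸ Finset.card_le_card Finset.inter_subset_left
  rw [Finset.disjoint_iff_inter_eq_empty, ← Finset.card_eq_zero, phiU]
  by_cases h : ∃ o ∈ octads, T ∪ U ⊆ o
  · rw [four_pos h]; simp only [h, and_true, not_true, and_false, iff_false]; omega
  · rw [four_neg h]; simp only [h, and_false, not_false_eq_true, and_true, iff_false]; omega

/-- Orbits of a triad stabiliser on the triads disjoint from it: the 210 triads inside a common octad with it form one orbit and the remaining 1120 another. -/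
theorem result (T : Finset Cfsg.GolayPt) (hT : T.card = 3) : {U : Finset Cfsg.GolayPt | U.card = 3 ∧ Disjoint T U ∧ (∃ o ∈ Cfsg.octads, T ∪ U ⊆ o)}.ncard = 210 ∧ {U : Finset Cfsg.GolayPt | U.card = 3 ∧ Disjoint T U ∧ ¬ (∃ o ∈ Cfsg.octads, T ∪ U ⊆ o)}.ncard = 1120 ∧ ∀ U U' : Finset Cfsg.GolayPt, U.card = 3 → U'.card = 3 → Disjoint T U → Disjoint T U' → ((∃ o ∈ Cfsg.octads, T ∪ U ⊆ o) ↔ (∃ o ∈ Cfsg.octads, T ∪ U' ⊆ o)) → ∃ g : Equiv.Perm Cfsg.GolayPt, g ∈ Cfsg.M24 ∧ g • T = T ∧ g • U = U' := by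
  have R := rank_three_three hT
  refine ⟨?_, ?_, fun U U' hU hU' h1 h2 h3 => ?_⟩
  · simp only [← (phi_iff hT).1]
    exact R.card 2
  · simp only [← (phi_iff hT).2]
    exact R.card 4
  · obtain ⟨g, e1, e2⟩ := R.trans U hU U' hU' (by rw [phi_eq h1, phi_eq h2, h3])
    exact ⟨g, g.2, e1, e2⟩

end Cfsg.Agent.S1562
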