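import Cfsg.Statements.S1565
import Cfsg.Agent.Spor.GeoOctad

set_option autoImplicit false
open scoped Pointwise
open Cfsg

namespace Cfsg.Agent.S1565

/-- The stabiliser of an octad is a maximal proper subgroup of the group of the length-24 code. -/
theorem result (o : Finset Cfsg.GolayPt) (ho : o ∈ Cfsg.octads) : IsCoatom (MulAction.stabilizer Cfsg.M24 o) := by
  open Cfsg Cfsg.Lib.Spor Cfsg.Lib.Spor.Orb MulAction in
  exact (rank_oct_oct ho).isCoatom ho
    (fun y => ⟨trans_octads ho, fun ⟨g, hg⟩ => hg ▸ smul_mem_octads' g ho⟩) 0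
    (by rw [Finset.inter_self]; exact (mem_octads_iff'.1 ho).2) (by decide) (by decide)

end Cfsg.Agent.S1565
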