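import Cfsg.Statements.S1568
import Cfsg.Agent.Spor.LeechCount

set_option autoImplicit false
open Cfsg

namespace Cfsg.Agent.S1568

open Cfsg.Lib.Spor

theorem fin48 : {x : GolayPt → ℤ | x ∈ leechLattice ∧ sqNorm x = 48}.Finite :=
  Set.finite_of_ncard_ne_zero (by rw [ncard_leech_48]; norm_num)

theorem avoid (b : ℕ) : {x : GolayPt → ℤ | x ∈ leechLattice ∧ sqNorm x = 48 ∧ ∃ i, |x i| = b}.ncard +
    leechCount 1 (fun _ => 16777215) (fun _ a => a.natAbs ^ 2 + if a.natAbs = b then 49 else 0)
      box8 (2 ^ 100) 48 = 16773120 := by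
  rw [← leech_count_one (fun a => a.natAbs ^ 2 + if a.natAbs = b then 49 else 0) box8 (by decide) _ 48
    (by decide), ← ncard_leech_48, ← Set.ncard_union_eq ?_ (fin48.subset ?_) (fin48.subset ?_)]
  · congr 1
    ext x
    simp only [Set.mem_union, Set.mem_ofPred_eq, Finset.sum_add_distrib, sqNorm_eq_cast]
    constructor
    · rintro (⟨h1, h2, -⟩ | ⟨h1, -, h3⟩)
      · exact ⟨h1, h2⟩
      · refine ⟨h1, ?_⟩
        by_cases h : ∃ i, (x i).natAbs = b
        · obtain ⟨i, hi⟩ := h
          have := Finset.single_le_sum (f := fun i => if (x i).natAbs = b then 49 else 0)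
            (fun _ _ => Nat.zero_le _) (Finset.mem_univ i)
          simp only [hi, if_true] at this
          omega
        · push Not at h
          simp only [h, if_false, Finset.sum_const_zero, add_zero] at h3
          exact_mod_cast h3
    · rintro ⟨h1, h2⟩
      by_cases h : ∃ i, (x i).natAbs = b
      · obtain ⟨i, hi⟩ := h
        exact Or.inl ⟨h1, h2, i, by rw [← hi]; simp⟩
      · push Not at h
        refine Or.inr ⟨h1, fun i => mem_box8 (abs_le_of_sqNorm_lt (by norm_num) ?_ i), ?_⟩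
        · rw [sqNorm_eq_cast, h2]; norm_num
        · simp only [h, if_false, Finset.sum_const_zero, add_zero]
          exact_mod_cast h2
  · rw [Set.disjoint_left]
    rintro x ⟨-, -, i, hi⟩ ⟨-, -, h3⟩
    have hi' : (x i).natAbs = b := by rw [← Int.natCast_natAbs] at hi; exact_mod_cast hi
    have := Finset.single_le_sum (f := fun i => (x i).natAbs ^ 2 + if (x i).natAbs = b then 49 else 0)
      (fun _ _ => Nat.zero_le _) (Finset.mem_univ i)
    simp only [hi', if_true] at this
    omega
  · rintro x ⟨h1, h2, -⟩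
    exact ⟨h1, h2⟩
  · rintro x ⟨h1, -, h3⟩
    refine ⟨h1, ?_⟩
    by_cases h : ∃ i, (x i).natAbs = b
    · obtain ⟨i, hi⟩ := h
      have := Finset.single_le_sum (f := fun i => (x i).natAbs ^ 2 + if (x i).natAbs = b then 49 else 0)
        (fun _ _ => Nat.zero_le _) (Finset.mem_univ i)
      simp only [hi, if_true] at this
      omega
    · push Not at h
      simp only [h, if_false, add_zero] at h3
      rw [sqNorm_eq_cast]
      exact_mod_cast h3

/-- Shape census of the lattice vectors of sum of squares 48 (customary norm 6): the four families (2^12, 0^12), (±3^3, ±1^21), (±4, ±2^8, 0^15) and (±5, ±1^23) have 5275648, 8290304, 3108864 and 98304 members. -/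
theorem result : {x : Cfsg.GolayPt → ℤ | x ∈ Cfsg.leechLattice ∧ Cfsg.sqNorm x = 48 ∧ ∀ i, x i = 0 ∨ x i = 2 ∨ x i = -2}.ncard = 5275648 ∧ {x : Cfsg.GolayPt → ℤ | x ∈ Cfsg.leechLattice ∧ Cfsg.sqNorm x = 48 ∧ ∃ i j k, i ≠ j ∧ j ≠ k ∧ i ≠ k ∧ |x i| = 3 ∧ |x j| = 3 ∧ |x k| = 3}.ncard = 8290304 ∧ {x : Cfsg.GolayPt → ℤ | x ∈ Cfsg.leechLattice ∧ Cfsg.sqNorm x = 48 ∧ ∃ i, |x i| = 4}.ncard = 3108864 ∧ {x : Cfsg.GolayPt → ℤ | x ∈ Cfsg.leechLattice ∧ Cfsg.sqNorm x = 48 ∧ ∃ i, |x i| = 5}.ncard = 98304 := by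
  refine ⟨?_, ?_, ?_, ?_⟩
  · have h := leech_count_one (fun a => a.natAbs ^ 2) [0, 2, -2] (by decide) (2 ^ 100) 48 (by decide)
    refine Eq.trans ?_ (h.trans (by decide +kernel))
    congr 1
    ext x
    simp only [Set.mem_ofPred_eq, sqNorm_eq_cast, List.mem_cons, List.not_mem_nil, or_false]
    refine and_congr_right fun _ => ⟨fun h => ⟨h.2, by exact_mod_cast h.1⟩, fun h => ⟨by exact_mod_cast h.2, h.1⟩⟩
  · have h := leech_count_one (fun a => 25 * a.natAbs ^ 2 + if a.natAbs = 3 then 1 else 0) box8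
      (by decide) (2 ^ 100) 1203 (by decide)
    refine Eq.trans ?_ (h.trans (by decide +kernel))
    congr 1
    ext x
    simp only [Set.mem_ofPred_eq, Finset.sum_add_distrib, ← Finset.mul_sum, Finset.sum_boole, Nat.cast_id]
    refine and_congr_right fun hx => ?_
    have hcard : (Finset.univ.filter fun i => (x i).natAbs = 3).card ≤ 24 :=
      (Finset.card_filter_le _ _).trans (by rw [Finset.card_univ, card_golayPt])
    have habs : ∀ i, |x i| = 3 ↔ (x i).natAbs = 3 := fun i => by
      rw [← Int.natCast_natAbs]; exact_mod_cast Iff.rfl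
    have h3 : (∃ i j k, i ≠ j ∧ j ≠ k ∧ i ≠ k ∧ |x i| = 3 ∧ |x j| = 3 ∧ |x k| = 3) ↔
        2 < (Finset.univ.filter fun i => (x i).natAbs = 3).card := by
      rw [Finset.two_lt_card_iff]
      simp only [Finset.mem_filter, Finset.mem_univ, true_and, habs]
      constructor
      · rintro ⟨i, j, k, h1, h2, h3, h4, h5, h6⟩
        exact ⟨i, j, k, h4, h5, h6, h1, h3, h2⟩
      · rintro ⟨i, j, k, h4, h5, h6, h1, h3, h2⟩
        exact ⟨i, j, k, h1, h2, h3, h4, h5, h6⟩
    rw [h3, sqNorm_eq_cast]
    constructor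
    · rintro ⟨h1, h2⟩
      have h1' : ∑ p, (x p).natAbs ^ 2 = 48 := by exact_mod_cast h1
      refine ⟨fun i => mem_box8 (abs_le_of_sqNorm_lt (by norm_num) ?_ i), ?_⟩
      · rw [sqNorm_eq_cast, h1]; norm_num
      · obtain ⟨j, hj⟩ := Finset.card_pos.1 (lt_trans two_pos h2)
        have hj' := (Finset.mem_filter.1 hj).2
        have h4 : ∑ p : GolayPt, (1 + 8 * if (x p).natAbs = 3 then 1 else 0) ≤ ∑ p, (x p).natAbs ^ 2 := by
          refine Finset.sum_le_sum fun p _ => ?_
          have := leech_parity hx p j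
          split_ifs with hp
          · rw [hp]; norm_num
          · have : 0 < (x p).natAbs := by omega
            exact Nat.pow_pos this
        simp only [Finset.sum_add_distrib, ← Finset.mul_sum, Finset.sum_boole, Nat.cast_id,
          Finset.sum_const, Finset.card_univ, card_golayPt, smul_eq_mul] at h4
        omega
    · rintro ⟨-, h2⟩
      have h1' : ∑ p, (x p).natAbs ^ 2 = 48 := by omega
      exact ⟨by exact_mod_cast h1', by omega⟩
  · have h := avoid 4
    have h2 : leechCount 1 (fun _ => 16777215)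
      (fun _ a => a.natAbs ^ 2 + if a.natAbs = 4 then 49 else 0) box8 (2 ^ 100) 48 = 13664256 := by
      decide +kernel
    rw [h2] at h
    exact Nat.add_right_cancel (h.trans (by norm_num))
  · have h := avoid 5
    have h2 : leechCount 1 (fun _ => 16777215)
      (fun _ a => a.natAbs ^ 2 + if a.natAbs = 5 then 49 else 0) box8 (2 ^ 100) 48 = 16674816 := by
      decide +kernel
    rw [h2] at h
    exact Nat.add_right_cancel (h.trans (by norm_num))

end Cfsg.Agent.S1568
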