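import Cfsg.Statements.S1580
import Cfsg.Agent.Spor.Co0Order

set_option autoImplicit false
open Cfsg

namespace Cfsg.Agent.S1580

open Cfsg.Lib.Spor Cfsg.Lib.Spor.CK Cfsg.Lib.Spor.Orb MulAction

theorem mem_552 {u v : leechLattice} (hu : sqNorm (u : GolayPt → ℤ) = 48)
    (hv : sqNorm (v : GolayPt → ℤ) = 32 ∧ sqNorm ((u - v) : GolayPt → ℤ) = 32) : v ∈ C1 u 24 := by
  refine ⟨hv.1, ?_⟩
  have h := hv.2
  rw [sqNorm_sub, hu, hv.1] at h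
  unfold dt; omega

theorem set_eq {u : leechLattice} (hu : sqNorm (u : GolayPt → ℤ) = 48) (v : leechLattice) :
    {x : leechLattice | sqNorm (x : GolayPt → ℤ) = 32 ∧ sqNorm ((u - x) : GolayPt → ℤ) = 32 ∧
      dotInt (v : GolayPt → ℤ) (x : GolayPt → ℤ) = 16} = C2 u 24 v 16 := by
  ext x
  refine and_congr_right fun h => and_congr_left fun _ => ?_
  rw [sqNorm_sub, hu, h]
  unfold dt; omega

/-- The McLaughlin configuration: for u of customary norm 6 and v minimal with u − v minimal, there are 275 further such summands x of customary inner product 2 with v, permuted transitively by the stabiliser of u and v. -/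
theorem result (u v : ↥Cfsg.leechLattice) (hu : Cfsg.sqNorm (u : Cfsg.GolayPt → ℤ) = 48) (hv : Cfsg.sqNorm (v : Cfsg.GolayPt → ℤ) = 32 ∧ Cfsg.sqNorm ((u - v) : Cfsg.GolayPt → ℤ) = 32) : {x : ↥Cfsg.leechLattice | Cfsg.sqNorm (x : Cfsg.GolayPt → ℤ) = 32 ∧ Cfsg.sqNorm ((u - x) : Cfsg.GolayPt → ℤ) = 32 ∧ Cfsg.dotInt (v : Cfsg.GolayPt → ℤ) (x : Cfsg.GolayPt → ℤ) = 16}.ncard = 275 ∧ ∀ x ∈ {x : ↥Cfsg.leechLattice | Cfsg.sqNorm (x : Cfsg.GolayPt → ℤ) = 32 ∧ Cfsg.sqNorm ((u - x) : Cfsg.GolayPt → ℤ) = 32 ∧ Cfsg.dotInt (v : Cfsg.GolayPt → ℤ) (x : Cfsg.GolayPt → ℤ) = 16}, ∀ x' ∈ {x : ↥Cfsg.leechLattice | Cfsg.sqNorm (x : Cfsg.GolayPt → ℤ) = 32 ∧ Cfsg.sqNorm ((u - x) : Cfsg.GolayPt → ℤ) = 32 ∧ Cfsg.dotInt (v : Cfsg.GolayPt → ℤ) (x : Cfsg.GolayPt → ℤ) = 16}, ∃ g : ↥Cfsg.Co0, g • u = u ∧ g • v = v ∧ g • x = x' := by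
  rw [set_eq hu]
  obtain ⟨g, hg⟩ := exists_vv_uu hu (mem_552 hu hv)
  refine ⟨?_, fun x hx x' hx' => ?_⟩
  · obtain ⟨rfl, rfl⟩ := Prod.ext_iff.1 hg
    exact (ncard_C2_smul g _ _ _ _).trans orbit_275.2
  · obtain ⟨g, hg⟩ := exists_smul_of_base (exists_vv_uu_xx hu (mem_552 hu hv) hx)
      (exists_vv_uu_xx hu (mem_552 hu hv) hx')
    exact ⟨g, congrArg (·.1.1) hg, congrArg (·.1.2) hg, congrArg Prod.snd hg⟩

end Cfsg.Agent.S1580
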