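import Cfsg.Statements.S1581
import Cfsg.Agent.Spor.Co0Order

set_option autoImplicit false
open Cfsg

namespace Cfsg.Agent.S1581

open Cfsg.Lib.Spor Cfsg.Lib.Spor.CK Cfsg.Lib.Spor.Orb MulAction

theorem mem_552 {u v : leechLattice} (hu : sqNorm (u : GolayPt → ℤ) = 48)
    (hv : sqNorm (v : GolayPt → ℤ) = 32 ∧ sqNorm ((u - v) : GolayPt → ℤ) = 32) : v ∈ C1 u 24 := by
  refine ⟨hv.1, ?_⟩
  have h := hv.2
  rw [sqNorm_sub, hu, hv.1] at h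
  unfold dt; omega

theorem set_eq {u : leechLattice} (hu : sqNorm (u : GolayPt → ℤ) = 48) (v : leechLattice) :
    {x : leechLattice | sqNorm (x : GolayPt → ℤ) = 32 ∧ sqNorm ((u - x) : GolayPt → ℤ) = 32 ∧
      dotInt (v : GolayPt → ℤ) (x : GolayPt → ℤ) = 16} = C2 u 24 v 16 := by
  ext x
  refine and_congr_right fun h => and_congr_left fun _ => ?_
  rw [sqNorm_sub, hu, h]
  unfold dt; omega

/-- The McLaughlin group acts with rank 3 and subdegrees 1, 112, 162 on its 275 points: the point stabiliser has two orbits on the remaining points, distinguished by customary inner product 1 or 2 with the fixed point. -/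
theorem result (u v x : ↥Cfsg.leechLattice) (hu : Cfsg.sqNorm (u : Cfsg.GolayPt → ℤ) = 48) (hv : Cfsg.sqNorm (v : Cfsg.GolayPt → ℤ) = 32 ∧ Cfsg.sqNorm ((u - v) : Cfsg.GolayPt → ℤ) = 32) (hx : x ∈ {x : ↥Cfsg.leechLattice | Cfsg.sqNorm (x : Cfsg.GolayPt → ℤ) = 32 ∧ Cfsg.sqNorm ((u - x) : Cfsg.GolayPt → ℤ) = 32 ∧ Cfsg.dotInt (v : Cfsg.GolayPt → ℤ) (x : Cfsg.GolayPt → ℤ) = 16}) : {y : ↥Cfsg.leechLattice | y ∈ {x : ↥Cfsg.leechLattice | Cfsg.sqNorm (x : Cfsg.GolayPt → ℤ) = 32 ∧ Cfsg.sqNorm ((u - x) : Cfsg.GolayPt → ℤ) = 32 ∧ Cfsg.dotInt (v : Cfsg.GolayPt → ℤ) (x : Cfsg.GolayPt → ℤ) = 16} ∧ Cfsg.dotInt (x : Cfsg.GolayPt → ℤ) (y : Cfsg.GolayPt → ℤ) = 8}.ncard = 112 ∧ {y : ↥Cfsg.leechLattice | y ∈ {x : ↥Cfsg.leechLattice | Cfsg.sqNorm (x : Cfsg.GolayPt → ℤ) = 32 ∧ Cfsg.sqNorm ((u - x) : Cfsg.GolayPt → ℤ) = 32 ∧ Cfsg.dotInt (v :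 Cfsg.GolayPt → ℤ) (x : Cfsg.GolayPt → ℤ) = 16} ∧ y ≠ x ∧ Cfsg.dotInt (x : Cfsg.GolayPt → ℤ) (y : Cfsg.GolayPt → ℤ) = 16}.ncard = 162 ∧ ∀ y ∈ {x : ↥Cfsg.leechLattice | Cfsg.sqNorm (x : Cfsg.GolayPt → ℤ) = 32 ∧ Cfsg.sqNorm ((u - x) : Cfsg.GolayPt → ℤ) = 32 ∧ Cfsg.dotInt (v : Cfsg.GolayPt → ℤ) (x : Cfsg.GolayPt → ℤ) = 16}, ∀ y' ∈ {x : ↥Cfsg.leechLattice | Cfsg.sqNorm (x : Cfsg.GolayPt → ℤ) = 32 ∧ Cfsg.sqNorm ((u - x) : Cfsg.GolayPt → ℤ) = 32 ∧ Cfsg.dotInt (v : Cfsg.GolayPt → ℤ) (x : Cfsg.GolayPt → ℤ) = 16}, y ≠ x → y' ≠ x → Cfsg.dotInt (x : Cfsg.GolayPt → ℤ) (y : Cfsg.GolayPt → ℤ) = Cfsg.dotInt (x : Cfsg.GolayPt → ℤ) (y' : Cfsg.GolayPt → ℤ) → ∃ g : ↥Cfsg.Co0, g • u = u ∧ g • v = v ∧ g • x = x ∧ g • y = y' := by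
  rw [set_eq hu] at hx ⊢
  have h := Rank.transport_triple rank_275 (exists_vv_uu_xx hu (mem_552 hu hv) hx)
  refine ⟨?_, ?_, fun y hy y' hy' _ _ e => ?_⟩
  · refine Eq.trans ?_ (h.card 2)
    congr 1; ext y
    exact and_congr_right fun _ => (ipn_eq_iff (n := 72)).symm
  · refine Eq.trans ?_ (h.card 1)
    congr 1; ext y
    refine and_congr_right fun _ => ⟨fun e => (ipn_eq_iff (n := 80)).2 e.2, fun e => ?_⟩
    have e' : dt x y = 16 := (ipn_eq_iff (n := 80)).1 e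
    refine ⟨?_, e'⟩
    rintro rfl
    rw [dt_self, hx.1] at e'
    omega
  · obtain ⟨g, h1, h2⟩ := h.trans y hy y' hy' (by unfold ipn dt; rw [e])
    exact ⟨g, congrArg (·.1.1) h1, congrArg (·.1.2) h1, congrArg Prod.snd h1, h2⟩

end Cfsg.Agent.S1581
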