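import Cfsg.Statements.S1583
import Cfsg.Agent.Spor.Co0Order

set_option autoImplicit false
open Cfsg

namespace Cfsg.Agent.S1583

open Cfsg.Lib.Spor Cfsg.Lib.Spor.CK Cfsg.Lib.Spor.Orb MulAction

theorem mem_11178 {v w : leechLattice} (hv : nm v = 48) (hw : nm w = 48) (hvw : dt v w = -32) :
    v + w ∈ C1 v 16 :=
  ⟨by rw [nm_add, hv, hw, hvw]; rfl, by rw [dt_add_right, dt_self, hv, hvw]; rfl⟩

theorem set_eq (v w : leechLattice) :
    {x : leechLattice | sqNorm (x : GolayPt → ℤ) = 32 ∧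
      dotInt (v : GolayPt → ℤ) (x : GolayPt → ℤ) = 24 ∧
      dotInt (w : GolayPt → ℤ) (x : GolayPt → ℤ) = -24} = C2 v 24 (v + w) 0 := by
  ext x
  refine and_congr_right fun _ => and_congr_right fun h => ?_
  rw [dt_add_left]
  unfold dt; omega

theorem fix_w {g : Co0} {v w : leechLattice} (h1 : g • v = v) (h2 : g • (v + w) = v + w) :
    g • w = w := by
  rwa [co0_smul_add, h1, add_right_inj] at h2

/-- The Higman–Sims configuration: for two vectors of customary norm 6 with inner product −4, exactly 100 minimal vectors have customary inner products 3 and −3 with them, and the joint stabiliser permutes these transitively. -/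
theorem result (v w : ↥Cfsg.leechLattice) (hv : Cfsg.sqNorm (v : Cfsg.GolayPt → ℤ) = 48) (hw : Cfsg.sqNorm (w : Cfsg.GolayPt → ℤ) = 48) (hvw : Cfsg.dotInt (v : Cfsg.GolayPt → ℤ) (w : Cfsg.GolayPt → ℤ) = -32) : {x : ↥Cfsg.leechLattice | Cfsg.sqNorm (x : Cfsg.GolayPt → ℤ) = 32 ∧ Cfsg.dotInt (v : Cfsg.GolayPt → ℤ) (x : Cfsg.GolayPt → ℤ) = 24 ∧ Cfsg.dotInt (w : Cfsg.GolayPt → ℤ) (x : Cfsg.GolayPt → ℤ) = -24}.ncard = 100 ∧ ∀ x ∈ {x : ↥Cfsg.leechLattice | Cfsg.sqNorm (x : Cfsg.GolayPt → ℤ) = 32 ∧ Cfsg.dotInt (v : Cfsg.GolayPt → ℤ) (x : Cfsg.GolayPt → ℤ) = 24 ∧ Cfsg.dotInt (w : Cfsg.GolayPt → ℤ) (x : Cfsg.GolayPt → ℤ) = -24}, ∀ x' ∈ {x : ↥Cfsg.leechLattice | Cfsg.sqNorm (x : Cfsg.GolayPt → ℤ) = 32 ∧ Cfsg.dotInt (v : Cfsg.GolayPt → ℤ) (x : Cfsg.GolayPt → ℤ) = 24 ∧ Cfsg.dotInt (w : Cfsg.GolayPt → ℤ) (x : Cfsg.GolayPt → ℤ) = -24}, ∃ g : ↥Cfsg.Co0, g • v = v ∧ g • w = w ∧ g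 • x = x' := by
  rw [set_eq]
  have hm := mem_11178 hv hw hvw
  refine ⟨?_, fun x hx x' hx' => ?_⟩
  · obtain ⟨g, hg⟩ := exists_vv_u2 hv hm
    obtain ⟨h1, h2⟩ := Prod.ext_iff.1 hg
    dsimp only at h1 h2
    rw [← h2, ← h1]
    exact (ncard_C2_smul g _ _ _ _).trans orbit_100.2
  · obtain ⟨g, hg⟩ := exists_smul_of_base (exists_vv_u2_uu hv hm hx) (exists_vv_u2_uu hv hm hx')
    exact ⟨g, congrArg (·.1.1) hg, fix_w (congrArg (·.1.1) hg) (congrArg (·.1.2) hg),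
      congrArg Prod.snd hg⟩

end Cfsg.Agent.S1583
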