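import Cfsg.Statements.S1584
import Cfsg.Agent.Spor.Co0Order

set_option autoImplicit false
open Cfsg

namespace Cfsg.Agent.S1584

open Cfsg.Lib.Spor Cfsg.Lib.Spor.CK Cfsg.Lib.Spor.Orb MulAction

theorem mem_11178 {v w : leechLattice} (hv : nm v = 48) (hw : nm w = 48) (hvw : dt v w = -32) :
    v + w ∈ C1 v 16 :=
  ⟨by rw [nm_add, hv, hw, hvw]; rfl, by rw [dt_add_right, dt_self, hv, hvw]; rfl⟩

theorem set_eq (v w : leechLattice) :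
    {x : leechLattice | sqNorm (x : GolayPt → ℤ) = 32 ∧
      dotInt (v : GolayPt → ℤ) (x : GolayPt → ℤ) = 24 ∧
      dotInt (w : GolayPt → ℤ) (x : GolayPt → ℤ) = -24} = C2 v 24 (v + w) 0 := by
  ext x
  refine and_congr_right fun _ => and_congr_right fun h => ?_
  rw [dt_add_left]
  unfold dt; omega

theorem fix_w {g : Co0} {v w : leechLattice} (h1 : g • v = v) (h2 : g • (v + w) = v + w) :
    g • w = w := by
  rwa [co0_smul_add, h1, add_right_inj] at h2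

/-- The Higman–Sims group acts with rank 3 and subdegrees 1, 22, 77 on its 100 points, the orbits of a point stabiliser being distinguished by customary inner product 1 with the fixed point. -/
theorem result (v w x : ↥Cfsg.leechLattice) (hv : Cfsg.sqNorm (v : Cfsg.GolayPt → ℤ) = 48) (hw : Cfsg.sqNorm (w : Cfsg.GolayPt → ℤ) = 48) (hvw : Cfsg.dotInt (v : Cfsg.GolayPt → ℤ) (w : Cfsg.GolayPt → ℤ) = -32) (hx : x ∈ {x : ↥Cfsg.leechLattice | Cfsg.sqNorm (x : Cfsg.GolayPt → ℤ) = 32 ∧ Cfsg.dotInt (v : Cfsg.GolayPt → ℤ) (x : Cfsg.GolayPt → ℤ) = 24 ∧ Cfsg.dotInt (w : Cfsg.GolayPt → ℤ) (x : Cfsg.GolayPt → ℤ) = -24}) : {y : ↥Cfsg.leechLattice | y ∈ {x : ↥Cfsg.leechLattice | Cfsg.sqNorm (x : Cfsg.GolayPt → ℤ) = 32 ∧ Cfsg.dotInt (v : Cfsg.GolayPt → ℤ) (x : Cfsg.GolayPt → ℤ) = 24 ∧ Cfsg.dotInt (w : Cfsg.GolayPt → ℤ) (x : Cfsg.GolayPt → ℤ) = -24} ∧ Cfsg.dotInt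 (x : Cfsg.GolayPt → ℤ) (y : Cfsg.GolayPt → ℤ) = 8}.ncard = 22 ∧ {y : ↥Cfsg.leechLattice | y ∈ {x : ↥Cfsg.leechLattice | Cfsg.sqNorm (x : Cfsg.GolayPt → ℤ) = 32 ∧ Cfsg.dotInt (v : Cfsg.GolayPt → ℤ) (x : Cfsg.GolayPt → ℤ) = 24 ∧ Cfsg.dotInt (w : Cfsg.GolayPt → ℤ) (x : Cfsg.GolayPt → ℤ) = -24} ∧ y ≠ x ∧ Cfsg.dotInt (x : Cfsg.GolayPt → ℤ) (y : Cfsg.GolayPt → ℤ) ≠ 8}.ncard = 77 ∧ ∀ y ∈ {x : ↥Cfsg.leechLattice | Cfsg.sqNorm (x : Cfsg.GolayPt → ℤ) = 32 ∧ Cfsg.dotInt (v : Cfsg.GolayPt → ℤ) (x : Cfsg.GolayPt → ℤ) = 24 ∧ Cfsg.dotInt (w : Cfsg.GolayPt → ℤ) (x : Cfsg.GolayPt → ℤ) = -24}, ∀ y' ∈ {x : ↥Cfsg.leechLattice | Cfsg.sqNorm (x : Cfsg.GolayPt → ℤ) = 32 ∧ Cfsg.dotInt (v : Cfsg.GolayPt → ℤ) (x : Cfsg.GolayPt → ℤ) = 24 ∧ Cfsg.dotInt (w : Cfsg.GolayPt → ℤ) (x : Cfsg.GolayPt → ℤ) = -24}, y ≠ x → y' ≠ x → (Cfsg.dotInt (x : Cfsg.GolayPt → ℤ) (y : Cfsg.GolayPt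 → ℤ) = 8 ↔ Cfsg.dotInt (x : Cfsg.GolayPt → ℤ) (y' : Cfsg.GolayPt → ℤ) = 8) → ∃ g : ↥Cfsg.Co0, g • v = v ∧ g • w = w ∧ g • x = x ∧ g • y = y' := by
  rw [set_eq] at hx ⊢
  have h := Rank.transport_triple rank_100 (exists_vv_u2_uu hv (mem_11178 hv hw hvw) hx)
  have hx96 : ipn x x = 96 := (ipn_eq_iff (n := 96)).2 (by rw [dt_self, hx.1]; rfl)
  have key : ∀ y ∈ C2 v 24 (v + w) 0, y ≠ x → dt x y ≠ 8 → ipn x y = 80 := by
    intro y hy h1 h2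
    obtain ⟨i, hi⟩ := h.cover y hy
    fin_cases i
    · exact absurd (h.eq_of_card_one (i := 0) rfl hy hx hi hx96) h1
    · exact hi
    · exact absurd ((ipn_eq_iff (n := 72)).1 hi) h2
  refine ⟨?_, ?_, fun y hy y' hy' h1 h2 e => ?_⟩
  · refine Eq.trans ?_ (h.card 2)
    congr 1; ext y
    exact and_congr_right fun _ => (ipn_eq_iff (n := 72)).symm
  · refine Eq.trans ?_ (h.card 1)
    congr 1; ext y
    refine and_congr_right fun hy => ⟨fun e => key y hy e.1 e.2, fun e => ?_⟩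
    have e' : dt x y = 16 := (ipn_eq_iff (n := 80)).1 e
    refine ⟨?_, by unfold dt at e'; omega⟩
    rintro rfl
    rw [dt_self, hx.1] at e'
    omega
  · have : ipn x y = ipn x y' := by
      by_cases h8 : dt x y = 8
      · unfold ipn; rw [h8, show dt x y' = 8 from e.1 h8]
      · rw [key y hy h1 h8, key y' hy' h2 (mt e.2 h8)]
    obtain ⟨g, h1, h2⟩ := h.trans y hy y' hy' this
    exact ⟨g, congrArg (·.1.1) h1, fix_w (congrArg (·.1.1) h1) (congrArg (·.1.2) h1),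
      congrArg Prod.snd h1, h2⟩

end Cfsg.Agent.S1584
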