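import Cfsg.Statements.S1585
import Cfsg.Agent.Spor.Co0Simple

set_option autoImplicit false
open Cfsg

namespace Cfsg.Agent.S1585

open Cfsg.Lib.Spor Cfsg.Lib.Spor.CK Cfsg.Lib.Spor.Orb MulAction

/-- Two vectors of customary norm 6 with inner product −4 are exchanged by some automorphism of the lattice. -/
theorem result (v w : ↥Cfsg.leechLattice) (hv : Cfsg.sqNorm (v : Cfsg.GolayPt → ℤ) = 48) (hw : Cfsg.sqNorm (w : Cfsg.GolayPt → ℤ) = 48) (hvw : Cfsg.dotInt (v : Cfsg.GolayPt → ℤ) (w : Cfsg.GolayPt → ℤ) = -32) : ∃ g : ↥Cfsg.Co0, g • v = w ∧ g • w = v := by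
  change nm v = 48 at hv
  change nm w = 48 at hw
  change dt v w = -32 at hvw
  have h : nm (v + w) = 32 := by rw [nm_add, hv, hw, hvw]; rfl
  obtain ⟨g, hg⟩ := exists_smul_of_base
    (exists_vv_u2 hv (x := v + w) ⟨h, by rw [dt_add_right, dt_self, hv, hvw]; rfl⟩)
    (exists_vv_u2 hw (x := v + w) ⟨h, by rw [dt_add_right, dt_self, hw, dt_comm, hvw]; rfl⟩)
  have h1 : g • v = w := congrArg Prod.fst hg
  have h2 : g • (v + w) = v + w := congrArg Prod.snd hg
  rw [co0_smul_add, h1, add_comm, add_left_inj] at h2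
  exact ⟨g, h1, h2⟩

end Cfsg.Agent.S1585
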