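import Cfsg.Statements.S1591
import Cfsg.Agent.Spor.Ternary

set_option autoImplicit false
open Cfsg

namespace Cfsg.Agent.S1591

/-- Any two words of the length-12 ternary code have dot product zero. -/
theorem result (x y : Cfsg.ArrayPt → ZMod 3) (hx : x ∈ Cfsg.ternaryGolayCode) (hy : y ∈ Cfsg.ternaryGolayCode) : ∑ p, x p * y p = 0 := by
  rw [Cfsg.Lib.Spor.Tern.eq_tenc hx, Cfsg.Lib.Spor.Tern.eq_tenc hy]
  generalize x (0, 0) = a, x (0, 1) = b, x (0, 2) = c, x (1, 0) = d, x (1, 1) = e, x (2, 0) = f,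
    y (0, 0) = a', y (0, 1) = b', y (0, 2) = c', y (1, 0) = d', y (1, 1) = e', y (2, 0) = f'
  rw [Fintype.sum_prod_type, Fin.sum_univ_four]
  simp only [Cfsg.Lib.Spor.Tern.sum_zmod3]
  have h3 : (3 : ZMod 3) = 0 := rfl
  show a * a' + b * b' + c * c' + (d * d' + e * e' + (a + b + c + 2 * d + 2 * e) *
    (a' + b' + c' + 2 * d' + 2 * e')) + (f * f' + (2 * b + c + 2 * d + e + f) *
    (2 * b' + c' + 2 * d' + e' + f') + (a + 2 * b + d + 2 * e + f) *
    (a' + 2 * b' + d' + 2 * e' + f')) + ((a + 2 * b + 2 * c + 2 * d + 2 * f) *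
    (a' + 2 * b' + 2 * c' + 2 * d' + 2 * f') + (a + c + d + e + 2 * f) *
    (a' + c' + d' + e' + 2 * f') + (2 * a + 2 * b + c + 2 * e + 2 * f) *
    (2 * a' + 2 * b' + c' + 2 * e' + 2 * f')) = 0
  ring_nf
  reduce_mod_char

end Cfsg.Agent.S1591
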