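import Cfsg.Statements.S1594
import Cfsg.Agent.Spor.Ternary
import Cfsg.Agent.Spor.Monomial
import Cfsg.Agent.Spor.PermKitExtra
import Cfsg.Agent.S0425

set_option autoImplicit false
open Cfsg

namespace Cfsg.Agent.S1594

open Cfsg.Lib.Spor Cfsg.Lib.Spor.PK Cfsg.Lib.Spor.Tern Cfsg.Lib.Spor.Mono

/-- The point with number `i`. -/
def pt (i : ℕ) : ArrayPt := (Fin.ofNat 4 (i / 3), (i : ZMod 3))

theorem ctx : Ctx (Equiv.Perm ArrayPt) 8 12 pt :=
  ctx_perm (by norm_num) (by norm_num) (by norm_num) (by decide +kernel) (by decide +kernel)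

/-- The map on points given by a list of point numbers. -/
def lf (l : List ℕ) (p : ArrayPt) : ArrayPt := pt (l.getD (3 * p.1.val + p.2.val) 0)

/-- First generator. -/
def g1 : Equiv.Perm ArrayPt :=
  ⟨lf [3, 4, 1, 6, 5, 10, 0, 7, 9, 8, 11, 2], lf [6, 2, 11, 0, 1, 4, 3, 7, 9, 8, 5, 10],
    by decide +kernel, by decide +kernel⟩

/-- Second generator. -/
def g2 : Equiv.Perm ArrayPt :=
  ⟨lf [10, 8, 7, 11, 3, 0, 9, 4, 2, 6, 1, 5], lf [5, 10, 8, 4, 7, 11, 9, 2, 1, 6, 0, 3],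
    by decide +kernel, by decide +kernel⟩

/-- Signs given by a list. -/
def sg (l : List ℕ) (p : ArrayPt) : (ZMod 3)ˣ :=
  if l.getD (3 * p.1.val + p.2.val) 0 = 1 then 1 else -1

theorem mapsTo_of_basis {σ : Equiv.Perm ArrayPt} {c : ArrayPt → (ZMod 3)ˣ}
    (h : monomialMap σ c (tenc 1 0 0 0 0 0) ∈ ternaryGolayCode ∧
      monomialMap σ c (tenc 0 1 0 0 0 0) ∈ ternaryGolayCode ∧
      monomialMap σ c (tenc 0 0 1 0 0 0) ∈ ternaryGolayCode ∧
      monomialMap σ c (tenc 0 0 0 1 0 0) ∈ ternaryGolayCode ∧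
      monomialMap σ c (tenc 0 0 0 0 1 0) ∈ ternaryGolayCode ∧
      monomialMap σ c (tenc 0 0 0 0 0 1) ∈ ternaryGolayCode) :
    ∀ x ∈ ternaryGolayCode, monomialMap σ c x ∈ ternaryGolayCode := by
  apply forall_code
  intro a b c' d e f
  rw [tenc_eq_sum]
  simp only [monomialMap_add, monomialMap_smul]
  obtain ⟨h1, h2, h3, h4, h5, h6⟩ := h
  refine add_mem (add_mem (add_mem (add_mem (add_mem ?_ ?_) ?_) ?_) ?_) ?_ <;>
    exact Submodule.smul_mem _ _ ‹_›

theorem g1_mem : g1 ∈ permPart ternaryGolayCode :=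
  ⟨sg [1, 2, 1, 2, 2, 2, 1, 2, 2, 2, 1, 2], mapsTo_of_basis (by decide +kernel)⟩

theorem g2_mem : g2 ∈ permPart ternaryGolayCode :=
  ⟨sg [1, 2, 1, 1, 1, 2, 1, 1, 1, 2, 1, 2], mapsTo_of_basis (by decide +kernel)⟩

/-- A stabiliser chain certificate. -/
def tgCert : List Cfsg.Lib.Spor.PK.Cert :=
  [⟨0, [384, 321, 192, 577, 256, 705, 512, 64, 449, 640, 128], [[1, 0, 0, 0, 1, 1, 1, 1], [0, 0, 1, 0, 1, 1]]⟩,
   ⟨1, [704, 512, 321, 192, 128, 641, 576, 385, 256, 449], [[0, 0, 0, 1, 0, 1, 0, 0, 0], [0, 0, 0, 0, 0, 1, 0, 1,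
    0, 1, 1]]⟩,
   ⟨2, [704, 384, 577, 192, 321, 448, 512, 640, 257], [[0, 1, 1, 1], [0, 1, 0, 0, 1, 0, 0, 1]]⟩,
   ⟨3, [256, 385, 640, 321, 705, 576, 448, 513], [[0, 0, 0, 1, 0, 0, 0], [1, 1, 1, 0, 1]]⟩,
   ⟨4, [704, 385, 320, 641, 512, 448, 577], []⟩]

theorem dens : Dens 8 12 pt
    [encL 8 [3, 4, 1, 6, 5, 10, 0, 7, 9, 8, 11, 2], encL 8 [10, 8, 7, 11, 3, 0, 9, 4, 2, 6, 1, 5]]
    [g1, g2] :=
  List.Forall₂.cons (den_encL ctx rfl (by decide +kernel))
    (List.Forall₂.cons (den_encL ctx rfl (by decide +kernel)) List.Forall₂.nil)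

theorem card_aut : Nat.card (setSystemAut hexads) = 95040 :=
  (Cfsg.Agent.S0425.result (by decide) hexads_isSteinerSystem).1.2

theorem permPart_le : permPart ternaryGolayCode ≤ setSystemAut hexads := by
  rintro σ ⟨c, hc⟩
  rw [mem_setSystemAut_iff_mapsTo]
  rintro _ ⟨x, hx, rfl, h6⟩
  exact ⟨_, hc x hx, supp_monomialMap σ c x, by rw [card_perm_smul_finset, h6]⟩

theorem permPart_eq : permPart ternaryGolayCode = setSystemAut hexads := by
  have h1 : gen [g1, g2] ≤ permPart ternaryGolayCode := by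
    rw [Subgroup.closure_le]
    intro g hg
    rcases List.mem_pair.1 hg with rfl | rfl
    exacts [g1_mem, g2_mem]
  have h2 : gen [g1, g2] = setSystemAut hexads :=
    (chain_of_chkLow ctx (cert := tgCert) dens (by decide +kernel)
      (fun g hg => permPart_le (h1 (Subgroup.subset_closure hg)))
      (by rw [card_aut]; decide +kernel)).1
  exact le_antisymm permPart_le (h2 ▸ h1)

theorem card_diag : Nat.card {c : ArrayPt → (ZMod 3)ˣ //
    ∀ x ∈ ternaryGolayCode, monomialMap 1 c x ∈ ternaryGolayCode} = 2 := by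
  rw [Nat.card_eq_two_iff]
  refine ⟨⟨fun _ => 1, fun x hx => by rwa [monomialMap_one]⟩, ⟨fun _ => -1, fun x hx => ?_⟩, ?_, ?_⟩
  · convert ternaryGolayCode.neg_mem hx using 1
    funext i
    simp only [monomialMap, Units.val_neg, Units.val_one, neg_one_mul]
    rfl
  · intro h
    have := congrFun (congrArg Subtype.val h) (0, 0)
    revert this
    decide
  · ext ⟨c, hc⟩
    simp only [Set.mem_insert_iff, Subtype.mk.injEq, Set.mem_singleton_iff, Set.mem_univ, iff_true]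
    rcases diag_eq c hc with h | h
    · exact Or.inl (funext h)
    · exact Or.inr (funext h)

/-- The monomial automorphism group of the length-12 ternary code has order 190080 and its permutation parts are exactly the automorphisms of its hexad system. -/
theorem result : Nat.card {f : Equiv.Perm Cfsg.ArrayPt × (Cfsg.ArrayPt → (ZMod 3)ˣ) // (∀ x ∈ Cfsg.ternaryGolayCode, Cfsg.monomialMap f.1 f.2 x ∈ Cfsg.ternaryGolayCode)} = 190080 ∧ {σ : Equiv.Perm Cfsg.ArrayPt | ∃ c : Cfsg.ArrayPt → (ZMod 3)ˣ, (∀ x ∈ Cfsg.ternaryGolayCode, Cfsg.monomialMap σ c x ∈ Cfsg.ternaryGolayCode)} = (Cfsg.setSystemAut {h : Finset Cfsg.ArrayPt | ∃ x ∈ Cfsg.ternaryGolayCode, Cfsg.ternarySupport x = h ∧ h.card = 6} : Set (Equiv.Perm Cfsg.ArrayPt)) := by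
  refine ⟨?_, congrArg (fun H : Subgroup (Equiv.Perm ArrayPt) => (H : Set (Equiv.Perm ArrayPt)))
    permPart_eq⟩
  rw [card_monomial, permPart_eq, card_aut, card_diag]

end Cfsg.Agent.S1594
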