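import Cfsg.Statements.S1596
import Cfsg.Agent.Spor.GeoQuartet

set_option autoImplicit false
open scoped Pointwise
open Cfsg

namespace Cfsg.Agent.S1596

open Cfsg.Lib.Spor Cfsg.Lib.Spor.Orb MulAction
open scoped Pointwise Matrix



/-- A quartet of a dodecad is determined by any two of its triples: two disjoint triples uniting to a hexad extend to exactly one quartet. -/
theorem result (d : Finset Cfsg.GolayPt) (hd : d ∈ Cfsg.dodecads) (t u : Finset Cfsg.GolayPt) (ht : t.card = 3) (hu : u.card = 3) (htu : Disjoint t u) (hh : t ∪ u ∈ Cfsg.hexadsOn d) : ∃! Q : Finset (Finset Cfsg.GolayPt), Q ∈ Cfsg.quartets d ∧ t ∈ Q ∧ u ∈ Q := by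
  obtain ⟨g, h1, h2, h3, h4⟩ := existsUnique_quartet hd ht hu hh
  exact ⟨g • fam 4 quart0, ⟨h1 ▸ smul_mem_quartets g quart0_mem, h2, h3⟩,
    fun Q hQ => h4 Q hQ.1 hQ.2.1 hQ.2.2⟩

end Cfsg.Agent.S1596
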