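import Cfsg.Statements.S1597
import Cfsg.Agent.Spor.GeoQuartet

set_option autoImplicit false
open scoped Pointwise
open Cfsg

namespace Cfsg.Agent.S1597

open Cfsg.Lib.Spor Cfsg.Lib.Spor.Orb MulAction
open scoped Pointwise Matrix



/-- A dodecad has 220 quartets and its stabiliser is transitive on them. -/
theorem result (d : Finset Cfsg.GolayPt) (hd : d ∈ Cfsg.dodecads) : (Cfsg.quartets d).ncard = 220 ∧ ∀ Q ∈ Cfsg.quartets d, ∀ Q' ∈ Cfsg.quartets d, ∃ g : Equiv.Perm Cfsg.GolayPt, g ∈ Cfsg.M24 ∧ g • d = d ∧ g • Q = Q' := by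
  refine ⟨ncard_quartets hd, fun Q hQ Q' hQ' => ?_⟩
  obtain ⟨u, hu⟩ := trans_quartet hd hQ
  obtain ⟨v, hv⟩ := trans_quartet hd hQ'
  have e : (v * u⁻¹) • (d, Q) = (d, Q') := by rw [mul_smul, ← hu, inv_smul_smul, hv]
  exact ⟨(v * u⁻¹).1, (v * u⁻¹).2, congrArg Prod.fst e, congrArg Prod.snd e⟩

end Cfsg.Agent.S1597
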