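import Cfsg.Statements.S1598
import Cfsg.Agent.Spor.M24Graph
import Cfsg.Agent.Spor.GeoQuartet

set_option autoImplicit false
open scoped Pointwise
open Cfsg

namespace Cfsg.Agent.S1598

open Cfsg.Lib.Spor Cfsg.Lib.Spor.Orb MulAction
open scoped Pointwise Matrix

def aP : List (ℕ × List ℕ) :=
  [(733414965824762733840015752759414102, [7, 3, 5, 4, 0, 2, 1, 6]),
   (708775640919730183544477668830809520, [5, 2, 7, 4, 1, 3, 0, 6])]

def aC : List Cfsg.Lib.Spor.PK.Cert :=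
  [⟨0, [1344, 1408, 1281, 897, 768, 961, 1024, 193, 1216, 128, 1152], [[0, 1, 0, 0, 0, 1, 1], [0, 1, 1, 1, 0, 0,
    1, 1]]⟩,
   ⟨1, [1472, 385], [[1, 1, 0], [0, 1]]⟩,
   ⟨2, [1281, 1024], [[1, 1, 1], [0]]⟩,
   ⟨3, [768], [[1]]⟩,
   ⟨5, [704], []⟩]

def aD : List Cfsg.Lib.Spor.PK.Cert :=
  [⟨0, [256, 385, 192, 448, 64, 321, 129], [[1, 0, 0], [0, 0, 1, 1]]⟩,
   ⟨2, [448, 257, 321, 384, 193], []⟩]

theorem a_chk : homChk 10 7 8 aP aC aD = true := by decide +kernel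

def vec (i : ℕ) (j : Fin 2) : ZMod 3 := ((i + 1) / 3 ^ (j : ℕ) : ℕ)

theorem pts : PK.PtsOk (GL (Fin 2) (ZMod 3)) 8 vec :=
  PK.ptsOk_GL (by decide +kernel) (by decide +kernel)

theorem card_Q : Nat.card (GL (Fin 2) (ZMod 3)) = 48 := by
  have : Fact (Nat.Prime 3) := ⟨by norm_num⟩
  rw [Matrix.card_GL_field, ZMod.card]; rfl

theorem base : ∃ φ : ↥(stabilizer Cfsg.M24 (maskSet 8245261) ⊓ stabilizer Cfsg.M24 (fam 4 quart0)) →*
    GL (Fin 2) (ZMod 3), Function.Surjective φ := by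
  have h3 : ∀ p ∈ aP, (fixSet p.1 8245261 && fixFam p.1 4 quart0) = true := by decide +kernel
  have hq : ∀ p ∈ aP, ∃ q : GL (Fin 2) (ZMod 3), PK.ActL vec 8 p.2 q := by
    simp only [aP, List.forall_mem_cons, List.not_mem_nil, false_imp_iff, implies_true, and_true]
    refine ⟨?_, ?_⟩
    · exact exists_actL_GL !![2, 0; 2, 2] !![2, 0; 1, 2] (by decide +kernel)
    · exact exists_actL_GL !![0, 2; 2, 2] !![1, 2; 2, 0] (by decide +kernel)
  obtain ⟨φ, h4, -⟩ := exists_hom_of_gens pts hq a_chk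
    (fun p hp h => mem_stab_quart h (h3 p hp)) card_quartets_base.2.le
  exact ⟨φ, surjective_of_card_le φ (card_Q ▸ h4)⟩


/-- A quartet stabiliser inside the dodecad stabiliser has order 432, a normal subgroup of order 9 with quotient GL(2, 3), and is transitive on the dodecad. -/
theorem result (d : Finset Cfsg.GolayPt) (hd : d ∈ Cfsg.dodecads) (Q : Finset (Finset Cfsg.GolayPt)) (hQ : Q ∈ Cfsg.quartets d) : Nat.card ↥(MulAction.stabilizer Cfsg.M24 d ⊓ MulAction.stabilizer Cfsg.M24 Q) = 432 ∧ (∃ (N : Subgroup ↥(MulAction.stabilizer Cfsg.M24 d ⊓ MulAction.stabilizer Cfsg.M24 Q)) (_ : N.Normal), Nat.card N = 9 ∧ Nonempty (↥(MulAction.stabilizer Cfsg.M24 d ⊓ MulAction.stabilizer Cfsg.M24 Q) ⧸ N ≃* GL (Fin 2) (ZMod 3))) ∧ ∀ p ∈ d, ∀ q ∈ d, ∃ g ∈ (MulAction.stabilizer Cfsg.M24 d ⊓ MulAction.stabilizer Cfsg.M24 Q), ((g : ↥Cfsg.M24) : Equiv.Perm Cfsg.GolayPt) p = q := by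
  obtain ⟨e⟩ := nonempty_stab_equiv (trans_quartet hd hQ) (mem_inf_stab _ _) (mem_inf_stab _ _)
  have h1 := (Nat.card_congr e.toEquiv).trans card_quartets_base.2
  obtain ⟨φ, h0⟩ := base
  have h2 : Function.Surjective (φ.comp e.toMonoidHom) := h0.comp e.surjective
  refine ⟨h1, ⟨(φ.comp e.toMonoidHom).ker, inferInstance, ?_,
    ⟨QuotientGroup.quotientKerEquivOfSurjective _ h2⟩⟩, fun p hp q hq => ?_⟩
  · have h3 := card_ker_mul h2
    rw [h1, card_Q] at h3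
    omega
  · obtain ⟨g, h3, h4⟩ := quart_trans_pt hd hQ hp hq
    exact ⟨g, (mem_inf_stab _ _ _).2 h3, h4⟩

end Cfsg.Agent.S1598
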