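import Cfsg.Statements.S1600
import Cfsg.Agent.Spor.M24Dod

set_option autoImplicit false
open scoped Pointwise
open Cfsg

namespace Cfsg.Agent.S1600

open Cfsg.Lib.Spor Cfsg.Lib.Spor.MP

/-- The pointwise stabiliser of three points of a dodecad inside the dodecad stabiliser (order 72) is transitive on the complementary dodecad. -/
theorem result (d : Finset Cfsg.GolayPt) (hd : d ∈ Cfsg.dodecads) (p q r : Cfsg.GolayPt) (hp : p ∈ d) (hq : q ∈ d) (hr : r ∈ d) (hpq : p ≠ q) (hpr : p ≠ r) (hqr : q ≠ r) : Nat.card ↥(MulAction.stabilizer Cfsg.M24 d ⊓ MulAction.stabilizer Cfsg.M24 p ⊓ MulAction.stabilizer Cfsg.M24 q ⊓ MulAction.stabilizer Cfsg.M24 r) = 72 ∧ ∀ x ∉ d, ∀ y ∉ d, ∃ g ∈ (MulAction.stabilizer Cfsg.M24 d ⊓ MulAction.stabilizer Cfsg.M24 p ⊓ MulAction.stabilizer Cfsg.M24 q ⊓ MulAction.stabilizer Cfsg.M24 r), ((g : ↥Cfsg.M24) : Equiv.Perm Cfsg.GolayPt) x = y := by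
  obtain ⟨g, hg, e, key⟩ := exists_conj_M9 hd hp hq hr hpq hpr hqr
  refine ⟨(Nat.card_congr (equivOfConj _ _ M9_le hg key).toEquiv).trans card_M9,
    fun x hx y hy => ?_⟩
  obtain ⟨a, ha, e1⟩ := M9_trans_compl (y := g x)
    fun h => hx (apply_mem_perm_smul_finset.1 (e.symm ▸ h))
  obtain ⟨b, hb, e2⟩ := M9_trans_compl (y := g y)
    fun h => hy (apply_mem_perm_smul_finset.1 (e.symm ▸ h))
  have hba := M9.mul_mem hb (M9.inv_mem ha)
  refine ⟨⟨g⁻¹ * (b * a⁻¹) * g, M24.mul_mem (M24.mul_mem (M24.inv_mem hg) (M9_le hba)) hg⟩,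
    (key _).2 (by simpa [mul_assoc] using hba), ?_⟩
  simp [← e1, e2]

end Cfsg.Agent.S1600
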