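import Cfsg.Statements.S1601
import Cfsg.Agent.Spor.M24Iso

set_option autoImplicit false
open scoped Pointwise
open Cfsg

namespace Cfsg.Agent.S1601

open Cfsg.Lib.Spor Cfsg.Lib.Spor.MP

/-- In the 3-transitive action of the smallest Mathieu group on the complementary dodecad, a point stabiliser is isomorphic to PSL(2, 11). -/
theorem result (d : Finset Cfsg.GolayPt) (hd : d ∈ Cfsg.dodecads) (p q : Cfsg.GolayPt) (hp : p ∈ d) (hq : q ∉ d) : Nonempty (↥(MulAction.stabilizer Cfsg.M24 d ⊓ MulAction.stabilizer Cfsg.M24 p ⊓ MulAction.stabilizer Cfsg.M24 q) ≃* Matrix.ProjectiveSpecialLinearGroup (Fin 2) (ZMod 11)) := by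
  obtain ⟨g, hg, h1, h2, h3⟩ := M24_trans_dodecad_point_compl (n := 1) (by norm_num) hd hp
    ⟨fun _ => q, fun _ _ _ => Subsingleton.elim _ _⟩
    ⟨fun _ => idxPt 23, fun _ _ _ => Subsingleton.elim _ _⟩ (fun _ => hq)
    (by rw [squareDodecad_eq]; decide)
  obtain ⟨f⟩ := L211_equiv
  refine ⟨(equivOfConj _ L211 (inf_le_left.trans M11_le) hg fun x => ?_).trans f⟩
  rw [L211, Subgroup.mem_inf (p := Spor.M11), mem_M11, conj_smul_eq_iff g x h1,
    conj_apply_eq_iff g x h2, and_iff_right (conj_mem_M24 hg x),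
    MulAction.mem_stabilizer_iff (G := Equiv.Perm GolayPt),
    conj_smul_eq_iff g x (a := q) (b := idxPt 23) (h3 0)]
  rfl

end Cfsg.Agent.S1601
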