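import Cfsg.Statements.S1602
import Cfsg.Agent.Spor.M24Iso

set_option autoImplicit false
open scoped Pointwise
open Cfsg

namespace Cfsg.Agent.S1602

open Cfsg.Lib.Spor Cfsg.Lib.Spor.MP

/-- In the 12-point action of the smallest Mathieu group the setwise stabiliser of a pair is isomorphic to the symmetric group of degree 5. -/
theorem result (d : Finset Cfsg.GolayPt) (hd : d ∈ Cfsg.dodecads) (p q q' : Cfsg.GolayPt) (hp : p ∈ d) (hq : q ∉ d) (hq' : q' ∉ d) (hqq' : q ≠ q') : Nonempty (↥(MulAction.stabilizer Cfsg.M24 d ⊓ MulAction.stabilizer Cfsg.M24 p ⊓ MulAction.stabilizer Cfsg.M24 ({q, q'} : Finset Cfsg.GolayPt)) ≃* Equiv.Perm (Fin 5)) := by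
  obtain ⟨g, hg, h1, h2, h3⟩ := M24_trans_dodecad_point_compl (n := 2) (by norm_num) hd hp
    ⟨![q, q'], by intro i j; fin_cases i <;> fin_cases j <;> simp [hqq', hqq'.symm]⟩
    ⟨![idxPt 23, idxPt 5], by decide⟩ (by intro i; fin_cases i <;> assumption)
    (by rw [squareDodecad_eq]; decide)
  obtain ⟨f⟩ := M11pair_equiv
  have h4 : g • ({q, q'} : Finset GolayPt) = {idxPt 23, idxPt 5} := by
    rw [Finset.smul_finset_insert, Finset.smul_finset_singleton]
    exact congrArg₂ (fun a b => ({a, b} : Finset GolayPt)) (h3 0) (h3 1)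
  refine ⟨(equivOfConj _ M11pair (inf_le_left.trans M11_le) hg fun x => ?_).trans f⟩
  rw [M11pair, Subgroup.mem_inf (p := Spor.M11), mem_M11, conj_smul_eq_iff g x h1,
    conj_apply_eq_iff g x h2, and_iff_right (conj_mem_M24 hg x),
    MulAction.mem_stabilizer_iff (G := Equiv.Perm GolayPt), conj_smul_eq_iff g x h4]
  rfl

end Cfsg.Agent.S1602
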