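import Cfsg.Statements.S1603
import Cfsg.Agent.Spor.M24Iso

set_option autoImplicit false
open scoped Pointwise
open Cfsg

namespace Cfsg.Agent.S1603

open Cfsg.Lib.Spor Cfsg.Lib.Spor.MP

/-- Involution centralisers in the smallest Mathieu group are isomorphic to GL(2, 3). -/
theorem result (d : Finset Cfsg.GolayPt) (hd : d ∈ Cfsg.dodecads) (p : Cfsg.GolayPt) (hp : p ∈ d) (x : ↥(MulAction.stabilizer Cfsg.M24 d ⊓ MulAction.stabilizer Cfsg.M24 p)) (hx : orderOf x = 2) : Nonempty (↥(Subgroup.centralizer ({x} : Set ↥(MulAction.stabilizer Cfsg.M24 d ⊓ MulAction.stabilizer Cfsg.M24 p))) ≃* GL (Fin 2) (ZMod 3)) := by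
  obtain ⟨e⟩ := nonempty_equiv_M11 hd hp
  obtain ⟨k, hk, h⟩ := M11_order_two (e x).2 (by rw [Subgroup.orderOf_coe, e.orderOf_eq, hx])
  obtain ⟨f⟩ := nonempty_centralizer_equiv e x hk h
  obtain ⟨f'⟩ := cent_z11_equiv
  exact ⟨f.trans f'⟩

end Cfsg.Agent.S1603
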