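import Cfsg.Statements.S1605
import Cfsg.Agent.Spor.GeoPQ

set_option autoImplicit false
open scoped Pointwise
open Cfsg

namespace Cfsg.Agent.S1605

open Cfsg.Lib.Spor Cfsg.Lib.Spor.Orb MulAction

/-- The two-point stabiliser acts on the 176 octads through the first point avoiding the second with rank 3 and subdegrees 1, 70, 105 (intersections 8, 2, 4). -/
theorem result (p q : Cfsg.GolayPt) (hpq : p ≠ q) : {x : Finset Cfsg.GolayPt | (x ∈ Cfsg.octads ∧ p ∈ x ∧ q ∉ x)}.ncard = 176 ∧ (∀ o o' : Finset Cfsg.GolayPt, (o ∈ Cfsg.octads ∧ p ∈ o ∧ q ∉ o) → (o' ∈ Cfsg.octads ∧ p ∈ o' ∧ q ∉ o') → ∃ g : Equiv.Perm Cfsg.GolayPt, g ∈ Cfsg.M24 ∧ g p = p ∧ g q = q ∧ g • o = o') ∧ ∀ o : Finset Cfsg.GolayPt, (o ∈ Cfsg.octads ∧ p ∈ o ∧ q ∉ o) → {x : Finset Cfsg.GolayPt | (x ∈ Cfsg.octads ∧ p ∈ x ∧ q ∉ x) ∧ (o ∩ x).card = 2}.ncard = 70 ∧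 {x : Finset Cfsg.GolayPt | (x ∈ Cfsg.octads ∧ p ∈ x ∧ q ∉ x) ∧ (o ∩ x).card = 4}.ncard = 105 ∧ ∀ o' o'' : Finset Cfsg.GolayPt, (o' ∈ Cfsg.octads ∧ p ∈ o' ∧ q ∉ o') → (o'' ∈ Cfsg.octads ∧ p ∈ o'' ∧ q ∉ o'') → (o ∩ o').card = (o ∩ o'').card → ∃ g : Equiv.Perm Cfsg.GolayPt, g ∈ Cfsg.M24 ∧ g p = p ∧ g q = q ∧ g • o = o ∧ g • o' = o'' := by
  refine ⟨?_, fun o o' ho ho' => ?_, fun o ho => ?_⟩
  · refine Eq.trans ?_ ((rank_pq_oct hpq).card 2)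
    simp only [← ind2_eq_one]
    rfl
  · obtain ⟨g, e1, e2⟩ := (rank_pq_oct hpq).trans o ho.1 o' ho'.1
      ((ind2_eq_one.2 ho.2).trans (ind2_eq_one.2 ho'.2).symm)
    exact ⟨g, g.2, congrArg (·.1) e1, congrArg (·.2) e1, e2⟩
  · have R := rank_pq_first hpq ho.1 (ind2_eq_one.2 ho.2)
    refine ⟨?_, ?_, fun o' o'' ho' ho'' h => ?_⟩
    · refine Eq.trans ?_ (R.card 1)
      simp only [Set.mem_ofPred_eq, ind2_eq_one]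
      rfl
    · refine Eq.trans ?_ (R.card 2)
      simp only [Set.mem_ofPred_eq, ind2_eq_one]
      rfl
    · obtain ⟨g, e1, e2⟩ := R.trans o' ⟨ho'.1, ind2_eq_one.2 ho'.2⟩ o''
        ⟨ho''.1, ind2_eq_one.2 ho''.2⟩ h
      exact ⟨g, g.2, congrArg (·.1.1) e1, congrArg (·.1.2) e1, congrArg (·.2) e1, e2⟩

end Cfsg.Agent.S1605
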