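import Cfsg.Statements.S1606
import Cfsg.Agent.Class.M24Inv
import Cfsg.Agent.Spor.M22Classes

set_option autoImplicit false
open scoped Pointwise
open Cfsg

namespace Cfsg.Agent.S1606

open Cfsg.Lib.Spor Cfsg.Lib.Spor.MP Cfsg.Lib.Class.M24I Subgroup

/-- An element of order `11` of `M22`. -/
def xx : ℕ := 983435072843990828779021698901151808

def cA : List (ℕ × List ℕ) :=
  [(966182099583441531322624363496310816, [3]),
   (984483373012258070472260851719051552, [1, 2, 6]),
   (984719425469015381782316292875858496, [1]),
   (974919946742585328872383825564502688, [1]),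
   (978935994059595565513698360758995104, [2]),
   (980396787561598970936339623786416672, [2]),
   (977759248181629214425604038922963552, [1]),
   (978246815817592529324000651197721056, [2]),
   (963559745903778623359417332224538656, [1, 2, 8]),
   (969768335943864771257938736939554176, [1, 2, 3]),
   (965854187687885174613743780153906208, [1, 2, 4]),
   (960032866260110029277740665171295552, [1, 2, 5]),
   (970403792887019997270445515820252192, [1]),
   (983560637420171784855196239005297888, [1]),
   (981900097418149356294900620993184800, [1, 2, 4]),
   (981616150452815826097002658071151680, [2]),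
   (962263927365024076866113962913140928, [1]),
   (976396646194727337591699718454492800, [1, 2, 5]),
   (984371314745208428399736121543733856, [1, 2, 6]),
   (957292462059369422138421498051941056, [2]),
   (974902585042156701821246314532422304, [1, 2, 5]),
   (974915341958647371401352629827246752, [1, 2, 4]),
   (972567074602356114314004365543846240, [1]),
   (983537425606539288779444332275028448, [1]),
   (984615205044050584141019831146224896, [1, 2, 4]),
   (967528743129250142307004454690461120, [3]),
   (976339721766278215343299373525214528, [1, 2, 3]),
   (964610611462423594670321509753063744, [1]),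
   (984696553521143719332002643628397920, [2]),
   (959776989238354821125224048992396320, [1, 2, 4]),
   (984808064567918337519799801439391072, [1]),
   (984389065579339274464679472059863648, [1, 2, 5]),
   (961199045237172820687427307904895392, [1]),
   (963582548063115683454692434838063200, [1]),
   (984088059878576968100053043777291648, [4]),
   (977982431439811998543946361927737376, [3]),
   (984806274390134194629743503195224448, [2]),
   (984810545863915030200161621005872224, [1, 4, 5]),
   (981494464429538976006115211677967520, [3]),
   (968613848343811158676556396926404832, [1, 2, 4]),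
   (984493713370569251932385474037359936, [1]),
   (971093152603341765404342006151030816, [1, 2, 3]),
   (984797269885469044742697501759982816, [2]),
   (965016274200280537089072810760285568, [4]),
   (963552842376912656278710701733841280, [1]),
   (975390709690948394908819237374462112, [3]),
   (984169187118468521504517259810654656, [2]),
   (965946323425539850482899564855739424, [1, 2, 3]),
   (984794819769570976955901409418957280, [2]),
   (968744434769585784480298716236942816, [2]),
   (984232233431490913630068531325373600, [3]),
   (980234526417279051990584612315661376, [1]),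
   (984778908561569685664895152755640448, [2]),
   (968997331206528434462782776219896160, [1, 2, 3]),
   (984817868999608725294094975247124896, [4]),
   (959343326376155661073924564280087200, [2]),
   (984104463235519634447189268701121152, [3]),
   (984533793844585853448292408907836992, [4]),
   (981940598513915484873933947681343520, [1]),
   (977718725454645408129497518449151008, [1, 2, 4]),
   (967253231612594632296938810958713888, [1, 3, 5]),
   (958733841458863784745638835431790624, [3]),
   (984209118219899382534684339287476576, [1, 2, 4]),
   (972932217723957916728105504479693056, [2]),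
   (976420838754479978627774237199763488, [2]),
   (984412421473907193312266097351112896, [1, 2, 4]),
   (979098015730098230391406316035095584, [1, 2, 4]),
   (984818070671820887514443681551124640, [1]),
   (984452764631132877268838878370304032, [1]),
   (962286864140653867024520594739169312, [1]),
   (974993587178647292013171981291266080, [2]),
   (971592882964418941354553515258775584, [4]),
   (970173116749257607266018466261906656, [1]),
   (971538315709779474285833653525681728, [1, 2, 6]),
   (959627471982693366349117883158317568, [2]),
   (984795413199899346925398490035507584, [1]),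
   (960137067412918407442820498143791488, [1]),
   (972324262878695684175825216660086432, [1]),
   (978318424448469451410835378656086592, [4]),
   (967942957714014767182009819932504192, [3]),
   (977657271623414012574802371542661472, [1]),
   (964807033003186894939333471354620384, [1]),
   (984778939901652623469320922203368480, [1]),
   (984686412000481665237904396589909024, [1, 2, 6]),
   (983536636922713137116832990086151808, [1]),
   (959775806916153066781728529055426592, [1]),
   (982143564592163342537024749495753760, [1]),
   (969790242334956570868356858214261280, [1, 3, 5]),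
   (976539006901119804582877792120867232, [1]),
   (984778705959267769925405002968512544, [3]),
   (984321324869319684017664638098442784, [1, 2, 5]),
   (975141542956546445243913353447475808, [1]),
   (979038356457604983183905474999340064, [2]),
   (984812680889878029252177586422913056, [3]),
   (984128085538288175228165656404926688, [3]),
   (984209327819486398174424040943490496, [1, 2, 3]),
   (971820785244182786639402130101866976, [2]),
   (983549987344740594813603985216310720, [1]),
   (984800045175449534942630167704616992, [1, 2, 7]),
   (958844717248964307133962771239655456, [2])]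

def cB : List (ℕ × List ℕ) :=
  [(977881343727247884959580225012865152, [3]),
   (984250007757840264970761676795265152, [1]),
   (984817008955239316910482038318174624, [1]),
   (984737182502729783464923423941280160, [3]),
   (969240118097008726526406917528625184, [2])]

def kk : ℕ := 984818244535754528103549039458486304

theorem hx : InSub Spor.M22 xx := inSub_M22 (by decide +kernel)

theorem chkA : (cA.all fun a => hasOrder (ev xx a.1 a.2) 7) = true := by decide +kernel

theorem chkB : (cB.all fun a => hasOrder (ev xx a.1 a.2) 5) = true := by decide +kernel

theorem chkR : (((cA ++ cB).map Prod.fst).all fun r =>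
    isFix [23, 0] r && hasOrder r 2 && Nat.blt r (2 ^ 120)) = true := by decide +kernel

theorem invol : {g | g ∈ Spor.M22 ∧ orderOf g = 2}.ncard ≤ 1155 ∧
    ∀ g ∈ Spor.M22, orderOf g = 2 → Nat.card ↥(Spor.M22 ⊓ centralizer {g}) = 384 :=
  ncard_invol isClassList_M22 (t := 966182099583441531322624363496310816) rfl (by norm_num)
    (by rw [card_M22])

theorem repR : ∀ r ∈ (cA ++ cB).map Prod.fst,
    InSub Spor.M22 r ∧ hasOrder r 2 = true ∧ r < 2 ^ 120 := by
  intro r hr
  have := List.all_eq_true.1 chkR r hr
  simp only [Bool.and_eq_true, Nat.blt_eq] at this
  exact ⟨inSub_M22 this.1.1, this.1.2, this.2⟩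

theorem cov {K : Subgroup (Equiv.Perm GolayPt)} (hK : K ≤ Spor.M22) (hxK : InSub K xx)
    (h7 : ¬ 7 ∣ Nat.card K) {s : Equiv.Perm GolayPt} (hs : s ∈ K) (ho : orderOf s = 2) :
    5 ∣ Nat.card K ∧
      ∃ k < 11, ∃ a ∈ cB, toPerm xx ^ k * toPerm a.1 * (toPerm xx ^ k)⁻¹ = s := by
  obtain ⟨k, hk, r, hr, e⟩ := cover hx repR (by decide +kernel) (n := 11) (by decide +kernel)
    (invol.1.trans (by decide +kernel)) (hK hs) ho
  have hrK : InSub K r := inSub_of_conj hxK (repR r hr).1.1 (e ▸ hs)
  obtain ⟨a, ha, rfl⟩ := List.mem_map.1 hr
  rcases List.mem_append.1 ha with ha | ha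
  · exact absurd (dvd_card_of_hasOrder (inSub_ev hxK hrK a.2) (List.all_eq_true.1 chkA a ha)) h7
  · exact ⟨dvd_card_of_hasOrder (inSub_ev hxK hrK a.2) (List.all_eq_true.1 chkB a ha),
      k, hk, a, ha, e⟩

theorem main {K : Subgroup (Equiv.Perm GolayPt)} (hK : K ≤ Spor.M22) (hxK : InSub K xx)
    (hc : Nat.card K = 7920 ∨ Nat.card K = 2112) : False := by
  classical
  obtain ⟨s, hs, ho⟩ := exists_orderOf (p := 2) (H := K) Nat.prime_two (by omega)
  have h5 := (cov hK hxK (by omega) hs ho).1
  have h1 := PK.ncard_clsOf_mul K s
  have h2 : Nat.card ↥(K ⊓ centralizer {s}) ∣ 384 :=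
    invol.2 s (hK hs) ho ▸ card_dvd_of_le (inf_le_inf_right _ hK)
  have h3 : Nat.card ↥(K ⊓ centralizer {s}) ∣ 7920 :=
    (show Nat.card K = 7920 by omega) ▸ card_dvd_of_le inf_le_left
  have h4 := Nat.le_of_dvd (by norm_num) (Nat.dvd_gcd h2 h3)
  rw [show Nat.gcd 384 7920 = 48 by norm_num] at h4
  have h6 : PK.clsOf K s ⊆ ↑((Finset.range 11 ×ˢ cB.toFinset).image fun a =>
      toPerm xx ^ a.1 * toPerm a.2.1 * (toPerm xx ^ a.1)⁻¹) := by
    rintro _ ⟨g, hg, rfl⟩
    obtain ⟨-, k, hk, a, ha, e⟩ := cov hK hxK (by omega) (K.mul_mem (K.mul_mem hg hs) (K.inv_mem hg))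
      (ho ▸ (MulAut.conj g).orderOf_eq s)
    exact Finset.mem_image.2 ⟨(k, a), Finset.mem_product.2
      ⟨Finset.mem_range.2 hk, List.mem_toFinset.2 ha⟩, e⟩
  have h7 := Set.ncard_le_ncard h6
  rw [Set.ncard_coe_finset] at h7
  have h8 := h7.trans Finset.card_image_le
  rw [Finset.card_product, Finset.card_range] at h8
  have h9 : cB.toFinset.card ≤ 5 := List.toFinset_card_le cB
  have h10 := Nat.mul_le_mul (h8.trans (Nat.mul_le_mul_left 11 h9)) h4
  omega

theorem main' {K : Subgroup (Equiv.Perm GolayPt)} (hK : K ≤ Spor.M22)
    (hc : Nat.card K = 7920 ∨ Nat.card K = 2112) : False := by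
  obtain ⟨s, hs, ho⟩ := exists_orderOf (p := 11) (H := K) (by norm_num) (by omega)
  have key : ∀ g ∈ Spor.M22, g * toPerm xx * g⁻¹ ∈ K → False := by
    intro g hg h
    refine main (K := K.map (MulAut.conj g⁻¹).toMonoidHom) ?_ ⟨hx.1, _, h, by simp [mul_assoc]⟩ ?_
    · rintro _ ⟨k, hk, rfl⟩
      simpa using Spor.M22.mul_mem (Spor.M22.mul_mem (Spor.M22.inv_mem hg) (hK hk)) hg
    · rwa [card_map_of_injective (MulAut.conj g⁻¹).injective]
  obtain ⟨r, hr, g, hg, e⟩ := isClassList_M22.exists_of_order (hK hs) ho
  have hr' : r = (970567384681219435340729552166356352, 11, 11) ∨ r = (xx, 11, 11) := by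
    rw [show reps22.filter (fun r => Nat.beq r.2.1 11) =
      [(970567384681219435340729552166356352, 11, 11), (xx, 11, 11)] from rfl] at hr
    simpa using hr
  rcases hr' with rfl | rfl
  · have hk : InSub Spor.M22 kk := inSub_M22 (by decide +kernel)
    have e1 : toPerm 970567384681219435340729552166356352 ^ 10 =
        toPerm kk * toPerm xx * (toPerm kk)⁻¹ :=
      ((rep_toPerm (by decide +kernel)).pow 10).eq_of_peq (hk.rep.conj hx.rep) (by decide +kernel)
    refine key (g * toPerm kk) (Spor.M22.mul_mem hg hk.2) ?_
    have := K.pow_mem hs 10
    rw [← e, conj_pow, e1] at this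
    simpa [mul_assoc] using this
  · exact key g hg (e ▸ hs)

/-- The stabiliser of two points in the group of the length-24 code has no subgroups of index 56 or 210. -/
theorem result (p q : Cfsg.GolayPt) (hpq : p ≠ q) (H : Subgroup ↥(MulAction.stabilizer Cfsg.M24 p ⊓ MulAction.stabilizer Cfsg.M24 q)) : H.index ≠ 56 ∧ H.index ≠ 210 := by
  obtain ⟨e⟩ := nonempty_equiv_M22 hpq
  have h1 := Subgroup.card_mul_index H
  rw [Nat.card_congr e.toEquiv, card_M22] at h1
  have h2 := main' (K := (H.map e.toMonoidHom).map Spor.M22.subtype) (map_subtype_le _)
  rw [card_map_of_injective (subtype_injective _), card_map_of_injective e.injective] at h2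
  exact ⟨fun h => h2 (by rw [h] at h1; omega), fun h => h2 (by rw [h] at h1; omega)⟩

end Cfsg.Agent.S1606
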