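import Cfsg.Statements.S1607
import Cfsg.Agent.Spor.GeoFlag

set_option autoImplicit false
open scoped Pointwise
open Cfsg

namespace Cfsg.Agent.S1607

open Cfsg.Lib.Spor Cfsg.Lib.Spor.Orb MulAction

theorem phi_iff {x : GolayPt} {o y : Finset GolayPt} (ho : o.card < 16) {k : ℕ} (hk : k < 16) :
    (phiF (x, o) y = k + 16 ↔ x ∈ y ∧ (o ∩ y).card = k) ∧
    (phiF (x, o) y = k ↔ x ∉ y ∧ (o ∩ y).card = k) := by
  have h1 : (o ∩ y).card ≤ o.card := Finset.card_le_card Finset.inter_subset_left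
  simp only [phiF]
  by_cases h : x ∈ y
  · rw [ind_of_mem h]; simp only [h, true_and, not_true, false_and, iff_false]; omega
  · rw [ind_of_not_mem h]; simp only [h, false_and, not_false_eq_true, true_and, iff_false]; omega

/-- The point stabiliser acts on the 253 heptads of its S(4, 7, 23) with rank 3 and subdegrees 1, 112, 140 (intersections 8, 2, 4). -/
theorem result (x : Cfsg.GolayPt) (o : Finset Cfsg.GolayPt) (ho : o ∈ Cfsg.octads) (hx : x ∈ o) : {o' : Finset Cfsg.GolayPt | o' ∈ Cfsg.octads ∧ x ∈ o' ∧ (o ∩ o').card = 2}.ncard = 112 ∧ {o' : Finset Cfsg.GolayPt | o' ∈ Cfsg.octads ∧ x ∈ o' ∧ (o ∩ o').card = 4}.ncard = 140 ∧ ∀ o' o'' : Finset Cfsg.GolayPt, o' ∈ Cfsg.octads → o'' ∈ Cfsg.octads → x ∈ o' → x ∈ o'' → (o ∩ o').card = (o ∩ o'').card → ∃ g : Equiv.Perm Cfsg.GolayPt, g ∈ Cfsg.M24 ∧ g x = x ∧ g • o = o ∧ g • o' = o'' := by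
  have R := rank_inOct ho hx
  have h8 : o.card < 16 := by rw [(mem_octads_iff'.1 ho).2]; norm_num
  refine ⟨?_, ?_, fun o' o'' h1 h2 h3 h4 h => ?_⟩
  · simp only [← (phi_iff h8 (k := 2) (by norm_num)).1]
    exact R.card 2
  · simp only [← (phi_iff h8 (k := 4) (by norm_num)).1]
    exact R.card 3
  · obtain ⟨g, e1, e2⟩ := R.trans o' h1 o'' h2 (by
      simp only [phiF, ind_of_mem h3, ind_of_mem h4, h])
    exact ⟨g, g.2, congrArg (·.1) e1, congrArg (·.2) e1, e2⟩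

end Cfsg.Agent.S1607
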