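import Cfsg.Statements.S1609
import Cfsg.Agent.Class.M24Idx

set_option autoImplicit false
open scoped Pointwise
open Cfsg

namespace Cfsg.Agent.S1609

open Cfsg.Lib.Spor Cfsg.Lib.Spor.Orb Cfsg.Lib.Class.M24I MulAction

theorem eq_of_inv (x : GolayPt) (H : Subgroup (stabilizer M24 x)) (hH : H.index = 253)
    {X : Finset GolayPt} (h : Inv (H.map (stabilizer M24 x).subtype) X)
    (h1 : 3 ≤ (insert x X).card) (h2 : (insert x X).card ≤ 8) :
    H = (stabilizer M24 X).subgroupOf (stabilizer M24 x) := by
  have hle : H ≤ (stabilizer M24 X).subgroupOf (stabilizer M24 x) := fun g hg =>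
    h.le_stab ⟨g, hg, rfl⟩
  have hI : Inv (stabilizer M24 X ⊓ stabilizer M24 x) (insert x X) :=
    (inv_of_le inf_le_left).insert inf_le_right
  have hc : Nat.card ↥((stabilizer M24 X).subgroupOf (stabilizer M24 x)) =
      Nat.card ↥(stabilizer M24 X ⊓ stabilizer M24 x) := by
    rw [← Subgroup.inf_subgroupOf_right]
    exact Nat.card_congr (Subgroup.subgroupOfEquivOfLe inf_le_right).toEquiv
  have h11 : ¬ 11 ∣ Nat.card ↥(stabilizer M24 X ⊓ stabilizer M24 x) := fun hd => by
    have := hI.mod_le (Or.inr (Or.inr (Or.inl rfl))) hd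
    omega
  have h23 : ¬ 23 ∣ Nat.card ↥(stabilizer M24 X ⊓ stabilizer M24 x) := fun hd => by
    have := hI.mod_le (Or.inr (Or.inr (Or.inr rfl))) hd
    omega
  have e1 := Subgroup.card_mul_index H
  have e2 := Subgroup.card_mul_index ((stabilizer M24 X).subgroupOf (stabilizer M24 x))
  have e3 := Subgroup.index_dvd_of_le hle
  rw [card_stab_pt] at e1 e2
  rw [hH] at e1 e3
  refine eq_of_le_of_card hle ?_
  rw [hc] at e2 ⊢
  have e4 : ∀ d, d ∣ 253 → d = 1 ∨ d = 11 ∨ d = 23 ∨ d = 253 := fun d hd => by
    have : d ∈ Nat.divisors 253 := Nat.mem_divisors.2 ⟨hd, by norm_num⟩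
    rw [show Nat.divisors 253 = {1, 11, 23, 253} by decide +kernel] at this
    simpa using this
  rcases e4 _ e3 with h | h | h | h <;> rw [h] at e2 <;> omega

/-- Subgroups of index 253 in the Mathieu group of degree 23 are exactly the duad stabilisers and the heptad stabilisers. -/
theorem result (x : Cfsg.GolayPt) (H : Subgroup ↥(MulAction.stabilizer Cfsg.M24 x)) (hH : H.index = 253) : (∃ s : Finset Cfsg.GolayPt, s.card = 2 ∧ x ∉ s ∧ H = (MulAction.stabilizer Cfsg.M24 s).subgroupOf (MulAction.stabilizer Cfsg.M24 x)) ∨ ∃ o ∈ Cfsg.octads, x ∈ o ∧ H = (MulAction.stabilizer Cfsg.M24 o).subgroupOf (MulAction.stabilizer Cfsg.M24 x) := by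
  obtain ⟨O, hO, hxO⟩ := exists_octad_superset (s := {x}) (by simp)
  have hx : x ∈ O := hxO (Finset.mem_singleton_self x)
  obtain ⟨g, hg⟩ := exists_conj_mem Nat.prime_two H ((ptStab O).subgroupOf (stabilizer M24 x))
    (isPGroup_ptStab hO).comap_subtype (by omega)
  set K := H.map (stabilizer M24 x).subtype with hK
  have hKx : K ≤ stabilizer M24 x := Subgroup.map_subtype_le _
  have hKc : Nat.card K = 40320 := by
    have e1 := Subgroup.card_mul_index H
    rw [card_stab_pt, hH] at e1
    rw [hK, Subgroup.card_map_of_injective (Subgroup.subtype_injective _)]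
    omega
  have ho : (g : M24) • O ∈ octads := smul_mem_octads' _ hO
  have hxo : x ∈ (g : M24) • O := by
    have := (mem_smul_iff g x O).2 hx
    rwa [show (g : M24) • x = x from g.2] at this
  have hE : ptStab ((g : M24) • O) ≤ K := by
    intro t ht
    have h1 : (g : M24)⁻¹ * t * g ∈ ptStab O := by
      rw [conj_mem_ptStab (g : M24)]; simpa [mul_assoc] using ht
    refine ⟨_, hg ⟨_, mem_ptStab.1 h1 x hx⟩ h1, ?_⟩
    simp [mul_assoc]
  generalize (g : M24) • O = o at ho hxo hE
  have h8 := card_oct ho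
  obtain ⟨p, hp⟩ := exists_not_mem (X := o) (by omega)
  have h1 := compl_subset_orb ho hE hp
  have h2 := Finset.card_le_card h1
  have h3 := card_orb_dvd K p
  have h4 := (inv_orb K p).mod_le (Or.inr (Or.inl rfl)) (by omega)
  have h5 := card_le' (orb K p)
  have hxp : x ∉ orb K p := fun h => by
    obtain ⟨k, hk, e⟩ := mem_orb.1 h
    have : p = x := smul_left_cancel k (e.trans (show k • x = x from hKx hk).symm)
    exact hp (this ▸ hxo)
  have h6 : (orb K p).card ≠ 24 := fun h =>
    hxp (by rw [Finset.eq_univ_of_card _ (h.trans card_golayPt.symm)]; simp)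
  rw [card_compl', h8] at h2
  rw [hKc] at h3
  have h7 : (orb K p).card = 16 ∨ (orb K p).card = 21 := by
    generalize (orb K p).card = d at *
    interval_cases d <;> omega
  rcases h7 with h7 | h7
  · have e : oᶜ = orb K p := Finset.eq_of_subset_of_card_le h1 (by rw [card_compl']; omega)
    have hI : Inv K o := by
      have := (inv_orb K p).compl
      rwa [← e, compl_compl] at this
    exact Or.inr ⟨o, ho, hxo, eq_of_inv x H hH hI (by rw [Finset.insert_eq_of_mem hxo]; omega)
      (by rw [Finset.insert_eq_of_mem hxo]; omega)⟩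
  · have hs : (insert x (orb K p))ᶜ.card = 2 := by
      rw [card_compl', Finset.card_insert_of_notMem hxp, h7]
    have hxs : x ∉ (insert x (orb K p))ᶜ := by simp
    exact Or.inl ⟨_, hs, hxs, eq_of_inv x H hH ((inv_orb K p).insert hKx).compl
      (by rw [Finset.card_insert_of_notMem hxs]; omega)
      (by rw [Finset.card_insert_of_notMem hxs]; omega)⟩

end Cfsg.Agent.S1609
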