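import Cfsg.Statements.S1610
import Cfsg.Agent.Spor.Hexacode

set_option autoImplicit false
open Cfsg

namespace Cfsg.Agent.S1610

/-- The hexacode has 64 words, minimum weight 4, and weight distribution 0^1 4^45 6^18. -/
theorem result (F : Type*) [Field F] [Fintype F] [DecidableEq F] (hF : Fintype.card F = 4) (ω : F) (hω : ω ^ 2 + ω + 1 = 0) : Nat.card ↥(Cfsg.hexacode F ω) = 64 ∧ (∀ x ∈ Cfsg.hexacode F ω, x ≠ 0 → (Finset.univ.filter fun i => x i ≠ 0).card = 4 ∨ (Finset.univ.filter fun i => x i ≠ 0).card = 6) ∧ {x : Fin 6 → F | x ∈ Cfsg.hexacode F ω ∧ (Finset.univ.filter fun i => x i ≠ 0).card = 4}.ncard = 45 ∧ {x : Fin 6 → F | x ∈ Cfsg.hexacode F ω ∧ (Finset.univ.filter fun i => x i ≠ 0).card = 6}.ncard = 18 := by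
  obtain ⟨e, he⟩ := Cfsg.Lib.Spor.GF4.exists_ringEquiv hF hω
  have hw : ∀ x : Fin 6 → Cfsg.Lib.Spor.GF4, (Finset.univ.filter fun i => e (x i) ≠ 0) =
      Finset.univ.filter fun i => x i ≠ 0 := by
    intro x
    ext i
    simp
  refine ⟨?_, ?_, ?_, ?_⟩
  · have h := (Cfsg.Lib.Spor.Hexa.ncard_transport e he (fun _ => True) (fun _ => True)
      (by simp)).trans (Cfsg.Lib.Spor.Hexa.ncard_filter _)
    simp only [and_true, Finset.filter_true, Finset.card_univ, Fintype.card_prod,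
      Cfsg.Lib.Spor.GF4.card] at h
    exact h
  · intro y hy h0
    obtain ⟨x, rfl⟩ : ∃ x : Fin 6 → Cfsg.Lib.Spor.GF4, y = fun i => e (x i) :=
      ⟨fun i => e.symm (y i), by simp⟩
    rw [Cfsg.Lib.Spor.Hexa.comp_mem_iff e he] at hy
    have h0' : x ≠ 0 := by
      rintro rfl
      exact h0 (by funext i; simp)
    rw [hw]
    rw [Cfsg.Lib.Spor.Hexa.eq_henc hy] at h0' ⊢
    revert h0'
    generalize x 0 = a, x 1 = b, x 2 = c
    revert a b c
    decide +kernel
  · refine (Cfsg.Lib.Spor.Hexa.ncard_transport e he _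
      (fun x => (Finset.univ.filter fun i => x i ≠ 0).card = 4) (fun x => by rw [hw])).trans ?_
    exact (Cfsg.Lib.Spor.Hexa.ncard_filter _).trans (by decide +kernel)
  · refine (Cfsg.Lib.Spor.Hexa.ncard_transport e he _
      (fun x => (Finset.univ.filter fun i => x i ≠ 0).card = 6) (fun x => by rw [hw])).trans ?_
    exact (Cfsg.Lib.Spor.Hexa.ncard_filter _).trans (by decide +kernel)

end Cfsg.Agent.S1610
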