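import Cfsg.Statements.S1612
import Cfsg.Agent.Spor.TTStruct

set_option autoImplicit false
open Cfsg

namespace Cfsg.Agent.S1612

/-- In a 3-transposition group (no solvable normal subgroup, perfect derived group), the normaliser of a commuting set of transpositions of maximum size contains a Sylow 2-subgroup and is doubly transitive on the set. -/
theorem result {G : Type*} [Group G] [Finite G] (hsol : ∀ N : Subgroup G, N.Normal → Group.IsSolvable ↥N → N = ⊥) (hperf : ⁅commutator G, commutator G⁆ = commutator G) {D : Set G} (hD : Cfsg.IsThreeTranspositionClass D) {E : Set G} (hE : E ⊆ D) (hc : ∀ a ∈ E, ∀ b ∈ E, Commute a b) (hmax : ∀ E' : Set G, E' ⊆ D → (∀ a ∈ E', ∀ b ∈ E', Commute a b) → E'.ncard ≤ E.ncard) : (∃ P : Sylow 2 G, (P : Subgroup G) ≤ Subgroup.normalizer E) ∧ ∀ a ∈ E, ∀ b ∈ E, ∀ c ∈ E, ∀ d ∈ E, a ≠ b → c ≠ d → ∃ g ∈ Subgroup.normalizer E, g * a * g⁻¹ = c ∧ g * b * g⁻¹ = d := by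
  open Cfsg.Lib.Spor Cfsg.Lib.Spor.TQ in
  have := IsTT.of_class hD
  have hconj := IsTT.conj_of_class hD
  have hmax' : ∀ F : Set G, F ⊆ D → (∀ a ∈ F, ∀ b ∈ F, Commute a b) → E ⊆ F → F ⊆ E :=
    fun F h1 h2 h3 => (Set.eq_of_subset_of_ncard_le h3 (hmax F h1 h2)).symm.subset
  constructor
  · obtain ⟨T, hT⟩ := tt_exists_sylow hD.1 hE hc
    refine ⟨T, fun g hg => Subgroup.mem_normalizer_fintype fun a ha => ?_⟩
    refine hmax' {x | x ∈ D ∧ x ∈ T} (fun _ h => h.1) (fun x hx y hy =>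
      tt_commute_of_mem (by norm_num) hD.1 T.2 hx.1 hy.1 (mul_mem hx.2 hy.2))
      (fun x hx => ⟨hE hx, hT hx⟩) ⟨hconj g a (hE ha), ?_⟩
    exact mul_mem (mul_mem hg (hT ha)) (inv_mem hg)
  · intro a ha b hb c hc' d hd hab hcd
    have : Nonempty D := ⟨⟨a, hE ha⟩⟩
    obtain ⟨hP, -, -⟩ := prim_of_fischer hD.2.2 (conn_of_class hD) hsol hperf
    obtain ⟨k, hk, hka, hkb⟩ := hP.exists_com_pair (a := ⟨a, hE ha⟩) (b := ⟨b, hE hb⟩)
      (c := ⟨c, hE hc'⟩) (d := ⟨d, hE hd⟩)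
      ⟨fun h => hab (congrArg Subtype.val h).symm, IsTT.com_iff.2 (hc a ha b hb)⟩
      ⟨fun h => hcd (congrArg Subtype.val h).symm, IsTT.com_iff.2 (hc c hc' d hd)⟩
    obtain ⟨g, -, rfl⟩ := exists_conjPerm_eq hconj hk
    have hga : g * a * g⁻¹ = c := congrArg Subtype.val hka
    have hgb : g * b * g⁻¹ = d := congrArg Subtype.val hkb
    have hcomm : ∀ x ∈ E, ∀ y ∈ E, Commute (g * x * g⁻¹) (g * y * g⁻¹) := fun x hx y hy =>
      (hc x hx y hy).map (MulAut.conj g)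
    obtain ⟨h, hh, hhE⟩ := exists_conj_of_width hD.1 hconj
      (C := Subgroup.centralizer {c, d}) (E := (fun x => g * x * g⁻¹) '' E) (E' := E)
      (by rintro _ ⟨x, hx, rfl⟩; exact hconj g x (hE hx)) hE
      (by
        rintro _ ⟨x, hx, rfl⟩ y (rfl | rfl)
        · rw [← hga]; exact hcomm a ha x hx
        · rw [← hgb]; exact hcomm b hb x hx)
      (by
        rintro x hx y (rfl | rfl)
        · exact hc y hc' x hx
        · exact hc y hd x hx)
      (by rintro _ ⟨x, hx, rfl⟩ _ ⟨y, hy, rfl⟩; exact hcomm x hx y hy) hc hmax'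
    refine ⟨h * g, Subgroup.mem_normalizer_fintype fun x hx => ?_, ?_, ?_⟩
    · have := hhE _ ⟨x, hx, rfl⟩
      convert this using 1; group
    · have := hh c (by simp)
      rw [mul_inv_rev, ← mul_assoc, mul_assoc h, mul_assoc h, hga, ← this]; group
    · have := hh d (by simp)
      rw [mul_inv_rev, ← mul_assoc, mul_assoc h, mul_assoc h, hgb, ← this]; group

end Cfsg.Agent.S1612
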