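import Cfsg.Statements.S1613
import Cfsg.Agent.Spor.TTStruct

set_option autoImplicit false
open Cfsg

namespace Cfsg.Agent.S1613

/-- For a transposition x of a Fischer 3-transposition group, the transpositions commuting with x (other than x) form one conjugacy class of the subgroup they generate. -/
theorem result {G : Type*} [Group G] [Finite G] (hsol : ∀ N : Subgroup G, N.Normal → Group.IsSolvable ↥N → N = ⊥) (hperf : ⁅commutator G, commutator G⁆ = commutator G) {D : Set G} (hD : Cfsg.IsThreeTranspositionClass D) (x : G) (hx : x ∈ D) : ∀ y ∈ {y : G | y ∈ D ∧ y ≠ x ∧ Commute x y}, ∀ y' ∈ {y : G | y ∈ D ∧ y ≠ x ∧ Commute x y}, ∃ g ∈ Subgroup.closure {y : G | y ∈ D ∧ y ≠ x ∧ Commute x y}, g * y * g⁻¹ = y' := by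
  open Cfsg.Lib.Spor Cfsg.Lib.Spor.TQ in
  have := IsTT.of_class hD
  have : Nonempty D := ⟨⟨x, hx⟩⟩
  obtain ⟨hP, -, -⟩ := prim_of_fischer hD.2.2 (conn_of_class hD) hsol hperf
  intro b hb b' hb'
  obtain ⟨k, hk, hkb⟩ := hP.exists_dperp (d := ⟨x, hx⟩) (a := ⟨b, hb.1⟩) (b := ⟨b', hb'.1⟩)
    ⟨fun h => hb.2.1 (congrArg Subtype.val h), IsTT.com_iff.2 hb.2.2⟩
    ⟨fun h => hb'.2.1 (congrArg Subtype.val h), IsTT.com_iff.2 hb'.2.2⟩
  obtain ⟨g, hg, hgk⟩ := exists_closure_of_innOn (IsTT.conj_of_class hD) hk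
  rw [coe_image_dperp] at hg
  exact ⟨g, hg, by simpa [hkb] using hgk ⟨b, hb.1⟩⟩

end Cfsg.Agent.S1613
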