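import Cfsg.Statements.S1614
import Cfsg.Agent.Spor.FsStr
import Cfsg.Agent.S0247

set_option autoImplicit false
open Cfsg

namespace Cfsg.Agent.S1614

/-- If the commuting transpositions of one transposition generate a solvable group, a Fischer 3-transposition group is S5, S6, PSU(4, 2) or PSU(5, 2). -/
theorem result {G : Type*} [Group G] [Finite G] (hsol : ∀ N : Subgroup G, N.Normal → Group.IsSolvable ↥N → N = ⊥) (hperf : ⁅commutator G, commutator G⁆ = commutator G) {D : Set G} (hD : Cfsg.IsThreeTranspositionClass D) (x : G) (hx : x ∈ D) (hs : Group.IsSolvable ↥(Subgroup.closure {y : G | y ∈ D ∧ y ≠ x ∧ Commute x y})) : Nonempty (G ≃* Equiv.Perm (Fin 5)) ∨ Nonempty (G ≃* Equiv.Perm (Fin 6)) ∨ ∃ (F : Type) (_ : Field F) (_ : Fintype F), Fintype.card F = 4 ∧ (Nonempty (G ≃* Cfsg.PSU 4 F 2) ∨ Nonempty (G ≃* Cfsg.PSU 5 F 2)) := by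
  open Cfsg.Lib.Spor Cfsg.Lib.Spor.TQ in
  have := IsTT.of_class hD
  have hG := IsTT.group_of_class hD
  have hX := conn_of_class hD
  have : Nonempty D := ⟨⟨x, hx⟩⟩
  obtain ⟨hP, hw, hZ⟩ := prim_of_fischer hG.2.2 hX hsol hperf
  rw [← coe_image_dperp (⟨x, hx⟩ : D)] at hs
  have k : ∀ y : D, ¬ Str4 (dperp y) := fun y h =>
    let ⟨e⟩ := hX.nonempty_iso y ⟨x, hx⟩
    ((h.of_emb (Emb.ofIso e)).of_emb (Emb.ofIso (subIso _))).not_isSolvable hs
  by_cases hV : LocV D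
  · by_cases hA : NoAG D
    · obtain ⟨n, h⟩ := hV.spT hP hA
      have h4 := h.four_le hw
      obtain rfl : n = 4 := by
        by_contra hn
        obtain ⟨y, hy⟩ := h.str4 (by omega)
        exact k y hy
      obtain ⟨m, hm, e, -⟩ := h.exists_equiv hG.2.2 hZ
      obtain rfl : m = 2 := by omega
      obtain ⟨e'⟩ := Cfsg.Agent.S0247.result (F := ZMod 2) rfl
      exact Or.inr (Or.inl ⟨e.trans e'⟩)
    · obtain ⟨n, h4, h⟩ := UPol.uT ⟨hP, hV, hA⟩
      obtain ⟨e, -⟩ := h.exists_equiv hG.2.2 hZ h4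
      refine Or.inr (Or.inr ⟨GF4, inferInstance, inferInstance, rfl, ?_⟩)
      obtain rfl | rfl : n = 4 ∨ n = 5 := by
        by_contra hn
        obtain ⟨y, hy⟩ := h.str4 (by omega)
        exact k y hy
      exacts [Or.inl ⟨e⟩, Or.inr ⟨e⟩]
  have hV' : VTriv (dperp (⟨x, hx⟩ : D)) := by_contra fun h => hV ⟨_, h⟩
  by_cases hW : WTriv (dperp (⟨x, hx⟩ : D))
  · have h := ((hP.prim_dperp hw hV' hW).1).of_iso (subIso _)
    have := h.nontrivial
    exact absurd hs (not_isSolvable_of_triv (closure_subSet _) h.conn h.vTriv (hW.of_iso (subIso _)))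
  · obtain ⟨e, -⟩ := (hP.isSymT_five hW).exists_equiv hG.2.2 hZ (by omega)
    exact Or.inl ⟨e⟩

end Cfsg.Agent.S1614
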