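import Cfsg.Statements.S1622
import Cfsg.Agent.Spor.J2Lines

set_option autoImplicit false
open Quaternion
open Cfsg

namespace Cfsg.Agent.S1622

/-- The reflection group is transitive on its 315 reflections by conjugation. -/
theorem result (f f' : Equiv.Perm ↥Cfsg.Spor.icoLeech) (hf : Cfsg.Spor.IsIcoReflection f) (hf' : Cfsg.Spor.IsIcoReflection f') : ∃ g ∈ Cfsg.Spor.twoJ2, g * f * g⁻¹ = f' := by
  obtain ⟨i, hi, rfl⟩ := Cfsg.Lib.Spor.J2.isRefl_iff_sr.1 hf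
  obtain ⟨j, hj, rfl⟩ := Cfsg.Lib.Spor.J2.isRefl_iff_sr.1 hf'
  obtain ⟨g, -, e⟩ := Cfsg.Lib.Spor.J2.exists_conj_sr i hi
  obtain ⟨h, -, e'⟩ := Cfsg.Lib.Spor.J2.exists_conj_sr j hj
  refine ⟨_, (h * g⁻¹).2, ?_⟩
  have : h * g⁻¹ * Cfsg.Lib.Spor.J2.sr i * (h * g⁻¹)⁻¹ = Cfsg.Lib.Spor.J2.sr j := by
    rw [← e, ← e']; group
  exact congrArg Subtype.val this

end Cfsg.Agent.S1622
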