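import Cfsg.Statements.S1623
import Cfsg.Agent.Spor.J2Cent

set_option autoImplicit false
open Quaternion
open Cfsg

namespace Cfsg.Agent.S1623

open Cfsg.Lib.Spor.J2 Cfsg.Lib.Spor.PK Subgroup


/-- A reflection centraliser in the Hall–Janko group is an extension of an extraspecial group of order 32 by the alternating group of degree 5. -/
theorem result (f : Equiv.Perm ↥Cfsg.Spor.icoLeech) (hf : Cfsg.Spor.IsIcoReflection f) (hfm : f ∈ Cfsg.Spor.twoJ2) : ∃ (Q : Subgroup ↥(Subgroup.centralizer {(QuotientGroup.mk ⟨f, hfm⟩ : Cfsg.Spor.J2)})) (_ : Q.Normal), Nat.card Q = 32 ∧ Cfsg.IsExtraspecial 2 Q ∧ Nonempty (↥(Subgroup.centralizer {(QuotientGroup.mk ⟨f, hfm⟩ : Cfsg.Spor.J2)}) ⧸ Q ≃* alternatingGroup (Fin 5)) := by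
  obtain ⟨k, hk, rfl⟩ := isRefl_iff_sr.1 hf
  obtain ⟨g, hg⟩ := exists_conj_rb k hk
  obtain ⟨-, φ, h1, h2⟩ := exists_hom_A5
  have hc : (centralizer {rb 0}).map (MulAut.conj g).toMonoidHom = centralizer {rb k} := by
    ext c
    rw [← hg, mem_map_equiv, mem_centralizer_singleton_iff, mem_centralizer_singleton_iff,
      MulAut.conj_symm_apply]
    constructor <;> intro h
    · calc _ = g * (g⁻¹ * c * g * rb 0) * g⁻¹ := by group
        _ = _ := by rw [h]; group
    · calc _ = g⁻¹ * (c * (g * rb 0 * g⁻¹)) * g := by group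
        _ = _ := by rw [h]; group
  let e : centralizer {rb 0} ≃* centralizer {rb k} :=
    ((MulAut.conj g).subgroupMap _).trans (MulEquiv.subgroupCongr hc)
  have i : φ.ker ≃* gen qg :=
    (equivMapOfInjective _ _ (subtype_injective _)).trans (MulEquiv.subgroupCongr h2)
  have j : gen qg ≃* (φ.comp e.symm.toMonoidHom).ker := i.symm.trans ((e.subgroupMap _).trans
    (MulEquiv.subgroupCongr (by ext x; simp)))
  show ∃ (Q : Subgroup (centralizer {rb k})) (_ : Q.Normal), Nat.card Q = 32 ∧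
    IsExtraspecial 2 Q ∧ Nonempty (centralizer {rb k} ⧸ Q ≃* alternatingGroup (Fin 5))
  exact ⟨(φ.comp e.symm.toMonoidHom).ker, inferInstance, (Nat.card_congr j.toEquiv).symm.trans card_Q,
    Cfsg.Lib.Solv.PG.isExtraspecial_of_mulEquiv j extraspecial_Q,
    ⟨QuotientGroup.quotientKerEquivOfSurjective _ (h1.comp e.symm.surjective)⟩⟩

end Cfsg.Agent.S1623
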