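import Cfsg.Statements.S1624
import Cfsg.Agent.Spor.J2U33

set_option autoImplicit false
open Quaternion
open Cfsg

namespace Cfsg.Agent.S1624

/-- The Hall–Janko group contains PSU(3, 3) with index 100 and acts on the 100 cosets with rank 3 and subdegrees 1, 36, 63. -/
theorem result : ∃ H : Subgroup Cfsg.Spor.J2, H.index = 100 ∧ (∃ (F : Type) (_ : Field F) (_ : Fintype F), Fintype.card F = 9 ∧ Nonempty (↥H ≃* Cfsg.PSU 3 F 3)) ∧ ∃ c₁ c₂ : Cfsg.Spor.J2 ⧸ H, (MulAction.orbit ↥H c₁).ncard = 36 ∧ (MulAction.orbit ↥H c₂).ncard = 63 := by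
  obtain ⟨g, hg⟩ := Cfsg.Lib.Spor.J2.exists_smul_pt (Cfsg.Lib.Spor.J2.pt 4)
  obtain ⟨h, hh⟩ := Cfsg.Lib.Spor.J2.exists_smul_pt (Cfsg.Lib.Spor.J2.pt 1)
  exact ⟨_, Cfsg.Lib.Spor.J2.index_stab,
    ⟨_, _, _, Cfsg.Lib.Class.card_GF9, Cfsg.Lib.Spor.J2.stab_equiv⟩, g, h,
    (Cfsg.Lib.Spor.PK.ncard_orbit_quot _ _ g).trans (hg ▸ Cfsg.Lib.Spor.J2.gen_stab.2),
    (Cfsg.Lib.Spor.PK.ncard_orbit_quot _ _ h).trans (hh ▸ Cfsg.Lib.Spor.J2.ncard_orbit_63)⟩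

end Cfsg.Agent.S1624
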