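import Cfsg.Statements.S1626
import Cfsg.Agent.Spor.J3Main

set_option autoImplicit false
open scoped MatrixGroups
open Matrix
open Cfsg

namespace Cfsg.Agent.S1626

/-- Orbits of the triple cover of the third Janko group on lines of its 9-space over the field with 4 elements: the line through the first basis vector has exactly 23256 images, and the isotropic lines (nonzero v with Σ v_z³ = 0) form a single orbit. -/
theorem result (F : Type) [Field F] [Fintype F] (hF : Fintype.card F = 4) (ω : F) (hω : ω ^ 2 + ω + 1 = 0) : {L : Submodule F (Cfsg.Spor.F9 → F) | ∃ g ∈ Cfsg.Spor.threeJ3 F ω, L = F ∙ ((g : Matrix Cfsg.Spor.F9 Cfsg.Spor.F9 F) *ᵥ (Pi.single (0 : Cfsg.Spor.F9) (1 : F) : Cfsg.Spor.F9 → F))}.ncard = 23256 ∧ ∀ v w : Cfsg.Spor.F9 → F, v ≠ 0 → w ≠ 0 → ∑ z, (v z) ^ 3 = 0 → ∑ z, (w z) ^ 3 = 0 → ∃ g ∈ Cfsg.Spor.threeJ3 F ω, ∃ c : F,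 c ≠ 0 ∧ (g : Matrix Cfsg.Spor.F9 Cfsg.Spor.F9 F) *ᵥ v = c • w := by
  have h2 := Cfsg.Lib.Spor.MG.two_eq_zero_of_card hF
  have e := Cfsg.Lib.Spor.J3.GG_eq h2 hω
  rw [← e]
  refine ⟨?_, fun v w hv hw h1 h3 => ?_⟩
  · have h := Cfsg.Lib.Spor.J3.ncard_lines h2 hω Cfsg.Lib.Spor.J3.e9 hF
    rwa [Cfsg.Lib.Spor.J3.e9_symm_zero] at h
  · have h := Cfsg.Lib.Spor.J3.orbit_iso h2 hω Cfsg.Lib.Spor.J3.e9 hF
    obtain ⟨a, ha⟩ := h.ge (show v ∈ {v : Cfsg.Spor.F9 → F | v ≠ 0 ∧ ∑ z, v z ^ 3 = 0} from ⟨hv, h1⟩)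
    obtain ⟨b, hb⟩ := h.ge (show w ∈ {v : Cfsg.Spor.F9 → F | v ≠ 0 ∧ ∑ z, v z ^ 3 = 0} from ⟨hw, h3⟩)
    refine ⟨(b * a⁻¹).1, (b * a⁻¹).2, 1, one_ne_zero, ?_⟩
    rw [one_smul, ← ha, ← hb]
    exact (mul_smul (b * a⁻¹) a _).symm.trans (by rw [inv_mul_cancel_right]; rfl)

end Cfsg.Agent.S1626
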