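import Cfsg.Statements.S1634
import Cfsg.Agent.Spor.Co0Order

set_option autoImplicit false
open Cfsg

namespace Cfsg.Agent.S1634

open Cfsg.Lib.Spor Cfsg.Lib.Spor.CK Cfsg.Lib.Spor.Orb MulAction

/-- The McLaughlin group acts on 2025 points (minimal vectors orthogonal to v with customary inner product 2 with w) transitively with rank 4 and subdegrees 1, 330, 462, 1232. -/
theorem result (v w : ↥Cfsg.leechLattice) (hv : Cfsg.sqNorm (v : Cfsg.GolayPt → ℤ) = 32) (hw : Cfsg.sqNorm (w : Cfsg.GolayPt → ℤ) = 32) (hvw : Cfsg.dotInt (v : Cfsg.GolayPt → ℤ) (w : Cfsg.GolayPt → ℤ) = -8) : {x : ↥Cfsg.leechLattice | Cfsg.sqNorm (x : Cfsg.GolayPt → ℤ) = 32 ∧ Cfsg.dotInt (v : Cfsg.GolayPt → ℤ) (x : Cfsg.GolayPt → ℤ) = 0 ∧ Cfsg.dotInt (w : Cfsg.GolayPt → ℤ) (x : Cfsg.GolayPt → ℤ) = 16}.ncard = 2025 ∧ (∀ x ∈ {x : ↥Cfsg.leechLattice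 | Cfsg.sqNorm (x : Cfsg.GolayPt → ℤ) = 32 ∧ Cfsg.dotInt (v : Cfsg.GolayPt → ℤ) (x : Cfsg.GolayPt → ℤ) = 0 ∧ Cfsg.dotInt (w : Cfsg.GolayPt → ℤ) (x : Cfsg.GolayPt → ℤ) = 16}, ∀ x' ∈ {x : ↥Cfsg.leechLattice | Cfsg.sqNorm (x : Cfsg.GolayPt → ℤ) = 32 ∧ Cfsg.dotInt (v : Cfsg.GolayPt → ℤ) (x : Cfsg.GolayPt → ℤ) = 0 ∧ Cfsg.dotInt (w : Cfsg.GolayPt → ℤ) (x : Cfsg.GolayPt → ℤ) = 16}, ∃ g : ↥Cfsg.Co0, g • v = v ∧ g • w = w ∧ g • x = x') ∧ ∀ x ∈ {x : ↥Cfsg.leechLattice | Cfsg.sqNorm (x : Cfsg.GolayPt → ℤ) = 32 ∧ Cfsg.dotInt (v : Cfsg.GolayPt → ℤ) (x : Cfsg.GolayPt → ℤ) = 0 ∧ Cfsg.dotInt (w : Cfsg.GolayPt → ℤ) (x : Cfsg.GolayPt → ℤ) = 16}, ∃ y₁ ∈ {x : ↥Cfsg.leechLattice | Cfsg.sqNorm (x : Cfsg.GolayPt → ℤ) = 32 ∧ Cfsg.dotInt (v : Cfsg.GolayPt → ℤ) (x : Cfsg.GolayPt → ℤ) = 0 ∧ Cfsg.dotInt (w : Cfsg.GolayPt → ℤ) (x :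 Cfsg.GolayPt → ℤ) = 16}, ∃ y₂ ∈ {x : ↥Cfsg.leechLattice | Cfsg.sqNorm (x : Cfsg.GolayPt → ℤ) = 32 ∧ Cfsg.dotInt (v : Cfsg.GolayPt → ℤ) (x : Cfsg.GolayPt → ℤ) = 0 ∧ Cfsg.dotInt (w : Cfsg.GolayPt → ℤ) (x : Cfsg.GolayPt → ℤ) = 16}, ∃ y₃ ∈ {x : ↥Cfsg.leechLattice | Cfsg.sqNorm (x : Cfsg.GolayPt → ℤ) = 32 ∧ Cfsg.dotInt (v : Cfsg.GolayPt → ℤ) (x : Cfsg.GolayPt → ℤ) = 0 ∧ Cfsg.dotInt (w : Cfsg.GolayPt → ℤ) (x : Cfsg.GolayPt → ℤ) = 16}, (MulAction.orbit ↥(MulAction.stabilizer ↥Cfsg.Co0 v ⊓ MulAction.stabilizer ↥Cfsg.Co0 w ⊓ MulAction.stabilizer ↥Cfsg.Co0 x) y₁).ncard = 330 ∧ (MulAction.orbit ↥(MulAction.stabilizer ↥Cfsg.Co0 v ⊓ MulAction.stabilizer ↥Cfsg.Co0 w ⊓ MulAction.stabilizer ↥Cfsg.Co0 x) y₂).ncard = 462 ∧ (MulAction.orbit ↥(MulAction.stabilizer ↥Cfsg.Co0 v ⊓ MulAction.stabilizer ↥Cfsg.Co0 w ⊓ MulAction.stabilizer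 ↥Cfsg.Co0 x) y₃).ncard = 1232 := by
  change nm v = 32 at hv
  change nm w = 32 at hw
  change dt v w = -8 at hvw
  have hu : nm (v + w) = 48 := by rw [nm_add, hv, hw, hvw]; rfl
  have hm : v ∈ C1 (v + w) 24 :=
    ⟨hv, by rw [dt_add_left, dt_self, hv, dt_comm, hvw]; rfl⟩
  have hs : {x : leechLattice | sqNorm (x : GolayPt → ℤ) = 32 ∧
      dotInt (v : GolayPt → ℤ) (x : GolayPt → ℤ) = 0 ∧
      dotInt (w : GolayPt → ℤ) (x : GolayPt → ℤ) = 16} = C2 (v + w) 16 v 0 := by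
    ext x
    refine and_congr_right fun _ => ?_
    rw [dt_add_left]
    unfold dt; omega
  have hfix : ∀ g : Co0, g • v = v → (g • (v + w) = v + w ↔ g • w = w) := fun g h => by
    rw [co0_smul_add, h, add_right_inj]
  rw [hs]
  refine ⟨?_, fun x hx x' hx' => ?_, fun x hx => ?_⟩
  · obtain ⟨g, hg⟩ := exists_vv_uu hu hm
    obtain ⟨h1, h2⟩ := Prod.ext_iff.1 hg
    have := (ncard_C2_smul g _ _ _ _).trans orbit_2025.2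
    rwa [show g • vv = v + w from h1, show g • uu = v from h2] at this
  · obtain ⟨g, hg⟩ := exists_smul_of_base (exists_vv_uu_u2 hu hm hx) (exists_vv_uu_u2 hu hm hx')
    exact ⟨g, congrArg (·.1.2) hg, (hfix g (congrArg (·.1.2) hg)).1 (congrArg (·.1.1) hg),
      congrArg Prod.snd hg⟩
  · have h := Rank.transport_triple rank_2025 (exists_vv_uu_u2 hu hm hx)
    obtain ⟨y, h1, -, h2, -⟩ := h.exists_reps
      (H := stabilizer Co0 v ⊓ stabilizer Co0 w ⊓ stabilizer Co0 x) (fun g => by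
        simp only [Subgroup.mem_inf, mem_stabilizer_iff, Prod.ext_iff, Prod.smul_fst, Prod.smul_snd]
        have := hfix g
        tauto)
    exact ⟨y 3, h1 3, y 1, h1 1, y 2, h1 2, h2 3, h2 1, h2 2⟩

end Cfsg.Agent.S1634
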