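import Cfsg.Statements.S1635
import Cfsg.Agent.Spor.Sextet

set_option autoImplicit false
open Cfsg

namespace Cfsg.Agent.S1635

open Cfsg.Lib.Spor in
theorem support_sub (w v : GolayPt → ZMod 2) :
    support₂ (w - v) = symmDiff (support₂ w) (support₂ v) := by
  ext p
  simp only [support₂, Finset.mem_filter, Finset.mem_univ, true_and, Finset.mem_symmDiff,
    Pi.sub_apply]
  generalize w p = x
  generalize v p = y
  revert x y
  decide

open Cfsg.Lib.Spor in
theorem sub_mem_iff (w v : GolayPt → ZMod 2) :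
    w - v ∈ golayCode ↔ symmDiff (support₂ w) (support₂ v) ∈ golaySets := by
  rw [← support_sub, support_mem_golaySets_iff]

open Cfsg.Lib.Spor in
theorem exists_support (s : Finset GolayPt) : ∃ v : GolayPt → ZMod 2, support₂ v = s :=
  ⟨maskWord (setMask s), by rw [support_maskWord, maskSet_setMask]⟩

open Cfsg.Lib.Spor in
theorem ncard_eq (w : GolayPt → ZMod 2) :
    {v : GolayPt → ZMod 2 | hammingNorm v ≤ 4 ∧ w - v ∈ golayCode}.ncard =
      {s : Finset GolayPt | s.card ≤ 4 ∧ symmDiff (support₂ w) s ∈ golaySets}.ncard := by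
  apply Set.ncard_congr (fun v _ => support₂ v)
  · rintro v ⟨h1, h2⟩
    exact ⟨by rwa [← hammingNorm_eq_card_support], (sub_mem_iff w v).1 h2⟩
  · intro u v _ _ h
    exact support₂_injective h
  · rintro s ⟨h1, h2⟩
    obtain ⟨v, rfl⟩ := exists_support s
    exact ⟨v, ⟨by rwa [hammingNorm_eq_card_support], (sub_mem_iff w v).2 h2⟩, rfl⟩

/-- Coset leaders of the length-24 code: a coset contains a unique word of weight ≤ 3, or else exactly six words of weight 4 and none lighter. -/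
theorem result (w : Cfsg.GolayPt → ZMod 2) : ({v : Cfsg.GolayPt → ZMod 2 | hammingNorm v ≤ 4 ∧ w - v ∈ Cfsg.golayCode}.ncard = 1 ∧ ∃ v : Cfsg.GolayPt → ZMod 2, hammingNorm v ≤ 3 ∧ w - v ∈ Cfsg.golayCode) ∨ ({v : Cfsg.GolayPt → ZMod 2 | hammingNorm v ≤ 4 ∧ w - v ∈ Cfsg.golayCode}.ncard = 6 ∧ ∀ v : Cfsg.GolayPt → ZMod 2, w - v ∈ Cfsg.golayCode → hammingNorm v ≤ 4 → hammingNorm v = 4) := by
  open Cfsg.Lib.Spor in
  obtain ⟨s, hs4, hs⟩ := exists_small_symmDiff_mem (support₂ w)
  rw [ncard_eq]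
  by_cases h3 : s.card ≤ 3
  · left
    constructor
    · rw [Set.ncard_eq_one]
      refine ⟨s, ?_⟩
      ext t
      simp only [Set.mem_ofPred_eq, Set.mem_singleton_iff]
      constructor
      · rintro ⟨h1, h2⟩
        exact Cfsg.Lib.Spor.eq_of_symmDiff_mem_of_card_add_lt
          (Cfsg.Lib.Spor.symmDiff_mem_golaySets_trans h2 hs) (by omega)
      · rintro rfl
        exact ⟨hs4, hs⟩
    · obtain ⟨v, rfl⟩ := exists_support s
      exact ⟨v, by rwa [Cfsg.Lib.Spor.hammingNorm_eq_card_support], (sub_mem_iff w v).2 hs⟩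
  · right
    have h4 : s.card = 4 := by omega
    have key : ∀ t : Finset GolayPt, t.card ≤ 4 →
        symmDiff (support₂ w) t ∈ Cfsg.Lib.Spor.golaySets → t.card = 4 := by
      intro t h1 h2
      by_contra hne
      have := Cfsg.Lib.Spor.eq_of_symmDiff_mem_of_card_add_lt
        (Cfsg.Lib.Spor.symmDiff_mem_golaySets_trans h2 hs) (by omega)
      exact hne (this ▸ h4)
    constructor
    · rw [← Cfsg.Lib.Spor.card_sextetOf h4, ← Set.ncard_coe_finset,
        ← Cfsg.Lib.Spor.sextetOf_eq_of_symmDiff_mem hs]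
      congr 1
      ext t
      simp only [Set.mem_ofPred_eq, Finset.mem_coe, Cfsg.Lib.Spor.mem_sextetOf]
      exact ⟨fun h => ⟨key t h.1 h.2, h.2⟩, fun h => ⟨h.1.le, h.2⟩⟩
    · intro v h1 h2
      rw [Cfsg.Lib.Spor.hammingNorm_eq_card_support] at h2 ⊢
      exact key _ h2 ((sub_mem_iff w v).1 h1)

end Cfsg.Agent.S1635
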