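import Cfsg.Statements.S1636
import Cfsg.Agent.S1635

set_option autoImplicit false
open Cfsg

namespace Cfsg.Agent.S1636

open Cfsg.Lib.Spor in
theorem hammingNorm_res (w : GolayPt → ZMod 2) :
    hammingNorm (fun x : ZMod 23 => w (some x)) = ((support₂ w).erase none).card := by
  rw [hammingNorm_eq_card_support]
  apply Finset.card_bij (fun x _ => some x)
  · intro x hx
    simpa [support₂] using hx
  · intro x _ y _ h
    exact Option.some_injective _ h
  · intro p hp
    cases p with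
    | none => simp at hp
    | some x => exact ⟨x, by simpa [support₂] using hp, rfl⟩

open Cfsg.Lib.Spor in
theorem res_inj {v w : GolayPt → ZMod 2} (hv : v ∈ golayCode) (hw : w ∈ golayCode)
    (h : (fun x : ZMod 23 => v (some x)) = fun x : ZMod 23 => w (some x)) : v = w := by
  have h1 : support₂ (v - w) ⊆ {none} := by
    intro p hp
    cases p with
    | none => simp
    | some x =>
      have : v (some x) = w (some x) := congrFun h x
      simp [support₂, this] at hp
  have h2 := Finset.card_le_card h1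
  rw [Finset.card_singleton] at h2
  have h3 := eq_empty_of_mem_golaySets_of_card_lt
    (support_mem_golaySets_iff.2 (golayCode.sub_mem hv hw)) (by omega)
  have h4 : support₂ (0 : GolayPt → ZMod 2) = ∅ := by simp [support₂]
  exact sub_eq_zero.1 (support₂_injective (h3.trans h4.symm))

open Cfsg.Lib.Spor in
theorem ncard_res (f : ℕ → Bool) (Q : ℕ → Prop) (hQ : ∀ n, Q n ↔ f n = true) :
    {u : ZMod 23 → ZMod 2 | u ∈ {u : ZMod 23 → ZMod 2 | ∃ w ∈ Cfsg.golayCode,
      ∀ x : ZMod 23, u x = w (some x)} ∧ Q (hammingNorm u)}.ncard =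
      countLT 4096 (fun k => f (popc (Nat.land (enc k) 8388607))) := by
  have e : maskSet 8388607 = Finset.univ.erase none := by decide
  rw [← ncard_golaySets_filter (fun s => Q (s.erase none).card)
    (fun m => f (popc (Nat.land m 8388607)))]
  · have : {u : ZMod 23 → ZMod 2 | u ∈ {u : ZMod 23 → ZMod 2 | ∃ w ∈ Cfsg.golayCode,
        ∀ x : ZMod 23, u x = w (some x)} ∧ Q (hammingNorm u)}.ncard =
        {w : GolayPt → ZMod 2 | w ∈ golayCode ∧ Q ((support₂ w).erase none).card}.ncard := by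
      symm
      apply Set.ncard_congr (fun w _ => fun x : ZMod 23 => w (some x))
      · rintro w ⟨h1, h2⟩
        exact ⟨⟨w, h1, fun _ => rfl⟩, by rwa [hammingNorm_res]⟩
      · rintro v w ⟨h1, -⟩ ⟨h2, -⟩ h
        exact res_inj h1 h2 h
      · rintro u ⟨⟨w, h1, h2⟩, h3⟩
        obtain rfl : u = fun x => w (some x) := funext h2
        exact ⟨w, ⟨h1, by rwa [← hammingNorm_res]⟩, rfl⟩
    rw [this]
    apply Set.ncard_congr (fun w _ => support₂ w)
    · rintro w ⟨h1, h2⟩
      exact ⟨support_mem_golaySets_iff.2 h1, h2⟩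
    · intro v w _ _ h
      exact support₂_injective h
    · rintro _ ⟨⟨w, h1, rfl⟩, h2⟩
      exact ⟨w, ⟨h1, h2⟩, rfl⟩
  · intro m _
    have : (maskSet m).erase none = maskSet (m &&& 8388607) := by
      rw [maskSet_and, e]
      ext p
      simp [and_comm]
    rw [this, card_maskSet, hQ]
    rfl

open Cfsg.Lib.Spor in
theorem seven_le {w : GolayPt → ZMod 2} (hw : w ∈ golayCode)
    (h : (fun x : ZMod 23 => w (some x)) ≠ 0) :
    7 ≤ hammingNorm (fun x : ZMod 23 => w (some x)) := by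
  have h0 : hammingNorm (fun x : ZMod 23 => w (some x)) ≠ 0 := by rwa [Ne, hammingNorm_eq_zero]
  rw [hammingNorm_res] at h0 ⊢
  have h1 := card_of_mem_golaySets (support_mem_golaySets_iff.2 hw)
  have h2 := Finset.pred_card_le_card_erase (s := support₂ w) (a := none)
  have h3 := Finset.card_erase_le (s := support₂ w) (a := none)
  omega

/-- The punctured length-23 code has weight distribution 0^1 7^253 8^506 11^1288 12^1288 15^506 16^253 23^1. -/
theorem result : {u : ZMod 23 → ZMod 2 | ∃ w ∈ Cfsg.golayCode, ∀ x : ZMod 23, u x = w (some x)}.ncard = 4096 ∧ {u : ZMod 23 → ZMod 2 | u ∈ {u : ZMod 23 → ZMod 2 | ∃ w ∈ Cfsg.golayCode, ∀ x : ZMod 23, u x = w (some x)} ∧ hammingNorm u = 7}.ncard = 253 ∧ {u : ZMod 23 → ZMod 2 | u ∈ {u : ZMod 23 → ZMod 2 | ∃ w ∈ Cfsg.golayCode, ∀ x : ZMod 23, u x = w (some x)} ∧ hammingNorm u = 8}.ncard = 506 ∧ {u : ZMod 23 → ZMod 2 | u ∈ {u : ZMod 23 → ZMod 2 | ∃ w ∈ Cfsg.golayCode, ∀ x : ZMod 23, u x = w (some x)} ∧ hammingNorm u =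 11}.ncard = 1288 ∧ {u : ZMod 23 → ZMod 2 | u ∈ {u : ZMod 23 → ZMod 2 | ∃ w ∈ Cfsg.golayCode, ∀ x : ZMod 23, u x = w (some x)} ∧ hammingNorm u = 12}.ncard = 1288 ∧ {u : ZMod 23 → ZMod 2 | u ∈ {u : ZMod 23 → ZMod 2 | ∃ w ∈ Cfsg.golayCode, ∀ x : ZMod 23, u x = w (some x)} ∧ hammingNorm u = 15}.ncard = 506 ∧ {u : ZMod 23 → ZMod 2 | u ∈ {u : ZMod 23 → ZMod 2 | ∃ w ∈ Cfsg.golayCode, ∀ x : ZMod 23, u x = w (some x)} ∧ hammingNorm u = 16}.ncard = 253 ∧ ∀ u ∈ {u : ZMod 23 → ZMod 2 | ∃ w ∈ Cfsg.golayCode, ∀ x : ZMod 23, u x = w (some x)}, u ≠ 0 → 7 ≤ hammingNorm u := by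
  have h := fun n => ncard_res (fun k => Nat.beq k n) (fun k => k = n) (fun k => Nat.beq_eq.symm.to_iff)
  refine ⟨?_, (h 7).trans (by decide +kernel), (h 8).trans (by decide +kernel),
    (h 11).trans (by decide +kernel), (h 12).trans (by decide +kernel),
    (h 15).trans (by decide +kernel), (h 16).trans (by decide +kernel), ?_⟩
  · have := ncard_res (fun _ => true) (fun _ => True) (by simp)
    simp only [and_true, Set.ofPred_mem_eq] at this
    exact this.trans (by decide +kernel)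
  · rintro u ⟨w, h1, h2⟩ hu
    obtain rfl : u = fun x => w (some x) := funext h2
    exact seven_le h1 hu

end Cfsg.Agent.S1636
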