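import Cfsg.Statements.S1637
import Cfsg.Agent.S1636

set_option autoImplicit false
open Cfsg

namespace Cfsg.Agent.S1637

/-- The punctured length-23 code is a perfect 3-error-correcting code: each word of length 23 is within distance 3 of exactly one codeword. -/
theorem result (u : ZMod 23 → ZMod 2) : ∃! c : ZMod 23 → ZMod 2, c ∈ {u : ZMod 23 → ZMod 2 | ∃ w ∈ Cfsg.golayCode, ∀ x : ZMod 23, u x = w (some x)} ∧ hammingDist u c ≤ 3 := by
  open Cfsg.Lib.Spor in
  have huniq : ∀ c c' : ZMod 23 → ZMod 2,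
      (∃ w ∈ Cfsg.golayCode, ∀ x : ZMod 23, c x = w (some x)) → hammingDist u c ≤ 3 →
      (∃ w ∈ Cfsg.golayCode, ∀ x : ZMod 23, c' x = w (some x)) → hammingDist u c' ≤ 3 →
      c = c' := by
    rintro c c' ⟨w, hw, h1⟩ h2 ⟨w', hw', h1'⟩ h2'
    obtain rfl : c = fun x => w (some x) := funext h1
    obtain rfl : c' = fun x => w' (some x) := funext h1'
    by_contra hne
    have h3 := Cfsg.Agent.S1636.seven_le (golayCode.sub_mem hw hw') (sub_ne_zero.2 hne)
    have h4 := hammingDist_triangle_left (fun x => w (some x)) (fun x => w' (some x)) u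
    rw [hammingDist_comm, hammingDist_eq_hammingNorm, neg_add_eq_sub] at h4
    have h5 : (fun x : ZMod 23 => (w - w') (some x)) =
      (fun x => w (some x)) - fun x => w' (some x) := rfl
    rw [h5] at h3
    omega
  -- extend `u` by a bit making the weight odd
  obtain ⟨v, hv, hodd⟩ : ∃ v : GolayPt → ZMod 2, (∀ x, v (some x) = u x) ∧
      Odd (support₂ v).card := by
    let v₀ : GolayPt → ZMod 2 := fun p => p.elim 0 u
    let v₁ : GolayPt → ZMod 2 := fun p => p.elim 1 u
    have h0 : none ∉ support₂ v₀ := by simp [support₂, v₀]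
    have h1 : support₂ v₁ = insert none (support₂ v₀) := by
      ext p
      cases p <;> simp [support₂, v₀, v₁]
    rcases Nat.even_or_odd (support₂ v₀).card with h | h
    · exact ⟨v₁, fun _ => rfl, by rw [h1, Finset.card_insert_of_notMem h0]; exact h.add_one⟩
    · exact ⟨v₀, fun _ => rfl, h⟩
  obtain ⟨s, hs4, hs⟩ := Cfsg.Lib.Spor.exists_small_symmDiff_mem (support₂ v)
  obtain ⟨t, rfl⟩ := Cfsg.Agent.S1635.exists_support s
  have hw := (Cfsg.Agent.S1635.sub_mem_iff v t).2 hs
  have h1 := Cfsg.Lib.Spor.card_symmDiff_add (support₂ v) (support₂ t)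
  have h2 := Cfsg.Lib.Spor.even_card_of_mem_golaySets hs
  rw [Nat.even_iff] at h2
  rw [Nat.odd_iff] at hodd
  have h3 : (support₂ t).card ≤ 3 := by omega
  have h4 : hammingDist u (fun x => (v - t) (some x)) ≤ 3 := by
    rw [hammingDist_comm, hammingDist_eq_hammingNorm, neg_add_eq_sub]
    have : (u - fun x => (v - t) (some x)) = fun x => t (some x) := by
      funext x
      simp [hv]
    rw [this, Cfsg.Agent.S1636.hammingNorm_res]
    exact Finset.card_erase_le.trans h3
  exact ⟨_, ⟨⟨v - t, hw, fun _ => rfl⟩, h4⟩,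
    fun c hc => huniq _ _ hc.1 hc.2 ⟨v - t, hw, fun _ => rfl⟩ h4⟩

end Cfsg.Agent.S1637
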