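import Cfsg.Statements.S1638
import Cfsg.Agent.Spor.GeoPQ

set_option autoImplicit false
open scoped Pointwise
open Cfsg

namespace Cfsg.Agent.S1638

open Cfsg.Lib.Spor Cfsg.Lib.Spor.Orb MulAction

theorem phi_iff {p q : GolayPt} {T U : Finset GolayPt} (hT : T.card = 2) :
    (phiV ((p, q), T) U = 4 ↔ Disjoint T U ∧ ∃ o ∈ octads, p ∈ o ∧ q ∈ o ∧ T ∪ U ⊆ o) ∧
    (phiV ((p, q), T) U = 0 ↔ Disjoint T U ∧ ¬ ∃ o ∈ octads, p ∈ o ∧ q ∈ o ∧ T ∪ U ⊆ o) := by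
  have h1 : (T ∩ U).card ≤ 2 := hT ▸ Finset.card_le_card Finset.inter_subset_left
  rw [Finset.disjoint_iff_inter_eq_empty, ← Finset.card_eq_zero, phiV]
  by_cases h : ∃ o ∈ octads, p ∈ o ∧ q ∈ o ∧ T ∪ U ⊆ o
  · rw [four_pos h]; simp only [h, and_true, not_true, and_false, iff_false]; omega
  · rw [four_neg h]; simp only [h, and_false, not_false_eq_true, and_true, iff_false]; omega

/-- Fix two points p ≠ q and a pair s of two further points. Among the pairs avoiding p, q and disjoint from s, exactly 30 lie in an octad together with p, q and s and exactly 160 do not; and any two pairs other than s that meet s in equally many points and agree on that octad property are carried to one another by an element of the group of the length-24 code fixing p, q and s. -/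
theorem result (p q : Cfsg.GolayPt) (hpq : p ≠ q) (s : Finset Cfsg.GolayPt) (hs : (s.card = 2 ∧ p ∉ s ∧ q ∉ s)) : {t : Finset Cfsg.GolayPt | (t.card = 2 ∧ p ∉ t ∧ q ∉ t) ∧ Disjoint s t ∧ (∃ o ∈ Cfsg.octads, p ∈ o ∧ q ∈ o ∧ s ∪ t ⊆ o)}.ncard = 30 ∧ {t : Finset Cfsg.GolayPt | (t.card = 2 ∧ p ∉ t ∧ q ∉ t) ∧ Disjoint s t ∧ ¬ (∃ o ∈ Cfsg.octads, p ∈ o ∧ q ∈ o ∧ s ∪ t ⊆ o)}.ncard = 160 ∧ ∀ t t' : Finset Cfsg.GolayPt, (t.card = 2 ∧ p ∉ t ∧ q ∉ t) → (t'.card = 2 ∧ p ∉ t' ∧ q ∉ t') → t ≠ s → t' ≠ s → (s ∩ t).card = (s ∩ t').card → ((∃ o ∈ Cfsg.octads, p ∈ o ∧ q ∈ o ∧ s ∪ t ⊆ o) ↔ (∃ o ∈ Cfsg.octads, p ∈ o ∧ q ∈ o ∧ s ∪ t' ⊆ o)) → ∃ g : Equiv.Perm Cfsg.GolayPt, g ∈ Cfsg.M24 ∧ g p = p ∧ g q = q ∧ g • s = s ∧ g • t = t' := by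
  have R := rank_pqs hpq hs.1 (ind2_eq_zero.2 hs.2)
  refine ⟨?_, ?_, fun t t' h1 h2 _ _ h3 h4 => ?_⟩
  · simp only [← (phi_iff hs.1).1, ← ind2_eq_zero]
    exact R.card 1
  · simp only [← (phi_iff hs.1).2, ← ind2_eq_zero]
    exact R.card 3
  · obtain ⟨g, e1, e2⟩ := R.trans t ⟨h1.1, ind2_eq_zero.2 h1.2⟩ t' ⟨h2.1, ind2_eq_zero.2 h2.2⟩
      (by simp only [phiV, h3, h4])
    exact ⟨g, g.2, congrArg (·.1.1) e1, congrArg (·.1.2) e1, congrArg (·.2) e1, e2⟩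

end Cfsg.Agent.S1638
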