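import Cfsg.Statements.S1639
import Cfsg.Agent.Spor.GeoFlag

set_option autoImplicit false
open scoped Pointwise
open Cfsg

namespace Cfsg.Agent.S1639

open Cfsg.Lib.Spor Cfsg.Lib.Spor.Orb MulAction

theorem phi_iff {x : GolayPt} {o y : Finset GolayPt} (ho : o.card < 16) {k : ℕ} (hk : k < 16) :
    (phiF (x, o) y = k + 16 ↔ x ∈ y ∧ (o ∩ y).card = k) ∧
    (phiF (x, o) y = k ↔ x ∉ y ∧ (o ∩ y).card = k) := by
  have h1 : (o ∩ y).card ≤ o.card := Finset.card_le_card Finset.inter_subset_left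
  simp only [phiF]
  by_cases h : x ∈ y
  · rw [ind_of_mem h]; simp only [h, true_and, not_true, false_and, iff_false]; omega
  · rw [ind_of_not_mem h]; simp only [h, false_and, not_false_eq_true, true_and, iff_false]; omega

/-- The point stabiliser acts on the 1288 dodecads through the point with rank 4 and subdegrees 1, 165, 330, 792, distinguished by intersection 4, 8, 6 with the fixed dodecad. -/
theorem result (x : Cfsg.GolayPt) (d : Finset Cfsg.GolayPt) (hd : d ∈ Cfsg.dodecads) (hx : x ∈ d) : {d' : Finset Cfsg.GolayPt | d' ∈ Cfsg.dodecads ∧ x ∈ d' ∧ (d ∩ d').card = 4}.ncard = 165 ∧ {d' : Finset Cfsg.GolayPt | d' ∈ Cfsg.dodecads ∧ x ∈ d' ∧ (d ∩ d').card = 8}.ncard = 330 ∧ {d' : Finset Cfsg.GolayPt | d' ∈ Cfsg.dodecads ∧ x ∈ d' ∧ (d ∩ d').card = 6}.ncard = 792 ∧ ∀ d' d'' : Finset Cfsg.GolayPt, d' ∈ Cfsg.dodecads → d'' ∈ Cfsg.dodecads → x ∈ d' → x ∈ d'' → (d ∩ d').card = (d ∩ d'').card → ∃ g : Equiv.Perm Cfsg.GolayPt,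 g ∈ Cfsg.M24 ∧ g x = x ∧ g • d = d ∧ g • d' = d'' := by
  have R := rank_inDod hd hx
  have h8 : d.card < 16 := by rw [(mem_dodecads_iff'.1 hd).2]; norm_num
  refine ⟨?_, ?_, ?_, fun o' o'' h1 h2 h3 h4 h => ?_⟩
  · simp only [← (phi_iff h8 (k := 4) (by norm_num)).1]
    exact R.card 2
  · simp only [← (phi_iff h8 (k := 8) (by norm_num)).1]
    exact R.card 5
  · simp only [← (phi_iff h8 (k := 6) (by norm_num)).1]
    exact R.card 6
  · obtain ⟨g, e1, e2⟩ := R.trans o' h1 o'' h2 (by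
      simp only [phiF, ind_of_mem h3, ind_of_mem h4, h])
    exact ⟨g, g.2, congrArg (·.1) e1, congrArg (·.2) e1, e2⟩

end Cfsg.Agent.S1639
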