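import Cfsg.Statements.S1640
import Cfsg.Agent.Spor.Co0Order

set_option autoImplicit false
open Cfsg

namespace Cfsg.Agent.S1640

open Cfsg.Lib.Spor Cfsg.Lib.Spor.CK Cfsg.Lib.Spor.Orb MulAction

theorem set_eq (u : leechLattice) : {x : leechLattice | sqNorm (x : GolayPt → ℤ) = 32 ∧
      dotInt (u : GolayPt → ℤ) (x : GolayPt → ℤ) = -16} = C1 (-u) 16 := by
  ext x
  refine and_congr_right fun _ => ?_
  rw [dt_neg_left]
  unfold dt; omega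

theorem fix_neg {g : Co0} {u : leechLattice} : g • (-u) = -u ↔ g • u = u := by
  rw [co0_smul_neg, neg_inj]

/-- The stabiliser of a vector of customary norm 6 is transitive on the 11178 minimal vectors of customary inner product −2 with it. -/
theorem result (u : ↥Cfsg.leechLattice) (hu : Cfsg.sqNorm (u : Cfsg.GolayPt → ℤ) = 48) : {x : ↥Cfsg.leechLattice | Cfsg.sqNorm (x : Cfsg.GolayPt → ℤ) = 32 ∧ Cfsg.dotInt (u : Cfsg.GolayPt → ℤ) (x : Cfsg.GolayPt → ℤ) = -16}.ncard = 11178 ∧ ∀ x ∈ {x : ↥Cfsg.leechLattice | Cfsg.sqNorm (x : Cfsg.GolayPt → ℤ) = 32 ∧ Cfsg.dotInt (u : Cfsg.GolayPt → ℤ) (x : Cfsg.GolayPt → ℤ) = -16}, ∀ x' ∈ {x : ↥Cfsg.leechLattice | Cfsg.sqNorm (x : Cfsg.GolayPt → ℤ) = 32 ∧ Cfsg.dotInt (u : Cfsg.GolayPt → ℤ) (x : Cfsg.GolayPt → ℤ) = -16}, ∃ g : ↥Cfsg.Co0, g • u = u ∧ g • x = x' := by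
  have hu' : nm (-u) = 48 := (nm_neg u).trans hu
  rw [set_eq]
  refine ⟨ncard_11178 hu', fun x hx x' hx' => ?_⟩
  obtain ⟨g, hg⟩ := exists_smul_of_base (exists_vv_u2 hu' hx) (exists_vv_u2 hu' hx')
  exact ⟨g, fix_neg.1 (congrArg Prod.fst hg), congrArg Prod.snd hg⟩

end Cfsg.Agent.S1640
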