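import Cfsg.Statements.S1641
import Cfsg.Agent.Spor.Co0Order

set_option autoImplicit false
open Cfsg

namespace Cfsg.Agent.S1641

open Cfsg.Lib.Spor Cfsg.Lib.Spor.CK Cfsg.Lib.Spor.Orb MulAction

theorem set_eq (u : leechLattice) : {x : leechLattice | sqNorm (x : GolayPt → ℤ) = 32 ∧
      dotInt (u : GolayPt → ℤ) (x : GolayPt → ℤ) = -16} = C1 (-u) 16 := by
  ext x
  refine and_congr_right fun _ => ?_
  rw [dt_neg_left]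
  unfold dt; omega

theorem fix_neg {g : Co0} {u : leechLattice} : g • (-u) = -u ↔ g • u = u := by
  rw [co0_smul_neg, neg_inj]

/-- The third Conway group acts on the 11178 cosets of the Higman–Sims group with rank 5 and subdegrees 1, 352, 1100, 4125, 5600. -/
theorem result (u x : ↥Cfsg.leechLattice) (hu : Cfsg.sqNorm (u : Cfsg.GolayPt → ℤ) = 48) (hx : x ∈ {x : ↥Cfsg.leechLattice | Cfsg.sqNorm (x : Cfsg.GolayPt → ℤ) = 32 ∧ Cfsg.dotInt (u : Cfsg.GolayPt → ℤ) (x : Cfsg.GolayPt → ℤ) = -16}) : ∃ y₁ ∈ {x : ↥Cfsg.leechLattice | Cfsg.sqNorm (x : Cfsg.GolayPt → ℤ) = 32 ∧ Cfsg.dotInt (u : Cfsg.GolayPt → ℤ) (x : Cfsg.GolayPt → ℤ) = -16}, ∃ y₂ ∈ {x : ↥Cfsg.leechLattice | Cfsg.sqNorm (x : Cfsg.GolayPt → ℤ) = 32 ∧ Cfsg.dotInt (u : Cfsg.GolayPt → ℤ) (x : Cfsg.GolayPt → ℤ) = -16}, ∃ y₃ ∈ {x : ↥Cfsg.leechLattice | Cfsg.sqNorm (x : Cfsg.GolayPt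 → ℤ) = 32 ∧ Cfsg.dotInt (u : Cfsg.GolayPt → ℤ) (x : Cfsg.GolayPt → ℤ) = -16}, ∃ y₄ ∈ {x : ↥Cfsg.leechLattice | Cfsg.sqNorm (x : Cfsg.GolayPt → ℤ) = 32 ∧ Cfsg.dotInt (u : Cfsg.GolayPt → ℤ) (x : Cfsg.GolayPt → ℤ) = -16}, (MulAction.orbit ↥(MulAction.stabilizer ↥Cfsg.Co0 u ⊓ MulAction.stabilizer ↥Cfsg.Co0 x) y₁).ncard = 352 ∧ (MulAction.orbit ↥(MulAction.stabilizer ↥Cfsg.Co0 u ⊓ MulAction.stabilizer ↥Cfsg.Co0 x) y₂).ncard = 1100 ∧ (MulAction.orbit ↥(MulAction.stabilizer ↥Cfsg.Co0 u ⊓ MulAction.stabilizer ↥Cfsg.Co0 x) y₃).ncard = 4125 ∧ (MulAction.orbit ↥(MulAction.stabilizer ↥Cfsg.Co0 u ⊓ MulAction.stabilizer ↥Cfsg.Co0 x) y₄).ncard = 5600 ∧ {x : ↥Cfsg.leechLattice | Cfsg.sqNorm (x : Cfsg.GolayPt → ℤ) = 32 ∧ Cfsg.dotInt (u : Cfsg.GolayPt → ℤ) (x : Cfsg.GolayPt → ℤ) = -16} = {x} ∪ MulAction.orbit ↥(MulAction.stabilizer ↥Cfsg.Co0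 u ⊓ MulAction.stabilizer ↥Cfsg.Co0 x) y₁ ∪ MulAction.orbit ↥(MulAction.stabilizer ↥Cfsg.Co0 u ⊓ MulAction.stabilizer ↥Cfsg.Co0 x) y₂ ∪ MulAction.orbit ↥(MulAction.stabilizer ↥Cfsg.Co0 u ⊓ MulAction.stabilizer ↥Cfsg.Co0 x) y₃ ∪ MulAction.orbit ↥(MulAction.stabilizer ↥Cfsg.Co0 u ⊓ MulAction.stabilizer ↥Cfsg.Co0 x) y₄ := by
  have hu' : nm (-u) = 48 := (nm_neg u).trans hu
  rw [set_eq] at hx ⊢
  have h := Rank.transport_pair rank_11178 (exists_vv_u2 hu' hx)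
  obtain ⟨y, h1, h0, h2, h3, h4⟩ := h.exists_reps
    (H := stabilizer Co0 u ⊓ stabilizer Co0 x) (fun g => by
      simp only [Subgroup.mem_inf, mem_stabilizer_iff, Prod.ext_iff, Prod.smul_fst, Prod.smul_snd,
        fix_neg])
  have hx96 : ipn x x = 96 := (ipn_eq_iff (n := 96)).2 (by rw [dt_self, hx.1]; rfl)
  refine ⟨y 4, h1 4, y 1, h1 1, y 3, h1 3, y 2, h1 2, h2 4, h2 1, h2 3, h2 2, ?_⟩
  apply Set.Subset.antisymm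
  · intro z hz
    obtain ⟨i, hi⟩ := h4 z hz
    simp only [Set.mem_union, Set.mem_singleton_iff]
    fin_cases i
    · have e : y 0 = x := h.eq_of_card_one (i := 0) rfl (h1 0) hx (h0 0) hx96
      obtain ⟨g, rfl⟩ := hi
      refine Or.inl (Or.inl (Or.inl (Or.inl ?_)))
      change (g : Co0) • y 0 = x
      rw [e]; exact g.2.2
    · exact Or.inl (Or.inl (Or.inr hi))
    · exact Or.inr hi
    · exact Or.inl (Or.inr hi)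
    · exact Or.inl (Or.inl (Or.inl (Or.inr hi)))
  · simp only [Set.union_subset_iff, Set.singleton_subset_iff]
    exact ⟨⟨⟨⟨hx, h3 4⟩, h3 1⟩, h3 3⟩, h3 2⟩

end Cfsg.Agent.S1641
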