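import Cfsg.Statements.S1653
import Cfsg.Agent.S1659
import Cfsg.Agent.S1682

set_option autoImplicit false
open Cfsg

namespace Cfsg.Agent.S1653

theorem transfer {G G' : Type*} [Group G] [Group G'] (f : G' ≃* G) {H : Subgroup G'}
    (N : Subgroup H) (K : Type) [Field K] [Fintype K] (h1 : N.Normal) (h2 : N.index = 2)
    (h3 : Fintype.card K = 4) (g : N ≃* Matrix.symplecticGroup (Fin 2) K) :
    ∃ (H : Subgroup G) (N : Subgroup H) (K : Type) (_ : Field K) (_ : Fintype K), N.Normal ∧
      N.index = 2 ∧ Fintype.card K = 4 ∧ Nonempty (N ≃* Matrix.symplecticGroup (Fin 2) K) :=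
  ⟨H.map (f : G' →* G), N.map (f.subgroupMap H : H →* H.map (f : G' →* G)), K, inferInstance,
    inferInstance, h1.map _ (f.subgroupMap H).surjective, (Subgroup.index_map_equiv N _).trans h2,
    h3, ⟨((f.subgroupMap H).subgroupMap N).symm.trans g⟩⟩

/-- A group of Held type contains Sp₄(4):2: let a finite simple group of order 4030387200 have exactly two conjugacy classes of involutions and an involution t whose centraliser C has a normal subgroup Q, extraspecial of order 2 ^ 7 with an elementary abelian subgroup of order 16, whose centraliser in C lies in Q, such that C / Q is isomorphic to SL(3, 2). Then some subgroup H has a normal subgroup of index 2 isomorphic to the symplectic group of dimension 4 over a field with 4 elements. -/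
theorem result {G : Type*} [Group G] [Finite G] [IsSimpleGroup G] (t : G) (ht : orderOf t = 2) (Q : Subgroup (Subgroup.centralizer ({t} : Set G))) [Q.Normal] (hQ : Cfsg.IsExtraspecial 2 Q) (hcard : Nat.card Q = 2 ^ 7) (hplus : ∃ E : Subgroup Q, Cfsg.IsElementaryAbelian 2 E ∧ Nat.card E = 2 ^ 4) (h2c : Subgroup.centralizer (Q : Set (Subgroup.centralizer ({t} : Set G))) ≤ Q) (e : (Subgroup.centralizer ({t} : Set G)) ⧸ Q ≃* Matrix.SpecialLinearGroup (Fin 3) (ZMod 2)) (hG : Nat.card G = 4030387200) (htwo : ∃ x y : G, orderOf x = 2 ∧ orderOf y = 2 ∧ ¬ IsConj x y ∧ ∀ z : G, orderOf z = 2 → IsConj z x ∨ IsConj z y) : ∃ (H : Subgroup G) (N : Subgroup H) (K : Type) (_ : Field K) (_ : Fintype K), N.Normal ∧ N.index = 2 ∧ Fintype.card K = 4 ∧ Nonempty (N ≃* Matrix.symplecticGroup (Fin 2) K) := by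
  obtain ⟨f⟩ := S1659.result t ht Q hQ hcard hplus h2c e hG htwo
  obtain ⟨N, K, _, _, h1, h2, h3, ⟨g⟩⟩ := S1682.result
  exact transfer f.symm N K h1 h2 h3 g

end Cfsg.Agent.S1653
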