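import Cfsg.Statements.S1667
import Cfsg.Agent.Mcl275.Srg
import Cfsg.Agent.Mcl275.Emb
import Cfsg.Agent.Spor.Co0Simple
import Cfsg.Agent.SporChar.U43Model

set_option autoImplicit false
open Cfsg

namespace Cfsg.Agent.S1667

/-- Recognition of the McLaughlin group as a rank 3 permutation group: a transitive permutation group on 275 points in which the stabiliser of a point is isomorphic to the unitary group U₄(3) and has two further orbits, of sizes 112 and 162, is isomorphic to the McLaughlin group. -/
theorem result {Ω : Type*} [Fintype Ω] [DecidableEq Ω] (hΩ : Fintype.card Ω = 275) (G : Subgroup (Equiv.Perm Ω)) [MulAction.IsPretransitive G Ω] (a : Ω) (K : Type) [Field K] [Fintype K] (hK : Fintype.card K = 9) (e : MulAction.stabilizer G a ≃* Cfsg.PSU 4 K 3) (b c : Ω) (hb : (MulAction.orbit (MulAction.stabilizer G a) b).ncard = 112) (hc : (MulAction.orbit (MulAction.stabilizer G a) c).ncard = 162) : Cfsg.Spor.IsoMcL G := by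
  obtain ⟨M, hM, iv⟩ := Lib.Mcl275.exists_tg (G := G) hΩ a b c hb hc
  let π : G →* Equiv.Perm (Option Ω) :=
    { toFun := fun g => Equiv.optionCongr g.1
      map_one' := Equiv.optionCongr_refl
      map_mul' := fun g k => Equiv.optionCongr_trans k.1 g.1 }
  obtain ⟨H, h2, f, hf⟩ := hM.embed none π
    (Equiv.optionCongr_injective.comp Subtype.val_injective) iv fun _ => rfl
  have cG : Nat.card G = Nat.card Spor.McL := by
    rw [← (MulAction.stabilizer G a).index_mul_card, MulAction.index_stabilizer_of_transitive,
      Nat.card_congr e.toEquiv, Lib.SporChar.U4.card_PSU43 hK, Nat.card_eq_fintype_card, hΩ,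
      Lib.Spor.CK.card_McL]
  have : Finite Spor.McL := Nat.finite_of_card_ne_zero (by rw [Lib.Spor.CK.card_McL]; omega)
  have r : f.range.index = H.index := by
    refine Nat.eq_of_mul_eq_mul_right (Nat.card_pos (α := H)) ?_
    rw [H.index_mul_card, cG, Nat.card_congr (MonoidHom.ofInjective hf).toEquiv,
      f.range.index_mul_card]
  rcases (Nat.dvd_prime Nat.prime_two).1 h2 with k | k
  · obtain rfl := Subgroup.index_eq_one.1 k
    exact ⟨Subgroup.topEquiv.symm.trans (MulEquiv.ofBijective f ⟨hf,
      MonoidHom.range_eq_top.1 (Subgroup.index_eq_one.1 (r.trans k))⟩)⟩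
  · have := Lib.Spor.CK.isSimpleGroup_McL
    rw [← r] at k
    rcases (Subgroup.normal_of_index_eq_two k).eq_bot_or_eq_top with e | e <;> rw [e] at k
    · rw [Subgroup.index_bot, Lib.Spor.CK.card_McL] at k
      omega
    · simp at k

end Cfsg.Agent.S1667
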