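import Cfsg.Statements.S1679
import Cfsg.Agent.Spor.SuzG24

set_option autoImplicit false
open Cfsg

namespace Cfsg.Agent.S1679

open Cfsg.Lib.Spor.Bulk Cfsg.Lib.Spor.SuzP

theorem sub_eq : (Subgroup.closure ({Cfsg.Spor.Suz.a, Cfsg.Spor.Suz.b, Cfsg.Spor.Suz.c, Cfsg.Spor.Suz.d, Cfsg.Spor.Suz.e, Cfsg.Spor.Suz.f} : Set (FreeGroup Cfsg.Spor.Suz.Gen))).map (PresentedGroup.mk (Cfsg.Spor.coxRelators Cfsg.Spor.Suz.edges ∪ {r | r ∈ Cfsg.Spor.Suz.extra})) = gW g0 [[1],[2],[3],[4],[5],[6]] :=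
  ok.map_closure (es := [(.gen 1), (.gen 2), (.gen 3), (.gen 4), (.gen 5), (.gen 6)]) (by decide +kernel)
    (by show _ = {x | x ∈ [Cfsg.Spor.Suz.a, Cfsg.Spor.Suz.b, Cfsg.Spor.Suz.c, Cfsg.Spor.Suz.d, Cfsg.Spor.Suz.e, Cfsg.Spor.Suz.f]}; ext x; simp) (by decide +kernel) (by decide +kernel)

/-- In the presented sporadic Suzuki group (generators a, …, g), the subgroup generated by the images of a, …, f is isomorphic to the adjoint Chevalley group of type G₂ over a field with four elements. -/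
theorem result : ∃ (K : Type) (_ : Field K) (_ : Fintype K), Fintype.card K = 4 ∧ Nonempty ((((Subgroup.closure ({Cfsg.Spor.Suz.a, Cfsg.Spor.Suz.b, Cfsg.Spor.Suz.c, Cfsg.Spor.Suz.d, Cfsg.Spor.Suz.e, Cfsg.Spor.Suz.f} : Set (FreeGroup Cfsg.Spor.Suz.Gen))).map (PresentedGroup.mk (Cfsg.Spor.coxRelators Cfsg.Spor.Suz.edges ∪ {r | r ∈ Cfsg.Spor.Suz.extra})))) ≃* Cfsg.Lie.chevG2.group K) := by
  rw [sub_eq]
  exact ⟨Cfsg.Lib.Class.GF4, inferInstance, inferInstance, rfl, equiv_G24⟩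

end Cfsg.Agent.S1679
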