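import Cfsg.Statements.S1693
import Cfsg.Agent.Spor.ONL37
-- import your own Cfsg.Agent.* helpers here

set_option autoImplicit false
open Cfsg

namespace Cfsg.Agent.S1693

open Cfsg.Lib.Spor.Bulk Cfsg.Lib.Spor.ONP

theorem sub_eq : (Subgroup.closure ({Cfsg.Spor.ON.a, Cfsg.Spor.ON.b, Cfsg.Spor.ON.c, Cfsg.Spor.ON.d, Cfsg.Spor.ON.e, Cfsg.Spor.ON.f} : Set (FreeGroup Cfsg.Spor.ON.Gen))).map (PresentedGroup.mk (Cfsg.Spor.coxRelators Cfsg.Spor.ON.edges ∪ {r | r ∈ Cfsg.Spor.ON.extra})) = gW g0 [[1],[2],[3],[4],[5],[6]] :=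
  ok.map_closure (es := [(.gen 1), (.gen 2), (.gen 3), (.gen 4), (.gen 5), (.gen 6)]) (by decide +kernel)
    (by show _ = {x | x ∈ [Cfsg.Spor.ON.a, Cfsg.Spor.ON.b, Cfsg.Spor.ON.c, Cfsg.Spor.ON.d, Cfsg.Spor.ON.e, Cfsg.Spor.ON.f]}; ext x; simp) (by decide +kernel) (by decide +kernel)

/-- In the presented O'Nan group, the subgroup H generated by the images of a, …, f has a normal subgroup of index 2 isomorphic to PSL(3, 7). -/
theorem result : ∃ N : Subgroup (((Subgroup.closure ({Cfsg.Spor.ON.a, Cfsg.Spor.ON.b, Cfsg.Spor.ON.c, Cfsg.Spor.ON.d, Cfsg.Spor.ON.e, Cfsg.Spor.ON.f} : Set (FreeGroup Cfsg.Spor.ON.Gen))).map (PresentedGroup.mk (Cfsg.Spor.coxRelators Cfsg.Spor.ON.edges ∪ {r | r ∈ Cfsg.Spor.ON.extra})))), N.Normal ∧ N.index = 2 ∧ Nonempty (N ≃* Matrix.ProjectiveSpecialLinearGroup (Fin 3) (ZMod 7)) := by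
  rw [sub_eq, show gW g0 [[1],[2],[3],[4],[5],[6]] = _ from gW_sing g0 [1,2,3,4,5,6]]
  exact exists_L37

end Cfsg.Agent.S1693
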