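import Cfsg.Statements.S1722
import Cfsg.Agent.SporChar.HJConj
import Cfsg.Agent.SporChar.HJSyl5

set_option autoImplicit false
open Cfsg

namespace Cfsg.Agent.S1722

open scoped Pointwise commutatorElement

open Subgroup Cfsg.Lib.Spor Cfsg.Lib.Spor.HJ Cfsg.Lib.Spor.WF Cfsg.Lib.Known

/-- Sylow 5-structure of a group of Hall–Janko type (large-extraspecial hypothesis with Q of order 32, quotient Ω⁻(4, 2), z not weakly closed in Q, more than one class of involutions): a Sylow 5-subgroup P is its own centraliser, has order 25, its normaliser has order 300, and the subgroups of order 5 fall into exactly two conjugacy classes. -/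
theorem result {G : Type*} [Group G] [Finite G] (z : G) (hz : orderOf z = 2) (Q : Subgroup (Subgroup.centralizer ({z} : Set G))) [Q.Normal] (hF : Cfsg.generalizedFittingSubgroup (Subgroup.centralizer ({z} : Set G)) = Q) (hQ : Cfsg.IsExtraspecial 2 Q) (hcard : Nat.card Q = 2 ^ 5) (e : (Subgroup.centralizer ({z} : Set G)) ⧸ Q ≃* Cfsg.Omega (ZMod 2) (Cfsg.quadFormMinus 1 (ZMod 2) 1 1)) (hnwc : ∃ g : G, (∃ hq : g * z * g⁻¹ ∈ Subgroup.centralizer ({z} : Set G), (⟨g * z * g⁻¹, hq⟩ : Subgroup.centralizer ({z} : Set G)) ∈ Q) ∧ g * z * g⁻¹ ≠ z) (hcl : ∃ x y : G, orderOf x = 2 ∧ orderOf y = 2 ∧ ¬ IsConj x y) (P : Sylow 5 G) : Subgroup.centralizer ((P : Subgroup G) : Set G) = P ∧ Nat.card P = 25 ∧ Nat.card (Subgroup.normalizer ((P : Subgroup G) : Set G)) = 300 ∧ ∃ X Y : Subgroup G, Nat.card X = 5 ∧ Nat.card Y = 5 ∧ (∀ g : G, X.map (MulAut.conj g).toMonoidHom ≠ Y) ∧ ∀ W : Subgroup G, Nat.card W = 5 → ∃ g : G, W.map (MulAut.conj g).toMonoidHom = X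 ∨ W.map (MulAut.conj g).toMonoidHom = Y := by
  have := Fact.mk Nat.prime_five
  obtain ⟨T, -, h, -⟩ := j2_of_genFitting hz hF hQ hcard e hnwc hcl
  obtain ⟨T, h, hP⟩ := h.exists_sylow (k := 2) (m := 24192) P (card_wP5 h.emb) rfl (by norm_num)
  obtain ⟨r1, r2, c1⟩ := s5_basic h.emb
  obtain ⟨f1, f2, f3, f4, -⟩ := j_basic h.emb
  obtain ⟨hc, hn⟩ := card_cent_r h.emb
  rw [h.cent_eq] at hc
  have hr : T.r ∈ sub T.gM wP5 := wv_mem_sub T.gM (by decide)
  have hf : T.f ∈ sub T.gM wP5 := wv_mem_sub T.gM (by decide)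
  have o : ∀ a : G, a * a * a * a * a = 1 → a ≠ 1 → orderOf a = 5 := fun a a1 a2 =>
    orderOf_eq_prime (by simp only [pow_succ, pow_zero, one_mul, a1]) a2
  have hN : ∀ x, x * T.r = T.r * x → x ∈ sub T.gM wN5 := fun x a =>
    ((eq_of_le_of_card_ge inf_le_right (by rw [hc, card_cent_rN h.emb])).ge
      (mem_centralizer_singleton_iff.2 a)).1
  have n : ∀ x ∈ zpowers T.f, ¬ IsConj x T.r := fun x hx =>
    not_isConj_of_card (K := sub T.gM wV) (fun k hk => by
      obtain ⟨i, rfl⟩ := hx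
      refine Commute.zpow_right (mem_centralizer_singleton_iff.1 (sub_le (H := centralizer {T.f})
        (fun L hL => mem_centralizer_singleton_iff.2 ?_) hk)) i
      rcases List.mem_pair.1 hL with rfl | rfl
      exacts [by simpa using f3.symm, f4.symm]) (by rw [hc, card_wV h.emb]; norm_num)
  have zc : ∀ x c : G, (zpowers x).map (MulAut.conj c).toMonoidHom = zpowers (c * x * c⁻¹) :=
    fun x c => MonoidHom.map_zpowers _ _
  refine ⟨?_, hP ▸ card_wP5 h.emb, ?_, zpowers T.r, zpowers T.f, by rw [Nat.card_zpowers, o _ r1 r2],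
    by rw [Nat.card_zpowers, o _ f1 f2], fun g hg => n _ (hg ▸ zc _ g ▸ mem_zpowers _)
      (isConj_iff.2 ⟨g, rfl⟩).symm, fun W hW => ?_⟩
  · rw [← hP]
    refine le_antisymm (fun x hx => ?_) fun x hx y hy => mem_centralizer_singleton_iff.1
      (sub_le (H := centralizer {x}) (fun L hL => mem_centralizer_singleton_iff.2 ?_) hy)
    · obtain ⟨c, b, rfl⟩ := s5_cent h.emb x (hN x (hx _ hr).symm) (hx _ hr).symm (hx _ hf).symm
      exact b
    · rcases List.mem_pair.1 hL with rfl | rfl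
      exacts [(c1 x hx).1.symm, (c1 x hx).2.symm]
  · rw [← hP, normalizer_eq_of (n5_le h.emb) hr (fun x hx a => ?_) fun x _ => hN x, card_wN5 h.emb]
    rcases s5_fus h.emb x hx with rfl | ⟨c, b, d | d | d | d⟩
    · exact absurd (isConj_one_left.1 a) r2
    · exact ⟨c, b, d⟩
    · obtain ⟨k, hk⟩ := isConj_iff.1 ((isConj_of_semi ((mul_assoc ..).symm.trans d)).trans a.symm)
      exact absurd ⟨k, h.top ▸ mem_top k, mul_inv_eq_iff_eq_mul.1 hk⟩ hn
    · exact absurd ((isConj_of_semi d).trans a.symm) (n _ (mem_zpowers _))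
    · exact absurd ((isConj_of_semi ((mul_assoc ..).symm.trans d)).trans a.symm)
        (n _ (mul_mem (mem_zpowers _) (mem_zpowers _)))
  · obtain ⟨x, hx, x1⟩ := exists_mem_orderOf (D := W) Nat.prime_five hW.symm.dvd
    have x2 : x ≠ 1 := by rintro rfl; simp at x1
    obtain rfl := SC.zpowers_eq_of_card_prime Nat.prime_five hW hx x2
    obtain ⟨g, hg⟩ := exists_conj_mem_sylow P x1
    have k : ∀ a b c, orderOf a = 5 → b ∈ zpowers a → c * b = g * x * g⁻¹ * c →
        (zpowers x).map (MulAut.conj (c⁻¹ * g)).toMonoidHom = zpowers a := fun a b c a1 a2 a3 => by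
      have : c⁻¹ * g * x * (c⁻¹ * g)⁻¹ = b := by rw [eq_inv_mul_iff_mul_eq.2 a3]; group
      rw [zc, this, SC.zpowers_eq_of_card_prime Nat.prime_five ((Nat.card_zpowers a).trans a1) a2
        (this ▸ fun e => x2 (conj_eq_one_iff.1 e))]
    rcases s5_fus h.emb _ (hP ▸ hg) with b | ⟨c, -, d | d | d | d⟩
    exacts [absurd (conj_eq_one_iff.1 b) x2, ⟨_, Or.inl (k _ _ c (o _ r1 r2) (mem_zpowers _) d)⟩,
      ⟨_, Or.inl (k _ _ c (o _ r1 r2) (mul_mem (mem_zpowers _) (mem_zpowers _))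
        ((mul_assoc ..).symm.trans d))⟩, ⟨_, Or.inr (k _ _ c (o _ f1 f2) (mem_zpowers _) d)⟩,
      ⟨_, Or.inr (k _ _ c (o _ f1 f2) (mul_mem (mem_zpowers _) (mem_zpowers _))
        ((mul_assoc ..).symm.trans d))⟩]

end Cfsg.Agent.S1722
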