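import Cfsg.Statements.S1723
import Cfsg.Agent.SporChar.HJConj
import Cfsg.Agent.SporChar.HJSyl3
import Cfsg.Agent.Fus.EssSmall

set_option autoImplicit false
open Cfsg

namespace Cfsg.Agent.S1723

open scoped Pointwise commutatorElement

open Subgroup Cfsg.Lib.Spor Cfsg.Lib.Spor.HJ Cfsg.Lib.Spor.WF

/-- Sylow 3-structure of a group of Hall–Janko type (large-extraspecial hypothesis with Q of order 32, quotient Ω⁻(4, 2), z not weakly closed in Q, more than one class of involutions): a Sylow 3-subgroup P is extraspecial of order 27, its normaliser has order 216, and the elements of order 3 form exactly two conjugacy classes. -/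
theorem result {G : Type*} [Group G] [Finite G] (z : G) (hz : orderOf z = 2) (Q : Subgroup (Subgroup.centralizer ({z} : Set G))) [Q.Normal] (hF : Cfsg.generalizedFittingSubgroup (Subgroup.centralizer ({z} : Set G)) = Q) (hQ : Cfsg.IsExtraspecial 2 Q) (hcard : Nat.card Q = 2 ^ 5) (e : (Subgroup.centralizer ({z} : Set G)) ⧸ Q ≃* Cfsg.Omega (ZMod 2) (Cfsg.quadFormMinus 1 (ZMod 2) 1 1)) (hnwc : ∃ g : G, (∃ hq : g * z * g⁻¹ ∈ Subgroup.centralizer ({z} : Set G), (⟨g * z * g⁻¹, hq⟩ : Subgroup.centralizer ({z} : Set G)) ∈ Q) ∧ g * z * g⁻¹ ≠ z) (hcl : ∃ x y : G, orderOf x = 2 ∧ orderOf y = 2 ∧ ¬ IsConj x y) (P : Sylow 3 G) : Cfsg.IsExtraspecial 3 (P : Subgroup G) ∧ Nat.card P = 27 ∧ Nat.card (Subgroup.normalizer ((P : Subgroup G) : Set G)) = 216 ∧ ∃ a b : G, orderOf a = 3 ∧ orderOf b = 3 ∧ ¬ IsConj a b ∧ ∀ c : G, orderOf c = 3 → IsConj c a ∨ IsConj c b := by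
  obtain ⟨T, -, h, -⟩ := j2_of_genFitting hz hF hQ hcard e hnwc hcl
  obtain ⟨T, h, hP⟩ := h.exists_sylow (k := 3) (m := 22400) P (card_wP3 h.emb) rfl (by norm_num)
  obtain ⟨-, -, u1, u2, y1, y2, c1, c2, x, hx, c3⟩ := s3_basic h.emb
  have hy : T.y ∈ sub T.gM wP3 := one_mul T.y ▸ wv_mem_sub T.gM (L := [11]) (by decide)
  have hc := card_cent_y h.emb
  rw [h.cent_eq] at hc
  have hn : ¬ IsConj T.u T.y := not_isConj_of_card c1 (by rw [hc, card_wP3 h.emb]; norm_num)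
  have o : ∀ a : G, a * a * a = 1 → a ≠ 1 → orderOf a = 3 := fun a a1 a2 =>
    orderOf_eq_prime (by rw [pow_succ, sq, a1]) a2
  refine ⟨hP ▸ Cfsg.Lib.Fus.Ess.isExtraspecial_of_card_cube (card_wP3 h.emb) fun a =>
    c3 (congrArg Subtype.val (a ⟨x, hx⟩ ⟨_, hy⟩)), hP ▸ card_wP3 h.emb, ?_, T.u, T.y, o _ u1 u2,
    o _ y1 y2, hn, fun c hc => ?_⟩
  · rw [← hP, normalizer_eq_of (n3_le h.emb) hy (fun x hx a => ?_) fun x hx a => ?_, card_wN3 h.emb]
    · rcases s3_fus h.emb x hx with rfl | b | ⟨_, -, b⟩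
      exacts [absurd (isConj_one_left.1 a) y2, b, absurd ((isConj_of_semi b).trans a.symm) hn]
    · obtain ⟨c, b, rfl⟩ := s3_cent h.emb x ((eq_of_le_of_card_ge (fun x hx =>
        mem_centralizer_singleton_iff.2 (c2 x hx)) (by rw [hc, card_wY h.emb])).ge
        (mem_centralizer_singleton_iff.2 a)) ⟨_, (mem_normalizer_iff.1 hx _).1
          (wv_mem_sub T.gM (L := xq) (by decide)), by rw [inv_mul_cancel_right]⟩
      exact b
  · obtain ⟨g, hg⟩ := exists_conj_mem_sylow P hc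
    have k : IsConj c (g * c * g⁻¹) := isConj_iff.2 ⟨g, rfl⟩
    rcases s3_fus h.emb _ (hP ▸ hg) with b | ⟨_, -, b⟩ | ⟨_, -, b⟩
    · rw [conj_eq_one_iff.1 b, orderOf_one] at hc; omega
    · exact Or.inr (k.trans (isConj_of_semi b).symm)
    · exact Or.inl (k.trans (isConj_of_semi b).symm)

end Cfsg.Agent.S1723
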