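import Cfsg.Statements.S1724
import Cfsg.Agent.SporChar.HJConj
import Cfsg.Agent.SporChar.HJSyl3

set_option autoImplicit false
open Cfsg

namespace Cfsg.Agent.S1724

open scoped Pointwise commutatorElement

open Subgroup Cfsg.Lib.Spor Cfsg.Lib.Spor.HJ Cfsg.Lib.Spor.WF

/-- In a group of Hall–Janko type (large-extraspecial hypothesis with Q of order 32, quotient Ω⁻(4, 2), z not weakly closed in Q, more than one class of involutions), a Sylow 7-subgroup is its own centraliser and its normaliser is non-abelian of order 42. -/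
theorem result {G : Type*} [Group G] [Finite G] (z : G) (hz : orderOf z = 2) (Q : Subgroup (Subgroup.centralizer ({z} : Set G))) [Q.Normal] (hF : Cfsg.generalizedFittingSubgroup (Subgroup.centralizer ({z} : Set G)) = Q) (hQ : Cfsg.IsExtraspecial 2 Q) (hcard : Nat.card Q = 2 ^ 5) (e : (Subgroup.centralizer ({z} : Set G)) ⧸ Q ≃* Cfsg.Omega (ZMod 2) (Cfsg.quadFormMinus 1 (ZMod 2) 1 1)) (hnwc : ∃ g : G, (∃ hq : g * z * g⁻¹ ∈ Subgroup.centralizer ({z} : Set G), (⟨g * z * g⁻¹, hq⟩ : Subgroup.centralizer ({z} : Set G)) ∈ Q) ∧ g * z * g⁻¹ ≠ z) (hcl : ∃ x y : G, orderOf x = 2 ∧ orderOf y = 2 ∧ ¬ IsConj x y) (D : Sylow 7 G) : Subgroup.centralizer ((D : Subgroup G) : Set G) = D ∧ Nat.card (Subgroup.normalizer ((D : Subgroup G) : Set G)) = 42 ∧ ¬ IsMulCommutative (Subgroup.normalizer ((D : Subgroup G) : Set G)) := by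
  obtain ⟨T, -, h, -⟩ := j2_of_genFitting hz hF hQ hcard e hnwc hcl
  have hG : Nat.card G = 7 * 86400 := h.card
  obtain ⟨g1, g2, -⟩ := s3_basic h.emb
  have ho : orderOf T.g = 7 := orderOf_eq_prime (by simp only [pow_succ, pow_zero, one_mul, g1]) g2
  have hC := cent_sylow_prime hG (by norm_num) ho (fun d hd =>
    (eq_of_le_of_card_ge (zpowers_le.2 (mem_centralizer_singleton_iff.2 rfl)) (by
      rw [← h.cent_eq, card_cent_g h.emb, Nat.card_zpowers, ho])).ge
      (mem_centralizer_singleton_iff.2 hd)) D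
  have hN := (normalizer_prime hG (by norm_num) D hC).2
  refine ⟨hC, hN, fun hc => ?_⟩
  have := card_le_of_le (show normalizer ((D : Subgroup G) : Set G) ≤ D from fun x hx =>
    hC.le fun y hy => congrArg Subtype.val (hc.1.1 ⟨y, le_normalizer hy⟩ ⟨x, hx⟩))
  rw [hN, card_sylow_prime hG (by norm_num)] at this
  omega

end Cfsg.Agent.S1724
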