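import Cfsg.Statements.S1753
import Cfsg.Agent.Solv.PGroupBasic

set_option autoImplicit false
universe u
open Cfsg

namespace Cfsg.Agent.S1753

/-- Let K be any property of groups. (1) If G is a minimal counterexample relative to K — a finite non-abelian simple group not satisfying K such that every finite non-abelian simple group of smaller order satisfies K — then every proper subgroup of G is a K-group (all its non-abelian simple sections satisfy K), since such sections have smaller order than G. (2) Consequently (induction on the order), if every finite non-abelian simple group all of whose proper subgroups are K-groups satisfies K, then every finite non-abelian simple group satisfies K. -/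
theorem result (K : ∀ (X : Type u) [Group X], Prop) :
    (∀ (G : Type u) [Group G], Cfsg.IsMinCounterexampleWith K G → Cfsg.IsKProperWith K G) ∧
      ((∀ (X : Type u) [Group X] [Finite X], IsSimpleGroup X → ¬ IsMulCommutative X → Cfsg.IsKProperWith K X → K X) →
        ∀ (G : Type u) [Group G] [Finite G], IsSimpleGroup G → ¬ IsMulCommutative G → K G) := by
  have h1 : ∀ (G : Type u) [Group G], Cfsg.IsMinCounterexampleWith K G → Cfsg.IsKProperWith K G := by
    intro G _ hG H hH L N _ hs hc
    obtain ⟨hfin, -, -, -, hmin⟩ := hG
    refine hmin _ hs hc ?_
    have a1 : Nat.card (L ⧸ N) ≤ Nat.card L :=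
      Nat.card_le_card_of_surjective _ (QuotientGroup.mk'_surjective N)
    have a2 : Nat.card L ≤ Nat.card H := Nat.card_le_card_of_injective _ L.subtype_injective
    have a3 : Nat.card H < Nat.card G := by
      have := Cfsg.Lib.Solv.PG.card_lt_card_of_lt (lt_top_iff_ne_top.mpr hH)
      rwa [Subgroup.card_top] at this
    omega
  refine ⟨h1, fun h => ?_⟩
  have key : ∀ n : ℕ, ∀ (G : Type u) [Group G] [Finite G], Nat.card G = n → IsSimpleGroup G →
      ¬ IsMulCommutative G → K G := by
    intro n
    induction n using Nat.strong_induction_on with
    | _ n ih =>
      intro G _ _ hn hs hc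
      by_contra hK
      refine hK (h G hs hc (h1 G ⟨inferInstance, hs, hc, hK, fun X _ _ hXs hXc hlt => ?_⟩))
      exact ih _ (hn ▸ hlt) X rfl hXs hXc
  exact fun G _ _ hs hc => key _ G rfl hs hc

end Cfsg.Agent.S1753
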