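import Cfsg.Statements.S1756
import Cfsg.Agent.Local.SympTwo

set_option autoImplicit false
open Cfsg

namespace Cfsg.Agent.S1756

open scoped Pointwise commutatorElement

/-- Let Q be an extraspecial 2-subgroup of the finite group G (special with centre of order 2) and t an involution of G normalizing Q such that the centralizer of t in Q has index at most 2 in Q. Then t lies in the product of Q with the centralizer of Q. -/
theorem result {G : Type*} [Group G] [Finite G] (Q : Subgroup G)
    (hQ : Cfsg.IsExtraspecial 2 ↥Q) (t : G) (ht : orderOf t = 2) (htN : t ∈ Subgroup.normalizer (Q : Set G))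
    (hi : (Subgroup.centralizer ({t} : Set G) ⊓ Q).relIndex Q ≤ 2) :
    t ∈ Q ⊔ Subgroup.centralizer (Q : Set G) := by
  open Cfsg.Lib.Local Cfsg.Lib.Solv Subgroup in
  obtain ⟨z, h, hZ⟩ := sympPair_of_isExtraspecial hQ
  have ht2 : t * t = 1 := by rw [← sq, ← ht, pow_orderOf_eq_one]
  have hm : ∀ q ∈ Q, t * q * t⁻¹ * q⁻¹ ∈ Subgroup.zpowers z := by
    refine fun q hq => h.comm_mem_of_index_two htN ht2 (fun a ha b hb haz hbz => ?_) hq
    have haR : a ∉ Subgroup.centralizer ({t} : Set G) ⊓ Q := fun e =>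
      haz (Subgroup.mem_centralizer_singleton_iff.mp e.1).symm
    have hbR : b ∉ Subgroup.centralizer ({t} : Set G) ⊓ Q := fun e =>
      hbz (Subgroup.mem_centralizer_singleton_iff.mp e.1).symm
    have h4 : (Subgroup.centralizer ({t} : Set G) ⊓ Q).relIndex Q ≠ 1 :=
      fun e => haR (Subgroup.relIndex_eq_one.mp e ha)
    have h5 : (Subgroup.centralizer ({t} : Set G) ⊓ Q).relIndex Q ≠ 0 :=
      Subgroup.index_ne_zero_of_finite
    have h6 : ((Subgroup.centralizer ({t} : Set G) ⊓ Q).subgroupOf Q).index = 2 := by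
      change (Subgroup.centralizer ({t} : Set G) ⊓ Q).relIndex Q = 2; omega
    have h7 := (Subgroup.mul_mem_iff_of_index_two h6 (a := ⟨a⁻¹, Q.inv_mem ha⟩)
      (b := ⟨b, hb⟩)).mpr
      (iff_of_false (fun e => haR (by simpa using Subgroup.inv_mem _ (Subgroup.mem_subgroupOf.mp e)))
        hbR)
    exact (Subgroup.mem_centralizer_singleton_iff.mp h7.1).symm
  obtain ⟨x, hx, hxq⟩ := h.exists_inner hm (fun c hc => by
    rw [hZ] at hc
    nth_rewrite 2 [← h.conj_eq_of_mem htN hc]; group)
  have : t = x * (x⁻¹ * t) := by group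
  rw [this]
  refine Subgroup.mul_mem_sup hx fun q hq => ?_
  calc q * (x⁻¹ * t) = x⁻¹ * (x * q * x⁻¹) * t := by group
    _ = _ := by rw [← hxq q hq]; group

end Cfsg.Agent.S1756
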