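import Cfsg.Statements.S1774
import Cfsg.Agent.Local.SympCent

set_option autoImplicit false
open Cfsg

namespace Cfsg.Agent.S1774

open scoped Pointwise commutatorElement

/-- Let G be a finite group and let z be an involution of G such that Q, the generalized Fitting subgroup of the centralizer C of z, is a 2-group of symplectic type (every characteristic abelian subgroup of Q is cyclic); suppose every element of Q has order dividing 4. Let g ∈ G with z' = g z g⁻¹ ≠ z and z' ∈ Q. Then z lies in the conjugate g Q g⁻¹, and the subgroup X generated by Q and g Q g⁻¹ induces every automorphism of the four-group generated by z and z': for any two distinct non-identity elements u, v of that four-group there is x ∈ X with x z x⁻¹ = u and x z' x⁻¹ = v. -/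
theorem result {G : Type*} [Group G] [Finite G] (z : G) (hz : orderOf z = 2) (hQ : Cfsg.IsOfSymplecticType ↥(Cfsg.generalizedFittingSubgroup ↥(Subgroup.centralizer ({z} : Set G))))
    (h4 : ∀ q ∈ (Cfsg.generalizedFittingSubgroup ↥(Subgroup.centralizer ({z} : Set G))).map (Subgroup.centralizer ({z} : Set G)).subtype, q ^ 4 = 1) (g : G) (hne : g * z * g⁻¹ ≠ z) (hin : g * z * g⁻¹ ∈ (Cfsg.generalizedFittingSubgroup ↥(Subgroup.centralizer ({z} : Set G))).map (Subgroup.centralizer ({z} : Set G)).subtype) :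
    z ∈ ((Cfsg.generalizedFittingSubgroup ↥(Subgroup.centralizer ({z} : Set G))).map (Subgroup.centralizer ({z} : Set G)).subtype).map (MulAut.conj g).toMonoidHom ∧
      ∀ u ∈ Subgroup.closure ({z, g * z * g⁻¹} : Set G), ∀ v ∈ Subgroup.closure ({z, g * z * g⁻¹} : Set G),
        u ≠ 1 → v ≠ 1 → u ≠ v →
          ∃ x ∈ (Cfsg.generalizedFittingSubgroup ↥(Subgroup.centralizer ({z} : Set G))).map (Subgroup.centralizer ({z} : Set G)).subtype ⊔ ((Cfsg.generalizedFittingSubgroup ↥(Subgroup.centralizer ({z} : Set G))).map (Subgroup.centralizer ({z} : Set G)).subtype).map (MulAut.conj g).toMonoidHom, x * z * x⁻¹ = u ∧ x * (g * z * g⁻¹) * x⁻¹ = v := by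
  have h := Cfsg.Lib.Local.largeSymp_of_symplecticType hz hQ h4
  generalize (Cfsg.generalizedFittingSubgroup ↥(Subgroup.centralizer ({z} : Set G))).map
    (Subgroup.centralizer ({z} : Set G)).subtype = Q at h hin ⊢
  have hzR := h.mem_conj_of_conj_mem hne hin
  have h' := h.conj g
  refine ⟨hzR, ?_⟩
  change ∀ u ∈ _, ∀ v ∈ _, _ → _ → _ → ∃ x ∈ Q ⊔ MulAut.conj g • Q, _
  generalize g * z * g⁻¹ = x at hne hin h' ⊢
  generalize MulAut.conj g • Q = R at h' hzR
  obtain ⟨q, hq, hqx⟩ := Cfsg.Lib.Local.LargeSymp.exists_conj_eq_mul h.toSympPair hin h'.mul_self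
    h'.ne_one hne
  obtain ⟨v, hv, hvz⟩ := Cfsg.Lib.Local.LargeSymp.exists_conj_eq_mul h'.toSympPair hzR h.mul_self
    h.ne_one hne.symm
  have hxz : x * z = z * x := h.central x hin
  have hqz : q * z * q⁻¹ = z := by rw [h.central q hq]; group
  have hvx : v * x * v⁻¹ = x := by rw [h'.central v hv]; group
  rw [hxz] at hvz
  have hqy : q * (z * x) * q⁻¹ = x := by
    calc q * (z * x) * q⁻¹ = (q * z * q⁻¹) * (q * x * q⁻¹) := by group
      _ = x := by rw [hqz, hqx, ← mul_assoc, h.mul_self, one_mul]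
  have hvy : v * (z * x) * v⁻¹ = z := by
    calc v * (z * x) * v⁻¹ = (v * z * v⁻¹) * (v * x * v⁻¹) := by group
      _ = z := by rw [hvz, hvx, mul_assoc, h'.mul_self, mul_one]
  have hmem : ∀ u ∈ Subgroup.closure ({z, x} : Set G), u = 1 ∨ u = z ∨ u = x ∨ u = z * x := by
    intro u hu
    have e : Subgroup.closure ({z, x} : Set G) = Subgroup.zpowers z ⊔ Subgroup.zpowers x := by
      rw [Subgroup.zpowers_eq_closure, Subgroup.zpowers_eq_closure, ← Subgroup.closure_union]; rfl
    rw [e, Cfsg.Lib.Solv.mem_sup_of_le_normalizer (Subgroup.zpowers_le.mpr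
      (Subgroup.centralizer_le_normalizer _ fun w hw => (h.comm_of_mem hw hin).symm))] at hu
    obtain ⟨a, ha, b, hb, rfl⟩ := hu
    rcases h.mem_iff.mp ha with rfl | rfl <;> rcases h'.mem_iff.mp hb with rfl | rfl <;> simp
  have hq' : q ∈ Q ⊔ R := Subgroup.mem_sup_left hq
  have hv' : v ∈ Q ⊔ R := Subgroup.mem_sup_right hv
  have c2 : ∀ a b w : G, a * b * w * (a * b)⁻¹ = a * (b * w * b⁻¹) * a⁻¹ := fun a b w => by group
  intro u hu w hw hu1 hw1 huw
  rcases hmem u hu with rfl | rfl | rfl | rfl <;> rcases hmem w hw with rfl | rfl | rfl | rfl <;>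
    try contradiction
  · exact ⟨1, Subgroup.one_mem _, by simp, by simp⟩
  · exact ⟨q, hq', hqz, hqx⟩
  · exact ⟨v * q * v, Subgroup.mul_mem _ (Subgroup.mul_mem _ hv' hq') hv',
      by rw [c2, c2, hvz, hqy, hvx], by rw [c2, c2, hvx, hqx, hvy]⟩
  · exact ⟨q * v, Subgroup.mul_mem _ hq' hv', by rw [c2, hvz, hqy], by rw [c2, hvx, hqx]⟩
  · exact ⟨v * q, Subgroup.mul_mem _ hv' hq', by rw [c2, hqz, hvz], by rw [c2, hqx, hvy]⟩
  · exact ⟨v, hv', hvz, hvx⟩

end Cfsg.Agent.S1774
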