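import Cfsg.Statements.S1775
import Cfsg.Agent.Trans.PTerminal

set_option autoImplicit false
open Cfsg

namespace Cfsg.Agent.S1775

open Cfsg.Lib Cfsg.Lib.Trans

open Subgroup QuotientGroup

/-- Let G be a finite group whose generalized Fitting subgroup is a non-abelian simple group and in which every proper section (every quotient H/N of a proper subgroup H, or of G by a nontrivial normal subgroup) has the B-property. Let x, y be commuting involutions, let D be the intersection of the 2-layer of C_G(x) with C_G(y), and let J be a 2-component of D. Write Q for the quotient of C_G(y) by its largest normal odd-order subgroup. Then (i) the image of J in Q is a component of the centralizer in Q of the image of x; and (ii) for every J-invariant subgroup E of odd order of C_G(x) ∩ C_G(y), the commutator subgroup [J, E] lies in the largest normal odd-order subgroup of C_G(y). -/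
theorem result {G : Type*} [Group G] [Finite G]
    (hF : IsSimpleGroup ↥(Cfsg.generalizedFittingSubgroup G)) (hF' : ¬ IsMulCommutative ↥(Cfsg.generalizedFittingSubgroup G))
    (hsec : ∀ (H : Subgroup G) (N : Subgroup ↥H) [N.Normal], (H ≠ ⊤ ∨ N ≠ ⊥) → Cfsg.HasBProperty (↥H ⧸ N))
    (x y : G) (hx : orderOf x = 2) (hy : orderOf y = 2) (hxy : x * y = y * x)
    (J : Subgroup ↥((Cfsg.pLayer 2 ↥(Subgroup.centralizer ({x} : Set G))).map (Subgroup.centralizer ({x} : Set G)).subtype ⊓ Subgroup.centralizer ({y} : Set G)))
    (hJ : Cfsg.IsPComponent 2 J) :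
    Cfsg.IsComponent
        ((((J.map (Subgroup.subtype _)).subgroupOf (Subgroup.centralizer ({y} : Set G))).map (QuotientGroup.mk' (Cfsg.oddCore ↥(Subgroup.centralizer ({y} : Set G))))).subgroupOf
          (Subgroup.centralizer ({(QuotientGroup.mk' (Cfsg.oddCore ↥(Subgroup.centralizer ({y} : Set G))) ⟨x, Subgroup.mem_centralizer_singleton_iff.mpr hxy⟩ : ↥(Subgroup.centralizer ({y} : Set G)) ⧸ Cfsg.oddCore ↥(Subgroup.centralizer ({y} : Set G)))} : Set _))) ∧
      ∀ E : Subgroup G, E ≤ Subgroup.centralizer ({x} : Set G) ⊓ Subgroup.centralizer ({y} : Set G) → Odd (Nat.card ↥E) →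
        (∀ j ∈ J.map (Subgroup.subtype _), ∀ e ∈ E, j * e * j⁻¹ ∈ E) →
          ⁅J.map (Subgroup.subtype _), E⁆ ≤ (Cfsg.oddCore ↥(Subgroup.centralizer ({y} : Set G))).map (Subgroup.centralizer ({y} : Set G)).subtype := by
  have hJ1 := (isPComponent_iff_map_subtype J).1 hJ
  generalize J.map (Subgroup.subtype _) = I at hJ1 ⊢
  clear hJ J
  set C := centralizer ({y} : Set G) with hC
  have hxC : x ∈ C := mem_centralizer_singleton_iff.mpr hxy
  have hJ2 : IsPComponentOf 2 I (C ⊓ centralizer ((zpowers x : Subgroup G) : Set G)) := by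
    rw [centralizer_zpowers_eq, inf_comm]
    exact IsPComponentOf.trans hJ1 ((pLayerOf_subnormalIn 2 _).inf_right C)
  have hIC : I ≤ C := hJ2.1.trans inf_le_left
  have h1 := IsPComponentOf.qim_centralizer hJ2 (isPGroup_zpowers_of_orderOf hx) (zpowers_le.2 hxC)
  rw [qim_zpowers ⟨x, hxC⟩, centralizer_zpowers_eq] at h1
  have hCne : C ≠ ⊤ := by
    intro h2
    have h3 : y ∈ center G := by
      rw [mem_center_iff]
      exact fun g => mem_centralizer_singleton_iff.1 (h2.ge (mem_top g))
    have h4 : y ∈ generalizedFittingSubgroup G :=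
      fitting_le_genFitting G (Solv.center_le_fitting G h3)
    have h5 := IsQuasisimple.ne_bot (isQuasisimple_of_isSimpleGroup hF')
    rcases (inferInstance : (center (generalizedFittingSubgroup G)).Normal).eq_bot_or_eq_top
      with h6 | h6
    · have h7 : (⟨y, h4⟩ : generalizedFittingSubgroup G) ∈ center _ :=
        mem_center_iff.2 fun g => Subtype.ext (mem_center_iff.1 h3 g)
      rw [h6, mem_bot, Subtype.ext_iff] at h7
      rw [show y = 1 from h7, orderOf_one] at hy
      exact absurd hy (by norm_num)
    · exact IsQuasisimple.center_ne_top (isQuasisimple_of_isSimpleGroup hF') h6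
  have hB := hsec C (oddCore C) (Or.inl hCne) _
    (orderOf_mk'_pPrimeCore (x := (⟨x, hxC⟩ : C)) (by rw [Subgroup.orderOf_mk, hx]))
  rw [show oddCore (C ⧸ oddCore C) = ⊥ from Solv.pPrimeCore_quotient_pPrimeCore 2 C, le_bot_iff,
    Subgroup.map_eq_bot_iff_of_injective _ (Subgroup.subtype_injective _)] at hB
  have h2 := IsPComponent.isComponent_of_commutator_eq_bot h1.2
    (commutator_eq_bot_of_le hB (IsPComponent.le_pLayer h1.2) le_rfl)
  refine ⟨h2, fun E hE hodd hn => ?_⟩
  have hEC : E ≤ C := hE.trans inf_le_right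
  have h3 := commutator_eq_bot_of_isComponent_subgroupOf h1.1 h2 (IsPComponentOf.isPQS h1).dvd_card
    (N := qim 2 C E) (by
      rw [← centralizer_zpowers_eq, ← qim_zpowers]
      apply qim_le_centralizer hEC (zpowers_le.2 hxC)
      rw [centralizer_zpowers_eq]
      exact hE.trans inf_le_left)
    (Nat.Coprime.coprime_dvd_left ((Solv.card_map_dvd _ _).trans
      (by rw [Solv.card_subgroupOf_of_le hEC])) (Nat.coprime_two_right.2 hodd))
    (qim_le_normalizer hIC hEC fun j hj => Solv.mem_normalizer_of_conj_mem (hn j hj))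
  exact (commutator_le_ppCoreOf_iff hIC hEC).2 (commutator_eq_bot_iff_le_centralizer.1 h3)

end Cfsg.Agent.S1775
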