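import Cfsg.Statements.S1780


set_option autoImplicit false
open Cfsg

namespace Cfsg.Agent.S1780

/-- Let A be a finite abelian 2-group and t an automorphism of A whose order is a power of 2. If every element of A fixed by t² is fixed by t, then t fixes every element of A. -/
theorem result {A : Type*} [CommGroup A] [Finite A]
    (hA : IsPGroup 2 A) (t : MulAut A) (ht : ∃ k : ℕ, orderOf t = 2 ^ k) (hC : ∀ a : A, t (t a) = a → t a = a) :
    ∀ a : A, t a = a := by
  obtain ⟨k, hk⟩ := ht
  have key : ∀ j : ℕ, ∀ a : A, t (a ^ 2) = a ^ 2 → (t ^ 2 ^ j) a = a → t a = a := by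
    intro j
    induction j with
    | zero => intro a _ h; simpa using h
    | succ j ih =>
      intro a h2 h
      set u := t ^ 2 ^ j with hu
      have hfix : ∀ x : A, t x = x → u x = x := by
        intro x hx
        have : ∀ n : ℕ, (t ^ n) x = x := by
          intro n
          induction n with
          | zero => simp
          | succ n ihn => rw [pow_succ, MulAut.mul_apply, hx, ihn]
        exact this _
      have huu : u (u a) = a := by
        rw [← MulAut.mul_apply, hu, ← pow_add, ← two_mul, ← pow_succ']; exact h
      have htu : ∀ x, t (u x) = u (t x) := by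
        intro x
        rw [← MulAut.mul_apply, ← MulAut.mul_apply, hu, ← pow_succ', ← pow_succ]
      have hb2 : (u a * a⁻¹) ^ 2 = 1 := by
        rw [mul_pow, ← map_pow, hfix _ h2, inv_pow, mul_inv_cancel]
      have hb : t (u a * a⁻¹) = u a * a⁻¹ := by
        refine ih _ (by rw [hb2, map_one]) ?_
        rw [map_mul, map_inv, huu]
        have : a * (u a)⁻¹ = (u a * a⁻¹)⁻¹ := by rw [mul_inv_rev, inv_inv]
        rw [this, inv_eq_iff_mul_eq_one, ← sq, hb2]
      have he2 : (t a * a⁻¹) ^ 2 = 1 := by
        rw [mul_pow, ← map_pow, h2, inv_pow, mul_inv_cancel]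
      have he : t (t a * a⁻¹) = t a * a⁻¹ := by
        refine ih _ (by rw [he2, map_one]) ?_
        rw [map_mul, map_inv, ← htu]
        rw [map_mul, map_inv] at hb
        have h3 : t (u a) = u a * a⁻¹ * t a := by rw [← hb]; simp
        rw [h3, mul_comm (u a * a⁻¹), mul_assoc, mul_comm (u a * a⁻¹), ← mul_assoc (u a)⁻¹]
        simp
      apply hC
      rw [map_mul, map_inv] at he
      have h4 : t (t a) = (t a * a⁻¹) ^ 2 * a := by
        have : t (t a) = t a * a⁻¹ * t a := by rw [← he]; simp
        rw [this, sq]; simp [mul_assoc]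
      rw [h4, he2, one_mul]
  have key2 : ∀ n : ℕ, ∀ a : A, a ^ 2 ^ n = 1 → t a = a := by
    intro n
    induction n with
    | zero => intro a h; rw [pow_zero, pow_one] at h; rw [h, map_one]
    | succ n ih =>
      intro a h
      refine key k a (ih _ (by rw [← pow_mul, ← pow_succ']; exact h)) ?_
      rw [← hk, pow_orderOf_eq_one]; rfl
  intro a
  obtain ⟨n, hn⟩ := hA a
  exact key2 n a hn

end Cfsg.Agent.S1780
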