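import Cfsg.Statements.S1781
import Cfsg.Agent.S1757
import Cfsg.Agent.S1780
import Cfsg.Agent.Solv.PGroupNormal
import Cfsg.Agent.Solv.Conj

set_option autoImplicit false
open Cfsg

namespace Cfsg.Agent.S1781

open scoped Pointwise commutatorElement

/-- Let A be an abelian 2-subgroup of the finite group G such that every conjugate of A equals A or meets A trivially, and let g ∈ G with g A g⁻¹ ≠ A. Then either the subgroup of those elements of A that normalize g A g⁻¹ is an elementary abelian 2-group, or A and g A g⁻¹ commute elementwise. -/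
theorem result {G : Type*} [Group G] [Finite G] (A : Subgroup G)
    (hA2 : IsPGroup 2 ↥A) (hAa : IsMulCommutative ↥A)
    (hti : ∀ h : G, A.map (MulAut.conj h).toMonoidHom = A ∨ A.map (MulAut.conj h).toMonoidHom ⊓ A = ⊥)
    (g : G) (hg : A.map (MulAut.conj g).toMonoidHom ≠ A) :
    Cfsg.IsElementaryAbelian 2 (A ⊓ Subgroup.normalizer ((A.map (MulAut.conj g).toMonoidHom : Subgroup G) : Set G)) ∨
      ⁅A, A.map (MulAut.conj g).toMonoidHom⁆ = ⊥ := by
  open Cfsg.Lib.Solv in
  by_cases hE : ∀ a ∈ A ⊓ Subgroup.normalizer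
      ((A.map (MulAut.conj g).toMonoidHom : Subgroup G) : Set G), a ^ 2 = 1
  · left
    refine ⟨PG.isMulCommutative_of_forall fun x hx y hy => PG.mul_comm_of_mem hx.1 hy.1, hE⟩
  right
  push Not at hE
  obtain ⟨a, ⟨haA, haN⟩, ha2⟩ := hE
  set B := A.map (MulAut.conj g).toMonoidHom with hB
  have hAB : A ⊓ B = ⊥ := by rw [inf_comm]; exact (hti g).resolve_left hg
  have hBa : IsMulCommutative B := Subgroup.map_isMulCommutative _ _
  have hB2 : IsPGroup 2 B := hA2.map _
  -- an element centralizing a nontrivial element of `A` normalizes `A`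
  have hTI : ∀ x ∈ A, x ≠ 1 → ∀ b : G, b * x = x * b → b ∈ Subgroup.normalizer (A : Set G) := by
    intro x hx hx1 b hb
    rw [mem_normalizer_iff_conj_smul_eq]
    refine (hti b).resolve_right fun h => hx1 ?_
    have : x ∈ A.map (MulAut.conj b).toMonoidHom ⊓ A := by
      refine ⟨?_, hx⟩
      have e : x = b * x * b⁻¹ := by rw [hb]; group
      rw [e]; exact conj_mem_conj_smul b hx
    rw [h] at this; exact this
  have hcomm : ∀ b ∈ B, b ∈ Subgroup.normalizer (A : Set G) → a * b * a⁻¹ = b := by
    intro b hb hbN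
    have h1 : a * b * a⁻¹ * b⁻¹ ∈ A ⊓ B := by
      refine ⟨?_, B.mul_mem (conj_mem_of_mem_normalizer haN hb) (B.inv_mem hb)⟩
      have := A.mul_mem haA (conj_mem_of_mem_normalizer hbN (A.inv_mem haA))
      simpa [mul_assoc] using this
    rw [hAB, Subgroup.mem_bot, mul_inv_eq_one] at h1
    exact h1
  let : CommGroup B := { (inferInstance : Group B) with mul_comm := hBa.is_comm.comm }
  let t : MulAut B := B.normalizerMonoidHom ⟨a, haN⟩
  have ht : ∀ b : B, ((t b : B) : G) = a * b * a⁻¹ := fun b => rfl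
  have hfix := Cfsg.Agent.S1780.result (A := B) hB2 t ?_ ?_
  · have hBN : B ≤ Subgroup.normalizer (A : Set G) := by
      intro b hb
      refine hTI a haA (fun h => ha2 (by rw [h, one_pow])) b ?_
      have := congrArg Subtype.val (hfix ⟨b, hb⟩)
      rw [ht] at this
      simp only at this
      exact (mul_inv_eq_iff_eq_mul.mp this).symm
    refine Cfsg.Agent.S1757.aux 2 A B hA2 hB2 (fun x hx => ?_) (card_conj_smul g A).ge hAB hBN
    have e : B.map (MulAut.conj x).toMonoidHom = A.map (MulAut.conj (x * g)).toMonoidHom :=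
      (conj_mul_smul x g A).symm
    have e2 : A.map (MulAut.conj (x * g)).toMonoidHom =
        MulAut.conj g • A.map (MulAut.conj (g⁻¹ * x * g)).toMonoidHom := by
      rw [map_conj_eq_smul, map_conj_eq_smul, ← conj_mul_smul]; congr 2; group
    rw [e, e2]
    rcases hti (g⁻¹ * x * g) with h | h
    · left; rw [h]; rfl
    · right
      rw [hB, map_conj_eq_smul g A, ← Subgroup.smul_inf, h, Subgroup.smul_bot]
  · obtain ⟨k, hk⟩ := hA2 ⟨a, haA⟩
    have hk' : a ^ 2 ^ k = 1 := by simpa using congrArg Subtype.val hk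
    have : t ^ 2 ^ k = 1 := by
      rw [← map_pow]
      have : (⟨a, haN⟩ : Subgroup.normalizer (B : Set G)) ^ 2 ^ k = 1 := Subtype.ext hk'
      rw [this, map_one]
    obtain ⟨j, -, hj⟩ := (Nat.dvd_prime_pow Nat.prime_two).mp (orderOf_dvd_of_pow_eq_one this)
    exact ⟨j, hj⟩
  · intro b hb
    apply Subtype.ext
    rw [ht]
    refine hcomm b b.2 (hTI (a ^ 2) (A.pow_mem haA 2) ha2 b ?_)
    have := congrArg Subtype.val hb
    rw [ht, ht] at this
    nth_rewrite 1 [← this]
    simp [sq, mul_assoc]

end Cfsg.Agent.S1781
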