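import Cfsg.Statements.S1783
import Cfsg.Agent.Local.TIFamily
import Cfsg.Agent.Trans.GenFitting

set_option autoImplicit false
open Cfsg

namespace Cfsg.Agent.S1783

open scoped Pointwise commutatorElement

open Cfsg.Lib.Solv in
theorem ti_conj {X : Type*} [Group X] {A : Subgroup X}
    (hti : ∀ h : X, A.map (MulAut.conj h).toMonoidHom = A ∨ A.map (MulAut.conj h).toMonoidHom ⊓ A = ⊥)
    (g h : X) : MulAut.conj g • A = MulAut.conj h • A ∨ MulAut.conj g • A ⊓ MulAut.conj h • A = ⊥ := by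
  have e : MulAut.conj g • A = MulAut.conj h • A.map (MulAut.conj (h⁻¹ * g)).toMonoidHom := by
    rw [map_conj_eq_smul, ← conj_mul_smul]; congr 2; group
  rw [e]
  rcases hti (h⁻¹ * g) with h1 | h1
  · left; rw [h1]
  · right; rw [← Subgroup.smul_inf, h1, Subgroup.smul_bot]

/-- Let X be a finite group whose generalized Fitting subgroup equals its largest normal 2-subgroup Q, and let A be an abelian 2-subgroup of X such that every conjugate of A equals A or meets A trivially. Let B be the subgroup generated by the squares of the elements of A. Then B lies in Q, and if B is not an elementary abelian 2-group then the normal closure of B in X is commutative. -/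
theorem result {X : Type*} [Group X] [Finite X]
    (hX : Cfsg.generalizedFittingSubgroup X = Cfsg.pCore 2 X) (A : Subgroup X) (hA2 : IsPGroup 2 ↥A) (hAa : IsMulCommutative ↥A)
    (hti : ∀ h : X, A.map (MulAut.conj h).toMonoidHom = A ∨ A.map (MulAut.conj h).toMonoidHom ⊓ A = ⊥) :
    Subgroup.closure ((fun a : X => a ^ 2) '' (A : Set X)) ≤ Cfsg.pCore 2 X ∧
      (¬ Cfsg.IsElementaryAbelian 2 (Subgroup.closure ((fun a : X => a ^ 2) '' (A : Set X))) →
        IsMulCommutative ↥(Subgroup.normalClosure ((fun a : X => a ^ 2) '' (A : Set X)))) := by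
  open Cfsg.Lib.Solv Cfsg.Lib.Local in
  have hC : Subgroup.centralizer (pCore 2 X : Set X) ≤ pCore 2 X :=
    Cfsg.Lib.Trans.genFitting_eq_pCore_iff.mp hX
  have hQ := pCore_isPGroup 2 X
  have h1 : Subgroup.closure ((fun a : X => a ^ 2) '' (A : Set X)) ≤ Cfsg.pCore 2 X := by
    rw [Subgroup.closure_le]
    rintro _ ⟨a, ha, rfl⟩
    by_cases ha2 : a ^ 2 = 1
    · simp only [ha2]; exact Subgroup.one_mem _
    have hP : IsPGroup 2 ↥(pCore 2 X ⊔ A) := IsPGroup.to_sup_of_normal_left hQ hA2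
    have hΔ := commutator_eq_bot_of_ti_family hP
      {R | ∃ s ∈ pCore 2 X ⊔ A, R = MulAut.conj s • A} ?_ ?_ ?_ ?_ ?_
    · refine mem_pCore_of_commutator_mem_frattini hC fun q hq => ?_
      have hc : a * (q * a⁻¹ * q⁻¹) = (q * a⁻¹ * q⁻¹) * a := by
        have hm := conj_mem_conj_smul q (A.inv_mem ha)
        by_cases he : A = MulAut.conj q • A
        · rw [← he] at hm; exact PG.mul_comm_of_mem ha hm
        · exact mul_comm_of_commutator_eq_bot (hΔ A ⟨1, Subgroup.one_mem _, (conj_one_smul A).symm⟩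
            _ ⟨q, Subgroup.mem_sup_left hq, rfl⟩ he) ha hm
      have hcQ : a * q * a⁻¹ * q⁻¹ ∈ pCore 2 X :=
        Subgroup.mul_mem _ ((inferInstance : (pCore 2 X).Normal).conj_mem q hq a)
          (Subgroup.inv_mem _ hq)
      have := pow_mem_map_frattini hQ hcQ
      convert this using 1
      calc a ^ 2 * q * (a ^ 2)⁻¹ * q⁻¹ = a * (a * (q * a⁻¹ * q⁻¹)) * (q * a⁻¹ * q⁻¹) := by
            rw [sq]; group
        _ = _ := by rw [hc, sq]; group
    · rintro _ ⟨s, hs, rfl⟩
      rw [conj_smul_le_iff]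
      exact fun h hh => Subgroup.mul_mem _ (Subgroup.mul_mem _ hs (Subgroup.mem_sup_right hh))
        (Subgroup.inv_mem _ hs)
    · rintro s hs _ ⟨t, ht, rfl⟩
      exact ⟨s * t, Subgroup.mul_mem _ hs ht, (conj_mul_smul s t A).symm⟩
    · rintro _ ⟨s, hs, rfl⟩
      refine ⟨_, conj_mem_conj_smul s ha, fun h => ha2 ?_⟩
      rw [conj_pow] at h
      simpa [mul_inv_eq_iff_eq_mul] using h
    · rintro _ ⟨s, hs, rfl⟩ _ ⟨t, ht, rfl⟩
      rw [card_conj_smul, card_conj_smul]
    · rintro _ ⟨s, hs, rfl⟩ _ ⟨t, ht, rfl⟩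
      exact ti_conj hti s t
  refine ⟨h1, fun hne => ?_⟩
  set B := Subgroup.closure ((fun a : X => a ^ 2) '' (A : Set X)) with hB
  have hBA : B ≤ A := by
    rw [hB, Subgroup.closure_le]
    rintro _ ⟨a, ha, rfl⟩
    exact A.pow_mem ha 2
  have hu : ∃ u ∈ B, u ^ 2 ≠ 1 := by
    by_contra hn
    push Not at hn
    exact hne ⟨PG.isMulCommutative_of_forall fun x hx y hy =>
      PG.mul_comm_of_mem (hBA hx) (hBA hy), hn⟩
  obtain ⟨u, hu, hu2⟩ := hu
  have hN : Subgroup.normalizer (A : Set X) ≤ Subgroup.normalizer (B : Set X) := by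
    intro g hg
    apply mem_normalizer_of_conj_mem
    rw [← conj_smul_le_iff, conj_smul_le_iff_le_conj_inv_smul, hB, Subgroup.closure_le]
    rintro _ ⟨a, ha, rfl⟩
    rw [SetLike.mem_coe, Cfsg.Lib.Solv.mem_conj_smul, inv_inv, ← conj_pow]
    exact Subgroup.subset_closure ⟨_, conj_mem_of_mem_normalizer hg ha, rfl⟩
  have hΔ := commutator_eq_bot_of_ti_family hQ {R | ∃ s : X, R = MulAut.conj s • B} ?_ ?_ ?_ ?_ ?_
  · refine Subgroup.isMulCommutative_closure ?_
    intro x hx y hy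
    obtain ⟨x', hx', hxc⟩ := Group.mem_conjugatesOfSet_iff.mp hx
    obtain ⟨y', hy', hyc⟩ := Group.mem_conjugatesOfSet_iff.mp hy
    obtain ⟨g, rfl⟩ := isConj_iff.mp hxc
    obtain ⟨h, rfl⟩ := isConj_iff.mp hyc
    have hxB : x' ∈ B := Subgroup.subset_closure hx'
    have hyB : y' ∈ B := Subgroup.subset_closure hy'
    by_cases he : MulAut.conj g • B = MulAut.conj h • B
    · have h2 := conj_mem_conj_smul h hyB
      rw [← he, mem_conj_smul_iff_exists] at h2
      obtain ⟨b, hb, hb'⟩ := h2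
      rw [← hb']
      calc g * x' * g⁻¹ * (g * b * g⁻¹) = g * (x' * b) * g⁻¹ := by group
        _ = _ := by rw [PG.mul_comm_of_mem (hBA hxB) (hBA hb)]; group
    · exact mul_comm_of_commutator_eq_bot (hΔ _ ⟨g, rfl⟩ _ ⟨h, rfl⟩ he)
        (conj_mem_conj_smul g hxB) (conj_mem_conj_smul h hyB)
  · rintro _ ⟨s, rfl⟩
    rw [conj_smul_le_iff]
    exact fun h hh => (inferInstance : (pCore 2 X).Normal).conj_mem h (h1 hh) s
  · rintro s - _ ⟨t, rfl⟩
    exact ⟨s * t, (conj_mul_smul s t B).symm⟩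
  · rintro _ ⟨s, rfl⟩
    refine ⟨_, conj_mem_conj_smul s hu, fun h => hu2 ?_⟩
    rw [conj_pow] at h
    simpa [mul_inv_eq_iff_eq_mul] using h
  · rintro _ ⟨s, rfl⟩ _ ⟨t, rfl⟩
    rw [card_conj_smul, card_conj_smul]
  · rintro _ ⟨s, rfl⟩ _ ⟨t, rfl⟩
    rcases ti_conj hti s t with h | h
    · left
      have : t⁻¹ * s ∈ Subgroup.normalizer (A : Set X) := by
        rw [mem_normalizer_iff_conj_smul_eq, conj_mul_smul, h, conj_inv_smul_conj_smul]
      have h2 := mem_normalizer_iff_conj_smul_eq.mp (hN this)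
      rw [conj_mul_smul] at h2
      nth_rewrite 2 [← h2]
      rw [conj_smul_conj_inv_smul]
    · right
      rw [eq_bot_iff, ← h]
      exact inf_le_inf (conj_smul_mono s hBA) (conj_smul_mono t hBA)

end Cfsg.Agent.S1783
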