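import Cfsg.Statements.S1784
import Cfsg.Agent.Local.SympCent

set_option autoImplicit false
open Cfsg

namespace Cfsg.Agent.S1784

open scoped Pointwise commutatorElement

/-- Let G be a finite group and let z be an involution of G such that Q, the generalized Fitting subgroup of the centralizer C of z, is a 2-group of symplectic type (every characteristic abelian subgroup of Q is cyclic); suppose Q is extraspecial, and view Q inside G. Let α be an involution of C that is not in Q, and let Q₀ be the subgroup of those q ∈ Q whose commutator with α lies in the subgroup generated by z. Then (a) the subgroup generated by the commutators α q α⁻¹ q⁻¹, q ∈ Q, equals the centre of Q₀; and (b) if Q₀ is not contained in the product of the centralizer of α in Q with the subgroup generated by z, then some element of Q conjugates α to α z. -/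
theorem result {G : Type*} [Group G] [Finite G] (z : G) (hz : orderOf z = 2) (hQ : Cfsg.IsOfSymplecticType ↥(Cfsg.generalizedFittingSubgroup ↥(Subgroup.centralizer ({z} : Set G)))) (hE : Cfsg.IsExtraspecial 2 ↥(Cfsg.generalizedFittingSubgroup ↥(Subgroup.centralizer ({z} : Set G))))
    (α : G) (hα : orderOf α = 2) (hαC : α ∈ Subgroup.centralizer ({z} : Set G)) (hαQ : α ∉ (Cfsg.generalizedFittingSubgroup ↥(Subgroup.centralizer ({z} : Set G))).map (Subgroup.centralizer ({z} : Set G)).subtype)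
    (Q₀ : Subgroup G) (hQ₀ : ∀ q : G, q ∈ Q₀ ↔ (q ∈ (Cfsg.generalizedFittingSubgroup ↥(Subgroup.centralizer ({z} : Set G))).map (Subgroup.centralizer ({z} : Set G)).subtype ∧ α * q * α⁻¹ * q⁻¹ ∈ Subgroup.zpowers z)) :
    Subgroup.closure ((fun q : G => α * q * α⁻¹ * q⁻¹) '' ((Cfsg.generalizedFittingSubgroup ↥(Subgroup.centralizer ({z} : Set G))).map (Subgroup.centralizer ({z} : Set G)).subtype : Set G)) = (Subgroup.center ↥Q₀).map Q₀.subtype ∧
      (¬ Q₀ ≤ ((Cfsg.generalizedFittingSubgroup ↥(Subgroup.centralizer ({z} : Set G))).map (Subgroup.centralizer ({z} : Set G)).subtype ⊓ Subgroup.centralizer ({α} : Set G)) ⊔ Subgroup.zpowers z →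
        ∃ q ∈ (Cfsg.generalizedFittingSubgroup ↥(Subgroup.centralizer ({z} : Set G))).map (Subgroup.centralizer ({z} : Set G)).subtype, q * α * q⁻¹ = α * z) := by
  obtain ⟨h, hZ⟩ := Cfsg.Lib.Local.largeSymp_of_isExtraspecial hz hE
  generalize (Cfsg.generalizedFittingSubgroup ↥(Subgroup.centralizer ({z} : Set G))).map
    (Subgroup.centralizer ({z} : Set G)).subtype = Q at h hZ hαQ hQ₀ ⊢
  have hN := h.norm hαC
  have e : Q₀ = h.fixMod hN := Subgroup.ext fun q => hQ₀ q
  have hα2 : α * α = 1 := by rw [← sq, ← hα, pow_orderOf_eq_one]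
  obtain ⟨h1, h2⟩ := h.centralizer_fixMod hN hα2
  refine ⟨?_, fun hn => ?_⟩
  · rw [Cfsg.Lib.Solv.map_subtype_center, e]
    have e2 : h.fixMod hN ⊓ Subgroup.centralizer (h.fixMod hN : Set G) =
        Q ⊓ Subgroup.centralizer (h.fixMod hN : Set G) :=
      le_antisymm (inf_le_inf_right _ fun _ hq => hq.1) (le_inf h2 inf_le_right)
    rw [e2, h1, hZ]
    refine (sup_eq_left.mpr (Subgroup.zpowers_le.mpr ?_)).symm
    have : ∃ q ∈ Q, α * q * α⁻¹ * q⁻¹ ∉ Subgroup.zpowers z := by
      by_contra hc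
      push Not at hc
      exact hαQ (h.mem_of_comm α hαC hc)
    obtain ⟨q, hq, hqz⟩ := this
    have hu : α * q * α⁻¹ * q⁻¹ ∈ Q :=
      Q.mul_mem (Cfsg.Lib.Solv.conj_mem_of_mem_normalizer hN hq) (Q.inv_mem hq)
    have : ∃ y ∈ Q, y * (α * q * α⁻¹ * q⁻¹) * y⁻¹ = z * (α * q * α⁻¹ * q⁻¹) := by
      by_contra hc
      push Not at hc
      exact hqz (hZ ▸ ⟨hu, fun y hy => (h.comm_or hy hu).resolve_right (hc y hy)⟩)
    obtain ⟨y, hy, hyu⟩ := this
    have e3 : z = (α * y * α⁻¹ * y⁻¹)⁻¹ * (α * (y * q) * α⁻¹ * (y * q)⁻¹) *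
        (α * q * α⁻¹ * q⁻¹)⁻¹ := by
      calc z = y * (α * q * α⁻¹ * q⁻¹) * y⁻¹ * (α * q * α⁻¹ * q⁻¹)⁻¹ := by rw [hyu]; group
        _ = _ := by group
    rw [e3]
    exact Subgroup.mul_mem _ (Subgroup.mul_mem _
      (Subgroup.inv_mem _ (Subgroup.subset_closure ⟨y, hy, rfl⟩))
      (Subgroup.subset_closure ⟨_, Q.mul_mem hy hq, rfl⟩))
      (Subgroup.inv_mem _ (Subgroup.subset_closure ⟨q, hq, rfl⟩))
  · obtain ⟨q, hq, hqn⟩ := SetLike.not_le_iff_exists.mp hn
    obtain ⟨hq1, hq2⟩ := (hQ₀ q).mp hq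
    rcases h.mem_iff.mp hq2 with e1 | e1
    · refine (hqn (Subgroup.mem_sup_left (Subgroup.mem_inf.mpr
        ⟨hq1, Subgroup.mem_centralizer_singleton_iff.mpr ?_⟩))).elim
      rw [mul_inv_eq_one, mul_inv_eq_iff_eq_mul] at e1; exact e1.symm
    · refine ⟨q, hq1, ?_⟩
      rw [← e1, inv_eq_of_mul_eq_one_right hα2, ← mul_assoc, ← mul_assoc, ← mul_assoc, hα2, one_mul]

end Cfsg.Agent.S1784
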