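import Cfsg.Statements.S1785
import Cfsg.Agent.FT.BG4.Elem
import Cfsg.Agent.Trans.Thompson
import Cfsg.Agent.Solv.PGroupNormal
import Cfsg.Agent.Solv.Conj

set_option autoImplicit false
open Cfsg

namespace Cfsg.Agent.S1785

open scoped Pointwise commutatorElement

open Subgroup Cfsg.Lib.Solv Cfsg.Lib.Trans.TJ

variable {G : Type*} [Group G] [Finite G]

theorem card_le_sq {E D : Subgroup G} [E.Normal] (hE : IsElementaryAbelian 2 E) {a : G}
    (ha : a ^ 2 = 1) (haD : a ∈ centralizer (D : Set G)) :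
    Nat.card ↥(E ⊓ centralizer (D : Set G)) ≤
      Nat.card ↥(E ⊓ centralizer ((D ⊔ zpowers a : Subgroup G) : Set G)) ^ 2 := by
  have e : E ⊓ centralizer ((D ⊔ zpowers a : Subgroup G) : Set G) =
      (E ⊓ centralizer (D : Set G)) ⊓ centralizer ({a} : Set G) := by
    ext x
    simp only [mem_inf, and_assoc]
    refine and_congr_right fun _ => ?_
    rw [← zpowers_le (H := centralizer _), le_centralizer_iff, sup_le_iff, zpowers_le,
      ← le_centralizer_iff, zpowers_le, mem_centralizer_singleton_iff]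
    refine and_congr_right fun _ => ?_
    rw [← zpowers_le, le_centralizer_iff, zpowers_le]
    constructor
    · intro h; exact (h a (mem_zpowers a)).symm
    · intro h y hy
      obtain ⟨k, rfl⟩ := mem_zpowers_iff.mp hy
      exact (Commute.zpow_right h k).symm
  rw [e, sq]
  refine Cfsg.Lib.FT.BG4.card_le_card_mul_card_inf_centralizer fun x hx => ?_
  have hN : a ∈ normalizer ((E ⊓ centralizer (D : Set G) : Subgroup G) : Set G) := by
    refine (le_normalizer_inf (A := zpowers a) (by rw [normalizer_eq_top]; exact le_top)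
      (le_normalizer_centralizer (zpowers_le.mpr (centralizer_le_normalizer _ haD))))
      (mem_zpowers a)
  have hx' := conj_mem_of_mem_normalizer hN (inv_mem hx)
  have ha' : a * a = 1 := by rw [← sq, ha]
  refine mem_inf.mpr ⟨?_, ?_⟩
  · have := mul_mem hx hx'
    simpa [commutatorElement_def, mul_assoc] using this
  · rw [mem_centralizer_singleton_iff, commutatorElement_def]
    have h1 := ea_comm hE hx.1 hx'.1
    have h2 : x⁻¹ = x := by
      rw [inv_eq_iff_mul_eq_one, ← sq]; exact ea_pow hE hx.1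
    have h3 : a⁻¹ = a := inv_eq_of_mul_eq_one_right ha'
    rw [h2, h3] at h1 ⊢
    calc x * a * x * a * a = x * a * x * (a * a) := by group
      _ = a * (a * x * a * x) := by rw [ha', ← mul_assoc, ← mul_assoc, ← mul_assoc, ha']; group
      _ = _ := by rw [← h1]; group

theorem card_le_pow {E A : Subgroup G} [E.Normal] (hE : IsElementaryAbelian 2 E)
    (hA : IsElementaryAbelian 2 A) : ∀ (k : ℕ) (D : Subgroup G), D ≤ A →
      Nat.card A = 2 ^ k * Nat.card D →
      Nat.card ↥(E ⊓ centralizer (D : Set G)) ≤ Nat.card ↥(E ⊓ centralizer (A : Set G)) ^ 2 ^ k := by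
  intro k
  induction k with
  | zero =>
    intro D hD h
    rw [PG.eq_of_le_of_card_eq hD (by simpa using h.symm)]; simp
  | succ k ih =>
    intro D hD h
    have hne : ¬ A ≤ D := fun h' => by
      have h1 := card_le_of_le h'
      have h2 : 0 < Nat.card D := Nat.card_pos
      have h3 : 1 ≤ 2 ^ k := Nat.one_le_two_pow
      rw [h, pow_succ] at h1
      nlinarith
    obtain ⟨a, ha, haD⟩ := SetLike.not_le_iff_exists.mp hne
    have hc : a ∈ centralizer (D : Set G) := ea_le_centralizer_of_le hA le_rfl hD ha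
    have h1 := PG.card_sup_zpowers Nat.prime_two (centralizer_le_normalizer _ hc) haD
      (by rw [ea_pow hA ha]; exact one_mem _)
    refine (card_le_sq hE (ea_pow hA ha) hc).trans ?_
    rw [pow_succ 2 k, pow_mul]
    exact Nat.pow_le_pow_left (ih _ (sup_le hD (zpowers_le.mpr ha)) (by rw [h1, h]; ring)) 2

theorem exists_mem {E A : Subgroup G} [E.Normal] (hE : IsElementaryAbelian 2 E)
    (hE32 : 32 ≤ Nat.card E) (hA : IsElementaryAbelian 2 A) (hA8 : Nat.card A ≤ 8)
    (h : ¬ A ≤ E ∨ Nat.card A < 8) : ∃ f ∈ E, f ∈ centralizer (A : Set G) ∧ f ∉ A := by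
  by_contra hn
  push Not at hn
  have hle : E ⊓ centralizer (A : Set G) ≤ A ⊓ E := fun f hf => ⟨hn f hf.1 hf.2, hf.1⟩
  have h1 := card_le_of_le hle
  obtain ⟨k, hk⟩ := IsPGroup.index (ea_isPGroup hA) ((A ⊓ E).subgroupOf A)
  have h2 := card_mul_relIndex_of_le (inf_le_left : A ⊓ E ≤ A)
  have hk' : (A ⊓ E).relIndex A = 2 ^ k := hk
  have h3 := card_le_pow hE hA k _ inf_le_left (by rw [← h2, hk', mul_comm])
  have e : E ⊓ centralizer ((A ⊓ E : Subgroup G) : Set G) = E :=
    inf_eq_left.mpr (ea_le_centralizer_of_le hE le_rfl inf_le_right)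
  rw [e] at h3
  have h4 := hE32.trans (h3.trans (Nat.pow_le_pow_left h1 _))
  rw [hk'] at h2
  have hk3 : k ≤ 3 := by
    by_contra hk3
    have : 2 ^ 4 ≤ 2 ^ k := Nat.pow_le_pow_right (by norm_num) (by omega)
    have h5 : 0 < Nat.card ↥(A ⊓ E) := Nat.card_pos
    nlinarith
  generalize Nat.card ↥(A ⊓ E) = c at h2 h4
  interval_cases k
  · simp at h2 h4; omega
  · have : c ≤ 4 := by omega
    interval_cases c <;> simp at h4
  · have : c ≤ 2 := by omega
    interval_cases c <;> simp at h4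
  · have : c ≤ 1 := by omega
    interval_cases c <;> simp at h4

theorem exists_eight {D N : Subgroup G} (hN : IsElementaryAbelian 2 N) (hD : D ≤ N)
    (h8 : Nat.card D ≤ 8) (hN8 : 8 ≤ Nat.card N) :
    ∃ K : Subgroup G, D ≤ K ∧ K ≤ N ∧ Nat.card K = 8 := by
  obtain ⟨j, hj⟩ := IsPGroup.iff_card.mp ((ea_isPGroup hN).to_le hD)
  have hj3 : j ≤ 3 := by
    rw [hj] at h8
    exact (Nat.pow_le_pow_iff_right (by norm_num : 1 < 2)).mp (h8.trans_eq (by norm_num))
  have e : 2 ^ (3 - j) * Nat.card D = 8 := by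
    rw [hj, ← pow_add, Nat.sub_add_cancel hj3]; norm_num
  obtain ⟨K, h1, h2, -, h3⟩ := PG.exists_invariant_card_eq (P := ⊥) (p := 2) IsPGroup.of_bot
    (ea_isPGroup hN) bot_le bot_le hD (3 - j) (by rw [e]; exact hN8)
  exact ⟨K, h1, h2, h3.trans e⟩

/-- Let X be a finite 2-group having a normal elementary abelian subgroup of order at least 32. Then (a) for any two elementary abelian subgroups A, B of X of order 8 there is a chain A = A₁, A₂, …, Aₙ = B of elementary abelian subgroups of order 8 in which consecutive members commute elementwise; and (b) every elementary abelian subgroup of X of order 4 is contained in an elementary abelian subgroup of order 8. -/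
theorem result {X : Type*} [Group X] [Finite X]
    (hX : IsPGroup 2 X) (E : Subgroup X) [E.Normal] (hE : Cfsg.IsElementaryAbelian 2 E) (hE32 : 32 ≤ Nat.card ↥E) :
    (∀ A B : Subgroup X, Cfsg.IsElementaryAbelian 2 A → Nat.card ↥A = 8 → Cfsg.IsElementaryAbelian 2 B → Nat.card ↥B = 8 →
        Relation.ReflTransGen
          (fun C D : Subgroup X => Cfsg.IsElementaryAbelian 2 C ∧ Nat.card ↥C = 8 ∧ Cfsg.IsElementaryAbelian 2 D ∧ Nat.card ↥D = 8 ∧ ⁅C, D⁆ = ⊥)
          A B) ∧
      (∀ V : Subgroup X, Cfsg.IsElementaryAbelian 2 V → Nat.card ↥V = 4 →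
        ∃ A : Subgroup X, V ≤ A ∧ Cfsg.IsElementaryAbelian 2 A ∧ Nat.card ↥A = 8) := by
  set r := (fun C D : Subgroup X => Cfsg.IsElementaryAbelian 2 C ∧ Nat.card ↥C = 8 ∧
    Cfsg.IsElementaryAbelian 2 D ∧ Nat.card ↥D = 8 ∧ ⁅C, D⁆ = ⊥) with hr
  have hsym : Std.Symm r := ⟨fun C D h =>
    ⟨h.2.2.1, h.2.2.2.1, h.1, h.2.1, by rw [commutator_comm]; exact h.2.2.2.2⟩⟩
  have key : ∀ n : ℕ, ∀ A : Subgroup X, IsElementaryAbelian 2 A → Nat.card A = 8 →
      8 - Nat.card ↥(A ⊓ E) = n → ∃ B : Subgroup X, B ≤ E ∧ Nat.card B = 8 ∧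
        Relation.ReflTransGen r A B := by
    intro n
    induction n using Nat.strong_induction_on with
    | _ n ih =>
    intro A hA hA8 hn
    by_cases hAE : A ≤ E
    · exact ⟨A, hAE, hA8, Relation.ReflTransGen.refl⟩
    obtain ⟨f, hfE, hfC, hfA⟩ := exists_mem hE hE32 hA hA8.le (Or.inl hAE)
    have hf2 := ea_pow hE hfE
    have hN : IsElementaryAbelian 2 (A ⊔ zpowers f) :=
      Cfsg.Lib.FT.BG4.isElementaryAbelian_sup_zpowers hA hfC hf2
    have h1 := PG.card_sup_zpowers Nat.prime_two (K := A ⊓ E) (centralizer_le_normalizer _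
      (centralizer_le inf_le_left hfC)) (fun h => hfA h.1) (by rw [hf2]; exact one_mem _)
    have h2 := PG.prime_mul_card_le_of_lt (p := 2) (ea_isPGroup hA)
      (lt_of_le_of_ne inf_le_left (fun h => hAE (inf_eq_left.mp h)) : A ⊓ E < A)
    obtain ⟨K, hK1, hK2, hK8⟩ := exists_eight (D := (A ⊓ E) ⊔ zpowers f) hN
      (sup_le_sup_right inf_le_left _) (by omega) (hA8 ▸ card_le_of_le le_sup_left)
    have h3 : Nat.card ↥((A ⊓ E) ⊔ zpowers f) ≤ Nat.card ↥(K ⊓ E) :=
      card_le_of_le (le_inf hK1 (sup_le inf_le_right (zpowers_le.mpr hfE)))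
    have h4 : 0 < Nat.card ↥(A ⊓ E) := Nat.card_pos
    obtain ⟨B, hB1, hB2, hB3⟩ := ih _ (by omega) K (ea_mono hN hK2) hK8 rfl
    refine ⟨B, hB1, hB2, Relation.ReflTransGen.head ⟨hA, hA8, ea_mono hN hK2, hK8, ?_⟩ hB3⟩
    exact commutator_eq_bot_iff_le_centralizer.mpr (ea_le_centralizer_of_le hN le_sup_left hK2)
  refine ⟨fun A B hA hA8 hB hB8 => ?_, fun V hV hV4 => ?_⟩
  · obtain ⟨A', hA1, hA2, hA3⟩ := key _ A hA hA8 rfl
    obtain ⟨B', hB1, hB2, hB3⟩ := key _ B hB hB8 rfl
    refine (hA3.tail ⟨ea_mono hE hA1, hA2, ea_mono hE hB1, hB2, ?_⟩).trans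
      (Relation.ReflTransGen.stdSymm.symm _ _ hB3)
    exact commutator_eq_bot_iff_le_centralizer.mpr (ea_le_centralizer_of_le hE hA1 hB1)
  · obtain ⟨f, hfE, hfC, hfA⟩ := exists_mem hE hE32 hV (by omega) (Or.inr (by omega))
    have hf2 := ea_pow hE hfE
    refine ⟨V ⊔ zpowers f, le_sup_left,
      Cfsg.Lib.FT.BG4.isElementaryAbelian_sup_zpowers hV hfC hf2, ?_⟩
    rw [PG.card_sup_zpowers Nat.prime_two (centralizer_le_normalizer _ hfC) hfA
      (by rw [hf2]; exact one_mem _), hV4]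

end Cfsg.Agent.S1785
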