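import Cfsg.Statements.S1786
import Cfsg.Agent.TISp.Setup
import Cfsg.Agent.Solv.Frattini
import Cfsg.Agent.S0013

set_option autoImplicit false
open Cfsg

namespace Cfsg.Agent.S1786

open Subgroup Cfsg.Lib.TISp Cfsg.Lib.Solv
open scoped commutatorElement Pointwise

/-- Let G be a finite group, V an elementary abelian 2-subgroup of G and M the normalizer of V; write Q for the largest normal 2-subgroup of M. Suppose (1) the generalized Fitting subgroup of M equals Q; (2) V is a maximal abelian normal subgroup of M; (3) every conjugate of V equals V or meets V trivially, and for some g ∈ G the conjugate V' = g V g⁻¹ is different from V and contained in Q. Let P be the centralizer of V in Q, W the subgroup generated by V and V', and H the subgroup generated by P and g P g⁻¹. Then: (a) V is contained in g Q g⁻¹; (b) every non-identity element of W lies in exactly one conjugate of V contained in W, H normalizes W, and H modulo the centralizer of W in H is isomorphic to the special linear group of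 dimension 2 over the field with |V| elements; (c) P = Q, and V equals the Frattini subgroup, the centre and the commutator subgroup of Q. -/
theorem result {G : Type*} [Group G] [Finite G] (V : Subgroup G)
    (hV : Cfsg.IsElementaryAbelian 2 V)
    (h1 : (Cfsg.generalizedFittingSubgroup ↥(Subgroup.normalizer (V : Set G))).map (Subgroup.normalizer (V : Set G)).subtype =
      (Cfsg.pCore 2 ↥(Subgroup.normalizer (V : Set G))).map (Subgroup.normalizer (V : Set G)).subtype)
    (h2 : ∀ A : Subgroup G, V ≤ A → A ≤ Subgroup.normalizer (V : Set G) → IsMulCommutative ↥A →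
      (∀ m ∈ Subgroup.normalizer (V : Set G), ∀ a ∈ A, m * a * m⁻¹ ∈ A) → A = V)
    (hti : ∀ x : G, V.map (MulAut.conj x).toMonoidHom = V ∨ V.map (MulAut.conj x).toMonoidHom ⊓ V = ⊥)
    (g : G) (hg : V.map (MulAut.conj g).toMonoidHom ≠ V)
    (hgQ : V.map (MulAut.conj g).toMonoidHom ≤ (Cfsg.pCore 2 ↥(Subgroup.normalizer (V : Set G))).map (Subgroup.normalizer (V : Set G)).subtype) :
    let Q : Subgroup G := (Cfsg.pCore 2 ↥(Subgroup.normalizer (V : Set G))).map (Subgroup.normalizer (V : Set G)).subtype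
    let P : Subgroup G := Q ⊓ Subgroup.centralizer (V : Set G)
    let W : Subgroup G := V ⊔ V.map (MulAut.conj g).toMonoidHom
    let H : Subgroup G := P ⊔ P.map (MulAut.conj g).toMonoidHom
    V ≤ Q.map (MulAut.conj g).toMonoidHom ∧
      (∀ w ∈ W, w ≠ 1 → ∃! U : Subgroup G, (∃ x : G, U = V.map (MulAut.conj x).toMonoidHom) ∧ U ≤ W ∧ w ∈ U) ∧
      H ≤ Subgroup.normalizer (W : Set G) ∧
      (∀ hN : ((Subgroup.centralizer (W : Set G)).subgroupOf H).Normal, ∃ (F : Type) (_ : Field F) (_ : Fintype F), Fintype.card F = Nat.card ↥V ∧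
        Nonempty (↥H ⧸ (Subgroup.centralizer (W : Set G)).subgroupOf H ≃* Matrix.SpecialLinearGroup (Fin 2) F)) ∧
      P = Q ∧ (frattini ↥Q).map Q.subtype = V ∧ (Subgroup.center ↥Q).map Q.subtype = V ∧ (commutator ↥Q).map Q.subtype = V := by
  intro Q P W H
  have h := hyp_of hV h1 h2 hti
  have k := h.arr (g := g) hg hgQ
  have s := h.sys
  have eP : Pf V = Q := h.Pf_eq k
  have eA : P.map (MulAut.conj g).toMonoidHom = Pf (MulAut.conj g • V) := (Pf_conj g V).symm
  have eH : H = Pf V ⊔ Pf (MulAut.conj g • V) := congrArg (P ⊔ ·) eA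
  have hQ : IsPGroup 2 Q := isPGroup_Qf (V := V)
  have hVQ : V ≤ Q := eP ▸ h.le_Pf
  have hn : (V.subgroupOf Q).Normal := (normal_subgroupOf_iff_le_normalizer hVQ).2 Qf_le
  have hc : commutator Q ≤ V.subgroupOf Q := commutator_le.2 fun x _ y _ =>
    h.cm_mem (eP.ge x.2) (eP.ge y.2)
  have hc' : V ≤ (commutator Q).map Q.subtype := fun v hv => by
    obtain ⟨a, ha, ha1⟩ := k.exists_ne_one
    obtain ⟨x, hx, rfl⟩ := k.exists_x ha ha1 hv
    exact ⟨⁅⟨x, eP.le hx⟩, ⟨a, eP.le (k.le ha)⟩⁆,
      commutator_mem_commutator (mem_top _) (mem_top _), rfl⟩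
  refine ⟨k.symm.le.trans (inf_le_left.trans (Qf_conj g V).le), fun w hw h0 => ?_,
    eH ▸ k.sup_P_le, ?_, eP, le_antisymm ?_ ?_, le_antisymm ?_ fun v hv => ?_, le_antisymm ?_ hc'⟩
  · obtain ⟨U, hU, h3, h4⟩ := k.cover hw
    exact ⟨U, ⟨hU, h3, h4⟩, fun U' hU' => s.ti hU'.1 hU hU'.2.2 h4 h0⟩
  · rw [eH]
    exact k.exists_SL2
  · exact map_le_iff_le_comap.2 (S0013.result 2 hQ (V.subgroupOf Q) hc fun x => by
      rw [pow_two]; exact h.sqP (eP.ge x.2))
  · have := hQ.isNilpotent
    exact hc'.trans (map_mono commutator_le_frattini_of_isNilpotent)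
  · rintro _ ⟨x, hx, rfl⟩
    exact h.cP (Qf_le x.2) fun y hy => cm_iff.2 (congrArg Subtype.val
      (mem_center_iff.1 hx ⟨y, eP.le hy⟩)).symm
  · exact ⟨⟨v, hVQ hv⟩, mem_center_iff.2 fun y => Subtype.ext (Pf_cent (eP.ge y.2) hv), rfl⟩
  · exact map_le_iff_le_comap.2 hc

end Cfsg.Agent.S1786
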