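import Cfsg.Statements.S1824
import Cfsg.Agent.Trans.QrcC
import Cfsg.Agent.S1851

set_option autoImplicit false
open Cfsg

namespace Cfsg.Agent.S1824

/-- The qrc-lemma in the form used for simple QTKE-groups. Let G be a non-abelian finite simple QTKE-group, T a Sylow 2-subgroup of G and M a maximal 2-local subgroup of G containing T. Let T ≤ M₀ ≤ M, let H be a minimal member of the set of subgroups of G with nontrivial 2-core that contain T and are not contained in M, and let V be a 2-reduced elementary abelian normal 2-subgroup of M₀ with O₂(M₀) = C_T(V). Suppose H ∩ M normalizes O²(M₀) or normalizes V. Then one of the following holds: (1) some nontrivial subgroup of O₂(M₀) is normalized by both M₀ and H; (2) V ≰ O₂(H) and q̂(M₀/C_{M₀}(V), V) ≤ 2; (3) q(M₀/C_{M₀}(V), V) ≤ 2. Here q (resp. q̂) ≤ 2 means that some subgroup of M₀ inducing a nontrivial elementary abelian 2-group A on V acts quadratically (resp. cubically)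 on V with |V : C_V(A)| ≤ |A|². -/
theorem result {G : Type*} [Group G] [Finite G] [IsSimpleGroup G]
    (hG : ¬ IsMulCommutative G) (hQ : Cfsg.IsQTKE G) (T : Sylow 2 G) (M M₀ H V : Subgroup G)
    (hM : M ∈ Cfsg.maxTwoLocalsContaining (T : Subgroup G))
    (hTM₀ : (T : Subgroup G) ≤ M₀) (hM₀M : M₀ ≤ M) (hH : H ∈ Cfsg.calHMin (T : Subgroup G) M)
    (hV : V ∈ Cfsg.calR2 M₀)
    (hR : (Cfsg.pCore 2 ↥M₀).map M₀.subtype = (T : Subgroup G) ⊓ Subgroup.centralizer (V : Set G))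
    (hI : H ⊓ M ≤ Subgroup.normalizer (Cfsg.oddGenerated M₀ : Set G) ∨
      H ⊓ M ≤ Subgroup.normalizer (V : Set G)) :
    (∃ R₀ : Subgroup G, R₀ ≠ ⊥ ∧ R₀ ≤ (Cfsg.pCore 2 ↥M₀).map M₀.subtype ∧
        M₀ ⊔ H ≤ Subgroup.normalizer (R₀ : Set G)) ∨
      (¬ V ≤ (Cfsg.pCore 2 ↥H).map H.subtype ∧ Cfsg.CubicParamLE M₀ V 2) ∨
      Cfsg.QuadParamLE M₀ V 2 := by
  have hTM := hTM₀.trans hM₀M
  have hU : Lib.Local.MSS.UniqMax (T : Subgroup G) (H ⊓ M) H :=
    ⟨le_inf hH.1.1.2 hTM, lt_of_le_of_ne inf_le_left fun e => hH.1.2 (e.ge.trans inf_le_right),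
      fun X h1 h2 => le_inf h2.le (by
        by_contra h3
        refine h2.ne (hH.2 X ⟨⟨fun e => hH.1.1.1 (Lib.Local.pCoreOf_eq_bot_iff.1 (le_bot_iff.1 ?_)),
          h1⟩, h3⟩ h2.le)
        exact (Lib.Local.pCoreOf_le_of_le ((Lib.Local.pCoreOf_le_sylowIn
          (Lib.Trans.isSylowIn_of_le T hH.1.1.2)).trans h1) h2.le).trans
          (Lib.Local.pCoreOf_eq_bot_iff.2 e).le)⟩
  rw [S1851.oddGenerated_eq] at hI
  refine (Lib.Trans.BB.qrc (Lib.Trans.isSylowIn_top T)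
    (fun X h1 h2 => S1851.charP_over hQ.2.2 T h1 fun e => h2 (Lib.Local.pCoreOf_eq_bot_iff.2 e))
    hTM₀ (fun e => hH.1.1.1 (Lib.Local.pCoreOf_eq_bot_iff.1 e)) hU hV.2.2.1 hV.1 hV.2.1 hR
    hI).imp_right (Or.imp (And.imp_right ?_) ?_) <;> rintro ⟨B, h1, -, h3, h4, h5, h6, h7, h8⟩
  · exact ⟨B, h1.trans hTM₀, ⟨h3, h4, fun b hb c hc => h5 (Subgroup.commutator_mem_commutator hb hc)⟩,
      Lib.Trans.BB.cent_iff.1 h6, by rwa [Subgroup.inf_relIndex_left]⟩
  · exact ⟨B, h1.trans hTM₀, ⟨h3, h4, fun b hb c hc => h5 (Subgroup.commutator_mem_commutator hb hc)⟩,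
      Lib.Trans.BB.cent_iff.1 (h7 trivial), by rwa [Subgroup.inf_relIndex_left]⟩

end Cfsg.Agent.S1824
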