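import Cfsg.Statements.S1850
import Cfsg.Agent.Local.CharPLocal
import Cfsg.Agent.S1246

set_option autoImplicit false
open Cfsg

namespace Cfsg.Agent.S1850

open Cfsg.Lib Cfsg.Lib.Local

/-- Let G be a non-abelian finite simple QTKE-group and T a Sylow 2-subgroup of G. If U is a nontrivial 2-subgroup of G with U ∩ Z(T) ≠ 1, then F*(N_G(U)) = O₂(N_G(U)). -/
theorem result {G : Type*} [Group G] [Finite G] [IsSimpleGroup G]
    (hG : ¬ IsMulCommutative G) (hQ : Cfsg.IsQTKE G) (T : Sylow 2 G) (U : Subgroup G)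
    (hU : IsPGroup 2 ↥U) (hZ : U ⊓ ((T : Subgroup G) ⊓ Subgroup.centralizer ((T : Subgroup G) : Set G)) ≠ ⊥) :
    Subgroup.normalizer (U : Set G) ∈ Cfsg.calHe G := by
  obtain ⟨⟨y, hyU, hyT, hyc⟩, hy1⟩ := Subgroup.ne_bot_iff_exists_ne_one.1 hZ
  have hy1' : y ≠ 1 := fun h => hy1 (Subtype.ext h)
  obtain ⟨k, hk⟩ := hU ⟨y, hyU⟩
  have hk' : y ^ 2 ^ k = 1 := by simpa using congrArg Subtype.val hk
  have hy2 : IsPGroup 2 (Subgroup.zpowers y) := by
    rw [IsPGroup.iff_card, Nat.card_zpowers]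
    obtain ⟨j, -, hj⟩ := (Nat.dvd_prime_pow Nat.prime_two).1 (orderOf_dvd_of_pow_eq_one hk')
    exact ⟨j, hj⟩
  have hN : CharP 2 (Subgroup.normalizer (Subgroup.zpowers y : Set G)) := by
    refine charP_iff.2 (hQ.2.2 _ ⟨_, hy2, by simpa using hy1', rfl⟩ ⟨T, ?_⟩)
    refine le_trans ?_ (Subgroup.centralizer_le_normalizer _)
    rw [centralizer_zpowers_eq]
    intro t ht
    exact Subgroup.mem_centralizer_singleton_iff.2 (Subgroup.mem_centralizer_iff.1 hyc t ht)
  have hC := hN.centralizer_of_normalizer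
  have h1 := S1246.result U (Subgroup.zpowers y) ((Subgroup.zpowers_le).2 hyU) hU
    (Trans.genFitting_eq_pCore_iff_isPGroup.1 (charP_iff_genFitting.1 hC))
  exact charP_iff_genFitting.1 (CharP.normalizer_of_centralizer hU
    (charP_iff_genFitting.2 (Trans.genFitting_eq_pCore_iff_isPGroup.2 h1)))

end Cfsg.Agent.S1850
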