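import Cfsg.Statements.S1961
import Cfsg.Agent.Trans.Control

set_option autoImplicit false
open Cfsg

namespace Cfsg.Agent.S1961

open Cfsg.Lib.Trans

/-- Local-to-global control of strong fusion through well-placed subgroups. Let p be a prime, G a finite group with Sylow p-subgroup S, and W a conjugacy functor for p on G. If W controls strong fusion in N_G(T) for every nonidentity subgroup T of S that is well placed in S with respect to W, then W controls strong fusion in G. -/
theorem result {G : Type*} [Group G] [Finite G] {p : ℕ} [Fact p.Prime] (S : Sylow p G) (W : Subgroup G → Subgroup G) (hW : Cfsg.IsConjugacyFunctor p W) (hloc : ∀ T : Subgroup G, T ≠ ⊥ → Cfsg.IsWellPlaced p W (S : Subgroup G) T → Cfsg.ControlsStrongFusionIn p W (Subgroup.normalizer ((T : Subgroup G) : Set G))) : Cfsg.ControlsStrongFusionIn p W ⊤ := by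
  have hS := isSylowIn_top S
  rw [sf_iff hW hS]
  have key : ∀ T, WellPlacedIn p W (S : Subgroup G) ⊤ T → T ≠ ⊥ →
      ∀ B ≤ (S : Subgroup G) ⊓ Subgroup.normalizer (T : Set G),
      ∀ y ∈ Subgroup.normalizer (T : Set G), cj y B ≤ S →
        Fus (⊤ ⊓ Subgroup.normalizer ((W S : Subgroup G) : Set G) : Subgroup G) S B y := by
    refine wellPlacedIn_induction hW S.isPGroup' _ fun T hT IH hb B hB y hy hyB => ?_
    have h1 := (sf_iff hW (fullyNorm_top_iff'.mp hT.fullyNorm)).mp
      (hloc T hb ((wellPlacedIn_top_iff S.isPGroup').mp hT))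
    refine (h1 B hB y hy (le_inf hyB (cj_le_of_mem_of_le hy (hB.trans inf_le_right)))).bind ?_ hB
    intro B' x hB' hx hxB'
    rcases (inf_le_left : (S : Subgroup G) ⊓ Subgroup.normalizer (T : Set G) ≤ S).eq_or_lt
      with heq | hlt
    · rw [heq] at hx
      exact Fus.step ⟨trivial, hx.2⟩ (hxB'.trans inf_le_left)
    · exact IH hlt (cf_ne_bot hW hT.fullyNorm.isPGroup
        (ne_bot_of_le_ne_bot hb (le_inf hT.le Subgroup.le_normalizer))) B'
        (hB'.trans (cf_lt_inf_normalizer hW S.isPGroup' hlt).le) x hx.2 (hxB'.trans inf_le_left)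
  intro A hA g _ hgA
  refine alperin_wellPlaced hW hS
    (Fus (⊤ ⊓ Subgroup.normalizer ((W S : Subgroup G) : Set G) : Subgroup G) S)
    (fun A B g hAB h => h.anti hAB) (fun A g h h1 h2 => h1.mul h2) ?_ A hA g trivial hgA
  intro U hU _ n hn
  by_cases hb : U = ⊥
  · subst hb
    exact Fus.cent (mem_centralizer_bot n)
  exact key U hU hb U (le_inf hU.le Subgroup.le_normalizer) n hn.2
    (by rw [cj_eq_of_mem_normalizer hn.2]; exact hU.le)

end Cfsg.Agent.S1961
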