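import Cfsg.Statements.S1962
import Cfsg.Agent.Trans.Control

set_option autoImplicit false
open Cfsg

namespace Cfsg.Agent.S1962

open Cfsg.Lib.Trans

/-- Local-to-global control of transfer through well-placed subgroups. Let p be a prime, G a finite group with Sylow p-subgroup S, and W a conjugacy functor for p on G. If W controls transfer in N_G(T) for every nonidentity subgroup T of S that is well placed in S with respect to W, then W controls transfer in G: S ∩ G' = S ∩ (N_G(W(S)))'. -/
theorem result {G : Type*} [Group G] [Finite G] {p : ℕ} [Fact p.Prime] (S : Sylow p G) (W : Subgroup G → Subgroup G) (hW : Cfsg.IsConjugacyFunctor p W) (hloc : ∀ T : Subgroup G, T ≠ ⊥ → Cfsg.IsWellPlaced p W (S : Subgroup G) T → Cfsg.ControlsTransferIn p W (Subgroup.normalizer ((T : Subgroup G) : Set G))) : Cfsg.ControlsTransferIn p W ⊤ := by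
  have hS := isSylowIn_top S
  rw [t_iff hW hS, top_inf_eq]
  have key : ∀ T, WellPlacedIn p W (S : Subgroup G) ⊤ T → T ≠ ⊥ →
      ((S : Subgroup G) ⊓ Subgroup.normalizer (T : Set G)) ⊓
        ⁅Subgroup.normalizer (T : Set G), Subgroup.normalizer (T : Set G)⁆ ≤
      ⁅Subgroup.normalizer ((W S : Subgroup G) : Set G),
        Subgroup.normalizer ((W S : Subgroup G) : Set G)⁆ := by
    refine wellPlacedIn_induction hW S.isPGroup' _ fun T hT IH hb => ?_
    have h1 := (t_iff hW (fullyNorm_top_iff'.mp hT.fullyNorm)).mp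
      (hloc T hb ((wellPlacedIn_top_iff S.isPGroup').mp hT))
    replace h1 := h1.trans (Subgroup.commutator_mono inf_le_right inf_le_right)
    rcases (inf_le_left : (S : Subgroup G) ⊓ Subgroup.normalizer (T : Set G) ≤ S).eq_or_lt
      with heq | hlt
    · rw [heq] at h1 ⊢
      exact h1
    · exact le_trans (le_inf (inf_le_left.trans (cf_lt_inf_normalizer hW S.isPGroup' hlt).le) h1)
        (IH hlt (cf_ne_bot hW hT.fullyNorm.isPGroup
          (ne_bot_of_le_ne_bot hb (le_inf hT.le Subgroup.le_normalizer))))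
  refine hS.inf_commutator_le fun b hb g hg hgb => ?_
  refine alperin_wellPlaced hW hS (fun A g => ∀ a ∈ A, a⁻¹ * (g * a * g⁻¹) ∈
      ⁅Subgroup.normalizer ((W S : Subgroup G) : Set G),
        Subgroup.normalizer ((W S : Subgroup G) : Set G)⁆)
    (fun A B g hAB h a ha => h a (hAB ha)) (fun A g h h1 h2 a ha => ?_) ?_ (Subgroup.zpowers b)
    (Subgroup.zpowers_le.mpr hb) g hg
    (by rw [cj_zpowers]; exact Subgroup.zpowers_le.mpr hgb) b (Subgroup.mem_zpowers b)
  · have := Subgroup.mul_mem _ (h1 a ha) (h2 _ (conj_mem_cj.mpr ha))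
    convert this using 1
    group
  intro U hU _ n hn a ha
  by_cases hb : U = ⊥
  · subst hb
    rw [Subgroup.mem_bot.mp ha]
    simp
  have h2 : a⁻¹ * (n * a * n⁻¹) ∈ U := U.mul_mem (U.inv_mem ha) (mem_normalizer_conj hn.2 ha)
  exact key U hU hb ⟨⟨hU.le h2, Subgroup.le_normalizer h2⟩,
    inv_mul_conj_mem_commutator (Subgroup.le_normalizer ha) hn.2⟩

end Cfsg.Agent.S1962
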