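import Cfsg.Statements.S1966
import Cfsg.Agent.Trans.Control
import Cfsg.Agent.Solv.Cores

set_option autoImplicit false
open Cfsg

namespace Cfsg.Agent.S1966

open Cfsg.Lib.Trans

/-- Let p be a prime, G a finite group with Sylow p-subgroup S and 𝓕 a conjugation family for S in G. Then the members of 𝓕 containing O_p(G) still form a conjugation family for S in G. -/
theorem result {G : Type*} [Group G] [Finite G] {p : ℕ} [Fact p.Prime] (S : Sylow p G) (𝓕 : Set (Subgroup G)) (h : Cfsg.IsConjugationFamily 𝓕 (S : Subgroup G)) : Cfsg.IsConjugationFamily {T : Subgroup G | T ∈ 𝓕 ∧ Cfsg.pCore p G ≤ T} (S : Subgroup G) := by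
  rw [isConjugationFamily_iff] at h ⊢
  refine ⟨fun T hT => h.1 T hT.1, fun A g _ hA hAg => ?_⟩
  have hQ : pCore p G ≤ (S : Subgroup G) := Cfsg.Lib.Solv.pCore_le_sylow S
  have h1 := h.2 (A ∪ pCore p G) g ⟨1, Or.inr (pCore p G).one_mem⟩ (Set.union_subset hA hQ) (by
    rw [Set.image_union, ← coe_cj_inv, cj_eq_of_normal]
    exact Set.union_subset hAg hQ)
  have key : ∀ (B : Set G) (x : G), RChain (famStep 𝓕) B x → (pCore p G : Set G) ⊆ B →
      RChain (famStep {T : Subgroup G | T ∈ 𝓕 ∧ Cfsg.pCore p G ≤ T}) B x := by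
    intro B x hx
    induction hx with
    | nil A => exact fun _ => RChain.nil _
    | @cons B y z hy _ ih =>
      intro hB
      obtain ⟨T, h2, h3, h4⟩ := hy
      refine RChain.cons ⟨T, h2, ⟨h3, hB.trans h2⟩, h4⟩ (ih ?_)
      refine subset_trans ?_ (Set.image_mono hB)
      rw [← coe_cj_inv, cj_eq_of_normal]
  exact (key _ _ h1 Set.subset_union_right).anti (famStep_anti _) Set.subset_union_left

end Cfsg.Agent.S1966
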