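import Cfsg.Statements.S1968
import Cfsg.Agent.Trans.Control

set_option autoImplicit false
open Cfsg

namespace Cfsg.Agent.S1968

open Cfsg.Lib.Trans

/-- Let p be a prime, G a finite group with Sylow p-subgroup S and W a conjugacy functor for p on G with Z(P) ≤ W(P) for every p-subgroup P. Let A be a subgroup of Z(S) normalized by N_G(W(S)) that is not weakly closed in S with respect to G. Then there is a subgroup T of S, well placed in S with respect to W, such that: A ≤ T; N_G(W(N_S(T))) normalizes A; N_S(T) is a Sylow p-subgroup of N_G(T); A ≤ Z(N_S(T)); and A is not weakly closed in N_S(T) with respect to N_G(T), that is, some N_G(T)-conjugate of A other than A lies in N_S(T). -/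
theorem result {G : Type*} [Group G] [Finite G] {p : ℕ} [Fact p.Prime] (S : Sylow p G) (W : Subgroup G → Subgroup G) (hW : Cfsg.IsConjugacyFunctor p W) (hWZ : ∀ P : Subgroup G, IsPGroup p ↥P → P ⊓ Subgroup.centralizer (P : Set G) ≤ W P) (A : Subgroup G) (hAZ : A ≤ (S : Subgroup G) ⊓ Subgroup.centralizer ((S : Subgroup G) : Set G)) (hAN : Subgroup.normalizer ((W (S : Subgroup G) : Subgroup G) : Set G) ≤ Subgroup.normalizer ((A : Subgroup G) : Set G)) (hnwc : ¬ Cfsg.IsWeaklyClosed A (S : Subgroup G)) : ∃ T : Subgroup G, Cfsg.IsWellPlaced p W (S : Subgroup G) T ∧ A ≤ T ∧ Subgroup.normalizer ((W ((S : Subgroup G) ⊓ Subgroup.normalizer ((T : Subgroup G) : Set G)) : Subgroup G) : Set G) ≤ Subgroup.normalizer ((A : Subgroup G) : Set G) ∧ ¬ p ∣ ((S : Subgroup G) ⊓ Subgroup.normalizer ((T : Subgroup G) : Set G)).relIndex (Subgroup.normalizer ((T : Subgroup G) : Set G)) ∧ A ≤ Subgroup.centralizer (((S : Subgroup G) ⊓ Subgroup.normalizer ((T : Subgroup G) : Set G) : Subgroup G) : Set G) ∧ ∃ g ∈ Subgroup.normalizer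 ((T : Subgroup G) : Set G), A.map (MulAut.conj g).toMonoidHom ≤ (S : Subgroup G) ⊓ Subgroup.normalizer ((T : Subgroup G) : Set G) ∧ A.map (MulAut.conj g).toMonoidHom ≠ A := by
  have hS := isSylowIn_top S
  by_contra hcon
  have key : ∀ T, WellPlacedIn p W (S : Subgroup G) ⊤ T → A ≤ T →
      Subgroup.normalizer (T : Set G) ≤ Subgroup.normalizer (A : Set G) := by
    refine wellPlacedIn_induction hW S.isPGroup' _ fun T hT IH hAT => ?_
    have hAc : A ≤ Subgroup.centralizer
        (((S : Subgroup G) ⊓ Subgroup.normalizer (T : Set G) : Subgroup G) : Set G) :=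
      (hAZ.trans inf_le_right).trans (Subgroup.centralizer_le inf_le_left)
    have hAT' : A ≤ (S : Subgroup G) ⊓ Subgroup.normalizer (T : Set G) :=
      hAT.trans (le_inf hT.le Subgroup.le_normalizer)
    have h1 : Subgroup.normalizer ((W ((S : Subgroup G) ⊓ Subgroup.normalizer (T : Set G)) :
        Subgroup G) : Set G) ≤ Subgroup.normalizer (A : Set G) := by
      rcases (inf_le_left : (S : Subgroup G) ⊓ Subgroup.normalizer (T : Set G) ≤ S).eq_or_lt
        with heq | hlt
      · rwa [heq]
      · exact IH hlt ((le_inf hAT' hAc).trans (hWZ _ hT.fullyNorm.isPGroup))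
    intro g hg
    by_contra hgA
    refine hcon ⟨T, (wellPlacedIn_top_iff S.isPGroup').mp hT, hAT, h1,
      (fullyNorm_top_iff S.isPGroup').mp hT.fullyNorm, hAc, g, hg, ?_,
      fun h => hgA (cj_eq_self_iff.mp h)⟩
    refine le_trans ?_ (le_inf hT.le Subgroup.le_normalizer)
    exact (cj_mono g hAT).trans (cj_eq_of_mem_normalizer hg).le
  refine hnwc ⟨hAZ.trans inf_le_left, fun g hg => ?_⟩
  refine alperin_wellPlaced hW hS (fun B g => A ≤ B → cj g A = A)
    (fun B C g hBC h h1 => h (h1.trans hBC)) (fun B g h h1 h2 h3 => ?_) ?_ A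
    (hAZ.trans inf_le_left) g trivial hg le_rfl
  · rw [cj_mul, h1 h3]
    apply h2
    rw [← h1 h3]
    exact cj_mono g h3
  · intro U hU _ n hn hAU
    exact cj_eq_of_mem_normalizer (key U hU hAU hn.2)

end Cfsg.Agent.S1968
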