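import Cfsg.Statements.S1969
import Cfsg.Agent.Trans.SectionSF

set_option autoImplicit false
universe u
open Cfsg

namespace Cfsg.Agent.S1969

open Cfsg.Lib.Trans

/-- Let p be a prime, G a finite group and W an isomorphism-invariant p-group functor (W assigns to every group Q a subgroup W(Q), nontrivial whenever Q is a nontrivial finite p-group, and every isomorphism from a finite p-group Q onto a group R carries W(Q) onto W(R)). Suppose that W(S*) is normal in G* whenever G* = K/R is a section of G with C_{G*}(O_p(G*)) ≤ O_p(G*) and S* is a Sylow p-subgroup of G*. Then W controls strong fusion in every section of G: for every section K/R and every Sylow p-subgroup T of K/R, the subgroup W(T) controls strong fusion in K/R. -/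
theorem result {G : Type u} [Group G] [Finite G] {p : ℕ} [Fact p.Prime] (W : ∀ (Q : Type u) [Group Q], Subgroup Q) (hW : Cfsg.IsCharPFunctor.{u} p W) (hloc : ∀ (K R : Subgroup G) [hR : (R.subgroupOf K).Normal], Subgroup.centralizer ((Cfsg.pCore p (↥K ⧸ R.subgroupOf K) : Subgroup (↥K ⧸ R.subgroupOf K)) : Set (↥K ⧸ R.subgroupOf K)) ≤ Cfsg.pCore p (↥K ⧸ R.subgroupOf K) → ∀ T : Sylow p (↥K ⧸ R.subgroupOf K), (Cfsg.inducedFunctor (G := (↥K ⧸ R.subgroupOf K)) W ((T : Subgroup (↥K ⧸ R.subgroupOf K)))).Normal) : ∀ (K R : Subgroup G) [hR : (R.subgroupOf K).Normal], ∀ T : Sylow p (↥K ⧸ R.subgroupOf K), Cfsg.ControlsStrongFusion p (Cfsg.inducedFunctor (G := (↥K ⧸ R.subgroupOf K)) W ((T : Subgroup (↥K ⧸ R.subgroupOf K)))) := by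
  intro K R hR T
  have h𝓦 : ∀ V ∈ ({W} : Set (∀ (Q : Type u) [Group Q], Subgroup Q)), IsCharPFunctor.{u} p V := by
    rintro V rfl; exact hW
  have h := famSF_section_of_constrained (X := G) h𝓦 ?_ (K ⧸ R.subgroupOf K)
    ⟨K, R, hR, ⟨MulEquiv.refl _⟩⟩
  · rw [indFam_singleton, ← sf_iff_famSF,
      sf_iff (isConjugacyFunctor_induced hW) (isSylowIn_top T), ctlFus_subgroup_iff] at h
    refine ⟨T, inducedFunctor_le _, fun A hA => ⟨hA, fun g hg => ?_⟩⟩
    obtain ⟨x, hx, e⟩ := h A g trivial hA hg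
    exact ⟨x, hx.2, fun a ha => (e a ha).symm⟩
  · intro K R _ hc
    obtain ⟨T⟩ : Nonempty (Sylow p (K ⧸ R.subgroupOf K)) := inferInstance
    have := hloc K R hc T
    rw [indFam_singleton, ← sf_iff_famSF,
      sf_iff (isConjugacyFunctor_induced hW) (isSylowIn_top T), Subgroup.normalizer_eq_top]
    intro A _ g _ hg
    exact Fus.step ⟨trivial, trivial⟩ hg

end Cfsg.Agent.S1969
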