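import Cfsg.Statements.S1977
import Cfsg.Agent.Trans.KInfBasic

set_option autoImplicit false
open Cfsg

namespace Cfsg.Agent.S1977

open Cfsg.Lib Cfsg.Lib.Trans

/-- Let P be a finite p-group. A member B that is maximal under inclusion in any one of the families used to build the K-sequence of P — the class-two family, the lower-star family relative to an odd-indexed term, or the upper-star family relative to an even-indexed term — contains its centralizer: C_P(B) ≤ B. -/
theorem result {P : Type*} [Group P] [Finite P] {p : ℕ} [Fact p.Prime] (hP : IsPGroup p P) (B : Subgroup P) (𝒦 : Set (Subgroup P)) (h𝒦 : 𝒦 = Cfsg.classTwoSubgroups P ∨ (∃ n, 𝒦 = Cfsg.kLowerStarFamily (Cfsg.kSeqOdd P n)) ∨ ∃ n, 𝒦 = Cfsg.kUpperStarFamily (Cfsg.kSeqEven P n)) (hB : B ∈ 𝒦) (hmax : ∀ C ∈ 𝒦, B ≤ C → C = B) : Subgroup.centralizer (B : Set P) ≤ B := by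
  have hS : Group.IsNilpotent (⊤ : Subgroup P) := (hP.to_subgroup ⊤).isNilpotent
  have key : ∀ Q : Subgroup P, (𝒦 = classTwoSubgroups P ∨ 𝒦 = kLowerStarFamily Q ∨
      𝒦 = kUpperStarFamily Q) → Subgroup.centralizer (B : Set P) ≤ B := fun Q h => by
    have := inf_centralizer_le_of_maximal hS le_top le_top h hB fun C hC _ hBC => hmax C hC hBC
    rwa [top_inf_eq] at this
  rcases h𝒦 with h | ⟨n, h⟩ | ⟨n, h⟩
  · exact key ⊥ (Or.inl h)
  · exact key _ (Or.inr (Or.inl h))
  · exact key _ (Or.inr (Or.inr h))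

end Cfsg.Agent.S1977
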