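import Cfsg.Statements.S1981
import Cfsg.Agent.Trans.KInfBasic

set_option autoImplicit false
open Cfsg

namespace Cfsg.Agent.S1981

open Cfsg.Lib Cfsg.Lib.Trans

/-- Let P be a finite p-group generated by its abelian normal subgroups. Then both K-infinity subgroups of P equal P. -/
theorem result {P : Type*} [Group P] [Finite P] {p : ℕ} [Fact p.Prime] (hP : IsPGroup p P) (hgen : ⨆ A ∈ {A : Subgroup P | A.Normal ∧ IsMulCommutative ↥A}, A = ⊤) : Cfsg.kInfLower P = ⊤ ∧ Cfsg.kInfUpper P = ⊤ := by
  rw [kInfLower_eq, kInfUpper_eq, eq_top_iff, eq_top_iff, ← hgen]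
  have h2 : ∀ A : Subgroup P, A.Normal → (⊤ : Subgroup P) ≤ Subgroup.normalizer (A : Set P) :=
    fun A _ => by rw [Subgroup.normalizer_eq_top]
  constructor
  · refine iSup₂_le fun A hA => ?_
    have := hA.2
    rw [hgen]
    exact le_kLowerIn_of_comm le_top (Subgroup.le_centralizer A) (h2 A hA.1)
  · refine iSup₂_le fun A hA => ?_
    have := hA.2
    rw [hgen]
    exact le_kUpperIn_of_comm le_top (Subgroup.le_centralizer A) (h2 A hA.1)

end Cfsg.Agent.S1981
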