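import Cfsg.Statements.S1983
import Cfsg.Agent.Trans.KInfLocal

set_option autoImplicit false
universe u
open Cfsg

namespace Cfsg.Agent.S1983

open Cfsg.Lib Cfsg.Lib.Trans

/-- Let p be a prime, G a finite group with Sylow p-subgroup S and T = O_p(G). Suppose that the lower or the upper K-infinity subgroup of S is not normal in G. Then there is an element g of S outside T such that [X, g, g, g, g] ≤ Y for every chief factor X/Y of G with X ≤ T, and [Z(T), g, g] = 1; and if moreover C_G(T) ≤ T then some quotient group of G is not p-stable (in the normalizer form: some quadratically acting element of a normalizer fails to map into O_p of the automizer). -/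
theorem result {G : Type u} [Group G] [Finite G] {p : ℕ} [Fact p.Prime] (S : Sylow p G) (hK : ¬ (Cfsg.inducedFunctor Cfsg.kInfLower (S : Subgroup G)).Normal ∨ ¬ (Cfsg.inducedFunctor Cfsg.kInfUpper (S : Subgroup G)).Normal) : ∃ g : G, g ∈ (S : Subgroup G) ∧ g ∉ (Cfsg.pCore p G) ∧ (∀ U V : Subgroup G, Cfsg.IsChiefFactor U V → U ≤ (Cfsg.pCore p G) → Cfsg.iterCommutator U (Subgroup.zpowers g) 4 ≤ V) ∧ ⁅⁅((Cfsg.pCore p G) ⊓ Subgroup.centralizer (((Cfsg.pCore p G) : Subgroup G) : Set G)), (Subgroup.zpowers g)⁆, (Subgroup.zpowers g)⁆ = ⊥ ∧ (Subgroup.centralizer (((Cfsg.pCore p G) : Subgroup G) : Set G) ≤ (Cfsg.pCore p G) → ∃ (N : Subgroup G) (_ : N.Normal), ¬ Cfsg.IsNormalizerPStable p (G ⧸ N)) := by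
  rw [inducedFunctor_kInfLower, inducedFunctor_kInfUpper] at hK
  obtain ⟨g, h1, h2, h3, h4, h5⟩ := kInf_exists_elt (Solv.pCore_le_sylow S) hK
  refine ⟨g, h1, h2, h3, h4, fun hc => ?_⟩
  obtain ⟨U, V, hUV, hU, h6, h7⟩ := h5 hc
  have hV := hUV.2.2.1
  refine ⟨V, hV, fun h => not_stableOnNormal_of_chief hUV ((Solv.pCore_isPGroup p G).to_le hU)
    (S.isPGroup'.to_le (Subgroup.zpowers_le.mpr h1)) h6 h7
    (stableOnNormal_of_isNormalizerPStable h)⟩

end Cfsg.Agent.S1983
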