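import Cfsg.Statements.S1986
import Cfsg.Agent.Trans.WeakClosureFunctor
import Cfsg.Agent.Trans.KInfGlobal

set_option autoImplicit false
universe u
open Cfsg

namespace Cfsg.Agent.S1986

open Cfsg.Lib Cfsg.Lib.Trans
open scoped commutatorElement

theorem loc {G : Type u} [Group G] [Finite G] {p : ℕ} [Fact p.Prime] (H T : Subgroup G)
    (hT : IsSylowIn p T H)
    (hn : ¬ H ≤ Subgroup.normalizer (inducedFunctor kInfLower T : Set G)) :
    ∃ g : H, (g : G) ∈ T ∧ g ∉ pCore p H ∧
      ⁅⁅pCore p H ⊓ Subgroup.centralizer (pCore p H : Set H), Subgroup.zpowers g⁆,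
        Subgroup.zpowers g⁆ = ⊥ := by
  obtain ⟨g, h1, h2, -, h3, -⟩ := isKInf_lower.exists_elt
    (pCore_le_of_isSylowIn_top hT.subgroupOf_top) (fun h => hn (by
      have := Solv.le_normalizer_map_subtype (inducedFunctor kInfLower (T.subgroupOf H))
      rwa [← inducedFunctor_map_of_injective (isCharPFunctor_kInfLower p) _
        (Subgroup.subtype_injective H) hT.subgroupOf_top.isPGroup,
        Subgroup.map_subgroupOf_eq_of_le hT.le] at this))
  exact ⟨g, h1, h2, h3⟩

/-- Let p be a prime, G a finite group with Sylow p-subgroup S, K the lower K-infinity subgroup of S, and Z the subgroup of p-th powers of elements of Z(S). Then every element of Z commuting with all of N_G(K) is weakly closed in S with respect to G, and every subgroup of Z that is normal in N_G(K) is weakly closed in S with respect to G. -/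
theorem result {G : Type u} [Group G] [Finite G] {p : ℕ} [Fact p.Prime] (S : Sylow p G) (Z : Subgroup G) (hZ : Z = Subgroup.closure ((fun z : G => z ^ p) '' (((S : Subgroup G) ⊓ Subgroup.centralizer (((S : Subgroup G) : Subgroup G) : Set G) : Subgroup G) : Set G))) : (∀ x ∈ Z ⊓ Subgroup.centralizer ((Subgroup.normalizer ((Cfsg.inducedFunctor Cfsg.kInfLower (S : Subgroup G) : Subgroup G) : Set G) : Subgroup G) : Set G), ∀ g : G, g * x * g⁻¹ ∈ (S : Subgroup G) → g * x * g⁻¹ = x) ∧ ∀ A : Subgroup G, A ≤ Z → Subgroup.normalizer ((Cfsg.inducedFunctor Cfsg.kInfLower (S : Subgroup G) : Subgroup G) : Set G) ≤ Subgroup.normalizer ((A : Subgroup G) : Set G) → Cfsg.IsWeaklyClosed A (S : Subgroup G) := by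
  subst hZ
  exact weakClosure_mho' (isConjugacyFunctor_induced (isCharPFunctor_kInfLower p))
    (fun P _ => isKInf_lower.center_le P) loc (isSylowIn_top S)

end Cfsg.Agent.S1986
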