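import Cfsg.Statements.S1985
import Cfsg.Agent.Trans.WeakClosureFunctor
import Cfsg.Agent.S1986

set_option autoImplicit false
universe u
open Cfsg

namespace Cfsg.Agent.S1985

open Cfsg.Lib Cfsg.Lib.Trans

/-- Let p be an odd prime and G a finite group. Then the lower K-infinity subgroup controls weak closure of elements in G: the lower K-infinity subgroup of every p-subgroup P of G contains Z(P), and for some (equivalently, every) Sylow p-subgroup S of G, with K the lower K-infinity subgroup of S, every element of S commuting with all of N_G(K) is weakly closed in S with respect to G (every G-conjugate of it lying in S equals it). -/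
theorem result {G : Type u} [Group G] [Finite G] {p : ℕ} [Fact p.Prime] (hp : p ≠ 2) : Cfsg.ControlsWeakClosureOfElementsIn p (Cfsg.inducedFunctor (G := G) Cfsg.kInfLower) ⊤ := by
  obtain ⟨T⟩ : Nonempty (Sylow p G) := inferInstance
  have hT := isSylowIn_top T
  refine ⟨fun P _ => isKInf_lower.center_le P, T, hT.le, hT.isPGroup, hT.not_dvd,
    fun x hx h hh hhx => ?_⟩
  refine weakClosure_elements (isConjugacyFunctor_induced (isCharPFunctor_kInfLower p))
    (fun P _ => isKInf_lower.center_le P) (fun H T hT hn => ?_) hT hx.1 hx.2 hh hhx
  obtain ⟨g, h1, h2, h3⟩ := Cfsg.Agent.S1986.loc H T hT hn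
  have h4 := (Fact.out : p.Prime).two_le
  exact ⟨g, h1, h2, (chiefKilled_of_eq_bot (n := 2) h3).mono le_rfl (by omega)⟩

end Cfsg.Agent.S1985
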