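import Cfsg.Statements.S1996
import Cfsg.Agent.Trans.SectionSF

set_option autoImplicit false
universe u
open Cfsg

namespace Cfsg.Agent.S1996

open Cfsg.Lib.Trans

/-- Let p be a prime, G a finite group and W₁, W₂ two isomorphism-invariant p-group functors (W assigns to every group Q a subgroup W(Q), nontrivial whenever Q is a nontrivial finite p-group, and every isomorphism from a finite p-group Q onto a group R carries W(Q) onto W(R)). Suppose that G* = N_{G*}(W₁(S*)) N_{G*}(W₂(S*)) whenever G* = K/R is a section of G with C_{G*}(O_p(G*)) ≤ O_p(G*) and S* is a Sylow p-subgroup of G*. Then the pair {W₁, W₂} controls strong fusion in G. -/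
theorem result {G : Type u} [Group G] [Finite G] {p : ℕ} [Fact p.Prime] (W₁ W₂ : ∀ (Q : Type u) [Group Q], Subgroup Q) (hW₁ : Cfsg.IsCharPFunctor.{u} p W₁) (hW₂ : Cfsg.IsCharPFunctor.{u} p W₂) (hfac : ∀ (K R : Subgroup G) [hR : (R.subgroupOf K).Normal], Subgroup.centralizer ((Cfsg.pCore p (↥K ⧸ R.subgroupOf K) : Subgroup (↥K ⧸ R.subgroupOf K)) : Set (↥K ⧸ R.subgroupOf K)) ≤ Cfsg.pCore p (↥K ⧸ R.subgroupOf K) → ∀ T : Sylow p (↥K ⧸ R.subgroupOf K), ∀ x : (↥K ⧸ R.subgroupOf K), ∃ a ∈ Subgroup.normalizer ((Cfsg.inducedFunctor (G := (↥K ⧸ R.subgroupOf K)) W₁ (T : Subgroup (↥K ⧸ R.subgroupOf K)) : Subgroup (↥K ⧸ R.subgroupOf K)) : Set (↥K ⧸ R.subgroupOf K)), ∃ b ∈ Subgroup.normalizer ((Cfsg.inducedFunctor (G := (↥K ⧸ R.subgroupOf K)) W₂ (T : Subgroup (↥K ⧸ R.subgroupOf K)) : Subgroup (↥K ⧸ R.subgroupOf K)) : Set (↥K ⧸ R.subgroupOf K)), x = a * b) : Cfsg.FamilyControlsStrongFusionIn p {Cfsg.inducedFunctor (G := G)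 W₁, Cfsg.inducedFunctor (G := G) W₂} ⊤ := by
  have h𝓦 : ∀ V ∈ ({W₁, W₂} : Set (∀ (Q : Type u) [Group Q], Subgroup Q)),
      IsCharPFunctor.{u} p V := by
    rintro V (rfl | rfl)
    exacts [hW₁, hW₂]
  have h := famSF_section_of_constrained (X := G) h𝓦 ?_ G (involves_refl G)
  · rwa [indFam, Set.image_pair] at h
  intro K R _ hc
  obtain ⟨T⟩ : Nonempty (Sylow p (K ⧸ R.subgroupOf K)) := inferInstance
  rw [famSF_iff (isConjugacyFunctor_indFam h𝓦) (isSylowIn_top T)]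
  intro A hA g _ hg
  obtain ⟨a, ha, b, hb, rfl⟩ := hfac K R hc T g
  have h1 := cf_le_normalizer (isConjugacyFunctor_induced hW₁) T.isPGroup'
  have h2 := cf_le_normalizer (isConjugacyFunctor_induced hW₂) T.isPGroup'
  have h3 := isSylowIn_of_le T (le_inf h1 h2)
  obtain ⟨y, hy, h4⟩ := h3.exists_cj_le (Q := cj b A) (isPGroup_cj (T.isPGroup'.to_le hA) b) (by
    refine le_inf ?_ (cj_le_of_mem_of_le hb (hA.trans h2))
    have := cj_le_of_mem_of_le (Subgroup.inv_mem _ ha) (hg.trans h1)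
    rwa [cj_cj, inv_mul_cancel_left] at this)
  rw [cj_cj] at h4
  have h5 := Fus.mul (E := famE (indFam {W₁, W₂} (K ⧸ R.subgroupOf K)) ⊤ T)
    (Fus.step (mem_famE_indFam.mpr ⟨W₂, Or.inr rfl, trivial, Subgroup.mul_mem _ hy.2 hb⟩) h4)
    (Fus.step (x := a * y⁻¹) (mem_famE_indFam.mpr ⟨W₁, Or.inl rfl, trivial,
      Subgroup.mul_mem _ ha (Subgroup.inv_mem _ hy.1)⟩)
      (by rwa [cj_cj, mul_assoc, inv_mul_cancel_left]))
  rwa [mul_assoc, inv_mul_cancel_left] at h5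

end Cfsg.Agent.S1996
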