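import Cfsg.Statements.S2004
import Cfsg.Agent.Trans.DicksonFree
import Cfsg.Agent.Trans.LiftNormalizer

set_option autoImplicit false
open Cfsg

open Subgroup Cfsg.Lib.Trans Cfsg.Lib.Trans.Quad

namespace Cfsg.Agent.S2004

/-- Let p be an odd prime and G a finite group such that SL₂(p) is not involved in N_G(P) for any nonidentity p-subgroup P of G. Then every section of G is p-stable in the normalizer form: in each section, whenever an element of the normalizer of a p-subgroup Q acts quadratically on Q, its image in N(Q)/C(Q) lies in O_p(N(Q)/C(Q)). -/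
theorem result {G : Type*} [Group G] [Finite G] {p : ℕ} [Fact p.Prime] (hp : p ≠ 2) (h : ∀ P : Subgroup G, IsPGroup p ↥P → P ≠ ⊥ → ¬ Cfsg.Involves (Matrix.SpecialLinearGroup (Fin 2) (ZMod p)) ↥(Subgroup.normalizer ((P : Subgroup G) : Set G))) : ∀ (K R : Subgroup G) [hR : (R.subgroupOf K).Normal], Cfsg.IsNormalizerPStable p (↥K ⧸ R.subgroupOf K) := by
  intro K R hR P hP g hg hq
  by_cases h0 : P = ⊥
  · rw [(QuotientGroup.eq_one_iff _).mpr ?_]
    · exact one_mem _
    · rw [mem_subgroupOf, mem_centralizer_iff]
      intro x hx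
      rw [h0] at hx
      rw [mem_bot.mp hx, one_mul, mul_one]
  · obtain ⟨S, hS, hS1, hi⟩ := exists_involves_normalizer
      (involves_trans (involves_quotient (R.subgroupOf K)) (involves_subgroup K)) hP h0
    exact ((transvFree_of_not_involves hp (h S hS hS1)).of_involves hi).mk_mem_pCore_ambient hP
      le_rfl hg hq

end Cfsg.Agent.S2004
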