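import Cfsg.Statements.S2008
import Cfsg.Agent.Trans.KleinFpf

set_option autoImplicit false
open Cfsg

namespace Cfsg.Agent.S2008

/-- Let H be a finite group and z an involution such that every proper normal subgroup of H meets the centralizer of z trivially, and suppose z lies in a Klein four-subgroup E of H all three of whose involutions are conjugate to z in H. Then H has no non-trivial abelian normal subgroup. -/
theorem result {H : Type*} [Group H] [Finite H] (z : H) (hz : orderOf z = 2) (hN : ∀ N : Subgroup H, N.Normal → N ≠ ⊤ → N ⊓ Subgroup.centralizer ({z} : Set H) = ⊥) (E : Subgroup H) (hE : IsKleinFour ↥E) (hzE : z ∈ E) (hc : ∀ e ∈ E, e ≠ 1 → IsConj z e) (N : Subgroup H) [N.Normal] (hab : IsMulCommutative ↥N) : N = ⊥ := by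
  by_cases h : N = ⊤
  · exfalso
    subst h
    have hcomm : ∀ a b : H, a * b = b * a := fun a b => by
      have := hab.is_comm.comm (⟨a, trivial⟩ : (⊤ : Subgroup H)) ⟨b, trivial⟩
      exact congrArg Subtype.val this
    have hcard : Nat.card E = 4 := hE.card_four
    have hs : (Set.univ : Set E) ⊆ {1, ⟨z, hzE⟩} := by
      intro b _
      by_cases h : b = 1
      · simp [h]
      · obtain ⟨c, hc⟩ := isConj_iff.1 (hc b b.2 (fun h' => h (Subtype.ext h')))
        have : (b : H) = z := by rw [← hc, hcomm c z]; group
        right
        exact Subtype.ext this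
    have := Set.ncard_le_ncard hs (Set.toFinite _)
    rw [Set.ncard_univ] at this
    have h2 := this.trans (Set.ncard_insert_le _ _ |>.trans (by simp : _ ≤ 2))
    omega
  · exact Cfsg.Lib.Trans.klein_normal_eq_bot z hz hN E hE hzE hc N inferInstance h

end Cfsg.Agent.S2008
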