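import Cfsg.Statements.S2055
import Cfsg.Agent.Spor.Fi24Mult2
import Cfsg.Agent.Spor.Fi24Mult3
import Cfsg.Agent.Spor.Fi24Mult5
import Cfsg.Agent.Spor.Fi24Mult7
import Cfsg.Agent.Spor.Fi24Cov

set_option autoImplicit false
open Cfsg

namespace Cfsg.Agent.S2055

open Cfsg.Lib.Known Cfsg.Lib.Spor.F24

/-- The Schur multiplier of the Fischer group Fi₂₄′ (the commutator subgroup of the presented group Fi₂₄) is cyclic of order 3; here the Schur multiplier is described through stem extensions, as in the definitions: surjective homomorphisms onto the group from a finite group, whose kernel is central in that finite group and contained in that finite group's commutator subgroup. -/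
theorem result : Cfsg.HasCyclicSchurMultiplier Cfsg.Spor.Fi24' 3 := by
  exact hasCyclic_of_multDvd (by decide) (multLe_cyclic (a := 0) (b := 1) pBound_2 pBound_3 (Nat.zero_le _) le_rfl
    (pBound_others Cfsg.Lib.Spor.Fi24P.card_commutator 29 21 [5, 7] (by decide +kernel)
      (by simp [pBound_5, pBound_7])) rfl) dvd3

end Cfsg.Agent.S2055
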