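import Cfsg.Statements.S2103
import Cfsg.Agent.Chev.LiftThm

set_option autoImplicit false
open Cfsg

namespace Cfsg.Agent.S2103

/-- Schur multipliers of the Chevalley groups of type F₄: over a finite field with more than 2 elements the Schur multiplier of F₄(q) is trivial (here the Schur multiplier is described through stem extensions, as in the definitions); q = 2 is exceptional. -/
theorem result {F : Type*} [Field F] [Fintype F] (hF : 3 ≤ Fintype.card F) : Cfsg.HasCyclicSchurMultiplier ↥(Cfsg.Lie.chevF4.group F) 1 := by
  have n : ∀ {D D' : Cfsg.Lie.ChevalleyDatum}, D.nroots ≠ D'.nroots → D ≠ D' := fun h e => h (e ▸ rfl)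
  exact Cfsg.Lib.Chev.Core.certF4.multiplier_group Cfsg.Lib.Chev.rootF4 (by simp)
    ⟨fun _ => by
      simpa using Cfsg.Lib.Chev.lift_exists_pow_ne_one (s := (Finset.univ : Finset F)) one_pos hF,
      fun h => absurd h (n (by decide))⟩ Nat.prime_two (one_dvd _)
    (Cfsg.Lib.Chev.card_ker_cartanHom_F4 _) (Or.inl rfl)

end Cfsg.Agent.S2103
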