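import Cfsg.Statements.S2106
import Cfsg.Agent.Chev.LiftThm
import Cfsg.Agent.Chev.RepE7

set_option autoImplicit false
open Cfsg

namespace Cfsg.Agent.S2106

/-- Schur multipliers of the (adjoint, simple) Chevalley groups of type E₇: over a field with q elements the Schur multiplier is cyclic of order gcd(2, q − 1) (here the Schur multiplier is described through stem extensions, as in the definitions). -/
theorem result {F : Type*} [Field F] [Fintype F] {q : ℕ} (hF : Fintype.card F = q) : Cfsg.HasCyclicSchurMultiplier ↥(Cfsg.Lie.chevE7.group F) (Nat.gcd 2 (q - 1)) := by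
  have n : ∀ {D D' : Cfsg.Lie.ChevalleyDatum}, D.nroots ≠ D'.nroots → D ≠ D' := fun h e => h (e ▸ rfl)
  exact Cfsg.Lib.Chev.Core.certE7.multiplier_group Cfsg.Lib.Chev.rootE7 (by simp)
    ⟨fun h => by
      simp only [List.mem_cons, List.not_mem_nil, or_false] at h
      rcases h with h | h | h | h <;> exact absurd h (n (by decide)), fun h => absurd h (n (by decide))⟩ Nat.prime_two (Nat.gcd_dvd_left _ _)
    (by rw [Cfsg.Lib.Chev.card_ker_cartanHom_E7, Nat.card_units, Nat.card_eq_fintype_card, hF])
    (Or.inr (Cfsg.Lib.Chev.Core.hHom_stGen_injective_E7 F))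

end Cfsg.Agent.S2106
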