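import Cfsg.Statements.S2107
import Cfsg.Agent.Chev.LiftThm

set_option autoImplicit false
open Cfsg

namespace Cfsg.Agent.S2107

/-- Schur multipliers of the Chevalley groups of type E₈: over every finite field the Schur multiplier of E₈(q) is trivial (here the Schur multiplier is described through stem extensions, as in the definitions). -/
theorem result {F : Type*} [Field F] [Fintype F] : Cfsg.HasCyclicSchurMultiplier ↥(Cfsg.Lie.chevE8.group F) 1 := by
  have n : ∀ {D D' : Cfsg.Lie.ChevalleyDatum}, D.nroots ≠ D'.nroots → D ≠ D' := fun h e => h (e ▸ rfl)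
  exact Cfsg.Lib.Chev.Core.certE8.multiplier_group Cfsg.Lib.Chev.rootE8 (by simp)
    ⟨fun h => by
      simp only [List.mem_cons, List.not_mem_nil, or_false] at h
      rcases h with h | h | h | h <;> exact absurd h (n (by decide)), fun h => absurd h (n (by decide))⟩ Nat.prime_two (one_dvd _)
    (Cfsg.Lib.Chev.card_ker_cartanHom_E8 _) (Or.inl rfl)

end Cfsg.Agent.S2107
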