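import Cfsg.Statements.S2112
import Cfsg.Agent.Known.SzMult
import Cfsg.Agent.Known.CorExt
import Cfsg.Agent.Known.SzCharB

set_option autoImplicit false
open Cfsg

namespace Cfsg.Agent.S2112

open Cfsg.Lib.Chev Cfsg.Lib.Known Cfsg.Lib.Known.SzChar Cfsg.Lib.Known.SzMult Cfsg.Lib.Known.Cor

section

variable {F : Type*} [Field F] {τ : Tw F} (h4 : ∀ x, τ.θ x = x ^ 4) (h8 : ∀ x : F, x ^ 8 = x)

/-- the cocycle before reduction -/
def gg (a c d : F) : F := a ^ 2 * d + a ^ 5 * c ^ 2 + a * c ^ 6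

include h8 in
theorem gg_inv {u : F} (hu : u ≠ 0) (a c d : F) : gg (u * a) (u * c) (u ^ 5 * d) = gg a c d := by
  have h7 : u ^ 7 = 1 := mul_left_cancel₀ hu (by rw [mul_one, ← pow_succ', h8])
  simp only [gg]
  linear_combination (a ^ 2 * d + a ^ 5 * c ^ 2 + a * c ^ 6) * h7

include h4 h8 in
theorem gg_assoc (a c d e h : F) : trMap τ (gg a c d) + trMap τ (gg (a + c) e h) =
    trMap τ (gg c e h) + trMap τ (gg a (c + e) (d + h + c ^ 4 * e)) := by
  have h2 := τ.two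
  have h1 : gg a c d + gg (a + c) e h = gg c e h + gg a (c + e) (d + h + c ^ 4 * e) +
      (a ^ 2 * c ^ 4 * e + a ^ 4 * c * e ^ 2 + a * c ^ 2 * e ^ 4) := by
    simp only [gg]
    grind
  have h3 : trMap τ (a ^ 2 * c ^ 4 * e + a ^ 4 * c * e ^ 2 + a * c ^ 2 * e ^ 4) = 0 := by
    have h16 : ∀ x : F, x ^ 16 = x ^ 2 := fun x => by rw [show 16 = 8 * 2 from rfl, pow_mul, h8]
    change _ + τ.θ _ = 0
    simp only [map_add, map_mul, map_pow]
    simp only [h4, ← pow_mul, h8, h16]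
    grind
  rw [← map_add, h1, map_add, h3, add_zero, map_add]

variable {G : Type*} [Group G] (M : SzModel τ G)

theorem tb_mul (a b c d : F) (l k : Fˣ) : tb M a b l * tb M c d k = tb M (a + τ.θ l * c)
    (b + τ.θ l * (l : F) ^ 2 * d + τ.θ a * (τ.θ l * c)) (l * k) := by
  apply Subtype.ext
  simp only [Subgroup.coe_mul, coe_tb, map_mul]
  rw [mul_assoc, ← mul_assoc (M.D l), M.D_mul_T, ← M.T_mul]
  simp only [mul_assoc]

/-- the cocycle on the Borel subgroup -/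
noncomputable def cocB : Cocycle M.B F where
  f u v := trMap τ (gg ((bEquiv M).symm u).2.1 (τ.θ ((bEquiv M).symm u).1 * ((bEquiv M).symm v).2.1)
    (τ.θ ((bEquiv M).symm u).1 ^ 5 * ((bEquiv M).symm v).2.2))
  one := by
    have : (1 : M.B) = tb M 0 0 1 := Subtype.ext (by simp)
    rw [this, bEquiv_symm_tb]
    simp [gg]
  assoc x y z := by
    obtain ⟨a, b, l, rfl⟩ := exists_tb M x
    obtain ⟨c, d, k, rfl⟩ := exists_tb M y
    obtain ⟨e, h, j, rfl⟩ := exists_tb M z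
    have hN : ∀ u : F, τ.θ u * u ^ 2 = τ.θ u ^ 5 := fun u => by
      rw [← τ.θθ, h4 (τ.θ u)]
      ring
    simp only [tb_mul, bEquiv_symm_tb, Units.val_mul, map_mul, hN]
    rw [← gg_inv h8 (u := τ.θ l) (by simp) c, h4 c]
    convert gg_assoc h4 h8 a (τ.θ l * c) (τ.θ l ^ 5 * d) (τ.θ l * (τ.θ k * e))
      (τ.θ l ^ 5 * (τ.θ k ^ 5 * h)) using 4 <;> ring

theorem cocB_T (a b c d : F) (h : M.T a b ∈ M.B) (h' : M.T c d ∈ M.B) :
    (cocB h4 h8 M).f ⟨_, h⟩ ⟨_, h'⟩ = trMap τ (gg a c d) := by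
  have e : ∀ a b (h : M.T a b ∈ M.B), (⟨_, h⟩ : M.B) = tb M a b 1 := fun a b h =>
    Subtype.ext (by simp)
  rw [e, e]
  simp [cocB, bEquiv_symm_tb]

include h4 h8 M in
theorem lower [Fintype F] (hF : Fintype.card F = 8) {B : Type*} [CommGroup B]
    (hB : HasSchurMultiplier G B) : 4 ≤ Nat.card B := by
  have := M.finite
  let _ : Fintype M.Pt := Fintype.ofFinite _
  let s : M.Pt → G := fun p => Option.casesOn p 1 fun x => M.T x.1 x.2 * M.w
  have hs : ∀ p, s p • M.inf = p := by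
    rintro (_ | ⟨x, y⟩)
    · exact one_smul _ _
    · change (M.T x y * M.w) • M.inf = M.pt x y
      rw [mul_smul, M.w_smul_inf, M.T_smul_zero]
  have hT : ∀ a b c d, (cor hs (cocB h4 h8 M)).f (M.T a b) (M.T c d) = trMap τ (gg a c d) := by
    intro a b c d
    rw [← cocB_T h4 h8 M a b c d (M.P_le_B (M.T_mem_P a b)) (M.P_le_B (M.T_mem_P c d))]
    refine cor_apply hs (cocB h4 h8 M) rfl ⟨_, M.P_le_B (M.T_mem_P a b)⟩
      ⟨_, M.P_le_B (M.T_mem_P c d)⟩ fun p hp => ?_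
    obtain ⟨x, y, rfl⟩ := M.exists_pt_of_ne_inf hp
    change s (M.T c d • M.pt x y) = M.T c d * (M.T x y * M.w)
    rw [← M.T_smul_zero x y, ← mul_smul, ← mul_assoc, M.T_mul, M.T_smul_zero]
    rfl
  have h1 := (cor hs (cocB h4 h8 M)).card_le_of_commute hB (hyp τ) (by
    rintro _ ⟨d, rfl⟩
    refine ⟨M.T 1 0, M.T 0 d, commute_T_zero M 1 0 d, ?_⟩
    rw [hT, hT]
    simp [gg])
  have h2 := (hyp τ).card_mul_index
  rw [index_hyp, Nat.card_eq_fintype_card (α := F), hF] at h2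
  have h3 : Nat.card (hyp τ : Set F) = Nat.card (hyp τ) := rfl
  omega

include h4 h8 M in
theorem upper [Fintype F] (hF : Fintype.card F = 8) : PBound G (2 ^ (1 + 1)) (2 ^ 1) 2 := by
  classical
  intro Γ _ _ σ hσ
  obtain ⟨g, hg⟩ := IsCyclic.exists_generator (α := Fˣ)
  have hg1 : (g : F) + 1 ≠ 0 := by
    intro h
    have h1 := orderOf_eq_card_of_forall_mem_zpowers hg
    have h2 : g = 1 := Units.ext (τ.add_eq_zero.mp h)
    rw [h2, Nat.card_eq_fintype_card, Fintype.card_units, hF] at h1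
    simp at h1
  have hg0 : (g : F) ≠ 0 := g.ne_zero
  have h2 := τ.two
  generalize hω : (g : F) = ω at hg1 hg0
  have h7 : ω ^ 7 = 1 := mul_left_cancel₀ hg0 (by rw [mul_one, ← pow_succ', h8])
  have h6 : (ω ^ 3 + ω + 1) * (ω ^ 3 + ω ^ 2 + 1) = 0 := mul_left_cancel₀ hg1 (by grind)
  have hJ := gam_jacobi M hσ 1 ω (ω ^ 2)
  have e1 : (ω * τ.θ ω)⁻¹ = ω ^ 2 := by
    rw [h4]
    exact inv_eq_of_mul_eq_one_right (by linear_combination h7)
  have e2 : (ω ^ 2 * τ.θ (ω ^ 2))⁻¹ = ω ^ 4 := by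
    rw [h4]
    exact inv_eq_of_mul_eq_one_right (by linear_combination (ω ^ 7 + 1) * h7)
  rw [e1, e2, map_one, mul_one, mul_one (1 : F), inv_one, h4, h4, show ω ^ 2 * ((ω ^ 2) ^ 4 + 1 * ω ^ 2) +
    1 * (ω ^ 4 * ω ^ 2 + (ω ^ 2) ^ 4 * ω) + ω ^ 4 * (1 * ω + ω ^ 4 * 1) = 1 by grind] at hJ
  refine ⟨fun l => gam M hσ (Multiplicative.ofAdd (ω ^ (l + 1))), fun l => gam_mem_ker M hσ _,
    fun l _ => ⟨1, one_mem _, ?_⟩, fun z hz => ?_⟩
  · rw [← map_pow, ← ofAdd_nsmul, pow_one, two_nsmul, τ.add_self]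
    simp
  set K := Subgroup.closure ((fun l => gam M hσ (Multiplicative.ofAdd (ω ^ (l + 1)))) ''
    {l | l < 2} ∪ {x | ∃ y ∈ σ.ker, x = y ^ 2 ^ (1 + 1)}) with hK
  have key : ∀ k, gam M hσ (Multiplicative.ofAdd (ω ^ k)) ∈ K ∧
      gam M hσ (Multiplicative.ofAdd (ω ^ (k + 1))) ∈ K ∧
      gam M hσ (Multiplicative.ofAdd (ω ^ (k + 2))) ∈ K := by
    intro k
    induction k with
    | zero =>
      exact ⟨by rw [pow_zero, hJ]; exact one_mem _,
        Subgroup.subset_closure (Or.inl ⟨0, by simp, rfl⟩),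
        Subgroup.subset_closure (Or.inl ⟨1, by simp, rfl⟩)⟩
    | succ k ih =>
      refine ⟨ih.2.1, ih.2.2, ?_⟩
      rcases mul_eq_zero.mp h6 with h | h
      · rw [show ω ^ (k + 1 + 2) = ω ^ (k + 1) + ω ^ k by grind, ofAdd_add, map_mul]
        exact K.mul_mem ih.2.1 ih.1
      · rw [show ω ^ (k + 1 + 2) = ω ^ (k + 2) + ω ^ k by grind, ofAdd_add, map_mul]
        exact K.mul_mem ih.2.2 ih.1
  refine mem_of_pow_coprime K (b := 2 ^ (1 + 1))
    (Nat.Coprime.pow_right _ (Nat.coprime_two_right.mpr (odd_exp M))) ?_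
    (Subgroup.subset_closure (Or.inr ⟨z, hz, rfl⟩))
  obtain ⟨b, hb⟩ := pow_mem_range M hσ hz
  rw [← hb]
  by_cases hb0 : b.toAdd = 0
  · rw [show b = 1 from hb0, map_one]
    exact one_mem _
  · obtain ⟨k, hk⟩ := (Submonoid.mem_powers_iff _ _).mp
      (mem_powers_iff_mem_zpowers.mpr (hg (Units.mk0 _ hb0)))
    have h3 : ω ^ k = b.toAdd := by simpa [hω] using congrArg Units.val hk
    have := (key k).1
    rwa [h3] at this

end

/-- Exceptional Schur multiplier: the Suzuki group Sz(8), built over the field with 8 elements using the map x ↦ x⁴, has Schur multiplier a four-group, the product of two cyclic groups of order 2 (here the Schur multiplier is described through stem extensions, as in the definitions). -/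
theorem result {F : Type*} [Field F] [Fintype F] (hF : Fintype.card F = 8) : Cfsg.HasSchurMultiplier ↥(Cfsg.Lie.Sz F 4) (Multiplicative (ZMod 2 × ZMod 2)) := by
  have hF' : Fintype.card F = 2 ^ (2 * 1 + 1) := hF
  have M : SzModel _ ↥(Cfsg.Lie.Sz F 4) := lieSzModel le_rfl hF'
  have h4 : ∀ x, (Tw.ofCard hF').θ x = x ^ 4 := fun x => Tw.ofCard_θ hF' x
  have h8 : ∀ x : F, x ^ 8 = x := fun x => hF ▸ FiniteField.pow_card x
  have := M.finite
  obtain ⟨A, _, _, hA⟩ := Cfsg.Lib.Solv.exists_hasSchurMultiplier ↥(Cfsg.Lie.Sz F 4)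
  have h1 := lower h4 h8 M hF hA
  obtain ⟨⟨Γ, _, _, σ, hσ, ⟨e⟩⟩, -⟩ := hA
  refine hasSchurMultiplier_of_multLe (multLe_22 (a := 1) (upper h4 h8 M hF)
    (pBound_odd M Nat.prime_three (by norm_num)) (fun p hp hp2 _ => pBound_odd M hp hp2) rfl) hσ ?_
  rw [Nat.card_congr e.toEquiv]
  simpa using h1

end Cfsg.Agent.S2112
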