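import Cfsg.Statements.S2141
import Cfsg.Agent.Class.MinDegSp4

set_option autoImplicit false
open Cfsg

namespace Cfsg.Agent.S2141

open Cfsg.Lib.Class

/-- Minimal index of a proper subgroup of the symplectic groups over fields with at least 3 elements: for m ≥ 2 and a field F with q ≥ 3 elements, (m, q) ≠ (2, 3), every proper subgroup of PSp_2m(F) has index at least (q^(2m) − 1)/(q − 1), and that index is attained. -/
theorem result {F : Type*} [Field F] [Fintype F] {q : ℕ} (hF : Fintype.card F = q) (m : ℕ) (hm : 2 ≤ m) (hq : 3 ≤ q) (hexc : ¬ (m = 2 ∧ q = 3)) : (∀ H : Subgroup (Cfsg.PSp m F), H ≠ ⊤ → (q ^ (2 * m) - 1) / (q - 1) ≤ H.index) ∧ (∃ H : Subgroup (Cfsg.PSp m F), H.index = (q ^ (2 * m) - 1) / (q - 1)) := by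
  subst hF
  let f : SpB (sympBilin m F) →* Cfsg.PSp m F :=
    (QuotientGroup.mk' _).comp (spEquivSpB m F).symm.toMonoidHom
  have hf : Function.Surjective f :=
    (QuotientGroup.mk'_surjective _).comp (spEquivSpB m F).symm.surjective
  refine ⟨fun H hH => MD.le_index_of_action f hf hH ?_, ?_⟩
  · intro _ _ _
    have := MD.Sp_card_ge (Ω := Cfsg.PSp m F ⧸ H) (sympBilin_nondegenerate m)
      (sympBilin_isAlt _) (by rw [finrank_symp_space]; omega) hq
      (by rw [finrank_symp_space]; omega)
    rw [finrank_symp_space] at this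
    exact Nat.div_le_of_le_mul (Nat.sub_le_iff_le_add.2 this)
  · have := SpB_isPreprimitive (sympBilin_nondegenerate (F := F) m) (sympBilin_isAlt m)
    obtain ⟨H, hH⟩ := MD.exists_index_eq_of_action f hf
      (Projectivization.mk F (Pi.single (Sum.inl ⟨0, by omega⟩) 1 : Fin m ⊕ Fin m → F) (by simp))
      (fun g hg => by
        have h3 : (spEquivSpB m F).symm g ∈ Subgroup.center _ :=
          (QuotientGroup.eq_one_iff _).1 hg
        have h4 : g ∈ Subgroup.center _ := Subgroup.mem_center_iff.2 fun a =>
          (spEquivSpB m F).symm.injective (by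
            rw [map_mul, map_mul, Subgroup.mem_center_iff.1 h3])
        rw [Subgroup.smul_def, Projectivization.smul_mk, Projectivization.mk_eq_mk_iff']
        rcases (mem_center_SpB_iff (sympBilin_nondegenerate _) (sympBilin_isAlt _) g).1 h4 with
          h | h
        · exact ⟨1, by rw [one_smul]; exact (h _).symm⟩
        · exact ⟨-1, by rw [neg_one_smul]; exact (h _).symm⟩)
    refine ⟨H, ?_⟩
    rw [hH, Projectivization.card'', Module.natCard_eq_pow_finrank (K := F), finrank_symp_space,
      Nat.card_eq_fintype_card]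

end Cfsg.Agent.S2141
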