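import Cfsg.Statements.S2145
import Cfsg.Agent.Class.MinDegO9

set_option autoImplicit false
open Cfsg

namespace Cfsg.Agent.S2145

open Cfsg.Lib.Class

/-- Minimal index of a proper subgroup of the even-dimensional orthogonal groups of plus type: for m ≥ 4 and a field F with q ≥ 4 elements, every proper subgroup of PΩ⁺_2m(F) (for the form Σ xᵢyᵢ) has index at least (q^m − 1)(q^(m−1) + 1)/(q − 1), and that index is attained (the singular points). -/
theorem result {F : Type*} [Field F] [Fintype F] {q : ℕ} (hF : Fintype.card F = q) (hq : 4 ≤ q) (m : ℕ) (hm : 4 ≤ m) : (∀ H : Subgroup (Cfsg.POmega F (Cfsg.quadFormPlus m F)), H ≠ ⊤ → (q ^ m - 1) * (q ^ (m - 1) + 1) / (q - 1) ≤ H.index) ∧ (∃ H : Subgroup (Cfsg.POmega F (Cfsg.quadFormPlus m F)), H.index = (q ^ m - 1) * (q ^ (m - 1) + 1) / (q - 1)) := by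
  subst hF
  obtain ⟨k, rfl⟩ : ∃ k, m = k + 1 := ⟨m - 1, by omega⟩
  rw [Nat.add_sub_cancel]
  have hQ := quadPlus_nondegenerate (F := F) (k + 1)
  have hn : Module.finrank F (Fin (k + 1) ⊕ Fin (k + 1) → F) = 2 * k + 2 := by simp; omega
  have h1 : 1 ≤ Fintype.card F ^ (k + 1) := Nat.one_le_pow _ _ Fintype.card_pos
  have hb := Nat.div_mul_cancel (Dvd.dvd.mul_right
    (Nat.sub_one_dvd_pow_sub_one (Fintype.card F) (k + 1)) (Fintype.card F ^ k + 1))
  obtain ⟨v, hv0, hv⟩ := Lib.Known.exists_isotropic_of_three_le (quadPlus (k + 1) F) (by omega)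
  rw [← coe_quadPlus]
  refine MD.pomega_min hQ (by omega)
    (fun Ω _ _ _ _ => MD.le_card_plus (by omega) (Or.inl ⟨hq, hb⟩)) hv0 ?_
  rw [hv, MD.ncard_ne_zero_field, MD.ncard_ne_zero_sing, hb]
  have h3 := Orth.sing_quadPlus (F := F) k
  have h4 := Orth.one_le_sing (Q := quadPlus (k + 1) F)
  rw [Nat.card_eq_fintype_card] at h3
  zify [h1, h4]
  rw [h3]
  ring
end Cfsg.Agent.S2145
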