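import Cfsg.Statements.S2146
import Cfsg.Agent.Class.MinDegO9

set_option autoImplicit false
open Cfsg

namespace Cfsg.Agent.S2146

open Cfsg.Lib.Class

/-- Minimal index of a proper subgroup of the even-dimensional orthogonal groups of plus type over the field with 2 elements: for m ≥ 4, every proper subgroup of Ω⁺_2m(2) (for the form Σ xᵢyᵢ) has index at least 2^(m−1)(2^m − 1), and that index is attained. -/
theorem result {F : Type*} [Field F] [Fintype F] (hF : Fintype.card F = 2) (m : ℕ) (hm : 4 ≤ m) : (∀ H : Subgroup (Cfsg.POmega F (Cfsg.quadFormPlus m F)), H ≠ ⊤ → 2 ^ (m - 1) * (2 ^ m - 1) ≤ H.index) ∧ (∃ H : Subgroup (Cfsg.POmega F (Cfsg.quadFormPlus m F)), H.index = 2 ^ (m - 1) * (2 ^ m - 1)) := by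
  obtain ⟨k, rfl⟩ : ∃ k, m = k + 1 := ⟨m - 1, by omega⟩
  rw [Nat.add_sub_cancel]
  have hQ := quadPlus_nondegenerate (F := F) (k + 1)
  have hn : Module.finrank F (Fin (k + 1) ⊕ Fin (k + 1) → F) = 2 * k + 2 := by simp; omega
  obtain ⟨v, hv⟩ := Lib.Known.exists_quad_eq hQ (by omega) 1
  have hv0 : v ≠ 0 := fun h => by
    rw [h, map_zero] at hv
    exact zero_ne_one hv
  rw [← coe_quadPlus]
  refine MD.pomega_min hQ (by omega)
    (fun Ω _ _ _ _ => MD.le_card_plus (by omega) (Or.inr ⟨hF, rfl⟩)) hv0 ?_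
  have h3 : {μ : F | μ ≠ 0 ∧ μ ^ 2 * 1 = 1} = {μ : F | μ ≠ 0 ∧ μ ^ 2 * 0 = 0} := by
    ext μ
    refine ⟨fun h => ⟨h.1, mul_zero _⟩, fun h => ⟨h.1, ?_⟩⟩
    have := FiniteField.pow_card_sub_one_eq_one μ h.1
    rw [hF] at this
    rw [show μ = 1 by simpa using this]
    simp
  rw [hv, h3, MD.ncard_ne_zero_field, MD.ncard_ne_zero_eq one_ne_zero,
    MD.cntQ_quadPlus k one_ne_zero, hF]
  ring
end Cfsg.Agent.S2146
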