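import Cfsg.Statements.S2153
import Cfsg.Agent.Class.MinDegU8

set_option autoImplicit false
open Cfsg

namespace Cfsg.Agent.S2153

open Cfsg.Lib.Class

/-- Minimal index of a proper subgroup of the unitary groups PSU_n(2) with n divisible by 6, realised over the field with 4 elements: every proper subgroup has index at least 2^(n−1)(2^n − 1)/3, and that index is attained. -/
theorem result {F : Type*} [Field F] [Fintype F] (hF : Fintype.card F = 4) (n : ℕ) (hn : 6 ∣ n) (hpos : 6 ≤ n) : (∀ H : Subgroup (Cfsg.PSU n F 2), H ≠ ⊤ → 2 ^ (n - 1) * (2 ^ n - 1) / 3 ≤ H.index) ∧ (∃ H : Subgroup (Cfsg.PSU n F 2), H.index = 2 ^ (n - 1) * (2 ^ n - 1) / 3) := by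
  have hF' : Fintype.card F = 2 ^ 2 := hF
  obtain ⟨i, rfl⟩ := hn
  obtain ⟨j, rfl⟩ : ∃ j, i = j + 1 := ⟨i - 1, by omega⟩
  have h1 : 3 * (2 ^ (6 * (j + 1) - 1) * (2 ^ (6 * (j + 1)) - 1) / 3) =
      2 ^ (6 * (j + 1) - 1) * (2 ^ (6 * (j + 1)) - 1) := by
    refine Nat.mul_div_cancel' (Dvd.dvd.mul_left ?_ _)
    rw [show 6 * (j + 1) = 2 * (3 * (j + 1)) by ring, pow_mul]
    exact Nat.sub_one_dvd_pow_sub_one 4 _
  refine ⟨?_, MD.psu_exists_two hF' (by omega) (by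
    rw [h1, Form.normCount_one hF', if_pos ⟨3 * (j + 1), by ring⟩])⟩
  have h2 : 1 ≤ 2 ^ (6 * j + 4) := Nat.one_le_two_pow
  have h3 : 2 ^ (6 * j + 4 + 2) = 4 * 2 ^ (6 * j + 4) := by ring
  have h4 : 2 ^ (6 * j + 4 + 2 - 1) = 2 * 2 ^ (6 * j + 4) := by
    rw [show 6 * j + 4 + 2 - 1 = 6 * j + 4 + 1 by omega]; ring
  have h5 : 2 ^ (6 * j + 4) = 2 * 2 ^ (6 * j + 4 - 1) := by
    rw [show 6 * j + 4 - 1 = 6 * j + 3 by omega]; ring
  have h6 : 2 ^ (2 * (6 * j + 4)) = 2 ^ (6 * j + 4) * 2 ^ (6 * j + 4) := by ring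
  rw [show 6 * (j + 1) = 6 * j + 4 + 2 by ring] at h1 ⊢
  refine MD.psu_le_of_five hF' (by omega) ?_ ?_
  · rw [Form.normCount_zero hF', if_pos ⟨3 * j + 3, by ring⟩, Nat.add_sub_cancel]
    exact h1.le.trans ((mul_comm _ _).le.trans (Nat.mul_le_mul_left _ (Nat.le_succ _)))
  · rw [Form.normCount_one hF', if_pos ⟨3 * j + 2, by ring⟩]
    refine h1.le.trans ?_
    rw [h3, h4, h6]
    generalize 2 ^ (6 * j + 4 - 1) = u at *
    obtain ⟨w, rfl⟩ : ∃ w, u = w + 1 := ⟨u - 1, by omega⟩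
    rw [h5, show 4 * (2 * (w + 1)) - 1 = 8 * w + 7 by omega, show 2 * (w + 1) - 1 = 2 * w + 1 by omega]
    exact le_of_eq (by norm_num; ring)
end Cfsg.Agent.S2153
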