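import Cfsg.Statements.S2154
import Cfsg.Agent.Chev.CoreAll
import Cfsg.Agent.Chev.SteinbergMat
import Cfsg.Agent.Chev.BorelTits

set_option autoImplicit false
open Cfsg

namespace Cfsg.Agent.S2154

open Cfsg.Lib Cfsg.Lib.Chev Cfsg.Lib.Chev.Core

/-- The Borel–Tits property of the finite Chevalley groups of types G₂, B₂, D₄, F₄, E₆, E₇, E₈ over a finite field of characteristic p: for every non-trivial p-subgroup U of the group G there are an element g of G and a proper set J of fundamental roots such that the normaliser of U in G lies in the conjugate by g of the standard parabolic subgroup P_J and U lies in the conjugate by g of its unipotent radical U_J. -/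
theorem result {F : Type*} [Field F] [Fintype F] (p : ℕ) [Fact p.Prime] [CharP F p] (D : Cfsg.Lie.ChevalleyDatum) (hD : D ∈ [Cfsg.Lie.chevG2, Cfsg.Lie.chevB2, Cfsg.Lie.chevD4, Cfsg.Lie.chevF4, Cfsg.Lie.chevE6, Cfsg.Lie.chevE7, Cfsg.Lie.chevE8]) (U : Subgroup (GL D.Idx F)) (hUG : U ≤ D.group F) (hU : IsPGroup p ↥U) (hne : U ≠ ⊥) : ∃ g ∈ D.group F, ∃ J : Set ℕ, (∃ i, i < D.rank ∧ i ∉ J) ∧ Subgroup.normalizer (U : Set (GL D.Idx F)) ⊓ D.group F ≤ (D.parabolicSubgroup F J).map (MulAut.conj g).toMonoidHom ∧ U ≤ (D.unipotentRadical F J).map (MulAut.conj g).toMonoidHom := by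
  obtain ⟨C, R⟩ := cert_root_of_mem hD
  have : Finite (C.Y F R).G0 := by rw [← C.group_eq_Y R]; infer_instance
  obtain ⟨g, hg, J, hJ, h1, h2⟩ := (C.faithful F R).borel_tits_pgroup (C.isPGroup_U R p)
    (fun _ hh => Cert.eq_one_of_mem_range_torGL R p (C.hSub_le_range R hh))
    (hUG.trans (C.group_eq_Y R).le) hU hne
  have hJ' : (Fin.val ⁻¹' (Fin.val '' J) : Set (Fin D.rank)) = J :=
    Set.preimage_image_eq _ Fin.val_injective
  refine ⟨g, (C.group_eq_Y R).ge hg, Fin.val '' J, ?_, ?_, ?_⟩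
  · obtain ⟨i, hi⟩ := (Set.ne_univ_iff_exists_notMem J).1 hJ
    exact ⟨i, i.2, fun h => hi (by rw [← hJ']; exact h)⟩
  · intro n hn
    rw [C.parabolicSubgroup_eq_Y R, hJ']
    exact ⟨_, h2 n ((C.group_eq_Y R).le hn.2) hn.1, by simp [mul_assoc]⟩
  · intro v hv
    rw [C.unipotentRadical_eq_Y R, hJ']
    exact ⟨_, h1 v hv, by simp [mul_assoc]⟩

end Cfsg.Agent.S2154
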