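import Cfsg.Statements.S2155
import Cfsg.Agent.Chev.UnipMat
import Cfsg.Agent.Chev.CoreAll
import Cfsg.Agent.Local.CharPLocal

set_option autoImplicit false
open Cfsg Cfsg.Lib.Chev Cfsg.Lib.Chev.Core

namespace Cfsg.Agent.S2155

/-- In a Chevalley group of type G₂, B₂, D₄, F₄, E₆, E₇ or E₈ over a finite field of characteristic p (for types G₂ and B₂ the field is assumed to have at least 3 elements, so that the group is simple), the generalized Fitting subgroup of every proper standard parabolic subgroup P_J is a p-group (P_J is p-constrained with trivial largest normal subgroup of order prime to p). -/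
theorem result {F : Type*} [Field F] [Fintype F] (p : ℕ) [Fact p.Prime] [CharP F p] (D : Cfsg.Lie.ChevalleyDatum) (hD : D ∈ [Cfsg.Lie.chevG2, Cfsg.Lie.chevB2, Cfsg.Lie.chevD4, Cfsg.Lie.chevF4, Cfsg.Lie.chevE6, Cfsg.Lie.chevE7, Cfsg.Lie.chevE8]) (hq : (D = Cfsg.Lie.chevG2 ∨ D = Cfsg.Lie.chevB2) → 3 ≤ Fintype.card F) (J : Set ℕ) (hJ : ∃ i, i < D.rank ∧ i ∉ J) : IsPGroup p ↥(Cfsg.generalizedFittingSubgroup ↥(D.parabolicSubgroup F J)) := by
  obtain ⟨C, R⟩ := cert_root_of_mem hD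
  obtain ⟨i, hi, hiJ⟩ := hJ
  have hJ' : (Fin.val ⁻¹' J : Set (Fin D.rank)) ≠ Set.univ :=
    (Set.ne_univ_iff_exists_notMem _).2 ⟨⟨i, hi⟩, hiJ⟩
  rw [C.parabolicSubgroup_eq_Y R]
  have h := Lib.Local.charP_of_le_pCoreOf (p := p)
    (Lib.Local.le_pCoreOf ((C.Y F R).UJ_le_P (Fin.val ⁻¹' J)) ((C.Y F R).P_le_normalizer_UJ _)
      ((C.isPGroup_U R p).to_le ((C.Y F R).UJ_le_U _)))
    ((C.isPGroup_U R p).to_le fun g hg => C.mem_U_of_centralizes_UJ R hJ'
      (C.Y_G0_le_Yhat R ((C.Y F R).P_le_G0 _ hg.1)) fun a ha => (hg.2 a ha).symm)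
  rw [Lib.Local.charP_iff_genFitting.1 h]
  exact Lib.Solv.pCore_isPGroup p _

end Cfsg.Agent.S2155
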