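import Cfsg.Statements.S2159
import Cfsg.Agent.Chev.AutOut

set_option autoImplicit false
open Cfsg Cfsg.Lib.Chev Cfsg.Lib.Chev.Core

namespace Cfsg.Agent.S2159

/-- Structure of the outer automorphism group of the Chevalley group `G` of type G₂, B₂, D₄, F₄, E₆, E₇ or E₈ over a finite field. Let `D̄` be the image in `Out(G)` of the subgroup generated by the diagonal automorphisms and `F̄` the image of the subgroup generated by the field automorphisms. Then `D̄` is a normal abelian subgroup of `Out(G)`, `F̄` is cyclic, `D̄F̄` is a normal subgroup, and the quotient of `Out(G)` by `D̄F̄` is trivial, of order 2, or non-abelian of order 6 (so isomorphic to the symmetric group on three letters): its index is 1 or 2, or it is 6 with the commutator subgroup of `Out(G)` not inside `D̄F̄`. -/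
theorem result {F : Type*} [Field F] [Finite F] (D : Cfsg.Lie.ChevalleyDatum) (hD : D ∈ [Cfsg.Lie.chevG2, Cfsg.Lie.chevB2, Cfsg.Lie.chevD4, Cfsg.Lie.chevF4, Cfsg.Lie.chevE6, Cfsg.Lie.chevE7, Cfsg.Lie.chevE8])
    (Dbar Fbar : Subgroup (Cfsg.Out ↥(D.group F)))
    (hDbar : Dbar = (Subgroup.closure {φ : MulAut ↥(D.group F) | D.IsDiagonalAut φ}).map (QuotientGroup.mk' (Cfsg.Inn ↥(D.group F))))
    (hFbar : Fbar = (Subgroup.closure {φ : MulAut ↥(D.group F) | D.IsFieldAut φ}).map (QuotientGroup.mk' (Cfsg.Inn ↥(D.group F)))) :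
    Dbar.Normal ∧ IsMulCommutative ↥Dbar ∧ IsCyclic ↥Fbar ∧ (Dbar ⊔ Fbar).Normal ∧
      ((Dbar ⊔ Fbar).index = 1 ∨ (Dbar ⊔ Fbar).index = 2 ∨
        ((Dbar ⊔ Fbar).index = 6 ∧ ¬ commutator (Cfsg.Out ↥(D.group F)) ≤ Dbar ⊔ Fbar)) := by
  obtain ⟨C, R⟩ := cert_root_of_mem hD
  have e1 : {φ : MulAut (D.group F) | D.IsDiagonalAut φ} = (C.diagHom F R).range :=
    Set.ext fun _ => C.isDiagonalAut_iff R
  have e2 : {φ : MulAut (D.group F) | D.IsFieldAut φ} = (fieldAutHom D F).range :=
    Set.ext fun _ => C.isFieldAut_iff R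
  rw [e1, Subgroup.closure_eq] at hDbar
  rw [e2, Subgroup.closure_eq] at hFbar
  obtain ⟨h1, h2, h3, φ, h4, h5⟩ := C.out_structure R (tripleCond_of_mem hD) Dbar Fbar hDbar hFbar
  refine ⟨h1, h2, h3, h4 ▸ inferInstance, ?_⟩
  rw [← h4, Subgroup.index_ker, h5]
  simp only [List.mem_cons, List.not_mem_nil, or_false] at hD
  rcases hD with rfl | rfl | rfl | rfl | rfl | rfl | rfl
  · rw [card_range_G2]; split_ifs <;> simp
  · rw [card_range_B2]; split_ifs <;> simp
  · refine Or.inr (Or.inr ⟨card_range_D4 F C R, fun h => ?_⟩)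
    rw [range_D4] at h5
    obtain ⟨a, ha⟩ := h5.ge (show (Equiv.swap 0 2 : Equiv.Perm (Fin 4)) 1 = 1 by decide)
    obtain ⟨b, hb⟩ := h5.ge (show (Equiv.swap 0 3 : Equiv.Perm (Fin 4)) 1 = 1 by decide)
    have := h (Subgroup.commutator_mem_commutator (Subgroup.mem_top a) (Subgroup.mem_top b))
    rw [MonoidHom.mem_ker, map_commutatorElement, ha, hb] at this
    exact absurd this (by decide)
  · rw [card_range_F4]; split_ifs <;> simp
  · rw [card_range_E6]; simp
  · rw [card_range_E7]; simp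
  · rw [card_range_E8]; simp

end Cfsg.Agent.S2159
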