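import Cfsg.Statements.S2161
import Cfsg.Agent.Chev.AutOut

set_option autoImplicit false
open Cfsg Cfsg.Lib.Chev Cfsg.Lib.Chev.Core

namespace Cfsg.Agent.S2161

/-- For the Chevalley groups of types D₄ and E₆ (one root length) over any field: if `π` is a symmetry of the Dynkin diagram and `φ` is an automorphism sending `x_{p_i}(t)` to `x_{p_{π i}}(t)` and `x_{-p_i}(t)` to `x_{-p_{π i}}(t)` for every fundamental root `p_i`, then for every root `r` there is a sign `ε = ±1` with `φ(x_r(t)) = x_{π·r}(ε t)` for all `t`, where `π·r` is the root whose coefficients are those of `r` permuted by `π`. -/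
theorem result {F : Type*} [Field F] (D : Cfsg.Lie.ChevalleyDatum) (hD : D ∈ [Cfsg.Lie.chevD4, Cfsg.Lie.chevE6])
    (π : Equiv.Perm (Fin D.rank)) (hπ : D.IsDiagramSymmetry π) (φ : ↥(D.group F) ≃* ↥(D.group F))
    (hφ : ∀ (g : ↥(D.group F)) (i : Fin D.rank) (t : F),
      (((g : GL D.Idx F) : Matrix D.Idx D.Idx F) = D.x F (D.simple i) t →
        ((φ g : GL D.Idx F) : Matrix D.Idx D.Idx F) = D.x F (D.simple (π i)) t) ∧
      (((g : GL D.Idx F) : Matrix D.Idx D.Idx F) = D.x F (D.neg (D.simple i)) t →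
        ((φ g : GL D.Idx F) : Matrix D.Idx D.Idx F) = D.x F (D.neg (D.simple (π i))) t))
    (r : ℕ) (hr : r < D.nroots) :
    ∃ ε : F, (ε = 1 ∨ ε = -1) ∧ ∀ (g : ↥(D.group F)) (t : F),
      ((g : GL D.Idx F) : Matrix D.Idx D.Idx F) = D.x F r t →
        ((φ g : GL D.Idx F) : Matrix D.Idx D.Idx F) = D.x F (D.permRoot π r) (ε * t) := by
  obtain ⟨C, R⟩ := cert_root_of_mem (D := D)
    (by simp only [List.mem_cons, List.not_mem_nil, or_false] at hD ⊢; tauto)
  simp only [C.eq_xG_iff R] at hφ ⊢
  have key : ∀ A : GraphAut D, π = A.π → ∃ ε : F, (ε = 1 ∨ ε = -1) ∧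
      ∀ (g : D.group F) (t : F), g = xG D F r t → φ g = xG D F (D.permRoot π r) (ε * t) := by
    rintro A rfl
    have : φ = A.aut F C R := C.aut_ext_simple R
      (fun i t => ((hφ _ i t).1 rfl).trans (A.aut_xG_simple R C i t).symm)
      (fun i t => ((hφ _ i t).2 rfl).trans (A.aut_xG_neg_simple R C i t).symm)
    refine ⟨A.ε r, ?_, ?_⟩
    · rcases A.ok.sign r with h | h <;> simp [h]
    · rintro _ t rfl
      rw [this, A.aut_xG C R hr, A.permRoot_eq R hr]
  have key1 : π = 1 → ∃ ε : F, (ε = 1 ∨ ε = -1) ∧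
      ∀ (g : D.group F) (t : F), g = xG D F r t → φ g = xG D F (D.permRoot π r) (ε * t) := by
    rintro rfl
    have : φ = (1 : MulAut (D.group F)) :=
      C.aut_ext_simple R (fun i t => (hφ _ i t).1 rfl) (fun i t => (hφ _ i t).2 rfl)
    refine ⟨1, Or.inl rfl, ?_⟩
    rintro _ t rfl
    have e : D.permRoot 1 r = r := by
      unfold Cfsg.Lie.ChevalleyDatum.permRoot
      cases h : (List.range D.nroots).find? fun u => (List.finRange D.rank).all fun i =>
          (D.coroot.getD u #[]).getD ((1 : Equiv.Perm (Fin D.rank)) i).val 0 ==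
            (D.coroot.getD r #[]).getD i.val 0 with
      | none => rfl
      | some u =>
        have h1 := List.find?_some h
        simp only [List.all_eq_true, beq_iff_eq] at h1
        exact co_inj R (List.mem_range.1 (List.mem_of_find?_eq_some h)) hr
          fun i => h1 i (List.mem_finRange i)
    rw [this, e, one_mul]
    rfl
  simp only [List.mem_cons, List.not_mem_nil, or_false] at hD
  rcases hD with rfl | rfl
  · rcases sym_D4 hπ with h | h | h | h | h | h
    exacts [key1 h, key _ h, key _ h, key _ h, key _ h, key _ h]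
  · rcases sym_E6 hπ with h | h
    exacts [key1 h, key _ h]

end Cfsg.Agent.S2161
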