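import Cfsg.Statements.S2298
import Cfsg.Agent.Known.GL2Table

set_option autoImplicit false
open Cfsg

namespace Cfsg.Agent.S2298

open Cfsg.Lib.Known.GL2 Cfsg.Lib.Char Matrix

/-- Over a finite field F with q elements, every irreducible complex character of GL₂ has degree 1, q − 1, q or q + 1; and when q ≥ 3 (so that these four numbers are distinct) there are exactly q − 1 irreducible characters of degree 1, exactly q − 1 of degree q, exactly (q − 1)(q − 2)/2 of degree q + 1 and exactly q(q − 1)/2 of degree q − 1. -/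
theorem result {F : Type*} [Field F] [Fintype F] :
    (∀ χ : Matrix.GeneralLinearGroup (Fin 2) F → ℂ, Cfsg.IsIrrCharacter (Matrix.GeneralLinearGroup (Fin 2) F) χ →
      χ 1 = 1 ∨ χ 1 = (Fintype.card F : ℂ) - 1 ∨ χ 1 = (Fintype.card F : ℂ) ∨ χ 1 = (Fintype.card F : ℂ) + 1) ∧
    (3 ≤ Fintype.card F →
      Nat.card {χ : Cfsg.IrrCharacter (Matrix.GeneralLinearGroup (Fin 2) F) // (χ : Matrix.GeneralLinearGroup (Fin 2) F → ℂ) 1 = 1} = Fintype.card F - 1 ∧
      Nat.card {χ : Cfsg.IrrCharacter (Matrix.GeneralLinearGroup (Fin 2) F) // (χ : Matrix.GeneralLinearGroup (Fin 2) F → ℂ) 1 = (Fintype.card F : ℂ)} = Fintype.card F - 1 ∧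
      Nat.card {χ : Cfsg.IrrCharacter (Matrix.GeneralLinearGroup (Fin 2) F) // (χ : Matrix.GeneralLinearGroup (Fin 2) F → ℂ) 1 = (Fintype.card F : ℂ) + 1} = (Fintype.card F - 1) * (Fintype.card F - 2) / 2 ∧
      Nat.card {χ : Cfsg.IrrCharacter (Matrix.GeneralLinearGroup (Fin 2) F) // (χ : Matrix.GeneralLinearGroup (Fin 2) F → ℂ) 1 = (Fintype.card F : ℂ) - 1} = Fintype.card F * (Fintype.card F - 1) / 2) := by
  classical
  have := Fintype.ofFinite (GL (Fin 2) F)
  obtain ⟨s, hs, -⟩ := (glLin F).exists_isEll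
  refine ⟨fun χ hχ => ?_, fun hq => ?_⟩
  · rcases irr_cases_GL hs hχ with ⟨γ, rfl⟩ | ⟨γ, rfl⟩ | ⟨α, -, rfl⟩ | ⟨θ, -, rfl⟩
    · exact Or.inl (Lin2.lin_apply_one _ _)
    · exact Or.inr (Or.inr (Or.inl (Lin2.St_mul_lin_one _ _)))
    · exact Or.inr (Or.inr (Or.inr (Lin2.PS_one _ _)))
    · exact Or.inr (Or.inl (Lin2.neg_DS_one _ _ _))
  have h1 : (Fintype.card F : ℂ) ≠ 1 := by exact_mod_cast (by omega : Fintype.card F ≠ 1)
  have h2 : (Fintype.card F : ℂ) ≠ 2 := by exact_mod_cast (by omega : Fintype.card F ≠ 2)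
  have h0 : (Fintype.card F : ℂ) ≠ 0 := by exact_mod_cast (by omega : Fintype.card F ≠ 0)
  refine ⟨?_, ?_, ?_, ?_⟩
  · rw [card_irr_of_injective (glLin F).lin (fun χ => χ 1 = 1)
      (fun γ => ⟨Lin2.isIrr_lin _ _, Lin2.lin_apply_one _ _⟩) lin_injective_GL, card_units_hom]
    intro χ hχ h
    rcases irr_cases_GL hs hχ with ⟨γ, rfl⟩ | ⟨γ, rfl⟩ | ⟨α, -, rfl⟩ | ⟨θ, -, rfl⟩
    · exact ⟨γ, rfl⟩
    · rw [Lin2.St_mul_lin_one] at h; exact absurd h h1
    · rw [Lin2.PS_one] at h; exact absurd (by linear_combination h) h0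
    · rw [Lin2.neg_DS_one] at h; exact absurd (by linear_combination h) h2
  · rw [card_irr_of_injective (fun γ => (glLin F).St * (glLin F).lin γ)
      (fun χ => χ 1 = Fintype.card F)
      (fun γ => ⟨Lin2.isIrr_lin_mul_St _ _, Lin2.St_mul_lin_one _ _⟩), card_units_hom]
    · intro γ γ' h
      beta_reduce at h
      apply detChar_injective_GL (glLin F).exists_mem_T_det
      by_contra hne
      have hl : (glLin F).lin γ ≠ (glLin F).lin γ' := fun h' => hne (by rw [lin_injective_GL h'])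
      have e1 := (glLin F).inner_PS_PS ((glLin F).detChar _ γ) ((glLin F).detChar _ γ')
      rw [(glLin F).isTorus_T.detChar_comp_barHom, if_neg hne, Lin2.PS_detChar, Lin2.PS_detChar,
        ← h, classInner_add_left, classInner_add_right, classInner_add_right,
        ((glLin F).isIrr_lin γ).classInner_of_ne ((glLin F).isIrr_lin γ') hl,
        ((glLin F).isIrr_lin_mul_St γ).classInner_self,
        ((glLin F).isIrr_lin γ).classInner_of_ne ((glLin F).isIrr_lin_mul_St γ),
        ((glLin F).isIrr_lin_mul_St γ).classInner_of_ne ((glLin F).isIrr_lin γ')] at e1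
      · simp at e1
      · intro h'
        have := congrFun h' 1
        rw [Lin2.St_mul_lin_one, Lin2.lin_apply_one] at this
        exact h1 this
      · intro h'
        have := congrFun h' 1
        rw [Lin2.St_mul_lin_one, Lin2.lin_apply_one] at this
        exact h1 this.symm
    intro χ hχ h
    rcases irr_cases_GL hs hχ with ⟨γ, rfl⟩ | ⟨γ, rfl⟩ | ⟨α, -, rfl⟩ | ⟨θ, -, rfl⟩
    · rw [Lin2.lin_apply_one] at h; exact absurd h.symm h1
    · exact ⟨γ, rfl⟩
    · rw [Lin2.PS_one] at h; simp at h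
    · rw [Lin2.neg_DS_one] at h; simp at h
  · have := (glLin F).card_irr_PS (fun χ => χ 1 = (Fintype.card F : ℂ) + 1)
      (fun α _ => Lin2.PS_one _ _) (fun χ hχ h => ?_)
    · rw [card_nonfixed_T_GL] at this
      rw [this]; simp
    rcases irr_cases_GL hs hχ with ⟨γ, rfl⟩ | ⟨γ, rfl⟩ | ⟨α, hα, rfl⟩ | ⟨θ, -, rfl⟩
    · rw [Lin2.lin_apply_one] at h; exact absurd (by linear_combination -h) h0
    · rw [Lin2.St_mul_lin_one] at h; simp at h
    · exact ⟨α, hα, rfl⟩
    · rw [Lin2.neg_DS_one] at h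
      exact absurd (show (2 : ℂ) = 0 by linear_combination -h) two_ne_zero
  · have := (glLin F).card_irr_DS hs (fun χ => χ 1 = (Fintype.card F : ℂ) - 1)
      (fun α _ => Lin2.neg_DS_one _ _ _) (fun χ hχ h => ?_)
    · rw [card_nonfixed_C_GL] at this
      rw [this]; simp
    rcases irr_cases_GL hs hχ with ⟨γ, rfl⟩ | ⟨γ, rfl⟩ | ⟨α, -, rfl⟩ | ⟨θ, hθ, rfl⟩
    · rw [Lin2.lin_apply_one] at h; exact absurd (by linear_combination -h) h2
    · rw [Lin2.St_mul_lin_one] at h
      exact absurd (show (1 : ℂ) = 0 by linear_combination h) one_ne_zero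
    · rw [Lin2.PS_one] at h
      exact absurd (show (2 : ℂ) = 0 by linear_combination h) two_ne_zero
    · exact ⟨θ, hθ, rfl⟩

end Cfsg.Agent.S2298
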