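import Cfsg.Statements.S2299
import Cfsg.Agent.Known.SL2Table2

set_option autoImplicit false
open Cfsg

namespace Cfsg.Agent.S2299

open Cfsg.Lib.Known Cfsg.Lib.Known.GL2 Cfsg.Lib.Char Matrix

/-- Over a finite field F with q elements, q odd, every irreducible complex character of SL₂ has degree 1, q, q + 1, q − 1, (q + 1)/2 or (q − 1)/2; and when q ≥ 5 (so that these six numbers are distinct) there are exactly one irreducible character of degree 1, one of degree q, (q − 3)/2 of degree q + 1, (q − 1)/2 of degree q − 1, two of degree (q + 1)/2 and two of degree (q − 1)/2. -/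
theorem result {F : Type*} [Field F] [Fintype F] (hodd : Odd (Fintype.card F)) :
    (∀ χ : Matrix.SpecialLinearGroup (Fin 2) F → ℂ, Cfsg.IsIrrCharacter (Matrix.SpecialLinearGroup (Fin 2) F) χ →
      χ 1 = 1 ∨ χ 1 = (Fintype.card F : ℂ) ∨ χ 1 = (Fintype.card F : ℂ) + 1 ∨ χ 1 = (Fintype.card F : ℂ) - 1 ∨
        χ 1 = (((Fintype.card F + 1) / 2 : ℕ) : ℂ) ∨ χ 1 = (((Fintype.card F - 1) / 2 : ℕ) : ℂ)) ∧
    (5 ≤ Fintype.card F →
      Nat.card {χ : Cfsg.IrrCharacter (Matrix.SpecialLinearGroup (Fin 2) F) // (χ : Matrix.SpecialLinearGroup (Fin 2) F → ℂ) 1 = 1} = 1 ∧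
      Nat.card {χ : Cfsg.IrrCharacter (Matrix.SpecialLinearGroup (Fin 2) F) // (χ : Matrix.SpecialLinearGroup (Fin 2) F → ℂ) 1 = (Fintype.card F : ℂ)} = 1 ∧
      Nat.card {χ : Cfsg.IrrCharacter (Matrix.SpecialLinearGroup (Fin 2) F) // (χ : Matrix.SpecialLinearGroup (Fin 2) F → ℂ) 1 = (Fintype.card F : ℂ) + 1} = (Fintype.card F - 3) / 2 ∧
      Nat.card {χ : Cfsg.IrrCharacter (Matrix.SpecialLinearGroup (Fin 2) F) // (χ : Matrix.SpecialLinearGroup (Fin 2) F → ℂ) 1 = (Fintype.card F : ℂ) - 1} = (Fintype.card F - 1) / 2 ∧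
      Nat.card {χ : Cfsg.IrrCharacter (Matrix.SpecialLinearGroup (Fin 2) F) // (χ : Matrix.SpecialLinearGroup (Fin 2) F → ℂ) 1 = (((Fintype.card F + 1) / 2 : ℕ) : ℂ)} = 2 ∧
      Nat.card {χ : Cfsg.IrrCharacter (Matrix.SpecialLinearGroup (Fin 2) F) // (χ : Matrix.SpecialLinearGroup (Fin 2) F → ℂ) 1 = (((Fintype.card F - 1) / 2 : ℕ) : ℂ)} = 2) := by
  classical
  have := Fintype.ofFinite (SL2 F)
  obtain ⟨s, hs, -⟩ := (slLin F).exists_isEll
  refine ⟨fun χ hχ => ?_, fun hq => ⟨?_, ?_, ?_, ?_, ?_, ?_⟩⟩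
  · rw [cast_card_add_one, cast_card_sub_one]
    rcases irr_cases_SL' hs hχ with ⟨e, -⟩ | ⟨e, -⟩ | ⟨e, -⟩ | ⟨e, -⟩ | ⟨e, -, -⟩ | ⟨e, -, -⟩ <;>
      simp [e]
  · exact card_irr_unique isIrrCharacter_one (fun χ => χ 1 = 1) rfl
      (fun χ hχ h => eq_one_of_deg_SL hχ (by omega) h)
  · exact card_irr_unique (slLin F).isIrr_St (fun χ => χ 1 = Fintype.card F) (Lin2.St_one _)
      (fun χ hχ h => eq_St_of_deg_SL hχ h)
  · refine Nat.eq_div_of_mul_eq_right two_ne_zero ?_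
    rw [← card_nonfixed_T_SL_odd hodd]
    exact ((slLin F).card_irr_PS (fun χ => χ 1 = (Fintype.card F : ℂ) + 1)
      (fun α _ => Lin2.PS_one _ _) (fun χ hχ h => eq_PS_of_deg_SL hχ h)).symm
  · refine Nat.eq_div_of_mul_eq_right two_ne_zero ?_
    rw [← card_nonfixed_C_SL_odd hodd hs]
    exact ((slLin F).card_irr_DS hs (fun χ => χ 1 = (Fintype.card F : ℂ) - 1)
      (fun α _ => Lin2.neg_DS_one _ _ _) (fun χ hχ h => eq_DS_of_deg_SL hs hχ (by omega) h)).symm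
  · obtain ⟨α, hα⟩ := exists_isQuadChar_T hodd
    obtain ⟨χ₁, χ₂, h⟩ := exists_halfPair_PS hα
    refine card_irr_halfPair h (fun χ => χ 1 = (((Fintype.card F + 1) / 2 : ℕ) : ℂ)) ?_ ?_
      (fun χ hχ h' => ?_)
    · rw [h.apply_one, Lin2.PS_one, cast_half_add hodd]
    · rw [h.symm.apply_one, Lin2.PS_one, cast_half_add hodd]
    · obtain ⟨β, χ', hβ, h''⟩ := half_PS_of_deg_SL hχ hq h'
      have := isCyclic_T_SL (F := F)
      exact ⟨χ', by rwa [hα.unique hβ]⟩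
  · obtain ⟨α, hα⟩ := exists_isQuadChar_C hodd hs
    obtain ⟨χ₁, χ₂, h⟩ := exists_halfPair_DS hs hα
    refine card_irr_halfPair h (fun χ => χ 1 = (((Fintype.card F - 1) / 2 : ℕ) : ℂ)) ?_ ?_
      (fun χ hχ h' => ?_)
    · rw [h.apply_one, Lin2.neg_DS_one, cast_half_sub hodd]
    · rw [h.symm.apply_one, Lin2.neg_DS_one, cast_half_sub hodd]
    · obtain ⟨β, χ', hβ, h''⟩ := half_DS_of_deg_SL hs hχ hq h'
      have := (slLin F).isCyclic_centralizer_ell hs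
      exact ⟨χ', by rwa [hα.unique hβ]⟩

end Cfsg.Agent.S2299
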