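import Cfsg.Statements.S2301
import Cfsg.Agent.Known.SL2Orders

set_option autoImplicit false
open Cfsg

namespace Cfsg.Agent.S2301

open Cfsg.Lib.Known.GL2 Matrix

/-- Over a finite field with q elements of odd characteristic p, the elements of order p of SL₂ (the non-identity unipotent elements) fall into exactly two conjugacy classes, each of size (q² − 1)/2; two upper unitriangular matrices with non-zero off-diagonal entries b and b′ are conjugate exactly when bb′ is a square. -/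
theorem result {F : Type*} [Field F] [Fintype F] (p : ℕ) [Fact p.Prime] [CharP F p] (hp : p ≠ 2) :
    Nat.card {C : ConjClasses (Matrix.SpecialLinearGroup (Fin 2) F) // ∃ g : Matrix.SpecialLinearGroup (Fin 2) F, orderOf g = p ∧ ConjClasses.mk g = C} = 2 ∧
    (∀ g : Matrix.SpecialLinearGroup (Fin 2) F, orderOf g = p → Nat.card (ConjClasses.mk g).carrier = (Fintype.card F ^ 2 - 1) / 2) ∧
    ∀ g h : Matrix.SpecialLinearGroup (Fin 2) F, (g : Matrix (Fin 2) (Fin 2) F) 0 0 = 1 → (g : Matrix (Fin 2) (Fin 2) F) 1 1 = 1 → (g : Matrix (Fin 2) (Fin 2) F) 1 0 = 0 → (g : Matrix (Fin 2) (Fin 2) F) 0 1 ≠ 0 →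
      (h : Matrix (Fin 2) (Fin 2) F) 0 0 = 1 → (h : Matrix (Fin 2) (Fin 2) F) 1 1 = 1 → (h : Matrix (Fin 2) (Fin 2) F) 1 0 = 0 → (h : Matrix (Fin 2) (Fin 2) F) 0 1 ≠ 0 →
      (IsConj g h ↔ IsSquare ((g : Matrix (Fin 2) (Fin 2) F) 0 1 * (h : Matrix (Fin 2) (Fin 2) F) 0 1)) := by
  have h2 : (2 : F) ≠ 0 := two_ne_zero_of_charP p hp
  have hodd := odd_card_of_two_ne_zero h2
  obtain ⟨ν, hν⟩ := FiniteField.exists_nonsquare (ringChar_ne_two_of_odd hodd)
  have hν0 : ν ≠ 0 := by rintro rfl; exact hν IsSquare.zero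
  refine ⟨?_, fun g hg => ?_, fun g h g1 g2 g3 g4 h1 h2 h3 h4 => ?_⟩
  · rw [Nat.card_eq_two_iff]
    refine ⟨⟨ConjClasses.mk ((slLin F).u 1), _, (slLin F).orderOf_u p one_ne_zero, rfl⟩,
      ⟨ConjClasses.mk ((slLin F).u ν), _, (slLin F).orderOf_u p hν0, rfl⟩, ?_, ?_⟩
    · intro h
      have := (isConj_u_iff_SL one_ne_zero hν0).1
        (ConjClasses.mk_eq_mk_iff_isConj.1 (congrArg Subtype.val h))
      exact hν (by rwa [one_mul] at this)
    · rw [Set.eq_univ_iff_forall]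
      rintro ⟨C, g, hg, rfl⟩
      obtain ⟨b, hb, h⟩ := (slLin F).exists_isConj_u_of_orderOf p hg
      simp only [Set.mem_insert_iff, Set.mem_singleton_iff, Subtype.mk.injEq,
        ConjClasses.mk_eq_mk_iff_isConj]
      by_cases hs : IsSquare b
      · exact Or.inl (h.symm.trans ((isConj_u_iff_SL hb one_ne_zero).2 (by rwa [mul_one])))
      · exact Or.inr (h.symm.trans ((isConj_u_iff_SL hb hν0).2
          (isSquare_mul_of_not_isSquare hs hν)))
  · obtain ⟨b, hb, h1⟩ := (slLin F).exists_isConj_u_of_orderOf p hg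
    rw [Cfsg.Lib.Solv.ClassSize.card_carrier_mk, ← index_centralizer_of_isConj h1,
      (slLin F).centralizer_of_mem_P ((slLin F).u_mem_P b)
        (by simpa [Lin2.mem_Z, IsScal] using hb), index_P_SL h2]
  · have e : ∀ x : SL2 F, (x : M2 F) 0 0 = 1 → (x : M2 F) 1 1 = 1 → (x : M2 F) 1 0 = 0 →
        x = (slLin F).u ((x : M2 F) 0 1) := fun x x1 x2 x3 => (slLin F).inj (by
      rw [Lin2.ρ_u, slLin_ρ]
      exact m2_ext (by simp [x1]) (by simp) (by simp [x3]) (by simp [x2]))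
    rw [← isConj_u_iff_SL g4 h4, ← e g g1 g2 g3, ← e h h1 h2 h3]

end Cfsg.Agent.S2301
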