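import Cfsg.Statements.S2302
import Cfsg.Agent.Known.SL2Orders

set_option autoImplicit false
open Cfsg

namespace Cfsg.Agent.S2302

open Cfsg.Lib.Known.GL2 Matrix

/-- Over a finite field with q elements of characteristic 2, the involutions of SL₂ (the non-identity unipotent elements) form a single conjugacy class, of size q² − 1. -/
theorem result {F : Type*} [Field F] [Fintype F] [CharP F 2] (g h : Matrix.SpecialLinearGroup (Fin 2) F) (hg : orderOf g = 2) (hh : orderOf h = 2) :
    IsConj g h ∧ Nat.card (ConjClasses.mk g).carrier = Fintype.card F ^ 2 - 1 := by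
  have h2 : (2 : F) = 0 := CharTwo.two_eq_zero
  obtain ⟨b, hb, h1⟩ := (slLin F).exists_isConj_u_of_orderOf 2 hg
  obtain ⟨c, hc, h3⟩ := (slLin F).exists_isConj_u_of_orderOf 2 hh
  refine ⟨h1.symm.trans (IsConj.trans ?_ h3), ?_⟩
  · exact (isConj_u_iff_SL hb hc).2 (FiniteField.isSquare_of_char_two (ringChar.eq F 2) _)
  · rw [Cfsg.Lib.Solv.ClassSize.card_carrier_mk, ← index_centralizer_of_isConj h1,
      (slLin F).centralizer_of_mem_P ((slLin F).u_mem_P b)
        (by rwa [mem_Z_SL_iff_of_char_two h2, Lin2.u_eq_one_iff]), index_P_SL_char_two h2]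

end Cfsg.Agent.S2302
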