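import Cfsg.Statements.S2304
import Cfsg.Agent.Known.GL2Table

set_option autoImplicit false
open Cfsg

namespace Cfsg.Agent.S2304

open Cfsg.Lib.Known.GL2 Cfsg.Lib.Char Matrix

/-- Over a finite field F with q elements, for multiplicative characters α ≠ β of F, the function induced to GL₂ from the linear character b ↦ α(b₁₁) β(b₂₂) of the upper triangular subgroup B is an irreducible character (of degree q + 1). -/
theorem result {F : Type*} [Field F] [Fintype F] [DecidableEq F] (α β : MulChar F ℂ) (hαβ : α ≠ β) :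
    Cfsg.IsIrrCharacter (Matrix.GeneralLinearGroup (Fin 2) F) (Cfsg.indFun (Cfsg.upperTriangularGL 2 F) (fun b => α (((b : Matrix.GeneralLinearGroup (Fin 2) F) : Matrix (Fin 2) (Fin 2) F) 0 0) * β (((b : Matrix.GeneralLinearGroup (Fin 2) F) : Matrix (Fin 2) (Fin 2) F) 1 1))) := by
  rw [indFun_GL_eq_PS]
  refine (glLin F).isIrr_PS ?_
  rw [Lin2.tchar_comp_barT, Ne, tchar_inj_GL]
  exact fun h => hαβ h.2

end Cfsg.Agent.S2304
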