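import Cfsg.Statements.S2307
import Cfsg.Agent.Known.SL2Table2

set_option autoImplicit false
open Cfsg

namespace Cfsg.Agent.S2307

open Cfsg.Lib.Known Cfsg.Lib.Known.GL2 Cfsg.Lib.Char Matrix

/-- Over a finite field F with q elements, q odd, let α be the multiplicative character of F of order 2. The character of SL₂ induced from the linear character b ↦ α(b₁₁) of the upper triangular subgroup is the sum of two distinct irreducible characters, each of degree (q + 1)/2, which are conjugate under GL₂: some fixed element of GL₂ conjugates the one into the other. -/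
theorem result {F : Type*} [Field F] [Fintype F] [DecidableEq F] (hodd : Odd (Fintype.card F)) (α : MulChar F ℂ)
    (hα : α ^ 2 = 1) (hα1 : α ≠ 1) :
    ∃ χ₁ χ₂ : Matrix.SpecialLinearGroup (Fin 2) F → ℂ, Cfsg.IsIrrCharacter (Matrix.SpecialLinearGroup (Fin 2) F) χ₁ ∧ Cfsg.IsIrrCharacter (Matrix.SpecialLinearGroup (Fin 2) F) χ₂ ∧ χ₁ ≠ χ₂ ∧
      Cfsg.indFun ((Cfsg.upperTriangularGL 2 F).comap Matrix.SpecialLinearGroup.toGL) (fun b => α (((b : Matrix.SpecialLinearGroup (Fin 2) F) : Matrix (Fin 2) (Fin 2) F) 0 0)) = χ₁ + χ₂ ∧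
      χ₁ 1 = (((Fintype.card F + 1) / 2 : ℕ) : ℂ) ∧ χ₂ 1 = (((Fintype.card F + 1) / 2 : ℕ) : ℂ) ∧
      ∃ x : Matrix.GeneralLinearGroup (Fin 2) F, ∀ g h : Matrix.SpecialLinearGroup (Fin 2) F,
        Matrix.SpecialLinearGroup.toGL h = x * Matrix.SpecialLinearGroup.toGL g * x⁻¹ → χ₂ h = χ₁ g := by
  have h2 := two_ne_zero_of_odd hodd
  have hq : IsQuadChar ((slLin F).tchar α 1) :=
    ⟨by rwa [← tchar_one_one_SL, Ne, tchar_one_inj_SL],
      (fixed_iff_SL _).1 (tchar_one_fixed_iff_SL.2 hα)⟩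
  obtain ⟨χ₁, χ₂, h⟩ := exists_halfPair_PS hq
  obtain ⟨ν, hν⟩ := FiniteField.exists_nonsquare (ringChar_ne_two_of_odd hodd)
  have hν0 : ν ≠ 0 := by rintro rfl; exact hν IsSquare.zero
  obtain ⟨x, hx⟩ := glLin_exists (m := !![ν, 0; 0, 1]) (by simp [det_fin_two, hν0])
  refine ⟨χ₁, χ₂, h.irr₁, h.irr₂, h.ne, by rw [indFun_SL_eq_PS, h.sum],
    by rw [h.apply_one, Lin2.PS_one, cast_half_add hodd],
    by rw [h.symm.apply_one, Lin2.PS_one, cast_half_add hodd], x, fun g g' hg => ?_⟩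
  have hx' : (x : M2 F) = !![ν, 0; 0, 1] := hx
  have e : (x : M2 F) * (slLin F).ρ g = (slLin F).ρ g' * x := by
    have := congrArg (fun y : GL (Fin 2) F => (y : M2 F)) (eq_mul_inv_iff_mul_eq.1 hg)
    exact this.symm
  have hdet : (x : M2 F).det ≠ 0 := x.det_ne_zero
  have htr := trace_eq_of_conj hdet e
  rcases (slLin F).types g with hZ | ⟨z, hz, b, hb, hc⟩ | ⟨t, ht, ht', hc⟩ | hE
  · rw [(slLin F).inj (IsScal.eq_of_conj hZ hdet e), h.eq_T g ((slLin F).Z_le_T hZ)]
  · obtain ⟨y, rfl⟩ := isConj_iff.1 hc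
    have hc2 : IsConj (z * (slLin F).u (ν * b)) g' := by
      refine (slLin F).isConj_of_det_one (x := (x : M2 F) * (slLin F).ρ y * (x⁻¹ : GL (Fin 2) F))
        ?_ ?_
      · rw [det_mul, det_mul, det_SL, mul_one, ← det_mul, Units.mul_inv, det_one]
      · have e2 : (slLin F).ρ (z * (slLin F).u (ν * b)) =
            (x : M2 F) * (slLin F).ρ (z * (slLin F).u b) * (x⁻¹ : GL (Fin 2) F) := by
          rw [Units.eq_mul_inv_iff_mul_eq, (slLin F).ρ_Z_mul_u hz, (slLin F).ρ_Z_mul_u hz, hx']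
          simp [mul_comm, mul_left_comm, mul_assoc]
        have e3 : (slLin F).ρ g' = (x : M2 F) * (slLin F).ρ (y * (z * (slLin F).u b) * y⁻¹) *
            (x⁻¹ : GL (Fin 2) F) := by rw [Units.eq_mul_inv_iff_mul_eq, e]
        have e4 : (slLin F).ρ y⁻¹ * (slLin F).ρ y = 1 := by rw [← map_mul, inv_mul_cancel, map_one]
        rw [e2, e3, map_mul (slLin F).ρ (y * _), map_mul (slLin F).ρ y]
        simp only [Matrix.mul_assoc, Units.inv_mul_cancel_left]
        rw [← Matrix.mul_assoc ((slLin F).ρ y⁻¹), e4, Matrix.one_mul]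
    rw [← h.irr₂.isClassFunction.eq_of_isConj hc2, ← h.irr₁.isClassFunction.eq_of_isConj hc]
    have a1 := h.apply_Z_mul hz ((slLin F).u b)
    have a2 := h.apply_Z_mul hz ((slLin F).u (ν * b))
    rw [HalfPair_sub_u h2 h hb] at a1
    rw [HalfPair_sub_u h2 h (mul_ne_zero hν0 hb), map_mul,
      quadraticChar_neg_one_iff_not_isSquare.2 hν] at a2
    have a3 := congrFun h.sum (z * (slLin F).u b)
    have a4 := congrFun h.sum (z * (slLin F).u (ν * b))
    rw [(slLin F).PS_u _ hz hb, Pi.add_apply] at a3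
    rw [(slLin F).PS_u _ hz (mul_ne_zero hν0 hb), Pi.add_apply] at a4
    push_cast at a2
    linear_combination (a3 - a4 - a1 - a2) / 2
  · have hd : disc ((slLin F).ρ g) ≠ 0 := by
      rw [← (slLin F).disc_eq_of_isConj hc]; exact (slLin F).disc_ne_zero_of_mem_T ht ht'
    have hc2 : IsConj g g' := (slLin F).isConj_of_trace_det hd htr (by rw [det_SL, det_SL])
    rw [← h.irr₂.isClassFunction.eq_of_isConj (hc.trans hc2),
      ← h.irr₁.isClassFunction.eq_of_isConj hc, h.eq_T t ht]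
  · have hc2 : IsConj g g' :=
      (slLin F).isConj_of_trace_det hE.disc_ne_zero htr (by rw [det_SL, det_SL])
    rw [← h.irr₂.isClassFunction.eq_of_isConj hc2, h.eq_ell g hE]

end Cfsg.Agent.S2307
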