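import Cfsg.Statements.S2308
import Cfsg.Agent.Known.GL2St

set_option autoImplicit false
open Cfsg

namespace Cfsg.Agent.S2308

open Cfsg.Lib.Known.GL2 Cfsg.Lib.Char Matrix

/-- Values of the permutation character of GL₂ over a finite field F with q elements on the cosets of its upper triangular subgroup (equivalently, the number of lines of F² that an element maps to themselves): q + 1 at a scalar matrix, 2 at a diagonal matrix with two different diagonal entries, 0 at an element with no eigenvector in F², and 1 at an upper triangular matrix with equal diagonal entries and non-zero upper right entry. -/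
theorem result {F : Type*} [Field F] [Fintype F] (g : Matrix.GeneralLinearGroup (Fin 2) F) :
    ((∃ a : F, (g : Matrix (Fin 2) (Fin 2) F) = a • (1 : Matrix (Fin 2) (Fin 2) F)) → Cfsg.fixedPointCharacter (Cfsg.upperTriangularGL 2 F) g = Fintype.card F + 1) ∧
    ((g : Matrix (Fin 2) (Fin 2) F) 0 1 = 0 → (g : Matrix (Fin 2) (Fin 2) F) 1 0 = 0 → (g : Matrix (Fin 2) (Fin 2) F) 0 0 ≠ (g : Matrix (Fin 2) (Fin 2) F) 1 1 →
      Cfsg.fixedPointCharacter (Cfsg.upperTriangularGL 2 F) g = 2) ∧
    ((∀ (c : F) (v : Fin 2 → F), v ≠ 0 → (g : Matrix (Fin 2) (Fin 2) F).mulVec v ≠ c • v) → Cfsg.fixedPointCharacter (Cfsg.upperTriangularGL 2 F) g = 0) ∧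
    ((g : Matrix (Fin 2) (Fin 2) F) 1 0 = 0 → (g : Matrix (Fin 2) (Fin 2) F) 0 0 = (g : Matrix (Fin 2) (Fin 2) F) 1 1 → (g : Matrix (Fin 2) (Fin 2) F) 0 1 ≠ 0 →
      Cfsg.fixedPointCharacter (Cfsg.upperTriangularGL 2 F) g = 1) := by
  classical
  have := Fintype.ofFinite (GL (Fin 2) F)
  have e : fixedPointCharacter (upperTriangularGL 2 F) g = (glLin F).PS 1 g := by
    rw [fixedPointCharacter, ← indFun_one_eq_card_fixedBy]
    exact congrFun (indFun_congr (upperTriangularGL 2 F) (glLin F).B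
      (fun _ => mem_upperTriangularGL_two) (fun _ => 1) (fun _ => 1) (fun b => rfl)) g
  rw [e]
  refine ⟨fun h => ?_, fun h1 h2 h3 => ?_, fun h => (glLin F).PS_ell _ h, fun h1 h2 h3 => ?_⟩
  · rw [(glLin F).PS_Z _ (isScal_iff_eq_smul.2 h)]; simp
  · rw [(glLin F).PS_T _ ⟨g, h1, h2⟩ (fun h => h3 h.2.2)]; norm_num
  · obtain ⟨z, hz, b, rfl⟩ := (glLin F).exists_Z_mul_u (g := g) ⟨h1, h2⟩
    have hb : b ≠ 0 := by
      rintro rfl
      rw [Lin2.u_zero, mul_one] at h3
      exact h3 hz.1
    rw [(glLin F).PS_u _ hz hb]; simp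

end Cfsg.Agent.S2308
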