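import Cfsg.Statements.S2309
import Cfsg.Agent.Known.GL2Table

set_option autoImplicit false
open Cfsg

namespace Cfsg.Agent.S2309

open Cfsg.Lib.Known.GL2 Cfsg.Lib.Char Matrix

/-- Over a finite field F with q elements: every irreducible complex character of GL₂ of degree q − 1 vanishes at every diagonal matrix with two distinct entries, and every irreducible complex character of degree q + 1 vanishes at every element with no eigenvector in F². -/
theorem result {F : Type*} [Field F] [Fintype F] (χ : Matrix.GeneralLinearGroup (Fin 2) F → ℂ) (hχ : Cfsg.IsIrrCharacter (Matrix.GeneralLinearGroup (Fin 2) F) χ) (g : Matrix.GeneralLinearGroup (Fin 2) F) :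
    (χ 1 = (Fintype.card F : ℂ) - 1 → (g : Matrix (Fin 2) (Fin 2) F) 0 1 = 0 → (g : Matrix (Fin 2) (Fin 2) F) 1 0 = 0 → (g : Matrix (Fin 2) (Fin 2) F) 0 0 ≠ (g : Matrix (Fin 2) (Fin 2) F) 1 1 → χ g = 0) ∧
    (χ 1 = (Fintype.card F : ℂ) + 1 → (∀ (c : F) (v : Fin 2 → F), v ≠ 0 → (g : Matrix (Fin 2) (Fin 2) F).mulVec v ≠ c • v) → χ g = 0) := by
  classical
  have := Fintype.ofFinite (GL (Fin 2) F)
  obtain ⟨s, hs, -⟩ := (glLin F).exists_isEll
  have h0 : (Fintype.card F : ℂ) ≠ 0 := Lin2.q_ne_zero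
  refine ⟨fun h h1 h2 h3 => ?_, fun h hg => ?_⟩
  · rcases irr_cases_GL hs hχ with ⟨γ, rfl⟩ | ⟨γ, rfl⟩ | ⟨α, -, rfl⟩ | ⟨θ, hθ, rfl⟩
    · rw [Lin2.lin_apply_one] at h
      have h4 : Fintype.card F = 2 := by
        exact_mod_cast (show (Fintype.card F : ℂ) = 2 by linear_combination -h)
      exfalso
      obtain ⟨h5, h6⟩ := (glLin F).entry_ne_zero_of_mem_B (g := g) h2
      have h7 : Fintype.card Fˣ ≤ 1 := by rw [Fintype.card_units, h4]
      exact h3 (congrArg Units.val (Fintype.card_le_one_iff.1 h7 (Units.mk0 _ h5) (Units.mk0 _ h6)))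
    · rw [Lin2.St_mul_lin_one] at h
      exact absurd (show (1 : ℂ) = 0 by linear_combination h) one_ne_zero
    · rw [Lin2.PS_one] at h
      exact absurd (show (2 : ℂ) = 0 by linear_combination h) two_ne_zero
    · rw [Pi.neg_apply, (glLin F).DS_T hs θ ⟨h1, h2⟩ (fun h => h3 h.2.2), neg_zero]
  · rcases irr_cases_GL hs hχ with ⟨γ, rfl⟩ | ⟨γ, rfl⟩ | ⟨α, hα, rfl⟩ | ⟨θ, -, rfl⟩
    · rw [Lin2.lin_apply_one] at h; exact absurd (by linear_combination -h) h0
    · rw [Lin2.St_mul_lin_one] at h; simp at h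
    · exact (glLin F).PS_ell _ hg
    · rw [Lin2.neg_DS_one] at h
      exact absurd (show (2 : ℂ) = 0 by linear_combination -h) two_ne_zero

end Cfsg.Agent.S2309
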