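import Cfsg.Statements.S2310
import Cfsg.Agent.Known.GL2Table

set_option autoImplicit false
open Cfsg

namespace Cfsg.Agent.S2310

open Cfsg.Lib.Known.GL2 Cfsg.Lib.Char Matrix

/-- Over a finite field F with q ≥ 3 elements, let u be the upper unitriangular matrix of GL₂ with off-diagonal entry 1. An irreducible complex character χ of GL₂ takes at u the value 1 if χ has degree 1 or q + 1, the value −1 if χ has degree q − 1, and the value 0 if χ has degree q. -/
theorem result {F : Type*} [Field F] [Fintype F] (hq : 3 ≤ Fintype.card F) (χ : Matrix.GeneralLinearGroup (Fin 2) F → ℂ) (hχ : Cfsg.IsIrrCharacter (Matrix.GeneralLinearGroup (Fin 2) F) χ)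
    (u : Matrix.GeneralLinearGroup (Fin 2) F) (hu : (u : Matrix (Fin 2) (Fin 2) F) = !![1, 1; 0, 1]) :
    (χ 1 = 1 → χ u = 1) ∧ (χ 1 = (Fintype.card F : ℂ) + 1 → χ u = 1) ∧
    (χ 1 = (Fintype.card F : ℂ) - 1 → χ u = -1) ∧ (χ 1 = (Fintype.card F : ℂ) → χ u = 0) := by
  classical
  have := Fintype.ofFinite (GL (Fin 2) F)
  obtain ⟨s, hs, -⟩ := (glLin F).exists_isEll
  have h1 : (Fintype.card F : ℂ) ≠ 1 := by exact_mod_cast (by omega : Fintype.card F ≠ 1)
  have h2 : (Fintype.card F : ℂ) ≠ 2 := by exact_mod_cast (by omega : Fintype.card F ≠ 2)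
  have h0 : (Fintype.card F : ℂ) ≠ 0 := by exact_mod_cast (by omega : Fintype.card F ≠ 0)
  have hu' : u = 1 * (glLin F).u 1 := (glLin F).inj (by rw [one_mul, Lin2.ρ_u]; exact hu)
  have hz := (glLin F).Z.one_mem
  have e1 : ∀ (S : Subgroup (GL (Fin 2) F)) (h : 1 ∈ S) (θ : S →* ℂˣ), (θ ⟨1, h⟩ : ℂ) = 1 :=
    fun S h θ => congrArg Units.val θ.map_one
  rw [hu']
  rcases irr_cases_GL hs hχ with ⟨γ, rfl⟩ | ⟨γ, rfl⟩ | ⟨α, hα, rfl⟩ | ⟨θ, -, rfl⟩
  · rw [Lin2.lin_mul_u, Lin2.lin_apply_one]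
    exact ⟨fun _ => rfl, fun _ => rfl, fun h => absurd (by linear_combination -h) h2,
      fun h => absurd h.symm h1⟩
  · rw [Lin2.St_mul_lin_one, Pi.mul_apply, (glLin F).St_u hz one_ne_zero, zero_mul]
    exact ⟨fun h => absurd h h1, fun h => by simp at h,
      fun h => absurd (show (1 : ℂ) = 0 by linear_combination h) one_ne_zero, fun _ => rfl⟩
  · rw [Lin2.PS_one, (glLin F).PS_u _ hz one_ne_zero, e1]
    exact ⟨fun _ => rfl, fun _ => rfl,
      fun h => absurd (show (2 : ℂ) = 0 by linear_combination h) two_ne_zero, fun h => by simp at h⟩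
  · rw [Lin2.neg_DS_one, Pi.neg_apply, (glLin F).DS_u hs _ hz one_ne_zero, e1]
    exact ⟨fun h => absurd (by linear_combination h) h2,
      fun h => absurd (show (2 : ℂ) = 0 by linear_combination -h) two_ne_zero, fun _ => rfl,
      fun h => by simp at h⟩

end Cfsg.Agent.S2310
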