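import Cfsg.Statements.S2315
import Mathlib
import Cfsg.Agent.Chev.LieModel
import Cfsg.Agent.Known.SylHomo
import Cfsg.Agent.Known.GLClasses
import Cfsg.Agent.S0242

set_option autoImplicit false
open Cfsg

namespace Cfsg.Agent.S2315

open Cfsg.Lib.Chev Cfsg.Lib.Known

theorem card_unip_SL {F : Type*} [Field F] [Fintype F] (p : ℕ) [Fact p.Prime] [CharP F p] (m : ℕ) :
    Nat.card {g : Matrix.SpecialLinearGroup (Fin (m + 1)) F // ∃ k : ℕ, orderOf g = p ^ k} =
      Fintype.card F ^ ((m + 1) * m) := by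
  let Z := (slGr m F).faithful.splitAt slGr_G0 ((slGr m F).isPGroup_U p) fun h hh =>
    eq_one_of_map ((slGr m F).eq_one_of_pow slGr_wt_injective p) (MonoidHom.id _) h ⟨h, hh, rfl⟩
  obtain ⟨P⟩ : Nonempty (Sylow p (⊤ : Subgroup (Matrix.SpecialLinearGroup (Fin (m + 1)) F))) :=
    inferInstance
  obtain ⟨n, hp, hn⟩ := FiniteField.card F p
  have hq : 1 < Fintype.card F := Fintype.one_lt_card
  have hnd : ∀ j, ¬ p ∣ Fintype.card F ^ (j + 1) - 1 := fun j hi => by
    have h2 : p ∣ Fintype.card F ^ (j + 1) :=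
      dvd_pow (hn ▸ dvd_pow_self p n.ne_zero) (by omega)
    exact hp.one_lt.ne' (Nat.dvd_one.1 ((Nat.dvd_add_right hi).1
      (by rwa [Nat.sub_add_cancel (Nat.one_le_pow _ _ Fintype.card_pos)])))
  have h1 : ¬ p ∣ ∏ i ∈ Finset.range (m + 1), (Fintype.card F ^ (i + 1) - 1) := fun h => by
    obtain ⟨i, -, hi⟩ := (hp.prime.dvd_finsetProd_iff _).1 h
    exact hnd i hi
  have h0 : ¬ p ∣ Fintype.card F - 1 := by simpa using hnd 0
  have hc := Cfsg.Agent.S0242.result (F := F) rfl (m + 1) (by omega)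
  rw [SylH.prod_gl_eq] at hc
  have hf := congrArg (fun x => x.factorization p) hc
  rw [Nat.factorization_mul (by omega) Nat.card_pos.ne', Finsupp.add_apply,
    Nat.factorization_eq_zero_of_not_dvd h0, zero_add,
    Nat.factorization_mul (by positivity) fun e => h1 (by rw [e]; exact dvd_zero p),
    Finsupp.add_apply, Nat.factorization_eq_zero_of_not_dvd h1, hn, ← pow_mul p n,
    hp.factorization_pow, Finsupp.single_eq_same, add_zero] at hf
  rw [← Nat.card_congr (Subgroup.topEquiv.toEquiv.subtypeEquiv fun g => by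
    rw [MulEquiv.toEquiv_eq_coe, MulEquiv.coe_toEquiv, MulEquiv.orderOf_eq]), Z.card_pElements,
    ← Z.card_sylow P, Sylow.card_eq_multiplicity, Subgroup.card_top, hf, hn, ← pow_mul, ← pow_mul,
    mul_assoc, Finset.sum_range_id_mul_two]
  simp

/-- Steinberg's count of unipotent elements for the general linear group: over a finite field with q elements of characteristic p, the number of elements of GL_n of p-power order (the unipotent matrices) is q^(n(n−1)). -/
theorem result {F : Type*} [Field F] [Fintype F] (p : ℕ) [Fact p.Prime] [CharP F p] (n : ℕ) :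
    Nat.card {g : Matrix.GeneralLinearGroup (Fin n) F // ∃ k : ℕ, orderOf g = p ^ k} = Fintype.card F ^ (n * (n - 1)) := by
  rcases n with _ | m
  · have : Subsingleton (Matrix.GeneralLinearGroup (Fin 0) F) := inferInstance
    rw [Nat.zero_mul, pow_zero, Nat.card_eq_one_iff_unique]
    exact ⟨inferInstance, ⟨⟨1, 0, by simp⟩⟩⟩
  rw [Nat.add_sub_cancel, ← card_unip_SL p m]
  symm
  have hinj : Function.Injective (Matrix.SpecialLinearGroup.toGL :
      Matrix.SpecialLinearGroup (Fin (m + 1)) F →* GL (Fin (m + 1)) F) :=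
    Matrix.SpecialLinearGroup.toGL_injective
  refine Nat.card_congr (Equiv.ofBijective (fun g => ⟨Matrix.SpecialLinearGroup.toGL g.1, by
    rw [orderOf_injective _ hinj]; exact g.2⟩) ⟨fun g h e => Subtype.ext (hinj (Subtype.mk.inj e)), ?_⟩)
  rintro ⟨g, k, hk⟩
  have hdet : (g : Matrix (Fin (m + 1)) (Fin (m + 1)) F).det = 1 := by
    have h1 : g ^ p ^ k = 1 := hk ▸ pow_orderOf_eq_one g
    have h2 : (g : Matrix (Fin (m + 1)) (Fin (m + 1)) F).det ^ p ^ k = 1 := by
      rw [← Matrix.det_pow, ← Units.val_pow_eq_pow_val, h1, Units.val_one, Matrix.det_one]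
    have h3 : ((g : Matrix (Fin (m + 1)) (Fin (m + 1)) F).det - 1) ^ p ^ k = 0 := by
      rw [sub_pow_char_pow, h2, one_pow, sub_self]
    exact sub_eq_zero.1 (pow_eq_zero_iff (pow_ne_zero k (Fact.out : p.Prime).ne_zero) |>.1 h3)
  have he : Matrix.SpecialLinearGroup.toGL (⟨g, hdet⟩ : Matrix.SpecialLinearGroup (Fin (m + 1)) F) = g :=
    Units.ext rfl
  exact ⟨⟨⟨g, hdet⟩, k, (orderOf_injective _ hinj _).symm.trans ((congrArg orderOf he).trans hk)⟩, Subtype.ext he⟩

end Cfsg.Agent.S2315
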