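import Cfsg.Statements.S2316
import Cfsg.Agent.Chev.LieModel
import Cfsg.Agent.Class.SpOrder
-- import your own Cfsg.Agent.* helpers here

set_option autoImplicit false
open Cfsg

namespace Cfsg.Agent.S2316

open Cfsg.Lib.Chev Cfsg.Lib.Class

/-- Steinberg's count of unipotent elements for the symplectic group: over a finite field with q elements of characteristic p, the number of elements of Sp_{2m} of p-power order is q^(2m²). -/
theorem result {F : Type*} [Field F] [Fintype F] (p : ℕ) [Fact p.Prime] [CharP F p] (m : ℕ) :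
    Nat.card {g : ↥(Matrix.symplecticGroup (Fin m) F) // ∃ k : ℕ, orderOf g = p ^ k} = Fintype.card F ^ (2 * m ^ 2) := by
  let Z := (spGr m F).faithful.splitAt spGr_G0 ((spGr m F).isPGroup_U p) fun h hh =>
    eq_one_of_map ((spGr m F).eq_one_of_pow wtH_injective p) (MonoidHom.id _) h ⟨h, hh, rfl⟩
  obtain ⟨P⟩ : Nonempty (Sylow p (⊤ : Subgroup (Matrix.symplecticGroup (Fin m) F))) := inferInstance
  obtain ⟨n, hp, hn⟩ := FiniteField.card F p
  have h1 : ¬ p ∣ ∏ i ∈ Finset.range m, (Fintype.card F ^ (2 * (i + 1)) - 1) := fun h => by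
    obtain ⟨i, -, hi⟩ := (hp.prime.dvd_finsetProd_iff _).1 h
    have h2 : p ∣ Fintype.card F ^ (2 * (i + 1)) :=
      dvd_pow (hn ▸ dvd_pow_self p n.ne_zero) (by omega)
    exact hp.one_lt.ne' (Nat.dvd_one.1 ((Nat.dvd_add_right hi).1
      (by rwa [Nat.sub_add_cancel (Nat.one_le_pow _ _ Fintype.card_pos)])))
  rw [mul_comm, pow_mul, ← Nat.card_congr (Subgroup.topEquiv.toEquiv.subtypeEquiv fun g => by
    rw [MulEquiv.toEquiv_eq_coe, MulEquiv.coe_toEquiv, MulEquiv.orderOf_eq]), Z.card_pElements,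
    ← Z.card_sylow P, Sylow.card_eq_multiplicity, Subgroup.card_top, card_symplecticGroup, spOrd,
    Nat.factorization_mul (by positivity) fun e => h1 (by rw [e]; exact dvd_zero p), Finsupp.add_apply,
    Nat.factorization_eq_zero_of_not_dvd h1, hn, ← pow_mul p n, hp.factorization_pow]
  simp

end Cfsg.Agent.S2316
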