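import Cfsg.Statements.S2318
import Cfsg.Agent.Chev.CoreAll
import Cfsg.Agent.Chev.SteinbergMat
import Cfsg.Agent.Block.DefZeroRGD
-- import your own Cfsg.Agent.* helpers here

set_option autoImplicit false
open Cfsg

namespace Cfsg.Agent.S2318

open Cfsg.Lib Cfsg.Lib.Chev Cfsg.Lib.Chev.Core Cfsg.Lib.Block.DZ

/-- In a Chevalley group of type G₂, B₂, D₄, F₄, E₆, E₇ or E₈ over a finite field of characteristic p (for types G₂ and B₂ the field is assumed to have at least 3 elements, so that the group is perfect), the Steinberg character is the only irreducible complex character whose degree is divisible by the full power of p dividing the group order (the only irreducible character of p-defect zero). -/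
theorem result {F : Type*} [Field F] [Fintype F] (p : ℕ) [Fact p.Prime] [CharP F p] (D : Cfsg.Lie.ChevalleyDatum) (hD : D ∈ [Cfsg.Lie.chevG2, Cfsg.Lie.chevB2, Cfsg.Lie.chevD4, Cfsg.Lie.chevF4, Cfsg.Lie.chevE6, Cfsg.Lie.chevE7, Cfsg.Lie.chevE8]) (hq : (D = Cfsg.Lie.chevG2 ∨ D = Cfsg.Lie.chevB2) → 3 ≤ Fintype.card F)
    (χ : ↥(D.group F) → ℂ) (hχ : Cfsg.IsIrrCharacter ↥(D.group F) χ)
    (hdeg : ∃ d : ℕ, χ 1 = (d : ℂ) ∧ p ^ (Nat.card ↥(D.group F)).factorization p ∣ d) :
    χ = D.steinbergCharacter F := by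
  obtain ⟨C, R⟩ := cert_root_of_mem hD
  obtain ⟨d, hd, hdvd⟩ := hdeg
  rw [C.steinbergCharacter_eq R]
  have h := C.stRelN F R
  refine eq_St (C.faithful F R) _ (C.isPGroup_U R p)
    (fun _ hh => Cert.eq_one_of_mem_range_torGL R p (C.hSub_le_range R hh)) ?_ hχ hd hdvd
  have key : ∀ (i : Fin D.rank) (s : Fˣ),
      RankOne (C.Y F R) (hel D (xGL D F) (D.simple i) s) := fun i s => by
    have hr := R.simple_lt i i.2
    have hn := R.neg_lt hr
    have hs := s.ne_zero
    have hH : hel D (xGL D F) (D.simple i) s ∈ (C.Y F R).H := hel_mem_hSub _ hr hs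
    refine rankOne_of_param hH i (xGL D F (D.neg (D.simple i)))
      (fun t => x_mem_xSub _ _ t) (C.xGL_injective R hn)
      (fun x hx => by
        obtain ⟨t, rfl⟩ := (h.toStRel.mem_xSub_iff hn).1 hx
        exact ⟨t, rfl⟩)
      (Equiv.mulLeft₀ (s : F)⁻¹ (inv_ne_zero hs)) (fun t ht => ?_) (fun t ht => ?_)
    · have : t = 0 := C.xGL_injective R hn (ht.trans (h.toStRel.zero hn).symm)
      subst this
      simpa using ht
    · have t0 : t ≠ 0 := by
        rintro rfl
        exact ht (h.toStRel.zero hn)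
      have hx : ∀ u, xGL D F (D.simple i) u ∈ (C.Y F R).X (R.weyl.simple i) :=
        fun u => x_mem_xSub _ _ u
      have hU := (C.Y F R).X_le_U (R.weyl.pos_simple i)
      refine ⟨_, mul_mem (hU ((C.Y F R).H_conj _ (R.weyl.simple_mem i) _ hH _ (hx t⁻¹)))
        (inv_mem (hU (hx ((s : F)⁻¹ * t)⁻¹))), _,
        mul_mem (inv_mem (hx ((s : F)⁻¹ * t)⁻¹)) (hx t⁻¹), ?_⟩
      have e : -((s : F)⁻¹ * t)⁻¹ = s * -t⁻¹ := by field_simp
      rw [Equiv.mulLeft₀_apply, h.toStRel.x_neg_eq R hr t, h.toStRel.x_neg_eq R hr (_ * t), e,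
        ← h.hmul _ hr _ _ hs (neg_ne_zero.2 (inv_ne_zero t0))]
      group
  intro g hg
  obtain ⟨c, rfl⟩ : g ∈ (h.hHom R).range := (h.range_hHom R).symm ▸ hg
  rw [h.hHom_apply]
  refine Subgroup.list_prod_mem _ fun y hy => ?_
  obtain ⟨i, -, rfl⟩ := List.mem_map.1 hy
  exact Subgroup.subset_closure (key i (c i))

end Cfsg.Agent.S2318
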