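import Cfsg.Statements.S2319
import Cfsg.Agent.Chev.CoreAll
import Cfsg.Agent.Chev.SteinbergMat
import Cfsg.Agent.Chev.HeckeGeneric
import Cfsg.Agent.Chev.Order

set_option autoImplicit false
open Cfsg

namespace Cfsg.Agent.S2319

open Cfsg.Lib Cfsg.Lib.Chev Cfsg.Lib.Chev.Core

theorem card_conjClasses_congr {G H : Type*} [Group G] [Group H] (e : G ≃* H) :
    Nat.card (ConjClasses G) = Nat.card (ConjClasses H) := by
  refine Nat.card_congr (Quotient.congr e.toEquiv fun a b => ?_)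
  change IsConj a b ↔ IsConj (e a) (e b)
  exact ⟨fun h => e.toMonoidHom.map_isConj h,
    fun h => by simpa using e.symm.toMonoidHom.map_isConj h⟩

theorem aux {F : Type*} [Field F] [Fintype F] {D : Cfsg.Lie.ChevalleyDatum} (C : Cert D)
    (R : RootData D) (M : CoxeterMatrix (Fin D.rank))
    (h : ∃ cs : CoxeterSystem M R.weyl.W, (∀ i, cs.simple i = R.weyl.s i) ∧
      ∀ w, cs.length w = R.weyl.len w) :
    Nat.card {χ : Cfsg.IrrCharacter ↥(D.group F) //
      ∃ φ : ↥(D.group F) → ℂ, Cfsg.IsCharacter ↥(D.group F) φ ∧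
        Cfsg.fixedPointCharacter ((D.borelSubgroup F).subgroupOf (D.group F)) =
          (χ : ↥(D.group F) → ℂ) + φ} = Nat.card (ConjClasses M.Group) := by
  obtain ⟨cs, -, -⟩ := h
  have := Fintype.ofFinite (D.group F)
  rw [← card_conjClasses_congr (((C.faithful F R).weylEquiv (C.group_eq_Y R).symm).trans
    cs.mulEquiv), ← BN.card_constituents _ (C.param_bn R), ← C.bn_B R]
  refine Nat.card_congr (Equiv.subtypeEquivRight fun χ => ⟨?_, fun h => ?_⟩)
  · rintro ⟨φ, hφ, e⟩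
    obtain ⟨n, hn⟩ := (Char.isCharacter_iff_classInner.1 hφ).2 χ χ.2
    rw [e, Char.classInner_add_left, hn, χ.2.classInner_self]
    exact_mod_cast (by omega : 1 + n ≠ 0)
  · exact ⟨_, (Char.isCharacter_card_fixedBy _ _).sub_of_classInner_ne_zero χ.2 h,
      (add_sub_cancel _ _).symm⟩

/-- In a Chevalley group of type G₂, B₂, D₄, F₄, E₆, E₇ or E₈ over a finite field, the number of distinct irreducible constituents of the permutation character on the cosets of B = UH equals the number of conjugacy classes (equivalently, of irreducible characters) of the Weyl group, the Coxeter group of the type with nodes numbered as the fundamental roots. -/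
theorem result {F : Type*} [Field F] [Fintype F]
    (dw : Cfsg.Lie.ChevalleyDatum × (Σ n : ℕ, CoxeterMatrix (Fin n)))
    (hdw : dw ∈ [(Cfsg.Lie.chevG2, ⟨2, CoxeterMatrix.G₂⟩), (Cfsg.Lie.chevB2, ⟨2, CoxeterMatrix.B 2⟩), (Cfsg.Lie.chevD4, ⟨4, Cfsg.Lie.coxeterD4⟩), (Cfsg.Lie.chevF4, ⟨4, CoxeterMatrix.F₄⟩),
      (Cfsg.Lie.chevE6, ⟨6, CoxeterMatrix.E₆⟩), (Cfsg.Lie.chevE7, ⟨7, CoxeterMatrix.E₇⟩), (Cfsg.Lie.chevE8, ⟨8, CoxeterMatrix.E₈⟩)]) :
    Nat.card {χ : Cfsg.IrrCharacter ↥(dw.1.group F) //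
      ∃ φ : ↥(dw.1.group F) → ℂ, Cfsg.IsCharacter ↥(dw.1.group F) φ ∧
        Cfsg.fixedPointCharacter ((dw.1.borelSubgroup F).subgroupOf (dw.1.group F)) = (χ : ↥(dw.1.group F) → ℂ) + φ} =
      Nat.card (ConjClasses dw.2.2.Group) := by
  simp only [List.mem_cons, List.not_mem_nil, or_false] at hdw
  rcases hdw with rfl | rfl | rfl | rfl | rfl | rfl | rfl
  · exact aux certG2 rootG2 _ (coxeter_G2 (hasC_G2 rootG2))
  · exact aux certB2 rootB2 _ (coxeter_B2 (hasC_B2 rootB2))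
  · exact aux certD4 rootD4 _ (coxeter_D4 (hasC_D4 rootD4))
  · exact aux certF4 rootF4 _ (coxeter_F4 (hasC_F4 rootF4))
  · exact aux certE6 rootE6 _ (coxeter_E6 (hasC_E6 rootE6))
  · exact aux certE7 rootE7 _ (coxeter_E7 (hasC_E7 rootE7))
  · exact aux certE8 rootE8 _ (coxeter_E8 (hasC_E8 rootE8))

end Cfsg.Agent.S2319
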