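import Cfsg.Statements.S2320
import Cfsg.Agent.Known.GL2Table

set_option autoImplicit false
open Cfsg

namespace Cfsg.Agent.S2320

open Cfsg.Lib.Known.GL2 Cfsg.Lib.Char Matrix

/-- Over a finite field F with q elements, every irreducible complex character of GL₂ of degree q takes a value of absolute value 1 at every diagonal matrix with two different diagonal entries and at every element with no eigenvector in F². -/
theorem result {F : Type*} [Field F] [Fintype F] (χ : Matrix.GeneralLinearGroup (Fin 2) F → ℂ) (hχ : Cfsg.IsIrrCharacter (Matrix.GeneralLinearGroup (Fin 2) F) χ) (hdeg : χ 1 = (Fintype.card F : ℂ)) (g : Matrix.GeneralLinearGroup (Fin 2) F) :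
    ((g : Matrix (Fin 2) (Fin 2) F) 0 1 = 0 → (g : Matrix (Fin 2) (Fin 2) F) 1 0 = 0 → (g : Matrix (Fin 2) (Fin 2) F) 0 0 ≠ (g : Matrix (Fin 2) (Fin 2) F) 1 1 → ‖χ g‖ = 1) ∧
    ((∀ (c : F) (v : Fin 2 → F), v ≠ 0 → (g : Matrix (Fin 2) (Fin 2) F).mulVec v ≠ c • v) → ‖χ g‖ = 1) := by
  classical
  have := Fintype.ofFinite (GL (Fin 2) F)
  obtain ⟨s, hs, -⟩ := (glLin F).exists_isEll
  have h1 : (Fintype.card F : ℂ) ≠ 1 := by exact_mod_cast Fintype.one_lt_card.ne'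
  rcases irr_cases_GL hs hχ with ⟨γ, rfl⟩ | ⟨γ, rfl⟩ | ⟨α, hα, rfl⟩ | ⟨θ, -, rfl⟩
  · rw [Lin2.lin_apply_one] at hdeg; exact absurd hdeg.symm h1
  · refine ⟨fun h1 h2 h3 => ?_, fun h => ?_⟩
    · rw [Pi.mul_apply, (glLin F).St_T ⟨h1, h2⟩ (fun h => h3 h.2.2), one_mul, Lin2.norm_lin]
    · rw [Pi.mul_apply, (glLin F).St_ell h, norm_mul, Lin2.norm_lin]; simp
  · rw [Lin2.PS_one] at hdeg; simp at hdeg
  · rw [Lin2.neg_DS_one] at hdeg; simp at hdeg

end Cfsg.Agent.S2320
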