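import Cfsg.Statements.S2321
import Cfsg.Agent.Known.SL2Table2

set_option autoImplicit false
open Cfsg

namespace Cfsg.Agent.S2321

open Cfsg.Lib.Known Cfsg.Lib.Known.GL2 Cfsg.Lib.Char Matrix

/-- Over a finite field F with q elements, an irreducible complex character of SL₂ of degree q (the Steinberg character) takes the value 1 at every diagonal matrix whose diagonal entry a has a² ≠ 1, the value −1 at every element with no eigenvector in F², and the value 0 at every upper triangular matrix with equal diagonal entries and non-zero upper right entry. -/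
theorem result {F : Type*} [Field F] [Fintype F] (χ : Matrix.SpecialLinearGroup (Fin 2) F → ℂ) (hχ : Cfsg.IsIrrCharacter (Matrix.SpecialLinearGroup (Fin 2) F) χ) (hdeg : χ 1 = (Fintype.card F : ℂ)) (g : Matrix.SpecialLinearGroup (Fin 2) F) :
    ((g : Matrix (Fin 2) (Fin 2) F) 0 1 = 0 → (g : Matrix (Fin 2) (Fin 2) F) 1 0 = 0 → (g : Matrix (Fin 2) (Fin 2) F) 0 0 ^ 2 ≠ 1 → χ g = 1) ∧
    ((∀ (c : F) (v : Fin 2 → F), v ≠ 0 → (g : Matrix (Fin 2) (Fin 2) F).mulVec v ≠ c • v) → χ g = -1) ∧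
    ((g : Matrix (Fin 2) (Fin 2) F) 1 0 = 0 → (g : Matrix (Fin 2) (Fin 2) F) 0 0 = (g : Matrix (Fin 2) (Fin 2) F) 1 1 → (g : Matrix (Fin 2) (Fin 2) F) 0 1 ≠ 0 → χ g = 0) := by
  classical
  have := Fintype.ofFinite (SL2 F)
  obtain rfl := eq_St_of_deg_SL hχ hdeg
  refine ⟨fun h1 h2 h3 => (slLin F).St_T ⟨h1, h2⟩ ((not_mem_Z_iff_of_mem_T_SL ⟨h1, h2⟩).2 h3),
    fun h => (slLin F).St_ell h, fun h1 h2 h3 => ?_⟩
  obtain ⟨z, hz, b, rfl⟩ := (slLin F).exists_Z_mul_u (g := g) ⟨h1, h2⟩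
  have hb : b ≠ 0 := by
    rintro rfl
    rw [Lin2.u_zero, mul_one] at h3
    exact h3 hz.1
  exact (slLin F).St_u hz hb

end Cfsg.Agent.S2321
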