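import Cfsg.Statements.S2322
import Cfsg.Agent.Known.SL2Table2

set_option autoImplicit false
open Cfsg

namespace Cfsg.Agent.S2322

open Cfsg.Lib.Known Cfsg.Lib.Known.GL2 Cfsg.Lib.Char Matrix

/-- Over a finite field F with q elements, q odd: every irreducible complex character of SL₂ of degree q − 1 or (q − 1)/2 vanishes at every diagonal matrix whose diagonal entry a has a² ≠ 1, and every irreducible complex character of degree q + 1 or (q + 1)/2 vanishes at every element with no eigenvector in F². -/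
theorem result {F : Type*} [Field F] [Fintype F] (hodd : Odd (Fintype.card F)) (χ : Matrix.SpecialLinearGroup (Fin 2) F → ℂ) (hχ : Cfsg.IsIrrCharacter (Matrix.SpecialLinearGroup (Fin 2) F) χ) (g : Matrix.SpecialLinearGroup (Fin 2) F) :
    ((χ 1 = (Fintype.card F : ℂ) - 1 ∨ χ 1 = (((Fintype.card F - 1) / 2 : ℕ) : ℂ)) →
      (g : Matrix (Fin 2) (Fin 2) F) 0 1 = 0 → (g : Matrix (Fin 2) (Fin 2) F) 1 0 = 0 → (g : Matrix (Fin 2) (Fin 2) F) 0 0 ^ 2 ≠ 1 → χ g = 0) ∧
    ((χ 1 = (Fintype.card F : ℂ) + 1 ∨ χ 1 = (((Fintype.card F + 1) / 2 : ℕ) : ℂ)) →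
      (∀ (c : F) (v : Fin 2 → F), v ≠ 0 → (g : Matrix (Fin 2) (Fin 2) F).mulVec v ≠ c • v) → χ g = 0) := by
  classical
  have := Fintype.ofFinite (SL2 F)
  obtain ⟨s, hs, -⟩ := (slLin F).exists_isEll
  have ho := Nat.odd_iff.1 hodd
  have h3 := three_le_card_of_odd hodd
  refine ⟨fun h h1 h2 h4 => ?_, fun h hg => ?_⟩
  · have hT : g ∈ (slLin F).T := ⟨h1, h2⟩
    have hZ := (not_mem_Z_iff_of_mem_T_SL hT).2 h4
    have hq : 5 ≤ Fintype.card F := by
      by_contra hq
      have h5 := pow_card_sub_one_of_mem_T_SL hT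
      rw [show Fintype.card F - 1 = 2 by omega, sq] at h5
      exact hZ (mem_Z_of_mul_self_eq_one_SL (two_ne_zero_of_odd hodd) h5)
    rcases h with h | h
    · obtain ⟨θ, -, rfl⟩ := eq_DS_of_deg_SL hs hχ (by omega) h
      rw [Pi.neg_apply, (slLin F).DS_T hs θ hT hZ, neg_zero]
    · obtain ⟨θ, χ', -, h'⟩ := half_DS_of_deg_SL hs hχ hq h
      rw [h'.apply_T hT, Pi.neg_apply, (slLin F).DS_T hs θ hT hZ, neg_zero, zero_div]
  · rcases h with h | h
    · obtain ⟨α, -, rfl⟩ := eq_PS_of_deg_SL hχ h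
      exact (slLin F).PS_ell _ hg
    · rcases irr_cases_SL' hg hχ with ⟨e, -⟩ | ⟨e, -⟩ | ⟨e, -⟩ | ⟨e, θ, hθ, rfl⟩ |
        ⟨e, -, α, χ', -, h'⟩ | ⟨e, -, -⟩
      · have := nat_eq_of_deg e h; omega
      · have := nat_eq_of_deg e h; omega
      · have := nat_eq_of_deg e h; omega
      · have := nat_eq_of_deg e h
        have h5 := (slLin F).DS_C hg θ ⟨g, Subgroup.mem_centralizer_singleton_iff.2 rfl⟩
          (IsEll.not_isScal hg)
        rw [barHom_SL, add_inv_eq_zero_of_card_three (by omega) hg hθ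
          ⟨g, Subgroup.mem_centralizer_singleton_iff.2 rfl⟩ (IsEll.not_isScal hg)] at h5
        rw [Pi.neg_apply, h5, neg_zero]
      · rw [h'.apply_ell hg, (slLin F).PS_ell _ hg, zero_div]
      · have := nat_eq_of_deg e h; omega

end Cfsg.Agent.S2322
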