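import Cfsg.Statements.S2324
import Cfsg.Agent.Known.SL2Table2

set_option autoImplicit false
open Cfsg

namespace Cfsg.Agent.S2324

open Cfsg.Lib.Known Cfsg.Lib.Known.GL2 Cfsg.Lib.Char Matrix

/-- Over a finite field F with q elements, q odd and q ≥ 5, let u be the upper unitriangular matrix of SL₂ with off-diagonal entry 1 and let δ = (−1)^((q−1)/2). Every irreducible complex character χ of SL₂ of degree (q + 1)/2 satisfies (2χ(u) − 1)² = δq, and every irreducible complex character χ of degree (q − 1)/2 satisfies (2χ(u) + 1)² = δq; that is, χ(u) = (1 ± √(δq))/2 in the first case and χ(u) = (−1 ± √(δq))/2 in the second. Moreover two different irreducible characters of degree (q + 1)/2 take the two different values (their values at u add up to 1), and likewise for degree (q − 1)/2 (values adding up to −1). -/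
theorem result {F : Type*} [Field F] [Fintype F] (hodd : Odd (Fintype.card F)) (hq : 5 ≤ Fintype.card F)
    (u : Matrix.SpecialLinearGroup (Fin 2) F) (hu : (u : Matrix (Fin 2) (Fin 2) F) = !![1, 1; 0, 1]) :
    (∀ χ : Matrix.SpecialLinearGroup (Fin 2) F → ℂ, Cfsg.IsIrrCharacter (Matrix.SpecialLinearGroup (Fin 2) F) χ → χ 1 = (((Fintype.card F + 1) / 2 : ℕ) : ℂ) → (2 * χ u - 1) ^ 2 = (-1 : ℂ) ^ ((Fintype.card F - 1) / 2) * (Fintype.card F : ℂ)) ∧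
    (∀ χ : Matrix.SpecialLinearGroup (Fin 2) F → ℂ, Cfsg.IsIrrCharacter (Matrix.SpecialLinearGroup (Fin 2) F) χ → χ 1 = (((Fintype.card F - 1) / 2 : ℕ) : ℂ) → (2 * χ u + 1) ^ 2 = (-1 : ℂ) ^ ((Fintype.card F - 1) / 2) * (Fintype.card F : ℂ)) ∧
    (∀ χ₁ χ₂ : Matrix.SpecialLinearGroup (Fin 2) F → ℂ, Cfsg.IsIrrCharacter (Matrix.SpecialLinearGroup (Fin 2) F) χ₁ → Cfsg.IsIrrCharacter (Matrix.SpecialLinearGroup (Fin 2) F) χ₂ → χ₁ ≠ χ₂ →
      χ₁ 1 = (((Fintype.card F + 1) / 2 : ℕ) : ℂ) → χ₂ 1 = (((Fintype.card F + 1) / 2 : ℕ) : ℂ) → χ₁ u + χ₂ u = 1) ∧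
    (∀ χ₁ χ₂ : Matrix.SpecialLinearGroup (Fin 2) F → ℂ, Cfsg.IsIrrCharacter (Matrix.SpecialLinearGroup (Fin 2) F) χ₁ → Cfsg.IsIrrCharacter (Matrix.SpecialLinearGroup (Fin 2) F) χ₂ → χ₁ ≠ χ₂ →
      χ₁ 1 = (((Fintype.card F - 1) / 2 : ℕ) : ℂ) → χ₂ 1 = (((Fintype.card F - 1) / 2 : ℕ) : ℂ) → χ₁ u + χ₂ u = -1) := by
  classical
  have := Fintype.ofFinite (SL2 F)
  obtain ⟨s, hs, -⟩ := (slLin F).exists_isEll
  have h2 := two_ne_zero_of_odd hodd
  have hu' : u = (slLin F).u 1 := (slLin F).inj (by rw [Lin2.ρ_u]; exact hu)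
  have hz := (slLin F).Z.one_mem
  have e1 : ∀ (S : Subgroup (SL2 F)) (h : 1 ∈ S) (θ : S →* ℂˣ), (θ ⟨1, h⟩ : ℂ) = 1 :=
    fun S h θ => congrArg Units.val θ.map_one
  have k1 : ∀ α χ χ', (slLin F).HalfPair ((slLin F).PS α) χ χ' →
      χ ((slLin F).u 1) + χ' ((slLin F).u 1) = 1 := fun α χ χ' h => by
    rw [← Pi.add_apply, ← h.sum, ← one_mul ((slLin F).u 1), (slLin F).PS_u _ hz one_ne_zero, e1]
  have k2 : ∀ θ χ χ', (slLin F).HalfPair (-(slLin F).DS hs θ) χ χ' →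
      χ ((slLin F).u 1) + χ' ((slLin F).u 1) = -1 := fun α χ χ' h => by
    rw [← Pi.add_apply, ← h.sum, ← one_mul ((slLin F).u 1), Pi.neg_apply,
      (slLin F).DS_u hs _ hz one_ne_zero, e1]
  rw [hu']
  refine ⟨fun χ hχ h => ?_, fun χ hχ h => ?_, fun χ₁ χ₂ h1 h2 hne e1 e2 => ?_,
    fun χ₁ χ₂ h1 h2 hne e1 e2 => ?_⟩
  · obtain ⟨α, χ', -, h'⟩ := half_PS_of_deg_SL hχ hq h
    rw [← HalfPair_sq_sub_u h2 h', ← k1 α χ χ' h']; ring
  · obtain ⟨α, χ', -, h'⟩ := half_DS_of_deg_SL hs hχ hq h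
    rw [← HalfPair_sq_sub_u h2 h']
    congr 1
    linear_combination k2 α χ χ' h'
  · obtain ⟨α, χ', hα, h'⟩ := half_PS_of_deg_SL h1 hq e1
    obtain ⟨β, χ'', hβ, h''⟩ := half_PS_of_deg_SL h2 hq e2
    have := isCyclic_T_SL (F := F)
    rw [← hα.unique hβ] at h''
    rw [(h'.eq_or_eq' h'').resolve_left hne.symm]
    exact k1 α _ _ h'
  · obtain ⟨α, χ', hα, h'⟩ := half_DS_of_deg_SL hs h1 hq e1
    obtain ⟨β, χ'', hβ, h''⟩ := half_DS_of_deg_SL hs h2 hq e2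
    have := (slLin F).isCyclic_centralizer_ell hs
    rw [← hα.unique hβ] at h''
    rw [(h'.eq_or_eq' h'').resolve_left hne.symm]
    exact k2 α _ _ h'

end Cfsg.Agent.S2324
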