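import Cfsg.Statements.S2327
import Cfsg.Agent.Chev.CoreAll
import Cfsg.Agent.Chev.SteinbergMat

set_option autoImplicit false
open Cfsg

namespace Cfsg.Agent.S2327

open Cfsg.Lib Cfsg.Lib.Chev Cfsg.Lib.Chev.Core

/-- In a Chevalley group of type G₂, B₂, D₄, F₄, E₆, E₇ or E₈ over a finite field with q elements, the Steinberg character (the alternating sum of the permutation characters on the standard parabolic subgroups) has degree q^N, N the number of positive roots; this is the order of U and the largest power of the characteristic dividing the group order. -/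
theorem result {F : Type*} [Field F] [Fintype F] (D : Cfsg.Lie.ChevalleyDatum) (hD : D ∈ [Cfsg.Lie.chevG2, Cfsg.Lie.chevB2, Cfsg.Lie.chevD4, Cfsg.Lie.chevF4, Cfsg.Lie.chevE6, Cfsg.Lie.chevE7, Cfsg.Lie.chevE8]) :
    D.steinbergCharacter F 1 = (Fintype.card F : ℂ) ^ (D.nroots / 2) := by
  obtain ⟨C, R⟩ := cert_root_of_mem hD
  obtain ⟨p, hp⟩ := CharP.exists F
  have : Fact p.Prime := ⟨CharP.char_is_prime F p⟩
  rw [C.steinbergCharacter_eq R, (C.split F R p).St_one_eq, C.card_split_U_empty R p,
    Nat.card_eq_fintype_card, Nat.cast_pow]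

end Cfsg.Agent.S2327
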