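import Cfsg.Statements.S2329
import Cfsg.Agent.Known.SL2Orders
import Cfsg.Agent.Known.GL2Table

set_option autoImplicit false
open Cfsg

namespace Cfsg.Agent.S2329

open Cfsg.Lib.Known.GL2 Matrix

/-- Over a finite field of characteristic p, any two elements of order p of GL₂ are conjugate: there is a single conjugacy class of non-identity unipotent elements. -/
theorem result {F : Type*} [Field F] [Fintype F] (p : ℕ) [Fact p.Prime] [CharP F p] (g h : Matrix.GeneralLinearGroup (Fin 2) F)
    (hg : orderOf g = p) (hh : orderOf h = p) : IsConj g h := by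
  obtain ⟨b, hb, h1⟩ := (glLin F).exists_isConj_u_of_orderOf p hg
  obtain ⟨c, hc, h2⟩ := (glLin F).exists_isConj_u_of_orderOf p hh
  refine h1.symm.trans (IsConj.trans ?_ h2)
  obtain ⟨x, hx⟩ := glLin_exists (m := !![c / b, 0; 0, 1]) (by simp [det_fin_two, hb, hc])
  refine isConj_iff.2 ⟨x, ?_⟩
  rw [(glLin F).conj_u (by simp [Lin2.mem_B, hx]), hx]
  simp [hb]

end Cfsg.Agent.S2329
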