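import Cfsg.Statements.S2366
import Cfsg.Agent.Known.SpecU

set_option autoImplicit false
open Cfsg

namespace Cfsg.Agent.S2366

open Cfsg.Lib.Known Cfsg.Lib.Class Polynomial

section Aux

variable {K : Type*} [Field K] [Fintype K] {q : ℕ}

theorem eq_algebraMap (hK : Fintype.card K = q ^ 2) {θ : Ec K} (h : θ ^ (q + 1) = 1) :
    ∃ c : K, c ^ (q + 1) = 1 ∧ algebraMap K (Ec K) c = θ := by
  obtain ⟨c, rfl⟩ := (exists_algebraMap_eq_iff θ).mpr (by
    rw [← pow_one (Fintype.card K), ← zpow_neg_pow_two_mul hK, zpow_neg_pow_eq_self h])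
  exact ⟨c, (algebraMap K (Ec K)).injective (by rw [map_pow, h, map_one]), rfl⟩

theorem piece_eq (hK : Fintype.card K = q ^ 2) {c : K} (h : c ^ (q + 1) = 1) (e : ℕ) :
    piece (frobq hK) (algebraMap K (Ec K) c) e = {(X - C c, e)} := by
  have h1 : dualPoly (frobq hK) (X - C c) = X - C c := congrArg Prod.fst (Multiset.singleton_inj.mp (by
    simpa using (isGUType_X_sub_C hK h one_pos).2))
  rw [piece, minpoly_algebraMap_ec, if_pos h1]

theorem coxU_three (hq : 1 ≤ q) : coxU q 3 = q ^ 2 - q + 1 := by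
  have : q ≤ q ^ 2 := by nlinarith
  rw [coxU, ← Int.natAbs_natCast (q ^ 2 - q + 1)]
  congr 1
  simp [Finset.sum_range_succ, this]
  ring

theorem gcd_coxU_three (hq : 1 ≤ q) : (q ^ 2 - q + 1).gcd (q + 1) = Nat.gcd 3 (q + 1) := by
  rcases Nat.eq_or_lt_of_le hq with rfl | hq
  · rfl
  obtain ⟨q, rfl⟩ := Nat.exists_eq_add_of_le' (show 2 ≤ q from hq)
  rw [show (q + 2) ^ 2 - (q + 2) + 1 = 3 + q * (q + 2 + 1) by
    rw [sq, ← Nat.mul_sub_one]; simp; ring, Nat.gcd_add_mul_right_left]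

/-- A type of dimension one. -/
theorem eq_of_dim_one (hK : Fintype.card K = q ^ 2) {t : Multiset (K[X] × ℕ)}
    (ht : IsGUType hK 1 t) : ∃ c : K, c ^ (q + 1) = 1 ∧ t = {(X - C c, 1)} := by
  obtain ⟨x, hx⟩ := Multiset.exists_mem_of_ne_zero (s := t) (by
    rintro rfl
    exact zero_ne_one (elDeg_zero.symm.trans ht.1.2.1))
  obtain ⟨θ, t', hθ, -, he, ht', h2, h3⟩ := ht.exists_piece_add hx
  have h4 := Nat.mul_pos (pdeg_pos (σ := frobq hK) hθ) he
  obtain rfl : t' = 0 := by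
    by_contra h
    have := ht'.1.1.elDeg_pos h
    omega
  rw [elDeg_zero, add_zero, mul_eq_one] at h3
  obtain ⟨c, hc, rfl⟩ := eq_algebraMap hK ((pdeg_frobq_eq_one_iff hK hθ).mp h3.1)
  exact ⟨c, hc, by rw [h2, add_zero, h3.2, piece_eq hK hc]⟩

theorem sub (p : ℕ) [Fact p.Prime] [CharP K p] (hp : p ≠ 2) (hK : Fintype.card K = q ^ 2)
    {s : Multiset (K[X] × ℕ)} (hs : IsGUType hK 3 s) (h1 : tDet s = 1) :
    tOrd s ∣ q + 1 ∨ tOrd s ∣ p * (q + 1) / Nat.gcd 3 (q + 1) ∨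
      tOrd s ∣ (q ^ 2 - 1) / Nat.gcd 3 (q + 1) ∨ tOrd s ∣ (q ^ 2 - q + 1) / Nat.gcd 3 (q + 1) := by
  have hp' : p.Prime := Fact.out
  have hp3 : 3 ≤ p := lt_of_le_of_ne hp'.two_le hp.symm
  have hq := two_le_of_card_sq hK
  obtain ⟨a, ha⟩ := Nat.gcd_dvd_right 3 (q + 1)
  obtain ⟨b, hb⟩ := Nat.gcd_dvd_left 3 (q + 1)
  have hd : 0 < Nat.gcd 3 (q + 1) := Nat.gcd_pos_of_pos_left _ three_pos
  have ha0 : a ≠ 0 := by rintro rfl; omega
  by_cases hA : ∀ θ, Eig s θ → θ ^ (q + 1) = 1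
  · by_cases hB : ∀ x ∈ s, x.2 ≤ 1
    · left
      simpa using hs.1.tOrd_dvd_mul_pow p (a := 0) (Nat.succ_ne_zero q)
        (fun θ θ' h h' => by rw [hA θ h, hA θ' h']) (by simpa using hB)
    right; left
    push Not at hB
    obtain ⟨x, hx, hx1⟩ := hB
    obtain ⟨θ, t, hθ, -, he, ht, h2, h3⟩ := hs.exists_piece_add hx
    have hθ1 := hA θ (h2 ▸ eig_add.mpr (Or.inl (eig_piece_self _ _)))
    rw [(pdeg_frobq_eq_one_iff hK hθ).mpr hθ1, one_mul] at h3
    obtain ⟨c, hc, rfl⟩ := eq_algebraMap hK hθ1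
    rw [piece_eq hK hc] at h2
    rw [Nat.mul_div_assoc _ (Nat.gcd_dvd_right _ _), Nat.div_eq_of_eq_mul_right hd ha, mul_comm,
      ← pow_one p]
    refine hs.1.tOrd_dvd_mul_pow p ha0 ?_ fun y hy =>
      (hs.1.1.snd_le_elDeg hy).trans (by rw [hs.1.2.1, pow_one]; exact hp3)
    suffices h : ∀ θ, Eig s θ → θ ^ a = algebraMap K (Ec K) c ^ a from
      fun θ θ' h1 h2 => by rw [h θ h1, h θ' h2]
    intro θ hθ
    rw [h2, eig_add, eig_singleton, aeval_X_sub_C_eq_zero] at hθ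
    rcases hθ with rfl | hθ
    · rfl
    have ht0 : t ≠ 0 := by rintro rfl; exact not_eig_zero hθ
    have := ht.1.1.elDeg_pos ht0
    obtain ⟨c', -, rfl⟩ := eq_of_dim_one hK (t := t) ((show elDeg t = 1 by omega) ▸ ht)
    rw [eig_singleton, aeval_X_sub_C_eq_zero] at hθ
    rw [h2, tDet_add, tDet_X_sub_C, tDet_X_sub_C, show x.2 = 2 by simp at h3; omega, pow_one] at h1
    have h5 : c ^ (3 * a) = 1 := by
      rw [hb, mul_right_comm, ← ha, pow_mul, hc, one_pow]
    rw [hθ, ← map_pow, ← map_pow, ← mul_one (c' ^ a), ← h5, show 3 * a = 2 * a + a by ring, pow_add,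
      ← mul_assoc, pow_mul, ← mul_pow, mul_comm c', h1, one_pow, one_mul]
  push Not at hA
  obtain ⟨θ₀, ⟨x, hx, h0⟩, hθ₀⟩ := hA
  obtain ⟨θ, t, hθ, hxθ, he, ht, h2, h3⟩ := hs.exists_piece_add hx
  have hθ1 : θ ^ (q + 1) ≠ 1 := fun h => by
    obtain ⟨j, rfl⟩ := (aeval_minpoly_eq_zero_iff _ _).mp (hxθ ▸ h0)
    exact hθ₀ (by rw [pow_right_comm, h, one_pow])
  have hD := pdeg_pos (σ := frobq hK) hθ
  have hD1 := mt (pdeg_frobq_eq_one_iff hK hθ).mp hθ1
  have he1 : x.2 = 1 := by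
    by_contra h
    have : 2 * 2 ≤ pdeg (frobq hK) θ * x.2 := Nat.mul_le_mul (by omega) (by omega)
    omega
  rw [he1] at h2
  rw [he1, mul_one] at h3
  by_cases ht0 : t = 0
  · right; right; right
    rw [ht0, elDeg_zero, add_zero] at h3
    rw [ht0, add_zero] at h2
    have := tOrd_piece_dvd_coxU hK hθ (h2 ▸ h1)
    rwa [h3, coxU_three (by omega), gcd_coxU_three (by omega), ← h2] at this
  right; right; left
  have := ht.1.1.elDeg_pos ht0
  obtain ⟨c, hc, rfl⟩ := eq_of_dim_one hK (t := t) ((show elDeg t = 1 by omega) ▸ ht)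
  have hD2 : pdeg (frobq hK) θ = 2 := by simp at h3; omega
  have h4 := zpow_neg_pow_pdeg hK hθ
  rw [hD2, ← mul_one 2, zpow_neg_pow_two_mul hK, pow_one, hK] at h4
  have h5 : θ ^ (q ^ 2 - 1) = 1 := by
    rw [← mul_left_inj' hθ, ← pow_succ, Nat.sub_add_cancel (by nlinarith), h4, one_mul]
  have h6 : q ^ 2 - 1 = (q + 1) * (q - 1) := Nat.sq_sub_sq q 1
  have h7 : (q ^ 2 - 1) / Nat.gcd 3 (q + 1) = a * (q - 1) :=
    Nat.div_eq_of_eq_mul_right hd (by rw [h6, ← mul_assoc, ← ha])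
  have h8 := congrArg (algebraMap K (Ec K)) h1
  rw [h2, tDet_add, tDet_X_sub_C, map_mul, algebraMap_tDet_piece_frobq hK hθ, hD2, pow_one,
    map_one] at h8
  simp only [Finset.sum_range_succ, Finset.range_zero, Finset.sum_empty, pow_zero, pow_one,
    zero_add, zpow_add₀ hθ, zpow_one, zpow_neg, zpow_natCast] at h8
  rw [h7, ← mul_one (a * (q - 1))]
  refine hs.1.tOrd_dvd_mul_pow p (a := 0) (Nat.mul_ne_zero ha0 (by omega)) ?_ fun y hy => ?_
  · suffices h : ∀ θ', Eig s θ' → θ' ^ (a * (q - 1)) = θ ^ (a * (q - 1)) from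
      fun θ θ' h1 h2 => by rw [h θ h1, h θ' h2]
    intro θ' hθ'
    rw [h2, eig_add, eig_singleton, aeval_X_sub_C_eq_zero] at hθ'
    rcases hθ' with h | rfl
    · exact pow_eq_of_eig_piece_frobq hK hθ h (by
        rw [mul_assoc, mul_comm (q - 1), ← h6, pow_mul', h5, one_pow])
    · have h9 : algebraMap K (Ec K) c * θ = θ ^ q := by
        field_simp at h8
        rw [← h8, mul_comm]
      have h10 : θ ^ (3 * (a * (q - 1))) = 1 := by
        rw [hb, mul_right_comm, ← mul_assoc, ← ha, ← h6, pow_mul, h5, one_pow]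
      have h11 : θ ^ ((q + 1) * (a * (q - 1))) = 1 := by
        rw [mul_left_comm, ← h6, pow_mul', h5, one_pow]
      generalize a * (q - 1) = k at h10 h11
      refine mul_right_cancel₀ (pow_ne_zero (2 * k) hθ) ?_
      rw [← pow_add, show k + 2 * k = 3 * k by ring, h10, two_mul, pow_add, ← mul_assoc, ← mul_pow,
        h9, ← pow_mul, ← pow_add, ← h11, add_mul, one_mul]
  · rw [h2] at hy
    rcases Multiset.mem_add.mp hy with hy | hy
    · rw [snd_of_mem_piece hy, pow_zero]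
    · rw [Multiset.mem_singleton.mp hy, pow_zero]

end Aux

/-- The set of element orders of PSU(3, q) for an odd prime power q = p^n: writing d = gcd(3, q + 1), a positive integer is the order of some element exactly when it divides one of q + 1, p(q + 1)/d, (q² − 1)/d, (q² − q + 1)/d. -/
theorem result {F : Type*} [Field F] [Fintype F] (p : ℕ) [Fact p.Prime] [CharP F p] (hp : p ≠ 2) (q : ℕ) (hF : Fintype.card F = q ^ 2) :
    Set.range (orderOf : Cfsg.PSU 3 F q → ℕ) =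
      {s : ℕ | s ∣ q + 1} ∪ {s : ℕ | s ∣ p * (q + 1) / Nat.gcd 3 (q + 1)} ∪
        {s : ℕ | s ∣ (q ^ 2 - 1) / Nat.gcd 3 (q + 1)} ∪ {s : ℕ | s ∣ (q ^ 2 - q + 1) / Nat.gcd 3 (q + 1)} := by
  have hp' : p.Prime := Fact.out
  have hq := two_le_of_card_sq hF
  have hpq := char_dvd_of_card_sq p hF
  have hq3 : 3 ≤ q := (lt_of_le_of_ne hp'.two_le hp.symm).trans_le (Nat.le_of_dvd (by omega) hpq)
  ext o
  simp only [Set.mem_union, Set.mem_ofPred_eq, or_assoc]
  refine ⟨fun h => ?_, fun h => ?_⟩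
  · obtain ⟨s, hs, h1, rfl⟩ := (mem_spec_PSU_iff hF (by omega)).mp h
    exact sub p hp hF hs h1
  obtain ⟨l, hl0, hl⟩ := exists_orderOf_eq_of_dvd_add_one hF (dvd_refl (q + 1))
  have hl1 : l ^ (q + 1) = 1 := hl ▸ pow_orderOf_eq_one l
  have hl2 : ∀ k : ℕ, (l ^ k)⁻¹ ^ (q + 1) = 1 := fun k => by
    rw [inv_pow, pow_right_comm, hl1, one_pow, inv_one]
  rcases h with h | h | h | h
  · have hs := ((isGUType_X_sub_C hF hl1 one_pos).add
      (isGUType_X_sub_C hF (hl2 1) one_pos)).add (isGUType_X_sub_one hF one_pos)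
    refine mem_spec_PSU_of_dvd hF (by omega) hs (by
      simp only [tDet_add, tDet_X_sub_C, tDet_X_sub_one]; simp [hl0]) (h.trans ?_)
    have := hs.1.pow_tOrd_eq (θ := algebraMap F _ l) (θ' := 1)
      (by simp only [eig_add, eig_singleton]; simp) (by simp only [eig_add, eig_singleton]; simp)
    rw [one_pow, ← map_pow, map_eq_one_iff _ (algebraMap F (Ec F)).injective] at this
    rw [← hl]
    exact orderOf_dvd_of_pow_eq_one this
  · have hs := (isGUType_X_sub_C hF hl1 two_pos).add (isGUType_X_sub_C hF (hl2 2) one_pos)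
    refine mem_spec_PSU_of_dvd hF (by omega) hs (by
      simp only [tDet_add, tDet_X_sub_C]; simp [hl0]) (h.trans ?_)
    have h1 := hs.1.pow_tOrd_eq (θ := algebraMap F _ l) (θ' := algebraMap F _ (l ^ 2)⁻¹)
      (by simp only [eig_add, eig_singleton]; simp) (by simp only [eig_add, eig_singleton]; simp)
    rw [← map_pow, ← map_pow, (algebraMap F (Ec F)).injective.eq_iff, inv_pow,
      ← mul_eq_one_iff_eq_inv₀ (pow_ne_zero _ (pow_ne_zero _ hl0)), ← mul_pow, ← pow_succ',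
      ← pow_mul', ← orderOf_dvd_iff_pow_eq_one, hl, ← div_gcd_dvd_iff (by omega),
      Nat.gcd_comm] at h1
    have h2 := hs.1.pow_succ_dvd_tOrd p (x := (X - C l, 2)) (a := 0) (by simp) (by simp)
    rw [Nat.mul_div_assoc _ (Nat.gcd_dvd_right _ _)]
    refine Nat.Coprime.mul_dvd_of_dvd_of_dvd ?_ (by simpa using h2) h1
    exact ((Nat.coprime_self_add_right.mpr (Nat.coprime_one_right q) |>.coprime_dvd_left
      hpq).coprime_dvd_right (Nat.div_dvd_of_dvd (Nat.gcd_dvd_right _ _)))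
  · obtain ⟨g, hg⟩ := IsCyclic.exists_ofOrder_eq_natCard (α := Fˣ)
    rw [Nat.card_units, Nat.card_eq_fintype_card, hF, ← orderOf_units] at hg
    have hg0 : (g : F) ≠ 0 := g.ne_zero
    generalize (g : F) = a at hg hg0
    have h6 : q ^ 2 - 1 = (q + 1) * (q - 1) := Nat.sq_sub_sq q 1
    have ha0 : algebraMap F (Ec F) a ≠ 0 := by simpa using hg0
    have hD : pdeg (frobq hF) (algebraMap F (Ec F) a) = 2 := by
      refine ((Nat.dvd_prime Nat.prime_two).mp ((pdeg_frobq_dvd_iff hF ha0 2).mpr ?_)).resolve_left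
        fun h1 => ?_
      · rw [← mul_one 2, zpow_neg_pow_two_mul hF, algebraMap_pow_card_pow]
      · rw [pdeg_frobq_eq_one_iff hF ha0, ← map_pow, map_eq_one_iff _ (algebraMap F (Ec F)).injective,
          ← orderOf_dvd_iff_pow_eq_one, hg, h6] at h1
        have := Nat.le_of_dvd (by omega) h1
        have h2 : 2 ≤ q - 1 := by omega
        nlinarith
    have hc : (a ^ (q - 1)) ^ (q + 1) = 1 := by
      rw [← pow_mul', ← h6, ← hg, pow_orderOf_eq_one]
    have hs := (isGUType_piece hF ha0 one_pos).add (isGUType_X_sub_C hF hc one_pos)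
    rw [hD] at hs
    refine mem_spec_PSU_of_dvd hF (by omega) hs ((algebraMap F (Ec F)).injective ?_) (h.trans ?_)
    · rw [tDet_add, tDet_X_sub_C, map_mul, algebraMap_tDet_piece_frobq hF ha0, hD, pow_one, map_one]
      simp only [Finset.sum_range_succ, Finset.range_zero, Finset.sum_empty, pow_zero, pow_one,
        zero_add, zpow_add₀ ha0, zpow_one, zpow_neg, zpow_natCast, map_pow]
      rw [mul_right_comm, ← pow_succ', Nat.sub_add_cancel (by omega),
        mul_inv_cancel₀ (pow_ne_zero _ ha0)]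
    · have h1 := hs.1.pow_tOrd_eq (θ := algebraMap F _ a) (θ' := algebraMap F _ (a ^ (q - 1)))
        (eig_add.mpr (Or.inl (eig_piece_self _ _))) (by simp only [eig_add, eig_singleton]; simp)
      have h2 := hs.1.pow_tOrd_eq (θ := algebraMap F _ a) (θ' := algebraMap F _ (a ^ q)⁻¹)
        (eig_add.mpr (Or.inl (eig_piece_self _ _)))
        (eig_add.mpr (Or.inl ((eig_piece_frobq hF ha0).mpr ⟨1, by simp⟩)))
      rw [← map_pow, ← map_pow, (algebraMap F (Ec F)).injective.eq_iff] at h1 h2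
      generalize tOrd (K := F) _ = k at h1 h2 ⊢
      rw [inv_pow, ← mul_eq_one_iff_eq_inv₀ (pow_ne_zero _ (pow_ne_zero _ hg0)), ← mul_pow,
        ← pow_succ', ← pow_mul'] at h2
      have h3 : a ^ (k * 3) = 1 := by
        rw [← h2, show q + 1 = q - 1 + 2 by omega, mul_add, pow_add, pow_mul' a k (q - 1), ← h1,
          ← pow_add]
        congr 1
        ring
      rw [← orderOf_dvd_iff_pow_eq_one, hg] at h2 h3
      rw [Nat.div_dvd_iff_dvd_mul ((Nat.gcd_dvd_right _ _).trans ⟨_, h6⟩)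
        (Nat.gcd_pos_of_pos_left _ three_pos), mul_comm, ← Nat.gcd_mul_left]
      exact Nat.dvd_gcd h3 h2
  · have := coxU_div_mem_spec hF (n := 3) (by omega)
    rw [coxU_three (by omega), gcd_coxU_three (by omega)] at this
    exact mem_spec_of_dvd' this h

end Cfsg.Agent.S2366
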