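import Cfsg.Statements.S2367
import Mathlib

set_option autoImplicit false
open Cfsg

namespace Cfsg.Agent.S2367

theorem aux {N a p : ℕ} (hp : p.Prime) (hodd : p ≠ 2) (h3 : N.factorization p = 3)
    (h : N ≠ 0 ∧ 2 ^ a ∣ N ∧ N ∣ (Nat.factorial 71) ^ 46 ∧ ∀ q < 72, q.Prime →
      q ≠ 2 → q ^ 3 ∣ N → ¬ q ^ 4 ∣ N → q ^ 3 < 2 ^ a) : p ^ 3 < 2 ^ N.factorization 2 := by
  obtain ⟨h0, h1, h2, h4⟩ := h
  have e1 : p ^ 3 ∣ N := (hp.pow_dvd_iff_le_factorization h0).2 h3.ge
  have e2 : ¬ p ^ 4 ∣ N := by rw [hp.pow_dvd_iff_le_factorization h0]; omega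
  have e3 : p ≤ 71 := (hp.dvd_factorial).1
    (hp.dvd_of_dvd_pow (((dvd_pow_self p (by norm_num)).trans e1).trans h2))
  refine (h4 p (by omega) hp hodd e1 e2).trans_le ?_
  exact Nat.pow_le_pow_right two_pos ((Nat.prime_two.pow_dvd_iff_le_factorization h0).1 h1)

theorem two_pow_dvd (k : ℕ) : 2 ^ (3 * k) ∣ (4 * k).factorial := by
  induction k with
  | zero => simp
  | succ k ih =>
    rw [show 4 * (k + 1) = 4 * k + 1 + 1 + 1 + 1 by ring, Nat.factorial_succ, Nat.factorial_succ,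
      Nat.factorial_succ, Nat.factorial_succ, show 3 * (k + 1) = 3 * k + 3 by ring, pow_add]
    obtain ⟨m, hm⟩ := ih
    rw [hm]
    exact ⟨(k + 1) * (4 * k + 3) * (2 * k + 1) * (4 * k + 1) * m, by ring⟩


/-- Let G be an alternating group of degree at least 5 or a simple group with the order of one of the 26 sporadic groups, and let p be an odd prime such that p³ is the exact power of p dividing the order of G. Then p³ is less than the 2-part of the order of G. -/
theorem result {G : Type*} [Group G] [Finite G] (hG : Cfsg.IsAlternating G ∨ Cfsg.IsSporadic G)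
    (p : ℕ) (hp : p.Prime) (hodd : p ≠ 2) (h3 : (Nat.card G).factorization p = 3) :
    p ^ 3 < 2 ^ (Nat.card G).factorization 2 := by
  rcases hG with ⟨n, hn, ⟨e⟩⟩ | hG
  · have : Nontrivial (Fin n) := Fin.nontrivial_iff_two_le.2 (by omega)
    have h1 : 2 * Nat.card G = n.factorial := by
      rw [Nat.card_congr e.toEquiv, two_mul_nat_card_alternatingGroup, Nat.card_perm, Nat.card_fin]
    have h0 : Nat.card G ≠ 0 := Nat.card_pos.ne'
    have h2 : ∀ q, n.factorial.factorization q =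
        Nat.factorization 2 q + (Nat.card G).factorization q := fun q => by
      rw [← h1, Nat.factorization_mul two_ne_zero h0]; rfl
    have h4 := h2 p
    have h5 := h2 2
    rw [Nat.prime_two.factorization, Finsupp.single_eq_of_ne hodd, h3] at h4
    rw [Nat.prime_two.factorization_self] at h5
    have hp3 : p ≠ 3 := by
      rintro rfl
      rcases le_or_gt n 8 with h | h
      · have := ((hp.pow_dvd_iff_le_factorization n.factorial_ne_zero).2 h4.ge).trans
          (Nat.factorial_dvd_factorial h)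
        revert this; decide
      · have := (hp.pow_dvd_iff_le_factorization n.factorial_ne_zero).1
          ((by decide : 3 ^ 4 ∣ Nat.factorial 9).trans (Nat.factorial_dvd_factorial h))
        omega
    have hp5 : 5 ≤ p := hp.five_le_of_ne_two_of_ne_three hodd hp3
    have h6 : 3 * p ≤ n := by
      by_contra h
      rw [Nat.factorization_factorial hp (b := 2) (Nat.log_lt_of_lt_pow' two_ne_zero
        (by nlinarith))] at h4
      simp only [Nat.Ico_succ_singleton, Finset.sum_singleton, pow_one] at h4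
      have := Nat.div_mul_le_self n p
      rw [h4] at this
      omega
    have h7 := (Nat.prime_two.pow_dvd_iff_le_factorization n.factorial_ne_zero).1
      ((two_pow_dvd (3 * p / 4)).trans (Nat.factorial_dvd_factorial (by omega)))
    have h8 : 2 * p ^ 3 < 2 ^ (3 * (3 * p / 4)) := by
      rcases hp5.eq_or_lt with rfl | h
      · norm_num
      · obtain ⟨k, hk⟩ : ∃ k, 3 * p / 4 = k + 3 := ⟨3 * p / 4 - 3, by omega⟩
        have e1 : k < 2 ^ k := Nat.lt_two_pow_self
        have e2 : 2 * p ≤ 2 ^ (k + 3) := by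
          have := hp.eq_two_or_odd
          rw [pow_add]; omega
        rw [hk, mul_comm 3, pow_mul]
        have e3 := Nat.pow_le_pow_left e2 3
        have e4 : 0 < p ^ 3 := by positivity
        rw [mul_pow] at e3
        omega
    have h9 := Nat.pow_le_pow_right two_pos h7
    rw [h5, pow_add] at h9
    omega
  · rcases hG with h | h | h | h | h | h | h | h | h | h | h | h | h | h | h | h | h | h | h | h | h | h | h | h | h | h
    · exact aux (a := 4) hp hodd h3 (by rw [h.2]; refine ⟨?_, ?_, ?_, ?_⟩ <;> decide +kernel)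
    · exact aux (a := 6) hp hodd h3 (by rw [h.2]; refine ⟨?_, ?_, ?_, ?_⟩ <;> decide +kernel)
    · exact aux (a := 7) hp hodd h3 (by rw [h.2]; refine ⟨?_, ?_, ?_, ?_⟩ <;> decide +kernel)
    · exact aux (a := 7) hp hodd h3 (by rw [h.2]; refine ⟨?_, ?_, ?_, ?_⟩ <;> decide +kernel)
    · exact aux (a := 10) hp hodd h3 (by rw [h.2]; refine ⟨?_, ?_, ?_, ?_⟩ <;> decide +kernel)
    · exact aux (a := 3) hp hodd h3 (by rw [h.2]; refine ⟨?_, ?_, ?_, ?_⟩ <;> decide +kernel)
    · exact aux (a := 7) hp hodd h3 (by rw [h.2]; refine ⟨?_, ?_, ?_, ?_⟩ <;> decide +kernel)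
    · exact aux (a := 7) hp hodd h3 (by rw [h.2]; refine ⟨?_, ?_, ?_, ?_⟩ <;> decide +kernel)
    · exact aux (a := 21) hp hodd h3 (by rw [h.2]; refine ⟨?_, ?_, ?_, ?_⟩ <;> decide +kernel)
    · exact aux (a := 21) hp hodd h3 (by rw [h.2]; refine ⟨?_, ?_, ?_, ?_⟩ <;> decide +kernel)
    · exact aux (a := 18) hp hodd h3 (by rw [h.2]; refine ⟨?_, ?_, ?_, ?_⟩ <;> decide +kernel)
    · exact aux (a := 10) hp hodd h3 (by rw [h.2]; refine ⟨?_, ?_, ?_, ?_⟩ <;> decide +kernel)
    · exact aux (a := 17) hp hodd h3 (by rw [h.2]; refine ⟨?_, ?_, ?_, ?_⟩ <;> decide +kernel)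
    · exact aux (a := 18) hp hodd h3 (by rw [h.2]; refine ⟨?_, ?_, ?_, ?_⟩ <;> decide +kernel)
    · exact aux (a := 21) hp hodd h3 (by rw [h.2]; refine ⟨?_, ?_, ?_, ?_⟩ <;> decide +kernel)
    · exact aux (a := 9) hp hodd h3 (by rw [h.2]; refine ⟨?_, ?_, ?_, ?_⟩ <;> decide +kernel)
    · exact aux (a := 7) hp hodd h3 (by rw [h.2]; refine ⟨?_, ?_, ?_, ?_⟩ <;> decide +kernel)
    · exact aux (a := 10) hp hodd h3 (by rw [h.2]; refine ⟨?_, ?_, ?_, ?_⟩ <;> decide +kernel)
    · exact aux (a := 14) hp hodd h3 (by rw [h.2]; refine ⟨?_, ?_, ?_, ?_⟩ <;> decide +kernel)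
    · exact aux (a := 13) hp hodd h3 (by rw [h.2]; refine ⟨?_, ?_, ?_, ?_⟩ <;> decide +kernel)
    · exact aux (a := 9) hp hodd h3 (by rw [h.2]; refine ⟨?_, ?_, ?_, ?_⟩ <;> decide +kernel)
    · exact aux (a := 14) hp hodd h3 (by rw [h.2]; refine ⟨?_, ?_, ?_, ?_⟩ <;> decide +kernel)
    · exact aux (a := 8) hp hodd h3 (by rw [h.2]; refine ⟨?_, ?_, ?_, ?_⟩ <;> decide +kernel)
    · exact aux (a := 15) hp hodd h3 (by rw [h.2]; refine ⟨?_, ?_, ?_, ?_⟩ <;> decide +kernel)
    · exact aux (a := 41) hp hodd h3 (by rw [h.2]; refine ⟨?_, ?_, ?_, ?_⟩ <;> decide +kernel)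
    · exact aux (a := 46) hp hodd h3 (by rw [h.2]; refine ⟨?_, ?_, ?_, ?_⟩ <;> decide +kernel)

end Cfsg.Agent.S2367
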