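import Cfsg.Statements.S2369
import Cfsg.Agent.Chev.TwistBTMat
import Cfsg.Agent.Chev.TwistF4

set_option autoImplicit false
open Cfsg Cfsg.Lib.Chev Cfsg.Lib.Chev.Core

namespace Cfsg.Agent.S2369

/-- Let q = 2^(2m+1) with m ≥ 1 and let a, b be commuting elements of the large Ree group ²F₄(q) with a an involution. Then every prime divisor of the order of b divides q(q⁴ − 1). -/
theorem result {K : Type*} [Field K] [Fintype K] (m : ℕ) (hm : 1 ≤ m) (hK : Fintype.card K = 2 ^ (2 * m + 1))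
    (a b : ↥(Cfsg.Lie.twistedF4 K (2 ^ m))) (ha : orderOf a = 2) (hab : Commute a b) :
    (orderOf b).primeFactors ⊆ (2 ^ (2 * m + 1) * ((2 ^ (2 * m + 1)) ^ 4 - 1)).primeFactors := by
  obtain ⟨_, θ, hθ, -, hG⟩ := exists_twF4 hK
  have hY := Core.certF4.faithful K rootF4
  have ha1 : (a : GL _ K) ∈ (twF4' θ hθ).G1 := hG.ge a.2
  have hb1 : (b : GL _ K) ∈ (twF4' θ hθ).G1 := hG.ge b.2
  obtain ⟨g, hg, J, hS, hJ, -, h2⟩ := Core.certF4.twist_borel_tits (endF4 θ hθ) (clF4 θ hθ _) 2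
    (V := Subgroup.zpowers (a : GL _ K)) (by simpa using (twF4' θ hθ).G1_le_F ha1)
    (IsPGroup.of_card (n := 1) (by rw [Nat.card_zpowers, Subgroup.orderOf_coe, ha, pow_one]))
    (by
      rw [Ne, Subgroup.zpowers_eq_bot, OneMemClass.coe_eq_one]
      rintro rfl
      simp at ha)
  have h3 := h2 b ((twF4' θ hθ).G1_le_G0 hb1) (Subgroup.centralizer_le_normalizer _ (by
    rintro _ ⟨k, rfl⟩
    exact congrArg Subtype.val (hab.zpow_left k).eq))
  obtain ⟨i, hi⟩ : ∃ i : Fin 4, J ⊆ (subF4 θ).S.orb i := by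
    obtain ⟨k, hk⟩ := (Set.ne_univ_iff_exists_notMem J).1 hJ
    have hk' : piF4 k ∉ J := fun h => hk ((hS k).1 ((subF4_π θ k).symm ▸ h))
    obtain ⟨i, hi⟩ := (by decide : ∀ k : Fin 4, ∃ i : Fin 4, ∀ j, j ≠ k → j ≠ piF4 k → j ∈ orbF4 i) k
    refine ⟨i, fun j hj => ?_⟩
    rw [subF4_orb]
    exact hi j (fun e => hk (e ▸ hj)) fun e => hk' (e ▸ hj)
  have h4 := Subgroup.orderOf_dvd_natCard _ (show _ ∈ (Core.certF4.Y K rootF4).P ((subF4 θ).S.orb i) ⊓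
    (twF4' θ hθ).G1 from ⟨RGD.P_mono _ hi h3, mul_mem (mul_mem (Subgroup.inv_mem _ hg) hb1) hg⟩)
  have h5 : orderOf (g⁻¹ * b * g) = orderOf b := by
    rw [← Subgroup.orderOf_coe b]
    simpa using (MulAut.conj g⁻¹).orderOf_eq (b : GL _ K)
  have h6 := (twist_F4_t (hasC_F4 rootF4) (subF4 θ).S (subF4_π θ) i).2.2
  replace h4 := h4.trans ((twF4' θ hθ).card_P_orb hY i).dvd
  have h9 := (twF4_card_UL θ hθ i).2.trans (congrArg (fun n => Nat.card K ^ (n / 2)) h6)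
  replace h4 := h4.trans (congrArg (fun n => _ * (1 + n)) h9).dvd
  rw [h5, (twF4' θ hθ).card_B hY, (twF4' θ hθ).card_U hY (twF4_card_UL θ hθ), card_H_twF4,
    rootF4.card_posRoots, Nat.card_eq_fintype_card, hK] at h4
  have h7 : 1 < 2 ^ (2 * m + 1) := Nat.one_lt_two_pow (by omega)
  generalize 2 ^ (2 * m + 1) = q at h4 h7 ⊢
  obtain ⟨n, rfl⟩ : ∃ n, q = n + 1 := ⟨q - 1, by omega⟩
  have h8 : (n + 1) ^ 4 - 1 = n * (1 + (n + 1)) * (1 + (n + 1) ^ 2) := by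
    rw [Nat.sub_eq_iff_eq_add (Nat.one_le_pow _ _ (by omega))]; ring
  rw [← Nat.primeFactors_pow ((n + 1) * ((n + 1) ^ 4 - 1)) (k := 12) (by norm_num)]
  refine Nat.primeFactors_mono (h4.trans ?_) (by
    have : 0 < n := by omega
    rw [h8]; positivity)
  rw [h8, Nat.add_sub_cancel, show Lie.chevF4.nroots / 2 / 2 = 12 by decide +kernel]
  rcases (by decide : ∀ i : Fin 4, (twF4 i).length / 2 = 1 ∨ (twF4 i).length / 2 = 2) i with e | e
  · exact ⟨n ^ 10 * (1 + (n + 1)) ^ 11 * (1 + (n + 1) ^ 2) ^ 12, by rw [e]; ring⟩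
  · exact ⟨n ^ 10 * (1 + (n + 1)) ^ 12 * (1 + (n + 1) ^ 2) ^ 11, by rw [e]; ring⟩

end Cfsg.Agent.S2369
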