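import Cfsg.Statements.S2370
import Cfsg.Agent.Chev.UnipMat
import Cfsg.Agent.Chev.TwistF4

set_option autoImplicit false
open Cfsg Cfsg.Lib.Chev Cfsg.Lib.Chev.Core

namespace Cfsg.Agent.S2370

/-- Let q = 2^(2m+1) with m ≥ 1. Every element of 2-power order of the large Ree group ²F₄(q) has order at most 32. -/
theorem result {K : Type*} [Field K] [Fintype K] (m : ℕ) (hm : 1 ≤ m) (hK : Fintype.card K = 2 ^ (2 * m + 1))
    (x : ↥(Cfsg.Lie.twistedF4 K (2 ^ m))) (hx : ∃ j : ℕ, orderOf x = 2 ^ j) : orderOf x ≤ 32 := by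
  obtain ⟨_, θ, hθ, -, hG⟩ := exists_twF4 hK
  have hx0 : (x : GL _ K) ∈ (Core.certF4.Y K rootF4).G0 := (twF4' θ hθ).G1_le_G0 (hG.ge x.2)
  have : Finite (Core.certF4.Y K rootF4).G0 := inferInstance
  obtain ⟨j, hj⟩ := hx
  obtain ⟨g, -, h⟩ := (Core.certF4.faithful K rootF4).exists_conj_le_U (Core.certF4.isPGroup_U rootF4 2)
    (fun _ hh => Cert.eq_one_of_mem_range_torGL rootF4 2 (Core.certF4.hSub_le_range rootF4 hh))
    (V := Subgroup.zpowers (x : GL _ K)) (by simpa using hx0)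
    (IsPGroup.of_card (n := j) (by rw [Nat.card_zpowers, Subgroup.orderOf_coe, hj]))
  have h1 := Core.certF4.pow_eq_one_of_mem_U rootF4 2 (k := 4) (by decide +kernel)
    (h _ (Subgroup.mem_zpowers _))
  have h2 : x ^ 16 = 1 := by
    apply Subtype.ext
    have := congrArg (fun y => g * y * g⁻¹) h1
    rw [← conj_pow] at this
    simpa [mul_assoc] using this
  exact (orderOf_le_of_pow_eq_one (by norm_num) h2).trans (by norm_num)

end Cfsg.Agent.S2370
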