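import Cfsg.Statements.S2371
import Cfsg.Agent.Chev.CoreAll
import Cfsg.Agent.Chev.TorMain
import Cfsg.Agent.Chev.WeylTypes

set_option autoImplicit false
open Cfsg

namespace Cfsg.Agent.S2371

open Cfsg.Lib Cfsg.Lib.Chev Cfsg.Lib.Chev.Core Cfsg.Lie

set_option maxHeartbeats 400000
set_option maxRecDepth 100000

def cT : List (List ℤ) := [[2, -1], [-3, 2]]
def om : List (Fin 2) := [0, 1, 0, 1]
def lam : List (List ℤ) := [[1, 0], [1, -1], [-2, 1]]
def bT : List (List ℤ) := [[1, 1], [0, -1]]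
def eT : List (List ℤ) := [[1, -1], [1, -2]]
def be : List (List ℤ) := [[-1, 0], [1, -1]]
def chi : List ℤ := [1, 1, 1]
def orb0 : List (List ℤ) := ([1, 9, 10] : List ℕ).flatMap fun n =>
  [(List.range 2).map fun j => Int.ofNat (n / 8 ^ j % 8), (List.range 2).map fun j => -Int.ofNat (n / 8 ^ j % 8)]
def orb1 : List (List ℤ) := ([8, 11, 19] : List ℕ).flatMap fun n =>
  [(List.range 2).map fun j => Int.ofNat (n / 8 ^ j % 8), (List.range 2).map fun j => -Int.ofNat (n / 8 ^ j % 8)]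
def orbs : List (List (List ℤ) × List (List ℤ)) := [(orb0, [[-1, 0], [-1, -1]]), (orb1, [])]

theorem cT_eq_1' : type_of% @cT.eq_1 := @cT.eq_1
theorem om_eq_1' : type_of% @om.eq_1 := @om.eq_1
theorem lam_eq_1' : type_of% @lam.eq_1 := @lam.eq_1
theorem bT_eq_1' : type_of% @bT.eq_1 := @bT.eq_1
theorem eT_eq_1' : type_of% @eT.eq_1 := @eT.eq_1
theorem be_eq_1' : type_of% @be.eq_1 := @be.eq_1
theorem chi_eq_1' : type_of% @chi.eq_1 := @chi.eq_1
theorem orbs_eq_1' : type_of% @orbs.eq_1 := @orbs.eq_1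
theorem orb0_eq_1' : type_of% @orb0.eq_1 := @orb0.eq_1
theorem orb1_eq_1' : type_of% @orb1.eq_1 := @orb1.eq_1

theorem hT : HasCT chevG2 cT := by
  show ∀ i : Fin 2, cT.getD i [] = List.ofFn (fun j : Fin 2 => chevG2.cartan j (chevG2.simple i))
  decide +kernel

theorem h1 : cycChk 2 ((List.finRange 2).map fun j => actL cT om.reverse (omegaL j)) lam bT chi = true := by
  decide +kernel

theorem h2 : ∀ j : Fin 2, (eT.map fun row => row.getD j 0) = bT.map fun row => dotL row (cT.getD j []) := by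
  decide +kernel

theorem h3 : regChk 2 cartanG2 eT chi 2 3 orbs be 1 = true := by
  decide +kernel


/-- The group G₂(q), q ≥ 3, contains a cyclic subgroup of order q² + q + 1 which is its own centralizer. -/
theorem result {F : Type*} [Field F] [Fintype F] (q : ℕ) (hF : Fintype.card F = q) (hq : 3 ≤ q) :
    ∃ H : Subgroup ↥(Cfsg.Lie.chevG2.group F), IsCyclic ↥H ∧ Nat.card ↥H = q ^ 2 + q + 1 ∧
      Subgroup.centralizer (H : Set ↥(Cfsg.Lie.chevG2.group F)) = H := by
  subst hF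
  obtain ⟨H, h4, h5, h6⟩ := certG2.exists_cyclic_torus rootG2 F (snf_of_mem (by simp))
    (certG2.scH_injective rootG2 (cartanSNF_G2.injective _ fun i a => by
      rw [show List.getD [1, 1] i 1 = 1 from (by decide : ∀ i : Fin 2, List.getD [1, 1] i 1 = 1) i,
        pow_one]; exact id))
    (hasC_G2 rootG2) hT (by decide) h1 h2 h3 hq
  refine ⟨H, h4, ?_, h6⟩
  rw [card_ker_cartanHom_G2] at h5
  generalize hq' : Fintype.card F = q at h5 ⊢
  have h7 : 1 < q := hq' ▸ Fintype.one_lt_card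
  have h9 : evalZ chi q = ((q ^ 2 + q + 1 : ℕ) : ℤ) := by
    simp only [chi, evalZ, List.foldr]
    push_cast
    ring
  rwa [h9, Int.natAbs_natCast, one_mul] at h5

end Cfsg.Agent.S2371
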