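import Cfsg.Statements.S2372
import Cfsg.Agent.Chev.CoreAll
import Cfsg.Agent.Chev.TorMain
import Cfsg.Agent.Chev.WeylTypes

set_option autoImplicit false
open Cfsg

namespace Cfsg.Agent.S2372

open Cfsg.Lib Cfsg.Lib.Chev Cfsg.Lib.Chev.Core Cfsg.Lie

set_option maxHeartbeats 400000
set_option maxRecDepth 100000

def cT : List (List ℤ) := [[2, -1, 0, 0], [-1, 2, -1, 0], [0, -2, 2, -1], [0, 0, -1, 2]]
def om : List (Fin 4) := [0, 2, 1, 3, 2, 1]
def lam : List (List ℤ) := [[1, 0, 0, 0], [1, -1, 0, 1], [1, -2, 1, 0], [1, -1, 0, 0], [-1, 0, 0, 0]]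
def bT : List (List ℤ) := [[1, 1, 1, 0], [0, 0, 0, 1], [0, 0, 1, 0], [0, -1, -2, -1]]
def eT : List (List ℤ) := [[1, 0, 0, -1], [0, 0, -1, 2], [0, -1, 2, -1], [1, 0, -1, 0]]
def be : List (List ℤ) := [[0, 1, -1, 0], [-1, -1, 1, 0], [1, 0, -1, 0], [0, 1, 0, -1]]
def chi : List ℤ := [1, 0, 0, 0, 1]
def orb0 : List (List ℤ) := ([8, 72, 584, 1, 9, 73, 585, 81, 593, 657, 665, 666] : List ℕ).flatMap fun n =>
  [(List.range 4).map fun j => Int.ofNat (n / 8 ^ j % 8), (List.range 4).map fun j => -Int.ofNat (n / 8 ^ j % 8)]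
def orb1 : List (List ℤ) := ([512, 64, 576, 80, 592, 656, 82, 594, 658, 674, 738, 1250] : List ℕ).flatMap fun n =>
  [(List.range 4).map fun j => Int.ofNat (n / 8 ^ j % 8), (List.range 4).map fun j => -Int.ofNat (n / 8 ^ j % 8)]
def orbs : List (List (List ℤ) × List (List ℤ)) := [(orb0, [[-1, -1, 0, 0], [0, -1, -1, 0], [-1, -1, -1, 0], [0, -1, -1, -1]]), (orb1, [])]

theorem cT_eq_1' : type_of% @cT.eq_1 := @cT.eq_1
theorem om_eq_1' : type_of% @om.eq_1 := @om.eq_1
theorem lam_eq_1' : type_of% @lam.eq_1 := @lam.eq_1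
theorem bT_eq_1' : type_of% @bT.eq_1 := @bT.eq_1
theorem eT_eq_1' : type_of% @eT.eq_1 := @eT.eq_1
theorem be_eq_1' : type_of% @be.eq_1 := @be.eq_1
theorem chi_eq_1' : type_of% @chi.eq_1 := @chi.eq_1
theorem orbs_eq_1' : type_of% @orbs.eq_1 := @orbs.eq_1
theorem orb0_eq_1' : type_of% @orb0.eq_1 := @orb0.eq_1
theorem orb1_eq_1' : type_of% @orb1.eq_1 := @orb1.eq_1

theorem hT : HasCT chevF4 cT := by
  show ∀ i : Fin 4, cT.getD i [] = List.ofFn (fun j : Fin 4 => chevF4.cartan j (chevF4.simple i))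
  decide +kernel

theorem h1 : cycChk 4 ((List.finRange 4).map fun j => actL cT om.reverse (omegaL j)) lam bT chi = true := by
  decide +kernel

theorem h2 : ∀ j : Fin 4, (eT.map fun row => row.getD j 0) = bT.map fun row => dotL row (cT.getD j []) := by
  decide +kernel

theorem h3 : regChk 4 cartanF4 eT chi 2 2 orbs be 1 = true := by
  decide +kernel


/-- The group F₄(q) contains a cyclic subgroup of order q⁴ + 1 which is its own centralizer. -/
theorem result {F : Type*} [Field F] [Fintype F] (q : ℕ) (hF : Fintype.card F = q) :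
    ∃ H : Subgroup ↥(Cfsg.Lie.chevF4.group F), IsCyclic ↥H ∧ Nat.card ↥H = q ^ 4 + 1 ∧
      Subgroup.centralizer (H : Set ↥(Cfsg.Lie.chevF4.group F)) = H := by
  subst hF
  obtain ⟨H, h4, h5, h6⟩ := certF4.exists_cyclic_torus rootF4 F (snf_of_mem (by simp))
    (certF4.scH_injective rootF4 (cartanSNF_F4.injective _ fun i a => by
      rw [show List.getD [1, 1, 1, 1] i 1 = 1 from (by decide : ∀ i : Fin 4, List.getD [1, 1, 1, 1] i 1 = 1) i,
        pow_one]; exact id))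
    (hasC_F4 rootF4) hT (by decide) h1 h2 h3 Fintype.one_lt_card
  refine ⟨H, h4, ?_, h6⟩
  rw [card_ker_cartanHom_F4] at h5
  generalize hq' : Fintype.card F = q at h5 ⊢
  have h7 : 1 < q := hq' ▸ Fintype.one_lt_card
  have h9 : evalZ chi q = ((q ^ 4 + 1 : ℕ) : ℤ) := by
    simp only [chi, evalZ, List.foldr]
    push_cast
    ring
  rwa [h9, Int.natAbs_natCast, one_mul] at h5

end Cfsg.Agent.S2372
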