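import Cfsg.Statements.S2373
import Cfsg.Agent.Chev.CoreAll
import Cfsg.Agent.Chev.TorMain
import Cfsg.Agent.Chev.WeylTypes
import Cfsg.Agent.Chev.RepE6

set_option autoImplicit false
open Cfsg

namespace Cfsg.Agent.S2373

open Cfsg.Lib Cfsg.Lib.Chev Cfsg.Lib.Chev.Core Cfsg.Lie

set_option maxHeartbeats 400000
set_option maxRecDepth 100000

def cT : List (List ℤ) := [[2, 0, -1, 0, 0, 0], [0, 2, 0, -1, 0, 0], [-1, 0, 2, -1, 0, 0], [0, -1, -1, 2, -1, 0], [0, 0, 0, -1, 2, -1], [0, 0, 0, 0, -1, 2]]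
def om : List (Fin 6) := [5, 1, 4, 0, 2, 3]
def lam : List (List ℤ) := [[0, 0, 0, 0, 0, 1], [0, 1, 1, -1, 0, 0], [1, 0, 0, -1, 1, 0], [0, 1, 0, -1, 0, 1], [0, 0, 1, -1, 0, 0], [1, 0, -1, 0, 0, 0], [-1, 0, 0, 0, 0, 0]]
def bT : List (List ℤ) := [[1, 0, 1, 1, 0, 1], [1, 1, 1, 1, 0, 0], [0, 0, 0, 0, 1, 0], [-1, 0, -1, -1, 0, 0], [0, -1, 0, -1, -1, 0], [1, 0, 0, 0, -1, 0]]
def eT : List (List ℤ) := [[1, -1, 0, 1, -2, 2], [1, 1, 0, 0, -1, 0], [0, 0, 0, -1, 2, -1], [-1, 1, 0, -1, 1, 0], [0, -1, 1, 0, -1, 1], [2, 0, -1, 1, -2, 1]]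
def be : List (List ℤ) := [[1, -1, 0, 0, 0, 0], [0, 0, 1, 0, 0, -1], [-1, 0, 0, 0, 0, 0], [1, 0, -1, 0, 0, 0], [-1, 0, 1, -1, 0, 0], [1, 0, -1, 1, -1, 0]]
def chi : List ℤ := [1, 1, 0, -1, 0, 1, 1]
def orb0 : List (List ℤ) := ([32768, 4096, 36864, 512, 4608, 37376, 64, 576, 4672, 37440, 8, 520, 4616, 37384, 584, 4680, 37448, 5192, 37960, 42056, 1, 65, 577, 4673, 37441, 585, 4681, 37449, 5193, 37961, 42057, 5257, 38025, 42121, 42633, 42641] : List ℕ).flatMap fun n =>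
  [(List.range 6).map fun j => Int.ofNat (n / 8 ^ j % 8), (List.range 6).map fun j => -Int.ofNat (n / 8 ^ j % 8)]
def orbs : List (List (List ℤ) × List (List ℤ)) := [(orb0, [[0, 0, -1, 0, 0, 0], [-1, 0, -1, 0, 0, 0], [0, 0, -1, -1, 0, 0], [0, 0, 0, -1, -1, 0], [0, 0, 0, 0, -1, -1], [0, -1, -1, -1, 0, 0]])]

theorem cT_eq_1' : type_of% @cT.eq_1 := @cT.eq_1
theorem om_eq_1' : type_of% @om.eq_1 := @om.eq_1
theorem lam_eq_1' : type_of% @lam.eq_1 := @lam.eq_1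
theorem bT_eq_1' : type_of% @bT.eq_1 := @bT.eq_1
theorem eT_eq_1' : type_of% @eT.eq_1 := @eT.eq_1
theorem be_eq_1' : type_of% @be.eq_1 := @be.eq_1
theorem chi_eq_1' : type_of% @chi.eq_1 := @chi.eq_1
theorem orbs_eq_1' : type_of% @orbs.eq_1 := @orbs.eq_1
theorem orb0_eq_1' : type_of% @orb0.eq_1 := @orb0.eq_1

theorem hT : HasCT chevE6 cT := by
  show ∀ i : Fin 6, cT.getD i [] = List.ofFn (fun j : Fin 6 => chevE6.cartan j (chevE6.simple i))
  decide +kernel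

theorem h1 : cycChk 6 ((List.finRange 6).map fun j => actL cT om.reverse (omegaL j)) lam bT chi = true := by
  decide +kernel

theorem h2 : ∀ j : Fin 6, (eT.map fun row => row.getD j 0) = bT.map fun row => dotL row (cT.getD j []) := by
  decide +kernel

theorem h3 : regChk 6 cartanE6 eT chi 3 2 orbs be 1 = true := by
  decide +kernel


/-- The group E₆(q) (the simple Chevalley group of type E₆) contains a cyclic subgroup of order (q⁴ − q² + 1)(q² + q + 1)/gcd(3, q − 1) which is its own centralizer. -/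
theorem result {F : Type*} [Field F] [Fintype F] (q : ℕ) (hF : Fintype.card F = q) :
    ∃ H : Subgroup ↥(Cfsg.Lie.chevE6.group F), IsCyclic ↥H ∧ Nat.card ↥H = (q ^ 4 - q ^ 2 + 1) * (q ^ 2 + q + 1) / Nat.gcd 3 (q - 1) ∧
      Subgroup.centralizer (H : Set ↥(Cfsg.Lie.chevE6.group F)) = H := by
  subst hF
  obtain ⟨H, h4, h5, h6⟩ := certE6.exists_cyclic_torus rootE6 F (snf_of_mem (by simp))
    (hHom_stGen_injective_E6 _)
    (hasC_E6 rootE6) hT (by decide) h1 h2 h3 Fintype.one_lt_card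
  refine ⟨H, h4, ?_, h6⟩
  rw [card_ker_cartanHom_E6] at h5
  generalize hq' : Fintype.card F = q at h5 ⊢
  have h7 : 1 < q := hq' ▸ Fintype.one_lt_card
  have h8 : q ^ 2 ≤ q ^ 4 := Nat.pow_le_pow_right h7.le (by norm_num)
  have h9 : evalZ chi q = (((q ^ 4 - q ^ 2 + 1) * (q ^ 2 + q + 1) : ℕ) : ℤ) := by
    simp only [chi, evalZ, List.foldr]
    push_cast [h8]
    ring
  rw [h9, Int.natAbs_natCast, Nat.card_units, Nat.card_eq_fintype_card, hq'] at h5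
  rw [← h5, Nat.mul_div_cancel_left _ (Nat.gcd_pos_of_pos_left _ (by norm_num))]

end Cfsg.Agent.S2373
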