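import Cfsg.Statements.S2375
import Cfsg.Agent.Chev.CoreAll
import Cfsg.Agent.Chev.TorMain
import Cfsg.Agent.Chev.WeylTypes

set_option autoImplicit false
open Cfsg

namespace Cfsg.Agent.S2375

open Cfsg.Lib Cfsg.Lib.Chev Cfsg.Lib.Chev.Core Cfsg.Lie

set_option maxHeartbeats 400000
set_option maxRecDepth 100000

def cT : List (List ℤ) := [[2, 0, -1, 0, 0, 0, 0, 0], [0, 2, 0, -1, 0, 0, 0, 0], [-1, 0, 2, -1, 0, 0, 0, 0], [0, -1, -1, 2, -1, 0, 0, 0], [0, 0, 0, -1, 2, -1, 0, 0], [0, 0, 0, 0, -1, 2, -1, 0], [0, 0, 0, 0, 0, -1, 2, -1], [0, 0, 0, 0, 0, 0, -1, 2]]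
def om : List (Fin 8) := [0, 1, 2, 6, 3, 4, 7, 5]
def lam : List (List ℤ) := [[0, 0, 0, 0, 0, 0, 0, 1], [0, 0, 0, 0, 0, 0, 1, -1], [0, 0, 0, 0, 1, -1, 0, 0], [0, 0, 0, 1, -1, 0, 0, 0], [0, 1, 1, -1, 0, 0, 0, 0], [1, 0, 0, 0, 0, -1, 1, 0], [0, 1, 0, 0, 0, -1, 1, -1], [0, 0, 1, 0, 0, -1, 0, 0], [1, 1, 0, 0, -1, 0, 0, 0]]
def bT : List (List ℤ) := [[-1, 0, 0, 0, 0, 0, 1, 1], [0, 0, 1, 1, 1, 1, 1, 0], [1, 1, 1, 2, 2, 1, 0, 0], [1, 1, 1, 2, 1, 1, 0, 0], [1, 1, 1, 1, 1, 1, 0, 0], [1, 0, 0, 0, 0, 0, 0, 0], [-1, 0, -1, -1, -1, -1, 0, 0], [-1, -1, 0, -1, -1, -1, 0, 0]]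
def eT : List (List ℤ) := [[-2, 0, 1, 0, 0, -1, 1, 1], [-1, -1, 1, 0, 0, 0, 1, -1], [1, 0, -1, 0, 1, 0, -1, 0], [1, 0, -1, 1, -1, 1, -1, 0], [1, 1, 0, -1, 0, 1, -1, 0], [2, 0, -1, 0, 0, 0, 0, 0], [-1, 1, 0, 0, 0, -1, 1, 0], [-2, -1, 2, 0, 0, -1, 1, 0]]
def be : List (List ℤ) := [[0, 0, 0, -1, -1, 0, 1, 0], [-1, 0, 0, 0, 0, 0, 0, 0], [0, 0, 0, 0, 1, 0, -1, 0], [1, 0, 0, 0, -1, 0, 0, 0], [-1, 0, 0, 0, 1, -1, 0, 0], [0, -1, 0, 0, 0, 0, 0, 0], [0, 0, -1, 0, 0, 0, 0, 0], [0, 1, 1, 0, 0, 0, 0, -1]]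
def chi : List ℤ := [1, 1, 0, -1, -1, -1, 0, 1, 1]
def orb0 : List (List ℤ) := ([2097152, 262144, 2359296, 32768, 294912, 2392064, 4096, 36864, 299008, 2396160, 512, 4608, 37376, 299520, 2396672, 64, 576, 4672, 37440, 299584, 2396736, 8, 520, 4616, 37384, 299528, 2396680, 584, 4680, 37448, 299592, 2396744, 5192, 37960, 300104, 2397256, 42056, 304200, 2401352, 336968, 2434120, 2696264, 1, 65, 577, 4673, 37441, 299585, 2396737, 585, 4681, 37449, 299593, 2396745, 5193, 37961, 300105, 2397257, 42057, 304201, 2401353, 336969, 2434121, 2696265, 5257, 38025, 300169, 2397321, 42121, 304265, 2401417, 337033, 2434185, 2696329, 42633, 304777, 2401929, 337545, 2434697, 2696841, 341641, 2438793, 2700937, 2733705, 42641, 304785, 2401937, 337553, 2434705, 2696849, 341649, 2438801, 2700945, 2733713, 342161, 2439313, 2701457, 2734225, 2738321, 342225, 2439377, 2701521, 2734289, 2738385,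 2738897, 2738905, 342226, 2439378, 2701522, 2734290, 2738386, 2738898, 2738962, 2738906, 2738970, 2739482, 2743578, 2776346, 3038490, 5135642] : List ℕ).flatMap fun n =>
  [(List.range 8).map fun j => Int.ofNat (n / 8 ^ j % 8), (List.range 8).map fun j => -Int.ofNat (n / 8 ^ j % 8)]
def orbs : List (List (List ℤ) × List (List ℤ)) := [(orb0, [[0, -1, 0, 0, 0, 0, 0, 0], [0, 0, 0, 0, 0, -1, 0, 0], [0, 0, 0, 0, 0, 0, -1, 0], [-1, 0, -1, 0, 0, 0, 0, 0], [0, -1, 0, -1, 0, 0, 0, 0], [0, 0, 0, -1, -1, 0, 0, 0], [0, -1, -1, -1, 0, 0, 0, 0], [0, 0, 0, 0, 0, -1, -1, -1]])]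

theorem cT_eq_1' : type_of% @cT.eq_1 := @cT.eq_1
theorem om_eq_1' : type_of% @om.eq_1 := @om.eq_1
theorem lam_eq_1' : type_of% @lam.eq_1 := @lam.eq_1
theorem bT_eq_1' : type_of% @bT.eq_1 := @bT.eq_1
theorem eT_eq_1' : type_of% @eT.eq_1 := @eT.eq_1
theorem be_eq_1' : type_of% @be.eq_1 := @be.eq_1
theorem chi_eq_1' : type_of% @chi.eq_1 := @chi.eq_1
theorem orbs_eq_1' : type_of% @orbs.eq_1 := @orbs.eq_1
theorem orb0_eq_1' : type_of% @orb0.eq_1 := @orb0.eq_1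

theorem hT : HasCT chevE8 cT := by
  show ∀ i : Fin 8, cT.getD i [] = List.ofFn (fun j : Fin 8 => chevE8.cartan j (chevE8.simple i))
  decide +kernel

theorem h1 : cycChk 8 ((List.finRange 8).map fun j => actL cT om.reverse (omegaL j)) lam bT chi = true := by
  decide +kernel

theorem h2 : ∀ j : Fin 8, (eT.map fun row => row.getD j 0) = bT.map fun row => dotL row (cT.getD j []) := by
  decide +kernel

theorem h3 : regChk 8 cartanE8 eT chi 3 2 orbs be 1 = true := by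
  decide +kernel


/-- The group E₈(q) contains a cyclic subgroup of order q⁸ + q⁷ − q⁵ − q⁴ − q³ + q + 1 which is its own centralizer. -/
theorem result {F : Type*} [Field F] [Fintype F] (q : ℕ) (hF : Fintype.card F = q) :
    ∃ H : Subgroup ↥(Cfsg.Lie.chevE8.group F), IsCyclic ↥H ∧ Nat.card ↥H = q ^ 8 + q ^ 7 - q ^ 5 - q ^ 4 - q ^ 3 + q + 1 ∧
      Subgroup.centralizer (H : Set ↥(Cfsg.Lie.chevE8.group F)) = H := by
  subst hF
  obtain ⟨H, h4, h5, h6⟩ := certE8.exists_cyclic_torus rootE8 F (snf_of_mem (by simp))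
    (certE8.scH_injective rootE8 (cartanSNF_E8.injective _ fun i a => by
      rw [show List.getD [1, 1, 1, 1, 1, 1, 1, 1] i 1 = 1 from (by decide : ∀ i : Fin 8, List.getD [1, 1, 1, 1, 1, 1, 1, 1] i 1 = 1) i,
        pow_one]; exact id))
    (hasC_E8 rootE8) hT (by decide) h1 h2 h3 Fintype.one_lt_card
  refine ⟨H, h4, ?_, h6⟩
  rw [card_ker_cartanHom_E8] at h5
  generalize hq' : Fintype.card F = q at h5 ⊢
  have h7 : 1 < q := hq' ▸ Fintype.one_lt_card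
  have h8 : q ^ 5 + q ^ 4 + q ^ 3 ≤ q ^ 8 + q ^ 7 := by
    have a1 : q ^ 5 ≤ q ^ 7 := Nat.pow_le_pow_right h7.le (by norm_num)
    have a2 : q ^ 4 ≤ q ^ 7 := Nat.pow_le_pow_right h7.le (by norm_num)
    have a3 : q ^ 3 ≤ q ^ 7 := Nat.pow_le_pow_right h7.le (by norm_num)
    have a4 : q ^ 7 * 2 ≤ q ^ 7 * q := Nat.mul_le_mul_left _ h7
    rw [pow_succ q 7]
    omega
  have h9 : evalZ chi q = ((q ^ 8 + q ^ 7 - q ^ 5 - q ^ 4 - q ^ 3 + q + 1 : ℕ) : ℤ) := by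
    simp only [chi, evalZ, List.foldr]
    rw [Nat.sub_sub, Nat.sub_sub, ← add_assoc]
    push_cast [h8]
    ring
  rwa [h9, Int.natAbs_natCast, one_mul] at h5

end Cfsg.Agent.S2375
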