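import Cfsg.Statements.S2376
import Cfsg.Agent.Chev.GraphLang
import Cfsg.Agent.Chev.AutTw
import Cfsg.Agent.Chev.TwistD4
import Cfsg.Agent.Chev.WeylTypes

set_option autoImplicit false
open Cfsg

namespace Cfsg.Agent.S2376

open Cfsg.Lib Cfsg.Lib.Chev Cfsg.Lib.Chev.Core Cfsg.Lie

set_option maxHeartbeats 400000
set_option maxRecDepth 100000

def aM : List (List ℤ) := [[0,1,1,0],[0,-1,0,0],[0,1,0,1],[1,1,0,0]]
def lam : List (List ℤ) := [[0,0,0,1],[1,1,0,0],[0,0,1,0],[0,1,0,1],[1,0,0,0]]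
def bT : List (List ℤ) := [[1,-1,0,1],[1,0,0,0],[0,0,1,0],[-1,1,0,0]]
def be : List (List ℤ) := [[-1,0,0,0],[1,0,0,-1],[0,-1,0,0],[0,0,-1,0]]
def chi : List ℤ := [-1,-1,0,1,1]
def orb0 : List (List ℤ) := ([1, 8, 64, 512, 9, 72, 520, 73, 521, 584, 585, 593] : List ℕ).flatMap fun n =>
  [(List.range 4).map fun j => Int.ofNat (n / 8 ^ j % 8), (List.range 4).map fun j => -Int.ofNat (n / 8 ^ j % 8)]
def orbs : List (List (List ℤ) × List (List ℤ)) :=
  [(orb0, [[-1,0,0,0],[0,0,-1,0],[0,0,0,-1],[-1,-1,0,0]])]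

theorem aM_eq_1' : type_of% @aM.eq_1 := @aM.eq_1
theorem lam_eq_1' : type_of% @lam.eq_1 := @lam.eq_1
theorem bT_eq_1' : type_of% @bT.eq_1 := @bT.eq_1
theorem be_eq_1' : type_of% @be.eq_1 := @be.eq_1
theorem chi_eq_1' : type_of% @chi.eq_1 := @chi.eq_1
theorem orb0_eq_1' : type_of% @orb0.eq_1 := @orb0.eq_1
theorem orbs_eq_1' : type_of% @orbs.eq_1 := @orbs.eq_1

theorem h1 : cycChk 4 aM lam bT chi = true := by
  decide +kernel

theorem h2 : ∀ i : Fin 4, evL (aM.getD i []) =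
    (evL (([1] : List (Fin 4)).foldr (rreflL cartanD4) (omegaL (piD4 i))) : Fin 4 → ℤ) := by
  decide +kernel

theorem h3 : regChk 4 cartanD4 bT chi 2 2 orbs be 1 = true := by
  decide +kernel


/-- The group ³D₄(q) contains a cyclic subgroup of order (q³ − 1)(q + 1) which is its own centralizer. -/
theorem result {K : Type*} [Field K] [Fintype K] (q : ℕ) (hq : IsPrimePow q) (hK : Fintype.card K = q ^ 3) :
    ∃ H : Subgroup ↥(Cfsg.Lie.twistedD4 K q), IsCyclic ↥H ∧ Nat.card ↥H = (q ^ 3 - 1) * (q + 1) ∧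
      Subgroup.centralizer (H : Set ↥(Cfsg.Lie.twistedD4 K q)) = H := by
  obtain ⟨f, hf, h4, h5⟩ := exists_twD4 hK
  have h0 := certD4.card_H_inf_G1 _ _ (range_inf_fixT_D4 f hf) (hHom_mem_twD4 f hf)
  rw [ker_inf_fixT_D4, Subgroup.card_bot, one_mul] at h0
  obtain ⟨H, h6, h7, h8⟩ := gD4a.exists_cyclic_twisted certD4 rootD4 (endD4 f hf) (clD4 f hf _)
    (n := 3) (Equiv.ext fun i => Fin.ext (by
      rw [pow_three, Equiv.Perm.mul_apply, Equiv.Perm.mul_apply, gD4a_π, gD4a_π, gD4a_π]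
      revert i; decide)) hq h4 hK (snf_of_mem (by simp))
    (fun c hc => (certD4.torGL_mem_of_card _ _ rfl h0 hc).2) (hasC_D4 rootD4) (by decide) h1
    (fun i => (h2 i).trans (by rw [← subD4_π f i]; rfl)) h3 hq.two_le h5
  refine ⟨H, h6, ?_, h8⟩
  have h15 : 1 ≤ q ^ 3 := Nat.one_le_pow _ _ hq.pos
  have h16 : evalZ chi q = (((q ^ 3 - 1) * (q + 1) : ℕ) : ℤ) := by
    simp only [chi, evalZ, List.foldr]
    push_cast [h15]
    ring
  rw [h7, h16, Int.natAbs_natCast]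

end Cfsg.Agent.S2376
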