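import Cfsg.Statements.S2387
import Mathlib
import Cfsg.Agent.Known.GLClasses

set_option autoImplicit false
open scoped MatrixGroups
open Cfsg

namespace Cfsg.Agent.S2387

open Cfsg.Lib.Known Polynomial

/-- In `GL_n(q)` with `n ≥ 1`, `q` a power of the prime `p`, the number of conjugacy classes of elements of order prime to `p` (diagonalisable over the algebraic closure; determined by the characteristic polynomial) is `(q - 1) q^(n-1)`. -/
theorem result {F : Type*} [Field F] [Fintype F] {q : ℕ} (hq : Fintype.card F = q) (p : ℕ) [Fact p.Prime] [CharP F p] (n : ℕ) (hn : 1 ≤ n) :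
    Nat.card {c : ConjClasses (GL (Fin n) F) // ∃ g : GL (Fin n) F, ConjClasses.mk g = c ∧ (orderOf g).Coprime p} = (q - 1) * q ^ (n - 1) := by
  classical
  rw [card_GL_classes _ (fun s => ∀ x ∈ s, x.2 = 1) fun g => GL_orderOf_coprime_iff p g,
    Fintype.card_fin]
  have e : {s : Multiset (F[X] × ℕ) // IsGLType n s ∧ ∀ x ∈ s, x.2 = 1} ≃
      {s : Multiset (F[X] × ℕ) // IsElDivs s ∧ elDeg s = n ∧ (elProd s).coeff 0 ≠ 0 ∧
        ∀ x ∈ s, x.2 = 1} := Equiv.subtypeEquivRight fun s =>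
    ⟨fun h => ⟨h.1.1, h.1.2.1, h.1.1.forall_ne_X_iff.mp h.1.2.2, h.2⟩,
      fun h => ⟨⟨h.1, h.2.1, h.1.forall_ne_X_iff.mpr h.2.2.1⟩, h.2.2.2⟩⟩
  rw [Nat.card_congr e, Nat.card_congr (ssTypeEquiv n fun f => f.coeff 0 ≠ 0),
    card_monic_coeff_zero hn fun c => c ≠ 0]
  simp [hq]

end Cfsg.Agent.S2387
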