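import Cfsg.Statements.S2392
import Cfsg.Agent.Known.CrossChar

set_option autoImplicit false
open scoped MatrixGroups
open Cfsg

namespace Cfsg.Agent.S2392

open Cfsg.Lib.Known Cfsg.Lib.Class Module

/-- A lower bound for representations in cross characteristic: for `n ≥ 3` and a field `F` with `q` elements, every homomorphism from `SL_n(F)` to `GL_d(K)`, `K` a field of characteristic different from that of `F`, whose kernel is central has `d ≥ q^(n-1) - 1`. -/
theorem result {F : Type*} [Field F] [Fintype F] {q : ℕ} (hq : Fintype.card F = q) (n : ℕ) (hn : 3 ≤ n)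
    {K : Type*} [Field K] (hK : ringChar K ≠ ringChar F) {d : ℕ}
    (ρ : Matrix.SpecialLinearGroup (Fin n) F →* GL (Fin d) K) (hker : ρ.ker ≤ Subgroup.center (Matrix.SpecialLinearGroup (Fin n) F)) :
    q ^ (n - 1) - 1 ≤ d := by
  subst hq
  obtain ⟨ρ', h'⟩ := exists_rep_algClosure ρ
  have h := sl_cross_lower hn
    (by rwa [← Algebra.ringChar_eq K (AlgebraicClosure K)]) ρ' (fun g hg => hker (h' g hg))
  rwa [Module.finrank_fin_fun] at h

end Cfsg.Agent.S2392
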