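import Cfsg.Statements.S2394
import Cfsg.Agent.Class.SpOrder
import Cfsg.Agent.Class.Zsigmondy

set_option autoImplicit false
open scoped MatrixGroups
open Cfsg

namespace Cfsg.Agent.S2394

open Cfsg.Lib.Class

/-- The smallest degree of a faithful representation of the symplectic group `Sp_{2n}(q)` over its own field `F_q` is `2n`: every injective homomorphism from `Sp_{2n}(F)` to `GL_d(F)`, `F` the field with `q` elements, has `d ≥ 2n`. -/
theorem result {F : Type*} [Field F] [Fintype F] (n : ℕ) {d : ℕ}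
    (ρ : ↥(Matrix.symplecticGroup (Fin n) F) →* GL (Fin d) F) (hρ : Function.Injective ρ) : 2 * n ≤ d := by
  classical
  by_contra hlt
  push Not at hlt
  set q := Fintype.card F with hq
  have hq1 : 1 < q := Fintype.one_lt_card
  have hdvd : Nat.card (Matrix.symplecticGroup (Fin n) F) ∣ Nat.card (GL (Fin d) F) :=
    Subgroup.card_dvd_of_injective ρ hρ
  rw [card_symplecticGroup, Matrix.card_GL_field, ← hq] at hdvd
  by_cases h6 : q = 2 ∧ 2 * n = 6
  · obtain ⟨h2, h3⟩ := h6
    obtain rfl : n = 3 := by omega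
    rw [h2] at hdvd
    have h81 : 81 ∣ spOrd 2 3 := by decide
    have := h81.trans hdvd
    interval_cases d <;> revert this <;> decide
  by_cases h1 : n = 1
  · subst h1
    have hle := Nat.le_of_dvd (Finset.prod_pos fun i _ => Nat.sub_pos_of_lt
      (Nat.pow_lt_pow_right hq1 i.2)) hdvd
    have : spOrd q 1 = q * (q ^ 2 - 1) := by simp [spOrd]
    rw [this] at hle
    have h3 : 1 < q ^ 2 := Nat.one_lt_pow two_ne_zero hq1
    have h4 : q * 1 ≤ q * (q ^ 2 - 1) := Nat.mul_le_mul_left _ (by omega)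
    interval_cases d
    · simp at hle; omega
    · simp at hle; omega
  obtain ⟨r, hr, ho⟩ := zsigmondy (a := q) (n := 2 * n) hq1 (by omega) h6 (by omega)
  obtain ⟨h2, h3⟩ := (orderOf_eq_iff_primitive hq1.le (by omega)).1 ho
  have h4 : r ∣ spOrd q n := by
    refine Dvd.dvd.mul_left (h2.trans ?_) _
    have := Finset.dvd_prod_of_mem (fun i => q ^ (2 * (i + 1)) - 1)
      (Finset.mem_range.2 (by omega : n - 1 < n))
    rwa [Nat.sub_add_cancel (by omega)] at this
  obtain ⟨i, -, hi⟩ := (Prime.dvd_finsetProd_iff hr.prime _).1 (h4.trans hdvd)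
  have h5 : q ^ d - q ^ (i : ℕ) = q ^ (i : ℕ) * (q ^ (d - i) - 1) := by
    rw [Nat.mul_sub, ← pow_add, Nat.add_sub_cancel' i.2.le, mul_one]
  rw [h5] at hi
  rcases (Nat.Prime.dvd_mul hr).1 hi with h | h
  · have h7 : r ∣ q ^ (2 * n) := (hr.dvd_of_dvd_pow h).trans (dvd_pow_self _ (by omega))
    have h8 : r ∣ q ^ (2 * n) - (q ^ (2 * n) - 1) := Nat.dvd_sub h7 h2
    rw [Nat.sub_sub_self (Nat.one_le_pow _ _ (by omega))] at h8
    exact hr.one_lt.ne' (Nat.dvd_one.1 h8)
  · exact h3 (d - i) (by have := i.2; omega) (by omega) h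

end Cfsg.Agent.S2394
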