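import Cfsg.Statements.S2398
import Cfsg.Agent.Chev.LiftThm

set_option autoImplicit false
open Cfsg

namespace Cfsg.Agent.S2398

/-- Universality of the group Δ presented by Steinberg's generators with relators (R1), (R2), over a field with more than four elements (types G₂, B₂, D₄, F₄, E₆, E₇, E₈): for every central extension `π₁ : E → G₁` (surjective, central kernel) and every homomorphism `σ : Δ → G₁` there is exactly one homomorphism `τ : Δ → E` with `π₁ ∘ τ = σ`. In particular every central extension of Δ splits; together with the fact that Δ maps onto the Chevalley group with central kernel, this makes Δ the universal central extension of the Chevalley group. -/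
theorem result {K : Type*} [Field K] (hK5 : ∃ s : Finset K, 4 < s.card) (D : Cfsg.Lie.ChevalleyDatum) (hD : D ∈ [Cfsg.Lie.chevG2, Cfsg.Lie.chevB2, Cfsg.Lie.chevD4, Cfsg.Lie.chevF4, Cfsg.Lie.chevE6, Cfsg.Lie.chevE7, Cfsg.Lie.chevE8])
    {G₁ E : Type*} [Group G₁] [Group E] (π₁ : E →* G₁) (hπ : Function.Surjective π₁) (hc : π₁.ker ≤ Subgroup.center E)
    (σ : D.SteinbergCover K →* G₁) : ∃! τ : D.SteinbergCover K →* E, π₁.comp τ = σ := by
  obtain ⟨C, R⟩ := (Cfsg.Lib.Chev.Core.cert_root_of_mem hD).some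
  have hK := Cfsg.Lib.Chev.liftField_of_card D hK5
  obtain ⟨τ, hτ⟩ := (C.stLifts R hD hK ((Cfsg.Lib.Chev.stRel_scGen K D).map σ) ⟨hπ, hc⟩).exists_scHom R
    (σ := σ) fun _ _ _ => rfl
  exact ⟨τ, hτ, fun τ' hτ' => Cfsg.Lib.Solv.lift_unique_of_isPerfect
    (C.isPerfect_sc R hD fun h => hK.1 (by simp at h ⊢; tauto)) π₁ hc _ _ (hτ'.trans hτ.symm)⟩

end Cfsg.Agent.S2398
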