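import Cfsg.Statements.S2399
import Cfsg.Agent.Chev.LiftThm

set_option autoImplicit false
open scoped MatrixGroups
open Cfsg

namespace Cfsg.Agent.S2399

/-- Projective representations in the natural characteristic lift: for each of the types G₂, B₂, D₄, F₄, E₆, E₇, E₈ over any field `K` (for types B₂ and G₂ the field must have more than two elements — the cases where the Chevalley group is not simple are set aside), every homomorphism from the Chevalley group to `PGL_n(L) = GL_n(L)/Z`, `L` a field of the same characteristic as `K`, lifts uniquely to a homomorphism from the group Δ presented by (R1), (R2) to `GL_n(L)`, compatibly with the projection Δ → Chevalley group sending x̄_r(t) to x_r(t). -/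
theorem result {K : Type*} [Field K] (D : Cfsg.Lie.ChevalleyDatum) (hD : D ∈ [Cfsg.Lie.chevG2, Cfsg.Lie.chevB2, Cfsg.Lie.chevD4, Cfsg.Lie.chevF4, Cfsg.Lie.chevE6, Cfsg.Lie.chevE7, Cfsg.Lie.chevE8]) (hK : D ∈ [Cfsg.Lie.chevB2, Cfsg.Lie.chevG2] → ∃ x : K, x ≠ 0 ∧ x ≠ 1)
    (θ : D.SteinbergCover K →* ↥(D.group K))
    (hθ : ∀ (r : ℕ) (t : K), r < D.nroots → ((θ (D.scGen K r t) : GL D.Idx K) : Matrix D.Idx D.Idx K) = D.x K r t)
    {L : Type*} [Field L] (hL : ringChar L = ringChar K) {n : ℕ}
    (φ : ↥(D.group K) →* GL (Fin n) L ⧸ Subgroup.center (GL (Fin n) L)) :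
    ∃! ψ : D.SteinbergCover K →* GL (Fin n) L, (QuotientGroup.mk' (Subgroup.center (GL (Fin n) L))).comp ψ = φ.comp θ := by
  obtain ⟨C, R⟩ := (Cfsg.Lib.Chev.Core.cert_root_of_mem hD).some
  have hθ' := fun r hr t => (C.eq_xG_iff R).1 (hθ r t hr)
  have h : Cfsg.Lib.Chev.CExt (QuotientGroup.mk' (Subgroup.center (GL (Fin n) L))) :=
    ⟨QuotientGroup.mk'_surjective _, (QuotientGroup.ker_mk' _).le⟩
  have hy := C.model_xG K R
  have key : Cfsg.Lib.Chev.StLifts D (QuotientGroup.mk' (Subgroup.center (GL (Fin n) L)))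
      fun r t => φ (Cfsg.Lib.Chev.Core.xG D K r t) := by
    rcases finite_or_infinite K with _ | _
    · have h1 := (h.pullb φ).commutator (hy.toStRelW.isPerfect R hD hK (C.closure_xG_eq_top R))
      refine (hy.toStRelW.stLifts_coprime R h1 hy.faithful ?_).of_comp.of_pullb
      have := Cfsg.Lib.Solv.finite_commutator_of_central _ (h.pullb φ).cen
      have := Fintype.ofFinite K
      obtain ⟨k, hp, hk⟩ := FiniteField.card K (ringChar K)
      rw [Nat.card_eq_fintype_card (α := K), hk]
      refine (((Nat.Prime.coprime_iff_not_dvd hp).2 fun hd => ?_).symm).pow_right _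
      have := Fact.mk hp
      obtain ⟨z, hz⟩ := exists_prime_orderOf_dvd_card' _ hd
      have h2 : Cfsg.Lib.Chev.pullbFst _ _ z.1.1 = 1 := z.2
      have h3 := Cfsg.Lib.Chev.pullb_comm z.1.1
      rw [h2, map_one, QuotientGroup.mk'_apply, QuotientGroup.eq_one_iff] at h3
      obtain ⟨c, hc⟩ := Matrix.GeneralLinearGroup.mem_center_iff_val_mem_range_scalar.1 h3
      have h4 : Cfsg.Lib.Chev.pullbSnd _ _ z.1.1 ^ ringChar K = 1 := by
        rw [← map_pow, ← Subgroup.coe_pow, ← Subgroup.coe_pow, ← hz, pow_orderOf_eq_one]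
        exact map_one _
      have : CharP L (ringChar K) := hL ▸ ringChar.charP L
      refine hp.ne_one (hz.symm.trans (orderOf_eq_one_iff.2 (Subtype.ext (Subtype.ext
        (Cfsg.Lib.Chev.pullb_ext (h2.trans (map_one _).symm) (Units.ext (hc.symm.trans ?_)))))))
      have h5 := congrArg Units.val h4
      rw [Units.val_pow_eq_pow_val, ← hc, ← map_pow] at h5
      ext i j
      have h6 : c ^ ringChar K = 1 := by simpa using congrFun (congrFun h5 i) i
      have h7 : c = 1 := by
        rw [← sub_eq_zero, ← pow_eq_zero_iff hp.ne_zero, sub_pow_char, h6, one_pow, sub_self]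
      rw [h7, map_one]
      rfl
    · exact C.stLifts R hD (Cfsg.Lib.Chev.liftField_of_card D
        ((Infinite.exists_subset_card_eq K 5).imp fun _ h => by omega)) (hy.toStRel.map φ) h
  obtain ⟨τ, hτ⟩ := key.exists_scHom R (σ := φ.comp θ) fun r hr t => congrArg φ (hθ' r hr t)
  exact ⟨τ, hτ, fun τ' hτ' => Cfsg.Lib.Solv.lift_unique_of_isPerfect
    (C.isPerfect_sc R hD hK) _ h.cen _ _ (hτ'.trans hτ.symm)⟩

end Cfsg.Agent.S2399
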