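import Cfsg.Statements.S2400
import Cfsg.Agent.Chev.LiftThm

set_option autoImplicit false
open Cfsg

namespace Cfsg.Agent.S2400

/-- Over a finite field `K`, the group presented by Steinberg's relators (R1)–(R3) (the universal Chevalley group) of type E₆ or E₇, or of type B₂ or D₄ with `K` of more than two elements, has trivial Schur multiplier: every finite stem extension of it is an isomorphism (Schur multiplier described through stem extensions as in the definitions). Types G₂, F₄ and E₈ are not covered here. -/
theorem result {K : Type*} [Field K] [Fintype K] (e : Cfsg.Lie.ChevalleyDatum × ℕ)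
    (he : e ∈ [(Cfsg.Lie.chevE6, 0), (Cfsg.Lie.chevE7, 0), (Cfsg.Lie.chevB2, 2), (Cfsg.Lie.chevD4, 2)]) (hK : Fintype.card K ≠ e.2) :
    Cfsg.HasCyclicSchurMultiplier (e.1.SteinbergGroup K) 1 := by
  have h3 : Fintype.card K ≠ 2 → ∃ a : K, a ≠ 0 ∧ a ≠ 1 := fun h => by
    simpa using Cfsg.Lib.Chev.lift_exists_pow_ne_one (s := (Finset.univ : Finset K)) one_pos
      (by have := Fintype.one_lt_card (α := K); rw [Finset.card_univ]; omega)
  simp only [List.mem_cons, List.not_mem_nil, or_false] at he
  have key : ∀ D, D ∈ _ → Cfsg.Lib.Chev.LiftField D K → Cfsg.HasCyclicSchurMultiplier (D.SteinbergGroup K) 1 :=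
    fun D hD hF => let ⟨C, R⟩ := (Cfsg.Lib.Chev.Core.cert_root_of_mem hD).some; C.multiplier_st R hD hF
  have n : ∀ {D D' : Cfsg.Lie.ChevalleyDatum}, D.nroots ≠ D'.nroots → D ≠ D' := fun h e => h (e ▸ rfl)
  rcases he with rfl | rfl | rfl | rfl
  · exact key _ (by simp) ⟨fun h => by
      simp only [List.mem_cons, List.not_mem_nil, or_false] at h
      rcases h with h | h | h | h <;> exact absurd h (n (by decide)), fun h => absurd h (n (by decide))⟩
  · exact key _ (by simp) ⟨fun h => by
      simp only [List.mem_cons, List.not_mem_nil, or_false] at h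
      rcases h with h | h | h | h <;> exact absurd h (n (by decide)), fun h => absurd h (n (by decide))⟩
  · exact key _ (by simp) ⟨fun _ => h3 hK, fun h => absurd h (n (by decide))⟩
  · exact key _ (by simp) ⟨fun _ => h3 hK, fun h => absurd h (n (by decide))⟩

end Cfsg.Agent.S2400
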