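import Cfsg.Statements.S2401
import Cfsg.Agent.Known.PresStA

set_option autoImplicit false
open Cfsg

namespace Cfsg.Agent.S2401

/-- The Steinberg presentation of `SL_n` over a finite field for `n ≥ 3`: the group generated by symbols `x_ij(t)` (`i ≠ j`, `t` in the field) subject to `x_ij(t) x_ij(u) = x_ij(t + u)` and, for `i ≠ l`, `x_ij(t) x_kl(u) x_ij(t)⁻¹ x_kl(u)⁻¹ = x_il(tu)` if `j = k` and `= 1` if `j ≠ k`, is isomorphic to `SL_n` by an isomorphism sending `x_ij(t)` to the elementary matrix `1 + t E_ij`. -/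
theorem result {K : Type*} [Field K] [Finite K] (n : ℕ) (hn : 3 ≤ n) :
    ∃ e : PresentedGroup
        ({g : FreeGroup ({ij : Fin n × Fin n // ij.1 ≠ ij.2} × K) | ∃ (a : {ij : Fin n × Fin n // ij.1 ≠ ij.2}) (t u : K),
            g = FreeGroup.of (a, t) * FreeGroup.of (a, u) * (FreeGroup.of (a, t + u))⁻¹} ∪
          {g | ∃ (a b : {ij : Fin n × Fin n // ij.1 ≠ ij.2}) (t u : K), a.1.1 ≠ b.1.2 ∧ a.1.2 ≠ b.1.1 ∧
            g = FreeGroup.of (a, t) * FreeGroup.of (b, u) * (FreeGroup.of (a, t))⁻¹ * (FreeGroup.of (b, u))⁻¹} ∪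
          {g | ∃ (a b : {ij : Fin n × Fin n // ij.1 ≠ ij.2}) (h : a.1.1 ≠ b.1.2) (t u : K), a.1.2 = b.1.1 ∧
            g = FreeGroup.of (a, t) * FreeGroup.of (b, u) * (FreeGroup.of (a, t))⁻¹ * (FreeGroup.of (b, u))⁻¹ *
              (FreeGroup.of (⟨(a.1.1, b.1.2), h⟩, t * u))⁻¹}) ≃* Matrix.SpecialLinearGroup (Fin n) K,
      ∀ (a : {ij : Fin n × Fin n // ij.1 ≠ ij.2}) (t : K), ((e (PresentedGroup.of (a, t)) : Matrix (Fin n) (Fin n) K)) = Matrix.transvection a.1.1 a.1.2 t := by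
  set R := ({g : FreeGroup ({ij : Fin n × Fin n // ij.1 ≠ ij.2} × K) | ∃ (a : {ij : Fin n × Fin n // ij.1 ≠ ij.2}) (t u : K),
            g = FreeGroup.of (a, t) * FreeGroup.of (a, u) * (FreeGroup.of (a, t + u))⁻¹} ∪
          {g | ∃ (a b : {ij : Fin n × Fin n // ij.1 ≠ ij.2}) (t u : K), a.1.1 ≠ b.1.2 ∧ a.1.2 ≠ b.1.1 ∧
            g = FreeGroup.of (a, t) * FreeGroup.of (b, u) * (FreeGroup.of (a, t))⁻¹ * (FreeGroup.of (b, u))⁻¹} ∪
          {g | ∃ (a b : {ij : Fin n × Fin n // ij.1 ≠ ij.2}) (h : a.1.1 ≠ b.1.2) (t u : K), a.1.2 = b.1.1 ∧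
            g = FreeGroup.of (a, t) * FreeGroup.of (b, u) * (FreeGroup.of (a, t))⁻¹ * (FreeGroup.of (b, u))⁻¹ *
              (FreeGroup.of (⟨(a.1.1, b.1.2), h⟩, t * u))⁻¹}) with hR
  have hs := Lib.Chev.stA_slE (F := K) (κ := Fin n)
  let f : PresentedGroup R →* Matrix.SpecialLinearGroup (Fin n) K :=
    PresentedGroup.toGroup (f := fun x => Lib.Chev.slE x.1.1.1 x.1.1.2 x.2) (by
      rintro _ ((⟨a, t, u, rfl⟩ | ⟨a, b, t, u, h1, h2, rfl⟩) | ⟨⟨⟨a, b⟩, hab⟩, ⟨⟨_, c⟩, hbc⟩, h, t, u, rfl, rfl⟩) <;>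
        simp only [map_mul, map_inv, FreeGroup.lift_apply_of]
      · rw [hs.add _ _ a.2, mul_inv_cancel]
      · rw [(hs.commute _ _ _ _ a.2 b.2 h2 h1 t u).eq]; group
      · rw [← hs.eq_comm hab hbc h, mul_inv_cancel])
  let e : Fin n → Fin n → K → PresentedGroup R := fun a b t =>
    if h : a ≠ b then PresentedGroup.of (⟨(a, b), h⟩, t) else 1
  have he : ∀ a b t (h : a ≠ b), e a b t = PresentedGroup.of (⟨(a, b), h⟩, t) := fun a b t h => dif_pos h
  have hf : ∀ a b t, a ≠ b → f (e a b t) = Lib.Chev.slE a b t := fun a b t h => by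
    rw [he a b t h]; exact PresentedGroup.toGroup.of _
  have rel : ∀ r ∈ R, PresentedGroup.mk R r = 1 := fun r hr => PresentedGroup.one_of_mem hr
  have hst : Lib.Chev.StA e := by
    refine ⟨fun a b h t u => ?_, fun a b c h1 h2 h3 t u => ?_, fun a b c d h1 h2 h3 h4 t u => ?_⟩
    · have := rel _ (Or.inl (Or.inl ⟨⟨(a, b), h⟩, t, u, rfl⟩))
      rw [map_mul, map_inv, mul_inv_eq_one, map_mul] at this
      rw [he _ _ _ h, he _ _ _ h, he _ _ _ h]; exact this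
    · have := rel _ (Or.inr ⟨⟨(a, b), h1⟩, ⟨(b, c), h2⟩, h3, t, u, rfl, rfl⟩)
      simp only [map_mul, map_inv, mul_inv_eq_one, mul_inv_eq_iff_eq_mul] at this
      rw [he _ _ _ h1, he _ _ _ h2, he _ _ _ h3]; exact this
    · have := rel _ (Or.inl (Or.inr ⟨⟨(a, b), h1⟩, ⟨(c, d), h2⟩, t, u, h4, h3, rfl⟩))
      simp only [map_mul, map_inv, mul_inv_eq_one, mul_inv_eq_iff_eq_mul] at this
      rw [he _ _ _ h1, he _ _ _ h2]; exact this
  have hb : Function.Bijective f := by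
    refine ⟨(injective_iff_map_eq_one f).2 fun g hg =>
      Lib.Known.stA_eq_one hst (by simpa using hn) hf ?_ hg, ?_⟩
    · refine PresentedGroup.generated_by _ _ (fun x => ?_) g
      obtain ⟨⟨⟨a, b⟩, h⟩, t⟩ := x
      rw [← he a b t h]
      exact Lib.Known.mem_stG h trivial t
    · rw [← MonoidHom.range_eq_top]
      exact Lib.Chev.closure_slE _ fun a b h t => ⟨_, hf a b t h⟩
  refine ⟨MulEquiv.ofBijective f hb, fun ⟨⟨a, b⟩, h⟩ t => ?_⟩
  have := hf a b t h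
  rw [he a b t h, Lib.Chev.slE_eq h] at this
  exact congrArg Subtype.val this

end Cfsg.Agent.S2401
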