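import Cfsg.Statements.S2404
import Cfsg.Agent.Chev.CoreAll
import Cfsg.Agent.Chev.CentConn

set_option autoImplicit false
open Cfsg

namespace Cfsg.Agent.S2404

open Cfsg.Lib Cfsg.Lib.Chev Cfsg.Lib.Chev.Core Cfsg.Lie

/-- Steinberg's count of semisimple classes for type E₆ when the finite simply connected group has trivial centre: over a field with `q` elements of characteristic `p` with `q ≢ 1 (mod 3)`, the simply connected group E₆(q) coincides with the Chevalley group, and the conjugacy classes of elements of order prime to `p` in the Chevalley group of type E₆ number exactly `q^6`. -/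
theorem result {F : Type*} [Field F] [Fintype F] {q : ℕ} (hq : Fintype.card F = q) (hq3 : q % 3 ≠ 1) (p : ℕ) [Fact p.Prime] [CharP F p] :
    Nat.card {c : ConjClasses ↥(Cfsg.Lie.chevE6.group F) // ∃ g : ↥(Cfsg.Lie.chevE6.group F), ConjClasses.mk g = c ∧ (orderOf g).Coprime p} = q ^ 6 := by
  subst hq
  have hD' : chevE6 ∈ [chevG2, chevB2, chevD4, chevF4, chevE6, chevE7, chevE8] := by simp
  obtain ⟨C, R⟩ := cert_root_of_mem hD'
  refine C.card_semisimple_classes R F p (snf_of_mem hD')
    ((MonoidHom.ker_eq_bot_iff _).1 (Subgroup.card_eq_one.1 ?_))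
  have h2 := Fintype.one_lt_card (α := F)
  rw [card_ker_cartanHom_E6, Nat.card_units, Nat.card_eq_fintype_card]
  exact (Nat.Prime.coprime_iff_not_dvd Nat.prime_three).2 (by omega)

end Cfsg.Agent.S2404
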