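import Cfsg.Statements.S2410
import Cfsg.Agent.Chev.SuzukiMax

set_option autoImplicit false
open Cfsg

namespace Cfsg.Agent.S2410

/-- The Suzuki group over the field with `2^(2m+1)` elements, `m ≥ 1` (realised as the stabiliser in `SL₄` of the Suzuki–Tits ovoid), is generated by two of its elements. -/
theorem result {F : Type*} [Field F] [Fintype F] {m : ℕ} (hm : 1 ≤ m) (hF : Fintype.card F = 2 ^ (2 * m + 1)) :
    ∃ a b : ↥(Cfsg.Sz F m), Subgroup.closure ({a, b} : Set ↥(Cfsg.Sz F m)) = ⊤ := by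
  classical
  let X := Cfsg.Lib.Chev.szModel hm hF
  have := X.finite
  obtain ⟨l, hl⟩ := IsCyclic.exists_ofOrder_eq_natCard (α := Fˣ)
  have h8 := X.eight_le_card
  have ho : orderOf (X.D l) = Fintype.card F - 1 := by
    rw [orderOf_injective X.D X.D_inj, hl, Nat.card_units, Nat.card_eq_fintype_card]
  have h1 : X.D l ≠ 1 := fun h => by
    rw [h, orderOf_one] at ho
    omega
  have hcop := Cfsg.Lib.Chev.SzModel.coprime_sq_add_one (τ := Cfsg.Lib.Chev.Tw.ofCard hF)
  have hodd := Cfsg.Lib.Chev.SzModel.odd_sub_one (τ := Cfsg.Lib.Chev.Tw.ofCard hF)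
  have hH : X.D l ∈ X.Hat X.inf (X.pt 0 0) := X.mem_Hat.mpr ⟨X.D_smul_inf l, X.D_smul_zero l⟩
  have hne := X.inf_ne_pt 0 0
  refine ⟨X.D l, X.T 0 1 * X.w, ?_⟩
  have ha : X.D l ∈ Subgroup.closure ({X.D l, X.T 0 1 * X.w} : Set _) := Subgroup.subset_closure (by simp)
  have hb : X.T 0 1 * X.w ∈ Subgroup.closure ({X.D l, X.T 0 1 * X.w} : Set _) := Subgroup.subset_closure (by simp)
  have hb1 : (X.T 0 1 * X.w) • X.inf = X.pt 0 1 := by rw [mul_smul, X.w_smul_inf, X.T_smul_zero]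
  have hb2 : (X.T 0 1 * X.w) • X.pt 0 0 = X.inf := by rw [mul_smul, X.w_smul_zero, X.T_smul_inf]
  rcases X.classification (Subgroup.closure {X.D l, X.T 0 1 * X.w}) with
    ⟨_, ⟨p, rfl⟩ | ⟨c, d, hcd, rfl⟩ | ⟨z, hz, rfl⟩, h⟩ | ⟨k, E, hE, h⟩
  · exfalso
    rw [X.normalizer_Pat] at h
    have h2 : (X.T 0 1 * X.w) • p = p := h hb
    rcases X.eq_or_eq_of_mem_Hat hne hH h1 (h ha) with rfl | rfl
    · rw [hb1] at h2
      exact X.pt_ne_inf _ _ h2
    · rw [hb2] at h2
      exact X.inf_ne_pt _ _ h2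
  · exfalso
    rcases (X.mem_normalizer_Hat hcd).mp (h ha) with h2 | h2
    · rw [← X.Hat_eq_of_mem hne hcd hH (X.mem_Hat.mpr h2) h1] at h
      rcases (X.mem_normalizer_Hat hne).mp (h hb) with h3 | h3
      · rw [hb1] at h3
        exact X.pt_ne_inf _ _ h3.1
      · rw [hb1] at h3
        simp at h3
    · exact h1 (X.eq_one_of_mem_Hat_of_pow hne hH (k := 1) (by
        rw [pow_one, sq, X.mul_self_of_swap hcd h2.1 h2.2]))
  · exfalso
    have h2 := Subgroup.orderOf_dvd_natCard _ (h ha)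
    rw [hz.card_normalizer, ho] at h2
    have h3 := (Nat.Coprime.dvd_of_dvd_mul_left ((Odd.coprime_two_right hodd).pow_right 2) h2).trans
      hz.card_centralizer_dvd
    have h4 := Nat.Coprime.eq_one_of_dvd (hcop.coprime_mul_left_right.symm) h3
    omega
  · have h2 := Subgroup.orderOf_dvd_natCard _ ha
    rw [h, (X.conjModel k).card_sub hF E hE, ho] at h2
    obtain ⟨j, -, hj, e, he⟩ := Cfsg.Lib.Chev.exists_card_subfield hF E hE
    have hq : Fintype.card F = Nat.card E ^ e := by rw [hF, hj, he, pow_mul]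
    have hodde : Odd e := Odd.of_dvd_nat ⟨m, rfl⟩ (he ▸ dvd_mul_left e _)
    have h3 : Nat.card E ^ 2 + 1 ∣ Fintype.card F ^ 2 + 1 := by
      have := hodde.nat_add_dvd_pow_add_pow (Nat.card E ^ 2) 1
      rwa [one_pow, ← pow_mul, mul_comm, pow_mul, ← hq] at this
    have h4 : Nat.Coprime (Fintype.card F - 1) (Nat.card E ^ 2 * (Nat.card E ^ 2 + 1)) := by
      refine Nat.Coprime.mul_right ?_ (hcop.coprime_mul_left_right.symm.coprime_dvd_right h3)
      rw [hj]
      exact ((Odd.coprime_two_right hodd).pow_right _).pow_right _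
    have h5 := Nat.le_of_dvd (by omega) (h4.dvd_of_dvd_mul_left h2)
    have h6 : Nat.card E ≤ Nat.card F := Nat.card_le_card_of_injective _ E.subtype_injective
    rw [Nat.card_eq_fintype_card (α := F)] at h6
    rw [h, (X.conjModel k).sub_eq_top_iff]
    exact Cfsg.Lib.Chev.subfield_eq_top_of_card (by rw [Nat.card_eq_fintype_card (α := F)]; omega)

end Cfsg.Agent.S2410
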