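import Cfsg.Statements.S2416
import Cfsg.Agent.Chev.GenRoot

set_option autoImplicit false
open scoped MatrixGroups
open Cfsg Cfsg.Lib.Chev Cfsg.Lib.Chev.Core

namespace Cfsg.Agent.S2416

/-- A Chevalley group of type G₂, B₂, D₄, F₄, E₆, E₇ or E₈ over a finite field lies in (indeed equals) the subgroup generated by its monomial subgroup `N` and a single fundamental root subgroup `X_p`, where `p` is a short fundamental root if there are two root lengths (any fundamental root otherwise), provided the characteristic is not 2 for types B₂, F₄ and not 3 for type G₂ (and the field has more than two elements for B₂, G₂). -/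
theorem result {K : Type*} [Field K] [Finite K] (D : Cfsg.Lie.ChevalleyDatum) (hD : D ∈ [Cfsg.Lie.chevG2, Cfsg.Lie.chevB2, Cfsg.Lie.chevD4, Cfsg.Lie.chevF4, Cfsg.Lie.chevE6, Cfsg.Lie.chevE7, Cfsg.Lie.chevE8])
    (hK : D ∈ [Cfsg.Lie.chevB2, Cfsg.Lie.chevG2] → ∃ x : K, x ≠ 0 ∧ x ≠ 1)
    (h2 : D ∈ [Cfsg.Lie.chevB2, Cfsg.Lie.chevF4] → ringChar K ≠ 2) (h3 : D = Cfsg.Lie.chevG2 → ringChar K ≠ 3)
    (i : ℕ) (hi : i < D.rank) (hshort : D.isLong (D.simple i) = false) :
    D.group K ≤ D.monomialSubgroup K ⊔ D.rootSubgroup K (D.simple i) := by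
  obtain ⟨C, R⟩ := cert_root_of_mem hD
  rw [C.group_eq_Y R, C.monomialSubgroup_eq_Y R, C.rootSubgroup_eq_Y R]
  generalize hM : (C.Y K R).N ⊔ (C.Y K R).X (D.simple i) = M
  have hN : (C.Y K R).N ≤ M := hM ▸ le_sup_left
  have h0 : (C.Y K R).X (R.weyl.simple ⟨i, hi⟩) ≤ M := hM ▸ le_sup_right
  have hN' := hN.trans (Subgroup.le_normalizer (H := M))
  have hc : ∀ n : ℕ, n.Prime → ringChar K ≠ n → ((n : ℤ) : K) ≠ 0 := fun n hn h e =>
    h (CharP.ringChar_of_prime_eq_zero hn (by exact_mod_cast e))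
  refine (C.Y K R).G0_le_of_N hN ?_
  clear hM
  simp only [List.mem_cons, List.not_mem_nil, or_false] at hD
  rcases hD with rfl | rfl | rfl | rfl | rfl | rfl | rfl
  · obtain rfl : i = 0 := (by decide +kernel : ∀ i < Lie.chevG2.rank,
      Lie.chevG2.isLong (Lie.chevG2.simple i) = false → i = 0) i hi hshort
    have h1 := C.xSub_reflect_le R hN' (r := 7) (s := 8) (1 : Fin 2) (by decide +kernel) h0
    have h2 := C.xSub_reflect_le R hN' (s := 9) (0 : Fin 2) (by decide +kernel) h1
    have h4 := C.xSub_le_of_comm R (r := 7) (s := 9) (k := 10) (c := 3) (by decide +kernel)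
      (hc 3 (by norm_num) (h3 rfl)) h0 h2
    have h5 := C.xSub_reflect_le R hN' (s := 6) (0 : Fin 2) (by decide +kernel) h4
    exact Fin.forall_fin_two.2 ⟨h0, h5⟩
  · obtain rfl : i = 0 := (by decide +kernel : ∀ i < Lie.chevB2.rank,
      Lie.chevB2.isLong (Lie.chevB2.simple i) = false → i = 0) i hi hshort
    have h1 := C.xSub_reflect_le R hN' (r := 5) (s := 6) (1 : Fin 2) (by decide +kernel) h0
    have h4 := C.xSub_le_of_comm R (r := 5) (s := 6) (k := 7) (c := 2) (by decide +kernel)
      (hc 2 (by norm_num) (h2 (by simp))) h0 h1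
    have h5 := C.xSub_reflect_le R hN' (s := 4) (0 : Fin 2) (by decide +kernel) h4
    exact Fin.forall_fin_two.2 ⟨h0, h5⟩
  · exact (C.Y K R).X_simple_le_of_laced hN' R.weyl_connected
      (by simp only [R.weyl_C]; decide +kernel) h0
  · have key : ∀ a b : Fin 4, Lie.chevF4.cartan a (Lie.chevF4.simple b) = -1 ∧
        Lie.chevF4.cartan b (Lie.chevF4.simple a) = -1 → (C.Y K R).X (R.weyl.simple a) ≤ M →
        (C.Y K R).X (R.weyl.simple b) ≤ M := fun a b h =>
      (C.Y K R).X_simple_le_of_bond hN' h.1 h.2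
    have h1 : (C.Y K R).X (R.weyl.simple (1 : Fin 4)) ≤ M := by
      rcases (by decide +kernel : ∀ i < Lie.chevF4.rank,
        Lie.chevF4.isLong (Lie.chevF4.simple i) = false → i = 0 ∨ i = 1) i hi hshort with rfl | rfl
      · exact key 0 1 (by decide +kernel) h0
      · exact h0
    have h3 := C.xSub_reflect_le R hN' (r := 27) (s := 28) (2 : Fin 4) (by decide +kernel) h1
    have h4 := C.xSub_le_of_comm R (r := 27) (s := 28) (k := 30) (c := 2) (by decide +kernel)
      (hc 2 (by norm_num) (h2 (by simp))) h1 h3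
    have h5 : (C.Y K R).X (R.weyl.simple (2 : Fin 4)) ≤ M :=
      C.xSub_reflect_le R hN' (s := 25) (1 : Fin 4) (by decide +kernel) h4
    refine fun j : Fin 4 => ?_
    fin_cases j
    · exact key 1 0 (by decide +kernel) h1
    · exact h1
    · exact h5
    · exact key 2 3 (by decide +kernel) h5
  · exact (C.Y K R).X_simple_le_of_laced hN' R.weyl_connected
      (by simp only [R.weyl_C]; decide +kernel) h0
  · exact (C.Y K R).X_simple_le_of_laced hN' R.weyl_connected
      (by simp only [R.weyl_C]; decide +kernel) h0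
  · exact (C.Y K R).X_simple_le_of_laced hN' R.weyl_connected
      (by simp only [R.weyl_C]; decide +kernel) h0

end Cfsg.Agent.S2416
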