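import Cfsg.Statements.S2417
import Cfsg.Agent.Chev.GenRoot

set_option autoImplicit false
open scoped MatrixGroups
open Cfsg Cfsg.Lib.Chev Cfsg.Lib.Chev.Core

namespace Cfsg.Agent.S2417

/-- In the characteristics with an exceptional graph symmetry — type B₂ or F₄ in characteristic 2 (field of more than two elements for B₂) and type G₂ in characteristic 3 — the Chevalley group lies in the subgroup generated by its monomial subgroup `N` and the two fundamental root subgroups `X_a`, `X_b` of a short root `a` and a long root `b` joined in the Dynkin diagram. -/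
theorem result {K : Type*} [Field K] [Finite K] (e : Cfsg.Lie.ChevalleyDatum × ℕ)
    (he : e ∈ [(Cfsg.Lie.chevB2, 2), (Cfsg.Lie.chevF4, 2), (Cfsg.Lie.chevG2, 3)]) [CharP K e.2]
    (hK : e.1 = Cfsg.Lie.chevB2 → ∃ x : K, x ≠ 0 ∧ x ≠ 1)
    (i j : ℕ) (hi : i < e.1.rank) (hj : j < e.1.rank) (hshort : e.1.isLong (e.1.simple i) = false)
    (hlong : e.1.isLong (e.1.simple j) = true) (hbond : e.1.bonds i j ≠ 0) :
    e.1.group K ≤ e.1.monomialSubgroup K ⊔ e.1.rootSubgroup K (e.1.simple i) ⊔ e.1.rootSubgroup K (e.1.simple j) := by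
  obtain ⟨D, p⟩ := e
  have hD : D = Lie.chevB2 ∨ D = Lie.chevF4 ∨ D = Lie.chevG2 := by
    simp only [List.mem_cons, List.not_mem_nil, or_false, Prod.mk.injEq] at he
    tauto
  obtain ⟨C, R⟩ := cert_root_of_mem (D := D) (by rcases hD with rfl | rfl | rfl <;> simp)
  dsimp only at hi hj hshort hlong ⊢
  rw [C.group_eq_Y R, C.monomialSubgroup_eq_Y R, C.rootSubgroup_eq_Y R, C.rootSubgroup_eq_Y R]
  generalize hM : (C.Y K R).N ⊔ (C.Y K R).X (D.simple i) ⊔ (C.Y K R).X (D.simple j) = M
  have hN : (C.Y K R).N ≤ M := hM ▸ le_sup_left.trans le_sup_left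
  have h0 : (C.Y K R).X (R.weyl.simple ⟨i, hi⟩) ≤ M := hM ▸ le_sup_right.trans le_sup_left
  have h1 : (C.Y K R).X (R.weyl.simple ⟨j, hj⟩) ≤ M := hM ▸ le_sup_right
  have hN' := hN.trans (Subgroup.le_normalizer (H := M))
  refine (C.Y K R).G0_le_of_N hN ?_
  clear hM he hK hbond
  rcases hD with rfl | rfl | rfl
  · obtain ⟨rfl, rfl⟩ : i = 0 ∧ j = 1 := (by decide +kernel : ∀ i < Lie.chevB2.rank,
      ∀ j < Lie.chevB2.rank, Lie.chevB2.isLong (Lie.chevB2.simple i) = false →
      Lie.chevB2.isLong (Lie.chevB2.simple j) = true → i = 0 ∧ j = 1) i hi j hj hshort hlong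
    exact Fin.forall_fin_two.2 ⟨h0, h1⟩
  · have h2 := (by decide +kernel : ∀ i < Lie.chevF4.rank,
      Lie.chevF4.isLong (Lie.chevF4.simple i) = false → i = 0 ∨ i = 1) i hi hshort
    have h3 := (by decide +kernel : ∀ i < Lie.chevF4.rank,
      Lie.chevF4.isLong (Lie.chevF4.simple i) = true → i = 2 ∨ i = 3) j hj hlong
    have key : ∀ a b : Fin 4, Lie.chevF4.cartan a (Lie.chevF4.simple b) = -1 ∧
        Lie.chevF4.cartan b (Lie.chevF4.simple a) = -1 → (C.Y K R).X (R.weyl.simple a) ≤ M →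
        (C.Y K R).X (R.weyl.simple b) ≤ M := fun a b h =>
      (C.Y K R).X_simple_le_of_bond hN' h.1 h.2
    have h4 : (C.Y K R).X (R.weyl.simple (1 : Fin 4)) ≤ M := by
      rcases h2 with rfl | rfl
      · exact key 0 1 (by decide +kernel) h0
      · exact h0
    have h5 : (C.Y K R).X (R.weyl.simple (2 : Fin 4)) ≤ M := by
      rcases h3 with rfl | rfl
      · exact h1
      · exact key 3 2 (by decide +kernel) h1
    refine fun j : Fin 4 => ?_
    fin_cases j
    · exact key 1 0 (by decide +kernel) h4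
    · exact h4
    · exact h5
    · exact key 2 3 (by decide +kernel) h5
  · obtain ⟨rfl, rfl⟩ : i = 0 ∧ j = 1 := (by decide +kernel : ∀ i < Lie.chevG2.rank,
      ∀ j < Lie.chevG2.rank, Lie.chevG2.isLong (Lie.chevG2.simple i) = false →
      Lie.chevG2.isLong (Lie.chevG2.simple j) = true → i = 0 ∧ j = 1) i hi j hj hshort hlong
    exact Fin.forall_fin_two.2 ⟨h0, h1⟩

end Cfsg.Agent.S2417
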