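import Cfsg.Statements.S2418
import Cfsg.Agent.Chev.WeylTypes
import Cfsg.Agent.Chev.RootCert
import Cfsg.Agent.Chev.InvWeyl

set_option autoImplicit false
open Cfsg Cfsg.Lib.Chev

namespace Cfsg.Agent.S2418

theorem aux {l : ℕ} {R : WeylData (Fin l) ℕ} {M : CoxeterMatrix (Fin l)} {n : ℕ}
    (h : ∃ cs : CoxeterSystem M R.W, (∀ i, cs.simple i = R.s i) ∧ ∀ w, cs.length w = R.len w)
    (hn : Nat.card (Subgroup.center R.W) = n ∧
      Subgroup.center R.W ≤ Subgroup.zpowers (wprod R.s (List.finRange l))) :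
    Nat.card (Subgroup.center M.Group) = n ∧
      Subgroup.center M.Group ≤ Subgroup.zpowers ((List.finRange l).map M.simple).prod := by
  obtain ⟨cs, hcs, -⟩ := h
  refine ⟨(Nat.card_congr (Subgroup.centerCongr cs.mulEquiv).toEquiv).symm.trans hn.1, fun z hz => ?_⟩
  obtain ⟨k, hk⟩ := hn.2 (Subgroup.centerCongr cs.mulEquiv.symm ⟨z, hz⟩).2
  refine ⟨k, cs.mulEquiv.symm.injective ?_⟩
  rw [map_zpow]
  refine Eq.trans (congrArg (· ^ k) ?_) hk
  rw [← funext hcs]
  exact map_wprod cs.mulEquiv.symm.toMonoidHom M.simple _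

theorem eq_or_eq {l : ℕ} {R : WeylData (Fin l) ℕ}
    (hc : ∀ J : Set (Fin l), J.Nonempty → Jᶜ.Nonempty → ∃ i ∈ J, ∃ j ∉ J, R.C i j ≠ 0) {z : R.W}
    (hz : z ∈ Subgroup.center R.W) : z = 1 ∨ z = R.w0 Set.univ := by
  have h0 : ∀ i, R.s i • z • R.simple i = R.neg (z • R.simple i) := fun i => by
    rw [← mul_smul, Subgroup.mem_center_iff.1 hz, mul_smul, R.s_smul_simple,
      R.smul_neg _ (R.simple_mem i)]
  have h1 : ∀ i, R.Pos (z • R.simple i) → R.lin z (Pi.single i 1) = Pi.single i 1 := fun i h => by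
    rw [R.lin_single, R.eq_simple_of_not_pos_s_smul h (i := i) (by
      rw [h0, R.pos_neg_iff h.1]; exact not_not.2 h), R.rc_simple]
  have h2 : ∀ i, ¬ R.Pos (z • R.simple i) → R.lin z (Pi.single i 1) = - Pi.single i 1 := fun i h => by
    have hm := R.smul_mem z (R.simple_mem i)
    have := R.eq_simple_of_not_pos_s_smul ((R.pos_neg_iff hm).2 h) (i := i) (by
      rwa [R.smul_neg _ hm, h0, R.neg_neg hm])
    rw [R.lin_single, ← R.rc_simple, eq_neg_iff_add_eq_zero, ← neg_eq_iff_add_eq_zero, ← R.rc_neg _ hm, this]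
  by_contra hne
  rw [not_or] at hne
  obtain ⟨j, hj, i, hi, h⟩ := hc {i | ¬ R.Pos (z • R.simple i)} (R.exists_not_pos_of_ne_one hne.1)
    (by
      by_contra h
      refine hne.2 (R.eq_w0 (by simp) fun j _ hj => h ⟨j, not_not.2 hj⟩))
  have := R.form_lin z (Pi.single j 1) (Pi.single i 1)
  rw [h2 j hj, h1 i (not_not.1 hi), R.form_neg_left, R.form_single, R.a_single] at this
  exact mul_ne_zero (R.d_pos j).ne' h (by omega)

theorem center_one {l : ℕ} {R : WeylData (Fin l) ℕ} {CL : List (List ℤ)} (hC : R.HasC CL)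
    (hc : ∀ J : Set (Fin l), J.Nonempty → Jᶜ.Nonempty → ∃ i ∈ J, ∃ j ∉ J, R.C i j ≠ 0)
    {ω : List (Fin l)} (hω : wprod R.s ω = R.w0 Set.univ) (i : Fin l)
    (h : actL CL (i :: ω) (rhoL l) ≠ actL CL (ω ++ [i]) (rhoL l)) :
    Nat.card (Subgroup.center R.W) = 1 ∧
      Subgroup.center R.W ≤ Subgroup.zpowers (wprod R.s (List.finRange l)) := by
  have : Subgroup.center R.W = ⊥ := eq_bot_iff.2 fun z hz => (eq_or_eq hc hz).resolve_right <| by
    rintro rfl
    refine h ((hC.wprod_eq_iff _ _).1 ?_)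
    rw [wprod_cons, wprod_append, hω, Subgroup.mem_center_iff.1 hz]
    simp
  simp [this]

theorem center_two {l : ℕ} {R : WeylData (Fin l) ℕ} {CL : List (List ℤ)} (hC : R.HasC CL)
    (hc : ∀ J : Set (Fin l), J.Nonempty → Jᶜ.Nonempty → ∃ i ∈ J, ∃ j ∉ J, R.C i j ≠ 0)
    {ω : List (Fin l)} (hω : wprod R.s ω = R.w0 Set.univ) (k : ℕ)
    (h : (∀ i, actL CL (i :: ω) (rhoL l) = actL CL (ω ++ [i]) (rhoL l)) ∧
      actL CL ω (rhoL l) ≠ actL CL ([] : List (Fin l)) (rhoL l) ∧
      actL CL (List.replicate k (List.finRange l)).flatten (rhoL l) = actL CL ω (rhoL l)) :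
    Nat.card (Subgroup.center R.W) = 2 ∧
      Subgroup.center R.W ≤ Subgroup.zpowers (wprod R.s (List.finRange l)) := by
  have h1 : R.w0 Set.univ ∈ Subgroup.center R.W := Subgroup.mem_center_iff.2 fun g =>
    R.induction_left (p := fun g => g * R.w0 Set.univ = R.w0 Set.univ * g) g (by simp)
      fun i w ih => by
        have := hC.wprod_eq (h.1 i)
        rw [wprod_cons, wprod_append, hω, wprod_cons, wprod_nil, mul_one] at this
        rw [mul_assoc, ih, ← mul_assoc, this, mul_assoc]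
  have h2 : R.w0 Set.univ ≠ 1 := fun e => h.2.1 ((hC.wprod_eq_iff _ _).1 (hω.trans e))
  have h3 : ∀ k, wprod R.s (List.replicate k (List.finRange l)).flatten =
      wprod R.s (List.finRange l) ^ k := fun k => by
    induction k with
    | zero => simp
    | succ k ih => rw [List.replicate_succ, List.flatten_cons, wprod_append, ih, pow_succ']
  refine ⟨Nat.card_eq_two_iff.2 ⟨1, ⟨_, h1⟩, fun e => h2 (congrArg Subtype.val e).symm,
    Set.eq_univ_of_forall fun z => (eq_or_eq hc z.2).imp Subtype.ext Subtype.ext⟩, fun z hz => ?_⟩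
  rcases eq_or_eq hc hz with rfl | rfl
  · exact one_mem _
  · rw [← hω, ← hC.wprod_eq h.2.2, h3]
    exact Subgroup.npow_mem_zpowers _ _

/-- For the Coxeter groups of types B₂, G₂, D₄, F₄, E₇, E₈ the centre has order 2 (the element acting as −1 on the root system) and is generated by a power of the Coxeter element `s₁ s₂ ⋯ s_l`; the Coxeter group of type E₆ has trivial centre. -/
theorem result (c : (Σ n : ℕ, CoxeterMatrix (Fin n)) × ℕ)
    (hc : c ∈ [(⟨2, CoxeterMatrix.B 2⟩, 2), (⟨2, CoxeterMatrix.G₂⟩, 2), (⟨4, Cfsg.Lie.coxeterD4⟩, 2), (⟨4, CoxeterMatrix.F₄⟩, 2),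
      (⟨6, CoxeterMatrix.E₆⟩, 1), (⟨7, CoxeterMatrix.E₇⟩, 2), (⟨8, CoxeterMatrix.E₈⟩, 2)]) :
    Nat.card (Subgroup.center c.1.2.Group) = c.2 ∧
      Subgroup.center c.1.2.Group ≤ Subgroup.zpowers ((List.finRange c.1.1).map c.1.2.simple).prod := by
  simp only [List.mem_cons, List.not_mem_nil, or_false] at hc
  rcases hc with rfl | rfl | rfl | rfl | rfl | rfl | rfl
  · exact aux (coxeter_B2 (hasC_B2 rootB2)) (center_two (hasC_B2 rootB2) rootB2.weyl_connected
      (longest_B2 (hasC_B2 rootB2)) 2 (by decide +kernel))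
  · exact aux (coxeter_G2 (hasC_G2 rootG2)) (center_two (hasC_G2 rootG2) rootG2.weyl_connected
      (longest_G2 (hasC_G2 rootG2)) 3 (by decide +kernel))
  · exact aux (coxeter_D4 (hasC_D4 rootD4)) (center_two (hasC_D4 rootD4) rootD4.weyl_connected
      (longest_D4 (hasC_D4 rootD4)) 3 (by decide +kernel))
  · exact aux (coxeter_F4 (hasC_F4 rootF4)) (center_two (hasC_F4 rootF4) rootF4.weyl_connected
      (longest_F4 (hasC_F4 rootF4)) 6 (by decide +kernel))
  · exact aux (coxeter_E6 (hasC_E6 rootE6)) (center_one (hasC_E6 rootE6) rootE6.weyl_connected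
      (longest_E6 (hasC_E6 rootE6)) (0 : Fin 6) (by decide +kernel))
  · exact aux (coxeter_E7 (hasC_E7 rootE7)) (center_two (hasC_E7 rootE7) rootE7.weyl_connected
      (longest_E7 (hasC_E7 rootE7)) 9 (by decide +kernel))
  · exact aux (coxeter_E8 (hasC_E8 rootE8)) (center_two (hasC_E8 rootE8) rootE8.weyl_connected
      (longest_E8 (hasC_E8 rootE8)) 15 (by decide +kernel))

end Cfsg.Agent.S2418
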