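import Cfsg.Statements.S2419
import Cfsg.Agent.Chev.WeylTypes
import Cfsg.Agent.Chev.RootCert

set_option autoImplicit false
open Cfsg Cfsg.Lib.Chev

namespace Cfsg.Agent.S2419

/-- The word attached to a letter. -/
def expand {l : ℕ} (T : List (Fin l)) (a : ℕ) : List (Fin l) :=
  if a = 0 then List.finRange l else if a = 1 then (List.finRange l).reverse else T[a - 2]?.toList

theorem aux {l : ℕ} {R : WeylData (Fin l) ℕ} {CL : List (List ℤ)} (hC : R.HasC CL)
    {M : CoxeterMatrix (Fin l)}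
    (h : ∃ cs : CoxeterSystem M R.W, (∀ i, cs.simple i = R.s i) ∧ ∀ w, cs.length w = R.len w)
    (T : List (Fin l)) (hT : T.Nodup) (L : List (List ℕ))
    (hL : ∀ j : Fin l, actL CL ((L.getD j []).flatMap (expand T)) (rhoL l) = actL CL [j] (rhoL l)) :
    ∃ T' : Finset M.Group, T'.card = T.length ∧
      (∀ t ∈ T', ∃ (g : M.Group) (i : Fin l), t = g * M.simple i * g⁻¹) ∧
      Subgroup.closure (({((List.finRange l).map M.simple).prod} : Set M.Group) ∪ ↑T') = ⊤ := by
  classical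
  obtain ⟨cs, hcs, -⟩ := h
  have e : ∀ ω, cs.mulEquiv (wprod R.s ω) = wprod M.simple ω := fun ω => by
    rw [← funext hcs, ← MulEquiv.eq_symm_apply]
    exact (map_wprod cs.mulEquiv.symm.toMonoidHom M.simple ω).symm
  have hi : Function.Injective M.simple := fun i j hij => R.s_injective (by
    rw [← hcs, ← hcs]; exact congrArg cs.mulEquiv.symm hij)
  refine ⟨(T.map M.simple).toFinset, by rw [List.toFinset_card_of_nodup (hT.map hi), List.length_map],
    fun t ht => ?_, ?_⟩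
  · obtain ⟨i, -, rfl⟩ := List.mem_map.1 (List.mem_toFinset.1 ht)
    exact ⟨1, i, by simp⟩
  set K : Subgroup M.Group := Subgroup.closure _
  have hc : wprod M.simple (List.finRange l) ∈ K := Subgroup.subset_closure (Or.inl rfl)
  have key : ∀ w : List ℕ, wprod M.simple (w.flatMap (expand T)) ∈ K := fun w => by
    induction w with
    | nil => exact one_mem _
    | cons a w ih =>
      rw [List.flatMap_cons, wprod_append]
      refine mul_mem ?_ ih
      unfold expand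
      split_ifs
      · exact hc
      · rw [← e, R.wprod_reverse, map_inv, e]
        exact inv_mem hc
      · cases h : T[a - 2]? with
        | none => exact one_mem _
        | some i =>
          exact mul_mem (Subgroup.subset_closure (Or.inr (List.mem_toFinset.2
            (List.mem_map_of_mem (List.mem_of_getElem? h))))) (one_mem _)
  rw [eq_top_iff, ← M.toCoxeterSystem.subgroup_closure_range_simple, Subgroup.closure_le]
  rintro _ ⟨j, rfl⟩
  have := key (L.getD j [])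
  rw [← e, hC.wprod_eq (hL j), e] at this
  simpa using this

/-- The Coxeter groups of types B₂, G₂, E₆, E₇, E₈ are generated by the Coxeter element `s₁ s₂ ⋯ s_l` together with one suitable reflection (a conjugate of a simple reflection); for types D₄ and F₄ the Coxeter element together with two suitable reflections suffices. -/
theorem result (c : (Σ n : ℕ, CoxeterMatrix (Fin n)) × ℕ)
    (hc : c ∈ [(⟨2, CoxeterMatrix.B 2⟩, 1), (⟨2, CoxeterMatrix.G₂⟩, 1), (⟨4, Cfsg.Lie.coxeterD4⟩, 2), (⟨4, CoxeterMatrix.F₄⟩, 2),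
      (⟨6, CoxeterMatrix.E₆⟩, 1), (⟨7, CoxeterMatrix.E₇⟩, 1), (⟨8, CoxeterMatrix.E₈⟩, 1)]) :
    ∃ T : Finset c.1.2.Group, T.card = c.2 ∧ (∀ t ∈ T, ∃ (g : c.1.2.Group) (i : Fin c.1.1), t = g * c.1.2.simple i * g⁻¹) ∧
      Subgroup.closure (({((List.finRange c.1.1).map c.1.2.simple).prod} : Set c.1.2.Group) ∪ ↑T) = ⊤ := by
  simp only [List.mem_cons, List.not_mem_nil, or_false] at hc
  rcases hc with rfl | rfl | rfl | rfl | rfl | rfl | rfl
  · exact aux (l := 2) (hasC_B2 rootB2) (coxeter_B2 (hasC_B2 rootB2)) [0] (by decide)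
      [[2], [2, 0]]
      (by decide +kernel)
  · exact aux (l := 2) (hasC_G2 rootG2) (coxeter_G2 (hasC_G2 rootG2)) [0] (by decide)
      [[2], [2, 0]]
      (by decide +kernel)
  · exact aux (l := 4) (hasC_D4 rootD4) (coxeter_D4 (hasC_D4 rootD4)) [3, 1] (by decide)
      [[1, 3, 0], [3], [3, 1, 2, 0, 3], [2]]
      (by decide +kernel)
  · exact aux (l := 4) (hasC_F4 rootF4) (coxeter_F4 (hasC_F4 rootF4)) [3, 1] (by decide)
      [[1, 3, 0], [3], [1, 2, 0], [2]]
      (by decide +kernel)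
  · exact aux (l := 6) (hasC_E6 rootE6) (coxeter_E6 (hasC_E6 rootE6)) [3] (by decide)
      [[1, 1, 1, 1, 1, 2, 0, 0, 0, 0, 0], [2, 1, 1, 1, 2, 0, 0, 0, 2], [1, 1, 1, 1, 2, 0, 0, 0, 0], [2], [0, 2, 1], [0, 0, 2, 1, 1]]
      (by decide +kernel)
  · exact aux (l := 7) (hasC_E7 rootE7) (coxeter_E7 (hasC_E7 rootE7)) [3] (by decide)
      [[1, 2, 1, 1, 1, 1, 2, 0, 0, 0, 0, 2, 0], [2, 0, 2, 1, 1, 1, 1, 2, 0, 0, 0, 0, 2, 1, 2], [2, 1, 1, 1, 1, 2, 0, 0, 0, 0, 2], [2], [0, 2, 1], [0, 0, 2, 1, 1], [0, 0, 0, 2, 1, 1, 1]]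
      (by decide +kernel)
  · exact aux (l := 8) (hasC_E8 rootE8) (coxeter_E8 (hasC_E8 rootE8)) [4] (by decide)
      [[1, 1, 2, 0, 0, 0, 0, 0, 0, 2, 1, 1, 1, 1, 1, 1, 2, 0, 0], [1, 2, 0, 2, 0, 0, 0, 0, 0, 0, 2, 1, 1, 1, 1, 1, 1, 2, 1, 2, 0], [1, 2, 0, 0, 0, 0, 0, 0, 2, 1, 1, 1, 1, 1, 1, 2, 0], [1, 2, 0], [2], [0, 2, 1], [0, 0, 2, 1, 1], [0, 0, 0, 2, 1, 1, 1]]
      (by decide +kernel)

end Cfsg.Agent.S2419
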