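import Cfsg.Statements.S2424
import Cfsg.Agent.Char.GLIndex
import Mathlib.LinearAlgebra.Vandermonde

set_option autoImplicit false
open scoped MatrixGroups
open Cfsg

namespace Cfsg.Agent.S2424

open Finset Cfsg.Lib.Char.GLFlag in
theorem qfact_split (q l j : ℕ) (h : j ≤ l) :
    (q : ℂ) ^ j.choose 2 * (qfact q l : ℂ) = (qfact q (l - j) : ℂ) *
      ∏ k ∈ range j, (((∑ i ∈ range l, q ^ i : ℕ) : ℂ) - ((∑ i ∈ range k, q ^ i : ℕ) : ℂ)) := by
  induction j with
  | zero => simp
  | succ j ih =>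
    have ih := ih (by omega)
    rw [prod_range_succ, Nat.choose_succ_succ' j 1, Nat.choose_one_right, pow_add, mul_assoc, ih]
    obtain ⟨m, rfl⟩ : ∃ m, l = j + (m + 1) := ⟨l - j - 1, by omega⟩
    have e1 : j + (m + 1) - j = m + 1 := by omega
    have e2 : j + (m + 1) - (j + 1) = m := by omega
    rw [e1, e2, qfact, prod_range_succ, ← qfact, sum_range_add _ j (m + 1)]
    simp only [pow_add, ← mul_sum]
    push_cast
    ring

theorem sum_choose_two (n : ℕ) : ∑ i : Fin n, (i : ℕ).choose 2 = n * (n - 1) * (n - 2) / 6 := by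
  have h : ∀ n : ℕ, 6 * ∑ i ∈ Finset.range n, i.choose 2 = n * (n - 1) * (n - 2) := by
    intro n
    induction n with
    | zero => simp
    | succ n ih =>
      rw [Finset.sum_range_succ, mul_add, ih]
      have h2 : 2 * n.choose 2 = n * (n - 1) := by
        rw [Nat.choose_two_right, Nat.mul_div_cancel' (Nat.even_mul_pred_self n).two_dvd]
      rcases n with _ | _ | n
      · simp
      · simp
      · have e1 : n + 1 + 1 - 1 = n + 1 := rfl
        have e2 : n + 1 + 1 - 2 = n := rfl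
        have e3 : n + 1 + 1 + 1 - 1 = n + 2 := rfl
        have e4 : n + 1 + 1 + 1 - 2 = n + 1 := rfl
        rw [e1] at h2
        rw [e1, e2, e3, e4]
        nlinarith
  rw [Fin.sum_univ_eq_sum_range (fun i => i.choose 2) n, ← h n, Nat.mul_div_cancel_left _ (by norm_num)]


/-- Degrees of the partition-indexed irreducible characters of `GL_n(q)`: for `ν` a partition of `n` with `n` non-decreasing parts `ν_0 ≤ ⋯ ≤ ν_{n−1}` (zeros allowed; positions counted from 0) and `λ_i = ν_i + i`, write `Q(r)` for the q-integer `1 + q + ⋯ + q^(r−1)` and `Q!(r)` for `Q(1)Q(2)⋯Q(r)`; then the degree `γ(ν)` of the character satisfies `γ(ν) · q^(n(n−1)(n−2)/6) · ∏_i Q!(λ_i) = Q!(n) · ∏_{i<j} (Q(λ_j) − Q(λ_i))`. For `ν = (1,…,1)` this gives the Steinberg degree `q^(n(n−1)/2)`, for `ν = (0,…,0,n)` degree 1. -/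
theorem result {F : Type*} [Field F] [Fintype F] {q : ℕ} (hq : Fintype.card F = q) {n : ℕ} (ν : Fin n → ℕ) (hmono : Monotone ν) (hsum : ∑ i, ν i = n) :
    Cfsg.unipotentCharacterGL n F ν 1 * (q : ℂ) ^ (n * (n - 1) * (n - 2) / 6) *
        ∏ i : Fin n, ∏ j ∈ Finset.range (ν i + i.val), ((∑ l ∈ Finset.range (j + 1), q ^ l : ℕ) : ℂ) =
      (∏ j ∈ Finset.range n, ((∑ l ∈ Finset.range (j + 1), q ^ l : ℕ) : ℂ)) *
        ∏ i : Fin n, ∏ j ∈ Finset.univ.filter (fun j : Fin n => i < j),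
          (((∑ l ∈ Finset.range (ν j + j.val), q ^ l : ℕ) : ℂ) - ((∑ l ∈ Finset.range (ν i + i.val), q ^ l : ℕ) : ℂ)) := by
  classical
  subst hq
  set q := Fintype.card F with hq
  let x : Fin n → ℂ := fun i => ((∑ l ∈ Finset.range (ν i + i.val), q ^ l : ℕ) : ℂ)
  let p : Fin n → Polynomial ℂ := fun j =>
    ∏ k ∈ Finset.range j.val, (Polynomial.X - Polynomial.C ((∑ i ∈ Finset.range k, q ^ i : ℕ) : ℂ))
  have hdeg : ∀ j, (p j).natDegree = j := by
    intro j
    rw [Polynomial.natDegree_prod_of_monic _ _ fun k _ => Polynomial.monic_X_sub_C _]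
    simp only [Polynomial.natDegree_X_sub_C, Finset.sum_const, Finset.card_range, smul_eq_mul, mul_one]
  have hmon : ∀ j, (p j).Monic := fun j =>
    Polynomial.monic_prod_of_monic _ _ fun k _ => Polynomial.monic_X_sub_C _
  have hv := Matrix.det_eval_matrixOfPolynomials_eq_det_vandermonde x p hdeg hmon
  rw [Matrix.det_vandermonde, ← Matrix.det_transpose, Matrix.det_apply'] at hv
  have e1 : ∏ i : Fin n, ∏ j ∈ Finset.univ.filter (fun j : Fin n => i < j), (x j - x i) =
      ∏ i : Fin n, ∏ j ∈ Finset.Ioi i, (x j - x i) := by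
    refine Finset.prod_congr rfl fun i _ => ?_
    congr 1
    ext j
    simp
  have e2 : ∀ r : ℕ, ∏ j ∈ Finset.range r, ((∑ l ∈ Finset.range (j + 1), q ^ l : ℕ) : ℂ) =
      (Cfsg.Lib.Char.GLFlag.qfact q r : ℂ) := by
    intro r
    rw [Cfsg.Lib.Char.GLFlag.qfact, Nat.cast_prod]
  change _ = _ * ∏ i : Fin n, ∏ j ∈ Finset.univ.filter (fun j : Fin n => i < j), (x j - x i)
  rw [e1, hv]
  simp only [e2]
  unfold Cfsg.unipotentCharacterGL
  rw [Finset.sum_mul, Finset.sum_mul, Finset.mul_sum]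
  refine Finset.sum_congr rfl fun κ _ => ?_
  have hev : ∀ i : Fin n, (p (κ i)).eval (x i) = ∏ k ∈ Finset.range (κ i).val,
      (x i - ((∑ i ∈ Finset.range k, q ^ i : ℕ) : ℂ)) := by
    intro i
    simp only [p, Polynomial.eval_prod, Polynomial.eval_sub, Polynomial.eval_X, Polynomial.eval_C]
  simp only [Matrix.transpose_apply, Matrix.of_apply, hev]
  split_ifs with h
  · have hs : ∑ i : Fin n, (ν i + i.val - (κ i).val) = n := by
      have h1 : ∑ i : Fin n, (ν i + i.val - (κ i).val) + ∑ i : Fin n, (κ i).val =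
          ∑ i : Fin n, (ν i + i.val) := by
        rw [← Finset.sum_add_distrib]
        exact Finset.sum_congr rfl fun i _ => Nat.sub_add_cancel (h i)
      rw [Finset.sum_add_distrib, hsum, Equiv.sum_comp κ (fun i : Fin n => i.val)] at h1
      omega
    have hi := Cfsg.Lib.Char.GLFlag.index_parabolic (F := F) hs
    have h1 : Cfsg.fixedPointCharacter (Cfsg.parabolicGL n F fun i => ν i + i.val - (κ i).val) 1 =
        (Nat.card (GL (Fin n) F ⧸ Cfsg.parabolicGL n F fun i => ν i + i.val - (κ i).val) : ℂ) := by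
      unfold Cfsg.fixedPointCharacter
      rw [MulAction.fixedBy_one_eq_univ, Nat.card_univ]
    have h2 : ∏ i : Fin n, ((q : ℂ) ^ (κ i).val.choose 2 * (Cfsg.Lib.Char.GLFlag.qfact q (ν i + i.val) : ℂ)) =
        ∏ i : Fin n, ((Cfsg.Lib.Char.GLFlag.qfact q (ν i + i.val - (κ i).val) : ℂ) *
          ∏ k ∈ Finset.range (κ i).val, (x i - ((∑ i ∈ Finset.range k, q ^ i : ℕ) : ℂ))) :=
      Finset.prod_congr rfl fun i _ => qfact_split q _ _ (h i)
    rw [Finset.prod_mul_distrib, Finset.prod_mul_distrib, Finset.prod_pow_eq_pow_sum,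
      Equiv.sum_comp κ (fun i : Fin n => i.val.choose 2), sum_choose_two] at h2
    rw [h1, ← hq] at *
    rw [← hi, mul_assoc, mul_assoc, h2]
    push_cast
    ring
  · push Not at h
    obtain ⟨i, hi⟩ := h
    have h0 : ∏ i : Fin n, ∏ k ∈ Finset.range (κ i).val,
        (x i - ((∑ i ∈ Finset.range k, q ^ i : ℕ) : ℂ)) = 0 :=
      Finset.prod_eq_zero (Finset.mem_univ i) (Finset.prod_eq_zero (Finset.mem_range.2 hi) (sub_self _))
    rw [h0]
    simp

end Cfsg.Agent.S2424
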