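import Cfsg.Statements.S2426
import Mathlib
import Cfsg.Agent.Class.SL2Steinberg

set_option autoImplicit false
open Cfsg

namespace Cfsg.Agent.S2426

/-- The rank-one Steinberg presentation of `SL₂` over a finite field `K`: generators `x(t)`, `y(t)` (`t ∈ K`; the two opposite root subgroups) subject to additivity `x(t)x(u) = x(t+u)`, `y(t)y(u) = y(t+u)` and, with `w(t) = x(t) y(−t⁻¹) x(t)` and `w'(t) = y(t) x(−t⁻¹) y(t)` for `t ≠ 0`, the relations `w(t) x(u) w(t)⁻¹ = y(−t⁻² u)` and `w'(t) y(u) w'(t)⁻¹ = x(−t⁻² u)`, present `SL₂(K)`, with `x(t) ↦ (1 t; 0 1)` and `y(t) ↦ (1 0; t 1)`. -/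
theorem result {K : Type*} [Field K] [Finite K] :
    ∃ e : PresentedGroup
        ({g : FreeGroup (Bool × K) | ∃ (b : Bool) (t u : K), g = FreeGroup.of (b, t) * FreeGroup.of (b, u) * (FreeGroup.of (b, t + u))⁻¹} ∪
          {g | ∃ (b : Bool) (t u : K), t ≠ 0 ∧
            g = (FreeGroup.of (b, t) * FreeGroup.of (!b, -t⁻¹) * FreeGroup.of (b, t)) * FreeGroup.of (b, u) *
                  (FreeGroup.of (b, t) * FreeGroup.of (!b, -t⁻¹) * FreeGroup.of (b, t))⁻¹ * (FreeGroup.of (!b, -(t⁻¹ ^ 2 * u)))⁻¹})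
        ≃* Matrix.SpecialLinearGroup (Fin 2) K,
      (∀ t : K, ((e (PresentedGroup.of (true, t)) : Matrix (Fin 2) (Fin 2) K)) = !![1, t; 0, 1]) ∧
      (∀ t : K, ((e (PresentedGroup.of (false, t)) : Matrix (Fin 2) (Fin 2) K)) = !![1, 0; t, 1]) := by
  set R : Set (FreeGroup (Bool × K)) := ({g : FreeGroup (Bool × K) | ∃ (b : Bool) (t u : K), g = FreeGroup.of (b, t) * FreeGroup.of (b, u) * (FreeGroup.of (b, t + u))⁻¹} ∪
          {g | ∃ (b : Bool) (t u : K), t ≠ 0 ∧
            g = (FreeGroup.of (b, t) * FreeGroup.of (!b, -t⁻¹) * FreeGroup.of (b, t)) * FreeGroup.of (b, u) *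
                  (FreeGroup.of (b, t) * FreeGroup.of (!b, -t⁻¹) * FreeGroup.of (b, t))⁻¹ * (FreeGroup.of (!b, -(t⁻¹ ^ 2 * u)))⁻¹}) with hR
  have hadd : ∀ (b : Bool) (t u : K), (PresentedGroup.of (b, t) : PresentedGroup R) * PresentedGroup.of (b, u) =
      PresentedGroup.of (b, t + u) := fun b t u => by
    have := PresentedGroup.one_of_mem (rels := R) (Or.inl ⟨b, t, u, rfl⟩)
    rw [map_mul, map_mul, map_inv, mul_inv_eq_one] at this
    exact this
  have hP : Lib.Class.R1Pre (fun t : K => (PresentedGroup.of (true, t) : PresentedGroup R))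
      (fun t : K => PresentedGroup.of (false, t)) := by
    refine ⟨hadd true, hadd false, fun t u ht => ?_⟩
    have := PresentedGroup.one_of_mem (rels := R) (Or.inr ⟨true, t, u, ht, rfl⟩)
    simp only [map_mul, map_inv, mul_inv_eq_one] at this
    rw [mul_inv_eq_iff_eq_mul] at this
    exact this
  let f : Bool × K → Matrix.SpecialLinearGroup (Fin 2) K := fun p =>
    if p.1 then Lib.Chev.Core.sl2U p.2 else Lib.Chev.Core.sl2V p.2
  have hf : ∀ r ∈ R, FreeGroup.lift f r = 1 := by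
    rintro r (⟨b, t, u, rfl⟩ | ⟨b, t, u, ht, rfl⟩)
    · simp only [map_mul, map_inv, FreeGroup.lift_apply_of, mul_inv_eq_one]
      cases b <;> refine Lib.Chev.Core.sl2_ext ?_ ?_ ?_ ?_ <;>
        simp only [Lib.Chev.Core.sl2_mul_apply] <;> simp [f, Lib.Chev.Core.sl2U, Lib.Chev.Core.sl2V, add_comm]
    · simp only [map_mul, map_inv, FreeGroup.lift_apply_of, mul_inv_eq_one]
      rw [mul_inv_eq_iff_eq_mul]
      cases b <;> refine Lib.Chev.Core.sl2_ext ?_ ?_ ?_ ?_ <;>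
        simp only [Lib.Chev.Core.sl2_mul_apply] <;> simp [f, Lib.Chev.Core.sl2U, Lib.Chev.Core.sl2V, ht] <;> field_simp <;> ring
  have hU : ∀ t, PresentedGroup.toGroup hf (PresentedGroup.of (true, t)) = Lib.Chev.Core.sl2U t := fun t => by
    rw [PresentedGroup.toGroup.of]; rfl
  have hV : ∀ t, PresentedGroup.toGroup hf (PresentedGroup.of (false, t)) = Lib.Chev.Core.sl2V t := fun t => by
    rw [PresentedGroup.toGroup.of]; rfl
  refine ⟨MonoidHom.toMulEquiv (PresentedGroup.toGroup hf) hP.r1Rel.hom ?_ ?_, fun t => ?_, fun t => ?_⟩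
  · ext ⟨b, t⟩
    cases b
    · simp only [MonoidHom.comp_apply, hV, Lib.Chev.Core.R1Rel.hom_V, MonoidHom.id_apply]
    · simp only [MonoidHom.comp_apply, hU, Lib.Chev.Core.R1Rel.hom_U, MonoidHom.id_apply]
  · refine MonoidHom.eq_of_eqOn_dense (s := Set.range Lib.Chev.Core.sl2U ∪ Set.range Lib.Chev.Core.sl2V)
      (Lib.Chev.Core.sl2_subgroup_eq_top _ (fun t => Subgroup.subset_closure (Or.inl ⟨t, rfl⟩))
        (fun t => Subgroup.subset_closure (Or.inr ⟨t, rfl⟩))) ?_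
    rintro _ (⟨t, rfl⟩ | ⟨t, rfl⟩)
    · simp only [MonoidHom.comp_apply, hU, Lib.Chev.Core.R1Rel.hom_U, MonoidHom.id_apply]
    · simp only [MonoidHom.comp_apply, hV, Lib.Chev.Core.R1Rel.hom_V, MonoidHom.id_apply]
  · exact congrArg Subtype.val (hU t)
  · exact congrArg Subtype.val (hV t)

end Cfsg.Agent.S2426
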