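import Cfsg.Statements.S2427
import Cfsg.Agent.S0257
import Cfsg.Agent.Known.SL2Unip

set_option autoImplicit false
open Cfsg

namespace Cfsg.Agent.S2427

open Cfsg.Lib.Known Cfsg.Lib.Known.GL2 Matrix

theorem aux : ∀ g : SpecialLinearGroup (Fin 2) (ZMod 3), g = 1 ∨ g = -1 ∨ g * g = -1 ∨
    ∃ a, a * g * a⁻¹ * g⁻¹ * (a * g * a⁻¹ * g⁻¹) = -1 := by
  decide +kernel

theorem aux2 : ∃ a b : SpecialLinearGroup (Fin 2) (ZMod 3), a * b * a⁻¹ * b⁻¹ ≠ 1 ∧
    a * b * a⁻¹ * b⁻¹ ≠ -1 := by
  decide +kernel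

/-- The group SL₂ over the field with 3 elements has order 24 and centre of order 2; its commutator subgroup has order 8, is isomorphic to the quaternion group of order 8 and is complemented by every Sylow 3-subgroup (so the group is a semidirect product of a quaternion group of order 8 by a cyclic group of order 3); and its only normal subgroups besides the trivial subgroup and the whole group are the centre and the commutator subgroup. -/
theorem result :
    Nat.card (Matrix.SpecialLinearGroup (Fin 2) (ZMod 3)) = 24 ∧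
    Nat.card (Subgroup.center (Matrix.SpecialLinearGroup (Fin 2) (ZMod 3))) = 2 ∧
    Nat.card (commutator (Matrix.SpecialLinearGroup (Fin 2) (ZMod 3))) = 8 ∧
    Nonempty (commutator (Matrix.SpecialLinearGroup (Fin 2) (ZMod 3)) ≃* QuaternionGroup 2) ∧
    (∀ P : Sylow 3 (Matrix.SpecialLinearGroup (Fin 2) (ZMod 3)),
      Subgroup.IsComplement' (commutator (Matrix.SpecialLinearGroup (Fin 2) (ZMod 3)))
        (P : Subgroup (Matrix.SpecialLinearGroup (Fin 2) (ZMod 3)))) ∧
    ∀ N : Subgroup (Matrix.SpecialLinearGroup (Fin 2) (ZMod 3)), N.Normal →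
      N = ⊥ ∨ N = ⊤ ∨ N = Subgroup.center (Matrix.SpecialLinearGroup (Fin 2) (ZMod 3)) ∨
        N = commutator (Matrix.SpecialLinearGroup (Fin 2) (ZMod 3)) := by
  have : Fact (Nat.Prime 3) := ⟨Nat.prime_three⟩
  have h2 : (2 : ZMod 3) ≠ 0 := two_ne_zero_of_odd (by rw [ZMod.card]; exact ⟨1, rfl⟩)
  obtain ⟨⟨Q, hQ, hi, ⟨e⟩⟩, hZ⟩ := S0257.result (F := ZMod 3) (ZMod.card 3)
  have hG : Nat.card (SpecialLinearGroup (Fin 2) (ZMod 3)) = 24 := by
    rw [card_SL_two, ZMod.card]
  have key : ∀ N : Subgroup (SL2 (ZMod 3)), N.Normal → ¬ N ≤ Subgroup.center _ → Q ≤ N := by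
    intro N hN h
    obtain ⟨g, hg, hg'⟩ := SetLike.not_le_iff_exists.1 h
    rw [mem_center_SL, not_or] at hg'
    obtain ⟨i, hi, hi'⟩ : ∃ i ∈ N, i * i = -1 := by
      rcases ((aux g).resolve_left hg'.1).resolve_left hg'.2 with h | ⟨a, h⟩
      exacts [⟨g, hg, h⟩, ⟨_, N.mul_mem (hN.conj_mem g hg a) (N.inv_mem hg), h⟩]
    intro x hx
    have h4 : x * x * (x * x) = 1 := by
      have : ∀ y : QuaternionGroup 2, y * y * (y * y) = 1 := by decide
      have h := this (e ⟨x, hx⟩)
      rw [← map_mul, ← map_mul, EmbeddingLike.map_eq_one_iff] at h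
      exact congrArg Subtype.val h
    rcases mem_Z_SL.1 ((mul_self_eq_one_iff_SL h2).1 h4) with h | h
    · rcases mem_Z_SL.1 ((mul_self_eq_one_iff_SL h2).1 h) with rfl | rfl
      · exact N.one_mem
      · exact hi' ▸ N.mul_mem hi hi
    · obtain ⟨c, rfl⟩ := isConj_iff.1 (isConj_of_trace_zero_SL h2
        (mul_self_eq_neg_one_iff_SL.1 hi') (mul_self_eq_neg_one_iff_SL.1 h))
      exact hN.conj_mem i hi c
  have hc : commutator (SpecialLinearGroup (Fin 2) (ZMod 3)) = Q := by
    refine le_antisymm ?_ (key _ inferInstance fun h => ?_)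
    · have : IsCyclic (SpecialLinearGroup (Fin 2) (ZMod 3) ⧸ Q) := isCyclic_of_prime_card hi
      exact Subgroup.Normal.quotient_commutative_iff_commutator_le.1 inferInstance
    · obtain ⟨a, b, h1, h3⟩ := aux2
      exact (mem_center_SL.1 (h (Subgroup.commutator_mem_commutator (Subgroup.mem_top a)
        (Subgroup.mem_top b)))).elim h1 h3
  have h8 : Nat.card Q = 8 := by
    rw [Nat.card_congr e.toEquiv, Nat.card_eq_fintype_card, QuaternionGroup.card]
  rw [hc]
  refine ⟨hG, hZ, h8, ⟨e⟩, fun P => ?_, fun N hN => ?_⟩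
  · have h3 := (slLin (ZMod 3)).card_sylow_char 3 P
    rw [ZMod.card] at h3
    exact Subgroup.isComplement'_of_coprime (by rw [h8, h3, hG]) (by rw [h8, h3]; decide)
  · by_cases h : N ≤ Subgroup.center _
    · have h1 := Subgroup.card_dvd_of_le h
      rw [hZ, Nat.dvd_prime Nat.prime_two] at h1
      rcases h1 with h1 | h1
      · exact Or.inl (Subgroup.card_eq_one.1 h1)
      · exact Or.inr (Or.inr (Or.inl (Subgroup.eq_of_le_of_card_ge h (by rw [hZ, h1]))))
    · have h1 := Subgroup.index_dvd_of_le (key N hN h)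
      rw [hi, Nat.dvd_prime Nat.prime_three] at h1
      rcases h1 with h1 | h1
      · exact Or.inr (Or.inl (Subgroup.index_eq_one.1 h1))
      · refine Or.inr (Or.inr (Or.inr (Subgroup.eq_of_le_of_card_ge (key N hN h) ?_).symm))
        have := N.card_mul_index
        rw [h1, hG] at this
        omega

end Cfsg.Agent.S2427
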