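import Cfsg.Statements.S2428
import Cfsg.Agent.Known.SL2Classes

set_option autoImplicit false
open Cfsg

namespace Cfsg.Agent.S2428

open Cfsg.Lib.Known.GL2 Matrix

/-- Let F be a finite field with q elements, q odd, and let d be a diagonal element of SL₂ over F whose diagonal entry a has a² ≠ 1 (such d exist exactly when q > 3). Then the centraliser of d is precisely the diagonal subgroup T; the normaliser of T has order 2(q − 1) and exactly (q + 5)/2 conjugacy classes; and every element of that normaliser outside T has square equal to −1. -/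
theorem result {F : Type*} [Field F] [Fintype F] (hodd : Odd (Fintype.card F))
    (d : Matrix.SpecialLinearGroup (Fin 2) F) (hd01 : (d : Matrix (Fin 2) (Fin 2) F) 0 1 = 0) (hd10 : (d : Matrix (Fin 2) (Fin 2) F) 1 0 = 0) (hda : (d : Matrix (Fin 2) (Fin 2) F) 0 0 ^ 2 ≠ 1) :
    (∀ g : Matrix.SpecialLinearGroup (Fin 2) F, g ∈ Subgroup.centralizer ({d} : Set (Matrix.SpecialLinearGroup (Fin 2) F)) ↔ ((g : Matrix (Fin 2) (Fin 2) F) 0 1 = 0 ∧ (g : Matrix (Fin 2) (Fin 2) F) 1 0 = 0)) ∧
    Nat.card (Subgroup.normalizer ((Subgroup.centralizer ({d} : Set (Matrix.SpecialLinearGroup (Fin 2) F))) : Set (Matrix.SpecialLinearGroup (Fin 2) F))) = 2 * (Fintype.card F - 1) ∧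
    Nat.card (ConjClasses (Subgroup.normalizer ((Subgroup.centralizer ({d} : Set (Matrix.SpecialLinearGroup (Fin 2) F))) : Set (Matrix.SpecialLinearGroup (Fin 2) F)))) = (Fintype.card F + 5) / 2 ∧
    ∀ g : Matrix.SpecialLinearGroup (Fin 2) F, g ∈ Subgroup.normalizer ((Subgroup.centralizer ({d} : Set (Matrix.SpecialLinearGroup (Fin 2) F))) : Set (Matrix.SpecialLinearGroup (Fin 2) F)) →
      g ∉ Subgroup.centralizer ({d} : Set (Matrix.SpecialLinearGroup (Fin 2) F)) → ((g * g) : Matrix (Fin 2) (Fin 2) F) = -1 := by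
  have hT : d ∈ (slLin F).T := ⟨hd01, hd10⟩
  have hZ : d ∉ (slLin F).Z := (not_mem_Z_iff_of_mem_T_SL hT).2 hda
  have h2 := two_ne_zero_of_odd hodd
  have hex : ∃ s ∈ (slLin F).T, s ∉ (slLin F).Z := ⟨d, hT, hZ⟩
  rw [(slLin F).centralizer_of_mem_T hT hZ]
  refine ⟨fun g => Iff.rfl, ?_, ?_, fun g hg hg' => ?_⟩
  · rw [(slLin F).isTorus_T.card_normalizer hex, card_T_SL]
  · have := card_conjClasses_normalizer_SL h2 (slLin F).isTorus_T hex
    rw [card_T_SL] at this
    have h3 := three_le_card_of_odd hodd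
    exact Nat.eq_div_of_mul_eq_right two_ne_zero (this.trans (by omega))
  · exact congrArg (slLin F).ρ (IsTorus_mul_self_of_mem_normalizer (slLin F).isTorus_T hex hg hg')

end Cfsg.Agent.S2428
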