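import Cfsg.Statements.S2429
import Cfsg.Agent.Known.SL2Classes

set_option autoImplicit false
open Cfsg

namespace Cfsg.Agent.S2429

open Cfsg.Lib.Known.GL2 Matrix

/-- Let F be a finite field with q elements, q odd. Then SL₂ over F contains a cyclic subgroup T′ of order q + 1 (a non-split torus) with the following properties: T′ is its own centraliser, and indeed the centraliser of each element of T′ other than 1 and −1 is exactly T′; every element of SL₂ having no eigenvector in F² is conjugate to an element of T′; the normaliser of T′ has order 2(q + 1) and exactly (q + 7)/2 conjugacy classes; and every element of that normaliser outside T′ has square −1. -/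
theorem result {F : Type*} [Field F] [Fintype F] (hodd : Odd (Fintype.card F)) :
    ∃ T' : Subgroup (Matrix.SpecialLinearGroup (Fin 2) F), IsCyclic T' ∧ Nat.card T' = Fintype.card F + 1 ∧
      Subgroup.centralizer ((T' : Set (Matrix.SpecialLinearGroup (Fin 2) F))) = T' ∧
      (∀ g : Matrix.SpecialLinearGroup (Fin 2) F, g ∈ T' → (g : Matrix (Fin 2) (Fin 2) F) ≠ 1 → (g : Matrix (Fin 2) (Fin 2) F) ≠ -1 → Subgroup.centralizer ({g} : Set (Matrix.SpecialLinearGroup (Fin 2) F)) = T') ∧
      (∀ g : Matrix.SpecialLinearGroup (Fin 2) F, (∀ (c : F) (v : Fin 2 → F), v ≠ 0 → (g : Matrix (Fin 2) (Fin 2) F).mulVec v ≠ c • v) → ∃ h : Matrix.SpecialLinearGroup (Fin 2) F, h * g * h⁻¹ ∈ T') ∧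
      Nat.card (Subgroup.normalizer (T' : Set (Matrix.SpecialLinearGroup (Fin 2) F))) = 2 * (Fintype.card F + 1) ∧
      Nat.card (ConjClasses (Subgroup.normalizer (T' : Set (Matrix.SpecialLinearGroup (Fin 2) F)))) = (Fintype.card F + 7) / 2 ∧
      ∀ g : Matrix.SpecialLinearGroup (Fin 2) F, g ∈ Subgroup.normalizer (T' : Set (Matrix.SpecialLinearGroup (Fin 2) F)) → g ∉ T' → ((g * g) : Matrix (Fin 2) (Fin 2) F) = -1 := by
  obtain ⟨s, hs, -⟩ := (slLin F).exists_isEll
  have hS := (slLin F).isTorus_centralizer hs.disc_ne_zero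
  have h2 := two_ne_zero_of_odd hodd
  have hex : ∃ c ∈ Subgroup.centralizer ({s} : Set (SL2 F)), c ∉ (slLin F).Z :=
    ⟨s, Subgroup.mem_centralizer_singleton_iff.2 rfl, hs.not_isScal⟩
  refine ⟨Subgroup.centralizer {s}, (slLin F).isCyclic_centralizer_ell hs,
    card_centralizer_ell_SL hs, hS.centralizer_eq le_rfl hex, fun g hg h1 h1' => ?_,
    fun g hg => ?_, ?_, ?_, fun g hg hg' => ?_⟩
  · refine hS.cent g hg fun h => ?_
    rcases mem_Z_SL.1 h with rfl | rfl
    · exact h1 rfl
    · exact h1' rfl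
  · obtain ⟨c, hc, h⟩ := (slLin F).exists_isConj_mem_centralizer hs hg
    obtain ⟨x, hx⟩ := isConj_iff.1 h.symm
    exact ⟨x, by rwa [hx]⟩
  · rw [hS.card_normalizer hex, card_centralizer_ell_SL hs]
  · have := card_conjClasses_normalizer_SL h2 hS hex
    rw [card_centralizer_ell_SL hs] at this
    exact Nat.eq_div_of_mul_eq_right two_ne_zero this
  · exact congrArg (slLin F).ρ (IsTorus_mul_self_of_mem_normalizer hS hex hg hg')

end Cfsg.Agent.S2429
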