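import Cfsg.Statements.S2430
import Cfsg.Agent.Known.SL2Sylow

set_option autoImplicit false
open Cfsg

namespace Cfsg.Agent.S2430

open Cfsg.Lib.Known Cfsg.Lib.Known.GL2 Matrix

/-- Let F be a finite field with q elements, q odd, ℓ an odd prime, and P a Sylow ℓ-subgroup of SL₂ over F. If ℓ divides q − 1, the centraliser of P is cyclic of order q − 1 (a split torus) and the normaliser of P has order 2(q − 1); if ℓ divides q + 1, the centraliser of P is cyclic of order q + 1 (a non-split torus) and the normaliser of P has order 2(q + 1). -/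
theorem result {F : Type*} [Field F] [Fintype F] (hodd : Odd (Fintype.card F)) (ℓ : ℕ) [Fact ℓ.Prime] (hℓ : ℓ ≠ 2)
    (P : Sylow ℓ (Matrix.SpecialLinearGroup (Fin 2) F)) :
    (ℓ ∣ Fintype.card F - 1 →
      Nat.card (Subgroup.centralizer ((P : Subgroup (Matrix.SpecialLinearGroup (Fin 2) F)) : Set (Matrix.SpecialLinearGroup (Fin 2) F))) = Fintype.card F - 1 ∧
      IsCyclic (Subgroup.centralizer ((P : Subgroup (Matrix.SpecialLinearGroup (Fin 2) F)) : Set (Matrix.SpecialLinearGroup (Fin 2) F))) ∧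
      Nat.card (Subgroup.normalizer ((P : Subgroup (Matrix.SpecialLinearGroup (Fin 2) F)) : Set (Matrix.SpecialLinearGroup (Fin 2) F))) = 2 * (Fintype.card F - 1)) ∧
    (ℓ ∣ Fintype.card F + 1 →
      Nat.card (Subgroup.centralizer ((P : Subgroup (Matrix.SpecialLinearGroup (Fin 2) F)) : Set (Matrix.SpecialLinearGroup (Fin 2) F))) = Fintype.card F + 1 ∧
      IsCyclic (Subgroup.centralizer ((P : Subgroup (Matrix.SpecialLinearGroup (Fin 2) F)) : Set (Matrix.SpecialLinearGroup (Fin 2) F))) ∧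
      Nat.card (Subgroup.normalizer ((P : Subgroup (Matrix.SpecialLinearGroup (Fin 2) F)) : Set (Matrix.SpecialLinearGroup (Fin 2) F))) = 2 * (Fintype.card F + 1)) := by
  obtain ⟨p, hp⟩ := CharP.exists F
  have := Fact.mk (CharP.char_is_prime F p)
  have := (slLin F).finite
  have hq := three_le_card_of_odd hodd
  have hboth : ¬ (ℓ ∣ Fintype.card F - 1 ∧ ℓ ∣ Fintype.card F + 1) := fun h => by
    have h3 := Nat.dvd_sub h.2 h.1
    rw [show Fintype.card F + 1 - (Fintype.card F - 1) = 2 by omega,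
      Nat.prime_dvd_prime_iff_eq Fact.out Nat.prime_two] at h3
    exact hℓ h3
  have key : (ℓ ∣ Fintype.card F - 1 ∨ ℓ ∣ Fintype.card F + 1) → ∃ S : Subgroup (SL2 F),
      Subgroup.centralizer ((P : Subgroup (SL2 F)) : Set (SL2 F)) = S ∧ IsCyclic S ∧
      ℓ ∣ Nat.card S ∧ (Nat.card S = Fintype.card F - 1 ∨ Nat.card S = Fintype.card F + 1) ∧
      Nat.card (Subgroup.normalizer ((P : Subgroup (SL2 F)) : Set (SL2 F))) = 2 * Nat.card S := by
    intro h
    have hℓp : ℓ ≠ p := by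
      rintro rfl
      exact h.elim (not_char_dvd_sub_one ℓ) (not_char_dvd_add_one ℓ)
    have hP : (P : Subgroup (SL2 F)) ≠ ⊥ := P.ne_bot_of_dvd_card (by
      rw [card_SL_two]
      rcases h with h | h
      · exact (h.mul_left _).mul_right _
      · exact h.mul_left _)
    obtain ⟨z, hz, ho, hZ, hd, hle⟩ := exists_le_centralizer_SL p hℓ hℓp P.isPGroup' hP
    have hS := (slLin F).isTorus_centralizer hd
    refine ⟨Subgroup.centralizer {z}, hS.centralizer_eq hle ⟨z, hz, hZ⟩, (centralizer_SL_cases hd).1,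
      ?_, (centralizer_SL_cases hd).2.imp And.right And.right, ?_⟩
    · rw [← ho]; exact Subgroup.orderOf_dvd_natCard _ (hle hz)
    · rw [IsTorus_normalizer_eq_SL hS hle ⟨z, hz, hZ⟩, hS.card_normalizer ⟨z, hle hz, hZ⟩]
  refine ⟨fun h => ?_, fun h => ?_⟩
  · obtain ⟨S, h1, h2, h3, h4, h5⟩ := key (Or.inl h)
    have h6 := h4.resolve_right fun h' => hboth ⟨h, h' ▸ h3⟩
    rw [h1, h5, h6]
    exact ⟨rfl, h2, rfl⟩
  · obtain ⟨S, h1, h2, h3, h4, h5⟩ := key (Or.inr h)
    have h6 := h4.resolve_left fun h' => hboth ⟨h' ▸ h3, h⟩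
    rw [h1, h5, h6]
    exact ⟨rfl, h2, rfl⟩

end Cfsg.Agent.S2430
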