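import Cfsg.Statements.S2433
import Cfsg.Agent.Known.SL2Orders
import Cfsg.Agent.Known.GL2St

set_option autoImplicit false
open Cfsg

namespace Cfsg.Agent.S2433

open Cfsg.Lib.Known.GL2 Matrix

/-- Let F be a finite field with q elements, q odd, α a multiplicative character of F, and R(α) the function on SL₂ induced from the linear character b ↦ α(b₁₁) of the upper triangular subgroup. Then R(α) takes the value α(a) + α(a⁻¹) at a diagonal element with entries a, a⁻¹, a² ≠ 1; the value 0 at every element with no eigenvector in F²; the value α(ε) at an upper triangular element with both diagonal entries ε and non-zero upper right entry; and the value (q + 1)α(ε) at the scalar element ε (ε = ±1). -/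
theorem result {F : Type*} [Field F] [Fintype F] [DecidableEq F] (hodd : Odd (Fintype.card F)) (α : MulChar F ℂ) (g : Matrix.SpecialLinearGroup (Fin 2) F) :
    ((g : Matrix (Fin 2) (Fin 2) F) 0 1 = 0 → (g : Matrix (Fin 2) (Fin 2) F) 1 0 = 0 → (g : Matrix (Fin 2) (Fin 2) F) 0 0 ^ 2 ≠ 1 →
      (Cfsg.indFun ((Cfsg.upperTriangularGL 2 F).comap Matrix.SpecialLinearGroup.toGL) (fun b => α (((b : Matrix.SpecialLinearGroup (Fin 2) F) : Matrix (Fin 2) (Fin 2) F) 0 0))) g = α ((g : Matrix (Fin 2) (Fin 2) F) 0 0) + α ((g : Matrix (Fin 2) (Fin 2) F) 1 1)) ∧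
    ((∀ (c : F) (v : Fin 2 → F), v ≠ 0 → (g : Matrix (Fin 2) (Fin 2) F).mulVec v ≠ c • v) → (Cfsg.indFun ((Cfsg.upperTriangularGL 2 F).comap Matrix.SpecialLinearGroup.toGL) (fun b => α (((b : Matrix.SpecialLinearGroup (Fin 2) F) : Matrix (Fin 2) (Fin 2) F) 0 0))) g = 0) ∧
    ((g : Matrix (Fin 2) (Fin 2) F) 1 0 = 0 → (g : Matrix (Fin 2) (Fin 2) F) 0 0 = (g : Matrix (Fin 2) (Fin 2) F) 1 1 → (g : Matrix (Fin 2) (Fin 2) F) 0 1 ≠ 0 →
      (Cfsg.indFun ((Cfsg.upperTriangularGL 2 F).comap Matrix.SpecialLinearGroup.toGL) (fun b => α (((b : Matrix.SpecialLinearGroup (Fin 2) F) : Matrix (Fin 2) (Fin 2) F) 0 0))) g = α ((g : Matrix (Fin 2) (Fin 2) F) 0 0)) ∧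
    ((g : Matrix (Fin 2) (Fin 2) F) 0 1 = 0 → (g : Matrix (Fin 2) (Fin 2) F) 1 0 = 0 → (g : Matrix (Fin 2) (Fin 2) F) 0 0 = (g : Matrix (Fin 2) (Fin 2) F) 1 1 →
      (Cfsg.indFun ((Cfsg.upperTriangularGL 2 F).comap Matrix.SpecialLinearGroup.toGL) (fun b => α (((b : Matrix.SpecialLinearGroup (Fin 2) F) : Matrix (Fin 2) (Fin 2) F) 0 0))) g = ((Fintype.card F : ℂ) + 1) * α ((g : Matrix (Fin 2) (Fin 2) F) 0 0)) := by
  rw [indFun_SL_eq_PS]
  have e : ∀ t : (slLin F).T, ((slLin F).tchar α 1 t : ℂ) = α ((slLin F).ρ t 0 0) := fun t => by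
    rw [Lin2.coe_tchar, MulChar.one_apply
      (Ne.isUnit ((slLin F).entry_ne_zero_of_mem_B ((slLin F).T_le_B t.2)).2), mul_one]
  refine ⟨fun h1 h2 h3 => ?_, fun h => (slLin F).PS_ell _ h, fun h1 h2 h3 => ?_,
    fun h1 h2 h3 => ?_⟩
  · rw [(slLin F).PS_T _ ⟨g, h1, h2⟩ ((not_mem_Z_iff_of_mem_T_SL ⟨h1, h2⟩).2 h3), e, e]
    simp [adjugate_fin_two, slLin_ρ]
  · obtain ⟨z, hz, b, rfl⟩ := (slLin F).exists_Z_mul_u (g := g) ⟨h1, h2⟩
    have hb : b ≠ 0 := by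
      rintro rfl
      rw [Lin2.u_zero, mul_one] at h3
      exact h3 hz.1
    rw [(slLin F).PS_u _ hz hb, e, ← slLin_ρ, (slLin F).ρ_Z_mul_u hz]
    simp
  · rw [(slLin F).PS_Z _ ⟨h1, h2, h3⟩, e]
    rfl

end Cfsg.Agent.S2433
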