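import Cfsg.Statements.S2434
import Cfsg.Agent.Known.SL2Table2

set_option autoImplicit false
open Cfsg

namespace Cfsg.Agent.S2434

open Cfsg.Lib.Known Cfsg.Lib.Known.GL2 Cfsg.Lib.Char Matrix

/-- Let F be a finite field with q elements, q odd, and C a cyclic subgroup of order q + 1 of SL₂ over F (a non-split torus; it contains the centre). For every homomorphism θ from C to the non-zero complex numbers with θ² ≠ 1 there is an irreducible complex character χ of degree q − 1 such that χ(c) = −θ(c) − θ(c)⁻¹ for every non-central c in C, χ(zg) = θ(z)χ(g) for central z in C, χ vanishes at diagonal elements with entry a, a² ≠ 1, and χ takes the value −1 at every upper unitriangular element other than 1. Conversely every irreducible character of degree q − 1 has, for some such θ, the values −θ(c) − θ(c)⁻¹ at the non-central elements c of C (for q ≥ 5 these are exactly the cuspidal characters of degree q − 1). -/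
theorem result {F : Type*} [Field F] [Fintype F] (hodd : Odd (Fintype.card F))
    (C : Subgroup (Matrix.SpecialLinearGroup (Fin 2) F)) (hC : IsCyclic C) (hcard : Nat.card C = Fintype.card F + 1) :
    (∀ θ : C →* ℂˣ, (∃ c : C, θ c ^ 2 ≠ 1) →
      ∃ χ : Matrix.SpecialLinearGroup (Fin 2) F → ℂ, Cfsg.IsIrrCharacter (Matrix.SpecialLinearGroup (Fin 2) F) χ ∧ χ 1 = (Fintype.card F : ℂ) - 1 ∧
        (∀ c : C, (c : Matrix.SpecialLinearGroup (Fin 2) F) ∉ Subgroup.center (Matrix.SpecialLinearGroup (Fin 2) F) → χ c = -((θ c).val + (θ c)⁻¹.val)) ∧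
        (∀ c : C, (c : Matrix.SpecialLinearGroup (Fin 2) F) ∈ Subgroup.center (Matrix.SpecialLinearGroup (Fin 2) F) → ∀ g : Matrix.SpecialLinearGroup (Fin 2) F, χ ((c : Matrix.SpecialLinearGroup (Fin 2) F) * g) = (θ c).val * χ g) ∧
        (∀ g : Matrix.SpecialLinearGroup (Fin 2) F, (g : Matrix (Fin 2) (Fin 2) F) 0 1 = 0 → (g : Matrix (Fin 2) (Fin 2) F) 1 0 = 0 → (g : Matrix (Fin 2) (Fin 2) F) 0 0 ^ 2 ≠ 1 → χ g = 0) ∧
        (∀ g : Matrix.SpecialLinearGroup (Fin 2) F, (g : Matrix (Fin 2) (Fin 2) F) 1 0 = 0 → (g : Matrix (Fin 2) (Fin 2) F) 0 0 = 1 → (g : Matrix (Fin 2) (Fin 2) F) 1 1 = 1 → (g : Matrix (Fin 2) (Fin 2) F) 0 1 ≠ 0 → χ g = -1)) ∧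
    (∀ χ : Matrix.SpecialLinearGroup (Fin 2) F → ℂ, Cfsg.IsIrrCharacter (Matrix.SpecialLinearGroup (Fin 2) F) χ → χ 1 = (Fintype.card F : ℂ) - 1 →
      ∃ θ : C →* ℂˣ, (∃ c : C, θ c ^ 2 ≠ 1) ∧
        ∀ c : C, (c : Matrix.SpecialLinearGroup (Fin 2) F) ∉ Subgroup.center (Matrix.SpecialLinearGroup (Fin 2) F) → χ c = -((θ c).val + (θ c)⁻¹.val)) := by
  classical
  have := Fintype.ofFinite (SL2 F)
  have h3 := three_le_card_of_odd hodd
  have ho := Nat.odd_iff.1 hodd
  obtain ⟨s, hs⟩ := IsCyclic.exists_generator (α := C)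
  have hord : orderOf (s : SL2 F) = Fintype.card F + 1 := by
    rw [Subgroup.orderOf_coe, orderOf_eq_card_of_forall_mem_zpowers hs, hcard]
  obtain ⟨p, hp⟩ := CharP.exists F
  have := Fact.mk (CharP.char_is_prime F p)
  have hE : IsEll ((slLin F).ρ s) := isEll_of_orderOf_SL p
    (by rw [hord]; exact not_char_dvd_add_one p)
    (by rw [hord]; exact fun h => by have := Nat.le_of_dvd (by omega) h; omega)
  have hC' : C = Subgroup.centralizer ({(s : SL2 F)} : Set (SL2 F)) := by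
    refine Subgroup.eq_of_le_of_card_ge (fun c hc => ?_)
      (by rw [hcard, card_centralizer_ell_SL hE])
    obtain ⟨k, hk⟩ := Subgroup.mem_zpowers_iff.1 (hs ⟨c, hc⟩)
    rw [show c = (s : SL2 F) ^ k from (congrArg Subtype.val hk).symm]
    exact Subgroup.zpow_mem _ (Subgroup.mem_centralizer_singleton_iff.2 rfl) k
  obtain ⟨s, hs'⟩ := s
  simp only at hE hC'
  clear hs hord hs'
  subst hC'
  rw [← (slLin F).Z_eq_center]
  have hz := (slLin F).Z.one_mem
  have e1 : ∀ (S : Subgroup (SL2 F)) (h : 1 ∈ S) (θ : S →* ℂˣ), (θ ⟨1, h⟩ : ℂ) = 1 :=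
    fun S h θ => congrArg Units.val θ.map_one
  have hfix : ∀ θ : Subgroup.centralizer ({s} : Set (SL2 F)) →* ℂˣ,
      (∃ c, θ c ^ 2 ≠ 1) ↔ θ.comp ((slLin F).barC hE) ≠ θ := fun θ => by
    rw [Ne, fixed_iff_SL, not_forall]
    simp only [sq]
  have hval : ∀ (θ : Subgroup.centralizer ({s} : Set (SL2 F)) →* ℂˣ)
      (c : Subgroup.centralizer ({s} : Set (SL2 F))), (c : SL2 F) ∉ (slLin F).Z →
      (-(slLin F).DS hE θ) c = -((θ c).val + (θ c)⁻¹.val) := fun θ c hc => by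
    rw [Pi.neg_apply, (slLin F).DS_C hE θ c hc, barHom_SL, map_inv]
  refine ⟨fun θ hθ => ⟨-(slLin F).DS hE θ, (slLin F).isIrr_neg_DS hE θ ((hfix θ).1 hθ),
    Lin2.neg_DS_one _ _ _, hval θ, fun c hc g => ?_, fun g h1 h2 h4 => ?_,
    fun g h1 h2 h4 h5 => ?_⟩, fun χ hχ h => ?_⟩
  · rw [Pi.neg_apply, Pi.neg_apply, (slLin F).DS_Z_mul hE θ hc, mul_neg]
  · rw [Pi.neg_apply, (slLin F).DS_T hE θ ⟨h1, h2⟩ ((not_mem_Z_iff_of_mem_T_SL ⟨h1, h2⟩).2 h4),
      neg_zero]
  · have : g = 1 * (slLin F).u ((g : M2 F) 0 1) := (slLin F).inj (by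
      rw [one_mul, Lin2.ρ_u, slLin_ρ]
      exact m2_ext (by simp [h2]) (by simp) (by simp [h1]) (by simp [h4]))
    rw [this, Pi.neg_apply, (slLin F).DS_u hE θ hz h5, e1]
  · rw [cast_card_sub_one] at h
    rcases irr_cases_SL' hE hχ with ⟨e, -⟩ | ⟨e, -⟩ | ⟨e, -⟩ | ⟨e, θ, hθ, rfl⟩ |
        ⟨e, -, α, χ', -, h'⟩ | ⟨e, -, -⟩
    · have := nat_eq_of_deg e h; omega
    · have := nat_eq_of_deg e h; omega
    · have := nat_eq_of_deg e h; omega
    · exact ⟨θ, (hfix θ).2 hθ, hval θ⟩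
    · have := nat_eq_of_deg e h
      obtain ⟨θ, hθ⟩ := exists_nonfixed_C_SL hE
      refine ⟨θ, (hfix θ).2 hθ, fun c hc => ?_⟩
      have hc' := (slLin F).isEll_of_mem_centralizer hE c.2 hc
      rw [h'.apply_ell hc', (slLin F).PS_ell _ hc', ← map_inv,
        add_inv_eq_zero_of_card_three (by omega) hE hθ c hc]
      simp
    · have := nat_eq_of_deg e h; omega

end Cfsg.Agent.S2434
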