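import Cfsg.Statements.S2435
import Cfsg.Agent.Known.SL2Table2

set_option autoImplicit false
open Cfsg

namespace Cfsg.Agent.S2435

open Cfsg.Lib.Known Cfsg.Lib.Known.GL2 Cfsg.Lib.Char Matrix

/-- Let F be a finite field with q elements, q odd and q ≥ 5, and χ an irreducible complex character of SL₂ over F. If χ has degree (q + 1)/2, then at a diagonal element with entry a, a² ≠ 1, χ takes the value 1 when a is a square in F and −1 otherwise. If χ has degree (q − 1)/2, then at an element g with no eigenvector in F² (so g has order dividing q + 1), χ takes the value −1 when g raised to the power (q + 1)/2 is the identity and the value 1 otherwise. -/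
theorem result {F : Type*} [Field F] [Fintype F] (hodd : Odd (Fintype.card F)) (hq : 5 ≤ Fintype.card F)
    (χ : Matrix.SpecialLinearGroup (Fin 2) F → ℂ) (hχ : Cfsg.IsIrrCharacter (Matrix.SpecialLinearGroup (Fin 2) F) χ) (g : Matrix.SpecialLinearGroup (Fin 2) F) :
    (χ 1 = (((Fintype.card F + 1) / 2 : ℕ) : ℂ) → (g : Matrix (Fin 2) (Fin 2) F) 0 1 = 0 → (g : Matrix (Fin 2) (Fin 2) F) 1 0 = 0 → (g : Matrix (Fin 2) (Fin 2) F) 0 0 ^ 2 ≠ 1 →
      (IsSquare ((g : Matrix (Fin 2) (Fin 2) F) 0 0) → χ g = 1) ∧ (¬ IsSquare ((g : Matrix (Fin 2) (Fin 2) F) 0 0) → χ g = -1)) ∧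
    (χ 1 = (((Fintype.card F - 1) / 2 : ℕ) : ℂ) → (∀ (c : F) (v : Fin 2 → F), v ≠ 0 → (g : Matrix (Fin 2) (Fin 2) F).mulVec v ≠ c • v) →
      (((g ^ ((Fintype.card F + 1) / 2)) : Matrix (Fin 2) (Fin 2) F) = 1 → χ g = -1) ∧ (((g ^ ((Fintype.card F + 1) / 2)) : Matrix (Fin 2) (Fin 2) F) ≠ 1 → χ g = 1)) := by
  classical
  have := Fintype.ofFinite (SL2 F)
  refine ⟨fun h h1 h2 h4 => ?_, fun h hg => ?_⟩
  · have hT : g ∈ (slLin F).T := ⟨h1, h2⟩
    have hZ := (not_mem_Z_iff_of_mem_T_SL hT).2 h4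
    obtain ⟨α, χ', hα, h'⟩ := half_PS_of_deg_SL hχ hq h
    have e : χ g = α ⟨g, hT⟩ := by
      rw [h'.apply_T hT, (slLin F).PS_T α ⟨g, hT⟩ hZ, barHom_SL, hα.apply_inv]; ring
    have e2 := quad_T_apply_eq_one_iff_isSquare hα ⟨g, hT⟩
    rw [e]
    refine ⟨fun h5 => by rw [e2.2 h5]; simp, fun h5 => ?_⟩
    rw [(hα.apply_eq _).resolve_left (fun h6 => h5 (e2.1 h6))]; simp
  · obtain ⟨θ, χ', hθ, h'⟩ := half_DS_of_deg_SL hg hχ hq h
    have hC : g ∈ Subgroup.centralizer ({g} : Set (SL2 F)) :=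
      Subgroup.mem_centralizer_singleton_iff.2 rfl
    have e : χ g = -θ ⟨g, hC⟩ := by
      rw [h'.apply_ell hg, Pi.neg_apply, (slLin F).DS_C hg θ ⟨g, hC⟩ (IsEll.not_isScal hg), barHom_SL,
        hθ.apply_inv]; ring
    have e2 := quad_C_apply_eq_one_iff hg hθ ⟨g, hC⟩
    rw [← (slLin F).inj.eq_iff, map_pow, map_one] at e2
    rw [e]
    refine ⟨fun h5 => by rw [e2.2 h5]; simp, fun h5 => ?_⟩
    rw [(hθ.apply_eq _).resolve_left (fun h6 => h5 (e2.1 h6))]; simp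

end Cfsg.Agent.S2435
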