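import Cfsg.Statements.S2439
import Cfsg.Agent.Block.DefSL
import Cfsg.Agent.Block.SymBlock
import Cfsg.Agent.Block.Loc
import Cfsg.Agent.Char.Kernel
import Cfsg.Agent.Known.SL2Table2
import Cfsg.Agent.Known.SL2Orders

set_option autoImplicit false
open Cfsg

namespace Cfsg.Agent.S2439

open Cfsg.Lib.Known Cfsg.Lib.Known.GL2 Cfsg.Lib.Char Cfsg.Lib.Block Matrix

theorem three_parts {X : Type*} (𝓑 : Set X → Prop) (bl : X → Set X) (hbl : ∀ x, 𝓑 (bl x))
    (h3 : Nat.card {B // 𝓑 B} = 3) {a b c : X} (hab : bl a ≠ bl b) (hac : bl a ≠ bl c)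
    (hbc : bl b ≠ bl c) (x : X) : bl x = bl a ∨ bl x = bl b ∨ bl x = bl c := by
  classical
  have hfin : Finite {B // 𝓑 B} := Nat.finite_of_card_ne_zero (by omega)
  have := Fintype.ofFinite {B // 𝓑 B}
  have hu : ({⟨bl a, hbl a⟩, ⟨bl b, hbl b⟩, ⟨bl c, hbl c⟩} : Finset {B // 𝓑 B}) = Finset.univ := by
    apply Finset.eq_univ_of_card
    rw [← Nat.card_eq_fintype_card, h3, Finset.card_eq_three]
    exact ⟨_, _, _, by simpa using hab, by simpa using hac, by simpa using hbc, rfl⟩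
  have hx : (⟨bl x, hbl x⟩ : {B // 𝓑 B}) ∈
      ({⟨bl a, hbl a⟩, ⟨bl b, hbl b⟩, ⟨bl c, hbl c⟩} : Finset {B // 𝓑 B}) := by
    rw [hu]; exact Finset.mem_univ _
  simpa using hx

theorem not_dvd_deg {F : Type*} [Field F] [Fintype F] (p : ℕ) [Fact p.Prime] [CharP F p]
    {χ : SL2 F → ℂ} (hχ : IsIrrCharacter _ χ) (h : χ 1 ≠ (Fintype.card F : ℂ)) :
    ¬ p ∣ charDegree χ := by
  classical
  have := Fintype.ofFinite (SL2 F)
  have hp := (Fact.out : p.Prime)
  obtain ⟨s, hs, -⟩ := (slLin F).exists_isEll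
  have h1 := not_char_dvd_sub_one (F := F) p
  have h2 := not_char_dvd_add_one (F := F) p
  rcases irr_cases_SL' hs hχ with ⟨e, -⟩ | ⟨e, -⟩ | ⟨e, -⟩ | ⟨e, -⟩ | ⟨e, ho, -⟩ | ⟨e, ho, -⟩
  · rw [Ht.charDegree_of_eq e]; exact hp.not_dvd_one
  · exact absurd e h
  · rw [Ht.charDegree_of_eq e]; exact h2
  · rw [Ht.charDegree_of_eq e]; exact h1
  · rw [Ht.charDegree_of_eq e]
    exact fun hd => h2 (hd.trans (Nat.div_dvd_of_dvd (by omega)))
  · rw [Ht.charDegree_of_eq e]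
    exact fun hd => h1 (hd.trans (Nat.div_dvd_of_dvd (by omega)))

theorem defect_sylow {G : Type*} [Group G] [Finite G] {p : ℕ} [Fact p.Prime] {M : Ideal AlgInt}
    (hM : IsPModular p M) (χ : IrrCharacter G) (h : ¬ p ∣ charDegree (χ : G → ℂ)) (P : Sylow p G) :
    IsDefectGroup p M (blockOf M (χ : G → ℂ)) (P : Subgroup G) := by
  rw [isDefectGroup_sylow_iff hM (isPBlock_blockOf χ)]
  unfold blockDefect
  have : sInf ((fun χ : IrrCharacter G => (charDegree (χ : G → ℂ)).factorization p) ''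
      blockOf M (χ : G → ℂ)) = 0 :=
    Nat.sInf_eq_zero.2 (Or.inl ⟨χ, mem_blockOf_self hM χ, Nat.factorization_eq_zero_of_not_dvd h⟩)
  rw [this, Nat.sub_zero]

/-- Let F be a finite field with q elements of odd characteristic p, and M a maximal ideal of the algebraic integers containing p. Then SL₂ over F has exactly three p-blocks relative to M: the irreducible character of degree q (the Steinberg character) alone; the other irreducible characters taking the same value at −1 as at 1 (the principal block); and the irreducible characters χ with χ(−1) = −χ(1). Every Sylow p-subgroup is a defect group of each of the last two blocks. -/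
theorem result {F : Type*} [Field F] [Fintype F] (p : ℕ) [Fact p.Prime] [CharP F p] (hp : p ≠ 2)
    (M : Ideal Cfsg.AlgInt) (hM : Cfsg.IsPModular p M) :
    (∀ B : Set (Cfsg.IrrCharacter (Matrix.SpecialLinearGroup (Fin 2) F)), Cfsg.IsPBlock M B ↔
      (B = {χ : Cfsg.IrrCharacter (Matrix.SpecialLinearGroup (Fin 2) F) | (χ : Matrix.SpecialLinearGroup (Fin 2) F → ℂ) 1 = (Fintype.card F : ℂ)} ∨
       B = {χ : Cfsg.IrrCharacter (Matrix.SpecialLinearGroup (Fin 2) F) | (χ : Matrix.SpecialLinearGroup (Fin 2) F → ℂ) (-1) = (χ : Matrix.SpecialLinearGroup (Fin 2) F → ℂ) 1 ∧ (χ : Matrix.SpecialLinearGroup (Fin 2) F → ℂ) 1 ≠ (Fintype.card F : ℂ)} ∨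
       B = {χ : Cfsg.IrrCharacter (Matrix.SpecialLinearGroup (Fin 2) F) | (χ : Matrix.SpecialLinearGroup (Fin 2) F → ℂ) (-1) = -(χ : Matrix.SpecialLinearGroup (Fin 2) F → ℂ) 1})) ∧
    Nat.card {B : Set (Cfsg.IrrCharacter (Matrix.SpecialLinearGroup (Fin 2) F)) // Cfsg.IsPBlock M B} = 3 ∧
    ∀ P : Sylow p (Matrix.SpecialLinearGroup (Fin 2) F),
      Cfsg.IsDefectGroup p M {χ : Cfsg.IrrCharacter (Matrix.SpecialLinearGroup (Fin 2) F) | (χ : Matrix.SpecialLinearGroup (Fin 2) F → ℂ) (-1) = (χ : Matrix.SpecialLinearGroup (Fin 2) F → ℂ) 1 ∧ (χ : Matrix.SpecialLinearGroup (Fin 2) F → ℂ) 1 ≠ (Fintype.card F : ℂ)} (P : Subgroup (Matrix.SpecialLinearGroup (Fin 2) F)) ∧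
      Cfsg.IsDefectGroup p M {χ : Cfsg.IrrCharacter (Matrix.SpecialLinearGroup (Fin 2) F) | (χ : Matrix.SpecialLinearGroup (Fin 2) F → ℂ) (-1) = -(χ : Matrix.SpecialLinearGroup (Fin 2) F → ℂ) 1} (P : Subgroup (Matrix.SpecialLinearGroup (Fin 2) F)) := by
  classical
  have := Fintype.ofFinite (SL2 F)
  have hpp := (Fact.out : p.Prime)
  have h2 : (2 : F) ≠ 0 := by
    intro h
    have : p ∣ 2 := (CharP.cast_eq_zero_iff F p 2).1 (by exact_mod_cast h)
    exact hp ((Nat.prime_dvd_prime_iff_eq hpp Nat.prime_two).1 this)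
  have hodd : Odd (Fintype.card F) := by
    obtain ⟨n, -, hn⟩ := FiniteField.card F p
    rw [hn]; exact (hpp.odd_of_ne_two hp).pow
  have hq : 1 < Fintype.card F := Fintype.one_lt_card
  have h3 : Nat.card {B : Set (IrrCharacter (SL2 F)) // IsPBlock M B} = 3 := by
    have := DZ.card_blocks_SL (F := F) (n := 1) p le_rfl hM
    rw [Nat.card_eq_fintype_card (α := F)] at this
    refine this.trans ?_
    have : 2 ∣ Fintype.card F - 1 := by obtain ⟨k, hk⟩ := hodd; omega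
    rw [show 1 + 1 = 2 from rfl, Nat.gcd_eq_left this]
  have hz : (-1 : SL2 F) ∈ Subgroup.center (SL2 F) := by
    rw [Subgroup.mem_center_iff]; intro g; simp
  have hne1 : (-1 : SL2 F) ≠ 1 := by
    intro h
    have := (neg_one_pow_eq_one_iff_SL h2 (n := 1)).1 (by simpa using h)
    omega
  have hd0 : ∀ χ : IrrCharacter (SL2 F), (χ : SL2 F → ℂ) 1 ≠ 0 := fun χ => χ.2.apply_one_ne_zero
  have hpm : ∀ χ : IrrCharacter (SL2 F), (χ : SL2 F → ℂ) (-1) = (χ : SL2 F → ℂ) 1 ∨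
      (χ : SL2 F → ℂ) (-1) = -(χ : SL2 F → ℂ) 1 := by
    intro χ
    have h := irr_center_div_pow χ.2 hz 2
    rw [neg_one_sq, div_self (hd0 χ), sq_eq_one_iff] at h
    rcases h with h | h
    · left; rwa [div_eq_one_iff_eq (hd0 χ)] at h
    · right; rw [div_eq_iff (hd0 χ)] at h; rw [h]; ring
  have hnn : ∀ χ : IrrCharacter (SL2 F), (χ : SL2 F → ℂ) (-1) = (χ : SL2 F → ℂ) 1 →
      (χ : SL2 F → ℂ) (-1) = -(χ : SL2 F → ℂ) 1 → False := by
    intro χ h h'
    apply hd0 χ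
    have : (2 : ℂ) * (χ : SL2 F → ℂ) 1 = 0 := by linear_combination h' - h
    simpa using this
  have hsep : ∀ χ ψ : IrrCharacter (SL2 F), (χ : SL2 F → ℂ) (-1) = (χ : SL2 F → ℂ) 1 →
      (ψ : SL2 F → ℂ) (-1) = -(ψ : SL2 F → ℂ) 1 →
      blockOf M (χ : SL2 F → ℂ) ≠ blockOf M (ψ : SL2 F → ℂ) := by
    intro χ ψ h h' e
    have h1 : ψ ∈ blockOf M (χ : SL2 F → ℂ) := e ▸ mem_blockOf_self hM ψ
    have h2 := mem_blockOf.1 h1 (-1)
    have hi : (Subgroup.centralizer ({-1} : Set (SL2 F))).index = 1 := by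
      rw [Subgroup.index_eq_one, eq_top_iff]
      intro g _
      rw [Subgroup.mem_centralizer_singleton_iff]; simp
    unfold centralChar at h2
    rw [hi, h, h'] at h2
    have e2 : ((1 : ℕ) : ℂ) * (χ : SL2 F → ℂ) 1 / (χ : SL2 F → ℂ) 1 -
        ((1 : ℕ) : ℂ) * -(ψ : SL2 F → ℂ) 1 / (ψ : SL2 F → ℂ) 1 = ((2 : ℕ) : ℂ) := by
      have := hd0 χ; have := hd0 ψ
      field_simp; norm_num
    rw [e2, Loc.ideal_natCast_iff hM] at h2
    exact hp ((Nat.prime_dvd_prime_iff_eq hpp Nat.prime_two).1 h2)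
  let St : IrrCharacter (SL2 F) := ⟨(slLin F).St, (slLin F).isIrr_St⟩
  let one : IrrCharacter (SL2 F) := ⟨fun _ => 1, isIrrCharacter_one⟩
  obtain ⟨ψ₀, hψ₀, hψ₁⟩ := exists_irr_apply_ne hne1
  let ψ : IrrCharacter (SL2 F) := ⟨ψ₀, hψ₀⟩
  have hψ : (ψ : SL2 F → ℂ) (-1) = -(ψ : SL2 F → ℂ) 1 := (hpm ψ).resolve_left hψ₁
  have hSt1 : (St : SL2 F → ℂ) 1 = Fintype.card F := Lin2.St_one _
  have hStz : (St : SL2 F → ℂ) (-1) = (St : SL2 F → ℂ) 1 := by
    rw [hSt1]; exact (slLin F).St_Z neg_one_mem_Z_SL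
  have hdeg : ∀ χ : IrrCharacter (SL2 F), (χ : SL2 F → ℂ) 1 = Fintype.card F ↔ χ = St :=
    fun χ => ⟨fun h => Subtype.ext (eq_St_of_deg_SL χ.2 h), fun h => h ▸ hSt1⟩
  have hbSt : blockOf M (St : SL2 F → ℂ) = {St} := by
    refine blockOf_eq_singleton_of_vanish hM fun g hg => ?_
    obtain ⟨z, hz, b, hb, hc⟩ := (slLin F).exists_isConj_of_char_dvd p hg
    obtain ⟨c, rfl⟩ := isConj_iff.1 hc
    rw [St.2.isCharacter.isClassFunction]
    exact (slLin F).St_u hz hb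
  have hone : (one : SL2 F → ℂ) 1 ≠ Fintype.card F := by
    intro h
    have : ((1 : ℕ) : ℂ) = Fintype.card F := by rw [← h]; simp [one]
    have := Nat.cast_injective this
    omega
  have hneSt : ∀ χ : IrrCharacter (SL2 F), χ ≠ St →
      blockOf M (St : SL2 F → ℂ) ≠ blockOf M (χ : SL2 F → ℂ) := by
    intro χ h e
    have h1 : χ ∈ blockOf M (St : SL2 F → ℂ) := e ▸ mem_blockOf_self hM χ
    rw [hbSt] at h1
    exact h h1
  have key : ∀ χ : IrrCharacter (SL2 F),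
      blockOf M (χ : SL2 F → ℂ) = blockOf M (St : SL2 F → ℂ) ∨
      blockOf M (χ : SL2 F → ℂ) = blockOf M (one : SL2 F → ℂ) ∨
      blockOf M (χ : SL2 F → ℂ) = blockOf M (ψ : SL2 F → ℂ) :=
    three_parts (IsPBlock M) (fun χ : IrrCharacter (SL2 F) => blockOf M (χ : SL2 F → ℂ))
      isPBlock_blockOf h3 (hneSt one fun h => hone ((hdeg _).2 h)) (hsep St ψ hStz hψ)
      (hsep one ψ rfl hψ)
  have hA : blockOf M (St : SL2 F → ℂ) =
      {χ : IrrCharacter (SL2 F) | (χ : SL2 F → ℂ) 1 = (Fintype.card F : ℂ)} := by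
    rw [hbSt]; ext χ; simp only [Set.mem_singleton_iff, Set.mem_ofPred_eq]; exact (hdeg χ).symm
  have hmem : ∀ χ φ : IrrCharacter (SL2 F), χ ∈ blockOf M (φ : SL2 F → ℂ) ↔
      blockOf M (χ : SL2 F → ℂ) = blockOf M (φ : SL2 F → ℂ) := fun χ φ =>
    ⟨fun h => (block_eq_blockOf hM (isPBlock_blockOf φ) h).symm,
      fun h => h ▸ mem_blockOf_self hM χ⟩
  have hB : blockOf M (one : SL2 F → ℂ) = {χ : IrrCharacter (SL2 F) |
      (χ : SL2 F → ℂ) (-1) = (χ : SL2 F → ℂ) 1 ∧ (χ : SL2 F → ℂ) 1 ≠ (Fintype.card F : ℂ)} := by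
    ext χ
    rw [hmem, Set.mem_ofPred_eq]
    constructor
    · intro h
      refine ⟨(hpm χ).resolve_right fun h' => hsep one χ rfl h' h.symm, fun h' => ?_⟩
      rw [(hdeg χ).1 h'] at h
      exact hneSt one (fun h => hone ((hdeg _).2 h)) h
    · rintro ⟨h, h'⟩
      rcases key χ with e | e | e
      · exact absurd e.symm (hneSt χ fun h => h' ((hdeg _).2 h))
      · exact e
      · exact absurd e (hsep χ ψ h hψ)
  have hC : blockOf M (ψ : SL2 F → ℂ) = {χ : IrrCharacter (SL2 F) |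
      (χ : SL2 F → ℂ) (-1) = -(χ : SL2 F → ℂ) 1} := by
    ext χ
    rw [hmem, Set.mem_ofPred_eq]
    constructor
    · intro h
      exact (hpm χ).resolve_left fun h' => hsep χ ψ h' hψ h
    · intro h
      rcases key χ with e | e | e
      · exact absurd e.symm (hsep St χ hStz h)
      · exact absurd e.symm (hsep one χ rfl h)
      · exact e
  refine ⟨fun B => ⟨?_, ?_⟩, h3, fun P => ⟨?_, ?_⟩⟩
  · rintro ⟨χ, rfl⟩
    rw [← hA, ← hB, ← hC]
    exact key χ
  · rw [← hA, ← hB, ← hC]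
    rintro (rfl | rfl | rfl) <;> exact isPBlock_blockOf _
  · rw [← hB]
    exact defect_sylow hM one (not_dvd_deg p one.2 hone) P
  · rw [← hC]
    refine defect_sylow hM ψ (not_dvd_deg p ψ.2 fun h => ?_) P
    rw [(hdeg ψ).1 h] at hψ
    exact hnn St hStz hψ

end Cfsg.Agent.S2439
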