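import Cfsg.Statements.S2436
import Cfsg.Agent.S2299
import Cfsg.Agent.S2439
import Cfsg.Agent.S4477
import Cfsg.Agent.Block.PQCount
import Cfsg.Agent.Char.RealDeg
import Cfsg.Agent.Char.GoodCount
import Cfsg.Agent.Known.SL2Sylow
import Cfsg.Agent.Known.SL2Unip
import Cfsg.Agent.Known.SL2Classes

set_option autoImplicit false
open Cfsg

namespace Cfsg.Agent.S2436

open Cfsg.Lib.Known Cfsg.Lib.Known.GL2 Cfsg.Lib.Char Cfsg.Lib.Block Matrix
open scoped commutatorElement

/-- number of irreducible characters of degree prime to `p` -/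
noncomputable abbrev cnt (p : ℕ) (G : Type*) [Group G] : ℕ :=
  Nat.card {χ : IrrCharacter G // ¬ p ∣ charDegree (χ : G → ℂ)}

theorem cnt_congr (p : ℕ) {G H : Type*} [Group G] [Group H] (e : G ≃* H) : cnt p G = cnt p H := by
  refine Nat.card_congr ((irrCongr e).subtypeEquiv fun χ => ?_)
  rw [Deg.deg_congr (χ := χ.1) (φ := (irrCongr e χ).1) (by simp)]

theorem cnt_normal {G : Type*} [Group G] [Finite G] {p : ℕ} [Fact p.Prime] (P : Subgroup G)
    [P.Normal] (hP : IsPGroup p P) (hi : ¬ p ∣ P.index) :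
    cnt p G = Nat.card (ConjClasses (G ⧸ ⁅P, P⁆)) := by
  rw [← card_irr_le_charKer]
  refine Nat.card_congr (Equiv.subtypeEquivRight fun χ => ⟨fun h => ?_, fun h hd => hi ?_⟩)
  · exact le_charKer_of_le_commutator hP le_rfl χ.2 h
  · exact hd.trans (PQ.deg_dvd_index_of_ker χ.2 P fun a ha b hb =>
      h (Subgroup.commutator_mem_commutator ha hb))

theorem cnt_abelian {G : Type*} [Group G] [Finite G] {p : ℕ} (P : Subgroup G)
    [P.Normal] (hP : ∀ a ∈ P, ∀ b ∈ P, a * b = b * a) (hi : ¬ p ∣ P.index) :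
    cnt p G = Nat.card (ConjClasses G) := by
  rw [← card_irr_eq_card_conjClasses]
  exact Nat.card_congr (Equiv.subtypeUnivEquiv fun χ hd => hi (hd.trans (Deg.ito χ.2 P hP)))

theorem card_conjClasses_comm {G : Type*} [Group G] (h : ∀ a b : G, a * b = b * a) :
    Nat.card (ConjClasses G) = Nat.card G := by
  refine card_conjClasses_of_reps id (fun a b hab => ?_) (fun g => ⟨g, IsConj.refl _⟩)
  obtain ⟨c, hc⟩ := isConj_iff.1 hab
  simp only [id] at hc
  rw [← hc, h c a, mul_inv_cancel_right]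

theorem card_conjClasses_twelve {G : Type*} [Group G] [Finite G] (h12 : Nat.card G = 12)
    (V : Subgroup G) [V.Normal] (hV : ∀ a ∈ V, ∀ b ∈ V, a * b = b * a) (hi : V.index = 3)
    (hn : ∃ a b : G, a * b ≠ b * a) : Nat.card (ConjClasses G) = 4 := by
  classical
  have := Fintype.ofFinite (IrrCharacter G)
  have hd : ∀ χ : IrrCharacter G, charDegree (χ : G → ℂ) = 1 ∨ charDegree (χ : G → ℂ) = 3 :=
    fun χ => (Nat.dvd_prime Nat.prime_three).1 (hi ▸ Deg.ito χ.2 V hV)
  have hs := Deg.sum_deg_sq G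
  have e : ∀ χ : IrrCharacter G, charDegree (χ : G → ℂ) ^ 2 =
      1 + if charDegree (χ : G → ℂ) = 3 then 8 else 0 := by
    intro χ; rcases hd χ with h | h <;> simp [h]
  have hs' : ∑ χ : IrrCharacter G, charDegree (χ : G → ℂ) ^ 2 = 12 := by
    rw [← h12, ← hs]; congr!
  simp only [e, Finset.sum_add_distrib, Finset.sum_const, smul_eq_mul, mul_one,
    Finset.card_univ, ← Finset.sum_filter] at hs'
  have hb : 0 < (Finset.univ.filter fun χ : IrrCharacter G =>
      charDegree (χ : G → ℂ) = 3).card := by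
    obtain ⟨a, b, hab⟩ := hn
    by_contra h0
    apply hab
    refine Deg.comm_of_forall_deg_eq_one (fun χ hχ => ?_) a b
    refine (hd ⟨χ, hχ⟩).resolve_right fun h3 => h0 (Finset.card_pos.2 ⟨⟨χ, hχ⟩, ?_⟩)
    simpa using h3
  rw [← card_irr_eq_card_conjClasses, Nat.card_eq_fintype_card]
  omega

theorem normalizer_equiv {G : Type*} [Group G] (H : Subgroup G) (g : G) :
    Nonempty (Subgroup.normalizer (H : Set G) ≃*
      Subgroup.normalizer ((H.map (MulAut.conj g).toMonoidHom : Subgroup G) : Set G)) := by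
  rw [← Subgroup.map_equiv_normalizer_eq]
  exact ⟨(MulAut.conj g).subgroupMap _⟩

variable {F : Type*} [Field F] [Fintype F]

theorem cnt_SL (hodd : Odd (Fintype.card F)) (hq : 5 ≤ Fintype.card F) {ℓ : ℕ} (hℓ : ℓ.Prime) :
    cnt ℓ (SL2 F) = 1 + (if ℓ ∣ Fintype.card F then 0 else 1) +
      (if ℓ ∣ Fintype.card F + 1 then 0 else (Fintype.card F - 3) / 2) +
      (if ℓ ∣ Fintype.card F - 1 then 0 else (Fintype.card F - 1) / 2) +
      (if ℓ ∣ (Fintype.card F + 1) / 2 then 0 else 2) +
      (if ℓ ∣ (Fintype.card F - 1) / 2 then 0 else 2) := by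
  classical
  have := Fintype.ofFinite (SL2 F)
  have := Fintype.ofFinite (IrrCharacter (SL2 F))
  obtain ⟨h0, h1⟩ := S2299.result hodd
  obtain ⟨c1, c2, c3, c4, c5, c6⟩ := h1 hq
  set q := Fintype.card F with hqdef
  have hc : ∀ (n : ℕ) (z : ℂ), z = n → Nat.card {χ : IrrCharacter (SL2 F) // (χ : SL2 F → ℂ) 1 = z} =
      (Finset.univ.filter fun χ : IrrCharacter (SL2 F) => charDegree (χ : SL2 F → ℂ) = n).card := by
    intro n z hz
    rw [Nat.card_eq_fintype_card, Fintype.card_subtype]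
    congr 1
    ext χ
    simp only [Finset.mem_filter, Finset.mem_univ, true_and]
    rw [hz, ← Ht.cast_charDegree_irr, Nat.cast_inj]
  rw [hc 1 _ (by simp)] at c1
  rw [hc q _ rfl] at c2
  rw [hc (q + 1) _ (by simp)] at c3
  rw [hc (q - 1) _ cast_card_sub_one] at c4
  rw [hc _ _ rfl] at c5 c6
  have hmem : ∀ χ : IrrCharacter (SL2 F), charDegree (χ : SL2 F → ℂ) ∈
      ({1, q, q + 1, q - 1, (q + 1) / 2, (q - 1) / 2} : Finset ℕ) := by
    intro χ
    have := h0 χ χ.2
    rw [← Ht.cast_charDegree_irr, cast_card_add_one, cast_card_sub_one] at this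
    simp only [Finset.mem_insert, Finset.mem_singleton]
    exact_mod_cast this
  have hfib : ∀ n : ℕ, ((Finset.univ.filter fun χ : IrrCharacter (SL2 F) =>
      ¬ ℓ ∣ charDegree (χ : SL2 F → ℂ)).filter fun χ : IrrCharacter (SL2 F) =>
        charDegree (χ : SL2 F → ℂ) = n).card =
      if ℓ ∣ n then 0 else (Finset.univ.filter fun χ : IrrCharacter (SL2 F) =>
        charDegree (χ : SL2 F → ℂ) = n).card := by
    intro n
    split_ifs with h
    · rw [Finset.card_eq_zero, Finset.filter_eq_empty_iff]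
      intro χ hχ e
      exact (Finset.mem_filter.1 hχ).2 (e ▸ h)
    · congr 1
      ext χ
      simp only [Finset.mem_filter, Finset.mem_univ, true_and]
      exact ⟨fun h => h.2, fun e => ⟨e ▸ h, e⟩⟩
  unfold cnt
  rw [Nat.card_eq_fintype_card, Fintype.card_subtype,
    Finset.card_eq_sum_card_fiberwise (t := {1, q, q + 1, q - 1, (q + 1) / 2, (q - 1) / 2})
      (f := fun χ : IrrCharacter (SL2 F) => charDegree (χ : SL2 F → ℂ)) (fun χ _ => hmem χ)]
  obtain ⟨k, hk⟩ := hodd
  rw [Finset.sum_insert (by simp; omega), Finset.sum_insert (by simp; omega),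
    Finset.sum_insert (by simp; omega), Finset.sum_insert (by simp; omega),
    Finset.sum_insert (by simp; omega), Finset.sum_singleton]
  simp only [hfib, c1, c2, c3, c4, c5, c6, if_neg hℓ.not_dvd_one]
  ring

theorem cnt_SL_char (p : ℕ) [Fact p.Prime] [CharP F p] (h2 : (2 : F) ≠ 0) :
    cnt p (SL2 F) = Fintype.card F + 3 := by
  classical
  have := Fintype.ofFinite (SL2 F)
  have := Fintype.ofFinite (IrrCharacter (SL2 F))
  let St : IrrCharacter (SL2 F) := ⟨(slLin F).St, (slLin F).isIrr_St⟩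
  have e : cnt p (SL2 F) = Nat.card {χ : IrrCharacter (SL2 F) // ¬ χ = St} := by
    refine Nat.card_congr (Equiv.subtypeEquivRight fun χ => ⟨fun h e => h ?_, fun h => ?_⟩)
    · rw [e, Ht.charDegree_of_eq (Lin2.St_one _)]; exact char_dvd_card p
    · exact S2439.not_dvd_deg p χ.2 fun h' => h (Subtype.ext (eq_St_of_deg_SL χ.2 h'))
  have h := card_conjClasses_SL2_odd h2
  rw [← card_irr_eq_card_conjClasses, Nat.card_eq_fintype_card] at h
  rw [e, Nat.card_eq_fintype_card, Fintype.card_subtype_compl, h, Fintype.card_subtype_eq]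
  rfl

/-- Let F be a finite field with q elements, q odd, ℓ any prime and S a Sylow ℓ-subgroup of SL₂ over F with normaliser N. Then SL₂ and N have the same number of irreducible complex characters of degree not divisible by ℓ (the McKay equality holds for SL₂ over F at every prime). -/
theorem result {F : Type*} [Field F] [Fintype F] (hodd : Odd (Fintype.card F)) (ℓ : ℕ) [Fact ℓ.Prime] (S : Sylow ℓ (Matrix.SpecialLinearGroup (Fin 2) F)) :
    Nat.card {χ : Cfsg.IrrCharacter (Matrix.SpecialLinearGroup (Fin 2) F) // ¬ ℓ ∣ Cfsg.charDegree (χ : Matrix.SpecialLinearGroup (Fin 2) F → ℂ)} =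
      Nat.card {ψ : Cfsg.IrrCharacter (Subgroup.normalizer ((S : Subgroup (Matrix.SpecialLinearGroup (Fin 2) F)) : Set (Matrix.SpecialLinearGroup (Fin 2) F))) //
        ¬ ℓ ∣ Cfsg.charDegree (ψ : Subgroup.normalizer ((S : Subgroup (Matrix.SpecialLinearGroup (Fin 2) F)) : Set (Matrix.SpecialLinearGroup (Fin 2) F)) → ℂ)} := by
  classical
  have := Fintype.ofFinite (SL2 F)
  have hℓ := (Fact.out : ℓ.Prime)
  obtain ⟨p, hpc⟩ := CharP.exists F
  have hpp : p.Prime := CharP.char_is_prime F p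
  have := Fact.mk hpp
  have hp2 : p ≠ 2 := by
    rintro rfl
    exact (Nat.not_even_iff_odd.2 hodd) (even_iff_two_dvd.2 (char_dvd_card 2))
  have h2 : (2 : F) ≠ 0 := by
    intro h
    have : p ∣ 2 := (CharP.cast_eq_zero_iff F p 2).1 (by exact_mod_cast h)
    exact hp2 ((Nat.prime_dvd_prime_iff_eq hpp Nat.prime_two).1 this)
  change cnt ℓ (SL2 F) = cnt ℓ (Subgroup.normalizer ((S : Subgroup (SL2 F)) : Set (SL2 F)))
  set N := Subgroup.normalizer ((S : Subgroup (SL2 F)) : Set (SL2 F)) with hN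
  have hSN : (S : Subgroup (SL2 F)) ≤ N := Subgroup.le_normalizer
  have hnorm : ((S : Subgroup (SL2 F)).subgroupOf N).Normal := Subgroup.normal_in_normalizer
  have hidx : ¬ ℓ ∣ ((S : Subgroup (SL2 F)).subgroupOf N).index := fun h =>
    S.not_dvd_index (h.trans (Subgroup.relIndex_dvd_index_of_le hSN))
  have htop : N = ⊤ → cnt ℓ (SL2 F) = cnt ℓ N := fun h => by
    rw [h]; exact cnt_congr ℓ Subgroup.topEquiv.symm
  have hab : (∀ a ∈ (S : Subgroup (SL2 F)), ∀ b ∈ (S : Subgroup (SL2 F)), a * b = b * a) →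
      cnt ℓ N = Nat.card (ConjClasses N) := fun h =>
    cnt_abelian _ (fun a ha b hb => Subtype.ext (h a ha b hb)) hidx
  have hq1 : 1 < Fintype.card F := Fintype.one_lt_card
  by_cases hℓp : ℓ = p
  · subst hℓp
    obtain ⟨g, hg⟩ := (slLin F).exists_sylow_eq_map ℓ S
    rw [cnt_SL_char ℓ h2, hab, ← card_conjClasses_B_SL h2, ← (slLin F).normalizer_U, hN, hg]
    · obtain ⟨e⟩ := normalizer_equiv (slLin F).U g
      exact Nat.card_congr (conjClassesCongr e)
    · rw [hg]
      rintro _ ⟨a, ha, rfl⟩ _ ⟨b, hb, rfl⟩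
      rw [← map_mul, ← map_mul, (slLin F).U_comm ha hb]
  have hℓq : ¬ ℓ ∣ Fintype.card F := by
    obtain ⟨n, -, hn⟩ := FiniteField.card F p
    rw [hn]
    exact fun h => hℓp ((Nat.prime_dvd_prime_iff_eq hℓ hpp).1 (hℓ.dvd_of_dvd_pow h))
  obtain ⟨k, hk⟩ := id hodd
  by_cases hℓ2 : ℓ = 2
  · subst hℓ2
    obtain ⟨i, j, hd⟩ := exists_syl2Data h2 S
    have hij := hd.anticomm h2
    have hne : (-1 : SL2 F) ≠ 1 := by
      intro h
      have := orderOf_neg_one_SL h2
      rw [h, orderOf_one] at this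
      omega
    have hP4 : (commutator (S : Subgroup (SL2 F))).index = 4 := by
      refine (S4477.result S.isPGroup' ?_).resolve_left fun hc => ?_
      · have : Nat.card {x : (S : Subgroup (SL2 F)) // orderOf x = 2} = 1 := by
          rw [Nat.card_eq_one_iff_unique]
          refine ⟨⟨fun a b => Subtype.ext (Subtype.ext ?_)⟩, ⟨⟨⟨-1, hd.neg_one_mem⟩, ?_⟩⟩⟩
          · rw [eq_neg_one_of_orderOf_SL h2 (g := a.1.1) (by rw [Subgroup.orderOf_coe]; exact a.2),
              eq_neg_one_of_orderOf_SL h2 (g := b.1.1) (by rw [Subgroup.orderOf_coe]; exact b.2)]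
          · rw [← Subgroup.orderOf_coe]; exact orderOf_neg_one_SL h2
        rw [this]
      · have h := congrArg Subtype.val (hc.commGroup.mul_comm ⟨j, hd.j_mem⟩ ⟨i, hd.i_mem⟩)
        change j * i = i * j at h
        rw [hij] at h
        apply hne
        have h' : (-1 : SL2 F) * (i * j) = 1 * (i * j) := by rw [one_mul, neg_one_mul, h]
        exact mul_right_cancel h'
    set P := (S : Subgroup (SL2 F)).subgroupOf N with hP
    have hPp : IsPGroup 2 P := S.isPGroup'.comap_subtype
    have eP : P ≃* (S : Subgroup (SL2 F)) := Subgroup.subgroupOfEquivOfLe hSN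
    have hcP : Nat.card P = Nat.card (S : Subgroup (SL2 F)) := Nat.card_congr eP.toEquiv
    have hD : 4 * Nat.card (⁅P, P⁆ : Subgroup N) = Nat.card P := by
      have h1 : (commutator P).map eP.toMonoidHom = commutator (S : Subgroup (SL2 F)) := by
        rw [commutator_def, Subgroup.map_commutator, ← MonoidHom.range_eq_map,
          MonoidHom.range_eq_top.2 eP.surjective, commutator_def]
      have h3 : Nat.card (commutator P) = Nat.card (commutator (S : Subgroup (SL2 F))) := by
        rw [← h1, Subgroup.card_map_of_injective eP.injective]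
      rw [← P.map_subtype_commutator, Subgroup.card_map_of_injective P.subtype_injective, h3, hcP,
        ← hP4, Subgroup.index_mul_card]
    have hDpos : 0 < Nat.card (⁅P, P⁆ : Subgroup N) := Nat.card_pos
    have hQ := (⁅P, P⁆ : Subgroup N).card_eq_card_quotient_mul_card_subgroup
    have hVc : ∀ a ∈ P.map (QuotientGroup.mk' ⁅P, P⁆), ∀ b ∈ P.map (QuotientGroup.mk' ⁅P, P⁆),
        a * b = b * a := by
      rintro _ ⟨a, ha, rfl⟩ _ ⟨b, hb, rfl⟩
      rw [← commutatorElement_eq_one_iff_mul_comm, ← map_commutatorElement, QuotientGroup.mk'_apply,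
        QuotientGroup.eq_one_iff]
      exact Subgroup.commutator_mem_commutator ha hb
    by_cases h3 : Fintype.card F = 3
    · refine htop (Subgroup.eq_top_of_card_eq _ ?_)
      rw [hN, card_normalizer_sylow_two h2 S (by omega), card_SL_two, h3]
    have hG : cnt 2 (SL2 F) = 4 := by
      rw [cnt_SL hodd (by omega) hℓ]
      split_ifs <;> omega
    rw [hG, cnt_normal P hPp hidx]
    by_cases h8 : Fintype.card F % 8 = 1 ∨ Fintype.card F % 8 = 7
    · have hNS : N = S := normalizer_sylow_two_eq h2 S h8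
      have hPt : P = ⊤ := by rw [hP, Subgroup.subgroupOf_eq_top, hNS]
      rw [card_conjClasses_comm]
      · rw [hPt, Subgroup.card_top] at hD
        rw [hPt] at hQ hDpos
        rw [hPt]
        rw [← hD] at hQ
        exact Nat.eq_of_mul_eq_mul_right hDpos hQ
      · intro a b
        obtain ⟨a, rfl⟩ := QuotientGroup.mk'_surjective _ a
        obtain ⟨b, rfl⟩ := QuotientGroup.mk'_surjective _ b
        exact hVc _ ⟨a, by simp [hPt], rfl⟩ _ ⟨b, by simp [hPt], rfl⟩
    · have h8' : Fintype.card F % 8 = 3 ∨ Fintype.card F % 8 = 5 := by omega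
      have h24 : Nat.card N = 24 := card_normalizer_sylow_two h2 S h8'
      have hS8 := hd.card_eq_eight h2 S.isPGroup' h8'
      have hP8 : Nat.card P = 8 := hcP.trans hS8
      have hD2 : Nat.card (⁅P, P⁆ : Subgroup N) = 2 := by rw [hP8] at hD; omega
      have hPi : P.index = 3 := by
        have := P.index_mul_card
        rw [hP8, h24] at this
        omega
      rw [h24, hD2] at hQ
      have : (P.map (QuotientGroup.mk' ⁅P, P⁆)).Normal :=
        hnorm.map _ (QuotientGroup.mk'_surjective _)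
      have h12 : Nat.card (N ⧸ (⁅P, P⁆ : Subgroup N)) = 12 :=
        Nat.eq_of_mul_eq_mul_right two_pos (hQ.symm.trans (by norm_num))
      refine (card_conjClasses_twelve h12 (P.map (QuotientGroup.mk' ⁅P, P⁆)) hVc ?_ ?_).symm
      · rw [Subgroup.index_map_eq _ (QuotientGroup.mk'_surjective _), hPi]
        rw [QuotientGroup.ker_mk']
        exact Subgroup.commutator_le_left _ _
      · obtain ⟨ω, hω, -, h1, -⟩ := hd.exists_omega_mem h2 S.isPGroup' h8'
        refine ⟨QuotientGroup.mk ⟨ω, hω⟩, QuotientGroup.mk ⟨i, hSN hd.i_mem⟩, fun h => ?_⟩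
        rw [← commutatorElement_eq_one_iff_mul_comm, ← QuotientGroup.mk'_apply,
          ← QuotientGroup.mk'_apply, ← map_commutatorElement, QuotientGroup.mk'_apply,
          QuotientGroup.eq_one_iff] at h
        have h4 := pow_card_eq_one' (x := (⟨_, h⟩ : (⁅P, P⁆ : Subgroup N)))
        rw [hD2] at h4
        have h5 : (ω * i * ω⁻¹ * i⁻¹) ^ 2 = 1 := congrArg (fun x => x.1.1) h4
        have hi2 := mul_self_eq_neg_one_iff_SL.2 hd.trace_i
        have hj2 := mul_self_eq_neg_one_iff_SL.2 hd.trace_j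
        rw [h1, inv_eq_neg_of_trace hd.trace_i] at h5
        apply hne
        calc (-1 : SL2 F) = -((j * j) * (i * i)) := by rw [hi2, hj2]; simp
          _ = j * -(j * i) * i := by simp [mul_assoc]
          _ = j * (i * j) * i := by rw [hij, neg_neg]
          _ = (j * -i) ^ 2 := by simp [sq, mul_assoc]
          _ = 1 := h5
  by_cases hS : (S : Subgroup (SL2 F)) = ⊥
  · refine htop ?_
    rw [hN, hS]
    exact Subgroup.normalizer_eq_top _
  obtain ⟨z, hzS, hzo, hzZ, hzd, hle⟩ := exists_le_centralizer_SL p hℓ2 hℓp S.isPGroup' hS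
  have hT := (slLin F).isTorus_centralizer hzd
  have hzC : z ∈ Subgroup.centralizer ({z} : Set (SL2 F)) :=
    Subgroup.mem_centralizer_singleton_iff.2 rfl
  have hNC : N = _ := IsTorus_normalizer_eq_SL hT hle ⟨z, hzS, hzZ⟩
  have hk' := card_conjClasses_normalizer_SL h2 hT ⟨z, hzC, hzZ⟩
  rw [hab fun a ha b hb => hT.comm a (hle ha) b (hle hb), hNC]
  have hdvd : ℓ ∣ Nat.card (Subgroup.centralizer ({z} : Set (SL2 F))) :=
    hzo ▸ Subgroup.orderOf_dvd_natCard _ hzC
  have hodd' : ¬ ℓ ∣ 2 := fun h => hℓ2 ((Nat.prime_dvd_prime_iff_eq hℓ Nat.prime_two).1 h)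
  have hcop : Nat.Coprime ℓ 2 := (Nat.Prime.coprime_iff_not_dvd hℓ).2 hodd'
  have e1 : ℓ ∣ (Fintype.card F + 1) / 2 ↔ ℓ ∣ Fintype.card F + 1 := by
    have : Fintype.card F + 1 = (Fintype.card F + 1) / 2 * 2 := by omega
    conv_rhs => rw [this]
    exact (hcop.dvd_mul_right).symm
  have e2 : ℓ ∣ (Fintype.card F - 1) / 2 ↔ ℓ ∣ Fintype.card F - 1 := by
    have : Fintype.card F - 1 = (Fintype.card F - 1) / 2 * 2 := by omega
    conv_rhs => rw [this]
    exact (hcop.dvd_mul_right).symm
  have hboth : ℓ ∣ Fintype.card F + 1 → ℓ ∣ Fintype.card F - 1 → False := fun a b =>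
    hodd' (by
      have := Nat.dvd_sub a b
      rwa [show Fintype.card F + 1 - (Fintype.card F - 1) = 2 by omega] at this)
  have h3 : Fintype.card F ≠ 3 := by
    intro h3
    rcases (centralizer_SL_cases hzd).2 with ⟨-, h⟩ | ⟨-, h⟩ <;> rw [h, h3] at hdvd
    · exact hodd' hdvd
    · exact hodd' (hℓ.dvd_of_dvd_pow (n := 2) hdvd)
  rw [cnt_SL hodd (by omega) hℓ, if_neg hℓq]
  simp only [e1, e2]
  rcases (centralizer_SL_cases hzd).2 with ⟨-, h⟩ | ⟨-, h⟩ <;> rw [h] at hdvd hk'
  · simp only [if_pos hdvd, if_neg fun a => hboth a hdvd]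
    omega
  · simp only [if_pos hdvd, if_neg fun a => hboth hdvd a]
    omega

end Cfsg.Agent.S2436
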