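import Cfsg.Statements.S2438
import Cfsg.Agent.Known.SL2Table2

set_option autoImplicit false
open Cfsg

namespace Cfsg.Agent.S2438

open Cfsg.Lib.Known Cfsg.Lib.Known.GL2 Cfsg.Lib.Char Matrix

/-- Let F be a finite field with q elements, q odd, q ≥ 5, U the upper unitriangular subgroup of SL₂ over F, and χ an irreducible complex character. The sum of the values of χ over U equals 2q, q, 0, q, 0 according as the degree of χ is q + 1, q, q − 1, (q + 1)/2, (q − 1)/2; so among these five degrees the sum vanishes exactly for the degrees q − 1 and (q − 1)/2, i.e. the irreducible characters of those two degrees are the ones whose restriction to U does not contain the trivial character (the cuspidal characters), while those of degree q + 1, q and (q + 1)/2 are not cuspidal. -/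
theorem result {F : Type*} [Field F] [Fintype F] [DecidableEq F] (hodd : Odd (Fintype.card F)) (hq : 5 ≤ Fintype.card F)
    (χ : Matrix.SpecialLinearGroup (Fin 2) F → ℂ) (hχ : Cfsg.IsIrrCharacter (Matrix.SpecialLinearGroup (Fin 2) F) χ) :
    (χ 1 = (Fintype.card F : ℂ) + 1 →
      (∑ g : Matrix.SpecialLinearGroup (Fin 2) F, if (g : Matrix (Fin 2) (Fin 2) F) 1 0 = 0 ∧ (g : Matrix (Fin 2) (Fin 2) F) 0 0 = 1 ∧ (g : Matrix (Fin 2) (Fin 2) F) 1 1 = 1 then χ g else 0) = 2 * (Fintype.card F : ℂ)) ∧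
    (χ 1 = (Fintype.card F : ℂ) →
      (∑ g : Matrix.SpecialLinearGroup (Fin 2) F, if (g : Matrix (Fin 2) (Fin 2) F) 1 0 = 0 ∧ (g : Matrix (Fin 2) (Fin 2) F) 0 0 = 1 ∧ (g : Matrix (Fin 2) (Fin 2) F) 1 1 = 1 then χ g else 0) = (Fintype.card F : ℂ)) ∧
    (χ 1 = (Fintype.card F : ℂ) - 1 →
      (∑ g : Matrix.SpecialLinearGroup (Fin 2) F, if (g : Matrix (Fin 2) (Fin 2) F) 1 0 = 0 ∧ (g : Matrix (Fin 2) (Fin 2) F) 0 0 = 1 ∧ (g : Matrix (Fin 2) (Fin 2) F) 1 1 = 1 then χ g else 0) = 0) ∧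
    (χ 1 = (((Fintype.card F + 1) / 2 : ℕ) : ℂ) →
      (∑ g : Matrix.SpecialLinearGroup (Fin 2) F, if (g : Matrix (Fin 2) (Fin 2) F) 1 0 = 0 ∧ (g : Matrix (Fin 2) (Fin 2) F) 0 0 = 1 ∧ (g : Matrix (Fin 2) (Fin 2) F) 1 1 = 1 then χ g else 0) = (Fintype.card F : ℂ)) ∧
    (χ 1 = (((Fintype.card F - 1) / 2 : ℕ) : ℂ) →
      (∑ g : Matrix.SpecialLinearGroup (Fin 2) F, if (g : Matrix (Fin 2) (Fin 2) F) 1 0 = 0 ∧ (g : Matrix (Fin 2) (Fin 2) F) 0 0 = 1 ∧ (g : Matrix (Fin 2) (Fin 2) F) 1 1 = 1 then χ g else 0) = 0) := by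
  obtain ⟨s, hs, -⟩ := (slLin F).exists_isEll
  have hz := (slLin F).Z.one_mem
  have e1 : ∀ (S : Subgroup (SL2 F)) (h : 1 ∈ S) (θ : S →* ℂˣ), (θ ⟨1, h⟩ : ℂ) = 1 :=
    fun S h θ => congrArg Units.val θ.map_one
  have key : (∑ g : SL2 F, if (g : M2 F) 1 0 = 0 ∧ (g : M2 F) 0 0 = 1 ∧ (g : M2 F) 1 1 = 1
      then χ g else 0) = χ 1 + (slLin F).uSum χ 1 := by
    have : χ 1 + (slLin F).uSum χ 1 = ∑ b : F, χ ((slLin F).u b) := by
      have h0 : χ 1 = ∑ b : F, if b = 0 then χ ((slLin F).u b) else 0 := by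
        simp [Lin2.u_zero]
      rw [h0, Lin2.uSum, ← Finset.sum_add_distrib]
      refine Finset.sum_congr rfl fun b _ => ?_
      by_cases hb : b = 0 <;> simp [hb]
    rw [this, ← Finset.sum_filter]
    symm
    refine Finset.sum_bij (fun b _ => (slLin F).u b) (fun b _ => ?_)
      (fun a _ b _ h => (slLin F).u_injective h) (fun g hg => ?_) (fun _ _ => rfl)
    · refine Finset.mem_filter.2 ⟨Finset.mem_univ _, ?_⟩
      rw [← slLin_ρ, Lin2.ρ_u]
      simp
    · simp only [Finset.mem_filter, Finset.mem_univ, true_and] at hg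
      refine ⟨(g : M2 F) 0 1, Finset.mem_univ _, (slLin F).inj ?_⟩
      rw [Lin2.ρ_u, slLin_ρ]
      exact m2_ext (by simp [hg.2.1]) (by simp) (by simp [hg.1]) (by simp [hg.2.2])
  have k1 : ∀ α, (slLin F).uSum ((slLin F).PS α) 1 = (Fintype.card F : ℂ) - 1 := fun α => by
    rw [(slLin F).uSum_of_const (fun b hb => (slLin F).PS_u α hz hb), e1, mul_one]
  have k2 : ∀ θ, (slLin F).uSum (-(slLin F).DS hs θ) 1 = 1 - (Fintype.card F : ℂ) := fun θ => by
    rw [(slLin F).uSum_of_const (c := -1) (fun b hb => by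
      rw [Pi.neg_apply, (slLin F).DS_u hs θ hz hb, e1])]
    ring
  rw [key]
  refine ⟨fun h => ?_, fun h => ?_, fun h => ?_, fun h => ?_, fun h => ?_⟩
  · obtain ⟨α, -, rfl⟩ := eq_PS_of_deg_SL hχ h
    rw [h, k1]; ring
  · obtain rfl := eq_St_of_deg_SL hχ h
    rw [h, (slLin F).uSum_of_const (fun b hb => (slLin F).St_u hz hb)]; ring
  · obtain ⟨θ, -, rfl⟩ := eq_DS_of_deg_SL hs hχ (by omega) h
    rw [h, k2]; ring
  · obtain ⟨α, χ', hα, h'⟩ := half_PS_of_deg_SL hχ hq h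
    rw [h'.uSum hz, h'.apply_one, k1, Lin2.PS_one]; ring
  · obtain ⟨α, χ', hα, h'⟩ := half_DS_of_deg_SL hs hχ hq h
    rw [h'.uSum hz, h'.apply_one, k2, Lin2.neg_DS_one]; ring

end Cfsg.Agent.S2438
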