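import Cfsg.Statements.S2442
import Cfsg.Agent.Char.Cusp7

set_option autoImplicit false
open scoped MatrixGroups
open Cfsg

namespace Cfsg.Agent.S2442

open Classical in
/-- Let F be a finite field with q elements and n ≥ 2. Call a complex character χ of GL_n over F cuspidal when, for every 0 < m < n, the sum of χ over the subgroup of matrices that agree with the identity outside the upper right m × (n − m) block vanishes (the restriction of χ to the unipotent radical of each maximal standard parabolic subgroup contains no principal constituent). Then GL_n has at least φ(qⁿ − 1)/n distinct cuspidal irreducible characters of degree (q − 1)(q² − 1)⋯(q^(n−1) − 1), φ being Euler's function (in particular at least one). -/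
theorem result {F : Type*} [Field F] [Fintype F] [DecidableEq F] (n : ℕ) (hn : 2 ≤ n) :
    Nat.totient (Fintype.card F ^ n - 1) / n ≤
      Nat.card {χ : Cfsg.IrrCharacter (GL (Fin n) F) //
        (χ : GL (Fin n) F → ℂ) 1 = ∏ i ∈ Finset.Ico 1 n, ((Fintype.card F : ℂ) ^ i - 1) ∧
        ∀ m : ℕ, 0 < m → m < n →
          (∑ g : GL (Fin n) F,
            if (∀ i j : Fin n, ¬ (i.val < m ∧ m ≤ j.val) → (g : Matrix (Fin n) (Fin n) F) i j = (1 : Matrix (Fin n) (Fin n) F) i j)
            then (χ : GL (Fin n) F → ℂ) g else 0) = 0} := by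
  classical
  have := Fintype.ofFinite (Module.End F (Fin n → F))ˣ
  have hV : Module.finrank F (Fin n → F) = n := Module.finrank_fin_fun F
  obtain ⟨χ, h1, h2, h3, h4, h5⟩ := Lib.Char.Cusp.exists_family (F := F) (V := Fin n → F)
    (hV.symm ▸ hn)
  have hq := Fintype.one_lt_card (α := F)
  have : NeZero (Fintype.card F ^ Module.finrank F (Fin n → F) - 1) :=
    ⟨(Nat.sub_pos_of_lt (Nat.one_lt_pow (by omega) hq)).ne'⟩
  let e : GL (Fin n) F ≃* (Module.End F (Fin n → F))ˣ := Matrix.GeneralLinearGroup.toLin
  set S := {χ : Cfsg.IrrCharacter (GL (Fin n) F) //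
        (χ : GL (Fin n) F → ℂ) 1 = ∏ i ∈ Finset.Ico 1 n, ((Fintype.card F : ℂ) ^ i - 1) ∧
        ∀ m : ℕ, 0 < m → m < n →
          (∑ g : GL (Fin n) F,
            if (∀ i j : Fin n, ¬ (i.val < m ∧ m ≤ j.val) → (g : Matrix (Fin n) (Fin n) F) i j = (1 : Matrix (Fin n) (Fin n) F) i j)
            then (χ : GL (Fin n) F → ℂ) g else 0) = 0}
  have := Fintype.ofFinite S
  have hc : ∀ u (m : ℕ), 0 < m → m < n → (∑ g : GL (Fin n) F,
      if (∀ i j : Fin n, ¬ (i.val < m ∧ m ≤ j.val) → (g : Matrix (Fin n) (Fin n) F) i j = (1 : Matrix (Fin n) (Fin n) F) i j)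
      then χ u (e g) else 0) = 0 := by
    intro u m hm hmn
    let W : Submodule F (Fin n → F) := ⨅ i : {i : Fin n // m ≤ i.val}, LinearMap.ker (LinearMap.proj i.1)
    have hW : ∀ v, v ∈ W ↔ ∀ i : Fin n, m ≤ i.val → v i = 0 := fun v => by simp [W]
    have hmem : ∀ g : GL (Fin n) F, (e g : Module.End F (Fin n → F)) ∈ Lib.Char.Cusp.cos 1 W ↔
        ∀ i j : Fin n, ¬ (i.val < m ∧ m ≤ j.val) → (g : Matrix (Fin n) (Fin n) F) i j = (1 : Matrix (Fin n) (Fin n) F) i j := by
      intro g
      have he : ∀ v, (e g : Module.End F (Fin n → F)) v = (g : Matrix (Fin n) (Fin n) F).mulVec v :=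
        fun _ => rfl
      have hd : ∀ v i, ((e g : Module.End F (Fin n → F)) v - v) i =
          ∑ j, ((g : Matrix (Fin n) (Fin n) F) i j - (1 : Matrix (Fin n) (Fin n) F) i j) * v j := by
        intro v i
        have := congrFun (Matrix.sub_mulVec (g : Matrix (Fin n) (Fin n) F) 1 v) i
        rw [Matrix.one_mulVec] at this
        exact this.symm
      simp only [Lib.Char.Cusp.mem_cos, hW, Module.End.one_apply]
      constructor
      · rintro ⟨a, b⟩ i j hij
        rw [← sub_eq_zero]
        have h0 : ((e g : Module.End F (Fin n → F)) (Pi.single j 1) - Pi.single j 1 : Fin n → F) i = 0 := by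
          by_cases hi : i.val < m
          · rw [b _ fun k hk => Pi.single_eq_of_ne (fun e => by subst e; exact hij ⟨hi, hk⟩) _,
              sub_self]
            rfl
          · exact a _ i (not_lt.1 hi)
        rw [hd] at h0
        simpa [Pi.single_apply] using h0
      · intro h
        refine ⟨fun v i hi => ?_, fun w hw => sub_eq_zero.1 (funext fun i => ?_)⟩
        · rw [hd]
          exact Finset.sum_eq_zero fun j _ => by rw [h i j (by omega), sub_self, zero_mul]
        · rw [hd]
          refine Finset.sum_eq_zero fun j _ => ?_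
          by_cases hj : m ≤ j.val
          · rw [hw j hj, mul_zero]
          · rw [h i j (by omega), sub_self, zero_mul]
    rw [← Finset.sum_filter, ← h4 u W (fun e => ?_) fun e => ?_]
    · refine Finset.sum_of_injOn (fun g => (e g : Module.End F (Fin n → F)))
        (Units.val_injective.comp e.injective).injOn (fun g hg => ?_) (fun h hh hh' => ?_)
        fun _ _ => rfl
      · exact Finset.mem_coe.2 ((hmem g).2 (Finset.mem_filter.1 hg).2)
      · refine h3 u h fun ⟨t, ht⟩ => hh' ⟨e.symm t, ?_, by simp [ht]⟩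
        refine Finset.mem_coe.2 (Finset.mem_filter.2 ⟨Finset.mem_univ _, (hmem _).1 ?_⟩)
        simpa [ht] using hh
    · have : Pi.single (⟨0, by omega⟩ : Fin n) (1 : F) ∈ W :=
        (hW _).2 fun i hi => Pi.single_eq_of_ne (fun e => by subst e; simp at hi; omega) _
      rw [e, Submodule.mem_bot] at this
      simpa using congrFun this ⟨0, by omega⟩
    · have := (hW (Pi.single ⟨m, hmn⟩ 1)).1 (e ▸ trivial) ⟨m, hmn⟩ le_rfl
      simp at this
  let f : (ZMod (Fintype.card F ^ Module.finrank F (Fin n → F) - 1))ˣ → S := fun u =>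
    ⟨⟨fun g => χ u (e g), (h1 u).comp_equiv e⟩, by simpa [hV] using h2 u, hc u⟩
  have key := Finset.card_le_mul_card_image_of_maps_to (f := f) (s := Finset.univ)
    (t := Finset.univ) (fun _ _ => Finset.mem_univ _) n fun b _ => ?_
  · rw [Finset.card_univ, ZMod.card_units_eq_totient, hV, Finset.card_univ] at key
    rw [Nat.card_eq_fintype_card]
    exact Nat.div_le_of_le_mul key
  rcases (Finset.univ.filter fun a => f a = b).eq_empty_or_nonempty with h | ⟨v, hv⟩
  · simp [h]
  rw [← Finset.card_image_of_injective _ Units.val_injective]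
  refine (Finset.card_le_card (t := (Finset.range n).image fun j =>
    (v : ZMod (Fintype.card F ^ Module.finrank F (Fin n → F) - 1)) * Fintype.card F ^ j)
      fun x hx => ?_).trans (Finset.card_image_le.trans (Finset.card_range n).le)
  obtain ⟨u, hu, rfl⟩ := Finset.mem_image.1 hx
  have h := (Finset.mem_filter.1 hu).2.trans (Finset.mem_filter.1 hv).2.symm
  obtain ⟨j, hj, hj'⟩ := h5 u v fun g => by
    simpa [f] using congrFun (congrArg (fun x : S => x.1.1) h) (e.symm g)
  exact Finset.mem_image.2 ⟨j, Finset.mem_range.2 (hV ▸ hj), hj'.symm⟩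

end Cfsg.Agent.S2442
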