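import Cfsg.Statements.S2531
import Mathlib.LinearAlgebra.Projectivization.Cardinality
import Mathlib.Tactic

set_option autoImplicit false
open Cfsg

namespace Cfsg.Agent.S2531

theorem card_pts {F V : Type*} [Field F] [Finite F] [AddCommGroup V] [Module F V] [Finite V]
    (W : Submodule F V) (hW : W ≠ ⊥) :
    ((Nat.card {y : Projectivization F V // y.rep ∈ W} : ℕ) : ZMod (Nat.card F)) = 1 := by
  have h1 : Nat.card (Projectivization F W) = Nat.card {y : Projectivization F V // y.rep ∈ W} := by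
    have key : ∀ (v : V) (hv : v ≠ 0), (Projectivization.mk F v hv).rep ∈ W ↔ v ∈ W := fun v hv => by
      obtain ⟨a, ha⟩ := Projectivization.exists_smul_eq_mk_rep F v hv
      rw [← ha]; exact W.smul_mem_iff a.ne_zero
    refine Nat.card_eq_of_bijective (fun x => ⟨x.map W.subtype W.injective_subtype, by
      induction x using Projectivization.ind with
      | h v hv => rw [Projectivization.map_mk, key]; exact v.2⟩) ⟨fun x y h => ?_, fun y => ?_⟩
    · exact Projectivization.map_injective W.subtype W.injective_subtype (congrArg Subtype.val h)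
    · refine ⟨.mk F ⟨y.1.rep, y.2⟩ fun h => y.1.rep_nonzero (congrArg Subtype.val h), Subtype.ext ?_⟩
      simp [Projectivization.map_mk]
  have h2 := Projectivization.card' F W
  have : Nontrivial W := Submodule.nontrivial_iff_ne_bot.2 hW
  have h3 : Nat.card F ∣ Nat.card W := by
    rw [Module.natCard_eq_pow_finrank (K := F) (V := W)]
    exact dvd_pow_self _ Module.finrank_pos.ne'
  have h4 := (ZMod.natCast_eq_zero_iff _ _).2 h3
  rw [h2, h1] at h4
  have h5 : 1 ≤ Nat.card F := Nat.card_pos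
  push_cast [h5] at h4
  rw [ZMod.natCast_self] at h4
  linear_combination -h4

/-- Let `F` be a finite field and `n ≥ 3`. No set of permutations of the points of the projective space of `Fⁿ`, each induced by an invertible semilinear transformation of `Fⁿ` (so a subset of the full projective semilinear group), is sharply 2-transitive on the points: it is impossible that for all pairs of distinct points `(a, b)` and `(c, d)` exactly one member of the set sends `a` to `c` and `b` to `d`. -/
theorem result {F : Type*} [Field F] [Finite F]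
    (n : ℕ) (hn : 3 ≤ n) (S : Set (Equiv.Perm (Projectivization F (Fin n → F))))
    (hS : ∀ s ∈ S, ∃ (σ : F ≃+* F) (f : (Fin n → F) →ₛₗ[(σ : F →+* F)] (Fin n → F)) (hf : Function.Injective f),
      ∀ x, s x = Projectivization.map f hf x) :
    ¬ (∀ a b c d : Projectivization F (Fin n → F), a ≠ b → c ≠ d →
        ∃! s, s ∈ S ∧ s a = c ∧ s b = d) := by
  classical
  intro h
  have := Fintype.ofFinite (Projectivization F (Fin n → F))
  have : Fact (1 < Nat.card F) := ⟨Finite.one_lt_card⟩
  let i0 : Fin n := ⟨0, by omega⟩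
  let i1 : Fin n := ⟨1, by omega⟩
  let i2 : Fin n := ⟨2, by omega⟩
  have n01 : i0 ≠ i1 := by simp [i0, i1]
  have n02 : i0 ≠ i2 := by simp [i0, i2]
  have n12 : i1 ≠ i2 := by simp [i1, i2]
  let B : Submodule F (Fin n → F) := LinearMap.ker (LinearMap.proj i0)
  have hB : ∀ v, v ∈ B ↔ v i0 = 0 := fun v => Iff.rfl
  have key : ∀ (v : Fin n → F) (hv : v ≠ 0), (Projectivization.mk F v hv).rep ∈ B ↔ v ∈ B :=
    fun v hv => by
      obtain ⟨a, ha⟩ := Projectivization.exists_smul_eq_mk_rep F v hv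
      rw [← ha]; exact B.smul_mem_iff a.ne_zero
  let x : Projectivization F (Fin n → F) := .mk F (Pi.single i0 1) (by simp)
  have hx : x.rep ∉ B := by rw [key, hB]; simp
  have hne : ∀ {y : Projectivization F (Fin n → F)}, y.rep ∈ B → x ≠ y := fun hy e => hx (e ▸ hy)
  let y0 : Projectivization F (Fin n → F) := .mk F (Pi.single i1 1) (by simp)
  have hy0 : y0.rep ∈ B := by rw [key, hB]; simp [n01]
  have hB0 : B ≠ ⊥ := fun e => y0.rep_nonzero (by rw [e] at hy0; exact hy0)
  let S' := {s // s ∈ S ∧ s x = x}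
  have h1 : Nat.card S' = Nat.card {y // y ≠ x} := by
    refine Nat.card_eq_of_bijective (fun s => ⟨s.1 y0, fun e => hne hy0 (s.1.injective
      (s.2.2.trans e.symm))⟩) ⟨fun s t e => ?_, fun y => ?_⟩
    · exact Subtype.ext ((h x y0 x (t.1 y0) (hne hy0) fun e => hne hy0 (t.1.injective
        (t.2.2.trans e))).unique ⟨s.2.1, s.2.2, congrArg Subtype.val e⟩ ⟨t.2.1, t.2.2, rfl⟩)
    · obtain ⟨s, hs, -⟩ := h x y0 x y (hne hy0) y.2.symm
      exact ⟨⟨s, hs.1, hs.2.1⟩, Subtype.ext hs.2.2⟩
  have h2 : ((Nat.card S' : ℕ) : ZMod (Nat.card F)) = 0 := by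
    have h3 := card_pts (F := F) (⊤ : Submodule F (Fin n → F)) fun e => hB0 (eq_bot_iff.2 (e ▸ le_top))
    rw [Nat.card_congr (Equiv.subtypeUnivEquiv fun _ => Submodule.mem_top)] at h3
    rw [h1, Nat.card_eq_fintype_card (α := {y // y ≠ x}), Fintype.card_subtype_compl, Fintype.card_subtype_eq,
      Nat.cast_sub (Fintype.card_pos_iff.2 ⟨x⟩), ← Nat.card_eq_fintype_card, h3]
    simp
  have h3 : Nat.card (Σ s : S', {y : Projectivization F (Fin n → F) // y.rep ∈ B ∧ (s.1 y).rep ∈ B}) =
      Nat.card ({y : Projectivization F (Fin n → F) // y.rep ∈ B} ×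
        {y : Projectivization F (Fin n → F) // y.rep ∈ B}) := by
    refine Nat.card_eq_of_bijective (fun p => (⟨p.2.1, p.2.2.1⟩, ⟨p.1.1 p.2.1, p.2.2.2⟩))
      ⟨?_, fun p => ?_⟩
    · rintro ⟨s, y, hy⟩ ⟨t, z, hz⟩ e
      obtain rfl : y = z := congrArg (fun p => p.1.1) e
      have e2 : s.1 y = t.1 y := congrArg (fun p => p.2.1) e
      obtain rfl : s = t := Subtype.ext ((h x y x (t.1 y) (hne hy.1) (hne hz.2)).unique
        ⟨s.2.1, s.2.2, e2⟩ ⟨t.2.1, t.2.2, rfl⟩)
      rfl
    · obtain ⟨s, hs, -⟩ := h x p.1 x p.2 (hne p.1.2) (hne p.2.2)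
      exact ⟨⟨⟨s, hs.1, hs.2.1⟩, p.1, p.1.2, by rw [hs.2.2]; exact p.2.2⟩,
        Prod.ext rfl (Subtype.ext hs.2.2)⟩
  have h4 : ∀ s : S', ((Nat.card {y : Projectivization F (Fin n → F) //
      y.rep ∈ B ∧ (s.1 y).rep ∈ B} : ℕ) : ZMod (Nat.card F)) = 1 := fun s => by
    obtain ⟨σ, f, hf, hs⟩ := hS s.1 s.2.1
    rw [← card_pts (B ⊓ B.comap f) ?_]
    · congr 1
      refine Nat.card_congr (Equiv.subtypeEquivRight fun y => ?_)
      rw [hs]
      conv_lhs => rw [← y.mk_rep, Projectivization.map_mk, key, key]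
      rfl
    · rw [Submodule.ne_bot_iff]
      by_cases hα : f (Pi.single i1 1) i0 = 0
      · exact ⟨Pi.single i1 1, ⟨by simp [hB, n01], hα⟩, by simp⟩
      · refine ⟨σ.symm (-(f (Pi.single i2 1) i0 / f (Pi.single i1 1) i0)) • Pi.single i1 1 +
          Pi.single i2 1, ⟨by simp [hB, n01, n02], ?_⟩, fun e => ?_⟩
        · show f _ i0 = 0
          simp [map_smulₛₗ, hα]
        · simpa [n12.symm] using congrFun e i2
  have := Fintype.ofFinite S'
  have h5 := congrArg (Nat.cast : ℕ → ZMod (Nat.card F)) h3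
  rw [Nat.card_sigma, Nat.card_prod] at h5
  push_cast at h5
  simp only [h4, card_pts B hB0, Finset.sum_const, Finset.card_univ, ← Nat.card_eq_fintype_card,
    nsmul_eq_mul, h2] at h5
  simp at h5

end Cfsg.Agent.S2531
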