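import Cfsg.Statements.S2532
import Cfsg.Agent.Known.SymMisc

set_option autoImplicit false
open Cfsg

namespace Cfsg.Agent.S2532

open Cfsg.Lib.Known MulAction

/-- There is a function `f` of two natural-number arguments such that, whenever `m ≥ f(n, r)`, every subgroup of order `n` of the alternating group of degree `m` centralizes some subgroup of that alternating group isomorphic to the alternating group of degree `r`. -/
theorem result :
    ∃ f : ℕ → ℕ → ℕ, ∀ (m r : ℕ) (H : Subgroup ↥(alternatingGroup (Fin m))), f (Nat.card H) r ≤ m →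
      ∃ K : Subgroup ↥(alternatingGroup (Fin m)), Nonempty (↥K ≃* ↥(alternatingGroup (Fin r))) ∧
        K ≤ Subgroup.centralizer (H : Set ↥(alternatingGroup (Fin m))) := by
  classical
  refine ⟨fun n r => 2 ^ n * r * n, fun m r H hm => ?_⟩
  have := Fintype.ofFinite (orbitRel.Quotient H (Fin m))
  have := Fintype.ofFinite (Subgroup H)
  have h1 : m ≤ Fintype.card (orbitRel.Quotient H (Fin m)) * Nat.card H := by
    have e1 := Multiset.sum_le_card_nsmul (orbSizes H (Fin m)) (Nat.card H) (fun a ha => by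
      obtain ⟨x, rfl⟩ := mem_orbSizes.1 ha
      rw [← index_stabilizer]
      exact Nat.le_of_dvd Nat.card_pos (Subgroup.index_dvd_card _))
    rwa [sum_orbSizes, Nat.card_fin, orbSizes_eq, Multiset.card_map] at e1
  have h2 : Fintype.card (Subgroup H) ≤ 2 ^ Nat.card H := by
    have := Fintype.ofFinite H
    rw [Nat.card_eq_fintype_card, ← Fintype.card_set]
    exact Fintype.card_le_of_injective _ SetLike.coe_injective
  obtain ⟨S, hS⟩ := Fintype.exists_le_card_fiber_of_mul_le_card
    (fun O : orbitRel.Quotient H (Fin m) => stabilizer H O.out) (n := r)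
    ((Nat.mul_le_mul_right _ h2).trans (Nat.le_of_mul_le_mul_right (hm.trans h1) Nat.card_pos))
  obtain ⟨e, he⟩ := Function.Embedding.exists_of_card_le_finset (α := Fin r) (by simpa using hS)
  have he' : ∀ i, stabilizer H (e i).out = S := fun i =>
    (Finset.mem_filter.1 (he ⟨i, rfl⟩)).2
  have key : ∀ i (h : H), ((h : H ⧸ S).out) • (e i).out = h • (e i).out := fun i h => by
    rw [eq_comm, ← inv_smul_eq_iff, smul_smul, ← mem_stabilizer_iff, he', ← QuotientGroup.eq]
    simp
  let ι : Fin r × (H ⧸ S) ↪ Fin m := ⟨fun x => x.2.out • (e x.1).out, by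
    rintro ⟨i, c⟩ ⟨j, d⟩ h
    simp only at h
    obtain rfl : i = j := e.injective (Quotient.out_equiv_out.1 (show (e i).out ∈ orbit H (e j).out
      from ⟨c.out⁻¹ * d.out, by simp only [mul_smul, ← h, inv_smul_smul]⟩))
    rw [eq_comm, ← inv_smul_eq_iff, smul_smul, ← mem_stabilizer_iff, he', ← QuotientGroup.eq] at h
    simpa using h⟩
  have hι : ∀ (h : H) i c, h • ι (i, c) = ι (i, h • c) := fun h i c => by
    change h • c.out • (e i).out = (h • c).out • (e i).out
    conv_rhs => rw [← c.out_eq, MulAction.Quotient.smul_mk, key, smul_eq_mul, mul_smul]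
  let ψ : Equiv.Perm (Fin r) →* Equiv.Perm (Fin r × (H ⧸ S)) :=
    MonoidHom.mk' (fun σ => σ.prodCongr (Equiv.refl _)) (fun a b => by ext <;> rfl)
  let φ : alternatingGroup (Fin r) →* Equiv.Perm (Fin m) :=
    ((Equiv.Perm.viaEmbeddingHom ι).comp ψ).comp (alternatingGroup (Fin r)).subtype
  have hφ : Function.Injective φ := by
    refine ((Equiv.Perm.viaEmbeddingHom_injective ι).comp fun a b h => ?_).comp
      Subtype.val_injective
    ext i
    exact congrArg (fun f : Equiv.Perm (Fin r × (H ⧸ S)) => ((f (i, ((1 : H) : H ⧸ S))).1 : ℕ)) h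
  let φ' : alternatingGroup (Fin r) →* alternatingGroup (Fin m) :=
    φ.codRestrict _ fun g => Equiv.Perm.mem_alternatingGroup.2 (sign_eq_one_of_hom_alt φ g)
  refine ⟨φ'.range, ⟨(φ'.ofInjective fun a b h => hφ (congrArg Subtype.val h)).symm⟩, ?_⟩
  rintro _ ⟨σ, rfl⟩ h hh
  refine Subtype.ext (Equiv.ext fun x => ?_)
  change (⟨h, hh⟩ : H) • (ψ σ).viaEmbedding ι x = (ψ σ).viaEmbedding ι ((⟨h, hh⟩ : H) • x)
  by_cases hx : x ∈ Set.range ι
  · obtain ⟨⟨i, c⟩, rfl⟩ := hx
    rw [hι, Equiv.Perm.viaEmbedding_apply, Equiv.Perm.viaEmbedding_apply]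
    exact hι _ _ _
  · rw [Equiv.Perm.viaEmbedding_apply_of_notMem _ _ _ hx, Equiv.Perm.viaEmbedding_apply_of_notMem]
    rintro ⟨⟨i, c⟩, e⟩
    exact hx ⟨(i, (⟨h, hh⟩ : H)⁻¹ • c), by rw [← hι, e, inv_smul_smul]⟩

end Cfsg.Agent.S2532
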