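import Cfsg.Statements.S2533
-- import your own Cfsg.Agent.* helpers here

set_option autoImplicit false
open Cfsg

namespace Cfsg.Agent.S2533

open Matrix

/-- Transfer of a linear representation with determinant one to `PSL (Fin n)`. -/
theorem transfer {F H ι : Type} [Field F] [Group H] [Fintype ι] [DecidableEq ι] {n : ℕ}
    (e : ι ≃ Fin n) (ρ : H →* Matrix ι ι F) (hdet : ∀ h, (ρ h).det = 1)
    (hinj : ∀ h (c : F), ρ h = scalar ι c → h = 1)
    (hcent : ∀ g : Matrix ι ι F, IsUnit g.det → (∀ h, ∃ c : F, g * ρ h = c • (ρ h * g)) →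
      ∃ c : F, g = scalar ι c) :
    ∃ φ : H →* Matrix.ProjectiveSpecialLinearGroup (Fin n) F, Function.Injective φ ∧
      Subgroup.centralizer (φ.range : Set (Matrix.ProjectiveSpecialLinearGroup (Fin n) F)) = ⊥ := by
  let R := reindexAlgEquiv F F e
  have hsc : ∀ c : F, R (scalar ι c) = scalar (Fin n) c := fun c => R.commutes c
  have hsc' : ∀ c : F, R.symm (scalar (Fin n) c) = scalar ι c := fun c => R.symm.commutes c
  let ψ : H →* SpecialLinearGroup (Fin n) F :=
    { toFun := fun h => ⟨R (ρ h), by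
        show (reindex e e (ρ h)).det = 1
        rw [det_reindex_self, hdet]⟩
      map_one' := Subtype.ext (by simp)
      map_mul' := fun a b => Subtype.ext (by
        show R (ρ (a * b)) = R (ρ a) * R (ρ b)
        rw [map_mul, map_mul]) }
  refine ⟨(QuotientGroup.mk' _).comp ψ, ?_, ?_⟩
  · rw [injective_iff_map_eq_one]
    intro h hh
    have h1 : ψ h ∈ Subgroup.center _ := (QuotientGroup.eq_one_iff _).1 hh
    obtain ⟨c, -, hc⟩ := Matrix.SpecialLinearGroup.mem_center_iff.1 h1
    refine hinj h c ?_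
    have : R (ρ h) = scalar (Fin n) c := hc.symm
    rw [← hsc' c, ← this, AlgEquiv.symm_apply_apply]
  · rw [eq_bot_iff]
    intro x hx
    obtain ⟨g, rfl⟩ := QuotientGroup.mk_surjective x
    rw [Subgroup.mem_bot, QuotientGroup.eq_one_iff]
    have hg : IsUnit (R.symm g.1).det := by
      show IsUnit (reindex e.symm e.symm g.1).det
      rw [det_reindex_self, g.2]; exact isUnit_one
    obtain ⟨c, hc⟩ := hcent (R.symm g.1) hg (fun h => by
      have h1 := (Subgroup.mem_centralizer_iff.1 hx) _ ⟨h, rfl⟩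
      have h2 : ((ψ h * g : SpecialLinearGroup (Fin n) F) : ProjectiveSpecialLinearGroup (Fin n) F)
          = (g * ψ h : SpecialLinearGroup (Fin n) F) := h1
      rw [QuotientGroup.eq] at h2
      obtain ⟨c, -, hc⟩ := Matrix.SpecialLinearGroup.mem_center_iff.1 h2
      refine ⟨c, R.injective ?_⟩
      have h3 : (g * ψ h).1 = (ψ h * g).1 * scalar (Fin n) c := by
        rw [hc, ← Matrix.SpecialLinearGroup.coe_mul, mul_inv_cancel_left]
      rw [map_mul, map_smul, map_mul, AlgEquiv.apply_symm_apply]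
      have h4 : (g * ψ h).1 = g.1 * R (ρ h) := rfl
      have h5 : (ψ h * g).1 = R (ρ h) * g.1 := rfl
      rw [← h4, h3, h5, scalar_apply, ← smul_one_eq_diagonal, mul_smul_comm, mul_one])
    have hg' : g.1 = scalar (Fin n) c := by rw [← hsc c, ← hc, AlgEquiv.apply_symm_apply]
    rw [Subgroup.mem_center_iff]
    intro y
    apply Subtype.ext
    show y.1 * g.1 = g.1 * y.1
    rw [hg']
    exact ((scalar_commute c (fun r => mul_comm c r) y.1).eq).symm

/-- The generalised dihedral group of `F³`. -/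
def GD (F : Type) : Type := (Fin 3 → F) × ℤˣ

instance gdGroup (F : Type) [Field F] : Group (GD F) :=
  @Group.ofLeftAxioms (GD F) ⟨fun x y => (x.1 + ((x.2 : ℤ) : F) • y.1, x.2 * y.2)⟩
    ⟨fun x => (-(((x.2 : ℤ) : F) • x.1), x.2)⟩ ⟨(0, 1)⟩
    (fun x y z => Prod.ext (by
      show x.1 + ((x.2 : ℤ) : F) • y.1 + (((x.2 * y.2 : ℤˣ) : ℤ) : F) • z.1 =
        x.1 + ((x.2 : ℤ) : F) • (y.1 + ((y.2 : ℤ) : F) • z.1)
      rw [smul_add, smul_smul, add_assoc]; push_cast; rfl) (mul_assoc x.2 y.2 z.2))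
    (fun x => Prod.ext (by
      show 0 + (((1 : ℤˣ) : ℤ) : F) • x.1 = x.1
      simp) (one_mul x.2))
    (fun x => Prod.ext (by
      show -(((x.2 : ℤ) : F) • x.1) + ((x.2 : ℤ) : F) • x.1 = 0
      simp) (Int.units_mul_self x.2))

theorem gdGroup_eq_1' : type_of% @gdGroup.eq_1 := @gdGroup.eq_1

/-- The three maps `F^m → F^(m+1)`. -/
def nMat (F : Type) [Field F] (m : ℕ) (a : Fin 3 → F) : Matrix (Fin (m + 1)) (Fin m) F :=
  fun j i => (if (j : ℕ) = i then a 0 else 0) + (if (j : ℕ) = i + 1 then a 1 else 0) +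
    (if (j : ℕ) = m ∧ (i : ℕ) = 0 then a 2 else 0)

theorem nMat_eq_1' : type_of% @nMat.eq_1 := @nMat.eq_1

theorem nMat_add_smul {F : Type} [Field F] (m : ℕ) (a b : Fin 3 → F) (c : F) :
    nMat F m (a + c • b) = nMat F m a + c • nMat F m b := by
  ext j i
  simp only [nMat, Pi.add_apply, Pi.smul_apply, smul_eq_mul, Matrix.add_apply, Matrix.smul_apply]
  split_ifs <;> ring

theorem nMat_zero {F : Type} [Field F] (m : ℕ) : nMat F m 0 = 0 := by
  ext j i; simp [nMat]

/-- The representation. -/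
def rho (F : Type) [Field F] (m : ℕ) :
    GD F →* Matrix (Fin m ⊕ Fin (m + 1)) (Fin m ⊕ Fin (m + 1)) F where
  toFun x := fromBlocks 1 0 (nMat F m x.1) (((x.2 : ℤ) : F) • 1)
  map_one' := by
    show fromBlocks 1 0 (nMat F m 0) ((((1 : ℤˣ) : ℤ) : F) • 1) = 1
    rw [nMat_zero]; simp
  map_mul' x y := by
    show fromBlocks 1 0 (nMat F m (x.1 + ((x.2 : ℤ) : F) • y.1)) ((((x.2 * y.2 : ℤˣ) : ℤ) : F) • 1) = _
    rw [fromBlocks_multiply, nMat_add_smul]
    simp [smul_smul, mul_comm]

theorem rho_eq_1' : type_of% @rho.eq_1 := @rho.eq_1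

theorem rho_mk {F : Type} [Field F] (m : ℕ) (a : Fin 3 → F) :
    rho F m (a, -1) = fromBlocks 1 0 (nMat F m a) ((((-1 : ℤˣ) : ℤ) : F) • 1) := rfl

theorem rho_apply {F : Type} [Field F] (m : ℕ) (x : GD F) :
    rho F m x = fromBlocks 1 0 (nMat F m x.1) (((x.2 : ℤ) : F) • 1) := rfl

theorem toeplitz {F : Type} [Field F] {m : ℕ} (X : Matrix (Fin m) (Fin m) F)
    (Y : Matrix (Fin (m + 1)) (Fin (m + 1)) F)
    (hA : Y * nMat F m ![1, 0, 0] = nMat F m ![1, 0, 0] * X)
    (hB : Y * nMat F m ![0, 1, 0] = nMat F m ![0, 1, 0] * X) :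
    Y = Y 0 0 • (1 : Matrix _ _ F) ∧ X = Y 0 0 • (1 : Matrix _ _ F) := by
  have eA : ∀ (j : Fin (m + 1)) (i : Fin m), nMat F m ![1, 0, 0] j i =
      if j = i.castSucc then 1 else 0 := by
    intro j i; simp [nMat, Fin.ext_iff]
  have eB : ∀ (j : Fin (m + 1)) (i : Fin m), nMat F m ![0, 1, 0] j i =
      if j = i.succ then 1 else 0 := by
    intro j i; simp [nMat, Fin.ext_iff]
  have a1 : ∀ j i : Fin m, Y j.castSucc i.castSucc = X j i := by
    intro j i
    have := congrFun (congrFun hA j.castSucc) i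
    simpa [mul_apply, eA] using this
  have a2 : ∀ i : Fin m, Y (Fin.last m) i.castSucc = 0 := by
    intro i
    have := congrFun (congrFun hA (Fin.last m)) i
    simpa [mul_apply, eA, (Fin.castSucc_lt_last _).ne'] using this
  have b1 : ∀ j i : Fin m, Y j.succ i.succ = X j i := by
    intro j i
    have := congrFun (congrFun hB j.succ) i
    simpa [mul_apply, eB] using this
  have b2 : ∀ i : Fin m, Y 0 i.succ = 0 := by
    intro i
    have := congrFun (congrFun hB 0) i
    simpa [mul_apply, eB, (Fin.succ_ne_zero _).symm] using this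
  have step : ∀ (j i : ℕ) (hj : j + 1 < m + 1) (hi : i + 1 < m + 1),
      Y ⟨j + 1, hj⟩ ⟨i + 1, hi⟩ = Y ⟨j, by omega⟩ ⟨i, by omega⟩ := fun j i hj hi =>
    (b1 ⟨j, by omega⟩ ⟨i, by omega⟩).trans (a1 ⟨j, by omega⟩ ⟨i, by omega⟩).symm
  have shift : ∀ (k j i : ℕ) (hj : j + k < m + 1) (hi : i + k < m + 1),
      Y ⟨j + k, hj⟩ ⟨i + k, hi⟩ = Y ⟨j, by omega⟩ ⟨i, by omega⟩ := by
    intro k
    induction k with
    | zero => intro j i _ _; rfl
    | succ k ih => intro j i hj hi; exact (step (j + k) (i + k) hj hi).trans (ih j i _ _)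
  have hY : Y = Y 0 0 • (1 : Matrix _ _ F) := by
    ext ⟨j, hj⟩ ⟨i, hi⟩
    rcases lt_trichotomy j i with h | h | h
    · obtain ⟨d, rfl⟩ : ∃ d, i = (d + 1) + j := ⟨i - j - 1, by omega⟩
      have h1 := shift j 0 (d + 1) (by omega) hi
      have h2 := b2 ⟨d, by omega⟩
      rw [Matrix.smul_apply, one_apply_ne (by simp [Fin.ext_iff]), smul_zero]
      simp only [Nat.zero_add] at h1
      exact h1.trans h2
    · subst h
      have h1 := shift j 0 0 (by omega) (by omega)
      simp only [Nat.zero_add] at h1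
      rw [Matrix.smul_apply, one_apply_eq, smul_eq_mul, mul_one]
      exact h1
    · have h1 := shift (m - j) j i (by omega) (by omega)
      have h2 := a2 ⟨i + (m - j), by omega⟩
      rw [Matrix.smul_apply, one_apply_ne (by simp [Fin.ext_iff]; omega), smul_zero, ← h1, ← h2]
      congr 1
      exact Fin.ext (by simp; omega)
  refine ⟨hY, ?_⟩
  ext j i
  rw [← a1, hY]
  simp [one_apply]

theorem rho_cent {F : Type} [Field F] (h2 : (2 : F) ≠ 0) (m : ℕ)
    (g : Matrix (Fin m ⊕ Fin (m + 1)) (Fin m ⊕ Fin (m + 1)) F) (hg : IsUnit g.det)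
    (h : ∀ x, ∃ c : F, g * rho F m x = c • (rho F m x * g)) : ∃ c : F, g = scalar _ c := by
  have comm : ∀ a : Fin 3 → F, g * rho F m (a, -1) = rho F m (a, -1) * g := by
    intro a
    obtain ⟨c, hc⟩ := h (a, -1)
    have htr : trace (rho F m (a, -1)) = -1 := by
      rw [rho_mk]
      simp [trace, Fintype.sum_sum_type]
    have h1 : rho F m (a, -1) = c • (g⁻¹ * rho F m (a, -1) * g) := by
      rw [mul_assoc, ← mul_smul_comm, ← hc, ← mul_assoc, nonsing_inv_mul _ hg, one_mul]
    have h3 := congrArg trace h1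
    rw [trace_smul, trace_mul_cycle, mul_nonsing_inv _ hg, one_mul, htr] at h3
    have : c = 1 := by simpa using h3.symm
    rw [hc, this, one_smul]
  rw [← fromBlocks_toBlocks g] at comm ⊢
  generalize g.toBlocks₁₁ = X at comm ⊢
  generalize g.toBlocks₁₂ = P at comm ⊢
  generalize g.toBlocks₂₁ = Q at comm ⊢
  generalize g.toBlocks₂₂ = Y at comm ⊢
  have key : ∀ a, X + P * nMat F m a = X ∧ -P = P ∧ Q + Y * nMat F m a = nMat F m a * X - Q := by
    intro a
    have := comm a
    rw [rho_mk, fromBlocks_multiply, fromBlocks_multiply, fromBlocks_inj] at this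
    obtain ⟨e1, e2, e3, -⟩ := this
    refine ⟨by simpa using e1, by simpa using e2, by simpa [sub_eq_add_neg] using e3⟩
  have hP : P = 0 := by
    have : (2 : F) • P = 0 := by rw [two_smul]; nth_rewrite 1 [← (key 0).2.1]; simp
    exact (smul_eq_zero.1 this).resolve_left h2
  have hQ : Q = 0 := by
    have h0 := (key 0).2.2
    rw [nMat_zero] at h0
    have : (2 : F) • Q = 0 := by
      rw [two_smul]; simp at h0; nth_rewrite 1 [h0]; simp
    exact (smul_eq_zero.1 this).resolve_left h2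
  subst hP hQ
  obtain ⟨hY, hX⟩ := toeplitz X Y (by simpa using (key _).2.2) (by simpa using (key _).2.2)
  refine ⟨Y 0 0, ?_⟩
  rw [scalar_apply, ← smul_one_eq_diagonal, ← fromBlocks_one, fromBlocks_smul, ← hX, ← hY]
  simp

theorem rho_inj {F : Type} [Field F] (h2 : (2 : F) ≠ 0) {m : ℕ} (hm : 2 ≤ m) (x : GD F) (c : F)
    (h : rho F m x = scalar _ c) : x = 1 := by
  rw [rho_apply, scalar_apply, ← smul_one_eq_diagonal, ← fromBlocks_one, fromBlocks_smul,
    fromBlocks_inj] at h
  obtain ⟨e1, -, e3, e4⟩ := h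
  have hc : c = 1 := by simpa using (congrFun (congrFun e1 ⟨0, by omega⟩) ⟨0, by omega⟩).symm
  subst hc
  have hε : ((x.2 : ℤ) : F) = 1 := by simpa using congrFun (congrFun e4 0) 0
  have n0 := congrFun (congrFun e3 0) ⟨0, by omega⟩
  have n1 := congrFun (congrFun e3 ⟨1, by omega⟩) ⟨0, by omega⟩
  have n2 := congrFun (congrFun e3 (Fin.last m)) ⟨0, by omega⟩
  have m0 : m ≠ 0 := by omega
  have m1 : m ≠ 1 := by omega
  simp [nMat, m0, m0.symm, m1, m1.symm] at n0 n1 n2
  refine Prod.ext ?_ ?_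
  · funext i; fin_cases i
    · exact n0
    · exact n1
    · exact n2
  · rcases Int.units_eq_one_or x.2 with h | h
    · exact h
    · exfalso; rw [h] at hε; apply h2
      have : (-1 : F) = 1 := by simpa using hε
      linear_combination -this

/-- For every odd prime `p` there is a finite group `H` of order `2p³` which, for infinitely many `n`, embeds in the projective special linear group `PSL(n, p)` as a subgroup with trivial centralizer. -/
theorem result
    (p : ℕ) [Fact p.Prime] (hp : p ≠ 2) :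
    ∃ (H : Type) (_ : Group H) (_ : Finite H), Nat.card H = 2 * p ^ 3 ∧
      ∀ N : ℕ, ∃ n, N ≤ n ∧ ∃ φ : H →* Matrix.ProjectiveSpecialLinearGroup (Fin n) (ZMod p),
        Function.Injective φ ∧ Subgroup.centralizer (φ.range : Set (Matrix.ProjectiveSpecialLinearGroup (Fin n) (ZMod p))) = ⊥ := by
  have h2 : (2 : ZMod p) ≠ 0 := by
    intro h
    have : ((2 : ℕ) : ZMod p) = 0 := by exact_mod_cast h
    rw [ZMod.natCast_eq_zero_iff] at this
    exact hp ((Nat.prime_dvd_prime_iff_eq Fact.out Nat.prime_two).1 this)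
  refine ⟨GD (ZMod p), inferInstance, inferInstanceAs (Finite ((Fin 3 → ZMod p) × ℤˣ)), ?_, ?_⟩
  · show Nat.card ((Fin 3 → ZMod p) × ℤˣ) = _
    rw [Nat.card_prod, Nat.card_fun, Nat.card_zmod, Nat.card_eq_fintype_card (α := ℤˣ),
      Fintype.card_units_int]
    simp [mul_comm]
  · intro N
    refine ⟨(2 * N + 3) + (2 * N + 3 + 1), by omega, ?_⟩
    refine transfer finSumFinEquiv (rho (ZMod p) (2 * N + 3)) ?_ (rho_inj h2 (by omega))
      (rho_cent h2 _)
    intro x
    rw [rho_apply, det_fromBlocks_zero₁₂, det_one, det_smul, det_one, Fintype.card_fin]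
    rcases Int.units_eq_one_or x.2 with h | h <;> rw [h]
    · simp
    · have : Even (2 * N + 3 + 1) := ⟨N + 2, by ring⟩
      simp [this.neg_one_pow]

end Cfsg.Agent.S2533
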