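import Cfsg.Statements.S2534
import Cfsg.Agent.Char.HallSymB

set_option autoImplicit false
open Cfsg

namespace Cfsg.Agent.S2534

open Cfsg.Lib.Char

/-- For `n ≥ 5` and a set of primes `π`, the alternating group of degree `n` satisfies the full Sylow analogue for `π` (its maximal `π`-subgroups are pairwise conjugate; for a finite group this says Hall `π`-subgroups exist, are all conjugate, and contain every `π`-subgroup up to conjugacy) if and only if either at most one prime of `π` divides its order or every prime dividing its order lies in `π`. -/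
theorem result (n : ℕ) (hn : 5 ≤ n) (π : Set ℕ) :
    Cfsg.IsDPiGroup π ↥(alternatingGroup (Fin n)) ↔
      ((∀ r s : ℕ, r.Prime → s.Prime → r ∈ π → s ∈ π → r ∣ Nat.card ↥(alternatingGroup (Fin n)) → s ∣ Nat.card ↥(alternatingGroup (Fin n)) → r = s) ∨
        ∀ r : ℕ, r.Prime → r ∣ Nat.card ↥(alternatingGroup (Fin n)) → r ∈ π) := by
  have e : Fintype.card (Fin n) = n := Fintype.card_fin n
  have key : ∀ r : ℕ, r.Prime →
      (r ∣ Nat.card (alternatingGroup (Fin n)) ↔ r ≤ Fintype.card (Fin n)) := fun r hr =>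
    ⟨fun h => hr.dvd_factorial.1 (h.trans HallSym.card_alt_dvd),
      HallSym.prime_dvd_card_alt hr (by omega)⟩
  rw [Lib.Solv.isDPiGroup_iff_hallD]
  constructor
  · intro h
    by_contra! hc
    obtain ⟨⟨r, s, hr, hs, h1, h2, h3, h4, h5⟩, t, ht, h6, h7⟩ := hc
    exact HallSym.not_hallD ⟨r, s, hr, hs, h5, h1, h2, (key r hr).1 h3, (key s hs).1 h4⟩
      ⟨t, ht, (key t ht).1 h6, h7⟩ h
  · intro h
    refine HallSym.hallD_of_not HallSym.card_alt_dvd ?_
    rintro ⟨⟨r, s, hr, hs, h1, h2, h3, h4, h5⟩, t, ht, h6, h7⟩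
    rcases h with h | h
    · exact h1 (h r s hr hs h2 h3 ((key r hr).2 h4) ((key s hs).2 h5))
    · exact h7 (h t ht ((key t ht).2 h6))

end Cfsg.Agent.S2534
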