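import Cfsg.Statements.S2535
import Cfsg.Agent.Char.HallSymB

set_option autoImplicit false
open Cfsg

namespace Cfsg.Agent.S2535

open Cfsg.Lib.Char

/-- For every `n` and every set of primes `π`, the following are equivalent for the symmetric group `S` of degree `n` and its alternating subgroup `A`: `S` has a Hall `π`-subgroup; `S` has a Hall `π`-subgroup and all of them are conjugate; `A` has a Hall `π`-subgroup; `A` has a Hall `π`-subgroup and all of them are conjugate. -/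
theorem result (n : ℕ) (π : Set ℕ) :
    (Cfsg.IsEPiGroup π (Equiv.Perm (Fin n)) ↔ Cfsg.IsCPiGroup π (Equiv.Perm (Fin n))) ∧
    (Cfsg.IsEPiGroup π (Equiv.Perm (Fin n)) ↔ Cfsg.IsEPiGroup π ↥(alternatingGroup (Fin n))) ∧
    (Cfsg.IsEPiGroup π ↥(alternatingGroup (Fin n)) ↔ Cfsg.IsCPiGroup π ↥(alternatingGroup (Fin n))) := by
  refine ⟨⟨HallSym.isCPi_perm, fun h => h.1⟩, ⟨fun ⟨H, hH⟩ => ⟨_, HallSym.hall_subgroupOf hH⟩,
    fun ⟨H, hH⟩ => ?_⟩, HallSym.isCPi_alt, fun h => h.1⟩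
  obtain ⟨M, hM, -⟩ := HallSym.exists_hall_of_alt hH
  exact ⟨M, hM⟩

end Cfsg.Agent.S2535
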