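import Cfsg.Statements.S2537
import Cfsg.Agent.Class.PGL2Borel
import Cfsg.Agent.S0811
import Cfsg.Agent.S0812
import Cfsg.Agent.S0802
import Cfsg.Agent.S0803
import Cfsg.Agent.Solv.Hall

set_option autoImplicit false
open Cfsg

namespace Cfsg.Agent.S2537

open Cfsg.Lib.Class Cfsg.Lib.Solv

theorem part (n : ℕ) (hn : n ≠ 0) : ∃ r, n = 2 ^ n.factorization 2 * 3 ^ n.factorization 3 * r ∧
    ¬ 2 ∣ r ∧ ¬ 3 ∣ r := by
  obtain ⟨r, hr⟩ : 2 ^ n.factorization 2 * 3 ^ n.factorization 3 ∣ n :=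
    Nat.Coprime.mul_dvd_of_dvd_of_dvd (Nat.Coprime.pow _ _ (by norm_num)) (Nat.ordProj_dvd _ _)
      (Nat.ordProj_dvd _ _)
  refine ⟨r, hr, fun ⟨c, hc⟩ => Nat.pow_succ_factorization_not_dvd hn Nat.prime_two
    ⟨3 ^ n.factorization 3 * c, ?_⟩, fun ⟨c, hc⟩ =>
      Nat.pow_succ_factorization_not_dvd hn Nat.prime_three ⟨2 ^ n.factorization 2 * c, ?_⟩⟩
  · conv_lhs => rw [hr, hc]
    ring
  · conv_lhs => rw [hr, hc]
    ring

theorem solv_dih (k : ℕ) : Group.IsSolvable (DihedralGroup k) := by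
  let f : Multiplicative (ZMod k) →* DihedralGroup k :=
    { toFun := fun a => .r a.toAdd, map_one' := rfl, map_mul' := fun _ _ => rfl }
  let g : DihedralGroup k →* ℤˣ :=
    { toFun := fun x => match x with | .r _ => 1 | .sr _ => -1
      map_one' := rfl
      map_mul' := by rintro (a | a) (b | b) <;> simp }
  refine Group.isSolvable_of_ker_le_range f g ?_
  rintro (a | a) h
  · exact ⟨.ofAdd a, rfl⟩
  · exact absurd h (by decide : ¬ (-1 : ℤˣ) = 1)

theorem pi_iff {n : ℕ} (h2 : ¬ 2 ∣ n) (h3 : ¬ 3 ∣ n) (p : ℕ) (h : p ∈ ({2, 3} : Set ℕ)) : ¬ p ∣ n := by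
  rcases h with rfl | rfl <;> assumption

theorem pi_of_dvd {n a b : ℕ} (h : n ∣ 2 ^ a * 3 ^ b) (p : ℕ) (hp : p.Prime) (hd : p ∣ n) :
    p ∈ ({2, 3} : Set ℕ) := by
  rcases (Nat.Prime.dvd_mul hp).1 (hd.trans h) with h | h
  · exact .inl ((Nat.prime_dvd_prime_iff_eq hp Nat.prime_two).1 (hp.dvd_of_dvd_pow h))
  · exact .inr ((Nat.prime_dvd_prime_iff_eq hp Nat.prime_three).1 (hp.dvd_of_dvd_pow h))

/-- Let `F` be a finite field with `q` elements of characteristic `p ≥ 5`, and `ε = 1` if `q ≡ 1 (mod 4)`, `ε = -1` otherwise. Then `PSL(2, F)` has a Hall `{2, 3}`-subgroup if and only if `3` divides `q − ε`, or the `{2,3}`-part of `q² − 1` is 24, or the `{2,3}`-part of `q² − 1` is 48 (the `{2,3}`-part of `m` being the largest divisor of `m` with no prime factor other than 2 and 3). -/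
theorem result {F : Type*} [Field F] [Fintype F] {p : ℕ} [Fact p.Prime] [CharP F p]
    (hp : 5 ≤ p) (q : ℕ) (hq : Fintype.card F = q) :
    (∃ H : Subgroup (Matrix.ProjectiveSpecialLinearGroup (Fin 2) F), Cfsg.IsPiHall ({2, 3} : Set ℕ) H) ↔
      (3 ∣ q - 1 ∧ q % 4 = 1) ∨ (3 ∣ q + 1 ∧ q % 4 = 3) ∨
        2 ^ (q ^ 2 - 1).factorization 2 * 3 ^ (q ^ 2 - 1).factorization 3 = 24 ∨
        2 ^ (q ^ 2 - 1).factorization 2 * 3 ^ (q ^ 2 - 1).factorization 3 = 48 := by
  have hpp : p.Prime := Fact.out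
  have hq' : Nat.card F = q := by rw [Nat.card_eq_fintype_card, hq]
  obtain ⟨n, -, hn⟩ := FiniteField.card F p
  have hc : ∀ r : ℕ, r.Prime → r < 5 → ¬ r ∣ q := fun r hr h5 hd => by
    have := (Nat.prime_dvd_prime_iff_eq hr hpp).1 (hr.dvd_of_dvd_pow (hn ▸ hq ▸ hd))
    omega
  have h2 := hc 2 Nat.prime_two (by norm_num)
  have h3 := hc 3 Nat.prime_three (by norm_num)
  have hq1 : 2 ≤ q := hq' ▸ two_le_card_field F
  have hg : Nat.gcd 2 (q - 1) = 2 := Nat.gcd_eq_left (by omega)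
  have hG := gcd_mul_card_PSL2 (F := F)
  rw [hq', hg] at hG
  have hsq : q ^ 2 - 1 = (q - 1) * (q + 1) := by
    obtain ⟨m, rfl⟩ : ∃ m, q = m + 1 := ⟨q - 1, by omega⟩
    apply Nat.sub_eq_of_eq_add; simp only [Nat.add_sub_cancel]; ring
  obtain ⟨r, hr, hr2, hr3⟩ := part (q ^ 2 - 1) (by rw [hsq]; exact Nat.mul_ne_zero (by omega) (by omega))
  generalize (q ^ 2 - 1).factorization 2 = a at hr ⊢
  generalize (q ^ 2 - 1).factorization 3 = b at hr ⊢
  have hG' : 2 * Nat.card (Matrix.ProjectiveSpecialLinearGroup (Fin 2) F) = 2 ^ a * 3 ^ b * (q * r) := by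
    rw [hG, mul_assoc, ← hsq, hr]; ring
  have hqr2 : ¬ 2 ∣ q * r := fun h => ((Nat.Prime.dvd_mul Nat.prime_two).1 h).elim h2 hr2
  have hqr3 : ¬ 3 ∣ q * r := fun h => ((Nat.Prime.dvd_mul Nat.prime_three).1 h).elim h3 hr3
  have hall : ∀ H : Subgroup (Matrix.ProjectiveSpecialLinearGroup (Fin 2) F),
      2 * Nat.card H = 2 ^ a * 3 ^ b → IsPiHall ({2, 3} : Set ℕ) H := fun H hH => by
    have h1 := H.card_mul_index
    have : H.index = q * r := by
      rw [← h1, ← mul_assoc, hH] at hG'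
      exact Nat.eq_of_mul_eq_mul_left (by positivity) hG'
    exact ⟨pi_of_dvd (Dvd.intro_left 2 hH), fun s _ hs => this ▸ pi_iff hqr2 hqr3 s hs⟩
  have h24 : 24 ∣ 2 ^ a * 3 ^ b := by
    refine Nat.Coprime.dvd_of_dvd_mul_right (n := r) ?_ ?_
    · exact Nat.Coprime.mul_left (m := 2 ^ 3) (Nat.Coprime.pow_left _ ((Nat.Prime.coprime_iff_not_dvd
        Nat.prime_two).2 hr2)) ((Nat.Prime.coprime_iff_not_dvd Nat.prime_three).2 hr3)
    · rw [← hr]
      have : q ^ 2 % 24 = 1 := by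
        have : q % 24 = 1 ∨ q % 24 = 5 ∨ q % 24 = 7 ∨ q % 24 = 11 ∨ q % 24 = 13 ∨ q % 24 = 17 ∨
          q % 24 = 19 ∨ q % 24 = 23 := by omega
        rcases this with h | h | h | h | h | h | h | h <;> simp [Nat.pow_mod, h]
      omega
  constructor
  · rintro ⟨H, hH⟩
    obtain ⟨m, hm⟩ : 2 ∣ 2 ^ a * 3 ^ b := (by norm_num : 2 ∣ 24).trans h24
    have hcard : 2 * Nat.card H = 2 ^ a * 3 ^ b := by
      obtain ⟨c, hc⟩ := dvd_card_of_isPiHall hH (m := m) (pi_of_dvd (Dvd.intro_left 2 hm.symm))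
        ⟨q * r, by rw [hm, mul_assoc] at hG'; omega⟩
      have h4 : c ∣ q * r := by
        have h5 := H.card_mul_index
        rw [← h5, hc, hm, mul_assoc 2 m, mul_assoc m] at hG'
        have h6 : 0 < m := by
          rcases m with _ | m
          · exact absurd hm (by positivity)
          · omega
        exact ⟨H.index, (Nat.eq_of_mul_eq_mul_left h6 (Nat.eq_of_mul_eq_mul_left two_pos hG')).symm⟩
      obtain rfl : c = 1 := by
        by_contra h5
        obtain ⟨s, hs, hd⟩ := Nat.exists_prime_and_dvd h5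
        exact pi_iff hqr2 hqr3 s (hH.1 s hs (hc ▸ hd.mul_left m)) (hd.trans h4)
      omega
    have h12 : 12 ∣ Nat.card H := by omega
    have e := mapPslιEquiv H
    have hp' : ¬ p ∣ Nat.card H := fun h => by
      rcases hH.1 p hpp h with h | h
      · omega
      · have : p = 3 := h
        omega
    rcases dickson_pgl' p (H.map pslι) with ⟨x, hx⟩ | ⟨x, y, hT, _, hH'⟩ | ⟨_, h⟩ | ⟨h, -⟩ |
      ⟨F₀, c, _, h⟩
    · have h1 := Subgroup.card_dvd_of_le hx
      rw [card_stabilizer_pgl2, card_map_pslι, hq'] at h1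
      have h4 : 12 ∣ q - 1 := Nat.Coprime.dvd_of_dvd_mul_left
        (show Nat.Coprime 12 q from Nat.Coprime.mul_left (m := 2 ^ 2) (Nat.Coprime.pow_left _
        ((Nat.Prime.coprime_iff_not_dvd Nat.prime_two).2 h2))
        ((Nat.Prime.coprime_iff_not_dvd Nat.prime_three).2 h3)) (h12.trans h1)
      omega
    · have h1 := Subgroup.card_dvd_of_le (inf_le_inf_right (fixPair x y) (map_pslι_le H))
      rw [hT.card_inf_fixPair, hq', hg] at h1
      have h4 : Nat.card H ∣ 2 * Nat.card (H.map pslι ⊓ fixPair x y : Subgroup _) := by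
        by_cases h5 : H.map pslι ≤ fixPair x y
        · rw [inf_of_le_left h5, card_map_pslι]; exact dvd_mul_left _ _
        · obtain ⟨e'⟩ := dihedral_of_le_stabPair hT.ne hH' h5
          rw [Nat.card_congr (e.trans e').toEquiv, DihedralGroup.nat_card]
      have h5 := (h12.trans h4).trans (Nat.mul_dvd_mul_left 2 h1)
      rcases hT.card_fixPair with h6 | h6 <;> rw [h6, hq'] at h5 <;> omega
    · rcases h with ⟨⟨e'⟩⟩ | ⟨⟨e'⟩⟩ | ⟨⟨e'⟩⟩ <;> have h1 := Nat.card_congr (e.trans e').toEquiv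
      · rw [nat_card_alternatingGroup] at h1
        simp only [Nat.card_eq_fintype_card (α := Fin 4), Fintype.card_fin, Nat.factorial] at h1
        omega
      · rw [Nat.card_perm] at h1
        simp only [Nat.card_eq_fintype_card (α := Fin 4), Fintype.card_fin, Nat.factorial] at h1
        omega
      · rw [nat_card_alternatingGroup] at h1
        simp only [Nat.card_eq_fintype_card (α := Fin 5), Fintype.card_fin, Nat.factorial] at h1
        have := hH.1 5 (by norm_num) (by omega)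
        simp at this
    · omega
    · exfalso
      have := Fintype.ofFinite F₀
      obtain ⟨k, -, hk⟩ := FiniteField.card F₀ p
      have h4 : p ∣ Nat.card F₀ := by
        rw [Nat.card_eq_fintype_card, hk]; exact dvd_pow_self _ k.ne_zero
      have h5 := card_map_pslι H
      apply hp'
      rcases h with h | h <;> rw [h, card_map_conj] at h5 <;> rw [← h5]
      · rw [card_pglSub]; exact (h4.mul_right _).mul_right _
      · have h6 : p ∣ Nat.gcd 2 (Nat.card F₀ - 1) * Nat.card (pslSub F₀) := by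
          rw [gcd_mul_card_pslSub]; exact (h4.mul_right _).mul_right _
        refine ((Nat.Prime.dvd_mul hpp).1 h6).resolve_left fun h7 => ?_
        have := Nat.le_of_dvd two_pos (h7.trans (Nat.gcd_dvd_left _ _))
        omega
  · have dih : ∀ (k m : ℕ) (D : Subgroup (Matrix.ProjectiveSpecialLinearGroup (Fin 2) F)),
        Nonempty (D ≃* DihedralGroup k) → q ^ 2 - 1 = 4 * k * m → ¬ 2 ∣ m → ¬ 3 ∣ m →
        ∃ H : Subgroup (Matrix.ProjectiveSpecialLinearGroup (Fin 2) F),
          IsPiHall ({2, 3} : Set ℕ) H := by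
      rintro k m D ⟨e⟩ hk hm2 hm3
      have := solv_dih k
      have := Group.isSolvable_of_isSolvable_injective (f := e.toMonoidHom) e.injective
      obtain ⟨H, hH⟩ := exists_isPiHallOf ({2, 3} : Set ℕ) D
      refine ⟨H, isPiHall_of_isPiHallOf hH fun s hs hd hs' => ?_⟩
      have h1 := D.card_mul_index
      rw [Nat.card_congr e.toEquiv, DihedralGroup.nat_card] at h1
      have h4 : D.index = q * m := by
        rw [mul_assoc, ← hsq, hk, ← h1] at hG
        have hk0 : 0 < k := by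
          rcases k with _ | k
          · rw [hsq] at hk
            exact absurd hk (by simp; omega)
          · omega
        apply Nat.eq_of_mul_eq_mul_left (by omega : 0 < 4 * k)
        linarith
      exact pi_iff (fun h => ((Nat.Prime.dvd_mul Nat.prime_two).1 h).elim h2 hm2)
        (fun h => ((Nat.Prime.dvd_mul Nat.prime_three).1 h).elim h3 hm3) s hs' (h4 ▸ hd)
    rintro (⟨h4, h5⟩ | ⟨h4, h5⟩ | h | h)
    · obtain ⟨D, -, hD⟩ := S0812.result hq (by simp; omega)
      obtain ⟨t, rfl⟩ : ∃ t, q = 12 * t + 1 := ⟨q / 12, by omega⟩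
      refine dih _ (6 * t + 1) D hD ?_ (by omega) (by omega)
      rw [hsq, hg, show (12 * t + 1 - 1) / 2 = 6 * t by omega, Nat.add_sub_cancel]; ring
    · obtain ⟨D, -, hD⟩ := S0811.result hq (by simp; omega)
      obtain ⟨t, rfl⟩ : ∃ t, q = 12 * t + 11 := ⟨q / 12, by omega⟩
      refine dih _ (6 * t + 5) D hD ?_ (by omega) (by omega)
      rw [hsq, hg, show (12 * t + 11 + 1) / 2 = 6 * t + 6 by omega,
        show 12 * t + 11 - 1 = 12 * t + 10 by omega]; ring
    · obtain ⟨H, ⟨e⟩⟩ := (S0802.result p n hn).2 (by omega)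
      refine ⟨H, hall H ?_⟩
      rw [h, Nat.card_congr e.toEquiv, nat_card_alternatingGroup]; simp [Nat.factorial]
    · obtain ⟨H, ⟨e⟩⟩ := (S0803.result hq).2 (by
        rw [h] at hr
        have : 1 ≤ q ^ 2 := Nat.one_le_pow _ _ (by omega)
        omega)
      refine ⟨H, hall H ?_⟩
      rw [h, Nat.card_congr e.toEquiv, Nat.card_perm]; simp [Nat.factorial]

end Cfsg.Agent.S2537
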