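import Cfsg.Statements.S2540
import Mathlib
import Cfsg.Agent.Class.PSLSimple

set_option autoImplicit false
open Cfsg

namespace Cfsg.Agent.S2540

open Cfsg.Lib.Class

open scoped commutatorElement

theorem abstract {S X : Type*} [Group S] [Group X] (hS : commutator S = ⊤)
    [IsSimpleGroup (S ⧸ Subgroup.center S)] (φ : S →* X) (hφ : φ.range.Normal) {G : Subgroup X}
    (hG : ∀ s, ∀ g ∈ G, φ s * g * (φ s)⁻¹ ∈ G) :
    (∀ g ∈ G, ∀ s, Commute (φ s) g) ∨ φ.range ≤ G := by
  have hN : (G.comap φ).Normal := ⟨fun n hn s => by simpa using hG s _ hn⟩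
  rcases (hN.map _ (QuotientGroup.mk'_surjective (Subgroup.center S))).eq_bot_or_eq_top with h | h
  · rw [Subgroup.map_eq_bot_iff, QuotientGroup.ker_mk'] at h
    refine .inl fun g hg s => ?_
    have key : ∀ a, ∃ z ∈ Subgroup.center S, g * φ a * g⁻¹ = φ (z * a) := fun a => by
      obtain ⟨b, hb⟩ := hφ.conj_mem _ ⟨a, rfl⟩ g
      refine ⟨b * a⁻¹, h ?_, by simp [hb]⟩
      simpa [hb, mul_assoc] using mul_mem hg (hG a _ (inv_mem hg))
    have : commutator S ≤ (Subgroup.centralizer {g}).comap φ := by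
      refine Subgroup.commutator_le.2 fun a _ b _ => ?_
      obtain ⟨z, hz, ha⟩ := key a
      obtain ⟨w, hw, hb⟩ := key b
      have e : ⁅z * a, w * b⁆ = ⁅a, b⁆ := by
        rw [Subgroup.mem_center_iff] at hz hw
        calc ⁅z * a, w * b⁆ = z * (a * w * b * a⁻¹) * z⁻¹ * (b⁻¹ * w⁻¹) := by
              simp only [commutatorElement_def]; group
          _ = w * ⁅a, b⁆ * w⁻¹ := by
              rw [← hz, mul_inv_cancel_right, hw a, commutatorElement_def]; group
          _ = ⁅a, b⁆ := by rw [← hw, mul_inv_cancel_right]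
      have e2 : g * φ ⁅a, b⁆ * g⁻¹ = φ ⁅a, b⁆ := by
        rw [map_commutatorElement, conjugate_commutatorElement, ha, hb, ← map_commutatorElement, e,
          map_commutatorElement]
      exact Subgroup.mem_centralizer_singleton_iff.2 (mul_inv_eq_iff_eq_mul.1 e2).symm
    exact Subgroup.mem_centralizer_singleton_iff.1 (this (hS.ge (Subgroup.mem_top s)))
  · have h1 := congrArg (Subgroup.comap (QuotientGroup.mk' (Subgroup.center S))) h
    rw [Subgroup.comap_map_eq, QuotientGroup.ker_mk', Subgroup.comap_top] at h1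
    have := hN.commutator_le_of_self_sup_commutative_eq_top h1 inferInstance
    exact .inr (by rintro _ ⟨s, rfl⟩; exact this (hS.ge (Subgroup.mem_top s)))

/-- Let F be a finite field and n ≥ 1, excluding the case n = 2 with #F ≤ 3. A subgroup of GL_n(F) that is normalized by every element of SL_n(F) either consists of scalar matrices or contains SL_n(F). -/
theorem result {F : Type*} [Field F] [Fintype F] (n : ℕ) (hn : 1 ≤ n) (hex : ¬ (n = 2 ∧ Fintype.card F ≤ 3)) (G : Subgroup (Matrix.GeneralLinearGroup (Fin n) F)) (hG : ∀ s : Matrix.SpecialLinearGroup (Fin n) F, ∀ g ∈ G, (Matrix.SpecialLinearGroup.toGL s) * g * (Matrix.SpecialLinearGroup.toGL s)⁻¹ ∈ G) : (∀ g ∈ G, ∃ c : F, (g : Matrix (Fin n) (Fin n) F) = c • (1 : Matrix (Fin n) (Fin n) F)) ∨ (Matrix.SpecialLinearGroup.toGL : Matrix.SpecialLinearGroup (Fin n) F →* _).range ≤ G := by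
  rcases hn.eq_or_lt with rfl | hn
  · exact .inl fun g _ => ⟨g.1 0 0, by ext i j; simp [Subsingleton.elim i 0, Subsingleton.elim j 0]⟩
  have h : commutator (Matrix.SpecialLinearGroup (Fin n) F) = ⊤ ∧
      IsSimpleGroup (Matrix.ProjectiveSpecialLinearGroup (Fin n) F) := by
    rcases (Nat.succ_le_of_lt hn).eq_or_lt with rfl | hn
    · have h4 : 4 ≤ Nat.card F := by rw [Nat.card_eq_fintype_card]; omega
      obtain ⟨a, ha, ha'⟩ : ∃ a : F, a ≠ 0 ∧ a ^ 2 ≠ 1 := by
        classical
        obtain ⟨a, ha⟩ : ∃ a : F, a ∉ ({0, 1, -1} : Finset F) := by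
          by_contra hc
          push Not at hc
          have := (Finset.card_le_card fun a (_ : a ∈ Finset.univ) => hc a).trans Finset.card_le_three
          rw [Finset.card_univ] at this
          omega
        simp only [Finset.mem_insert, Finset.mem_singleton, not_or] at ha
        exact ⟨a, ha.1, fun h => (sq_eq_one_iff.1 h).elim ha.2.1 ha.2.2⟩
      exact ⟨Matrix.SL2.commutator_eq_top ha ha', Matrix.ProjectiveSpecialLinearGroup.rank_two_simple h4⟩
    · exact ⟨SL_commutator_eq_top (by simpa), PSL_isSimpleGroup (by simpa)⟩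
  obtain ⟨h1, h2⟩ := h
  refine (abstract h1 _ ⟨?_⟩ hG).imp_left fun h g hg => ?_
  · rintro _ ⟨s, rfl⟩ g
    exact ⟨⟨(g * Matrix.SpecialLinearGroup.toGL s * g⁻¹ : GL _ F), by simp [g.det_ne_zero]⟩, Units.ext rfl⟩
  · obtain ⟨c, hc⟩ := Matrix.mem_range_scalar_of_commute_transvectionStruct (M := g.1) fun t =>
      congrArg Units.val (h g hg ⟨_, t.det⟩)
    exact ⟨c, by rw [← hc, Matrix.scalar_apply, Matrix.smul_one_eq_diagonal]⟩

end Cfsg.Agent.S2540
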