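import Cfsg.Statements.S2541


set_option autoImplicit false
open Cfsg

namespace Cfsg.Agent.S2541

open Matrix

theorem pow_sixty (σ : Equiv.Perm (Fin 6)) : σ ^ 60 = 1 := by
  rw [← orderOf_dvd_iff_pow_eq_one, ← Equiv.Perm.lcm_cycleType, Multiset.lcm_dvd]
  intro n hn
  have h1 := Equiv.Perm.two_le_of_mem_cycleType hn
  have h2 := (Equiv.Perm.le_card_support_of_mem_cycleType hn).trans (Finset.card_le_univ _)
  rw [Fintype.card_fin] at h2
  interval_cases n <;> norm_num


/-- Let F be a field with 9 elements. The symmetric group S_6 is not isomorphic to PGL_2(F) (although both have index-2 subgroups isomorphic to A_6). -/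
theorem result {F : Type*} [Field F] [Fintype F] (hF : Fintype.card F = 9) : ¬ Nonempty (Equiv.Perm (Fin 6) ≃* Matrix.ProjGenLinGroup (Fin 2) F) := by
  rintro ⟨e⟩
  obtain ⟨ζ, hζ⟩ := IsCyclic.exists_ofOrder_eq_natCard (α := Fˣ)
  rw [Nat.card_units, Nat.card_eq_fintype_card, hF] at hζ
  let g : GL (Fin 2) F := GeneralLinearGroup.mkOfDetNeZero (diagonal ![(ζ : F), 1]) (by simp)
  have h1 : ProjGenLinGroup.mk g ^ 60 = 1 := by
    rw [← e.apply_symm_apply (ProjGenLinGroup.mk g), ← map_pow, pow_sixty, map_one]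
  rw [← map_pow, ProjGenLinGroup.mk_eq_one, GeneralLinearGroup.center_eq_range_scalar] at h1
  obtain ⟨c, hc⟩ := h1
  have h2 : (scalar (Fin 2) (c : F)) = diagonal ![(ζ : F), 1] ^ 60 := congrArg Units.val hc
  rw [diagonal_pow] at h2
  have h3 := congrFun (congrFun h2 0) 0
  have h4 := congrFun (congrFun h2 1) 1
  simp at h3 h4
  have h5 : ζ ^ 60 = 1 := Units.ext (by simp [← h3, h4])
  rw [← orderOf_dvd_iff_pow_eq_one, hζ] at h5
  omega

end Cfsg.Agent.S2541
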