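import Cfsg.Statements.S2542
import Cfsg.Agent.Class.PSL2MaxList
import Cfsg.Agent.S0675
import Cfsg.Agent.Solv.Conj

set_option autoImplicit false
open Cfsg

namespace Cfsg.Agent.S2542

open Cfsg.Lib.Class Cfsg.Lib.Solv Matrix
open scoped MatrixGroups Pointwise

variable {F : Type*} [Field F] [Fintype F]

theorem card_psl (hF : Fintype.card F = 11) : Nat.card PSL(2, F) = 660 := by
  have := gcd_mul_card_PSL2 (F := F)
  rw [Nat.card_eq_fintype_card (α := F), hF] at this
  norm_num at this
  omega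

/-- Subgroups of `PSL₂` and of `PGL₂`. -/
noncomputable def eqv (H : Subgroup PSL(2, F)) :
    H ≃* H.map (ProjectiveSpecialLinearGroup.toPGL : PSL(2, F) →* PGL(2, F)) :=
  H.equivMapOfInjective _ ProjectiveSpecialLinearGroup.toPGL_injective

theorem exists_pre {H : Subgroup PGL(2, F)} (e : Nonempty (H ≃* alternatingGroup (Fin 5))) :
    ∃ H₀ : Subgroup PSL(2, F), H₀.map ProjectiveSpecialLinearGroup.toPGL = H ∧
      Nonempty (H₀ ≃* alternatingGroup (Fin 5)) := by
  have h : (H.comap ProjectiveSpecialLinearGroup.toPGL).map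
      (ProjectiveSpecialLinearGroup.toPGL : PSL(2, F) →* PGL(2, F)) = H :=
    Subgroup.map_comap_eq_self (range_psl_toPGL (F := F) ▸ le_psl2_of_A5 e)
  exact ⟨_, h, ⟨((eqv _).trans (MulEquiv.subgroupCongr h)).trans e.some⟩⟩

theorem exists_A5' (hF : Fintype.card F = 11) :
    ∃ H : Subgroup PGL(2, F), Nonempty (H ≃* alternatingGroup (Fin 5)) :=
  exists_A5 (by rw [Nat.card_eq_fintype_card, hF]; norm_num)


/-- Let F be a field with 11 elements. PSL_2(F) has a subgroup H of index 11 isomorphic to the alternating group A_5, and the action of PSL_2(F) on the cosets of H is 2-transitive (of degree 11). -/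
theorem result {F : Type*} [Field F] [Fintype F] (hF : Fintype.card F = 11) : ∃ H : Subgroup (Matrix.ProjectiveSpecialLinearGroup (Fin 2) F), H.index = 11 ∧ Nonempty (H ≃* alternatingGroup (Fin 5)) ∧ MulAction.IsMultiplyPretransitive (Matrix.ProjectiveSpecialLinearGroup (Fin 2) F) ((Matrix.ProjectiveSpecialLinearGroup (Fin 2) F) ⧸ H) 2 := by
  classical
  obtain ⟨H, e⟩ := exists_A5' hF
  obtain ⟨H, -, e⟩ := exists_pre e
  have h60 := card_of_equiv_A5 e
  have hi : H.index = 11 := by
    have := H.card_mul_index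
    rw [h60, card_psl hF] at this
    omega
  refine ⟨H, hi, e, ?_⟩
  have h4 : 4 ≤ Nat.card F := by rw [Nat.card_eq_fintype_card, hF]; norm_num
  have := Matrix.ProjectiveSpecialLinearGroup.rank_two_simple h4
  let _ := Fintype.ofFinite (PSL(2, F) ⧸ H)
  let φ := MulAction.toPermHom PSL(2, F) (PSL(2, F) ⧸ H)
  have hinj : Function.Injective φ := by
    rw [← MonoidHom.ker_eq_bot_iff, ← Subgroup.normalCore_eq_ker]
    refine (H.normalCore_normal.eq_bot_or_eq_top).resolve_right fun h => ?_
    have : H = ⊤ := eq_top_iff.2 (h ▸ H.normalCore_le)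
    rw [this, Subgroup.index_top] at hi
    omega
  have : MulAction.IsPretransitive φ.range (PSL(2, F) ⧸ H) := ⟨fun x y => by
    obtain ⟨g, rfl⟩ := MulAction.exists_smul_eq PSL(2, F) x y
    exact ⟨⟨φ g, g, rfl⟩, rfl⟩⟩
  rcases Cfsg.Agent.S0675.result (by
    rw [← Nat.card_eq_fintype_card, ← Subgroup.index, hi]; norm_num) φ.range with h | h
  · exact absurd (isSolvable_of_equiv ⟨MonoidHom.ofInjective hinj⟩ h) (not_isSolvable_psl2 h4)
  · refine ⟨fun x y => ?_⟩
    obtain ⟨⟨_, g, rfl⟩, hg⟩ := h.exists_smul_eq x y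
    exact ⟨g, by ext i; exact congrArg (fun f : Fin 2 ↪ _ => f i) hg⟩

end Cfsg.Agent.S2542
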