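import Cfsg.Statements.S2543
import Cfsg.Agent.S2542

set_option autoImplicit false
open scoped Pointwise
open Cfsg

namespace Cfsg.Agent.S2543

open Cfsg.Lib.Class Cfsg.Lib.Solv Matrix Cfsg.Agent.S2542
open scoped MatrixGroups Pointwise

variable {F : Type*} [Field F] [Fintype F]

theorem normalizer_eq (hF : Fintype.card F = 11) {H : Subgroup PGL(2, F)}
    (e : Nonempty (H ≃* alternatingGroup (Fin 5))) : Subgroup.normalizer (H : Set PGL(2, F)) = H := by
  have h4 : 4 ≤ Nat.card F := by rw [Nat.card_eq_fintype_card, hF]; norm_num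
  have := Matrix.ProjectiveSpecialLinearGroup.rank_two_simple h4
  have : Fact (Nat.Prime 11) := ⟨by norm_num⟩
  have : CharP F 11 := charP_of_card_eq_prime hF
  have hp : IsPoly H := Or.inr (Or.inr e)
  have h60 := card_of_equiv_A5 e
  have hN : ¬ psl2 F ≤ Subgroup.normalizer (H : Set PGL(2, F)) := by
    intro h
    obtain ⟨H₀, rfl, e₀⟩ := exists_pre e
    have hn : H₀.Normal := ⟨fun x hx g => by
      obtain ⟨y, hy, hyx⟩ := conj_mem_of_mem_normalizer (h (psl_toPGL_mem_psl2 g))
        (Subgroup.mem_map_of_mem _ hx)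
      rw [← map_inv, ← map_mul, ← map_mul] at hyx
      exact ProjectiveSpecialLinearGroup.toPGL_injective hyx ▸ hy⟩
    have h0 := card_of_equiv_A5 e₀
    rcases hn.eq_bot_or_eq_top with h | h
    · rw [h, Subgroup.card_bot] at h0; omega
    · rw [h, Subgroup.card_top, card_psl hF] at h0; omega
  rcases dickson_of_not_le 11 hN with ⟨x, h⟩ | ⟨x, y, hT, -, h⟩ | ⟨-, h⟩ | ⟨h, -⟩ | ⟨F₀, c, h1, h2, -⟩
  · exact absurd (H.le_normalizer.trans h) (hp.not_le_stabilizer 11 (by norm_num) x)
  · exact absurd (H.le_normalizer.trans h) (hp.not_le_stabPair hT.1)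
  · refine (Subgroup.eq_of_le_of_card_ge H.le_normalizer ?_).symm
    have := h.card
    omega
  · omega
  · have hd : Nat.card F₀ ∣ 11 := by
      rw [← hF, ← Nat.card_eq_fintype_card]
      exact AddSubgroup.card_addSubgroup_dvd_card F₀.toAddSubgroup
    rcases (Nat.dvd_prime (by norm_num)).1 hd with h | h
    · omega
    · refine absurd (SetLike.ext' (Set.eq_of_subset_of_ncard_le (Set.subset_univ _) ?_)) h1
      rw [Subfield.coe_top, Set.ncard_univ, Nat.card_eq_fintype_card, hF, ← h]
      rfl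


/-- Let F be a field with 11 elements. PSL_2(F) has exactly 22 subgroups isomorphic to the alternating group A_5, and they form two conjugacy classes: there are two such subgroups that are not conjugate, and every such subgroup is conjugate to one of these two. -/
theorem result {F : Type*} [Field F] [Fintype F] (hF : Fintype.card F = 11) : Nat.card {H : Subgroup (Matrix.ProjectiveSpecialLinearGroup (Fin 2) F) // Nonempty (H ≃* alternatingGroup (Fin 5))} = 22 ∧ ∃ H K : Subgroup (Matrix.ProjectiveSpecialLinearGroup (Fin 2) F), Nonempty (H ≃* alternatingGroup (Fin 5)) ∧ Nonempty (K ≃* alternatingGroup (Fin 5)) ∧ (∀ g : Matrix.ProjectiveSpecialLinearGroup (Fin 2) F, MulAut.conj g • H ≠ K) ∧ ∀ L : Subgroup (Matrix.ProjectiveSpecialLinearGroup (Fin 2) F), Nonempty (L ≃* alternatingGroup (Fin 5)) → ∃ g : Matrix.ProjectiveSpecialLinearGroup (Fin 2) F, MulAut.conj g • L = H ∨ MulAut.conj g • L = K := by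
  obtain ⟨H, e⟩ := exists_A5' hF
  have hN := normalizer_eq hF e
  have hinj := Subgroup.map_injective (ProjectiveSpecialLinearGroup.toPGL_injective (n := Fin 2) (R := F))
  have hc : ∀ c : PGL(2, F), Nonempty (↥(MulAut.conj c • H) ≃* alternatingGroup (Fin 5)) := fun c =>
    ⟨(conjEquiv c H).symm.trans e.some⟩
  have hall : ∀ L : Subgroup PSL(2, F), Nonempty (L ≃* alternatingGroup (Fin 5)) →
      ∃ c : PGL(2, F), L.map ProjectiveSpecialLinearGroup.toPGL = MulAut.conj c • H := fun L eL =>
    conj_of_A5 e ⟨(eqv L).symm.trans eL.some⟩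
  have hi : (psl2 F).index = 2 := by rw [index_psl2, Nat.card_eq_fintype_card, hF]; norm_num
  constructor
  · let _ : MulAction PGL(2, F) (Subgroup PGL(2, F)) := MulAction.compHom _ (MulAut.conj)
    have h1 : MulAction.stabilizer PGL(2, F) H = H := by
      rw [← hN]; ext g; rw [mem_normalizer_iff_conj_smul_eq, hN]; rfl
    have h2 := MulAction.index_stabilizer PGL(2, F) H
    have h3 := H.card_mul_index
    rw [card_of_equiv_A5 e, card_PGL2, Nat.card_eq_fintype_card (α := F), hF] at h3
    rw [h1, show H.index = 22 by omega] at h2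
    rw [h2, ← Nat.card_coe_set_eq]
    refine Nat.card_eq_of_bijective (fun L => ⟨L.1.map ProjectiveSpecialLinearGroup.toPGL, ?_⟩) ⟨?_, ?_⟩
    · obtain ⟨c, h⟩ := hall L.1 L.2
      exact ⟨c, h.symm⟩
    · intro L L' h
      exact Subtype.ext (hinj (congrArg Subtype.val h))
    · rintro ⟨_, c, rfl⟩
      obtain ⟨L, h, eL⟩ := exists_pre (hc c)
      exact ⟨⟨L, eL⟩, Subtype.ext h⟩
  · obtain ⟨c, hcL⟩ : ∃ c, c ∉ psl2 F := by
      by_contra! h
      rw [(Subgroup.eq_top_iff' _).2 h, Subgroup.index_top] at hi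
      omega
    obtain ⟨H₀, h0, e0⟩ := exists_pre e
    obtain ⟨K₀, k0, f0⟩ := exists_pre (hc c)
    refine ⟨H₀, K₀, e0, f0, fun g hg => hcL ?_, fun L eL => ?_⟩
    · have h := congrArg (Subgroup.map ProjectiveSpecialLinearGroup.toPGL) hg
      rw [map_conj_smul, h0, k0, eq_comm, Lib.Solv.conj_smul_eq_iff, ← conj_mul_smul, eq_comm,
        ← mem_normalizer_iff_conj_smul_eq, hN] at h
      have := (psl2 F).mul_mem (le_psl2_of_A5 e h) ((psl2 F).inv_mem (psl_toPGL_mem_psl2 g))
      simpa using this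
    · obtain ⟨d, hd⟩ := hall L eL
      by_cases hdL : d ∈ psl2 F
      · obtain ⟨g, hg⟩ : d⁻¹ ∈ (ProjectiveSpecialLinearGroup.toPGL : PSL(2, F) →* PGL(2, F)).range :=
          range_psl_toPGL (F := F) ▸ inv_mem hdL
        refine ⟨g, Or.inl (hinj ?_)⟩
        rw [map_conj_smul, hg, hd, h0, conj_inv_smul_conj_smul]
      · obtain ⟨g, hg⟩ : c * d⁻¹ ∈ (ProjectiveSpecialLinearGroup.toPGL : PSL(2, F) →* PGL(2, F)).range := by
          rw [range_psl_toPGL, Subgroup.mul_mem_iff_of_index_two hi, inv_mem_iff]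
          exact iff_of_false hcL hdL
        refine ⟨g, Or.inr (hinj ?_)⟩
        rw [map_conj_smul, hg, hd, k0, conj_mul_smul, conj_inv_smul_conj_smul]

end Cfsg.Agent.S2543
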