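import Cfsg.Statements.S2550
import Cfsg.Agent.S0243
import Cfsg.Agent.S0256
import Cfsg.Agent.S0819

set_option autoImplicit false
open Cfsg

namespace Cfsg.Agent.S2550

open Cfsg.Lib.Class

theorem exists_orderOf_eq : ∃ g : alternatingGroup (Fin 8), orderOf g = 15 := by
  refine ⟨⟨c[0, 1, 2] * c[3, 4, 5, 6, 7], Equiv.Perm.mem_alternatingGroup.2 (by decide +kernel)⟩, ?_⟩
  rw [← Subgroup.orderOf_coe]
  refine (orderOf_eq_iff (by norm_num)).2 ⟨by decide +kernel, fun m hm hm0 => ?_⟩
  interval_cases m <;> decide +kernel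


/-- Let F be a field with 2 elements and K a field with 4 elements. PSL_4(F) and PSL_3(K) have the same order (20160) but are not isomorphic. -/
theorem result {F K : Type*} [Field F] [Fintype F] [Field K] [Fintype K] (hF : Fintype.card F = 2) (hK : Fintype.card K = 4) : Nat.card (Matrix.ProjectiveSpecialLinearGroup (Fin 4) F) = Nat.card (Matrix.ProjectiveSpecialLinearGroup (Fin 3) K) ∧ ¬ Nonempty (Matrix.ProjectiveSpecialLinearGroup (Fin 4) F ≃* Matrix.ProjectiveSpecialLinearGroup (Fin 3) K) := by
  constructor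
  · have h1 := S0243.result hF 4 (by norm_num)
    have h2 := S0243.result hK 3 (by norm_num)
    simp only [Fin.prod_univ_four, Fin.prod_univ_three] at h1 h2
    norm_num at h1 h2
    omega
  · rintro ⟨e⟩
    obtain ⟨e2⟩ := S0256.result hF
    obtain ⟨g, hg⟩ := exists_orderOf_eq
    exact S0819.result hK (e (e2.symm g)) (by rw [MulEquiv.orderOf_eq, MulEquiv.orderOf_eq, hg])

end Cfsg.Agent.S2550
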