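import Cfsg.Statements.S2551
import Cfsg.Agent.S0256
import Cfsg.Agent.Class.Isom

set_option autoImplicit false
open Cfsg

namespace Cfsg.Agent.S2551

open Cfsg.Lib.Class Matrix MulAction

theorem orbit_eq {G X : Type*} [Group G] [Finite G] [MulAction G X] (hG : Nat.card G = 20160)
    (S : Set (X × X)) (hS : S.ncard = 210) (hS2 : ∀ p ∈ S, p.1 ≠ p.2)
    (H : Subgroup G) (hH : Nat.card H = 2520) (t : H) (a : X) (ht : t * t = 1)
    (h : orbit G (a, t • a) = S) : orbit H (a, t • a) = S := by
  classical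
  have hfin : S.Finite := Set.finite_of_ncard_ne_zero (by omega)
  have hle : orbit H (a, t • a) ⊆ S := by
    rintro _ ⟨g, rfl⟩
    exact h ▸ ⟨g.1, rfl⟩
  have h1 := (stabilizer G (a, t • a)).index_mul_card
  rw [index_stabilizer, h, hS, hG] at h1
  have h2 := (stabilizer H (a, t • a)).index_mul_card
  rw [index_stabilizer, hH] at h2
  have h3 : Nat.card (stabilizer H (a, t • a)) ∣ Nat.card (stabilizer G (a, t • a)) :=
    Subgroup.card_dvd_of_injective
      ((H.subtype.comp (stabilizer H (a, t • a)).subtype).codRestrict _ fun g => g.2)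
      fun x y hxy => Subtype.ext (Subtype.ext
        (congrArg (fun z : stabilizer G (a, t • a) => z.1) hxy))
  rw [show Nat.card (stabilizer G (a, t • a)) = 96 by omega] at h3
  have h4 : Nat.card (stabilizer H (a, t • a)) ∣ 24 := Nat.dvd_gcd h3 (Dvd.intro_left _ h2)
  have h5 := Set.ncard_le_ncard hle hfin
  have hfin' := hfin.subset hle
  have h6 : Even (orbit H (a, t • a)).ncard := by
    rw [Set.ncard_eq_toFinset_card _ hfin', ← ZMod.natCast_eq_zero_iff_even,
      Finset.card_eq_sum_ones, Nat.cast_sum]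
    refine Finset.sum_involution (fun p _ => p.swap) (fun _ _ => by decide) (fun p hp _ h => ?_)
      (fun p hp => ?_) fun _ _ => rfl
    · exact hS2 p (hle (hfin'.mem_toFinset.1 hp)) (congrArg Prod.snd h)
    · obtain ⟨g, rfl⟩ := hfin'.mem_toFinset.1 hp
      refine hfin'.mem_toFinset.2 ⟨g * t, ?_⟩
      simp only [mul_smul, Prod.smul_mk, Prod.swap_prod_mk]
      rw [← mul_smul t t, ht, one_smul]
  refine Set.eq_of_subset_of_ncard_le hle ?_ hfin
  obtain ⟨k, hk⟩ := h4
  obtain ⟨l, hl⟩ := h6
  have h7 : (orbit H (a, t • a)).ncard = 105 * k := by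
    have hpos : 0 < Nat.card (stabilizer H (a, t • a)) := Nat.card_pos
    apply Nat.eq_of_mul_eq_mul_right hpos
    rw [h2, mul_assoc, mul_comm k, ← hk]
    rfl
  have : k ≠ 0 := by rintro rfl; omega
  omega


/-- Let F be the field with 2 elements. GL_4(F) (≅ A_8) has a subgroup isomorphic to the alternating group A_7, and every such subgroup acts 2-transitively on the 15 non-zero vectors of F⁴: any ordered pair of distinct non-zero vectors is carried to any other by some element of the subgroup. -/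
theorem result {F : Type*} [Field F] [Fintype F] (hF : Fintype.card F = 2) : (∃ H : Subgroup (Matrix.GeneralLinearGroup (Fin 4) F), Nonempty (H ≃* alternatingGroup (Fin 7))) ∧ ∀ H : Subgroup (Matrix.GeneralLinearGroup (Fin 4) F), Nonempty (H ≃* alternatingGroup (Fin 7)) → ∀ v w v' w' : Fin 4 → F, v ≠ 0 → w ≠ 0 → v ≠ w → v' ≠ 0 → w' ≠ 0 → v' ≠ w' → ∃ g ∈ H, (g : Matrix (Fin 4) (Fin 4) F).mulVec v = v' ∧ (g : Matrix (Fin 4) (Fin 4) F).mulVec w = w' := by
  classical
  have hu : ∀ a : F, a ≠ 0 → a = 1 := fun a ha => by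
    have := FiniteField.pow_card_sub_one_eq_one a ha
    rwa [hF, pow_one] at this
  let e : Matrix.SpecialLinearGroup (Fin 4) F ≃* GL (Fin 4) F :=
    MulEquiv.ofBijective SpecialLinearGroup.toGL ⟨SpecialLinearGroup.toGL_injective,
      fun g => ⟨⟨g.1, hu _ g.det_ne_zero⟩, Units.ext rfl⟩⟩
  constructor
  · obtain ⟨e2⟩ := S0256.result hF
    have hZ : Subgroup.center (Matrix.SpecialLinearGroup (Fin 4) F) = ⊥ := by
      rw [eq_bot_iff]
      intro g hg
      obtain ⟨r, hr1, hr2⟩ := Matrix.SpecialLinearGroup.mem_center_iff.1 hg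
      have hr : r = 1 := hu r (by rintro rfl; simp at hr1)
      exact Subtype.ext (by rw [← hr2, hr, map_one]; rfl)
    let e3 := e2.symm.trans ((quotCenterEquivOfEqBot hZ).trans e)
    let f : alternatingGroup (Fin 7) →* alternatingGroup (Fin 8) :=
      ((Equiv.Perm.viaEmbeddingHom Fin.castSuccEmb).comp (Subgroup.subtype _)).codRestrict _
        fun σ => by
          rw [Equiv.Perm.mem_alternatingGroup]
          exact (@Equiv.Perm.sign_extendDomain _ _ _ _ _ _ _ _ (fun _ => Classical.propDecidable _)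
            _).trans σ.2
    have hf : Function.Injective f := fun x y h => Subtype.ext
      (Equiv.Perm.viaEmbeddingHom_injective _ (congrArg Subtype.val h))
    exact ⟨(e3.toMonoidHom.comp f).range,
      ⟨(MonoidHom.ofInjective (e3.injective.comp hf)).symm⟩⟩
  · rintro H ⟨eH⟩
    have hG : Nat.card (GL (Fin 4) F) = 20160 := by
      rw [← Nat.card_congr e.toEquiv, card_SL_fin_four hF]
      rfl
    have hH : Nat.card H = 2520 := by
      have h2 := two_mul_nat_card_alternatingGroup (α := Fin 7)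
      rw [Nat.card_perm, Nat.card_eq_fintype_card (α := Fin 7), Fintype.card_fin,
        show Nat.factorial 7 = 5040 from rfl, ← Nat.card_congr eH.toEquiv] at h2
      omega
    let S : Set ((Fin 4 → F) × (Fin 4 → F)) := {p | p.1 ≠ 0 ∧ p.2 ≠ 0 ∧ p.1 ≠ p.2}
    have hS : S.ncard = 210 := by
      have : S = ((Finset.univ.erase (0 : Fin 4 → F)).offDiag : Finset _) := by
        ext p; simp [S]
      rw [this, Set.ncard_coe_finset, Finset.offDiag_card, Finset.card_erase_of_mem (by simp)]
      simp [hF]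
    have horb : ∀ p ∈ S, orbit (GL (Fin 4) F) p = S := by
      rintro ⟨v, w⟩ ⟨hv, hw, hvw⟩
      ext ⟨v', w'⟩
      constructor
      · rintro ⟨g, hg⟩
        rw [← hg]
        exact ⟨(smul_ne_zero_iff_ne g).2 hv, (smul_ne_zero_iff_ne g).2 hw,
          fun h => hvw (MulAction.injective g h)⟩
      · rintro ⟨hv', hw', hvw'⟩
        have hmk : ∀ (x y : Fin 4 → F) (hx : x ≠ 0) (hy : y ≠ 0),
            Projectivization.mk F x hx = Projectivization.mk F y hy → x = y := by
          intro x y hx hy h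
          obtain ⟨a, ha⟩ := (Projectivization.mk_eq_mk_iff F _ _ hx hy).1 h
          rw [← ha, Units.smul_def, hu a a.ne_zero, one_smul]
        obtain ⟨g, hg1, hg2⟩ := (is_two_pretransitive_iff.1 (inferInstance :
          IsMultiplyPretransitive (Matrix.SpecialLinearGroup (Fin 4) F)
            (Projectivization F (Fin 4 → F)) 2)) (fun h => hvw (hmk v w hv hw h))
              (fun h => hvw' (hmk v' w' hv' hw' h))
        exact ⟨e g, Prod.ext (hmk _ _ _ _ hg1) (hmk _ _ _ _ hg2)⟩
    obtain ⟨t, ht⟩ := exists_prime_orderOf_dvd_card' (G := H) 2 (by rw [hH]; norm_num)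
    have ht2 : t * t = 1 := by rw [← sq, ← ht, pow_orderOf_eq_one]
    obtain ⟨a, ha⟩ : ∃ a : Fin 4 → F, a ≠ t • a := by
      by_contra h
      push Not at h
      have : t = 1 := Subtype.ext (Units.ext (matrix_ext_mulVec fun v => by
        rw [OneMemClass.coe_one, Units.val_one, one_mulVec]; exact (h v).symm))
      rw [this, orderOf_one] at ht
      omega
    have ha0 : a ≠ 0 := by rintro rfl; simp at ha
    have h1 := orbit_eq hG S hS (fun p hp => hp.2.2) H hH t a ht2
      (horb _ ⟨ha0, (smul_ne_zero_iff_ne t).2 ha0, ha⟩)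
    intro v w v' w' hv hw hvw hv' hw' hvw'
    have h2 : (v, w) ∈ orbit H (a, t • a) := h1 ▸ ⟨hv, hw, hvw⟩
    have h3 : (v', w') ∈ orbit H (v, w) := by
      rw [orbit_eq_iff.2 h2, h1]; exact ⟨hv', hw', hvw'⟩
    obtain ⟨g, hg⟩ := h3
    exact ⟨g, g.2, congrArg Prod.fst hg, congrArg Prod.snd hg⟩

end Cfsg.Agent.S2551
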