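import Cfsg.Statements.S2552
import Mathlib
import Cfsg.Agent.Class.InvTranspose

set_option autoImplicit false
open Cfsg

namespace Cfsg.Agent.S2552

/-- Let F be a finite field and n ≥ 1. For every k, the special linear group SL_n(F) acts transitively on the set of k-dimensional subspaces of F^n: any two subspaces of the same dimension are carried onto each other by some matrix of determinant 1. -/
theorem result {F : Type*} [Field F] [Fintype F] (n : ℕ) (hn : 1 ≤ n) (U₁ U₂ : Submodule F (Fin n → F)) (h : Module.finrank F U₁ = Module.finrank F U₂) : ∃ g : Matrix.SpecialLinearGroup (Fin n) F, U₁.map ((Matrix.SpecialLinearGroup.toLin' g : (Fin n → F) ≃ₗ[F] (Fin n → F)) : (Fin n → F) →ₗ[F] (Fin n → F)) = U₂ := by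
  obtain ⟨g, hg, h1⟩ := Cfsg.Lib.Class.exists_SL_map_eq h
  refine ⟨⟨g, by simpa [Units.ext_iff] using (MonoidHom.mem_ker.mp hg)⟩, ?_⟩
  rw [← h1]
  rfl

end Cfsg.Agent.S2552
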