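import Cfsg.Statements.S2561
import Cfsg.Agent.Known.BinQuad

set_option autoImplicit false
open Cfsg

namespace Cfsg.Agent.S2561

open Cfsg.Lib.Known Cfsg.Lib.Class Cfsg.Lib.Class.Orth QuadraticMap Module

/-- Fix the non-singular alternating form on the 2m-dimensional space over the field of two elements obtained by polarizing the plus-type form Σ xᵢyᵢ (m ≥ 1). The functions q on the space with q(u + v) = q(u) + q(v) + f(u, v) (the quadratic forms polarizing to f) number 2^(2m); each is equivalent under an invertible linear map either to the plus-type form or to the minus-type form Σ xᵢyᵢ + (z₁² + z₁z₂ + z₂²); and those of plus type number 2^(2m−1) + 2^(m−1), those of minus type 2^(2m−1) − 2^(m−1). -/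
theorem result (m : ℕ) (hm : 1 ≤ m) :
    Nat.card {q : (Fin m ⊕ Fin m → ZMod 2) → ZMod 2 // (∀ u v : (Fin m ⊕ Fin m → ZMod 2), q (u + v) = q u + q v + (Cfsg.quadFormPlus m (ZMod 2) (u + v) - Cfsg.quadFormPlus m (ZMod 2) u - Cfsg.quadFormPlus m (ZMod 2) v))} = 2 ^ (2 * m) ∧
    (∀ q : (Fin m ⊕ Fin m → ZMod 2) → ZMod 2, (∀ u v : (Fin m ⊕ Fin m → ZMod 2), q (u + v) = q u + q v + (Cfsg.quadFormPlus m (ZMod 2) (u + v) - Cfsg.quadFormPlus m (ZMod 2) u - Cfsg.quadFormPlus m (ZMod 2) v)) →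
      (∃ g : (Fin m ⊕ Fin m → ZMod 2) ≃ₗ[ZMod 2] (Fin m ⊕ Fin m → ZMod 2), ∀ v, q v = Cfsg.quadFormPlus m (ZMod 2) (g v)) ∨
      (∃ g : (Fin m ⊕ Fin m → ZMod 2) ≃ₗ[ZMod 2] ((Fin (m - 1) ⊕ Fin (m - 1)) ⊕ Fin 2 → ZMod 2), ∀ v, q v = Cfsg.quadFormMinus (m - 1) (ZMod 2) 1 1 (g v))) ∧
    Nat.card {q : (Fin m ⊕ Fin m → ZMod 2) → ZMod 2 // (∀ u v : (Fin m ⊕ Fin m → ZMod 2), q (u + v) = q u + q v + (Cfsg.quadFormPlus m (ZMod 2) (u + v) - Cfsg.quadFormPlus m (ZMod 2) u - Cfsg.quadFormPlus m (ZMod 2) v)) ∧ ∃ g : (Fin m ⊕ Fin m → ZMod 2) ≃ₗ[ZMod 2] (Fin m ⊕ Fin m → ZMod 2), ∀ v, q v = Cfsg.quadFormPlus m (ZMod 2) (g v)} = 2 ^ (2 * m - 1) + 2 ^ (m - 1) ∧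
    Nat.card {q : (Fin m ⊕ Fin m → ZMod 2) → ZMod 2 // (∀ u v : (Fin m ⊕ Fin m → ZMod 2), q (u + v) = q u + q v + (Cfsg.quadFormPlus m (ZMod 2) (u + v) - Cfsg.quadFormPlus m (ZMod 2) u - Cfsg.quadFormPlus m (ZMod 2) v)) ∧ ∃ g : (Fin m ⊕ Fin m → ZMod 2) ≃ₗ[ZMod 2] ((Fin (m - 1) ⊕ Fin (m - 1)) ⊕ Fin 2 → ZMod 2), ∀ v, q v = Cfsg.quadFormMinus (m - 1) (ZMod 2) 1 1 (g v)} = 2 ^ (2 * m - 1) - 2 ^ (m - 1) := by
  obtain ⟨m, rfl⟩ : ∃ k, m = k + 1 := ⟨m - 1, by omega⟩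
  rw [← coe_quadPlus, ← coe_quadMinus]
  have hab : Aniso (1 : ZMod 2) 1 := by decide
  have hP := quadPlus_nondegenerate (F := ZMod 2) (m + 1)
  have hV : finrank (ZMod 2) (Fin (m + 1) ⊕ Fin (m + 1) → ZMod 2) = 2 * m + 2 := by simp; omega
  have hc : Nat.card (Fin (m + 1) ⊕ Fin (m + 1) → ZMod 2) = 2 ^ (2 * (m + 1)) := by
    simp [two_mul]
  let e := binQuadEquiv hP
  have hp : ∀ w, (∃ g : (Fin (m + 1) ⊕ Fin (m + 1) → ZMod 2) ≃ₗ[ZMod 2] _, ∀ v,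
      (e w).1 v = quadPlus (m + 1) (ZMod 2) (g v)) ↔ quadPlus (m + 1) (ZMod 2) w = 0 :=
    translate_equiv_iff hP hV
  have hm : ∀ w, (∃ g : (Fin (m + 1) ⊕ Fin (m + 1) → ZMod 2) ≃ₗ[ZMod 2] _, ∀ v,
      (e w).1 v = quadMinus m (ZMod 2) 1 1 (g v)) ↔ ¬ quadPlus (m + 1) (ZMod 2) w = 0 := by
    intro w
    rw [← hp]
    have hQ := binQuad_nondeg hP (e w).2
    refine ⟨fun ⟨g, hg⟩ ⟨g', hg'⟩ => not_isPlus_quadMinus m hab (IsPlus.of_equiv (g'.symm.trans g)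
      (c := 1) (fun v => by simp [← hg, hg']) (isPlus_quadPlus _)), fun h => ?_⟩
    obtain ⟨g, hg⟩ := exists_equiv_of_isPlus_iff hQ (quadMinus_nondegenerate m hab) ⟨m + 1, by omega⟩
      (by simp; omega) (iff_of_false (fun h1 => by
        obtain ⟨g, hg⟩ := exists_equiv_of_isPlus_iff hQ hP ⟨m + 1, by omega⟩ rfl
          (iff_of_true h1 (isPlus_quadPlus _))
        exact h ⟨g, fun v => (hg v).symm⟩) (not_isPlus_quadMinus m hab))
    exact ⟨g, fun v => (hg v).symm⟩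
  have h1 : Nat.card {w // quadPlus (m + 1) (ZMod 2) w = 0} = 2 ^ (2 * (m + 1) - 1) + 2 ^ m := by
    have := sing_quadPlus (F := ZMod 2) m
    rw [Nat.card_zmod, pow_succ _ m] at this
    rw [show 2 * (m + 1) - 1 = 2 * m + 1 by omega]
    zify
    exact this.trans (by push_cast; ring)
  refine ⟨(Nat.card_congr e).symm.trans hc, fun q hq => ?_, ?_, ?_⟩
  · obtain ⟨w, hw⟩ := e.surjective ⟨q, hq⟩
    have : q = (e w).1 := by rw [hw]
    subst this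
    exact (em _).imp (hp w).mpr (hm w).mpr
  · rw [← Nat.card_congr (Equiv.subtypeSubtypeEquivSubtypeInter _ _)]
    exact (Nat.card_congr (e.subtypeEquiv fun w => (hp w).symm)).symm.trans h1
  · rw [← Nat.card_congr (Equiv.subtypeSubtypeEquivSubtypeInter _ _)]
    refine (Nat.card_congr (e.subtypeEquiv fun w => (hm w).symm)).symm.trans ?_
    have h2 := Nat.card_congr (Equiv.sumCompl fun w => quadPlus (m + 1) (ZMod 2) w = 0)
    rw [Nat.card_sum, h1, hc, show 2 * (m + 1) - 1 = 2 * m + 1 by omega,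
      show 2 * (m + 1) = 2 * m + 1 + 1 by omega, pow_succ _ (2 * m + 1)] at h2
    rw [show 2 * (m + 1) - 1 = 2 * m + 1 by omega, Nat.add_sub_cancel]
    omega

end Cfsg.Agent.S2561
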