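import Cfsg.Statements.S2562
import Cfsg.Agent.Known.QuadNormal

set_option autoImplicit false
open Cfsg

namespace Cfsg.Agent.S2562

open Cfsg.Lib.Known Cfsg.Lib.Class QuadraticMap Module

/-- Witt indices over the field of two elements, m ≥ 1: for the plus-type form Σ xᵢyᵢ in dimension 2m some m-dimensional subspace is totally singular and no totally singular subspace has larger dimension; for the minus-type form Σ xᵢyᵢ + (z₁² + z₁z₂ + z₂²) in dimension 2m the maximal dimension of a totally singular subspace is m − 1. -/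
theorem result (m : ℕ) (hm : 1 ≤ m) :
    (∃ U : Submodule (ZMod 2) (Fin m ⊕ Fin m → ZMod 2), (∀ u ∈ U, Cfsg.quadFormPlus m (ZMod 2) u = 0) ∧ Module.finrank (ZMod 2) ↥U = m) ∧
    (∀ U : Submodule (ZMod 2) (Fin m ⊕ Fin m → ZMod 2), (∀ u ∈ U, Cfsg.quadFormPlus m (ZMod 2) u = 0) → Module.finrank (ZMod 2) ↥U ≤ m) ∧
    (∃ U : Submodule (ZMod 2) ((Fin (m - 1) ⊕ Fin (m - 1)) ⊕ Fin 2 → ZMod 2), (∀ u ∈ U, Cfsg.quadFormMinus (m - 1) (ZMod 2) 1 1 u = 0) ∧ Module.finrank (ZMod 2) ↥U = m - 1) ∧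
    (∀ U : Submodule (ZMod 2) ((Fin (m - 1) ⊕ Fin (m - 1)) ⊕ Fin 2 → ZMod 2), (∀ u ∈ U, Cfsg.quadFormMinus (m - 1) (ZMod 2) 1 1 u = 0) → Module.finrank (ZMod 2) ↥U ≤ m - 1) := by
  have hab : Aniso (1 : ZMod 2) 1 := by decide
  refine ⟨?_, ?_, ?_, ?_⟩
  · obtain ⟨U, hU, hd⟩ := isPlus_quadPlus (F := ZMod 2) m
    refine ⟨U, by simpa using hU, ?_⟩
    simp at hd
    omega
  · intro U hU
    have := two_mul_finrank_le_of_singular (quadPlus_nondegenerate m) (U := U) (by simpa using hU)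
    simp at this
    omega
  · have h := isHyp_quadMinus (F := ZMod 2) (m - 1) 1 1
    refine ⟨Submodule.span _ (Set.range fun i : Fin (m - 1) =>
      Pi.single (Sum.inl (Sum.inl i)) 1), fun u hu => ?_, ?_⟩
    · obtain ⟨c, rfl⟩ := (Submodule.mem_span_range_iff_exists_fun _).1 hu
      rw [← quadMinus_apply]
      exact quad_sum_smul_eq_zero _ _ _ h.qe h.ee c
    · rw [finrank_span_eq_card (b := fun i : Fin (m - 1) => Pi.single (Sum.inl (Sum.inl i)) 1)
        (h.linearIndependent.comp Sum.inl Sum.inl_injective), Fintype.card_fin]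
  · intro U hU
    exact finrank_le_of_quadMinus _ hab hU

end Cfsg.Agent.S2562
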