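import Cfsg.Statements.S2563
import Cfsg.Agent.Class.PermModule
import Cfsg.Agent.Class.OrthExt
import Cfsg.Agent.Known.QuadNormal

set_option autoImplicit false
open Cfsg

namespace Cfsg.Agent.S2563

open Cfsg.Lib.Class Matrix QuadraticMap

/-- The weight of an element of the field with two elements, modulo four. -/
def wt (a : ZMod 2) : ZMod 4 := if a = 0 then 0 else 1

/-- Doubling. -/
def dbl (a : ZMod 2) : ZMod 4 := if a = 0 then 0 else 2

theorem wt_add : ∀ a b : ZMod 2, wt (a + b) = wt a + wt b + dbl (a * b) := by decide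

theorem dbl_add : ∀ a b : ZMod 2, dbl (a + b) = dbl a + dbl b := by decide

theorem dbl_injective : Function.Injective dbl := by decide

theorem dbl_natCast (n : ℕ) : dbl (n : ZMod 2) = 2 * (n : ZMod 4) := by
  induction n with
  | zero => simp [dbl]
  | succ n ih => rw [Nat.cast_succ, dbl_add, ih, Nat.cast_succ, mul_add]; rfl

theorem dbl_sum {ι : Type*} (s : Finset ι) (f : ι → ZMod 2) :
    dbl (∑ i ∈ s, f i) = ∑ i ∈ s, dbl (f i) :=
  map_sum (AddMonoidHom.mk' dbl dbl_add) f s

theorem sum_wt_add {Ω : Type*} [Fintype Ω] (y z : Ω → ZMod 2) :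
    ∑ x, wt (y x + z x) = ∑ x, wt (y x) + ∑ x, wt (z x) + dbl (y ⬝ᵥ z) := by
  simp only [wt_add, Finset.sum_add_distrib, dotProduct, dbl_sum]

/-- The form "half the weight" in symplectic coordinates. -/
noncomputable def Q (m : ℕ) : QuadraticForm (ZMod 2) (Fin m ⊕ Fin m → ZMod 2) :=
  quadPlus m (ZMod 2) +
    weightedSumSquares (ZMod 2)
      (Sum.elim (fun _ => (1 : ZMod 2)) fun i : Fin m => ((i + 1 : ℕ) : ZMod 2))

theorem Q_apply (m : ℕ) (v : Fin m ⊕ Fin m → ZMod 2) : Q m v = ∑ i : Fin m,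
    (v (.inl i) * v (.inr i) + v (.inl i) * v (.inl i) +
      ((i + 1 : ℕ) : ZMod 2) * (v (.inr i) * v (.inr i))) := by
  simp [Q, quadFormPlus, Finset.sum_add_distrib, add_assoc]

theorem polar_Q (m : ℕ) (u v : Fin m ⊕ Fin m → ZMod 2) :
    polar (Q m) u v = polar (quadPlus m (ZMod 2)) u v := by
  simp only [polar, Q_apply, quadPlus_apply, quadFormPlus, ← Finset.sum_sub_distrib, Pi.add_apply]
  refine Finset.sum_congr rfl fun i _ => ?_
  have h2 : (2 : ZMod 2) = 0 := rfl
  linear_combination (u (.inl i) * v (.inl i) +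
    ((i + 1 : ℕ) : ZMod 2) * (u (.inr i) * v (.inr i))) * h2

theorem Q_nondegenerate (m : ℕ) : (polarBilin (Q m)).Nondegenerate := by
  have : polarBilin (Q m) = polarBilin (quadPlus m (ZMod 2)) :=
    LinearMap.ext₂ fun u v => polar_Q m u v
  rw [this]
  exact quadPlus_nondegenerate m

theorem dot_eq (m : ℕ) (u v : Fin m ⊕ Fin m → ZMod 2) :
    (sympPermMatrix (ZMod 2) m *ᵥ u) ⬝ᵥ (sympPermMatrix (ZMod 2) m *ᵥ v) = polar (Q m) u v := by
  rw [dotProduct_mulVec, vecMul_mulVec, sympPermMatrix_gram, polar_Q, coe_quadPlus,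
    polar_quadFormPlus, ← dotProduct_mulVec]
  have := sympForm_eq m u v
  rw [sympForm] at this
  rw [this]
  simp only [CharTwo.sub_eq_add]
  refine Finset.sum_congr rfl fun i _ => ?_
  ring

theorem wt_col (m : ℕ) (j : Fin m ⊕ Fin m) :
    ∑ x, wt (sympPermMatrix (ZMod 2) m x j) = dbl (Q m (Pi.single j 1)) := by
  have hw : ∀ (p : Prop) [Decidable p], wt (if p then 1 else 0) = if p then 1 else 0 :=
    fun p _ => by split_ifs <;> rfl
  rcases j with j | j
  · have : Q m (Pi.single (.inl j) 1) = 1 := by simp [Q_apply, Pi.single_apply]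
    rw [this]
    simp only [sympPermMatrix, Fintype.sum_prod_type, Matrix.of_apply, Sum.elim_inl, hw,
      Fin.sum_univ_two, Finset.sum_add_distrib, Finset.sum_ite_eq', Finset.mem_univ, if_true]
    rfl
  · have : Q m (Pi.single (.inr j) 1) = ((j + 1 : ℕ) : ZMod 2) := by
      simp [Q_apply, Pi.single_apply]
    rw [this, dbl_natCast]
    have h1 : ∀ a : Fin (m + 1), wt ((if a < j.castSucc then 1 else 0) +
        ((if a = j.castSucc then 1 else 0) + if a = Fin.last m then 1 else 0)) =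
        (if a < j.castSucc then 1 else 0) +
          ((if a = j.castSucc then 1 else 0) + if a = Fin.last m then 1 else 0) := fun a => by
      have := Fin.castSucc_lt_last j
      split_ifs <;> first | rfl | omega
    have h2 : ∑ a : Fin (m + 1), (if a < j.castSucc then (1 : ZMod 4) else 0) = (j : ℕ) := by
      rw [Finset.sum_boole, Finset.filter_gt_eq_Iio, Fin.card_Iio]
      rfl
    simp only [sympPermMatrix, Fintype.sum_prod_type, Matrix.of_apply, Sum.elim_inr,
      Fin.sum_univ_two, if_true, one_ne_zero, if_false, add_zero, h1, hw, Finset.sum_add_distrib,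
      Finset.sum_ite_eq', Finset.mem_univ, h2]
    push_cast
    ring

theorem wt_mulVec (m : ℕ) (v : Fin m ⊕ Fin m → ZMod 2) :
    ∑ x, wt ((sympPermMatrix (ZMod 2) m *ᵥ v) x) = dbl (Q m v) := by
  induction v using Pi.single_induction with
  | zero => simp [wt, dbl]
  | add u v hu hv =>
    simp only [mulVec_add, Pi.add_apply]
    rw [sum_wt_add, hu, hv, dot_eq, QuadraticMap.map_add (Q m), dbl_add, dbl_add]
  | single i a =>
    have : a = 0 ∨ a = 1 := by revert a; decide
    rcases this with rfl | rfl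
    · simp [wt, dbl]
    · rw [← wt_col, mulVec_single_one]; rfl

theorem exists_hom (k : ℕ) (hk : 1 ≤ k) :
    ∃ φ : Equiv.Perm (Fin (4 * k + 4)) →* Orth.O (Q (2 * k + 1)), Function.Injective φ := by
  set m := 2 * k + 1 with hm
  have hsum := sympPermMatrix_sum (ZMod 2) m
  have hconst : ∀ (v : Fin m ⊕ Fin m → ZMod 2) (c : ZMod 2),
      (sympPermMatrix (ZMod 2) m *ᵥ v) ⬝ᵥ (fun _ => c) = 0 := fun v c => by
    simp only [Matrix.mulVec, dotProduct, ← Finset.sum_mul]
    rw [Finset.sum_comm]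
    simp [← Finset.sum_mul, hsum]
  have hinj : ∀ (v : Fin m ⊕ Fin m → ZMod 2) (c : ZMod 2),
      sympPermMatrix (ZMod 2) m *ᵥ v = (fun _ => c) → v = 0 := fun v c h =>
    (Q_nondegenerate m).2 v fun u => by
      change polar (Q m) u v = 0
      rw [← dot_eq, h, hconst]
  have hc : Fintype.card (Fin (m + 1) × Fin 2) = 4 * k + 4 := by simp [hm]; ring
  obtain ⟨f, hf⟩ := exists_perm_isometry_hom (sympPermMatrix (ZMod 2) m) hsum hinj
    (permModule_span_of_card_add_two _ hsum hinj (by simp; ring) (by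
      rw [hc]; push_cast; rw [show (4 : ZMod 2) = 0 from rfl]; simp)) (by omega) (Q m)
    (fun y => ∑ x, wt (y x)) dbl dbl_injective (fun σ y => Equiv.sum_comp σ fun x => wt (y x))
    (fun v c _ => by
      rw [sum_wt_add, wt_mulVec, hconst, Finset.sum_const, Finset.card_univ, hc, nsmul_eq_mul]
      push_cast
      rw [show (4 : ZMod 4) = 0 from rfl]
      simp [dbl])
  let e : Equiv.Perm (Fin (4 * k + 4)) ≃* Equiv.Perm (Fin (m + 1) × Fin 2) :=
    (Fintype.equivFinOfCardEq hc).symm.permCongrHom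
  exact ⟨(oEquivIsom (Q m)).toMonoidHom.comp (f.comp e.toMonoidHom),
    (oEquivIsom (Q m)).injective.comp (hf.comp e.injective)⟩

/-- The nontrivial character. -/
def chi (a : ZMod 2) : ℤ := if a = 0 then 1 else -1

theorem chi_add : ∀ a b : ZMod 2, chi (a + b) = chi a * chi b := by decide

theorem chi_sum {ι : Type*} (s : Finset ι) (f : ι → ZMod 2) :
    chi (∑ i ∈ s, f i) = ∏ i ∈ s, chi (f i) := by
  classical
  induction s using Finset.induction_on with
  | empty => rfl
  | insert a s ha ih => rw [Finset.sum_insert ha, Finset.prod_insert ha, chi_add, ih]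

theorem gauss_blocks (m : ℕ) (h : Fin m → ZMod 2 → ZMod 2 → ZMod 2) :
    ∑ v : Fin m ⊕ Fin m → ZMod 2, chi (∑ i, h i (v (.inl i)) (v (.inr i))) =
      ∏ i, ∑ p : ZMod 2 × ZMod 2, chi (h i p.1 p.2) := by
  rw [Fintype.prod_sum]
  refine Fintype.sum_equiv ((Equiv.sumArrowEquivProdArrow _ _ _).trans
    (Equiv.arrowProdEquivProdArrow _ _ _).symm) _ _ fun v => ?_
  rw [chi_sum]
  rfl

theorem gauss_plus (m : ℕ) : ∑ v, chi (quadFormPlus m (ZMod 2) v) = 2 ^ m := by
  unfold quadFormPlus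
  rw [gauss_blocks m fun _ a b => a * b, show ∑ p : ZMod 2 × ZMod 2, chi (p.1 * p.2) = 2 by decide]
  simp

theorem gauss_minus (m : ℕ) : ∑ v, chi (quadFormMinus m (ZMod 2) 1 1 v) = -2 ^ (m + 1) := by
  rw [← (Equiv.sumArrowEquivProdArrow _ _ _).symm.sum_comp, Fintype.sum_prod_type]
  have : ∀ (x : Fin m ⊕ Fin m → ZMod 2) (y : Fin 2 → ZMod 2),
      chi (quadFormMinus m (ZMod 2) 1 1 ((Equiv.sumArrowEquivProdArrow _ _ _).symm (x, y))) =
        chi (quadFormPlus m (ZMod 2) x) * chi (y 0 ^ 2 + 1 * y 0 * y 1 + 1 * y 1 ^ 2) :=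
    fun x y => chi_add _ _
  simp only [this, ← Finset.mul_sum, ← Finset.sum_mul, gauss_plus]
  rw [show ∑ y : Fin 2 → ZMod 2, chi (y 0 ^ 2 + 1 * y 0 * y 1 + 1 * y 1 ^ 2) = -2 by decide]
  ring

theorem gauss_Q (k : ℕ) : ∑ v, chi (Q (2 * k + 1) v) = -2 * (-4) ^ k := by
  simp only [Q_apply]
  rw [gauss_blocks (2 * k + 1) fun i a b => a * b + a * a + ((i + 1 : ℕ) : ZMod 2) * (b * b)]
  rw [Fin.prod_univ_eq_prod_range (fun i => ∑ p : ZMod 2 × ZMod 2,
    chi (p.1 * p.2 + p.1 * p.1 + ((i + 1 : ℕ) : ZMod 2) * (p.2 * p.2)))]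
  induction k with
  | zero => decide
  | succ k ih =>
    rw [show 2 * (k + 1) + 1 = 2 * k + 1 + 1 + 1 by ring, Finset.prod_range_succ,
      Finset.prod_range_succ, ih]
    have h2 : (2 : ZMod 2) = 0 := rfl
    have e1 : ((2 * k + 1 + 1 : ℕ) : ZMod 2) = 0 := by push_cast; linear_combination (k + 1) * h2
    have e2 : ((2 * k + 1 + 1 + 1 : ℕ) : ZMod 2) = 1 := by rw [Nat.cast_succ, e1, zero_add]
    rw [e1, e2, show ∑ p : ZMod 2 × ZMod 2, chi (p.1 * p.2 + p.1 * p.1 + 0 * (p.2 * p.2)) = 2 by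
      decide, show ∑ p : ZMod 2 × ZMod 2, chi (p.1 * p.2 + p.1 * p.1 + 1 * (p.2 * p.2)) = -2 by
      decide]
    ring

theorem isPlus_iff (k : ℕ) : Lib.Known.IsPlus (Q (2 * k + 1)) ↔ Odd k := by
  have h := gauss_Q k
  have h4 : (0 : ℤ) < 4 ^ k := by positivity
  by_cases hp : Lib.Known.IsPlus (Q (2 * k + 1))
  · obtain ⟨g, hg⟩ := Lib.Known.exists_equiv_plus (Q_nondegenerate _) (m := 2 * k + 1)
      (by simp [two_mul]) hp
    rw [← g.toEquiv.sum_comp] at h
    simp only [LinearEquiv.coe_toEquiv, hg, gauss_plus] at h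
    refine iff_of_true hp (Nat.not_even_iff_odd.1 fun hk => ?_)
    rw [hk.neg_pow] at h
    have : (0 : ℤ) < 2 ^ (2 * k + 1) := by positivity
    omega
  · obtain ⟨g, hg⟩ := Lib.Known.exists_equiv_minus (Q_nondegenerate _) (m := 2 * k)
      (by simp; ring) hp (a := 1) (b := 1) (by decide)
    rw [← g.toEquiv.sum_comp] at h
    simp only [LinearEquiv.coe_toEquiv, hg, gauss_minus] at h
    refine iff_of_false hp fun hk => ?_
    rw [hk.neg_pow] at h
    have : (0 : ℤ) < 2 ^ (2 * k + 1) := by positivity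
    omega


/-- For k ≥ 1 the symmetric group of degree 4k + 4 embeds in a full orthogonal group in dimension 4k + 2 over the field of two elements: in the isometry group of the plus-type form Σ xᵢyᵢ when k is odd, and in that of the minus-type form Σ xᵢyᵢ + (z₁² + z₁z₂ + z₂²) when k is even (through its action on even partitions of a (4k+4)-set, with the form 'half the size of a part, modulo 2'). -/
theorem result (k : ℕ) (hk : 1 ≤ k) :
    (Odd k → ∃ φ : Equiv.Perm (Fin (4 * k + 4)) →* ↥(Cfsg.isometryGroup (ZMod 2) (Cfsg.quadFormPlus (2 * k + 1) (ZMod 2))), Function.Injective φ) ∧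
    (Even k → ∃ φ : Equiv.Perm (Fin (4 * k + 4)) →* ↥(Cfsg.isometryGroup (ZMod 2) (Cfsg.quadFormMinus (2 * k) (ZMod 2) 1 1)), Function.Injective φ) := by
  obtain ⟨φ, hφ⟩ := exists_hom k hk
  constructor
  · intro h
    obtain ⟨g, hg⟩ := Lib.Known.exists_equiv_plus (Q_nondegenerate _) (m := 2 * k + 1)
      (by simp [two_mul]) ((isPlus_iff k).2 h)
    let e := (oEquivIsom (quadPlus (2 * k + 1) (ZMod 2))).trans
      (Orth.OCongr (Q' := Q _) g one_ne_zero fun v => by rw [hg, one_mul, quadPlus_apply])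
    rw [← coe_quadPlus]
    exact ⟨e.symm.toMonoidHom.comp φ, e.symm.injective.comp hφ⟩
  · intro h
    obtain ⟨g, hg⟩ := Lib.Known.exists_equiv_minus (Q_nondegenerate _) (m := 2 * k)
      (by simp; ring) (fun h' => Nat.not_odd_iff_even.2 h ((isPlus_iff k).1 h')) (a := 1) (b := 1)
      (by decide)
    let e := (oEquivIsom (quadMinus (2 * k) (ZMod 2) 1 1)).trans
      (Orth.OCongr (Q' := Q _) g one_ne_zero fun v => by rw [hg, one_mul, quadMinus_apply])
    rw [← coe_quadMinus]
    exact ⟨e.symm.toMonoidHom.comp φ, e.symm.injective.comp hφ⟩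

end Cfsg.Agent.S2563
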