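import Cfsg.Statements.S2565
import Cfsg.Agent.S0825

set_option autoImplicit false
open Cfsg

namespace Cfsg.Agent.S2565

open Cfsg.Lib.Class


/-- The commutator subgroup of the full orthogonal group of the plus-type form Σ xᵢyᵢ in dimension 6 over the field of two elements (the group Ω⁺₆(2), of index 2) is isomorphic to the alternating group of degree 8. -/
theorem result :
    (Cfsg.Omega (ZMod 2) (Cfsg.quadFormPlus 3 (ZMod 2))).index = 2 ∧
    Nonempty (↥(Cfsg.Omega (ZMod 2) (Cfsg.quadFormPlus 3 (ZMod 2))) ≃* alternatingGroup (Fin 8)) := by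
  obtain ⟨e⟩ := S0825.result (F := ZMod 2) (ZMod.card 2)
  have h1 : commutator (Equiv.Perm (Fin 8)) = alternatingGroup (Fin 8) :=
    alternatingGroup.commutator_perm_eq (by simp)
  refine ⟨?_, ⟨(commutatorEquiv e).trans (MulEquiv.subgroupCongr h1)⟩⟩
  have h2 : (commutator _).map e.toMonoidHom = alternatingGroup (Fin 8) := by
    rw [map_commutator_eq, MonoidHom.range_eq_top.2 e.surjective, ← h1, commutator_def]
  rw [← Subgroup.index_map_equiv _ e]
  exact (congrArg Subgroup.index h2).trans alternatingGroup.index_eq_two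

end Cfsg.Agent.S2565
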