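import Cfsg.Statements.S2566
import Cfsg.Agent.S0299
import Cfsg.Agent.S0250

set_option autoImplicit false
open Cfsg

namespace Cfsg.Agent.S2566

open Cfsg.Lib.Class Matrix S0299

abbrev SL22 : Type := Matrix.SpecialLinearGroup (Fin 2) (ZMod 2)

abbrev O4 : Type := isometryGroup (ZMod 2) (quadFormPlus 2 (ZMod 2))

theorem O4_ext {a b : O4} (h : ∀ v, P (ZMod 2) (a.1.1 *ᵥ v) = P (ZMod 2) (b.1.1 *ᵥ v)) : a = b :=
  Subtype.ext (Units.ext (Matrix.toLin'.injective (LinearMap.ext fun v => P_injective (h v))))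

theorem exists_hom' : ∃ f : SL22 × SL22 →* O4, Function.Injective f ∧
    ∀ g h v, P (ZMod 2) ((f (g, h)).1.1 *ᵥ v) = g.1 * P (ZMod 2) v * h.1.adjugate := by
  obtain ⟨f, hf⟩ := exists_isometryHom_of_invariant
    ((biAct (Fin 2) (ZMod 2)).comp ((H (ZMod 2)).subtype.comp (incl (ZMod 2)))) (P (ZMod 2))
    P_injective (quadFormPlus 2 (ZMod 2)) (fun g v => by
      obtain ⟨w, hw⟩ := exists_P_eq (biAct (Fin 2) (ZMod 2) (incl (ZMod 2) g).1 (P (ZMod 2) v))
      refine ⟨w, hw, ?_⟩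
      rw [← det_P, ← det_P, ← hw, det_biAct _ (mem_H.1 (incl (ZMod 2) g).2)])
  have hf' : ∀ g h v, P (ZMod 2) ((f (g, h)).1.1 *ᵥ v) = g.1 * P (ZMod 2) v * h.1.adjugate :=
    fun g h v => hf (g, h) v
  refine ⟨f, (injective_iff_map_eq_one f).2 fun ⟨g, h⟩ hg => ?_, hf'⟩
  have h1 : ∀ X : Matrix (Fin 2) (Fin 2) (ZMod 2), X * h.1 = g.1 * X := fun X => by
    obtain ⟨v, rfl⟩ := exists_P_eq X
    have := hf' g h v
    rw [hg, OneMemClass.coe_one, Units.val_one, one_mulVec] at this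
    conv_lhs => rw [this]
    rw [Matrix.mul_assoc, adjugate_mul, h.2, one_smul, Matrix.mul_one]
  have h2 : h = g := Subtype.ext (by simpa using h1 1)
  subst h2
  have h4 : h ∈ Subgroup.center _ := Subgroup.mem_center_iff.2 fun x => Subtype.ext (h1 x)
  obtain ⟨r, hr1, hr2⟩ := Matrix.SpecialLinearGroup.mem_center_iff.1 h4
  have h5 : r = 1 := by clear hr2; revert r; decide
  have : h = 1 := Subtype.ext (by rw [← hr2, h5, map_one]; rfl)
  rw [this]; rfl

theorem exists_swap : ∃ s : O4, ∀ v, P (ZMod 2) (s.1.1 *ᵥ v) = (P (ZMod 2) v).adjugate := by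
  let σ : Equiv.Perm (Fin 2 ⊕ Fin 2) := Equiv.swap (.inl 0) (.inr 0)
  have hd : (σ.permMatrix (ZMod 2)).det ≠ 0 := by
    rw [Matrix.det_permutation, Equiv.Perm.sign_swap (by simp)]
    decide
  refine ⟨⟨Matrix.GeneralLinearGroup.mkOfDetNeZero _ hd, (mem_isometryGroup_iff _ _).2 fun v => ?_⟩,
    fun v => ?_⟩
  · change quadFormPlus 2 (ZMod 2) (σ.permMatrix (ZMod 2) *ᵥ v) = _
    rw [Matrix.permMatrix_mulVec, quadFormPlus_swap]
  · change P (ZMod 2) (σ.permMatrix (ZMod 2) *ᵥ v) = _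
    rw [Matrix.permMatrix_mulVec, P_apply, P_apply, adjugate_fin_two_of]
    simp [σ, Equiv.swap_apply_of_ne_of_ne, ZModModule.neg_eq_self]


/-- The full orthogonal group of the plus-type form x₁y₁ + x₂y₂ in dimension 4 over the field of two elements has order 72 and is isomorphic to the wreath product of the symmetric group of degree 3 by a group of order 2: it has a normal subgroup isomorphic to the direct product of two symmetric groups of degree 3, of index 2, whose two direct factors are interchanged by conjugation by some element. -/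
theorem result :
    Nat.card ↥(Cfsg.isometryGroup (ZMod 2) (Cfsg.quadFormPlus 2 (ZMod 2))) = 72 ∧
    ∃ (A B : Subgroup ↥(Cfsg.isometryGroup (ZMod 2) (Cfsg.quadFormPlus 2 (ZMod 2)))),
      Nonempty (↥A ≃* Equiv.Perm (Fin 3)) ∧ Nonempty (↥B ≃* Equiv.Perm (Fin 3)) ∧ A ⊓ B = ⊥ ∧ (∀ a ∈ A, ∀ b ∈ B, a * b = b * a) ∧
      (A ⊔ B).index = 2 ∧ ∃ g : ↥(Cfsg.isometryGroup (ZMod 2) (Cfsg.quadFormPlus 2 (ZMod 2))), A.map (MulAut.conj g).toMonoidHom = B := by
  have hc : Nat.card O4 = 72 := by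
    rw [S0287.result (F := ZMod 2) (q := 2) (ZMod.card 2) 2 (by norm_num)]
    simp
  obtain ⟨f, hf, hf'⟩ := exists_hom'
  obtain ⟨s, hs⟩ := exists_swap
  obtain ⟨e⟩ := S0250.result (F := ZMod 2) (ZMod.card 2)
  have hl : Function.Injective (f.comp (MonoidHom.inl _ _)) :=
    hf.comp fun a b h => congrArg Prod.fst h
  have hr : Function.Injective (f.comp (MonoidHom.inr _ _)) :=
    hf.comp fun a b h => congrArg Prod.snd h
  refine ⟨hc, (f.comp (MonoidHom.inl _ _)).range, (f.comp (MonoidHom.inr _ _)).range,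
    ⟨(MonoidHom.ofInjective hl).symm.trans e⟩, ⟨(MonoidHom.ofInjective hr).symm.trans e⟩, ?_, ?_,
    ?_, s, ?_⟩
  · rw [eq_bot_iff]
    rintro _ ⟨⟨a, rfl⟩, b, hb⟩
    have : (1 : SL22) = a := congrArg Prod.fst (hf hb)
    rw [← this, map_one]
    exact Subgroup.one_mem _
  · rintro _ ⟨a, rfl⟩ _ ⟨b, rfl⟩
    simp only [MonoidHom.comp_apply, ← map_mul, MonoidHom.inl_apply, MonoidHom.inr_apply,
      Prod.mk_mul_mk, mul_one, one_mul]
  · have h1 : (f.comp (MonoidHom.inl _ _)).range ⊔ (f.comp (MonoidHom.inr _ _)).range =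
        f.range := by
      refine le_antisymm (sup_le ?_ ?_) ?_
      · rintro _ ⟨a, rfl⟩; exact ⟨_, rfl⟩
      · rintro _ ⟨a, rfl⟩; exact ⟨_, rfl⟩
      · rintro _ ⟨⟨a, b⟩, rfl⟩
        have : f (a, b) = f (a, 1) * f (1, b) := by rw [← map_mul]; simp
        rw [this]
        exact Subgroup.mul_mem_sup ⟨a, rfl⟩ ⟨b, rfl⟩
    have h2 := f.range.index_mul_card
    rw [hc, ← Nat.card_congr (MonoidHom.ofInjective hf).toEquiv, Nat.card_prod,
      card_SL_fin_two (ZMod.card 2)] at h2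
    rw [h1]
    omega
  · have key : ∀ a : SL22, s * f (a, 1) = f (1, a) * s := fun a => O4_ext fun v => by
      simp only [Subgroup.coe_mul, Units.val_mul, ← mulVec_mulVec, hs, hf', adjugate_mul_distrib]
      change (1 : Matrix _ _ _).adjugate.adjugate * _ = (1 : Matrix _ _ _) * _ * _
      simp
    ext x
    constructor
    · rintro ⟨_, ⟨a, rfl⟩, rfl⟩
      exact ⟨a, (mul_inv_eq_iff_eq_mul.2 (key a)).symm⟩
    · rintro ⟨a, rfl⟩
      exact ⟨_, ⟨a, rfl⟩, mul_inv_eq_iff_eq_mul.2 (key a)⟩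

end Cfsg.Agent.S2566
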