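import Cfsg.Statements.S2567
import Mathlib
import Cfsg.Agent.Known.GLOrder

set_option autoImplicit false
open Cfsg

namespace Cfsg.Agent.S2567

open Cfsg.Lib.Known Polynomial

/-- Lifting elements of prime order from PGL to GL: let F be a finite field with q elements, r a prime not dividing q − 1, and x an element of order r in GL_n(F) modulo its centre (the scalar matrices). Then x has exactly one preimage in GL_n(F) of order r. -/
theorem result {F : Type*} [Field F] [Fintype F] {q n r : ℕ} (hF : Fintype.card F = q) (hr : r.Prime) (hdiv : ¬ r ∣ q - 1) (x : GL (Fin n) F ⧸ Subgroup.center (GL (Fin n) F)) (hx : orderOf x = r) : ∃! g : GL (Fin n) F, (QuotientGroup.mk g : GL (Fin n) F ⧸ Subgroup.center (GL (Fin n) F)) = x ∧ orderOf g = r := by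
  have : Fact r.Prime := ⟨hr⟩
  have hZ : ∀ z ∈ Subgroup.center (GL (Fin n) F), z ^ (q - 1) = 1 := by
    intro z hz
    rw [Matrix.GeneralLinearGroup.center_eq_range_scalar] at hz
    obtain ⟨c, rfl⟩ := hz
    rw [← map_pow, ← hF, ← Nat.card_eq_fintype_card, units_pow_card_sub_one, map_one]
  have hcop : r.Coprime (q - 1) := (Nat.Prime.coprime_iff_not_dvd hr).mpr hdiv
  obtain ⟨g, rfl⟩ := QuotientGroup.mk_surjective x
  have hg : g ^ r ∈ Subgroup.center (GL (Fin n) F) := by
    rw [← QuotientGroup.eq_one_iff, QuotientGroup.mk_pow, ← hx, pow_orderOf_eq_one]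
  have hne : ∀ h : GL (Fin n) F, (QuotientGroup.mk h : GL (Fin n) F ⧸ Subgroup.center _) =
      QuotientGroup.mk g → h ≠ 1 := by
    rintro h hh rfl
    rw [← hh] at hx
    exact hr.ne_one (by simpa using hx.symm)
  obtain ⟨m, hm⟩ := exists_pow_eq_self_of_coprime (x := g ^ r) (n := r)
    (Nat.Coprime.coprime_dvd_right (orderOf_dvd_of_pow_eq_one (hZ _ hg)) hcop)
  have hgm : (g ^ r) ^ m ∈ Subgroup.center (GL (Fin n) F) := pow_mem hg m
  have hmk : (QuotientGroup.mk (g * ((g ^ r) ^ m)⁻¹) : GL (Fin n) F ⧸ Subgroup.center _) =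
      QuotientGroup.mk g := QuotientGroup.mk_mul_of_mem g (inv_mem hgm)
  refine ⟨g * ((g ^ r) ^ m)⁻¹, ⟨hmk, orderOf_eq_prime ?_ (hne _ hmk)⟩, ?_⟩
  · rw [Commute.mul_pow (((Commute.refl g).pow_right _).pow_right _).inv_right, inv_pow,
      ← pow_mul (g ^ r), mul_comm m r, pow_mul (g ^ r), hm, mul_inv_cancel]
  · rintro h ⟨hh, hhr⟩
    have h0 : (g * ((g ^ r) ^ m)⁻¹) ^ r = 1 := by
      rw [Commute.mul_pow (((Commute.refl g).pow_right _).pow_right _).inv_right, inv_pow,
        ← pow_mul (g ^ r), mul_comm m r, pow_mul (g ^ r), hm, mul_inv_cancel]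
    rw [← hmk, QuotientGroup.eq] at hh
    set g' := g * ((g ^ r) ^ m)⁻¹
    have h1 : (h * (h⁻¹ * g')) ^ r = h ^ r * (h⁻¹ * g') ^ r :=
      Commute.mul_pow (Subgroup.mem_center_iff.mp hh h) r
    rw [mul_inv_cancel_left, h0, ← hhr, pow_orderOf_eq_one, one_mul, hhr] at h1
    have h2 := (pow_gcd_eq_one.mpr ⟨h1.symm, hZ _ hh⟩)
    rw [hcop.gcd_eq_one, pow_one, inv_mul_eq_one] at h2
    exact h2

end Cfsg.Agent.S2567
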