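import Cfsg.Statements.S2568
import Mathlib
import Cfsg.Agent.Known.PrimeOrdCount

set_option autoImplicit false
open Cfsg

namespace Cfsg.Agent.S2568

open Cfsg.Lib.Known

/-- Number of conjugacy classes of elements of a given prime order r, coprime to the characteristic, in GL_n(q): if i is the multiplicative order of q modulo r and t = (r − 1)/i, the classes correspond to the non-zero t-tuples of natural numbers (a_1, …, a_t) with i(a_1 + ⋯ + a_t) ≤ n (a_j is the multiplicity of the j-th Frobenius orbit of nontrivial r-th roots of unity among the eigenvalues), so there are exactly C(⌊n/i⌋ + t, t) − 1 of them. -/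
theorem result {F : Type*} [Field F] [Fintype F] {p q : ℕ} [Fact p.Prime] [CharP F p] (hF : Fintype.card F = q) (n r i t : ℕ) (hr : r.Prime) (hrp : r ≠ p) (hi : i = orderOf (q : ZMod r)) (ht : t * i = r - 1) : Nat.card {C : ConjClasses (GL (Fin n) F) // ∃ g : GL (Fin n) F, ConjClasses.mk g = C ∧ orderOf g = r} = Nat.choose (n / i + t) t - 1 := by
  have : Fact r.Prime := ⟨hr⟩
  subst hF
  rw [card_GL_classes _ (PrimeOrdType r) (GL_orderOf_eq_prime_iff r), Fintype.card_fin]
  have h1 := card_primeOrdType (K := F) p hrp n (fun _ => True)
  simp only [true_and, and_true] at h1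
  have h0 := orderOf_card_pos (K := F) p hrp
  have h2 : (cycFactors F r).card = t := by
    have := card_cycFactors (K := F) p hrp
    rw [← ht, hi, mul_comm] at this
    exact Nat.eq_of_mul_eq_mul_right h0 this
  rw [h1, hi, ← h2, ← card_multiset_mem_le]
  simp only [mul_comm (orderOf _), ← Nat.le_div_iff_mul_le h0]
  have := finite_multiset_mem_le (cycFactors F r) (n / orderOf (Fintype.card F : ZMod r))
  exact card_subtype_ne _ (by simp)

end Cfsg.Agent.S2568
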