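import Cfsg.Statements.S2569
import Mathlib
import Cfsg.Agent.Known.GLDet

set_option autoImplicit false
open Cfsg

namespace Cfsg.Agent.S2569

open Cfsg.Lib.Known

/-- In GL_n over a finite field of characteristic p, the conjugacy class of a semisimple element (an element of order prime to p) under the special linear group is its whole GL-conjugacy class: for every such x and every invertible g there is h of determinant one with h x h⁻¹ = g x g⁻¹. -/
theorem result {F : Type*} [Field F] [Fintype F] {p : ℕ} [Fact p.Prime] [CharP F p] {n : ℕ} (x g : GL (Fin n) F) (hx : (orderOf x).Coprime p) : ∃ h : GL (Fin n) F, (h : Matrix (Fin n) (Fin n) F).det = 1 ∧ h * x * h⁻¹ = g * x * g⁻¹ := by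
  rcases isEmpty_or_nonempty (Fin n) with hn | hn
  · exact ⟨g, Matrix.det_isEmpty, rfl⟩
  have h1 := map_det_centralizer_eq_top_of_semisimple x (GL_elDivM_snd_eq_one p hx)
  have h2 : (Matrix.GeneralLinearGroup.det g)⁻¹ ∈
      (Subgroup.centralizer {x}).map Matrix.GeneralLinearGroup.det := h1 ▸ Subgroup.mem_top _
  obtain ⟨c, hc, hc'⟩ := h2
  rw [SetLike.mem_coe, Subgroup.mem_centralizer_singleton_iff] at hc
  refine ⟨g * c, ?_, ?_⟩
  · have : Matrix.GeneralLinearGroup.det (g * c) = 1 := by rw [map_mul, hc', mul_inv_cancel]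
    exact congrArg Units.val this
  · calc g * c * x * (g * c)⁻¹ = g * (c * x) * c⁻¹ * g⁻¹ := by group
      _ = g * x * g⁻¹ := by rw [hc]; group

end Cfsg.Agent.S2569
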