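import Cfsg.Statements.S2570
import Mathlib
import Cfsg.Agent.Known.GLClasses

set_option autoImplicit false
open Cfsg

namespace Cfsg.Agent.S2570

open Cfsg.Lib.Known Polynomial

/-- Number of conjugacy classes of elements of order p in GL_n over a finite field of characteristic p: they correspond to the Jordan types, that is, to the partitions of n with all parts at most p other than the partition into ones, so there are (number of partitions of n with parts ≤ p) − 1 of them. -/
theorem result {F : Type*} [Field F] [Fintype F] {p : ℕ} [Fact p.Prime] [CharP F p] (n : ℕ) : Nat.card {C : ConjClasses (GL (Fin n) F) // ∃ g : GL (Fin n) F, ConjClasses.mk g = C ∧ orderOf g = p} = (Finset.univ.filter (fun μ : Nat.Partition n => ∀ a ∈ μ.parts, a ≤ p)).card - 1 := by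
  classical
  have hp : p.Prime := Fact.out
  rw [card_GL_classes _ (fun s => (∀ x ∈ s, x.1 = X - 1) ∧
      ((∀ a ∈ s.map Prod.snd, a ≤ p) ∧ ¬ ∀ a ∈ s.map Prod.snd, a ≤ 1)) fun g => ?_,
    Nat.card_congr (unipotentTypeEquiv _ fun l => (∀ a ∈ l, a ≤ p) ∧ ¬ ∀ a ∈ l, a ≤ 1),
    Fintype.card_fin, Nat.card_eq_fintype_card, Fintype.card_subtype]
  · let o : Nat.Partition n := ⟨Multiset.replicate n 1, fun hi => by
      rw [Multiset.eq_of_mem_replicate hi]; exact Nat.one_pos, by simp⟩
    have ho : ∀ μ : Nat.Partition n, (∀ a ∈ μ.parts, a ≤ 1) ↔ μ = o := by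
      intro μ
      constructor
      · intro h
        apply Nat.Partition.ext
        have h1 : μ.parts = Multiset.replicate μ.parts.card 1 :=
          Multiset.eq_replicate_card.mpr fun b hb => le_antisymm (h b hb) (μ.parts_pos hb)
        have h2 := μ.parts_sum
        rw [h1, Multiset.sum_replicate, smul_eq_mul, mul_one] at h2
        rw [h1, h2]
      · rintro rfl a ha
        exact (Multiset.eq_of_mem_replicate ha).le
    rw [← Finset.card_erase_of_mem (a := o)]
    · congr 1
      ext μ
      simp [ho, and_comm]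
    · simp only [Finset.mem_filter, Finset.mem_univ, true_and]
      intro a ha
      rw [Multiset.eq_of_mem_replicate ha]
      exact hp.one_lt.le
  · have h1 := GL_pow_char_pow_eq_one_iff p g 1
    rw [pow_one, sub_one_pow_eq_zero_iff] at h1
    have h2 := sub_one_pow_eq_zero_iff (g : Matrix (Fin n) (Fin n) F) 1
    rw [pow_one, sub_eq_zero, ← Units.val_one, ← Units.ext_iff] at h2
    rw [orderOf_eq_prime_iff, h1, Ne, h2]
    simp only [Multiset.mem_map, forall_exists_index, and_imp, forall_apply_eq_imp_iff₂]
    constructor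
    · rintro ⟨h3, h4⟩
      exact ⟨fun x hx => (h3 x hx).1, fun x hx => (h3 x hx).2,
        fun h5 => h4 fun x hx => ⟨(h3 x hx).1, h5 x hx⟩⟩
    · rintro ⟨h3, h4, h5⟩
      exact ⟨fun x hx => ⟨h3 x hx, h4 x hx⟩, fun h6 => h5 fun x hx => (h6 x hx).2⟩

end Cfsg.Agent.S2570
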