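import Cfsg.Statements.S2572
import Mathlib
import Cfsg.Agent.Known.UnipCent

set_option autoImplicit false
open Cfsg

namespace Cfsg.Agent.S2572

open Cfsg.Lib.Known Module

/-- Centraliser of a transvection in GL_n(q), n ≥ 2: if t − 1 has rank one and square zero, the centraliser of t in GL_n(q) has order q^(2n−3) (q − 1) |GL_(n−2)(q)| (a group of order q^(2n−3) extended by GL_1(q) × GL_(n−2)(q)). -/
theorem result {F : Type*} [Field F] [Fintype F] {q n : ℕ} (hF : Fintype.card F = q) (hn : 2 ≤ n) (t : GL (Fin n) F) (ht : Cfsg.IsTransvection (t : Matrix (Fin n) (Fin n) F)) : Nat.card ↥(Subgroup.centralizer ({t} : Set (GL (Fin n) F))) = q ^ (2 * n - 3) * (q - 1) * ∏ i : Fin (n - 2), (q ^ (n - 2) - q ^ (i : ℕ)) := by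
  obtain ⟨N, hN⟩ : ∃ N : End F (Fin n → F),
    N = Matrix.toLin' (t : Matrix (Fin n) (Fin n) F) - (1 : F) • 1 := ⟨_, rfl⟩
  have h1 : N = Matrix.toLin' ((t : Matrix (Fin n) (Fin n) F) - 1) := by
    rw [hN, map_sub, Matrix.toLin'_one, one_smul]; rfl
  have h2 : N ^ 2 = 0 := by
    rw [h1, sq, End.mul_eq_comp, ← Matrix.toLin'_mul, ht.2, map_zero]
  obtain ⟨k, hk⟩ : ∃ k : ℕ → ℕ, ∀ i, finrank F (LinearMap.ker (N ^ i)) = k i := ⟨_, fun _ => rfl⟩
  have k0 : k 0 = 0 := by
    rw [← hk, pow_zero, End.one_eq_id, LinearMap.ker_id, finrank_bot]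
  have k1 : k 1 + 1 = n := by
    have := finrank_ker_add_rank ((t : Matrix (Fin n) (Fin n) F) - 1)
    rwa [ht.1, Fintype.card_fin, ← h1, ← pow_one N, hk] at this
  have k2 : ∀ i, k (i + 2) = n := fun i => by
    rw [← hk, pow_add, h2, mul_zero, LinearMap.ker_zero, finrank_top]; simp
  have r0 := finrank_layerRad N 0
  have r1 := finrank_layerRad N 1
  have a0 := finrank_lay N 0
  have a1 := finrank_lay N 1
  have k3 := k2 0
  have k4 := k2 1
  simp only [hk, zero_add, Nat.reduceAdd] at k3 k4 r0 r1 a0 a1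
  have e0 : finrank F (Lay N 0) = n - 2 := by omega
  have e1 : finrank F (Lay N 1) = 1 := by omega
  have e2 : finrank F (layerRad N 0) = 1 := by omega
  have e3 : finrank F (layerRad N 1) = n - 1 := by omega
  rw [show Nat.card (Subgroup.centralizer ({t} : Set (GL (Fin n) F))) = Nat.card {g : GL (Fin n) F //
      (g : Matrix (Fin n) (Fin n) F) * t = t * g} from Nat.card_congr
      (Equiv.subtypeEquivRight fun g => by
        rw [Subgroup.mem_centralizer_singleton_iff, Units.ext_iff]; rfl),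
    card_commute_GL _ 1, ← hN, card_centU h2]
  simp only [Fin.sum_univ_two, Fin.prod_univ_two, Fin.val_zero, Fin.val_one]
  rw [card_units_End, card_units_End, Nat.card_eq_fintype_card, hF]
  rw [e0, e1, e2, e3, show (n - 2) * 1 + 1 * (n - 1) = 2 * n - 3 by omega]
  simp only [Fin.prod_univ_one, Fin.val_zero, pow_zero, pow_one]
  ring

end Cfsg.Agent.S2572
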