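import Cfsg.Statements.S2573
import Mathlib
import Cfsg.Agent.Known.GLCyclic

set_option autoImplicit false
open Cfsg

namespace Cfsg.Agent.S2573

open Cfsg.Lib.Known Polynomial

/-- The invariant subspaces of a regular unipotent matrix form a chain: over a finite field, if u is an n × n matrix with (u − 1)^n = 0 and rank(u − 1) = n − 1, then every subspace W of F^n with u W ⊆ W is the kernel of (u − 1)^(dim W); so u has at most one invariant subspace of each dimension. -/
theorem result {F : Type*} [Field F] [Finite F] {n : ℕ} (u : Matrix (Fin n) (Fin n) F) (hnil : (u - 1) ^ n = 0) (hreg : (u - 1).rank = n - 1) (W : Submodule F (Fin n → F)) (hW : ∀ v ∈ W, u.mulVec v ∈ W) : W = LinearMap.ker (Matrix.mulVecLin ((u - 1) ^ Module.finrank F W)) := by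
  classical
  rcases Nat.eq_zero_or_pos n with rfl | hn
  · exact Subsingleton.elim _ _
  have h1 := elDivM_regular_unipotent (A := u) (by simpa using hn) ⟨n, hnil⟩ (by simp [hreg])
  have h2 := kerDim_add_rank u monic_X_sub_one irreducible_X_sub_one (Module.finrank F W)
  have h3 := finrank_ker_add_rank ((u - 1) ^ Module.finrank F W)
  rw [aeval_X_sub_one_pow, h1] at h2
  have h4 : kerDim {((X - 1 : F[X]), Fintype.card (Fin n))} (X - 1) (Module.finrank F W) ≤
      Module.finrank F W := by
    simp [kerDim, natDegree_X_sub_one]
  apply Submodule.eq_of_le_of_finrank_le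
  · have hN : ∀ v ∈ W, Matrix.toLin' (u - 1) v ∈ W := by
      intro v hv
      rw [Matrix.toLin'_apply, Matrix.sub_mulVec, Matrix.one_mulVec]
      exact W.sub_mem (hW v hv) hv
    have hnil' : IsNilpotent ((Matrix.toLin' (u - 1)).restrict hN) := by
      refine Module.End.isNilpotent.restrict hN ⟨n, ?_⟩
      rw [← Matrix.toLin'_pow, hnil, map_zero]
    have h5 := LinearMap.aeval_self_charpoly ((Matrix.toLin' (u - 1)).restrict hN)
    rw [hnil'.charpoly_eq_X_pow_finrank, map_pow, aeval_X, Module.End.pow_restrict] at h5
    intro v hv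
    have h6 := congrArg (fun t : Module.End F W => (t ⟨v, hv⟩ : Fin n → F)) h5
    simp only [LinearMap.restrict_apply, LinearMap.zero_apply, ZeroMemClass.coe_zero] at h6
    rw [← Matrix.toLin'_pow] at h6
    exact h6
  · have h7 : Module.finrank F (LinearMap.ker (Matrix.toLin' ((u - 1) ^ Module.finrank F W))) ≤
        Module.finrank F W := by omega
    exact h7

end Cfsg.Agent.S2573
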