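import Cfsg.Statements.S2574
import Cfsg.Agent.Known.SpSemi

set_option autoImplicit false
open Cfsg

namespace Cfsg.Agent.S2574

open Cfsg.Lib.Known Cfsg.Lib.Class Polynomial

/-- A regular unipotent element of the symplectic group has totally isotropic small invariant subspaces: over a finite field, if u ∈ Sp_2m(F) satisfies (u − 1)^(2m) = 0 and rank(u − 1) = 2m − 1, and W is a u-invariant subspace with 2 dim W ≤ 2m, then the alternating form vanishes identically on W. -/
theorem result {F : Type*} [Field F] [Finite F] {m : ℕ} (u : Matrix.symplecticGroup (Fin m) F) (hnil : ((u : Matrix (Fin m ⊕ Fin m) (Fin m ⊕ Fin m) F) - 1) ^ (2 * m) = 0) (hreg : ((u : Matrix (Fin m ⊕ Fin m) (Fin m ⊕ Fin m) F) - 1).rank = 2 * m - 1) (W : Submodule F (Fin m ⊕ Fin m → F)) (hW : ∀ v ∈ W, (u : Matrix (Fin m ⊕ Fin m) (Fin m ⊕ Fin m) F).mulVec v ∈ W) (hdim : 2 * Module.finrank F W ≤ 2 * m) : ∀ v ∈ W, ∀ w ∈ W, Cfsg.sympForm m F v w = 0 := by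
  rcases Nat.eq_zero_or_pos m with rfl | hm
  · intro v _ w _
    simp [sympForm_eq]
  have h1 := elDivM_regular_unipotent (A := (u : Matrix (Fin m ⊕ Fin m) (Fin m ⊕ Fin m) F))
    (by simp; omega) ⟨_, hnil⟩ (by simp [hreg, two_mul])
  set g := Matrix.toLin' (u : Matrix (Fin m ⊕ Fin m) (Fin m ⊕ Fin m) F) with hg
  have h2 : elDiv g = {(X - C 1, 2 * m)} := by
    rw [C_1, hg, ← elDivM, h1]; simp [two_mul]
  have h3 := pow_finrank_apply_eq_zero (N := g - (1 : F) • 1) ⟨_, pow_eq_zero_of_singleton h2⟩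
    (W := W) fun v hv => by
      rw [one_smul]
      exact W.sub_mem (hW v hv) hv
  have hh := hform_of_isAlt (sympBilin_nondegenerate (F := F) m) (sympBilin_isAlt m)
  have h4 := hh.orth_ker_pow (g := g) (l := 1) (sympBilin_mulVec u) (by simp) rfl
    (Module.finrank F W)
  intro v hv w hw
  have h5 : w ∈ LinearMap.range ((g - (1 : F) • 1) ^ Module.finrank F W) := by
    rw [range_pow_eq_ker_of_singleton h2 (j := 2 * m - Module.finrank F W) (by omega),
      LinearMap.mem_ker, show 2 * m - Module.finrank F W =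
        (2 * m - 2 * Module.finrank F W) + Module.finrank F W by omega, pow_add,
      Module.End.mul_apply, h3 w hw, map_zero]
  rw [← h4] at h5
  rw [← sympBilin_apply]
  exact h5 v (h3 v hv)

end Cfsg.Agent.S2574
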