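import Cfsg.Statements.S2576
import Mathlib
import Cfsg.Agent.Known.GLOrder

set_option autoImplicit false
open Cfsg

namespace Cfsg.Agent.S2576

open Cfsg.Lib.Known Polynomial

/-- Which involutions of PGL_2m(q) coming from a scalar of the quadratic extension field lie in PSL_2m(q), q odd: let μ generate the Sylow 2-subgroup of the multiplicative group of the field with q elements (μ has order the 2-part of q − 1) and let t be the block-diagonal matrix with m diagonal blocks [[0, 1], [μ, 0]] (so t² is the scalar μ and t is an involution modulo scalars). Then some non-zero scalar multiple of t has determinant one if and only if q ≡ 3 (mod 4) or the 2-part of q − 1 is less than the 2-part of 2m. -/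
theorem result {F : Type*} [Field F] [Fintype F] {q : ℕ} (hF : Fintype.card F = q) (hq : Odd q) {m : ℕ} (hm : 1 ≤ m) (μ : F) (hμ : orderOf μ = 2 ^ padicValNat 2 (q - 1)) : (∃ c : F, c ≠ 0 ∧ (c • Matrix.blockDiagonal (fun _ : Fin m => !![(0 : F), 1; μ, 0])).det = 1) ↔ (q % 4 = 3 ∨ padicValNat 2 (q - 1) < padicValNat 2 (2 * m)) := by
  classical
  have hq1 : 1 < q := hF ▸ Fintype.one_lt_card
  have hq2 := Nat.odd_iff.mp hq
  have hdet : ∀ c : F, (c • Matrix.blockDiagonal (fun _ : Fin m => !![(0 : F), 1; μ, 0])).det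
      = c ^ (2 * m) * (-μ) ^ m := by
    intro c
    rw [Matrix.det_smul, Matrix.det_blockDiagonal]
    simp [Matrix.det_fin_two]
  simp only [hdet]
  set a := padicValNat 2 (q - 1) with ha
  have ha1 : 1 ≤ a := by
    rw [ha, ← padicValNat_dvd_iff_le (by omega)]; omega
  have hμ0 : μ ≠ 0 := by
    rintro rfl
    have := pow_orderOf_eq_one (0 : F)
    rw [hμ, zero_pow (by positivity)] at this
    exact zero_ne_one this
  by_cases h3 : q % 4 = 3
  · simp only [h3, true_or, iff_true]
    have ha2 : a = 1 := by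
      by_contra hne
      have : 2 ^ 2 ∣ q - 1 := by rw [padicValNat_dvd_iff_le (by omega)]; omega
      omega
    rw [ha2, pow_one] at hμ
    have h4 : μ ^ 2 = 1 := hμ ▸ pow_orderOf_eq_one μ
    have h5 : μ ≠ 1 := by rintro rfl; simp at hμ
    have h6 : μ = -1 := (sq_eq_one_iff.mp h4).resolve_left h5
    exact ⟨1, one_ne_zero, by simp [h6]⟩
  · simp only [h3, false_or]
    have ha2 : 2 ≤ a := by
      rw [ha, ← padicValNat_dvd_iff_le (by omega)]; omega
    let ν : Fˣ := Units.mk0 (-μ) (neg_ne_zero.mpr hμ0)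
    have hν : orderOf ν = 2 ^ a := by
      obtain ⟨b, hb⟩ : ∃ b, a = b + 1 := ⟨a - 1, by omega⟩
      rw [← orderOf_units, hb]
      change orderOf (-μ) = _
      have he : ∀ k, 1 ≤ k → (-μ) ^ 2 ^ k = μ ^ 2 ^ k := fun k hk =>
        Even.neg_pow ((Nat.even_pow' (by omega)).mpr even_two) μ
      apply orderOf_eq_prime_pow
      · rw [he b (by omega), ← orderOf_dvd_iff_pow_eq_one, hμ, hb,
          Nat.pow_dvd_pow_iff_le_right one_lt_two]
        omega
      · rw [he _ (by omega), ← hb, ← hμ, pow_orderOf_eq_one]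
    have h2 := field_exists_pow_eq_iff (K := F) (2 * m) (ν ^ m)⁻¹
    have hv : padicValNat 2 (2 * m) = padicValNat 2 m + 1 := by
      rw [padicValNat.mul two_ne_zero (by omega), padicValNat_self, add_comm]
    have h4 : orderOf (ν ^ m)⁻¹ = 2 ^ (a - min a (padicValNat 2 m)) := by
      rw [orderOf_inv, orderOf_pow, hν]
      obtain ⟨k, hk, hk'⟩ := (Nat.dvd_prime_pow Nat.prime_two).mp (Nat.gcd_dvd_left (2 ^ a) m)
      have h5 : k = min a (padicValNat 2 m) := by
        have h6 : padicValNat 2 ((2 ^ a).gcd m) = min (padicValNat 2 (2 ^ a)) (padicValNat 2 m) := by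
          rw [← Nat.factorization_def _ Nat.prime_two, ← Nat.factorization_def _ Nat.prime_two,
            ← Nat.factorization_def _ Nat.prime_two,
            Nat.factorization_gcd (by positivity) (by omega), Finsupp.inf_apply]
        rwa [hk', padicValNat.prime_pow, padicValNat.prime_pow] at h6
      rw [hk', Nat.pow_div hk two_pos, h5]
    rw [h4, two_pow_dvd_div_gcd_iff (by rw [Nat.card_eq_fintype_card, hF]; omega) (by omega),
      Nat.card_eq_fintype_card, hF, ← ha, hv] at h2
    have h5 : ∀ c : F, c ^ (2 * m) * (-μ) ^ m = 1 ↔ c ^ (2 * m) = ((ν ^ m)⁻¹ : Fˣ) := by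
      intro c
      rw [Units.val_inv_eq_inv_val, Units.val_pow_eq_pow_val]
      exact mul_eq_one_iff_eq_inv₀ (pow_ne_zero _ (neg_ne_zero.mpr hμ0))
    simp only [h5]
    rw [h2, hv]
    omega

end Cfsg.Agent.S2576
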