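import Cfsg.Statements.S2670
import Mathlib
import Cfsg.Agent.Known.PGLCount

set_option autoImplicit false
open Cfsg

namespace Cfsg.Agent.S2670

open Cfsg.Lib.Known Cfsg.Lib.Known.PGLC

/-- Number of conjugacy classes of elements of prime order r in PGL_n(q) = GL_n(q)/scalars when r divides q − 1 (n ≥ 2): the classes of elements with a diagonalisable lift correspond to the orbits of the cyclic rotation on the r-tuples of eigenvalue multiplicities (a_0, …, a_(r−1)) summing to n with every a_j < n, and when r divides n there are r − 1 further classes (lifts acting irreducibly on blocks of size r); in all (C(n+r−1, r−1) − r − [r ∣ n])/r + r·[r ∣ n] classes. -/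
theorem result {F : Type*} [Field F] [Fintype F] {q : ℕ} (hF : Fintype.card F = q) {n r : ℕ} (hn : 2 ≤ n) (hr : r.Prime) (hrq : r ∣ q - 1) : Nat.card {C : ConjClasses (GL (Fin n) F ⧸ Subgroup.center (GL (Fin n) F)) // ∃ g : GL (Fin n) F ⧸ Subgroup.center (GL (Fin n) F), ConjClasses.mk g = C ∧ orderOf g = r} = (Nat.choose (n + r - 1) (r - 1) - r - (if r ∣ n then 1 else 0)) / r + r * (if r ∣ n then 1 else 0) := by
  have hM : Mono (Units.coeHom (Matrix (Fin n) (Fin n) F)) (⊤ : Subgroup Fˣ) :=
    { inj := Units.val_injective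
      conj := fun g h => GL_isConj_iff_isConj.2
      mon := fun σ d => ⟨(isUnit_mon σ fun i => (d i).1.ne_zero).unit, rfl⟩
      scal := fun g a h => by
        have : Nonempty (Fin n) := ⟨⟨0, by omega⟩⟩
        have ha : a ≠ 0 := by
          rintro rfl
          exact g.ne_zero (h.trans (zero_smul _ _))
        exact ⟨⟨Units.mk0 a ha, trivial⟩, rfl⟩ }
  have : Nonempty (Fin n) := ⟨⟨0, by omega⟩⟩
  have := hM.card_classes hr (by rwa [Subgroup.card_top, Nat.card_units, Nat.card_eq_fintype_card, hF])
    fun b c hb => ⟨⟨Units.mk0 b (by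
      rintro rfl
      exact c.1.ne_zero (hb.symm.trans (zero_pow hr.ne_zero))), trivial⟩, rfl⟩
  simpa only [Fintype.card_fin] using this

end Cfsg.Agent.S2670
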