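import Cfsg.Statements.S2578
import Mathlib
import Cfsg.Agent.Known.GLCyclic

set_option autoImplicit false
open Cfsg

namespace Cfsg.Agent.S2578

open Cfsg.Lib.Known Polynomial

/-- Regular unipotent classes of SL_n(q): for n ≥ 2 over the field with q elements, the matrices u of determinant one with (u − 1)^n = 0 and rank(u − 1) = n − 1 form a single GL_n(q)-class which splits into exactly gcd(n, q − 1) conjugacy classes of SL_n(q). -/
theorem result {F : Type*} [Field F] [Fintype F] {q : ℕ} (hF : Fintype.card F = q) {n : ℕ} (hn : 2 ≤ n) : Nat.card {C : ConjClasses (Matrix.SpecialLinearGroup (Fin n) F) // ∃ u : Matrix.SpecialLinearGroup (Fin n) F, ConjClasses.mk u = C ∧ ((u : Matrix (Fin n) (Fin n) F) - 1) ^ n = 0 ∧ ((u : Matrix (Fin n) (Fin n) F) - 1).rank = n - 1} = Nat.gcd n (q - 1) := by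
  have hn0 : 0 < n := by omega
  have : Nonempty (Fin n) := ⟨⟨0, hn0⟩⟩
  have hJ := elDivM_jordanBlock (K := F) hn0
  have hdet : (jordanBlock n F).det = 1 := by
    rw [Matrix.det_of_isLowerTriangular]
    · simp [jordanBlock]
    · intro i j hij
      have : (i : ℕ) < j := hij
      simp only [jordanBlock, Matrix.of_apply]
      rw [if_neg (by omega), if_neg (by omega)]
  obtain ⟨g, hg⟩ : ∃ g : Matrix.SpecialLinearGroup (Fin n) F,
      elDivM (g : Matrix (Fin n) (Fin n) F) = {(X - 1, n)} := ⟨⟨jordanBlock n F, hdet⟩, hJ⟩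
  have h1 := card_SL_classes_split g
  rw [map_det_centralizer_singleton (g := Matrix.SpecialLinearGroup.toGL g) hg,
    index_range_pow_units,
    Nat.card_eq_fintype_card (α := F), hF] at h1
  rw [← h1]
  refine Nat.card_congr (Equiv.subtypeEquivRight fun C => exists_congr fun u =>
    and_congr_right fun _ => ?_)
  rw [hg]
  constructor
  · rintro ⟨h2, h3⟩
    have := elDivM_regular_unipotent (A := (u : Matrix (Fin n) (Fin n) F)) (by simpa using hn0)
      ⟨n, h2⟩ (by simp [h3])
    simpa using this.symm
  · intro h2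
    have h3 : ((u : Matrix (Fin n) (Fin n) F) - 1) ^ n = 0 := by
      rw [sub_one_pow_eq_zero_iff, ← h2]; simp
    refine ⟨h3, ?_⟩
    have := rank_sub_one_add_card_elDivM (A := (u : Matrix (Fin n) (Fin n) F)) ⟨n, h3⟩
    rw [← h2] at this
    simp only [Multiset.card_singleton, Fintype.card_fin] at this
    omega

end Cfsg.Agent.S2578
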