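import Cfsg.Statements.S2579
import Mathlib
import Cfsg.Agent.Known.GLDet

set_option autoImplicit false
open Cfsg

namespace Cfsg.Agent.S2579

open Cfsg.Lib.Known Polynomial

/-- In SL_n(F) with n ≥ 3, over a finite field F, any two transvections (matrices t with t − 1 of rank one and square zero) are conjugate by an element of SL_n(F). -/
theorem result {F : Type*} [Field F] [Finite F] {n : ℕ} (hn : 3 ≤ n) (s t : Matrix.SpecialLinearGroup (Fin n) F) (hs : Cfsg.IsTransvection (s : Matrix (Fin n) (Fin n) F)) (ht : Cfsg.IsTransvection (t : Matrix (Fin n) (Fin n) F)) : IsConj s t := by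
  have hs2 : ((s : Matrix (Fin n) (Fin n) F) - 1) ^ 2 = 0 := by rw [pow_two]; exact hs.2
  have ht2 : ((t : Matrix (Fin n) (Fin n) F) - 1) ^ 2 = 0 := by rw [pow_two]; exact ht.2
  have h1 : elDivM (s : Matrix (Fin n) (Fin n) F) = elDivM (t : Matrix (Fin n) (Fin n) F) := by
    refine elDivM_eq_of_unipotent rfl ⟨2, hs2⟩ ⟨2, ht2⟩ fun k => ?_
    rcases k with _ | _ | k
    · simp
    · simpa using hs.1.trans ht.1.symm
    · rw [show k + 1 + 1 = 2 + k by ring, pow_add, pow_add, hs2, ht2, zero_mul, zero_mul]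
  have h2 := rank_sub_one_add_card_elDivM (A := (s : Matrix (Fin n) (Fin n) F)) ⟨2, hs2⟩
  rw [hs.1, Fintype.card_fin] at h2
  have h3 : ∃ x ∈ elDivM (s : Matrix (Fin n) (Fin n) F), x.2 = 1 := by
    by_contra hne
    push Not at hne
    have h4 := elDeg_elDivM (s : Matrix (Fin n) (Fin n) F)
    have h5 := Multiset.card_nsmul_le_sum
      (s := (elDivM (s : Matrix (Fin n) (Fin n) F)).map fun x => x.1.natDegree * x.2) (a := 2) (by
        intro y hy
        obtain ⟨x, hx, rfl⟩ := Multiset.mem_map.mp hy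
        have h6 := hne x hx
        obtain ⟨-, h7, h8⟩ := isElDivs_elDivM _ x hx
        have h9 := h7.natDegree_pos
        have : 2 ≤ x.2 := by omega
        nlinarith)
    rw [Multiset.card_map, smul_eq_mul] at h5
    change _ ≤ elDeg _ at h5
    rw [h4, Fintype.card_fin] at h5
    omega
  obtain ⟨x, hx, hx1⟩ := h3
  exact SL_isConj_of_isConj hx (fun c => ⟨c, by simp [hx1]⟩) (isConj_iff_elDivM.mpr h1)

end Cfsg.Agent.S2579
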