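import Cfsg.Statements.S2582
import Cfsg.Agent.Known.SpSemi

set_option autoImplicit false
open Cfsg

namespace Cfsg.Agent.S2582

open Cfsg.Lib.Known Cfsg.Lib.Class Polynomial

/-- Which unipotent Jordan types occur in the finite symplectic group: over a finite field, a unipotent matrix with Jordan block sizes d_1, …, d_t (sum 2m, all at least 1) is similar to an element of Sp_2m(F) if and only if every odd block size occurs an even number of times. -/
theorem result {F : Type*} [Field F] [Fintype F] {m t : ℕ} (d : Fin t → ℕ) (hd : ∀ k, 1 ≤ d k) (hsum : ∑ k, d k = 2 * m) : (∃ e : ((k : Fin t) × Fin (d k)) ≃ (Fin m ⊕ Fin m), ∃ A : Matrix.symplecticGroup (Fin m) F, IsConj (Matrix.reindex e e (Cfsg.jordanTypeMatrix d F)) (A : Matrix (Fin m ⊕ Fin m) (Fin m ⊕ Fin m) F)) ↔ ∀ j : ℕ, Odd j → Even (Finset.univ.filter (fun k : Fin t => d k = j)).card := by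
  classical
  have hs := elDivM_jordanTypeMatrix (K := F) (d := d) hd
  have hc : ∀ j, (elDivM (Cfsg.jordanTypeMatrix d F)).count (X - C 1, j) =
      (Finset.univ.filter (fun k : Fin t => d k = j)).card := by
    intro j
    rw [hs, Multiset.count_map, Finset.card_def, Finset.filter_val]
    congr 1
    exact Multiset.filter_congr fun k _ => by simp [eq_comm]
  constructor
  · rintro ⟨e, A, hA⟩ j hj
    have h1 := (exists_Sp_elDivM_iff.mp ⟨A, rfl⟩).2.2 1 (by simp) j hj
    rw [← isConj_iff_elDivM.mp hA, elDivM_reindex] at h1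
    rw [← hc]
    convert h1
  · intro h
    have hcard : Fintype.card ((k : Fin t) × Fin (d k)) = 2 * m := by simp [hsum]
    have hX : ∀ x ∈ elDivM (Cfsg.jordanTypeMatrix d F), x.1 = X - 1 := by
      intro x hx
      rw [hs] at hx
      obtain ⟨k, -, rfl⟩ := Multiset.mem_map.mp hx
      rfl
    obtain ⟨A, hA⟩ := (exists_Sp_elDivM_iff (m := m) (s := elDivM (Cfsg.jordanTypeMatrix d F))).mpr
      ⟨⟨isElDivs_elDivM _, by rw [elDeg_elDivM, hcard], fun x hx => by
        rw [hX x hx]; exact X_sub_one_ne_X⟩, by
        conv_rhs => rw [← Multiset.map_id (elDivM _)]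
        exact Multiset.map_congr rfl fun x hx => Prod.ext
          (by rw [dualED_fst, id, hX x hx, dualPoly_X_sub_one]) rfl, fun l _ j hj => by
        by_cases hl : l = 1
        · subst hl
          have := h j hj
          rw [← hc] at this
          convert this
        · rw [Multiset.count_eq_zero.mpr fun hx => hl
            (C_injective (sub_right_injective ((hX _ hx).trans (by rw [C_1]))))]
          exact Even.zero⟩
    refine ⟨Fintype.equivOfCardEq (by rw [hcard]; simp [two_mul]), A, ?_⟩
    rw [isConj_iff_elDivM, elDivM_reindex, hA]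

end Cfsg.Agent.S2582
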