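import Cfsg.Statements.S2583
import Cfsg.Agent.Known.OReal

set_option autoImplicit false
open Cfsg

namespace Cfsg.Agent.S2583

open Cfsg.Lib.Known Cfsg.Lib.Class Polynomial

/-- Which unipotent Jordan types occur in a finite orthogonal group in odd characteristic: over a finite field of odd order, a unipotent matrix with Jordan block sizes d_1, …, d_t (sum n, all at least 1) is similar to an isometry of some quadratic form on F^n with non-degenerate polar form if and only if every even block size occurs an even number of times. -/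
theorem result {F : Type*} [Field F] [Fintype F] (h2 : (2 : F) ≠ 0) {n t : ℕ} (d : Fin t → ℕ) (hd : ∀ k, 1 ≤ d k) (hsum : ∑ k, d k = n) : (∃ Q : QuadraticForm F (Fin n → F), (QuadraticMap.polarBilin Q).Nondegenerate ∧ ∃ e : ((k : Fin t) × Fin (d k)) ≃ Fin n, ∃ A : ↥(Cfsg.isometryGroup F ⇑Q), IsConj (Matrix.reindex e e (Cfsg.jordanTypeMatrix d F)) ((A : Matrix.GeneralLinearGroup (Fin n) F) : Matrix (Fin n) (Fin n) F)) ↔ ∀ j : ℕ, Even j → 0 < j → Even (Finset.univ.filter (fun k : Fin t => d k = j)).card := by
  classical
  have hs := elDivM_jordanTypeMatrix (K := F) (d := d) hd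
  have hc : ∀ j, (elDivM (Cfsg.jordanTypeMatrix d F)).count (X - C 1, j) =
      (Finset.univ.filter (fun k : Fin t => d k = j)).card := by
    intro j
    rw [hs, Multiset.count_map, Finset.card_def, Finset.filter_val]
    congr 1
    exact Multiset.filter_congr fun k _ => by simp [eq_comm]
  constructor
  · rintro ⟨Q, hQ, e, A, hA⟩ j hj _
    have h1 := oParity_elDiv h2 (hform_of_isSymm hQ fun u v => QuadraticMap.polar_comm Q u v)
      (g := Matrix.toLin' ((A : GL (Fin n) F) : Matrix (Fin n) (Fin n) F))
      (polar_isometry fun v => (mem_isometryGroup Q A).mp A.2 v) 1 (by simp) j hj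
    rw [← elDivM, ← isConj_iff_elDivM.mp hA, elDivM_reindex] at h1
    rw [← hc]
    convert h1
  · intro h
    have hcard : Fintype.card ((k : Fin t) × Fin (d k)) = n := by simp [hsum]
    have hX : ∀ x ∈ elDivM (Cfsg.jordanTypeMatrix d F), x.1 = X - 1 := by
      intro x hx
      rw [hs] at hx
      obtain ⟨k, -, rfl⟩ := Multiset.mem_map.mp hx
      rfl
    obtain ⟨Q, hQ, A, hA⟩ := (oReal_of_parity h2 (isElDivs_elDivM (Cfsg.jordanTypeMatrix d F))
      (fun x hx => by rw [hX x hx]; exact X_sub_one_ne_X) (by
        conv_rhs => rw [← Multiset.map_id (elDivM _)]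
        exact Multiset.map_congr rfl fun x hx => Prod.ext
          (by rw [dualED_fst, id, hX x hx, dualPoly_X_sub_one]) rfl) fun l _ j hj => by
        by_cases hl : l = 1
        · subst hl
          rcases Nat.eq_zero_or_pos j with rfl | hj0
          · rw [Multiset.count_eq_zero.mpr fun hx => (isElDivs_elDivM _ _ hx).2.2.ne' rfl]
            exact Even.zero
          have := h j hj hj0
          rw [← hc] at this
          convert this
        · rw [Multiset.count_eq_zero.mpr fun hx => hl
            (C_injective (sub_right_injective ((hX _ hx).trans (by rw [C_1]))))]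
          exact Even.zero).exists_O h2 (n := n) (by rw [elDeg_elDivM, hcard])
    refine ⟨Q, hQ, Fintype.equivOfCardEq (by rw [hcard]; simp), A, ?_⟩
    rw [isConj_iff_elDivM, elDivM_reindex, hA]

end Cfsg.Agent.S2583
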