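import Cfsg.Statements.S2584
import Cfsg.Agent.Known.OReal
import Cfsg.Agent.S2582
import Cfsg.Agent.S2585

set_option autoImplicit false
open Cfsg

namespace Cfsg.Agent.S2584

open Cfsg.Lib.Known Cfsg.Lib.Class Polynomial

/-- Which unipotent Jordan types occur in a finite orthogonal group in characteristic two: over a finite field of characteristic 2 and in even dimension 2m, a unipotent matrix with Jordan block sizes d_1, …, d_t (sum 2m, all at least 1) is similar to an isometry of some quadratic form on F^(2m) with non-degenerate polar form if and only if every odd block size occurs an even number of times (the same condition as for the symplectic group, which contains these orthogonal groups). -/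
theorem result {F : Type*} [Field F] [Fintype F] [CharP F 2] {m t : ℕ} (d : Fin t → ℕ) (hd : ∀ k, 1 ≤ d k) (hsum : ∑ k, d k = 2 * m) : (∃ Q : QuadraticForm F (Fin (2 * m) → F), (QuadraticMap.polarBilin Q).Nondegenerate ∧ ∃ e : ((k : Fin t) × Fin (d k)) ≃ Fin (2 * m), ∃ A : ↥(Cfsg.isometryGroup F ⇑Q), IsConj (Matrix.reindex e e (Cfsg.jordanTypeMatrix d F)) ((A : Matrix.GeneralLinearGroup (Fin (2 * m)) F) : Matrix (Fin (2 * m)) (Fin (2 * m)) F)) ↔ ∀ j : ℕ, Odd j → Even (Finset.univ.filter (fun k : Fin t => d k = j)).card := by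
  classical
  rw [← Cfsg.Agent.S2582.result (F := F) d hd hsum]
  constructor
  · rintro ⟨Q, hQ, e, A, hA⟩
    have hAlt : LinearMap.IsAlt (QuadraticMap.polarBilin Q) := fun v => by
      rw [QuadraticMap.polarBilin_apply_apply, QuadraticMap.polar_self, two_nsmul,
        CharTwo.add_self_eq_zero]
    obtain ⟨B, hB⟩ := exists_Sp_of_isAlt hQ hAlt (m := m) (by simp)
      (g := Matrix.toLin' ((A : GL (Fin (2 * m)) F) : Matrix (Fin (2 * m)) (Fin (2 * m)) F))
      (polar_isometry fun v => (mem_isometryGroup Q A).mp A.2 v)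
    refine ⟨Fintype.equivOfCardEq (by simp [hsum, two_mul]), B, ?_⟩
    rw [isConj_iff_elDivM, elDivM_reindex] at hA ⊢
    exact hA.trans hB.elDiv_eq
  · rintro ⟨e, A, hA⟩
    obtain ⟨Q, h1, h2⟩ := Cfsg.Agent.S2585.result A
    obtain ⟨Q', hQ', B, hB⟩ := exists_O_of_isometry (Q := Q)
      (polarBilin_nondegenerate_of _ fun u hu => eq_zero_of_sympForm m u fun v => by
        rw [← h1, hu]) (n := 2 * m) (by simp [two_mul])
      (g := Matrix.toLin' (A : Matrix (Fin m ⊕ Fin m) (Fin m ⊕ Fin m) F))
      (injective_of_isometry (σ := RingHom.id F)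
        (hform_of_isAlt (sympBilin_nondegenerate m) (sympBilin_isAlt m)) (sympBilin_mulVec A)) h2
    refine ⟨Q', hQ', Fintype.equivOfCardEq (by simp [hsum]), B, ?_⟩
    rw [isConj_iff_elDivM, elDivM_reindex] at hA ⊢
    exact hA.trans hB.elDiv_eq

end Cfsg.Agent.S2584
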