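import Cfsg.Statements.S2588
import Cfsg.Agent.Known.GUClasses

set_option autoImplicit false
open Cfsg

namespace Cfsg.Agent.S2588


/-- An invertible matrix A over the field with q² elements is conjugate in GL_n(q²) to an element of the general unitary group GU_n(q) (isometries of the Hermitian form Σ u_i v_i^q) if and only if A is similar to the inverse transpose of its entrywise q-th power (A ~ A^(−qT), the image of A under the map sending a matrix to the inverse transpose of its entrywise q-th power — inverse transpose composed with the field automorphism — whose fixed points form GU_n(q)). -/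
theorem result {K : Type*} [Field K] [Fintype K] {q n : ℕ} (hK : Fintype.card K = q ^ 2) (A : GL (Fin n) K) : (∃ B : ↥(Cfsg.GU n K q), IsConj A (B : GL (Fin n) K)) ↔ IsConj (A : Matrix (Fin n) (Fin n) K) (((A : Matrix (Fin n) (Fin n) K).map (fun x : K => x ^ q)).transpose)⁻¹ := by
  rw [Cfsg.Lib.Known.exists_GU_isConj_iff hK, Cfsg.Lib.Known.isConj_iff_elDivM,
    Cfsg.Lib.Known.elDivM_inv_conjTranspose hK, eq_comm]

end Cfsg.Agent.S2588
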