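import Cfsg.Statements.S2591
import Mathlib
import Cfsg.Agent.Known.SpUnip

set_option autoImplicit false
open Cfsg

namespace Cfsg.Agent.S2591

open Cfsg.Lib.Known Cfsg.Lib.Class

/-- Over a finite field of odd order and for m ≥ 1, the regular unipotent elements of Sp_2m(F) (u − 1 nilpotent of rank 2m − 1, a single Jordan block) form exactly two conjugacy classes of Sp_2m(F) (one class under the similarity group, which splits in two). -/
theorem result {F : Type*} [Field F] [Fintype F] {q : ℕ} (hF : Fintype.card F = q) (hq : Odd q) {m : ℕ} (hm : 1 ≤ m) : Nat.card {C : ConjClasses ↥(Matrix.symplecticGroup (Fin m) F) // ∃ u : Matrix.symplecticGroup (Fin m) F, ConjClasses.mk u = C ∧ ((u : Matrix (Fin m ⊕ Fin m) (Fin m ⊕ Fin m) F) - 1) ^ (2 * m) = 0 ∧ ((u : Matrix (Fin m ⊕ Fin m) (Fin m ⊕ Fin m) F) - 1).rank = 2 * m - 1} = 2 := by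
  classical
  subst hF
  rw [card_Sp_unipotent_classes (two_ne_zero_of_odd hq) _ (· = {2 * m}) fun g => ?_,
    Finset.sum_eq_single_of_mem (Nat.Partition.indiscrete (2 * m))]
  · rw [Nat.Partition.indiscrete_parts (by omega), Multiset.toFinset_singleton,
      Finset.filter_singleton]
    simp
  · simp only [Finset.mem_filter, Finset.mem_univ, Nat.Partition.indiscrete_parts
      (show 2 * m ≠ 0 by omega), true_and]
    intro j hj
    rw [Multiset.count_singleton, if_neg (by rintro rfl; exact (Nat.not_odd_iff_even.mpr (even_two_mul m)) hj)]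
    exact Even.zero
  · intro μ hμ h
    exact absurd (Nat.Partition.ext (by
      rw [Nat.Partition.indiscrete_parts (by omega)]; simp only [Finset.mem_filter] at hμ; exact hμ.2.1)) h
  have hc : Fintype.card (Fin m ⊕ Fin m) = 2 * m := by simp [two_mul]
  refine ⟨fun h => ?_, fun h => ⟨(sub_one_pow_eq_zero_iff _ _).mpr fun x hx => ⟨h.1 x hx, ?_⟩, ?_⟩⟩
  · rw [elDivM_regular_unipotent (by omega) ⟨_, h.1⟩ (by omega), hc]
    simp
  · exact (Multiset.mem_singleton.mp (h.2 ▸ Multiset.mem_map_of_mem Prod.snd hx)).le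
  · have h1 := rank_sub_one_add_card_elDivM ((isNilpotent_sub_one_iff _).mpr h.1)
    have h2 := congrArg Multiset.card h.2
    rw [Multiset.card_map, Multiset.card_singleton] at h2
    omega

end Cfsg.Agent.S2591
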