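import Cfsg.Statements.S2592
import Mathlib
import Cfsg.Agent.Known.SpCent

set_option autoImplicit false
open Cfsg

namespace Cfsg.Agent.S2592

open Cfsg.Lib.Known Cfsg.Lib.Class

/-- Over a finite field with q elements, q odd, the centraliser in Sp_2m(F) (m ≥ 1) of a regular unipotent element (u − 1 nilpotent of rank 2m − 1) has order 2 q^m. -/
theorem result {F : Type*} [Field F] [Fintype F] {q : ℕ} (hF : Fintype.card F = q) (hq : Odd q) {m : ℕ} (hm : 1 ≤ m) (u : Matrix.symplecticGroup (Fin m) F) (hnil : ((u : Matrix (Fin m ⊕ Fin m) (Fin m ⊕ Fin m) F) - 1) ^ (2 * m) = 0) (hreg : ((u : Matrix (Fin m ⊕ Fin m) (Fin m ⊕ Fin m) F) - 1).rank = 2 * m - 1) : Nat.card ↥(Subgroup.centralizer ({u} : Set ↥(Matrix.symplecticGroup (Fin m) F))) = 2 * q ^ m := by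
  subst hF
  have hc : Fintype.card (Fin m ⊕ Fin m) = 2 * m := by simp [two_mul]
  have hf := hform_of_isAlt (sympBilin_nondegenerate (F := F) m) (sympBilin_isAlt m)
  have h1 := elDivM_regular_unipotent (by omega) ⟨_, hnil⟩ (by omega)
  rw [hc] at h1
  rw [card_centralizer_Sp_End, ← hf.card_isoU_centU _ 1, card_centralizer_regular_unipotent
    (two_ne_zero_of_odd hq) ⟨hf, fun a b => by
      simpa only [Matrix.toLin'_apply] using sympBilin_mulVec u a b, one_mul _, rfl⟩ hm h1,
    Nat.card_eq_fintype_card]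

end Cfsg.Agent.S2592
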