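import Cfsg.Statements.S2599
import Cfsg.Agent.Known.QuadSum

set_option autoImplicit false
open Cfsg

namespace Cfsg.Agent.S2599

open Cfsg.Lib.Known Cfsg.Lib.Class Cfsg.Lib.Class.Orth QuadraticMap Module

/-- An irreducible invariant subspace of a semisimple isometry is non-degenerate or totally singular: let Q be a quadratic form on F^n (F finite of characteristic p) with non-degenerate polar form f, x an isometry of Q of order prime to p, and U a non-zero x-invariant subspace containing no x-invariant subspace other than 0 and U. Then U meets its f-orthogonal trivially, or Q vanishes on U, or p = 2, U is a line spanned by a non-singular vector and x fixes U pointwise. -/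
theorem result {F : Type*} [Field F] [Fintype F] {p : ℕ} [Fact p.Prime] [CharP F p] {n : ℕ} (Q : QuadraticForm F (Fin n → F)) (hQ : (QuadraticMap.polarBilin Q).Nondegenerate) (x : ↥(Cfsg.isometryGroup F ⇑Q)) (hx : (orderOf x).Coprime p) (U : Submodule F (Fin n → F)) (hU0 : U ≠ ⊥) (hUx : ∀ u ∈ U, ((x : Matrix.GeneralLinearGroup (Fin n) F) : Matrix (Fin n) (Fin n) F).mulVec u ∈ U) (hirr : ∀ W : Submodule F (Fin n → F), W ≤ U → (∀ w ∈ W, ((x : Matrix.GeneralLinearGroup (Fin n) F) : Matrix (Fin n) (Fin n) F).mulVec w ∈ W) → W = ⊥ ∨ W = U) : U ⊓ LinearMap.BilinForm.orthogonal (QuadraticMap.polarBilin Q) U = ⊥ ∨ (∀ u ∈ U, Q u = 0) ∨ (p = 2 ∧ Module.finrank F U = 1 ∧ (∃ u ∈ U, Q u ≠ 0) ∧ ∀ u ∈ U, ((x : Matrix.GeneralLinearGroup (Fin n) F) : Matrix (Fin n) (Fin n) F).mulVec u = u) := by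
  set M := ((x : Matrix.GeneralLinearGroup (Fin n) F) : Matrix (Fin n) (Fin n) F) with hM
  let g : O Q := oEquivIsom Q x
  have hg : ∀ v, M.mulVec v = g.1 v := fun v => rfl
  simp only [hg] at hUx hirr ⊢
  have hsurj : ∀ u ∈ U, ∃ u' ∈ U, g.1 u' = u := by
    intro u hu
    have hi : Function.Injective (g.1.toLinearMap.restrict hUx) := fun a b h =>
      Subtype.ext (g.1.injective (congrArg Subtype.val h))
    obtain ⟨u', hu'⟩ := LinearMap.injective_iff_surjective.1 hi ⟨u, hu⟩
    exact ⟨u', u'.2, congrArg Subtype.val hu'⟩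
  rcases hirr (U ⊓ orth Q U) inf_le_left (fun w hw => ⟨hUx w hw.1, fun u hu => by
    obtain ⟨u', hu', rfl⟩ := hsurj u hu
    exact (O_polar g u' w).trans (hw.2 u' hu')⟩) with h | h
  · exact Or.inl h
  right
  have ho : ∀ u ∈ U, ∀ v ∈ U, polar Q u v = 0 := fun u hu v hv => (h.ge hv).2 u hu
  by_cases h0 : ∀ u ∈ U, Q u = 0
  · exact Or.inl h0
  right
  push Not at h0
  obtain ⟨u, hu, hu0⟩ := h0
  have h2 : (2 : F) = 0 := by
    have := ho u hu u hu
    rw [polar_self_eq] at this
    exact (mul_eq_zero.1 this).resolve_right hu0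
  have hp : p = 2 := by
    have : p ∣ 2 := (CharP.cast_eq_zero_iff F p 2).1 (by exact_mod_cast h2)
    exact (Nat.prime_dvd_prime_iff_eq Fact.out Nat.prime_two).1 this
  subst hp
  let W : Submodule F (Fin n → F) :=
    { carrier := {v | v ∈ U ∧ Q v = 0}
      add_mem' := fun {a b} ha hb => ⟨U.add_mem ha.1 hb.1, by
        rw [quad_add, ha.2, hb.2, ho a ha.1 b hb.1]; simp⟩
      zero_mem' := ⟨U.zero_mem, by simp⟩
      smul_mem' := fun c a ha => ⟨U.smul_mem c ha.1, by rw [quad_smul, ha.2, mul_zero]⟩ }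
  have hW : W = ⊥ := by
    rcases hirr W (fun v hv => hv.1) (fun w hw => ⟨hUx w hw.1, (O_map g w).trans hw.2⟩) with h | h
    · exact h
    · exact absurd (h.ge hu).2 hu0
  have hline : ∀ v ∈ U, ∃ c : F, v = c • u ∧ c ^ 2 * Q u = Q v := by
    intro v hv
    obtain ⟨c, hc⟩ := FiniteField.isSquare_of_char_two (ringChar.eq F 2) (Q v / Q u)
    have hc' : c ^ 2 * Q u = Q v := by rw [pow_two, ← hc, div_mul_cancel₀ _ hu0]
    have : v - c • u ∈ W := ⟨U.sub_mem hv (U.smul_mem c hu), by
      rw [quad_sub, quad_smul, ho v hv _ (U.smul_mem c hu), hc']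
      linear_combination (Q v) * h2⟩
    rw [hW, Submodule.mem_bot, sub_eq_zero] at this
    exact ⟨c, this, hc'⟩
  have hune : u ≠ 0 := by rintro rfl; simp at hu0
  have hgu : g.1 u = u := by
    obtain ⟨c, hc, hc'⟩ := hline _ (hUx u hu)
    rw [O_map] at hc'
    have : c = 1 := by
      have h1 : c ^ 2 = 1 := mul_right_cancel₀ hu0 (by rw [hc', one_mul])
      have : (c - 1) ^ 2 = 0 := by linear_combination h1 + (1 - c) * h2
      exact sub_eq_zero.1 (pow_eq_zero_iff two_ne_zero |>.1 this)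
    rw [hc, this, one_smul]
  refine ⟨rfl, ?_, ⟨u, hu, hu0⟩, fun v hv => ?_⟩
  · have : U = Submodule.span F {u} := le_antisymm (fun v hv => by
      obtain ⟨c, rfl, -⟩ := hline v hv
      exact Submodule.smul_mem _ _ (Submodule.mem_span_singleton_self u))
      ((Submodule.span_singleton_le_iff_mem _ _).2 hu)
    rw [this, finrank_span_singleton hune]
  · obtain ⟨c, rfl, -⟩ := hline v hv
    rw [map_smul, hgu]

end Cfsg.Agent.S2599
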