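import Cfsg.Statements.S2612
import Cfsg.Agent.Known.OrthLevi

set_option autoImplicit false
open Cfsg

namespace Cfsg.Agent.S2612

open Cfsg.Lib.Known Cfsg.Lib.Class Cfsg.Lib.Class.Orth QuadraticMap Module

/-- For the hyperbolic quadratic form Σ x_i y_i on F^(2m) (F finite, m ≥ 1, excluding m = 2 over the field of two elements), Ω⁺_2m(F) (the commutator subgroup of the orthogonal group) contains an element interchanging the two complementary maximal totally singular subspaces {y = 0} and {x = 0} if and only if m is even (dimension divisible by 4). -/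
theorem result {F : Type*} [Field F] [Fintype F] {m : ℕ} (hm : 1 ≤ m) (h : Fintype.card F ≠ 2 ∨ m ≠ 2) : (∃ g : ↥(Cfsg.isometryGroup F (Cfsg.quadFormPlus m F)), g ∈ Cfsg.Omega F (Cfsg.quadFormPlus m F) ∧ (∀ v : Fin m ⊕ Fin m → F, (∀ i, v (Sum.inr i) = 0) → ∀ i, (((g : Matrix.GeneralLinearGroup (Fin m ⊕ Fin m) F) : Matrix (Fin m ⊕ Fin m) (Fin m ⊕ Fin m) F).mulVec v) (Sum.inl i) = 0) ∧ (∀ v : Fin m ⊕ Fin m → F, (∀ i, v (Sum.inl i) = 0) → ∀ i, (((g : Matrix.GeneralLinearGroup (Fin m ⊕ Fin m) F) : Matrix (Fin m ⊕ Fin m) (Fin m ⊕ Fin m) F).mulVec v) (Sum.inr i) = 0)) ↔ Even m := by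
  rw [← coe_quadPlus]
  have hE := not_exc_quadPlus h
  have hQ := quadPlus_nondegenerate (F := F) m
  have hd : ∀ x : O (quadPlus m F), (∀ v ∈ plusU m F, x.1 v ∈ plusW m F) →
      dick x = (-1) ^ m := by
    intro x hx
    have : plusU m F ⊓ (plusU m F).map x.1.toLinearMap = ⊥ := by
      rw [eq_bot_iff, ← plusU_inf_plusW]
      refine inf_le_inf_left _ ?_
      rintro _ ⟨v, hv, rfl⟩
      exact hx v hv
    rw [dick_quadPlus hE, this, finrank_bot, Nat.sub_zero]
  constructor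
  · rintro ⟨g, hg, h1, -⟩
    have h2 := ((mem_commutator_O_iff hQ hE _).1 ((mem_Omega_iff g).1 hg)).1
    rw [hd _ fun v hv => mem_plusW.2 (h1 v (mem_plusU.1 hv))] at h2
    exact (neg_one_pow_eq_one_iff_even (by decide)).1 h2
  · intro he
    let s : O (quadPlus m F) := ⟨LinearEquiv.funCongrLeft F F (Equiv.sumComm (Fin m) (Fin m)),
      mem_O.2 fun v => by simp [quadFormPlus, mul_comm]⟩
    have hs1 : ∀ v ∈ plusU m F, s.1 v ∈ plusW m F := fun v hv =>
      mem_plusW.2 fun i => mem_plusU.1 hv i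
    have hs2 : ∀ v ∈ plusW m F, s.1 v ∈ plusU m F := fun v hv =>
      mem_plusU.2 fun i => mem_plusW.1 hv i
    obtain ⟨k, hk, hk'⟩ := exists_mul_mem_commutator hQ hE
      (stab _ (plusU m F) ⊓ stab _ (plusW m F)) s (Or.inl (by rw [hd s hs1, he.neg_one_pow]))
      (fun h2 => by
        obtain ⟨t, ht⟩ := exists_not_isSquare h2
        have ht0 : t ≠ 0 := by rintro rfl; exact ht IsSquare.zero
        refine ⟨levi (diagGL (Pi.mulSingle ⟨0, hm⟩ (Units.mk0 t ht0))), ⟨levi_mem_stab _, ?_⟩,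
          dick_levi hE _, ?_⟩
        · refine mem_stab_of_forall_mem fun v hv => mem_plusW.2 fun i => ?_
          rw [levi_diagGL_apply]
          simp [Matrix.mulVec_diagonal, mem_plusW.1 hv]
        · rw [spinA_levi, coe_diagGL, Matrix.det_diagonal, ← Units.coe_prod,
            Finset.prod_pi_mulSingle']
          simpa using sqs_of_not_isSquare ht)
    refine ⟨(oEquivIsom _).symm (s * k), (mem_Omega_iff _).2 (by rwa [MulEquiv.apply_symm_apply]),
      fun v hv => ?_, fun v hv => ?_⟩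
    · rw [oEquivIsom_symm_mulVec]
      exact mem_plusW.1 (hs1 _ ((hk.1 v).1 (mem_plusU.2 hv)))
    · rw [oEquivIsom_symm_mulVec]
      exact mem_plusU.1 (hs2 _ ((hk.2 v).1 (mem_plusW.2 hv)))

end Cfsg.Agent.S2612
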