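import Cfsg.Statements.S2614
import Cfsg.Agent.Known.OrthLevi

set_option autoImplicit false
open Cfsg

namespace Cfsg.Agent.S2614

open Cfsg.Lib.Known Cfsg.Lib.Class Cfsg.Lib.Class.Orth QuadraticMap Module

/-- For the form x_0² + Σ x_j y_j on F^(2m+1), F finite with q elements, q odd, and 1 ≤ i ≤ m: the involution of determinant one negating the first i hyperbolic pairs (and fixing x_0 and the other pairs) lies in Ω_(2m+1)(q) (commutator subgroup of the orthogonal group) if and only if q^i ≡ 1 (mod 4); its (−1)-eigenspace is a hyperbolic 2i-space. -/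
theorem result {F : Type*} [Field F] [Fintype F] {q : ℕ} (hF : Fintype.card F = q) (hq : Odd q) {m : ℕ} (i : ℕ) (hi : 1 ≤ i) (him : i ≤ m) : (∃ g : ↥(Cfsg.isometryGroup F (Cfsg.quadFormOdd m F)), g ∈ Cfsg.Omega F (Cfsg.quadFormOdd m F) ∧ ((g : Matrix.GeneralLinearGroup (Unit ⊕ (Fin m ⊕ Fin m)) F) : Matrix (Unit ⊕ (Fin m ⊕ Fin m)) (Unit ⊕ (Fin m ⊕ Fin m)) F) = Matrix.diagonal (fun k : Unit ⊕ (Fin m ⊕ Fin m) => if (Sum.elim (fun _ : Unit => i) (Sum.elim (fun j : Fin m => (j : ℕ)) (fun j : Fin m => (j : ℕ))) k) < i then (-1 : F) else 1)) ↔ q ^ i % 4 = 1 := by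
  have h2 := two_ne_zero_of_odd_card (F := F) (hF ▸ hq)
  have hQ := quadOdd_nondegenerate (F := F) h2 m
  have H : IsOSum (quadOdd m F) (QuadraticMap.proj () () : QuadraticForm F (Unit → F))
      (quadPlus m F) (LinearEquiv.sumArrowLequivProdArrow _ _ F F).symm := fun a b => by
    simp [quadFormOdd, quadFormPlus, pow_two]
  rw [← coe_quadOdd, exists_mem_Omega_mat_iff (H.hom (1, negPairs m F i)) _ (fun v => ?_),
    H.hom_mem_commutator_iff hQ (not_exc_of_two_ne_zero h2), dick_negPairs h2,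
    spinA_negPairs him, map_one, dick_one, eq_comm (a := (1 : ℤˣ)) (b := sqs _), sqs_eq_one_iff,
    isSquare_neg_one_pow_iff h2, hF]
  · simp
  · obtain ⟨⟨a, b⟩, rfl⟩ := (LinearEquiv.sumArrowLequivProdArrow _ _ F F).symm.surjective v
    rw [H.hom_apply, negPairs_apply]
    ext (k | k) <;> simp [Matrix.mulVec_diagonal]
    exact (ite_mul _ _ _ _).trans (by rw [neg_one_mul, one_mul]; rfl)

end Cfsg.Agent.S2614
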