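import Cfsg.Statements.S2615
import Cfsg.Agent.Known.OrthLevi

set_option autoImplicit false
open Cfsg

namespace Cfsg.Agent.S2615

open Cfsg.Lib.Known Cfsg.Lib.Class Cfsg.Lib.Class.Orth QuadraticMap Module

/-- For an elliptic form Σ_(j<m−1) x_j y_j + (z₁² + a z₁z₂ + b z₂²) (anisotropic binary part) on F^(2m), F finite with q elements, q odd, and 1 ≤ i ≤ m − 1: the involution negating the first i hyperbolic pairs and fixing the rest lies in Ω⁻_2m(q) (commutator subgroup of the orthogonal group) if and only if q^i ≡ 1 (mod 4). -/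
theorem result {F : Type*} [Field F] [Fintype F] {q : ℕ} (hF : Fintype.card F = q) (hq : Odd q) {m : ℕ} (a b : F) (hab : ∀ z₁ z₂ : F, z₁ ^ 2 + a * z₁ * z₂ + b * z₂ ^ 2 = 0 → z₁ = 0 ∧ z₂ = 0) (i : ℕ) (hi : 1 ≤ i) (him : i + 1 ≤ m) : (∃ g : ↥(Cfsg.isometryGroup F (Cfsg.quadFormMinus (m - 1) F a b)), g ∈ Cfsg.Omega F (Cfsg.quadFormMinus (m - 1) F a b) ∧ ((g : Matrix.GeneralLinearGroup ((Fin (m - 1) ⊕ Fin (m - 1)) ⊕ Fin 2) F) : Matrix ((Fin (m - 1) ⊕ Fin (m - 1)) ⊕ Fin 2) ((Fin (m - 1) ⊕ Fin (m - 1)) ⊕ Fin 2) F) = Matrix.diagonal (fun k : (Fin (m - 1) ⊕ Fin (m - 1)) ⊕ Fin 2 => if (Sum.elim (Sum.elim (fun j : Fin (m - 1) => (j : ℕ)) (fun j : Fin (m - 1) => (j : ℕ))) (fun _ : Fin 2 => i) k) < i then (-1 : F) else 1)) ↔ q ^ i % 4 = 1 := by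
  have h2 := two_ne_zero_of_odd_card (F := F) (hF ▸ hq)
  have hQ := quadMinus_nondegenerate (F := F) (m - 1) hab
  have H : IsOSum (quadMinus (m - 1) F a b) (quadPlus (m - 1) F)
      (QuadraticMap.proj 0 0 + a • QuadraticMap.proj 0 1 + b • QuadraticMap.proj 1 1 :
        QuadraticForm F (Fin 2 → F))
      (LinearEquiv.sumArrowLequivProdArrow _ _ F F).symm := fun x y => by
    simp [quadFormMinus, quadFormPlus, pow_two, mul_assoc]
  rw [← coe_quadMinus, exists_mem_Omega_mat_iff (H.hom (negPairs (m - 1) F i, 1)) _ (fun v => ?_),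
    H.hom_mem_commutator_iff hQ (not_exc_of_two_ne_zero h2), dick_negPairs h2,
    spinA_negPairs (by omega), map_one, dick_one, sqs_eq_one_iff,
    isSquare_neg_one_pow_iff h2, hF]
  · simp
  · obtain ⟨⟨x, y⟩, rfl⟩ := (LinearEquiv.sumArrowLequivProdArrow _ _ F F).symm.surjective v
    rw [H.hom_apply, negPairs_apply]
    ext (k | k) <;> simp [Matrix.mulVec_diagonal]
    exact (ite_mul _ _ _ _).trans (by rw [neg_one_mul, one_mul]; rfl)

end Cfsg.Agent.S2615
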