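import Cfsg.Statements.S2618
import Cfsg.Agent.Known.QuadNormal

set_option autoImplicit false
open Cfsg

namespace Cfsg.Agent.S2618

open Cfsg.Lib.Known Cfsg.Lib.Class QuadraticMap Module

/-- Standard (parabolic) basis of a non-degenerate quadratic space of odd dimension 2m + 1 over a finite field (the non-degeneracy of the polar form forces the characteristic to be odd): there is a basis e_i, f_i (i < m), x with Q(e_i) = Q(f_i) = 0, B(e_i, f_j) = δ_ij (B the polar form), the e's pairwise orthogonal and the f's pairwise orthogonal, x orthogonal to all of them and Q(x) ≠ 0. -/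
theorem result {F V : Type*} [Field F] [Finite F] [AddCommGroup V] [Module F V] [FiniteDimensional F V] {m : ℕ} (hV : Module.finrank F V = 2 * m + 1) (Q : QuadraticForm F V) (hQ : (QuadraticMap.polarBilin Q).Nondegenerate) : ∃ b : Module.Basis (Unit ⊕ (Fin m ⊕ Fin m)) F V, Q (b (Sum.inl ())) ≠ 0 ∧ (∀ i, QuadraticMap.polar ⇑Q (b (Sum.inl ())) (b (Sum.inr (Sum.inl i))) = 0 ∧ QuadraticMap.polar ⇑Q (b (Sum.inl ())) (b (Sum.inr (Sum.inr i))) = 0) ∧ (∀ i, Q (b (Sum.inr (Sum.inl i))) = 0 ∧ Q (b (Sum.inr (Sum.inr i))) = 0) ∧ (∀ i j, QuadraticMap.polar ⇑Q (b (Sum.inr (Sum.inl i))) (b (Sum.inr (Sum.inr j))) = if i = j then 1 else 0) ∧ (∀ i j, QuadraticMap.polar ⇑Q (b (Sum.inr (Sum.inl i))) (b (Sum.inr (Sum.inl j))) = 0 ∧ QuadraticMap.polar ⇑Q (b (Sum.inr (Sum.inr i))) (b (Sum.inr (Sum.inr j))) = 0) := by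
  obtain ⟨c, g, hc, hg⟩ := exists_equiv_odd hQ hV
  have hp : ∀ x y, polar Q (g x) (g y) = 2 * c * x (Sum.inl ()) * y (Sum.inl ()) +
      ∑ i, (x (Sum.inr (Sum.inl i)) * y (Sum.inr (Sum.inr i)) +
        x (Sum.inr (Sum.inr i)) * y (Sum.inr (Sum.inl i))) := fun x y => by
    simp only [polar, ← map_add, hg, Pi.add_apply, add_mul, mul_add, Finset.sum_add_distrib]
    have : ∀ i, x (Sum.inr (Sum.inr i)) * y (Sum.inr (Sum.inl i)) =
      y (Sum.inr (Sum.inl i)) * x (Sum.inr (Sum.inr i)) := fun i => mul_comm _ _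
    simp only [this]
    ring
  refine ⟨(Pi.basisFun F _).map g, ?_, fun i => ⟨?_, ?_⟩, fun i => ⟨?_, ?_⟩, fun i j => ?_,
    fun i j => ⟨?_, ?_⟩⟩ <;> simp [hg, hp, hc, Pi.single_apply, eq_comm]

end Cfsg.Agent.S2618
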