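import Cfsg.Statements.S2619
import Cfsg.Agent.Known.QuadSum

set_option autoImplicit false
open Cfsg

namespace Cfsg.Agent.S2619

open Cfsg.Lib.Known Cfsg.Lib.Class Cfsg.Lib.Class.Orth QuadraticMap Module

/-- Over a finite field of characteristic two, given an alternating bilinear form B on a finite-dimensional space, a basis (v_i) and scalars (λ_i), there is exactly one quadratic form whose polar form is B and whose value at each v_i is λ_i. -/
theorem result {F V ι : Type*} [Field F] [Finite F] [CharP F 2] [AddCommGroup V] [Module F V] [Fintype ι] (b : Module.Basis ι F V) (B : LinearMap.BilinForm F V) (hB : B.IsAlt) (c : ι → F) : ∃! Q : QuadraticForm F V, QuadraticMap.polarBilin Q = B ∧ ∀ i, Q (b i) = c i := by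
  obtain ⟨inst⟩ : Nonempty (LinearOrder ι) :=
    ⟨LinearOrder.lift' (Fintype.equivFin ι) (Fintype.equivFin ι).injective⟩
  have h2 : (2 : F) = 0 := CharP.ofNat_eq_zero F 2
  let B' : LinearMap.BilinForm F V := b.constr (S := F) fun i => b.constr (S := F) fun j =>
    if i = j then c i else if i < j then B (b i) (b j) else 0
  have hB' : ∀ i j, B' (b i) (b j) = if i = j then c i else if i < j then B (b i) (b j) else 0 :=
    fun i j => by simp only [B', Basis.constr_basis]
  refine ⟨LinearMap.BilinMap.toQuadraticMap B', ⟨?_, fun i => by simp [hB']⟩, ?_⟩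
  · rw [LinearMap.BilinMap.polarBilin_toQuadraticMap]
    refine b.ext fun i => b.ext fun j => ?_
    simp only [LinearMap.add_apply, LinearMap.flip_apply, hB']
    rcases lt_trichotomy i j with h | rfl | h
    · simp [h, h.ne, h.ne', h.not_gt]
    · simp only [if_true, hB (b i)]
      linear_combination (c i) * h2
    · simp only [h, h.ne, h.ne', h.not_gt, if_true, if_false, zero_add]
      rw [← hB.neg_eq (b i) (b j)]
      linear_combination (-B (b i) (b j)) * h2
  · rintro Q ⟨h1, h3⟩
    have : Q.toBilin b = B' := by
      refine b.ext fun i => b.ext fun j => ?_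
      rw [QuadraticMap.toBilin_apply, hB', h3, ← h1]
      rfl
    rw [← this, QuadraticMap.toQuadraticMap_toBilin Q b]

end Cfsg.Agent.S2619
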