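import Cfsg.Statements.S2622
import Cfsg.Agent.Known.QuadSum

set_option autoImplicit false
open Cfsg

namespace Cfsg.Agent.S2622

open Cfsg.Lib.Known Cfsg.Lib.Class Cfsg.Lib.Class.Orth QuadraticMap Module

theorem aux {F : Type*} [Field F] [Finite F] [CharP F 2] (n : ℕ) :
    ∀ {V : Type*} [AddCommGroup V] [Module F V] [FiniteDimensional F V], finrank F V = n + 1 →
      ∀ (B : LinearMap.BilinForm F V), B.IsSymm → B.Nondegenerate → (∃ v : V, B v v ≠ 0) →
      ∃ b : Fin (n + 1) → V, ∀ i j, B (b i) (b j) = if i = j then 1 else 0 := by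
  have h2 : (2 : F) = 0 := CharP.ofNat_eq_zero F 2
  have hsq : ∀ a : F, ∃ c : F, a = c * c := fun a =>
    FiniteField.isSquare_of_char_two (ringChar.eq F 2) a
  have hone : ∀ {V : Type _} [AddCommGroup V] [Module F V] (B : LinearMap.BilinForm F V),
      (∃ v : V, B v v ≠ 0) → ∃ v : V, B v v = 1 := by
    rintro V _ _ B ⟨v, hv⟩
    obtain ⟨c, hc⟩ := hsq (B v v)⁻¹
    refine ⟨c • v, ?_⟩
    simp only [map_smul, LinearMap.smul_apply, smul_eq_mul]
    rw [← mul_assoc, ← hc, inv_mul_cancel₀ hv]
  induction n with
  | zero =>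
    intro V _ _ _ hV B hS hB hna
    obtain ⟨v, hv⟩ := hone B hna
    exact ⟨fun _ => v, fun i j => by rw [hv, if_pos (Subsingleton.elim (α := Fin 1) _ _)]⟩
  | succ n ih =>
    intro V _ _ _ hV B hS hB hna
    obtain ⟨v, hv⟩ := hone B hna
    have hv0 : v ≠ 0 := by rintro rfl; simp at hv
    obtain ⟨u, hu⟩ : ∃ u, u ∉ Submodule.span F {v} := by
      by_contra! h
      have : Submodule.span F {v} = ⊤ := eq_top_iff.2 fun x _ => h x
      have h1 := finrank_span_singleton (K := F) hv0
      rw [this, finrank_top] at h1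
      omega
    obtain ⟨c, hc⟩ := hsq (B u u)
    set z := u - c • v with hz
    have hz0 : z ≠ 0 := fun h => hu (by
      rw [sub_eq_zero.1 h]; exact Submodule.smul_mem _ _ (Submodule.mem_span_singleton_self v))
    have hzz : B z z = 0 := by
      simp only [hz, map_sub, map_smul, LinearMap.sub_apply, LinearMap.smul_apply, smul_eq_mul,
        hv, hc, hS.eq u v]
      linear_combination (c * c - c * B v u) * h2
    have hvz : B (v + z) (v + z) = 1 := by
      simp only [map_add, LinearMap.add_apply, hv, hzz, hS.eq z v]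
      linear_combination (B v z) * h2
    have key : ∀ w, B w w = 1 → (∀ x, B w x = 0 → B x x = 0) → ∀ x, B x x = B w x ^ 2 := by
      intro w hw h x
      have := h (x - B w x • w) (by simp [hw])
      simp only [map_sub, map_smul, LinearMap.sub_apply, LinearMap.smul_apply, smul_eq_mul, hw,
        hS.eq x w] at this
      linear_combination this
    obtain ⟨w, hw, x, hwx, hxx⟩ : ∃ w, B w w = 1 ∧ ∃ x, B w x = 0 ∧ B x x ≠ 0 := by
      by_contra! h
      apply hz0
      refine hB.1 z fun x => ?_
      have e1 := key v hv (h v hv) x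
      have e2 := key _ hvz (h _ hvz) x
      simp only [map_add, LinearMap.add_apply] at e2
      have : B z x ^ 2 = 0 := by linear_combination e1 - e2 - (B v x * B z x) * h2
      exact pow_eq_zero_iff two_ne_zero |>.1 this
    have hw1 : B w w ≠ 0 := by rw [hw]; exact one_ne_zero
    have hw0 : w ≠ 0 := by rintro rfl; simp at hw
    let W := B.orthogonal (Submodule.span F {w})
    have hWd : finrank F W = n + 1 := by
      rw [LinearMap.BilinForm.finrank_orthogonal hB, finrank_span_singleton hw0, hV]; omega
    have hmem : ∀ y, y ∈ W ↔ B w y = 0 := fun y => by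
      simp only [W, LinearMap.BilinForm.orthogonal_span_singleton_eq_toLin_ker, LinearMap.mem_ker]
      rfl
    obtain ⟨b, hb⟩ := ih hWd (B.restrict W) (hS.restrict W)
      (LinearMap.BilinForm.restrict_nondegenerate_orthogonal_spanSingleton B hB hS.isRefl hw1)
      ⟨⟨x, (hmem x).2 hwx⟩, hxx⟩
    refine ⟨Fin.cons w fun i => (b i : V), fun i j => ?_⟩
    refine Fin.cases ?_ (fun i => ?_) i <;> refine Fin.cases ?_ (fun j => ?_) j
    · simpa using hw
    · simpa [(Fin.succ_ne_zero _).symm] using (hmem _).1 (b j).2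
    · simpa [hS.eq _ w] using (hmem _).1 (b i).2
    · simpa using hb i j

/-- Over a finite field of characteristic two, a non-degenerate symmetric bilinear form that is not alternating (some vector v has B(v, v) ≠ 0) admits an orthonormal basis. -/
theorem result {F V : Type*} [Field F] [Finite F] [CharP F 2] [AddCommGroup V] [Module F V] [FiniteDimensional F V] {n : ℕ} (hV : Module.finrank F V = n) (B : LinearMap.BilinForm F V) (hS : B.IsSymm) (hB : B.Nondegenerate) (hna : ∃ v : V, B v v ≠ 0) : ∃ b : Module.Basis (Fin n) F V, ∀ i j, B (b i) (b j) = if i = j then 1 else 0 := by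
  rcases n with _ | n
  · obtain ⟨v, hv⟩ := hna
    have : Subsingleton V := finrank_zero_iff.1 hV
    exact absurd (by rw [Subsingleton.elim v 0]; simp) hv
  obtain ⟨b, hb⟩ := aux n hV B hS hB hna
  have hli : LinearIndependent F b :=
    LinearMap.BilinForm.linearIndependent_of_iIsOrtho (B := B)
      (fun i j hij => show B (b i) (b j) = 0 by simp [hb, hij]) (fun i => by simp [hb])
  exact ⟨basisOfLinearIndependentOfCardEqFinrank hli (by simp [hV]), by simpa using hb⟩

end Cfsg.Agent.S2622
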