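import Cfsg.Statements.S2623
import Cfsg.Agent.Known.QuadDisc

set_option autoImplicit false
open Cfsg

namespace Cfsg.Agent.S2623

open Cfsg.Lib.Known Cfsg.Lib.Class QuadraticMap Module

/-- Over a finite field of odd order, two quadratic forms on F^n with non-degenerate polar forms are isometric (related by an invertible linear change of variables) if and only if their discriminants (determinants of the Gram matrices of their polar forms) lie in the same square class. -/
theorem result {F : Type*} [Field F] [Fintype F] (h2 : (2 : F) ≠ 0) {n : ℕ} (Q₁ Q₂ : QuadraticForm F (Fin n → F)) (h₁ : (QuadraticMap.polarBilin Q₁).Nondegenerate) (h₂ : (QuadraticMap.polarBilin Q₂).Nondegenerate) : (∃ g : (Fin n → F) ≃ₗ[F] (Fin n → F), ∀ v, Q₂ (g v) = Q₁ v) ↔ IsSquare ((Matrix.of (fun i j : Fin n => QuadraticMap.polar ⇑Q₁ (Pi.single i 1) (Pi.single j 1))).det * (Matrix.of (fun i j : Fin n => QuadraticMap.polar ⇑Q₂ (Pi.single i 1) (Pi.single j 1))).det) := by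
  have e1 := sqEq_disc_single Q₁
  have e2 := sqEq_disc_single Q₂
  refine Iff.trans ?_ (e1.mul e2).isSquare_iff
  rw [← sqEq_iff_isSquare_mul (disc_ne_zero h₁) (disc_ne_zero h₂)]
  exact ⟨fun ⟨g, hg⟩ => (sqEq_disc_of_equiv g hg).symm,
    fun h => exists_equiv_of_sqEq_disc h2 h₁ h₂ rfl h⟩

end Cfsg.Agent.S2623
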