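import Cfsg.Statements.S2625
import Cfsg.Agent.Known.QuadDisc

set_option autoImplicit false
open Cfsg

namespace Cfsg.Agent.S2625

open Cfsg.Lib.Known Cfsg.Lib.Class QuadraticMap Module

/-- For a quadratic form Q on F^n with non-degenerate polar form, F finite and n odd (so |F| is odd), the multiplier of any similarity is a square: if g is an invertible linear map with Q(g v) = c·Q(v) for all v then c is a square. -/
theorem result {F : Type*} [Field F] [Fintype F] {n : ℕ} (hn : Odd n) (Q : QuadraticForm F (Fin n → F)) (hQ : (QuadraticMap.polarBilin Q).Nondegenerate) (g : (Fin n → F) ≃ₗ[F] (Fin n → F)) (c : F) (hg : ∀ v, Q (g v) = c * Q v) : IsSquare c := by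
  obtain ⟨s, hs, h⟩ := sqEq_disc_of_sim g hg
  obtain ⟨k, rfl⟩ := hn
  have hd := disc_ne_zero hQ
  have h1 : s ^ 2 * c ^ (2 * k + 1) = 1 := by
    apply mul_right_cancel₀ hd
    simp only [Module.finrank_fintype_fun_eq_card, Fintype.card_fin] at h
    linear_combination -h
  exact ⟨s * c ^ (k + 1), by linear_combination (-c) * h1⟩

end Cfsg.Agent.S2625
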