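import Cfsg.Statements.S2627
import Cfsg.Agent.Known.OrthLevi

set_option autoImplicit false
open Cfsg

namespace Cfsg.Agent.S2627

open Cfsg.Lib.Known Cfsg.Lib.Class Cfsg.Lib.Class.Orth QuadraticMap Module

/-- For an orthogonal direct sum Q = Q₁ ⊕ Q₂ of quadratic forms with non-degenerate polar forms over a finite field, an isometry g₁ of Q₁ extended by the identity on the second summand lies in Ω(Q) (the commutator subgroup of the orthogonal group of Q) if and only if g₁ lies in Ω(Q₁). (Excluded: the field of two elements when the first summand or the whole space has dimension 4, where the commutator subgroup of O⁺₄(2) is smaller than the group usually called Ω.) -/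
theorem result {F : Type*} [Field F] [Fintype F] {k l : ℕ} (h : Fintype.card F ≠ 2 ∨ (k ≠ 4 ∧ k + l ≠ 4)) (Q₁ : QuadraticForm F (Fin k → F)) (Q₂ : QuadraticForm F (Fin l → F)) (h₁ : (QuadraticMap.polarBilin Q₁).Nondegenerate) (h₂ : (QuadraticMap.polarBilin Q₂).Nondegenerate) (g₁ : ↥(Cfsg.isometryGroup F ⇑Q₁)) : (∃ g : ↥(Cfsg.isometryGroup F (fun v : Fin k ⊕ Fin l → F => Q₁ (v ∘ Sum.inl) + Q₂ (v ∘ Sum.inr))), g ∈ Cfsg.Omega F (fun v : Fin k ⊕ Fin l → F => Q₁ (v ∘ Sum.inl) + Q₂ (v ∘ Sum.inr)) ∧ ((g : Matrix.GeneralLinearGroup (Fin k ⊕ Fin l) F) : Matrix (Fin k ⊕ Fin l) (Fin k ⊕ Fin l) F) = Matrix.fromBlocks ((g₁ : Matrix.GeneralLinearGroup (Fin k) F) : Matrix (Fin k) (Fin k) F) 0 0 1) ↔ g₁ ∈ Cfsg.Omega F ⇑Q₁ := by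
  have H := isOSum_sumForm Q₁ Q₂
  have hE : ¬ Exc (sumForm Q₁ Q₂) := not_exc_of_card_or (h.imp id fun h => by simpa using h.2)
  have hE₁ : ¬ Exc Q₁ := not_exc_fin (h.imp id fun h => h.1)
  rw [← coe_sumForm, exists_mem_Omega_mat_iff (H.hom (oEquivIsom Q₁ g₁, 1)) _ (fun v => ?_),
    H.hom_mem_commutator_iff (H.nondegenerate h₁ h₂) hE, mem_Omega_iff,
    mem_commutator_O_iff h₁ hE₁, map_one, dick_one]
  obtain ⟨⟨x, y⟩, rfl⟩ := (LinearEquiv.sumArrowLequivProdArrow _ _ F F).symm.surjective v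
  rw [H.hom_apply]
  change Matrix.mulVec _ (Sum.elim x y) = Sum.elim _ _
  simp [Matrix.fromBlocks_mulVec]

end Cfsg.Agent.S2627
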