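import Cfsg.Statements.S2628
import Cfsg.Agent.Known.OrthLevi

set_option autoImplicit false
open Cfsg

namespace Cfsg.Agent.S2628

open Cfsg.Lib.Known Cfsg.Lib.Class Cfsg.Lib.Class.Orth QuadraticMap Module

/-- For the orthogonal direct sum Q ⊕ Q of two copies of a quadratic form Q with non-degenerate polar form on F^k (F finite), every isometry g of Q acting diagonally, diag(g, g), lies in Ω(Q ⊕ Q), the commutator subgroup of the orthogonal group of Q ⊕ Q. (Excluded: k = 2 over the field of two elements, where Q ⊕ Q is the hyperbolic 4-space whose orthogonal group's commutator subgroup is smaller than the group usually called Ω.) -/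
theorem result {F : Type*} [Field F] [Fintype F] {k : ℕ} (h : Fintype.card F ≠ 2 ∨ k ≠ 2) (Q : QuadraticForm F (Fin k → F)) (hQ : (QuadraticMap.polarBilin Q).Nondegenerate) (g : ↥(Cfsg.isometryGroup F ⇑Q)) : ∃ x : ↥(Cfsg.isometryGroup F (fun v : Fin k ⊕ Fin k → F => Q (v ∘ Sum.inl) + Q (v ∘ Sum.inr))), x ∈ Cfsg.Omega F (fun v : Fin k ⊕ Fin k → F => Q (v ∘ Sum.inl) + Q (v ∘ Sum.inr)) ∧ ((x : Matrix.GeneralLinearGroup (Fin k ⊕ Fin k) F) : Matrix (Fin k ⊕ Fin k) (Fin k ⊕ Fin k) F) = Matrix.fromBlocks ((g : Matrix.GeneralLinearGroup (Fin k) F) : Matrix (Fin k) (Fin k) F) 0 0 ((g : Matrix.GeneralLinearGroup (Fin k) F) : Matrix (Fin k) (Fin k) F) := by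
  have H := isOSum_sumForm Q Q
  have hE : ¬ Exc (sumForm Q Q) := not_exc_of_card_or (h.imp id fun h => by simp; omega)
  rw [← coe_sumForm, exists_mem_Omega_mat_iff (H.hom (oEquivIsom Q g, oEquivIsom Q g)) _
    (fun v => ?_), H.hom_mem_commutator_iff (H.nondegenerate hQ hQ) hE]
  · exact ⟨rfl, rfl⟩
  obtain ⟨⟨x, y⟩, rfl⟩ := (LinearEquiv.sumArrowLequivProdArrow _ _ F F).symm.surjective v
  rw [H.hom_apply]
  change Matrix.mulVec _ (Sum.elim x y) = Sum.elim _ _
  simp [Matrix.fromBlocks_mulVec]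

end Cfsg.Agent.S2628
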