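import Cfsg.Statements.S2632
import Cfsg.Agent.Known.OrthLevi

set_option autoImplicit false
open Cfsg

namespace Cfsg.Agent.S2632

open Cfsg.Lib.Known Cfsg.Lib.Class Cfsg.Lib.Class.Orth QuadraticMap Module

/-- Ω is transitive on non-degenerate subspaces of each isometry type: for a quadratic form Q on F^n, n ≥ 3, with non-degenerate polar form (F finite; excluding dimension 4 over the field of two elements), if U and W are subspaces on which the polar form is non-degenerate and there is a Q-preserving linear isomorphism U → W, then some element of Ω (the commutator subgroup of the orthogonal group) carries U to W. (In dimension 2 this fails: Ω can be {±1}, which fixes every line.) -/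
theorem result {F : Type*} [Field F] [Fintype F] {n : ℕ} (hn : 3 ≤ n) (h : Fintype.card F ≠ 2 ∨ n ≠ 4) (Q : QuadraticForm F (Fin n → F)) (hQ : (QuadraticMap.polarBilin Q).Nondegenerate) (U W : Submodule F (Fin n → F)) (hU : U ⊓ LinearMap.BilinForm.orthogonal (QuadraticMap.polarBilin Q) U = ⊥) (hW : W ⊓ LinearMap.BilinForm.orthogonal (QuadraticMap.polarBilin Q) W = ⊥) (e : U ≃ₗ[F] W) (he : ∀ u : U, Q (e u : Fin n → F) = Q (u : Fin n → F)) : ∃ g : ↥(Cfsg.isometryGroup F ⇑Q), g ∈ Cfsg.Omega F ⇑Q ∧ U.map (Matrix.mulVecLin ((g : Matrix.GeneralLinearGroup (Fin n) F) : Matrix (Fin n) (Fin n) F)) = W := by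
  have hE : ¬ Exc Q := not_exc_fin h
  obtain ⟨g, rfl⟩ := exists_O_map_eq hQ e he
  have hU' : Disjoint U (orth Q U) := disjoint_iff.2 hU
  have hU'' : Disjoint (orth Q U) (orth Q (orth Q U)) := by rw [orth_orth hQ]; exact hU'.symm
  have hr := finrank_orth hQ U
  rw [Module.finrank_fin_fun] at hr
  obtain ⟨X, hX, h2X, hs⟩ : ∃ X : Submodule F (Fin n → F), Disjoint X (orth Q X) ∧
      2 ≤ finrank F X ∧ ∀ v ∈ X, refl Q v ∈ stab Q U := by
    by_cases h2 : 2 ≤ finrank F U
    · exact ⟨U, hU', h2, fun v hv => refl_mem_stab_of_mem hv⟩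
    · exact ⟨orth Q U, hU'', by omega, fun v hv => refl_mem_stab_of_mem_orth hv⟩
  obtain ⟨x, hx, h1⟩ := exists_commutator_map_eq hQ hE (U := U) g (Or.inr (by
      obtain ⟨v, hv⟩ := exists_quad_eq (restrict_nondeg_iff.2 hX) h2X 1
      rw [restrict_apply'] at hv
      exact ⟨_, hs v v.2, dick_refl hQ (hv ▸ one_ne_zero)⟩))
    (fun h2 => by
      obtain ⟨u, hu, v, hv, h3, h4, h5⟩ := exists_refl_mul_refl_spinA hQ h2 hX h2X
      exact ⟨_, mul_mem (hs u hu) (hs v hv), dick_refl_mul_refl hQ h3 h4, h5⟩)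
  exact exists_mem_Omega_map hx h1

end Cfsg.Agent.S2632
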