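import Cfsg.Statements.S2634
import Cfsg.Agent.Known.OrthLevi

set_option autoImplicit false
open Cfsg

namespace Cfsg.Agent.S2634

open Cfsg.Lib.Known Cfsg.Lib.Class Cfsg.Lib.Class.Orth QuadraticMap Module

/-- Over a finite field of characteristic two, Ω (the commutator subgroup of the orthogonal group of a quadratic form Q on F^n with non-degenerate polar form; excluding dimension 4 over the field of two elements) acts transitively on the non-singular 1-spaces: for u, v with Q(u) ≠ 0 and Q(v) ≠ 0 some element of Ω carries the line through u to the line through v. -/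
theorem result {F : Type*} [Field F] [Fintype F] [CharP F 2] {n : ℕ} (h : Fintype.card F ≠ 2 ∨ n ≠ 4) (Q : QuadraticForm F (Fin n → F)) (hQ : (QuadraticMap.polarBilin Q).Nondegenerate) (u v : Fin n → F) (hu : Q u ≠ 0) (hv : Q v ≠ 0) : ∃ g : ↥(Cfsg.isometryGroup F ⇑Q), g ∈ Cfsg.Omega F ⇑Q ∧ (F ∙ ((g : Matrix.GeneralLinearGroup (Fin n) F) : Matrix (Fin n) (Fin n) F).mulVec u) = F ∙ v := by
  have hE : ¬ Exc Q := not_exc_fin h
  have h2 : (2 : F) = 0 := CharTwo.two_eq_zero
  obtain ⟨t, ht, h1⟩ := sqEq_of_sqs_eq hv hu (by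
    rw [sqs_of_isSquare (isSquare_of_two_eq_zero h2 _),
      sqs_of_isSquare (isSquare_of_two_eq_zero h2 _)])
  have hu0 : u ≠ 0 := by rintro rfl; simp at hu
  have hv0 : v ≠ 0 := by rintro rfl; simp at hv
  obtain ⟨g, hg⟩ := exists_O_apply_eq hQ (smul_ne_zero ht hu0) hv0 (by rw [Q_smul, h1])
  obtain ⟨x, hx, h3⟩ := exists_commutator_map_eq hQ hE (U := F ∙ u) g
    (Or.inr ⟨_, refl_mem_stab_of_mem (Submodule.mem_span_singleton_self u), dick_refl hQ hu⟩)
    (fun h => absurd h2 h)
  obtain ⟨y, hy, h4⟩ := exists_mem_Omega_map hx h3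
  refine ⟨y, hy, ?_⟩
  rw [Submodule.map_span, Submodule.map_span, Set.image_singleton, Set.image_singleton] at h4
  refine h4.trans ?_
  rw [← hg, map_smul, Submodule.span_singleton_smul_eq (IsUnit.mk0 t ht)]
  rfl

end Cfsg.Agent.S2634
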