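import Cfsg.Statements.S2635
import Cfsg.Agent.Known.OrthLevi

set_option autoImplicit false
open Cfsg

namespace Cfsg.Agent.S2635

open Cfsg.Lib.Known Cfsg.Lib.Class Cfsg.Lib.Class.Orth QuadraticMap Module

/-- Over a finite field of characteristic two, for a quadratic form Q on F^n with non-degenerate polar form, n ≥ 2, other than dimension 4 over the field of two elements, Ω (the commutator subgroup of the orthogonal group) is exactly the subgroup generated by the products of two reflections (orthogonal transvections) x ↦ x − Q(v)⁻¹ f(x, v) v, Q(v) ≠ 0: the products of an even number of reflections. -/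
theorem result {F : Type*} [Field F] [Fintype F] [CharP F 2] {n : ℕ} (hn : 2 ≤ n) (h : Fintype.card F ≠ 2 ∨ n ≠ 4) (Q : QuadraticForm F (Fin n → F)) (hQ : (QuadraticMap.polarBilin Q).Nondegenerate) : Cfsg.Omega F ⇑Q = Subgroup.closure {g : ↥(Cfsg.isometryGroup F ⇑Q) | ∃ u v : Fin n → F, Q u ≠ 0 ∧ Q v ≠ 0 ∧ ((g : Matrix.GeneralLinearGroup (Fin n) F) : Matrix (Fin n) (Fin n) F) = Cfsg.reflectionMatrix ⇑Q u * Cfsg.reflectionMatrix ⇑Q v} := by
  have hE : ¬ Exc Q := not_exc_fin h
  have h2 : (2 : F) = 0 := CharTwo.two_eq_zero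
  rw [closure_eq_comap (T := {g | ∃ u v, Q u ≠ 0 ∧ Q v ≠ 0 ∧ g = refl Q u * refl Q v})
    (fun g => by simp only [Set.mem_ofPred_eq, ← mat_eq_refl_mul_refl_iff])]
  ext g
  rw [mem_Omega_iff, Subgroup.mem_comap, mem_commutator_O_iff_of_two_eq_zero hQ hE h2]
  change _ ↔ oEquivIsom Q g ∈ _
  generalize oEquivIsom Q g = x
  set K := Subgroup.closure {g : O Q | ∃ u v, Q u ≠ 0 ∧ Q v ≠ 0 ∧ g = refl Q u * refl Q v}
  constructor
  · have : (dick x = 1 → x ∈ K) ∧ (dick x = -1 → ∀ v, Q v ≠ 0 → x * refl Q v ∈ K) := by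
      induction x using refl_induction hQ hE with
      | h1 => exact ⟨fun _ => one_mem _, fun h => absurd (dick_one.symm.trans h) (by decide)⟩
      | hmul x v hv ih =>
        rw [dick_mul_refl hQ _ hv]
        refine ⟨fun h => ih.2 (by rw [← h, neg_neg]) v hv, fun h w hw => ?_⟩
        rw [mul_assoc]
        exact mul_mem (ih.1 (neg_injective h)) (Subgroup.subset_closure ⟨v, w, hv, hw, rfl⟩)
    exact this.1
  · intro hx
    refine (Subgroup.closure_le (dickHom hQ hE).ker).2 ?_ hx
    rintro _ ⟨u, v, hu, hv, rfl⟩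
    exact dick_refl_mul_refl hQ hu hv

end Cfsg.Agent.S2635
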