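import Cfsg.Statements.S2636
import Mathlib
import Cfsg.Agent.Known.PSLAutCent

set_option autoImplicit false
open Cfsg

namespace Cfsg.Agent.S2636

open Cfsg.Lib.Known Cfsg.Lib.Class Matrix

/-- Centraliser of a field automorphism in PGL_n: let F be the field with q = q₀^r elements, σ a field automorphism of F of prime order r (so its fixed field has q₀ elements) and n ≥ 1. The invertible matrices g whose entrywise image under σ is a scalar multiple of g — those whose coset modulo scalars is fixed by σ — number (q − 1)/(q₀ − 1) · |GL_n(q₀)|; equivalently the centraliser in PGL_n(q) of the induced automorphism has the order of PGL_n(q₀). -/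
theorem result {F : Type*} [Field F] [Fintype F] {q₀ r n : ℕ} (hr : r.Prime) (hn : 1 ≤ n) (hF : Fintype.card F = q₀ ^ r) (σ : F ≃+* F) (hσ : orderOf σ = r) : Nat.card {g : GL (Fin n) F // ∃ c : F, c ≠ 0 ∧ (g : Matrix (Fin n) (Fin n) F).map σ = c • (g : Matrix (Fin n) (Fin n) F)} = (q₀ ^ r - 1) / (q₀ - 1) * ∏ i : Fin n, (q₀ ^ n - q₀ ^ (i : ℕ)) := by
  have : Nonempty (Fin n) := ⟨⟨0, hn⟩⟩
  have h0 := card_fixedSubfield hF (σ := σ) hσ
  have h1 : Nat.card {g : GL (Fin n) F // ∃ c : F, c ≠ 0 ∧
      (g : Matrix (Fin n) (Fin n) F).map σ = c • (g : Matrix (Fin n) (Fin n) F)} =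
      Nat.card ((Subgroup.centralizer {fieldAut (Fin n) F σ}).comap (innD (Fin n) F)) := by
    refine Nat.card_congr (Equiv.subtypeEquivRight fun g => ?_)
    rw [Subgroup.mem_comap, (induces_fieldAut σ).mem_centralizer_iff]
    exact ⟨fun ⟨c, hc, h⟩ => ⟨Units.mk0 c hc, h⟩, fun ⟨c, h⟩ => ⟨c, c.ne_zero, h⟩⟩
  obtain ⟨e⟩ := nonempty_centralizer_fieldAut_equiv (ι := Fin n) (σ : RingAut F)
  have h2 := Subgroup.card_eq_card_quotient_mul_card_subgroup (((innD (Fin n) F).domRestrict
    ((Subgroup.centralizer {fieldAut (Fin n) F σ}).comap (innD (Fin n) F))).ker)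
  rw [Nat.card_congr (QuotientGroup.quotientKerEquivRange _).toEquiv, MonoidHom.domRestrict_range,
    Subgroup.map_comap_eq, Nat.card_congr e.toEquiv, MonoidHom.ker_domRestrict,
    Nat.card_congr (Subgroup.subgroupOfEquivOfLe (Subgroup.ker_le_comap _ _)).toEquiv, ker_innD,
    card_center_GL, Nat.card_eq_fintype_card (α := F), hF] at h2
  have := Fintype.ofFinite (fixedSubfield (σ : RingAut F))
  have h3 := card_PGL_mul (ι := Fin n) (F := fixedSubfield (σ : RingAut F))
  rw [Matrix.card_GL_field, ← Nat.card_eq_fintype_card, h0] at h3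
  rw [h1, h2, ← h3, mul_comm (Nat.card _) (q₀ - 1), ← mul_assoc,
    Nat.div_mul_cancel (by simpa using Nat.sub_dvd_pow_sub_pow q₀ 1 r), mul_comm]

end Cfsg.Agent.S2636
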