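import Cfsg.Statements.S2637
import Mathlib
import Cfsg.Agent.Known.SpCent

set_option autoImplicit false
open Cfsg

namespace Cfsg.Agent.S2637

open Cfsg.Lib.Known Cfsg.Lib.Class Module

/-- Centraliser of a fixed-point-free element of order three in Sp_2m(q) when q ≡ 2 (mod 3): if x ∈ Sp_2m(F) (|F| = q, m ≥ 1) satisfies x³ = 1 and x − 1 is invertible, then its centraliser in Sp_2m(F) has the order of the unitary group GU_m(q), namely q^(m(m−1)/2) Π_(i=1)^m (q^i − (−1)^i) (x lies in the centre of a subgroup GU_m(q) of Sp_2m(q)). -/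
theorem result {F : Type*} [Field F] [Fintype F] {q : ℕ} (hF : Fintype.card F = q) (hq : q % 3 = 2) {m : ℕ} (hm : 1 ≤ m) (x : Matrix.symplecticGroup (Fin m) F) (hx3 : x ^ 3 = 1) (hfpf : IsUnit ((x : Matrix (Fin m ⊕ Fin m) (Fin m ⊕ Fin m) F) - 1)) : (Nat.card ↥(Subgroup.centralizer ({x} : Set ↥(Matrix.symplecticGroup (Fin m) F))) : ℤ) = (q : ℤ) ^ (m * (m - 1) / 2) * ∏ i : Fin m, ((q : ℤ) ^ ((i : ℕ) + 1) - (-1) ^ ((i : ℕ) + 1)) := by
  classical
  subst hF
  let A : Matrix (Fin m ⊕ Fin m) (Fin m ⊕ Fin m) F := x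
  have h1 : A * A = (-1 : F) • 1 + (-1 : F) • A := by
    have h2 : A ^ 3 = 1 := by simpa using congrArg Subtype.val hx3
    refine sub_eq_zero.mp (hfpf.mul_right_eq_zero.mp ?_)
    change (A - 1) * _ = 0
    rw [← sub_eq_zero.mpr h2]
    simp only [neg_smul, one_smul]
    noncomm_ring
  have : Fact (∀ r : F, r ^ 2 ≠ -1 + -1 * r) := ⟨fun r hr => by
    have h3 : r ^ 3 = 1 := by linear_combination (r - 1) * hr
    have h0 : r ≠ 0 := by rintro rfl; simp at h3
    by_cases h4 : r = 1
    · have h5 : ((3 : ℕ) : F) = 0 := by rw [h4] at hr; push_cast; linear_combination hr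
      obtain ⟨p, hp⟩ := CharP.exists F
      obtain ⟨n, hp', hn⟩ := FiniteField.card F p
      have h6 := (Nat.prime_dvd_prime_iff_eq hp' Nat.prime_three).mp
        ((CharP.cast_eq_zero_iff F p 3).mp h5)
      have : 3 ∣ Fintype.card F := by rw [hn, h6]; exact dvd_pow_self 3 n.ne_zero
      omega
    · have h5 := FiniteField.pow_card_sub_one_eq_one r h0
      rw [show Fintype.card F - 1 = 3 * ((Fintype.card F - 1) / 3) + 1 by omega, pow_succ,
        pow_mul, h3, one_pow, one_mul] at h5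
      exact h4 h5⟩
  let φ : (QuadraticAlgebra F (-1) (-1)) →ₐ[F] End F (Fin m ⊕ Fin m → F) := QuadraticAlgebra.lift ⟨Matrix.toLin' A, by
    rw [End.mul_eq_comp, ← Matrix.toLin'_mul, h1, map_add, map_smul, map_smul, Matrix.toLin'_one]
    rfl⟩
  let : Module (QuadraticAlgebra F (-1) (-1)) (Fin m ⊕ Fin m → F) := Module.compHom _ φ.toRingHom
  have hs : ∀ (k : (QuadraticAlgebra F (-1) (-1))) (v : Fin m ⊕ Fin m → F), k • v = φ k v := fun _ _ => rfl
  have : IsScalarTower F (QuadraticAlgebra F (-1) (-1)) (Fin m ⊕ Fin m → F) := ⟨fun a k v => by rw [hs, hs, map_smul]; rfl⟩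
  have : Finite (QuadraticAlgebra F (-1) (-1)) := Finite.of_equiv _ (QuadraticAlgebra.equivProd (-1 : F) (-1)).symm
  let : Fintype (QuadraticAlgebra F (-1) (-1)) := Fintype.ofFinite (QuadraticAlgebra F (-1) (-1))
  have : FiniteDimensional (QuadraticAlgebra F (-1) (-1)) (Fin m ⊕ Fin m → F) := Module.Finite.of_finite
  have hr : finrank (QuadraticAlgebra F (-1) (-1)) (Fin m ⊕ Fin m → F) = m := by
    have h2 := finrank_mul_finrank F (QuadraticAlgebra F (-1) (-1)) (Fin m ⊕ Fin m → F)
    rw [QuadraticAlgebra.finrank_eq_two, finrank_fintype_fun_eq_card, Fintype.card_sum,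
      Fintype.card_fin] at h2
    omega
  rw [card_centralizer_Sp_End, card_centralizer_quadratic (K := (QuadraticAlgebra F (-1) (-1))) (q := Fintype.card F)
    (ω := QuadraticAlgebra.omega) (by
      rw [Fintype.card_congr (QuadraticAlgebra.equivProd (-1 : F) (-1)), Fintype.card_prod, sq])
    (sympBilin_nondegenerate m) (sympBilin_isAlt m) (fun a b => by
      simpa only [Matrix.toLin'_apply] using sympBilin_mulVec x a b) (by ext <;> simp [sq, QuadraticAlgebra.re_one, QuadraticAlgebra.im_one])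
    (fun v => by rw [hs]; simp [φ, A]) (starRingEnd (QuadraticAlgebra F (-1) (-1))) (fun a => by ext <;> simp [starRingEnd_apply])
    (by ext <;> simp [sq, starRingEnd_apply]) (fun k => ⟨k.re, k.im, by ext <;> simp⟩)
    (fun a h => by simpa [sq] using congrArg QuadraticAlgebra.im h), hr,
    guOrder_int _ _ Fintype.card_pos]

end Cfsg.Agent.S2637
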