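import Cfsg.Statements.S2638
import Mathlib
import Cfsg.Agent.Known.GLOrder

set_option autoImplicit false
open Cfsg

namespace Cfsg.Agent.S2638

open Cfsg.Lib.Known Polynomial

/-- If an element x of GL_n(q), n ≥ 1, has prime order r and the multiplicative order of q modulo r is n (r is a primitive prime divisor of q^n − 1, so x acts irreducibly), then the centraliser of x in GL_n(q) is cyclic of order q^n − 1 (the multiplicative group of the field with q^n elements, a Singer cycle). -/
theorem result {F : Type*} [Field F] [Fintype F] {p q : ℕ} [Fact p.Prime] [CharP F p] (hF : Fintype.card F = q) {n r : ℕ} (hn : 1 ≤ n) (hr : r.Prime) (hrp : r ≠ p) (hi : orderOf (q : ZMod r) = n) (x : GL (Fin n) F) (hx : orderOf x = r) : IsCyclic ↥(Subgroup.centralizer ({x} : Set (GL (Fin n) F))) ∧ Nat.card ↥(Subgroup.centralizer ({x} : Set (GL (Fin n) F))) = q ^ n - 1 := by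
  have : Fact r.Prime := ⟨hr⟩
  have hcop : p.Coprime r := (Nat.coprime_primes Fact.out hr).mpr hrp.symm
  have h1 := GL_elDivM_snd_eq_one p (g := x) (hx ▸ hcop.symm)
  have h2 := (GL_pow_eq_one_iff x r).mp (hx ▸ pow_orderOf_eq_one x)
  have h3 : x ≠ 1 := by rintro rfl; exact hr.ne_one (by simpa using hx.symm)
  rw [Ne, GL_eq_one_iff] at h3
  push Not at h3
  obtain ⟨y, hy, hy1⟩ := h3
  obtain ⟨h4, h5, -⟩ := isElDivs_elDivM _ y hy
  have h6 := h2 y hy
  rw [h1 y hy, pow_one] at h6
  have h7 : y.1.natDegree = n := by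
    rcases eq_or_dvd_cyclotomic r h4 h5 h6 with h | h
    · exact absurd (Prod.ext h (h1 y hy)) hy1
    · rw [natDegree_of_dvd_cyclotomic p hcop h5 h, hF, hi]
  obtain ⟨t, ht⟩ := Multiset.exists_cons_of_mem hy
  have h8 := elDeg_elDivM (x : Matrix (Fin n) (Fin n) F)
  rw [ht, elDeg_cons, h7, h1 y hy, Fintype.card_fin] at h8
  have h9 : t = 0 := by
    refine Multiset.eq_zero_of_forall_notMem fun z hz => ?_
    have hz' : z ∈ elDivM (x : Matrix (Fin n) (Fin n) F) := ht ▸ Multiset.mem_cons_of_mem hz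
    have := Multiset.single_le_sum (s := t.map fun x => x.1.natDegree * x.2)
      (fun _ _ => Nat.zero_le _) _ (Multiset.mem_map_of_mem _ hz)
    rw [h1 z hz', mul_one] at this
    have h4 := (isElDivs_elDivM _ z hz').2.1.natDegree_pos
    change _ ≤ elDeg t at this
    omega
  have h10 : elDivM (x : Matrix (Fin n) (Fin n) F) = {(y.1, 1)} := by
    rw [ht, h9, ← h1 y hy]; rfl
  obtain ⟨e⟩ := nonempty_centralizer_equiv (sim_cycX_of_elDivM_eq_singleton h10)
  have := finite_cyc' (pow_ne_zero 1 h4.ne_zero)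
  have := isDomain_cyc (f := y.1 ^ 1) (by rwa [pow_one])
  refine ⟨isCyclic_of_surjective e e.surjective, ?_⟩
  rw [← Nat.card_congr e.toEquiv, natCard_units_cyc_pow h5 Nat.one_pos, h7]
  simp [hF]

end Cfsg.Agent.S2638
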