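import Cfsg.Statements.S2639
import Cfsg.Agent.Class.HermSL2
import Cfsg.Agent.Class.AltBasis

set_option autoImplicit false
open Cfsg

namespace Cfsg.Agent.S2639

open Cfsg.Lib.Class Cfsg.Lib.Class.Form Module

/-- The unitary group embeds in the symplectic group of twice the dimension over the subfield: for a field K with q² elements and a field F with q elements (isomorphic to the subfield of K of order q), there is an injective homomorphism GU_m(q) → Sp_2m(F). -/
theorem result {K F : Type*} [Field K] [Fintype K] [Field F] [Fintype F] {q : ℕ} (hK : Fintype.card K = q ^ 2) (hF : Fintype.card F = q) (m : ℕ) : ∃ φ : ↥(Cfsg.GU m K q) →* ↥(Matrix.symplecticGroup (Fin m) F), Function.Injective φ := by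
  obtain ⟨φ, hφ⟩ := exists_ringHom_fixed hK hF
  let _ : Algebra F K := φ.toAlgebra
  have hφ' : ∀ a : F, frobq hK (algebraMap F K a) = algebraMap F K a := fun a => (hφ _).2 ⟨a, rfl⟩
  have h := herm_hermSesq hK m
  have hq := two_le_of_card_sq hK
  have h2 : finrank F K = 2 := by
    have := Module.card_eq_pow_finrank (K := F) (V := K)
    rw [hK, hF] at this
    exact (Nat.pow_right_injective hq this).symm
  obtain ⟨τ, hτ0, hτ⟩ := Submodule.exists_le_ker_of_lt_top (Submodule.span F {(1 : K)})
    (Submodule.lt_top_of_finrank_lt_finrank (by rw [finrank_span_singleton one_ne_zero]; omega))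
  let B : LinearMap.BilinForm F (Fin m → K) := LinearMap.mk₂ F (fun u v => τ (hermSesq hK m u v))
    (fun u u' v => by simp only [map_add, LinearMap.add_apply])
    (fun c u v => by
      rw [← algebraMap_smul K c u, map_smulₛₗ, hφ', LinearMap.smul_apply, algebraMap_smul, map_smul])
    (fun u v v' => by simp only [map_add])
    (fun c u v => by rw [← algebraMap_smul K c v, map_smul, algebraMap_smul, map_smul])
  have hB : ∀ u v, B u v = τ (hermSesq hK m u v) := fun _ _ => rfl
  have hA : B.IsAlt := fun u => by
    obtain ⟨a, ha⟩ := (hφ _).1 (h.conj u u)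
    exact hτ (Submodule.mem_span_singleton.2 ⟨a, by
      rw [Algebra.smul_def, mul_one]; exact ha⟩)
  have hN : B.Nondegenerate := (LinearMap.IsRefl.nondegenerate_iff_separatingLeft hA.isRefl).2
    fun u hu => by
      by_contra hu0
      obtain ⟨v, hv⟩ := h.exists_ne hu0
      refine hτ0 (LinearMap.ext fun x => ?_)
      have := hu ((x / hermSesq hK m u v) • v)
      rwa [hB, map_smul, smul_eq_mul, div_mul_cancel₀ _ hv] at this
  obtain ⟨e, he⟩ := exists_equiv_sympForm hN hA (m := m) (by
    rw [← finrank_mul_finrank F K, h2, finrank_fin_fun])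
  let ψ : GU m K q →* Isom (fun u v => B u v) :=
    { toFun := fun g => ⟨((guEquivIsomGroup hK m g : isomGroup (hermSesq hK m)) :
        (Fin m → K) ≃ₗ[K] (Fin m → K)).restrictScalars F, fun u v => by
          simp only [hB, LinearEquiv.restrictScalars_apply, isom_apply]⟩
      map_one' := by rw [map_one]; rfl
      map_mul' := fun a b => by rw [map_mul]; rfl }
  refine ⟨(spEquivIsom m F).symm.toMonoidHom.comp ((isomCongr e (f := sympForm m F) he).symm.toMonoidHom.comp ψ),
    (spEquivIsom m F).symm.injective.comp ((isomCongr e he).symm.injective.comp fun a b hab => ?_)⟩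
  exact (guEquivIsomGroup hK m).injective (isom_ext fun x =>
    LinearEquiv.congr_fun (congrArg Subtype.val hab) x)

end Cfsg.Agent.S2639
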