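import Cfsg.Statements.S2642
import Cfsg.Agent.Known.GUClasses
import Cfsg.Agent.S2570

set_option autoImplicit false
open Cfsg

namespace Cfsg.Agent.S2642

open Cfsg.Lib.Known Polynomial

/-- Number of conjugacy classes of elements of order p in the general unitary group GU_n(q), q a power of p: every unipotent Jordan type occurs and the classes correspond to the partitions of n with all parts at most p other than the all-ones partition, exactly as in GL_n; so there are (number of partitions of n with parts ≤ p) − 1 classes. -/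
theorem result {K : Type*} [Field K] [Fintype K] {p q n : ℕ} [Fact p.Prime] [CharP K p] (hK : Fintype.card K = q ^ 2) : Nat.card {C : ConjClasses ↥(Cfsg.GU n K q) // ∃ g : ↥(Cfsg.GU n K q), ConjClasses.mk g = C ∧ orderOf g = p} = (Finset.univ.filter (fun μ : Nat.Partition n => ∀ a ∈ μ.parts, a ≤ p)).card - 1 := by
  rw [← Cfsg.Agent.S2570.result (F := K) (p := p) n]
  let P : Multiset (K[X] × ℕ) → Prop := fun s =>
    ∃ g : GL (Fin n) K, elDivM (g : Matrix (Fin n) (Fin n) K) = s ∧ orderOf g = p
  have hP : ∀ g : GL (Fin n) K, orderOf g = p ↔ P (elDivM (g : Matrix (Fin n) (Fin n) K)) :=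
    fun g => ⟨fun h => ⟨g, rfl, h⟩, fun ⟨g', h1, h2⟩ => by
      obtain ⟨c, rfl⟩ := isConj_iff.mp (GL_isConj_iff_elDivM.mpr h1)
      rw [← h2]
      exact (MulAut.conj c).orderOf_eq g'⟩
  rw [card_GL_classes _ P hP, card_GU_classes hK _ P fun g => by rw [← hP, Subgroup.orderOf_coe],
    Fintype.card_fin]
  refine Nat.card_congr (Equiv.subtypeEquivRight fun s => and_congr_right fun _ =>
    ⟨fun h => h.2, fun h => ⟨?_, h⟩⟩)
  obtain ⟨g, rfl, hg⟩ := h
  have h1 := (isNilpotent_sub_one_iff _).mp
    ((GL_orderOf_eq_pow_iff p g).mp ⟨1, by rw [hg, pow_one]⟩)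
  conv_rhs => rw [← Multiset.map_id (elDivM _)]
  exact Multiset.map_congr rfl fun x hx => Prod.ext
    (by rw [dualED_fst, id, h1 x hx, dualPoly_X_sub_one]) rfl

end Cfsg.Agent.S2642
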