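import Cfsg.Statements.S2643
import Cfsg.Agent.Known.GUClasses

set_option autoImplicit false
open Cfsg

namespace Cfsg.Agent.S2643

open Cfsg.Lib.Known Cfsg.Lib.Class Polynomial Module

theorem map_detU_centralizer {K : Type*} [Field K] [Fintype K] {q n : ℕ}
    (hK : Fintype.card K = q ^ 2) (g : GU n K q)
    (h : elDivM ((g : GL (Fin n) K) : Matrix (Fin n) (Fin n) K) = {(X - 1, n)}) :
    (Subgroup.centralizer {g}).map (detU hK n) =
      (powMonoidHom n : normOne K q →* normOne K q).range := by
  apply le_antisymm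
  · rintro _ ⟨z, hz, rfl⟩
    have hs := sim_cycX_of_elDivM_eq_singleton h
    have h4 : Commute z g := Subgroup.mem_centralizer_singleton_iff.mp hz
    obtain ⟨a, ha⟩ := exists_aeval_of_commute hs
      (Commute.units_val (h4.map (GU n K q).subtype))
    have h5 : ((z : GL (Fin n) K) : Matrix (Fin n) (Fin n) K).det = a.eval 1 ^ n := by
      change ((z : GL (Fin n) K) : Matrix (Fin n) (Fin n) K) = _ at ha
      rw [ha, det_aeval_of_sim_cycX hs, det_cycMul_pow monic_X_sub_one.ne_zero]
      have : cycMul (X - 1 : K[X]) a = cycMul (X - 1) (C (a.eval 1)) := by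
        refine LinearMap.ext fun x => ?_
        rw [cycMul_apply, cycMul_apply]
        congr 1
        rw [Ideal.Quotient.eq, Ideal.mem_span_singleton]
        exact X_sub_C_dvd_sub_C_eval
      rw [this, det_cycMul_C monic_X_sub_one.ne_zero, natDegree_X_sub_one, pow_one]
    set G := Matrix.toLin' ((g : GL (Fin n) K) : Matrix (Fin n) (Fin n) K) with hG
    obtain ⟨v, hv0, hv⟩ : ∃ v, v ≠ 0 ∧ G v = v := by
      have : ¬ Function.Injective (aeval G (X - 1 : K[X])) := by
        rw [injective_aeval_iff_elDiv]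
        intro h'
        exact h' (X - 1, n) (by rw [hG, ← elDivM, h]; simp) dvd_rfl
      rw [injective_iff_map_eq_zero] at this
      push Not at this
      obtain ⟨v, hv, hv0⟩ := this
      exact ⟨v, hv0, by simpa [sub_eq_zero] using hv⟩
    have hh := hform_hermSesq hK n
    have hGv : hh.adj G v = v := by
      conv_lhs => rw [← hv]
      rw [← End.mul_apply, mul_eq_one_comm.mp (hh.mul_adj_of_isometry (hermSesq_mulVec hK g)),
        End.one_apply]
    have hz1 := mul_eq_one_comm.mp (hh.mul_adj_of_isometry (hermSesq_mulVec hK z))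
    change ((z : GL (Fin n) K) : Matrix (Fin n) (Fin n) K) = _ at ha
    have hz2 := LinearMap.congr_fun hz1 v
    rw [ha, toLin'_aeval, hh.adj_aeval, End.mul_apply,
      End.aeval_apply_of_mem_apply_eq_smul (f := G) (μ := 1) (by rw [one_smul]; exact hv),
      map_smul, End.aeval_apply_of_mem_apply_eq_smul (f := hh.adj G) (μ := 1)
        (by rw [one_smul]; exact hGv), smul_smul,
      End.one_apply, eval_one_map] at hz2
    have hz3 : a.eval 1 * frobq hK (a.eval 1) = 1 := by
      apply smul_left_injective K hv0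
      simpa using hz2
    refine ⟨⟨Units.mk0 _ (left_ne_zero_of_mul_eq_one hz3), mem_normOne.mpr ?_⟩, ?_⟩
    · rw [mul_comm]; exact hz3
    · rw [eq_comm, detU_eq_iff, h5]; simp
  · rintro _ ⟨c, rfl⟩
    exact pow_mem_map_detU_centralizer hK g (x := (X - 1, n)) (by simp [h]) c

/-- Regular unipotent classes of SU_n(q), n ≥ 2: the elements u of the special unitary group (isometries of Σ u_i v_i^q of determinant one over the field with q² elements) with (u − 1)^n = 0 and rank(u − 1) = n − 1 form exactly gcd(n, q + 1) conjugacy classes of SU_n(q). -/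
theorem result {K : Type*} [Field K] [Fintype K] {q n : ℕ} (hK : Fintype.card K = q ^ 2) (hn : 2 ≤ n) : Nat.card {C : ConjClasses ↥(Cfsg.SU n K q) // ∃ u : ↥(Cfsg.SU n K q), ConjClasses.mk u = C ∧ (((u : GL (Fin n) K) : Matrix (Fin n) (Fin n) K) - 1) ^ n = 0 ∧ (((u : GL (Fin n) K) : Matrix (Fin n) (Fin n) K) - 1).rank = n - 1} = Nat.gcd n (q + 1) := by
  have h1 : IsElDivs ({(X - 1, n)} : Multiset (K[X] × ℕ)) := fun x hx => by
    rw [Multiset.mem_singleton.mp hx]
    exact ⟨monic_X_sub_one, irreducible_X_sub_one, by omega⟩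
  obtain ⟨g, hg⟩ := exists_SU_elDivM_eq hK (n := n) (s := {(X - 1, n)})
    ⟨h1, by simp [elDeg, natDegree_X_sub_one], fun x hx => by
      rw [Multiset.mem_singleton.mp hx]; exact X_sub_one_ne_X⟩
    (by simp [dualED, dualPoly_X_sub_one])
    (by simp [elProd, coeff_zero_eq_eval_zero])
  have h2 := card_SU_classes_split hK (by omega) g
  rw [map_detU_centralizer hK (suToGU n K q g) hg, hg] at h2
  have : IsCyclic (normOne K q) := Subgroup.isCyclic _
  rw [IsCyclic.index_powMonoidHom_range, card_normOne hK, Nat.gcd_comm] at h2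
  rw [← h2]
  refine Nat.card_congr (Equiv.subtypeEquivRight fun C => exists_congr fun u =>
    and_congr_right fun _ => ⟨fun h => ?_, fun h => ?_⟩)
  · have := elDivM_regular_unipotent
      (A := ((u : GL (Fin n) K) : Matrix (Fin n) (Fin n) K)) (by simp; omega) ⟨n, h.1⟩
      (by rw [h.2]; simp)
    rw [Fintype.card_fin] at this
    exact this.symm
  · have h3 : ∀ x ∈ elDivM ((u : GL (Fin n) K) : Matrix (Fin n) (Fin n) K),
        x.1 = X - 1 ∧ x.2 ≤ n := fun x hx => by
      change x ∈ elDivM ((u : Matrix.SpecialLinearGroup (Fin n) K) :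
        Matrix (Fin n) (Fin n) K) at hx
      rw [← h, Multiset.mem_singleton] at hx
      simp [hx]
    have h4 := (sub_one_pow_eq_zero_iff _ n).mpr h3
    refine ⟨h4, ?_⟩
    have h5 := rank_sub_one_add_card_elDivM ⟨n, h4⟩
    change (elDivM ((u : Matrix.SpecialLinearGroup (Fin n) K) :
        Matrix (Fin n) (Fin n) K)).card + _ = _ at h5
    rw [← h, Multiset.card_singleton, Fintype.card_fin] at h5
    omega

end Cfsg.Agent.S2643
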