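import Cfsg.Statements.S2645
import Cfsg.Agent.Known.PrimeOrdCount

set_option autoImplicit false
open Cfsg

namespace Cfsg.Agent.S2645

open Cfsg.Lib.Known Cfsg.Lib.Class Polynomial

/-- Number of conjugacy classes of elements of odd prime order r, r different from the characteristic, in the symplectic group Sp_2m(q): let i be the multiplicative order of q modulo r and t = (r − 1)/i. If i is odd the eigenvalue orbits pair off (Λ ≠ Λ⁻¹) and the classes correspond to the non-zero (t/2)-tuples (a_j) with 2i Σ a_j ≤ 2m, giving C(⌊m/i⌋ + t/2, t/2) − 1 classes; if i is even (Λ = Λ⁻¹) they correspond to the non-zero t-tuples with i Σ a_j ≤ 2m, giving C(⌊2m/i⌋ + t, t) − 1 classes. -/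
theorem result {F : Type*} [Field F] [Fintype F] {p q : ℕ} [Fact p.Prime] [CharP F p] (hF : Fintype.card F = q) (m r i t : ℕ) (hr : r.Prime) (hr2 : r ≠ 2) (hrp : r ≠ p) (hi : i = orderOf (q : ZMod r)) (ht : t * i = r - 1) : Nat.card {C : ConjClasses ↥(Matrix.symplecticGroup (Fin m) F) // ∃ g : Matrix.symplecticGroup (Fin m) F, ConjClasses.mk g = C ∧ orderOf g = r} = if Odd i then Nat.choose (m / i + t / 2) (t / 2) - 1 else Nat.choose (2 * m / i + t) t - 1 := by
  have : Fact r.Prime := ⟨hr⟩
  have hd := orderOf_card_pos (K := F) p hrp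
  have hT := card_cycFactors (K := F) p hrp
  rw [hF, ← hi] at hd hT
  have hT' : (cycFactors F r).card = t :=
    Nat.eq_of_mul_eq_mul_left hd (by rw [hT, mul_comm, ht])
  rw [card_Sp_classes_of_nonsplit _ (PrimeOrdType r) (fun g => by
      rw [← orderOf_spToGL, GL_orderOf_eq_prime_iff, coe_spToGL])
    fun g g' hg h => (Sp_isConj_iff_of_coprime p (by
      rw [hg]; exact (Nat.coprime_primes hr Fact.out).mpr hrp)).mpr h,
    Nat.card_congr (Equiv.subtypeEquivRight (q := fun s => IsGLType (2 * m) s ∧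
      s.map (dualED (RingHom.id F)) = s ∧ PrimeOrdType r s) fun s =>
      ⟨fun h => ⟨h.1, h.2.1, h.2.2.2⟩,
        fun h => ⟨h.1, h.2.1, h.2.2.spParity p hrp hr2 h.1 h.2.1, h.2.2⟩⟩)]
  have key : ∀ x ∈ cycFactors F r, dualED (RingHom.id F) x = x ↔ Even i := by
    intro x hx
    obtain ⟨h1, h2, h3, -⟩ := mem_cycFactors.mp hx
    have := dualPoly_eq_self_iff_of_dvd_cyclotomic (σ := RingHom.id F) p 0 (by simp)
      (natCast_prime_ne_zero p hrp) h1 h2 h3
    rw [pow_zero, hF] at this
    simp only [mul_one] at this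
    rw [exists_dvd_pow_add_one_iff hr2 (hi ▸ hd.ne'), ← hi] at this
    rw [← this, Prod.ext_iff, dualED_fst, dualED_snd, and_iff_left rfl]
  split_ifs with h
  · rw [card_primeOrdType_of_free p hrp (fun _ => rfl)
      (fun x hx h' => Nat.not_even_iff_odd.mpr h ((key x hx).mp h')), hF, ← hi, hT',
      Nat.mul_div_mul_left _ _ two_pos]
  · rw [card_primeOrdType_of_fixed p hrp
      (fun x hx => (key x hx).mpr (Nat.not_odd_iff_even.mp h)), hF, ← hi, hT']

end Cfsg.Agent.S2645
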