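import Cfsg.Statements.S2646
import Mathlib
import Cfsg.Agent.Known.UnipCent
import Cfsg.Agent.Known.GUClasses

set_option autoImplicit false
open Cfsg

namespace Cfsg.Agent.S2646

open Cfsg.Lib.Known Cfsg.Lib.Class Cfsg.Lib.Class.Form Module

theorem guOrder_cast {q : ℕ} (hq : 1 ≤ q) (a : ℕ) : (guOrder q a : ℤ) =
    (q : ℤ) ^ (a * (a - 1) / 2) * ∏ j : Fin a, ((q : ℤ) ^ ((j : ℕ) + 1) - (-1) ^ ((j : ℕ) + 1)) := by
  rw [guOrder, Fin.prod_univ_eq_prod_range (fun j => (q : ℤ) ^ (j + 1) - (-1) ^ (j + 1))]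
  push_cast
  congr 1
  refine Finset.prod_congr rfl fun i _ => ?_
  split_ifs with h
  · rw [h.add_one.neg_one_pow]; ring
  · rw [(Nat.not_even_iff_odd.mp h).add_one.neg_one_pow, Nat.cast_sub (Nat.one_le_pow _ _ hq)]
    push_cast; ring

/-- Order of the centraliser in the general unitary group GU_n(q) of a unipotent element of given Jordan type: if u ∈ GU_n(q) (isometries of Σ u_i v_i^q over the field with q² elements) is similar to the unipotent matrix with a_i Jordan blocks of size i (all sizes at least 1), then its centraliser in GU_n(q) has order q^γ · Π_i |GU_(a_i)(q)| with γ = 2 Σ_(i<j) i a_i a_j + Σ_i (i − 1) a_i², the same exponent as in GL_n(q), where |GU_a(q)| = q^(a(a−1)/2) Π_(k=1)^a (q^k − (−1)^k). -/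
theorem result {K : Type*} [Field K] [Fintype K] {q n t : ℕ} (hK : Fintype.card K = q ^ 2) (d : Fin t → ℕ) (hd : ∀ k, 1 ≤ d k) (e : ((k : Fin t) × Fin (d k)) ≃ Fin n) (u : ↥(Cfsg.GU n K q)) (hu : IsConj (Matrix.reindex e e (Cfsg.jordanTypeMatrix d K)) ((u : GL (Fin n) K) : Matrix (Fin n) (Fin n) K)) : (Nat.card ↥(Subgroup.centralizer ({u} : Set ↥(Cfsg.GU n K q))) : ℤ) = (q : ℤ) ^ (2 * (∑ i ∈ Finset.range (Finset.univ.sup d + 1), ∑ j ∈ Finset.range (Finset.univ.sup d + 1), if i < j then i * (Finset.univ.filter (fun k : Fin t => d k = i)).card * (Finset.univ.filter (fun k : Fin t => d k = j)).card else 0) + ∑ i ∈ Finset.range (Finset.univ.sup d + 1), (i - 1) * (Finset.univ.filter (fun k : Fin t => d k = i)).card ^ 2) * ∏ i ∈ Finset.range (Finset.univ.sup d + 1), ((q : ℤ) ^ ((Finset.univ.filter (fun k : Fin t => d k = i)).card * ((Finset.univ.filter (fun k : Fin t => d k = i)).card - 1) / 2) * ∏ j : Fin (Finset.univ.filter (fun k : Fin t => d k = i)).card,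 ((q : ℤ) ^ ((j : ℕ) + 1) - (-1) ^ ((j : ℕ) + 1))) := by
  have hg : elDiv (Matrix.toLin' ((u : GL (Fin n) K) : Matrix (Fin n) (Fin n) K)) =
      Finset.univ.val.map fun k => (Polynomial.X - 1, d k) := by
    rw [← elDivM_jordanTypeMatrix hd, ← elDivM_reindex e, isConj_iff_elDivM.mp hu]; rfl
  have hq : 1 ≤ q := Nat.pos_of_ne_zero (by
    rintro rfl
    exact absurd hK (by simp))
  have h : WallData (hermSesq hK n) 1
      (Matrix.toLin' ((u : GL (Fin n) K) : Matrix (Fin n) (Fin n) K)) 1 :=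
    ⟨hform_hermSesq hK n, hermSesq_mulVec hK u, one_mul 1, map_one _⟩
  have h1 := h.card_centralizer_herm hK (frobq_ne_id hK) (pow_sup_eq_zero hg)
  rw [gamma_jordan hd hg, prod_lay_jordan hd hg (guOrder q) (guOrder_zero q)] at h1
  simp only [← guOrder_cast hq]
  norm_cast
  rw [← h1]
  refine Nat.card_congr (Equiv.ofBijective (fun g => ⟨⟨Matrix.GeneralLinearGroup.toLin g.1.1,
    (Itw.sub_smul_iff 1).mpr (itw_iff_commute.mpr ?_)⟩, hermSesq_mulVec hK g.1⟩) ⟨?_, ?_⟩)
  · have := congrArg (fun x : Cfsg.GU n K q => Matrix.toLin' ((x : GL (Fin n) K) :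
      Matrix (Fin n) (Fin n) K)) (Subgroup.mem_centralizer_singleton_iff.mp g.2)
    simp only [Subgroup.coe_mul, Units.val_mul, Matrix.toLin'_mul] at this
    exact this
  · intro g g' h
    exact Subtype.ext (Subtype.ext (Matrix.GeneralLinearGroup.toLin.injective
      (congrArg (fun x => x.1.1) h)))
  · rintro ⟨⟨c, hc⟩, hc'⟩
    obtain ⟨g, hg⟩ := exists_GU_of_isometry hK (n := n) (z := c.1) hc'
    refine ⟨⟨g, Subgroup.mem_centralizer_singleton_iff.mpr (Subtype.ext (Units.ext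
      (Matrix.toLin'.injective ?_)))⟩, Subtype.ext (Subtype.ext (Units.ext hg))⟩
    simp only [Subgroup.coe_mul, Units.val_mul, Matrix.toLin'_mul, hg]
    exact itw_iff_commute.mp ((Itw.sub_smul_iff 1).mp hc)

end Cfsg.Agent.S2646
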