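import Cfsg.Statements.S2653
import Cfsg.Agent.Perm.WagFT

set_option autoImplicit false
open scoped MatrixGroups
open Cfsg

namespace Cfsg.Agent.S2653


/-- Alternating sections of finite linear groups. Let `F` be a finite field of characteristic `p` and `n` a natural number, and suppose some subgroup `H` of GL_n(F) has a normal subgroup `K` with `H ⧸ K` isomorphic to the alternating group of degree `r ≥ 9`. Then `n ≥ r - 2` when `p` divides `r`, and `n ≥ r - 1` otherwise (the smallest degree of a nontrivial projective representation of that alternating group in characteristic `p`). The same bound follows for every classical group with natural module of dimension `n` over `F`, since each is a section of a subgroup of GL_n(F). -/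
theorem result {F : Type*} [Field F] [Fintype F] (p : ℕ) [Fact p.Prime] [CharP F p]
    (n : ℕ) (r : ℕ) (H : Subgroup (GL (Fin n) F)) (K : Subgroup ↥H) [K.Normal]
    (h : Nonempty (↥H ⧸ K ≃* ↥(alternatingGroup (Fin r)))) (hr : 9 ≤ r) :
    r - 1 - (if p ∣ r then 1 else 0) ≤ n := by
  obtain ⟨e⟩ := h
  have := Cfsg.Lib.Perm.Wag.section_bound' p hr (π := e.toMonoidHom.comp (QuotientGroup.mk' K))
    (e.surjective.comp (QuotientGroup.mk'_surjective K))
    ((Matrix.toLinAlgEquiv' (R := F) (n := Fin n)).toMulEquiv.toMonoidHom.comp
      ((Units.coeHom _).comp H.subtype)) fun g hg => by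
      rw [show g = 1 from Subtype.ext (Units.ext
        ((map_eq_one_iff _ (Matrix.toLinAlgEquiv' (R := F) (n := Fin n)).injective).mp hg)), map_one]
  simpa using this

end Cfsg.Agent.S2653
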