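import Cfsg.Statements.S2655
import Cfsg.Agent.Cor.AltEMain
-- import your own Cfsg.Agent.* helpers here

set_option autoImplicit false
open scoped MatrixGroups
open Cfsg

namespace Cfsg.Agent.S2655

open Cfsg.Lib.Cor.Alt Cfsg.Lib.Cor.AltE

/-- Alternating sections of the groups of type E₇. Let `F` be a finite field of characteristic `p` and let `G` be the Chevalley group of type E₇ over `F`. If some subgroup of `G` has a quotient isomorphic to the alternating group of degree `r`, then `r` is at most 13, or 14 in characteristic 7. (Only an upper bound is asserted.) -/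
theorem result {F : Type*} [Field F] [Fintype F] (p : ℕ) [Fact p.Prime] [CharP F p]
    (r : ℕ) (H : Subgroup ↥(Cfsg.Lie.chevE7.group F)) (K : Subgroup ↥H) [K.Normal]
    (h : Nonempty (↥H ⧸ K ≃* ↥(alternatingGroup (Fin r)))) :
    r ≤ 13 + (if p = 7 then 1 else 0) := by
  have h1 := Sec.of_quotient H K h
  by_contra hr
  split_ifs at hr with hp
  · exact not_sec7_15 p (by omega) (h1.alt (by omega))
  · exact not_sec7_14 p hp (h1.alt (by omega))

end Cfsg.Agent.S2655
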