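import Cfsg.Statements.S2658
import Cfsg.Agent.Cor.AltSecChev

set_option autoImplicit false
open scoped MatrixGroups
open Cfsg

namespace Cfsg.Agent.S2658

open Cfsg.Lib.Cor.Alt

/-- Alternating sections of the groups of type G₂. Let `F` be a finite field of characteristic `p` and let `G` be the Chevalley group of type G₂ over `F`. If some subgroup of `G` has a quotient isomorphic to the alternating group of degree `r`, then `r` is at most 6, or 7 in characteristic 5. (Only an upper bound is asserted.) -/
theorem result {F : Type*} [Field F] [Fintype F] (p : ℕ) [Fact p.Prime] [CharP F p]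
    (r : ℕ) (H : Subgroup ↥(Cfsg.Lie.chevG2.group F)) (K : Subgroup ↥H) [K.Normal]
    (h : Nonempty (↥H ⧸ K ≃* ↥(alternatingGroup (Fin r)))) :
    r ≤ 6 + (if p = 5 then 1 else 0) := by
  have h1 := Sec.of_quotient H K h
  by_contra hr
  split_ifs at hr with hp
  · exact not_sec_G2_eight (coprime_card p (by norm_num) (by omega)) (h1.alt (by omega))
  · exact not_sec_G2_seven (coprime_card p (by norm_num) hp) (h1.alt (by omega))

end Cfsg.Agent.S2658
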