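import Cfsg.Statements.S2660
import Cfsg.Agent.Cor.AltSecChev

set_option autoImplicit false
open scoped MatrixGroups
open Cfsg

namespace Cfsg.Agent.S2660

open Cfsg.Lib.Cor.Alt

/-- Alternating sections of the triality-twisted groups ³D₄. Let `q = p^a` be a prime power and `K` a field with `q³` elements, and let `G` be the twisted group ³D₄(q) realised over `K`. If some subgroup of `G` has a quotient isomorphic to the alternating group of degree `r`, then `r` is at most 6, or 7 in characteristic 5. (Only an upper bound is asserted.) -/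
theorem result {K : Type*} [Field K] [Fintype K] (p a : ℕ) [Fact p.Prime] [CharP K p]
    (ha : 1 ≤ a) (hK : Fintype.card K = (p ^ a) ^ 3) (r : ℕ) (H : Subgroup ↥(Cfsg.Lie.twistedD4 K (p ^ a))) (N : Subgroup ↥H) [N.Normal]
    (h : Nonempty (↥H ⧸ N ≃* ↥(alternatingGroup (Fin r)))) :
    r ≤ 6 + (if p = 5 then 1 else 0) := by
  have h1 := Sec.of_quotient H N h
  have h2 : ∀ s : ℕ, s.Prime → p ≠ s → (p ^ a).Coprime s := fun s hs h =>
    ((Nat.coprime_primes Fact.out hs).mpr h).pow_left _
  by_contra hr
  split_ifs at hr with hp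
  · exact not_sec_D4_eight hK (h2 2 (by norm_num) (by omega)) (h1.alt (by omega))
  · exact not_sec_D4_seven hK (h2 5 (by norm_num) hp) (h1.alt (by omega))

end Cfsg.Agent.S2660
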