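import Cfsg.Statements.S2666

set_option autoImplicit false
open Cfsg

namespace Cfsg.Agent.S2666

theorem norm_eq {X : Type*} [Group X] (σ : MulAut X) (a : X) (d : ℕ) :
    ((List.range d).map (fun i => (σ ^ i) (a * (σ a)⁻¹))).prod = a * ((σ ^ d) a)⁻¹ := by
  induction d with
  | zero => simp
  | succ d ih =>
    rw [List.range_succ, List.map_append, List.prod_append, ih]
    simp [pow_succ, mul_assoc]

theorem pow_apply_comm {X : Type*} [Group X] (σ : MulAut X) (e : ℕ) (a : X) :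
    (σ ^ e) (σ a) = σ ((σ ^ e) a) := by
  rw [← MulAut.mul_apply, ← pow_succ, pow_succ', MulAut.mul_apply]

theorem pow_apply_of_fixed {X : Type*} [Group X] (σ : MulAut X) (e : ℕ) (a : X) (h : σ a = a) :
    (σ ^ e) a = a := by
  induction e with
  | zero => simp
  | succ e ih => rw [pow_succ, MulAut.mul_apply, h, ih]

theorem mem_iff {X : Type*} [Group X] (τ : MulAut X) (a : X) :
    a ∈ (MulEquiv.toMonoidHom τ).eqLocus (MonoidHom.id X) ↔ τ a = a := Iff.rfl

theorem fixed_iff {X : Type*} [Group X] (σ : MulAut X) (e : ℕ) (a : X) :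
    (σ ^ e) (a * (σ a)⁻¹) = a * (σ a)⁻¹ ↔ σ (((σ ^ e) a)⁻¹ * a) = ((σ ^ e) a)⁻¹ * a := by
  rw [map_mul, map_inv, map_mul, map_inv, pow_apply_comm]
  generalize (σ ^ e) a = b
  constructor
  · intro h
    calc (σ b)⁻¹ * σ a = b⁻¹ * (b * (σ b)⁻¹) * σ a := by group
      _ = b⁻¹ * a := by rw [h]; group
  · intro h
    calc b * (σ b)⁻¹ = b * ((σ b)⁻¹ * σ a) * (σ a)⁻¹ := by group
      _ = a * (σ a)⁻¹ := by rw [h]; group

/-- Shintani descent, in an abstract form. Let `σ` be an automorphism of a group `X` such that the maps `a ↦ a·σ(a)⁻¹` and `a ↦ a·σᵉ(a)⁻¹` are surjective on `X` (the Lang–Steinberg property, which holds when `X` is a connected algebraic group and `σ` a Steinberg endomorphism), where `e ≥ 1`. Write `G` for the subgroup of fixed points of `σᵉ` and `H` for the subgroup of fixed points of `σ`. The `G`-conjugacy classes in the coset `G σ` of the semidirect product of `G` by `σ` correspond to the orbits of `G` on itself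 under twisted conjugation `g ↦ k g σ(k)⁻¹`, and the `e`-th power of `g σ` has `G`-part the norm `g σ(g) ⋯ σ^(e-1)(g)`. For `g` in `G` and any `a` with `g = a σ(a)⁻¹`, put `x = σᵉ(a)⁻¹ a`. Then: (1) `x` lies in `H`, and `a⁻¹ · (g σ(g) ⋯ σ^(e-1)(g)) · a = x`; (2) for `g, g'` in `G` with such elements `a, b` and `x, x'`, the elements `g, g'` are twisted-conjugate under `G` if and only if `x, x'` are conjugate in `H`; (3) every element of `H` arises as such an `x`. So `g ↦ x` induces a well-defined bijection from the twisted `G`-classes of `G` onto the conjugacy classes of `H` (the Shintani map). -/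
theorem result {X : Type*} [Group X] (σ : MulAut X) (e : ℕ) (he : 1 ≤ e)
    (hL : ∀ g : X, ∃ a : X, g = a * (σ a)⁻¹) (hLe : ∀ g : X, ∃ a : X, g = a * ((σ ^ e) a)⁻¹) :
    (∀ g ∈ (MulEquiv.toMonoidHom (σ ^ e)).eqLocus (MonoidHom.id X), ∀ a : X, g = a * (σ a)⁻¹ →
        ((σ ^ e) a)⁻¹ * a ∈ (MulEquiv.toMonoidHom σ).eqLocus (MonoidHom.id X) ∧
          a⁻¹ * ((List.range e).map (fun i => (σ ^ i) g)).prod * a = ((σ ^ e) a)⁻¹ * a) ∧
    (∀ g ∈ (MulEquiv.toMonoidHom (σ ^ e)).eqLocus (MonoidHom.id X), ∀ g' ∈ (MulEquiv.toMonoidHom (σ ^ e)).eqLocus (MonoidHom.id X), ∀ a b : X,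
        g = a * (σ a)⁻¹ → g' = b * (σ b)⁻¹ →
          ((∃ k ∈ (MulEquiv.toMonoidHom (σ ^ e)).eqLocus (MonoidHom.id X), g' = k * g * (σ k)⁻¹) ↔
            (∃ h ∈ (MulEquiv.toMonoidHom σ).eqLocus (MonoidHom.id X), ((σ ^ e) b)⁻¹ * b = h * (((σ ^ e) a)⁻¹ * a) * h⁻¹))) ∧
    (∀ x ∈ (MulEquiv.toMonoidHom σ).eqLocus (MonoidHom.id X), ∃ g ∈ (MulEquiv.toMonoidHom (σ ^ e)).eqLocus (MonoidHom.id X), ∃ a : X,
        g = a * (σ a)⁻¹ ∧ ((σ ^ e) a)⁻¹ * a = x) := by
  simp only [mem_iff]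
  refine ⟨?_, ?_, ?_⟩
  · rintro g hg a rfl
    refine ⟨(fixed_iff σ e a).mp hg, ?_⟩
    rw [norm_eq]
    group
  · rintro g hg g' hg' a b rfl rfl
    constructor
    · rintro ⟨k, hk, h⟩
      have h1 : σ (b⁻¹ * k * a) = b⁻¹ * k * a := by
        rw [map_mul, map_mul, map_inv]
        calc (σ b)⁻¹ * σ k * σ a = b⁻¹ * (b * (σ b)⁻¹) * σ k * σ a := by group
          _ = b⁻¹ * k * a := by rw [h]; group
      refine ⟨b⁻¹ * k * a, h1, ?_⟩
      have h2 := pow_apply_of_fixed σ e _ h1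
      rw [map_mul, map_mul, map_inv, hk] at h2
      nth_rewrite 1 [← h2]
      group
    · rintro ⟨h, hh, h2⟩
      refine ⟨b * h * a⁻¹, ?_, ?_⟩
      · rw [map_mul, map_mul, map_inv, pow_apply_of_fixed σ e _ hh]
        calc (σ ^ e) b * h * ((σ ^ e) a)⁻¹
            = (σ ^ e) b * (h * (((σ ^ e) a)⁻¹ * a) * h⁻¹) * h * a⁻¹ := by group
          _ = b * h * a⁻¹ := by rw [← h2]; group
      · rw [map_mul, map_mul, map_inv, hh]
        group
  · intro x hx
    obtain ⟨c, hc⟩ := hLe x⁻¹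
    have h1 : ((σ ^ e) c⁻¹)⁻¹ * c⁻¹ = x := by
      rw [map_inv, inv_inv, ← inv_inv x, hc]; group
    refine ⟨_, (fixed_iff σ e c⁻¹).mpr ?_, c⁻¹, rfl, h1⟩
    rw [h1, hx]

end Cfsg.Agent.S2666
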