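import Cfsg.Statements.S2667
import Cfsg.Agent.S2666

set_option autoImplicit false
open Cfsg

namespace Cfsg.Agent.S2667


/-- Shintani descent, in an abstract form. Let `σ` be an automorphism of a group `X` and `e ≥ 1` (no surjectivity of the Lang maps is needed for this part; in the classical setting `X` is a connected algebraic group and `σ` a Steinberg endomorphism). Write `G` for the subgroup of fixed points of `σᵉ` and `H` for the subgroup of fixed points of `σ`. The `G`-conjugacy classes in the coset `G σ` of the semidirect product of `G` by `σ` correspond to the orbits of `G` on itself under twisted conjugation `g ↦ k g σ(k)⁻¹`, and the `e`-th power of `g σ` has `G`-part the norm `g σ(g) ⋯ σ^(e-1)(g)`. For `g` in `G` and any `a` with `g = a σ(a)⁻¹`, put `x = σᵉ(a)⁻¹ a`. Then conjugation by `a⁻¹` carries the twisted centralizer `{k ∈ G : k g σ(k)⁻¹ = g}` (the centralizer of `g σ` in `G`) exactly onto the centralizer of `x` in `H`: an element `k` of `X` lies in `G` and satisfies `k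 g σ(k)⁻¹ = g` if and only if `a⁻¹ k a` lies in `H` and commutes with `x`. In particular the two centralizers are conjugate in `X` and have the same order. -/
theorem result {X : Type*} [Group X] (σ : MulAut X) (e : ℕ) (he : 1 ≤ e)
    (g : X) (hg : g ∈ (MulEquiv.toMonoidHom (σ ^ e)).eqLocus (MonoidHom.id X)) (a : X) (ha : g = a * (σ a)⁻¹) (k : X) :
    (k ∈ (MulEquiv.toMonoidHom (σ ^ e)).eqLocus (MonoidHom.id X) ∧ k * g * (σ k)⁻¹ = g) ↔
      (a⁻¹ * k * a ∈ (MulEquiv.toMonoidHom σ).eqLocus (MonoidHom.id X) ∧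
        (a⁻¹ * k * a) * (((σ ^ e) a)⁻¹ * a) = (((σ ^ e) a)⁻¹ * a) * (a⁻¹ * k * a)) := by
  simp only [S2666.mem_iff] at hg ⊢
  subst ha
  constructor
  · rintro ⟨hk, h⟩
    have h1 : σ (a⁻¹ * k * a) = a⁻¹ * k * a := by
      rw [map_mul, map_mul, map_inv]
      calc (σ a)⁻¹ * σ k * σ a = a⁻¹ * (a * (σ a)⁻¹) * σ k * σ a := by group
        _ = a⁻¹ * k * a := by
          nth_rewrite 1 [← h]; group
    refine ⟨h1, ?_⟩
    have h2 := S2666.pow_apply_of_fixed σ e _ h1
    rw [map_mul, map_mul, map_inv, hk] at h2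
    nth_rewrite 1 [← h2]
    group
  · rintro ⟨h1, h⟩
    have h2 := S2666.pow_apply_of_fixed σ e _ h1
    rw [map_mul, map_mul, map_inv] at h2 h1
    constructor
    · nth_rewrite 1 [← h2] at h
      calc (σ ^ e) k = (σ ^ e) a * ((((σ ^ e) a)⁻¹ * (σ ^ e) k * (σ ^ e) a) *
            (((σ ^ e) a)⁻¹ * a)) * a⁻¹ := by group
        _ = k := by rw [h]; group
    · calc k * (a * (σ a)⁻¹) * (σ k)⁻¹ = a * (a⁻¹ * k * a) * (σ a)⁻¹ * (σ k)⁻¹ := by group
        _ = a * (σ a)⁻¹ := by rw [← h1]; group

end Cfsg.Agent.S2667
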