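import Cfsg.Statements.S2669
import Cfsg.Agent.S2666

set_option autoImplicit false
open Cfsg

namespace Cfsg.Agent.S2669

theorem card_rel {A B Z : Type*} (R : A → B → Prop) (P : A → Prop) (h1 : ∀ a b, R a b → P a)
    (h2 : ∀ a, P a → Nonempty ({b // R a b} ≃ Z)) :
    Nat.card {p : A × B // R p.1 p.2} = Nat.card {a // P a} * Nat.card Z := by
  rw [← Nat.card_prod]
  refine Nat.card_congr ?_
  refine (?_ : _ ≃ Σ a : {a // P a}, {b // R a.1 b}).trans
    ((Equiv.sigmaCongrRight fun a : {a // P a} => (h2 a.1 a.2).some).trans (Equiv.sigmaEquivProd _ _))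
  exact
    { toFun := fun p => ⟨⟨p.1.1, h1 _ _ p.2⟩, ⟨p.1.2, p.2⟩⟩
      invFun := fun s => ⟨(s.1.1, s.2.1), s.2.2⟩
      left_inv := fun p => rfl
      right_inv := fun s => rfl }

theorem card_rel_swap {A B : Type*} (R : A → B → Prop) :
    Nat.card {p : A × B // R p.1 p.2} = Nat.card {p : B × A // R p.2 p.1} :=
  Nat.card_congr ((Equiv.prodComm A B).subtypeEquiv fun _ => Iff.rfl)

theorem coset_equiv {X : Type*} [Group X] (H Y : Subgroup X) (c : X) (h₀ : H)
    (hh : c * h₀ ∈ Y) : Nonempty ({h : H // c * h ∈ Y} ≃ ↥(Y ⊓ H)) :=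
  ⟨{ toFun := fun h => ⟨(h₀ : X)⁻¹ * h.1, by
        refine ⟨?_, H.mul_mem (H.inv_mem h₀.2) h.1.2⟩
        have := Y.mul_mem (Y.inv_mem hh) h.2
        simpa [mul_assoc] using this⟩
     invFun := fun y => ⟨⟨h₀ * y.1, H.mul_mem h₀.2 y.2.2⟩, by
        have := Y.mul_mem hh y.2.1
        simpa [mul_assoc] using this⟩
     left_inv := fun h => by ext; simp
     right_inv := fun y => by ext; simp }⟩

/-- Shintani descent preserves numbers of fixed points on coset spaces (abstract form). Let `σ` be an automorphism of a group `X` and `e ≥ 1`; write `G` for the fixed points of `σᵉ` and `H` for the fixed points of `σ`, and assume `G` is finite. Let `Y` be a `σ`-stable subgroup of `X` on which the maps `a ↦ a σ(a)⁻¹` and `a ↦ a σᵉ(a)⁻¹` are surjective (as for a closed connected `σ`-stable subgroup of an algebraic group). Let `g ∈ G`, let `a ∈ X` satisfy `g = a σ(a)⁻¹` and put `x = σᵉ(a)⁻¹ a` (the Shintani image, an element of `H`).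 The element `g σ` of the semidirect product acts on the cosets of `Y ∩ G` in `G` by `k (Y ∩ G) ↦ g σ(k) (Y ∩ G)`, fixing that coset exactly when `k⁻¹ g σ(k) ∈ Y`; and `x` fixes the coset `h (Y ∩ H)` of `H` exactly when `h⁻¹ x h ∈ Y`. Then the two numbers of fixed cosets agree; in cross-multiplied form, `#{k ∈ G : k⁻¹ g σ(k) ∈ Y} · |Y ∩ H| = #{h ∈ H : h⁻¹ x h ∈ Y} · |Y ∩ G|`. -/
theorem result {X : Type*} [Group X] (σ : MulAut X) (e : ℕ) (he : 1 ≤ e)
    [Finite ↥((MulEquiv.toMonoidHom (σ ^ e)).eqLocus (MonoidHom.id X))]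
    (Y : Subgroup X) (hY : ∀ y : X, y ∈ Y ↔ σ y ∈ Y)
    (hYL : ∀ y ∈ Y, ∃ a ∈ Y, y = a * (σ a)⁻¹) (hYLe : ∀ y ∈ Y, ∃ a ∈ Y, y = a * ((σ ^ e) a)⁻¹)
    (g : X) (hg : g ∈ (MulEquiv.toMonoidHom (σ ^ e)).eqLocus (MonoidHom.id X)) (a : X) (ha : g = a * (σ a)⁻¹) :
    Nat.card {k : ↥((MulEquiv.toMonoidHom (σ ^ e)).eqLocus (MonoidHom.id X)) // (k : X)⁻¹ * g * σ k ∈ Y} *
        Nat.card ↥(Y ⊓ (MulEquiv.toMonoidHom σ).eqLocus (MonoidHom.id X)) =
      Nat.card {h : ↥((MulEquiv.toMonoidHom σ).eqLocus (MonoidHom.id X)) // (h : X)⁻¹ * (((σ ^ e) a)⁻¹ * a) * h ∈ Y} *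
        Nat.card ↥(Y ⊓ (MulEquiv.toMonoidHom (σ ^ e)).eqLocus (MonoidHom.id X)) := by
  set G := (MulEquiv.toMonoidHom (σ ^ e)).eqLocus (MonoidHom.id X) with hG
  set H := (MulEquiv.toMonoidHom σ).eqLocus (MonoidHom.id X) with hH
  have hYe : ∀ (d : ℕ) (y : X), y ∈ Y → (σ ^ d) y ∈ Y := by
    intro d
    induction d with
    | zero => simp
    | succ d ih => intro y hy; rw [pow_succ, MulAut.mul_apply]; exact ih _ ((hY y).mp hy)
  subst ha
  let R : G → H → Prop := fun k h => (k : X)⁻¹ * a * h ∈ Y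
  rw [← card_rel R, card_rel_swap R, card_rel (fun h k => R k h)]
  · intro h k hr
    have hk : (σ ^ e) k = k := k.2
    have hh : (σ ^ e) h = h := S2666.pow_apply_of_fixed σ e _ h.2
    have := Y.mul_mem (Y.inv_mem (hYe e _ hr)) hr
    rw [map_mul, map_mul, map_inv, hk, hh] at this
    convert this using 1
    group
  · intro h hr
    have hh : (σ ^ e) h = h := S2666.pow_apply_of_fixed σ e _ h.2
    obtain ⟨c, hc, h1⟩ := hYLe _ (Y.inv_mem hr)
    have hk : (σ ^ e) (a * h * c) = a * h * c := by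
      rw [map_mul, map_mul, hh]
      calc (σ ^ e) a * h * (σ ^ e) c
          = a * h * ((h : X)⁻¹ * (((σ ^ e) a)⁻¹ * a) * h)⁻¹ * (σ ^ e) c := by group
        _ = a * h * c := by rw [h1]; group
    obtain ⟨E⟩ := coset_equiv G Y (a * h)⁻¹ ⟨a * h * c, hk⟩ (by simpa [mul_assoc] using hc)
    refine ⟨(Equiv.subtypeEquivRight fun k => ?_).trans E⟩
    rw [← Y.inv_mem_iff]
    simp [mul_assoc, R]
  · intro k h hr
    have hh : σ h = h := h.2
    have := Y.mul_mem hr (Y.inv_mem ((hY _).mp hr))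
    rw [map_mul, map_mul, map_inv, hh] at this
    convert this using 1
    group
  · intro k hr
    obtain ⟨y, hy, h1⟩ := hYL _ hr
    have hh : σ (a⁻¹ * k * y) = a⁻¹ * k * y := by
      rw [map_mul, map_mul, map_inv]
      calc (σ a)⁻¹ * σ k * σ y = a⁻¹ * k * ((k : X)⁻¹ * (a * (σ a)⁻¹) * σ k) * σ y := by group
        _ = a⁻¹ * k * y := by rw [h1]; group
    exact coset_equiv H Y ((k : X)⁻¹ * a) ⟨a⁻¹ * k * y, hh⟩ (by simpa [mul_assoc] using hy)

end Cfsg.Agent.S2669
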