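import Cfsg.Statements.S2671
import Cfsg.Agent.Known.PrimeOrdCount
import Cfsg.Agent.Known.GUClasses

set_option autoImplicit false
open Cfsg

namespace Cfsg.Agent.S2671

open Cfsg.Lib.Known Cfsg.Lib.Class Polynomial

/-- Number of conjugacy classes of elements of odd prime order r in the general unitary group GU_n(q), for r not dividing q(q + 1): let i be the multiplicative order of q modulo r, b = i if i is odd and b = i/2 if i is even, and s = (r − 1)/b. If i ≢ 2 (mod 4) the eigenvalue orbits pair off into dual pairs of totally isotropic blocks and there are C(⌊n/(2b)⌋ + s/2, s/2) − 1 classes; if i ≡ 2 (mod 4) each orbit gives a non-degenerate block of dimension i/2 and there are C(⌊2n/i⌋ + s, s) − 1 classes. -/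
theorem result {K : Type*} [Field K] [Fintype K] {p q n r i b s : ℕ} [Fact p.Prime] [CharP K p] (hK : Fintype.card K = q ^ 2) (hr : r.Prime) (hr2 : r ≠ 2) (hrp : r ≠ p) (hi : i = orderOf (q : ZMod r)) (hi2 : i ≠ 2) (hb : b = if Odd i then i else i / 2) (hs : s * b = r - 1) : Nat.card {C : ConjClasses ↥(Cfsg.GU n K q) // ∃ g : ↥(Cfsg.GU n K q), ConjClasses.mk g = C ∧ orderOf g = r} = if i % 4 = 2 then Nat.choose (2 * n / i + s) s - 1 else Nat.choose (n / (2 * b) + s / 2) (s / 2) - 1 := by
  have : Fact r.Prime := ⟨hr⟩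
  have hd := orderOf_card_pos (K := K) p hrp
  have hT := card_cycFactors (K := K) p hrp
  have hob : orderOf (Fintype.card K : ZMod r) = b := by
    rw [hK, Nat.cast_pow, orderOf_pow' _ two_ne_zero, ← hi, hb]
    split_ifs with h
    · rw [(Nat.coprime_two_right.mpr h).gcd_eq_one, Nat.div_one]
    · rw [Nat.gcd_eq_right (Nat.not_odd_iff_even.mp h).two_dvd]
  rw [hob] at hd hT
  have hi0 : i ≠ 0 := by
    rintro rfl
    simp at hb
    omega
  have hT' : (cycFactors K r).card = s :=
    Nat.eq_of_mul_eq_mul_left hd (by rw [hT, mul_comm, hs])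
  rw [card_GU_classes hK _ (PrimeOrdType r) (fun g => by
      rw [← Subgroup.orderOf_coe, GL_orderOf_eq_prime_iff])]
  obtain ⟨p', k, hp', hc, -, hq⟩ := exists_prime_pow_of_card_sq hK
  obtain rfl : p' = p := CharP.eq K hc ‹CharP K p›
  have key : ∀ x ∈ cycFactors K r, dualED (frobq hK) x = x ↔ i % 4 = 2 := by
    intro x hx
    obtain ⟨h1, h2, h3, -⟩ := mem_cycFactors.mp hx
    have := dualPoly_eq_self_iff_of_dvd_cyclotomic (σ := frobq hK) p' k (by simp [hq])
      (natCast_prime_ne_zero p' hrp) h1 h2 h3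
    rw [← hq, hK, exists_dvd_sq_pow_mul_add_one_iff hr2 (hi ▸ hi0), ← hi] at this
    rw [← this, Prod.ext_iff, dualED_fst, dualED_snd, and_iff_left rfl]
  split_ifs with h
  · rw [card_primeOrdType_of_fixed p' hrp (fun x hx => (key x hx).mpr h), hob, hT']
    have h2 : i = 2 * b := by
      rw [hb, if_neg (by rw [Nat.odd_iff]; omega)]; omega
    rw [h2, Nat.mul_div_mul_left _ _ two_pos]
  · rw [card_primeOrdType_of_free p' hrp (frobq_frobq hK)
      (fun x hx h' => h ((key x hx).mp h')), hob, hT']

end Cfsg.Agent.S2671
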