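import Cfsg.Statements.S2672
import Mathlib
import Cfsg.Agent.Known.PGLCount
import Cfsg.Agent.Known.GUClasses

set_option autoImplicit false
open Cfsg

namespace Cfsg.Agent.S2672

open Cfsg.Lib.Known Cfsg.Lib.Known.PGLC Matrix

/-- Number of conjugacy classes of elements of odd prime order r in PGU_n(q) = GU_n(q)/scalars (n ≥ 3) when r divides q + 1: as in the linear case with q − 1 replaced by q + 1, the classes correspond to the rotation orbits on r-tuples of eigenvalue multiplicities summing to n with every entry < n, plus r − 1 further classes when r divides n; in all (C(n+r−1, r−1) − r − [r ∣ n])/r + r·[r ∣ n]. -/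
theorem result {K : Type*} [Field K] [Fintype K] {q n r : ℕ} (hK : Fintype.card K = q ^ 2) (hn : 3 ≤ n) (hr : r.Prime) (hr2 : r ≠ 2) (hrq : r ∣ q + 1) : Nat.card {C : ConjClasses (↥(Cfsg.GU n K q) ⧸ Subgroup.center ↥(Cfsg.GU n K q)) // ∃ g : ↥(Cfsg.GU n K q) ⧸ Subgroup.center ↥(Cfsg.GU n K q), ConjClasses.mk g = C ∧ orderOf g = r} = (Nat.choose (n + r - 1) (r - 1) - r - (if r ∣ n then 1 else 0)) / r + r * (if r ∣ n then 1 else 0) := by
  have : Nonempty (Fin n) := ⟨⟨0, by omega⟩⟩
  have hq : 1 < q := by
    have := Fintype.one_lt_card (α := K)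
    rw [hK] at this
    by_contra! h
    interval_cases q <;> omega
  have hM : Mono ((Units.coeHom (Matrix (Fin n) (Fin n) K)).comp (GU n K q).subtype)
      (normOne K q) :=
    { inj := Units.val_injective.comp Subtype.val_injective
      conj := fun g h => (GU_isConj_iff_mat hK).2
      mon := fun σ d => ⟨⟨(isUnit_mon σ fun i => (d i).1.ne_zero).unit, fun u v => by
        change hermForm n K q (mon σ _ *ᵥ u) (mon σ _ *ᵥ v) = _
        simp only [hermForm, mon_mulVec]
        rw [← Equiv.sum_comp σ fun i => u i * v i ^ q]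
        refine Finset.sum_congr rfl fun i _ => ?_
        have := mem_normOne.1 (d i).2
        rw [mul_pow]
        linear_combination (u (σ i) * v (σ i) ^ q) * this⟩, rfl⟩
      scal := fun g a h => by
        have ha : a ≠ 0 := by
          rintro rfl
          exact g.1.ne_zero (h.trans (zero_smul _ _))
        refine ⟨⟨Units.mk0 a ha, mem_normOne.2 ?_⟩, rfl⟩
        have h1 := g.2 (Pi.single ⟨0, by omega⟩ 1) (Pi.single ⟨0, by omega⟩ 1)
        change hermForm n K q (((Units.coeHom (Matrix (Fin n) (Fin n) K)).comp (GU n K q).subtype) g *ᵥ _)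
          (((Units.coeHom (Matrix (Fin n) (Fin n) K)).comp (GU n K q).subtype) g *ᵥ _) = _ at h1
        rw [h] at h1
        have h0 : ∀ c : K, hermForm n K q (Pi.single ⟨0, by omega⟩ c) (Pi.single ⟨0, by omega⟩ c) =
            c ^ q * c := fun c => by
          rw [hermForm, Finset.sum_eq_single ⟨0, by omega⟩] <;> simp +contextual [mul_comm]
        rw [smul_mulVec, one_mulVec, ← Pi.single_smul', smul_eq_mul, mul_one, h0, h0] at h1
        simpa using h1 }
  have := hM.card_classes hr (by rwa [card_normOne hK]) fun b c hb => by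
    have hb0 : b ≠ 0 := by
      rintro rfl
      exact c.1.ne_zero (hb.symm.trans (zero_pow hr.ne_zero))
    refine ⟨⟨Units.mk0 b hb0, mem_normOne.2 ?_⟩, rfl⟩
    have h1 : (b ^ (q + 1)) ^ r = 1 := by
      rw [← pow_mul, mul_comm, pow_mul, hb, pow_succ]; exact mem_normOne.1 c.2
    have h2 : (b ^ (q + 1)) ^ (q - 1) = 1 := by
      rw [← pow_mul, ← FiniteField.pow_card_sub_one_eq_one b hb0, hK, ← Nat.sq_sub_sq, one_pow]
    have h3 : r.Coprime (q - 1) := (hr.coprime_iff_not_dvd).2 fun h => hr2
      ((Nat.prime_dvd_prime_iff_eq hr Nat.prime_two).1 (by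
        have := Nat.dvd_sub hrq h
        rwa [show q + 1 - (q - 1) = 2 by omega] at this))
    have h4 := pow_gcd_eq_one.2 ⟨h1, h2⟩
    rwa [h3.gcd_eq_one, pow_one, pow_succ] at h4
  simpa only [Fintype.card_fin] using this

end Cfsg.Agent.S2672
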