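import Cfsg.Statements.S2674
import Cfsg.Agent.Known.OPrime

set_option autoImplicit false
open Cfsg

namespace Cfsg.Agent.S2674

open Cfsg.Lib.Known Cfsg.Lib.Class

/-- Number of conjugacy classes of elements of odd prime order r ≠ p in the orthogonal group O⁺_2m(q) of Σ x_j y_j (m ≥ 1): with i the multiplicative order of q mod r and t = (r − 1)/i — if i is odd, C(⌊m/i⌋ + t/2, t/2) − 1; if i is even, C(⌊2m/i⌋ + t, t) − 1 minus, when i divides 2m with odd quotient, the C(2m/i + t − 1, t − 1) tuples using the whole space (an odd number of elliptic i-blocks fills an elliptic, not a hyperbolic, space). -/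
theorem result {F : Type*} [Field F] [Fintype F] {p q : ℕ} [Fact p.Prime] [CharP F p] (hF : Fintype.card F = q) (m r i t : ℕ) (hm : 1 ≤ m) (hr : r.Prime) (hr2 : r ≠ 2) (hrp : r ≠ p) (hi : i = orderOf (q : ZMod r)) (ht : t * i = r - 1) : Nat.card {C : ConjClasses ↥(Cfsg.isometryGroup F (Cfsg.quadFormPlus m F)) // ∃ g : ↥(Cfsg.isometryGroup F (Cfsg.quadFormPlus m F)), ConjClasses.mk g = C ∧ orderOf g = r} = if Odd i then Nat.choose (m / i + t / 2) (t / 2) - 1 else Nat.choose (2 * m / i + t) t - 1 - (if i ∣ 2 * m ∧ Odd (2 * m / i) then Nat.choose (2 * m / i + t - 1) (t - 1) else 0) := by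
  have : Fact r.Prime := ⟨hr⟩
  have h2 := hr.two_le
  have ht0 : 1 ≤ t := Nat.pos_of_ne_zero (by rintro rfl; omega)
  have hP := isPlus_quadPlus (F := F) m
  rw [← coe_quadPlus]
  by_cases h : i ∣ m
  · rw [card_O_classes_prime_of_pos p hrp hr2 (hF ▸ hi) ht (quadPlus_nondegenerate m) (n := 2 * m)
      (by simp; ring) (Or.inr (by simp [hP, h])), Nat.mul_div_mul_left _ _ two_pos,
      if_neg (c := i ∣ 2 * m ∧ Odd (2 * m / i)), Nat.sub_zero]
    rw [Nat.mul_div_assoc _ h]
    simp
  · rw [card_O_classes_prime_of_neg p hrp hr2 (hF ▸ hi) ht (quadPlus_nondegenerate m) hm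
      (by simp; ring) (by simp [hP, h])]
    by_cases ho : Odd i
    · have h3 := Nat.succ_div (a := 2 * m - 1) (b := 2 * i)
      rw [show 2 * m - 1 + 1 = 2 * m by omega, if_neg (by
        rwa [Nat.mul_dvd_mul_iff_left two_pos]), Nat.mul_div_mul_left _ _ two_pos] at h3
      rw [if_pos ho, if_pos ho, h3, add_zero]
    · rw [if_neg ho, if_neg ho, choose_pred_div (by omega) ht0]
      congr 1
      refine if_congr ⟨fun h3 => ⟨h3, ?_⟩, fun h3 => h3.1⟩ rfl rfl
      by_contra h4
      obtain ⟨k, hk⟩ := Nat.not_odd_iff_even.mp h4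
      have h5 := Nat.div_mul_cancel h3
      rw [hk] at h5
      exact h ⟨k, by nlinarith⟩

end Cfsg.Agent.S2674
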