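import Cfsg.Statements.S2675
import Cfsg.Agent.Known.OPrime

set_option autoImplicit false
open Cfsg

namespace Cfsg.Agent.S2675

open Cfsg.Lib.Known Cfsg.Lib.Class

/-- Number of conjugacy classes of elements of odd prime order r ≠ p in the orthogonal group O⁻_2m(q) of an elliptic form Σ_(j<m−1) x_j y_j + z₁² + a z₁z₂ + c z₂² (binary part anisotropic, m ≥ 1): with i the multiplicative order of q mod r and t = (r − 1)/i — if i is odd, C(⌊m/i⌋ + t/2, t/2) − 1 minus, when i divides m, the C(m/i + t/2 − 1, t/2 − 1) tuples filling the whole space (dual pairs of totally singular blocks fill a hyperbolic space); if i is even, C(⌊2m/i⌋ + t, t) − 1 minus, when i divides 2m with even quotient, the C(2m/i + t − 1, t − 1) tuples filling the whole space with an even number of elliptic blocks. -/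
theorem result {F : Type*} [Field F] [Fintype F] {p q : ℕ} [Fact p.Prime] [CharP F p] (hF : Fintype.card F = q) (m r i t : ℕ) (hm : 1 ≤ m) (a c : F) (hac : ∀ z₁ z₂ : F, z₁ ^ 2 + a * z₁ * z₂ + c * z₂ ^ 2 = 0 → z₁ = 0 ∧ z₂ = 0) (hr : r.Prime) (hr2 : r ≠ 2) (hrp : r ≠ p) (hi : i = orderOf (q : ZMod r)) (ht : t * i = r - 1) : Nat.card {C : ConjClasses ↥(Cfsg.isometryGroup F (Cfsg.quadFormMinus (m - 1) F a c)) // ∃ g : ↥(Cfsg.isometryGroup F (Cfsg.quadFormMinus (m - 1) F a c)), ConjClasses.mk g = C ∧ orderOf g = r} = if Odd i then Nat.choose (m / i + t / 2) (t / 2) - 1 - (if i ∣ m then Nat.choose (m / i + t / 2 - 1) (t / 2 - 1) else 0) else Nat.choose (2 * m / i + t) t - 1 - (if i ∣ 2 * m ∧ Even (2 * m / i) then Nat.choose (2 * m / i + t - 1) (t - 1) else 0) := by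
  have : Fact r.Prime := ⟨hr⟩
  have h2 := hr.two_le
  have ht0 : 1 ≤ t := Nat.pos_of_ne_zero (by rintro rfl; omega)
  have hP := not_isPlus_quadMinus (F := F) (m - 1) hac
  have hcard : Fintype.card ((Fin (m - 1) ⊕ Fin (m - 1)) ⊕ Fin 2) = 2 * m := by simp; omega
  rw [← coe_quadMinus]
  by_cases h : i ∣ m
  · rw [card_O_classes_prime_of_neg p hrp hr2 (hF ▸ hi) ht (quadMinus_nondegenerate _ hac) hm
      hcard (by simp [hP, h])]
    by_cases ho : Odd i
    · have ht2 : 1 ≤ t / 2 := by
        have h3 : Even (t * i) := by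
          rw [ht]; exact (hr.odd_of_ne_two hr2).tsub_odd odd_one
        obtain ⟨k, hk⟩ := (Nat.even_mul.mp h3).resolve_right (Nat.not_even_iff_odd.mpr ho)
        omega
      rw [if_pos ho, if_pos ho, choose_pred_div (by omega) ht2, Nat.mul_div_mul_left _ _ two_pos,
        if_pos h, if_pos (Nat.mul_dvd_mul_left 2 h)]
    · rw [if_neg ho, if_neg ho, choose_pred_div (by omega) ht0, if_pos (h.mul_left 2),
        if_pos ⟨h.mul_left 2, by rw [Nat.mul_div_assoc _ h]; exact even_two_mul _⟩]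
  · rw [card_O_classes_prime_of_pos p hrp hr2 (hF ▸ hi) ht (quadMinus_nondegenerate _ hac) hcard
      (Or.inr (by simp [hP, h])), Nat.mul_div_mul_left _ _ two_pos, if_neg h, Nat.sub_zero,
      if_neg (c := i ∣ 2 * m ∧ Even (2 * m / i)), Nat.sub_zero]
    rintro ⟨h3, k, hk⟩
    have h5 := Nat.div_mul_cancel h3
    rw [hk] at h5
    exact h ⟨k, by nlinarith⟩

end Cfsg.Agent.S2675
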