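import Cfsg.Statements.S2676
import Mathlib
import Cfsg.Agent.Known.SpUnip

set_option autoImplicit false
open Classical
open Cfsg

namespace Cfsg.Agent.S2676

open Cfsg.Lib.Known Cfsg.Lib.Class Polynomial

/-- Number of conjugacy classes of elements of order p in Sp_2m(q), q a power of the odd prime p: the classes correspond to the signed partitions of 2m — partitions with all parts at most p in which every odd part has even multiplicity, each even part size that occurs carrying a sign — other than the all-ones partition; so the count is the sum over such partitions of 2^(number of distinct even parts), minus one. -/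
theorem result {F : Type*} [Field F] [Fintype F] {p : ℕ} [Fact p.Prime] [CharP F p] (hp : p ≠ 2) (m : ℕ) : Nat.card {C : ConjClasses ↥(Matrix.symplecticGroup (Fin m) F) // ∃ g : Matrix.symplecticGroup (Fin m) F, ConjClasses.mk g = C ∧ orderOf g = p} = (∑ μ ∈ Finset.univ.filter (fun μ : Nat.Partition (2 * m) => (∀ a ∈ μ.parts, a ≤ p) ∧ ∀ j : ℕ, Odd j → Even (μ.parts.count j)), 2 ^ ((μ.parts.toFinset.filter (fun j : ℕ => Even j)).card)) - 1 := by
  have h2 : (2 : F) ≠ 0 := fun h => hp ((Nat.prime_dvd_prime_iff_eq Fact.out Nat.prime_two).mp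
    ((CharP.cast_eq_zero_iff F p 2).mp (by simpa using h)))
  let μ₀ : Nat.Partition (2 * m) := ⟨Multiset.replicate (2 * m) 1,
    fun h => (Multiset.eq_of_mem_replicate h).symm ▸ one_pos, by simp⟩
  rw [card_Sp_unipotent_classes h2 _ (fun t => (∀ a ∈ t, a ≤ p) ∧ ¬ ∀ a ∈ t, a = 1) fun g => ?_,
    ← Finset.add_sum_erase (Finset.univ.filter fun μ : Nat.Partition (2 * m) =>
      (∀ a ∈ μ.parts, a ≤ p) ∧ _) _ (a := μ₀)]
  · rw [Finset.filter_false_of_mem (s := μ₀.parts.toFinset) fun j hj => by
      rw [Multiset.eq_of_mem_replicate (Multiset.mem_toFinset.mp hj)]; simp, Finset.card_empty,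
      pow_zero, Nat.add_sub_cancel_left]
    refine Finset.sum_congr (Finset.ext fun μ => ?_) fun _ _ => rfl
    have : μ = μ₀ ↔ ∀ a ∈ μ.parts, a = 1 := ⟨fun h a ha => Multiset.eq_of_mem_replicate (h ▸ ha),
      fun h => Nat.Partition.ext (Multiset.eq_replicate.mpr ⟨by
        have := μ.parts_sum
        rwa [Multiset.eq_replicate_card.mpr h, Multiset.sum_replicate, smul_eq_mul, mul_one] at this,
        h⟩)⟩
    simp only [Finset.mem_filter, Finset.mem_univ, Finset.mem_erase, ne_eq, this]
    tauto
  · refine Finset.mem_filter.mpr ⟨Finset.mem_univ _, fun a ha => ?_, fun j _ => ?_⟩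
    · rw [Multiset.eq_of_mem_replicate ha]; exact (Fact.out : p.Prime).one_le
    · simp only [μ₀, Multiset.count_replicate]
      split_ifs <;> simp
  have h1 := GL_pow_char_pow_eq_one_iff p (spToGL m F g) 1
  have h3 := GL_eq_one_iff (spToGL m F g)
  rw [pow_one, sub_one_pow_eq_zero_iff, coe_spToGL] at h1
  rw [coe_spToGL] at h3
  rw [← orderOf_spToGL, orderOf_eq_prime_iff, h1, Ne, h3]
  simp only [Multiset.forall_mem_map_iff, Prod.ext_iff]
  exact ⟨fun h => ⟨fun x hx => (h.1 x hx).1, fun x hx => (h.1 x hx).2,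
    fun h4 => h.2 fun x hx => ⟨(h.1 x hx).1, h4 x hx⟩⟩,
    fun h => ⟨fun x hx => ⟨h.1 x hx, h.2.1 x hx⟩, fun h4 => h.2.2 fun x hx => (h4 x hx).2⟩⟩

end Cfsg.Agent.S2676
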