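import Cfsg.Statements.S2677
import Mathlib
import Cfsg.Agent.Known.TwU
import Cfsg.Agent.S2646

set_option autoImplicit false
open Cfsg

namespace Cfsg.Agent.S2677

open Cfsg.Lib.Known Cfsg.Lib.Known.Tw Cfsg.Lib.Class

open Matrix

theorem mem_iff {n q q₀ : ℕ} {F F₀ : Type*} [Field F] [Field F₀] [Fintype F] [Fintype F₀] [NeZero n]
    {σ : RingAut F} {f : F₀ →+* F} (hF : Fintype.card F = q ^ 2) (hF₀ : Fintype.card F₀ = q₀ ^ 2)
    (hf : IsFix σ f) (hσ : Odd (orderOf σ)) {k : GU n F q} :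
    (∃ c : F, c ≠ 0 ∧ ((k : GL (Fin n) F) : Matrix (Fin n) (Fin n) F).map σ =
      c • ((k : GL (Fin n) F) : Matrix (Fin n) (Fin n) F)) ↔ ∃ k₀ ∈ GU n F₀ q₀, ∃ b : Fˣ,
      (k : GL _ F) = GeneralLinearGroup.map f k₀ * GeneralLinearGroup.scalar _ b := by
  have hc := hf.map_frobq hF hF₀ hσ
  have h := hf.twist_comm_iff (g := 1) (h := 1) (a := 1) (k := (k : GL (Fin n) F)) (by simp)
  simp only [ext_one, Units.val_one, Matrix.one_mul, Matrix.mul_one] at h
  rw [← Units.exists_iff_ne_zero, h]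
  refine ⟨fun ⟨k₀, b, hb⟩ => ?_, fun ⟨k₀, _, h⟩ => ⟨k₀, h⟩⟩
  have h1 := (mem_GU_iff_mul _ (frobqEquiv_apply hF) _).1 k.2
  have hb0 : frobqEquiv hF b * b ≠ 0 := mul_ne_zero ((map_ne_zero _).2 b.ne_zero) b.ne_zero
  rw [hb, st_mul_scalar, coe_GL_map, st_map hc, ← Matrix.map_mul, ← eq_inv_smul_iff₀ hb0,
    ← Matrix.map_one f (map_zero f) (map_one f)] at h1
  obtain ⟨c, hc1, hc2⟩ := exists_smul_of_map_eq_smul f one_ne_zero h1
  have hc0 : c ≠ 0 := fun h0 => inv_ne_zero hb0 (by rw [← hc1, h0, map_zero])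
  obtain ⟨e, he⟩ := exists_norm_eq' (orderOf_frobq hF₀) (c := (Units.mk0 c hc0)⁻¹) (f.injective (by
    rw [hc, Units.val_inv_eq_inv_val, Units.val_mk0, map_inv₀, hc1, inv_inv, map_mul,
      apply_apply_of_orderOf_eq_two (orderOf_frobq hF), mul_comm]))
  refine ⟨k₀ * GeneralLinearGroup.scalar _ e, (mem_GU_iff_mul _ (frobqEquiv_apply hF₀) _).2 ?_,
    (Units.map (f : F₀ →* F) e)⁻¹ * b, Units.ext ?_⟩
  · rw [st_mul_scalar, he, hc2, smul_smul]; simp [hc0]
  · rw [hb, coe_GL_mul_scalar, coe_GL_mul_scalar, coe_GL_map, coe_GL_map, coe_GL_mul_scalar,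
      Matrix.map_smul' _ _ _ (map_mul f), smul_smul]
    congr 1
    simp [mul_comm, e.ne_zero]

/-- Centraliser of a field automorphism of odd prime order in PGU_n(q): let q = q₀^r with r an odd prime, K the field with q² elements and σ a field automorphism of K of order r (fixed field of order q₀²). The elements g of GU_n(q) whose entrywise image under σ is a scalar multiple of g — those whose coset modulo the q + 1 unitary scalars is fixed by σ — number (q + 1)/(q₀ + 1) · |GU_n(q₀)|; equivalently the centraliser in PGU_n(q) of the induced automorphism has the order of PGU_n(q₀). -/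
theorem result {K : Type*} [Field K] [Fintype K] {q₀ q r n : ℕ} (hr : r.Prime) (hr2 : r ≠ 2) (hn : 1 ≤ n) (hq : q = q₀ ^ r) (hK : Fintype.card K = q ^ 2) (σ : K ≃+* K) (hσ : orderOf σ = r) : (Nat.card {g : ↥(Cfsg.GU n K q) // ∃ c : K, c ≠ 0 ∧ ((g : GL (Fin n) K) : Matrix (Fin n) (Fin n) K).map σ = c • ((g : GL (Fin n) K) : Matrix (Fin n) (Fin n) K)} : ℤ) = ((q + 1) / (q₀ + 1) : ℕ) * ((q₀ : ℤ) ^ (n * (n - 1) / 2) * ∏ i : Fin n, ((q₀ : ℤ) ^ ((i : ℕ) + 1) - (-1) ^ ((i : ℕ) + 1))) := by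
  have : NeZero n := ⟨by omega⟩
  have hf := isFix_subtype σ
  set f := (fixedSubfield σ).subtype
  have := Fintype.ofFinite (fixedSubfield σ)
  have hF₀ : Fintype.card (fixedSubfield σ) = q₀ ^ 2 := Nat.card_eq_fintype_card.symm.trans
    (card_fixedSubfield (by rw [hK, hq, ← pow_mul, ← pow_mul, mul_comm]) hσ)
  have ho : Odd r := hr.odd_of_ne_two hr2
  have hc := hf.map_frobq hK hF₀ (hσ ▸ ho)
  have hτ := frobqEquiv_apply hK
  have hτ₀ := frobqEquiv_apply hF₀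
  let φ : GU n (fixedSubfield σ) q₀ × (unitsNorm (frobqEquiv hK) 2).ker →* GL (Fin n) K :=
    ((GeneralLinearGroup.map f).comp (Subgroup.subtype _)).noncommCoprod
      ((GeneralLinearGroup.scalar _).comp (Subgroup.subtype _)) fun _ _ =>
      (GeneralLinearGroup.scalar_commute _ _).symm
  have h1 : Nat.card {g : ↥(Cfsg.GU n K q) // ∃ c : K, c ≠ 0 ∧
      ((g : GL (Fin n) K) : Matrix (Fin n) (Fin n) K).map σ =
        c • ((g : GL (Fin n) K) : Matrix (Fin n) (Fin n) K)} = Nat.card φ.range := by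
    refine Nat.card_congr (Equiv.subtypeSubtypeEquivSubtypeExists _ _ |>.trans
      (Equiv.subtypeEquivRight fun g => ⟨fun ⟨hg, h⟩ => ?_, ?_⟩))
    · obtain ⟨k₀, hk₀, b, hb⟩ := (mem_iff hK hF₀ hf (hσ ▸ ho)).1 h
      exact ⟨(⟨k₀, hk₀⟩, ⟨b, (mul_scalar_mem_GU_iff hτ ((map_mem_GU_iff hτ₀ hτ hc).2 hk₀)).1
        (hb ▸ hg)⟩), hb.symm⟩
    · rintro ⟨⟨k₀, b⟩, rfl⟩
      exact ⟨(mul_scalar_mem_GU_iff hτ ((map_mem_GU_iff hτ₀ hτ hc).2 k₀.2)).2 b.2,
        (mem_iff hK hF₀ hf (hσ ▸ ho)).2 ⟨k₀, k₀.2, b, rfl⟩⟩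
  have h2 : Nat.card φ.ker = q₀ + 1 := by
    rw [← card_ker_unitsNorm hF₀ (orderOf_frobq hF₀)]
    let ψ : (unitsNorm (frobqEquiv hF₀) 2).ker → φ.ker := fun a =>
      ⟨(⟨GeneralLinearGroup.scalar _ a.1, by
        simpa using (mul_scalar_mem_GU_iff (n := n) hτ₀ (one_mem _)).2 a.2⟩,
      ⟨(Units.map (f : _ →* K) a.1)⁻¹, inv_mem (mem_ker_unitsNorm_two.2 (by
        simp only [Units.coe_map, MonoidHom.coe_coe, ← hc, ← map_mul,
          mem_ker_unitsNorm_two.1 a.2, map_one]))⟩), Units.ext (by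
        change (GeneralLinearGroup.map f (GeneralLinearGroup.scalar (Fin n) a.1) *
          GeneralLinearGroup.scalar _ (Units.map (f : _ →* K) a.1)⁻¹).1 = 1
        rw [coe_GL_mul_scalar, coe_GL_map]
        ext i j
        by_cases h : i = j <;> simp [h, one_apply])⟩
    refine (Nat.card_congr (Equiv.ofBijective ψ ⟨fun a b h => ?_, ?_⟩)).symm
    · have := congrArg (fun x => ((x.1.2.1⁻¹ : Kˣ) : K)) h
      exact Subtype.ext (Units.ext (f.injective (by simpa [ψ] using this)))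
    · rintro ⟨⟨k₀, b⟩, h⟩
      have h3 : (b.1 : K) • (k₀.1 : Matrix (Fin n) (Fin n) _).map f = 1 := by
        rw [← coe_GL_map, ← coe_GL_mul_scalar]; exact congrArg Units.val h
      rw [← eq_inv_smul_iff₀ b.1.ne_zero, ← Matrix.map_one f (map_zero f) (map_one f)] at h3
      obtain ⟨c, hc1, hc2⟩ := exists_smul_of_map_eq_smul f one_ne_zero h3
      have hc0 : c ≠ 0 := fun h0 => inv_ne_zero b.1.ne_zero (by rw [← hc1, h0, map_zero])
      have h4 : k₀.1 = GeneralLinearGroup.scalar _ (Units.mk0 c hc0) :=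
        Units.ext (hc2.trans (by simp [smul_one_eq_diagonal]))
      exact ⟨⟨Units.mk0 c hc0, (mul_scalar_mem_GU_iff (n := n) hτ₀ (one_mem _)).1 (by
        rw [one_mul, ← h4]; exact k₀.2)⟩, Subtype.ext (Prod.ext (Subtype.ext h4.symm)
          (Subtype.ext (Units.ext (by simp [ψ, hc1]))))⟩
  have h3 := Subgroup.card_mul_index φ.ker
  rw [Subgroup.index_ker, h2, Nat.card_prod, card_ker_unitsNorm hK (orderOf_frobq hK),
    Form.card_GU hF₀] at h3
  obtain ⟨d, hd⟩ : q₀ + 1 ∣ q + 1 := by simpa [hq] using Odd.nat_add_dvd_pow_add_pow q₀ 1 ho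
  have hq₀ : 1 ≤ q₀ := Nat.pos_of_ne_zero fun h => by simp [h] at hF₀
  rw [h1, ← S2646.guOrder_cast hq₀, hd, Nat.mul_div_cancel_left _ (Nat.succ_pos _), ← Nat.cast_mul,
    Nat.cast_inj]
  exact Nat.eq_of_mul_eq_mul_left (Nat.succ_pos q₀) (by rw [Nat.succ_eq_add_one, h3, hd]; ring)

end Cfsg.Agent.S2677
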