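import Cfsg.Statements.S2678
import Cfsg.Agent.Known.CrossChar

set_option autoImplicit false
open Cfsg

namespace Cfsg.Agent.S2678

open Cfsg.Lib.Known Cfsg.Lib.Class Module

/-- Field-extension embedding of symplectic groups: for a field K with q² elements and a field F with q elements there is an injective homomorphism Sp_2a(K) → Sp_4a(F). -/
theorem result {K F : Type*} [Field K] [Fintype K] [Field F] [Fintype F] {q : ℕ} (hK : Fintype.card K = q ^ 2) (hF : Fintype.card F = q) (a : ℕ) : ∃ φ : ↥(Matrix.symplecticGroup (Fin a) K) →* ↥(Matrix.symplecticGroup (Fin (2 * a)) F), Function.Injective φ := by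
  have hp : Fact (ringChar F).Prime := ⟨CharP.char_is_prime F _⟩
  let L := FiniteField.Extension F (ringChar F) 2
  have : Fintype L := Fintype.ofFinite L
  have hLc : Fintype.card L = Fintype.card K := by
    rw [← Nat.card_eq_fintype_card, FiniteField.natCard_extension, Nat.card_eq_fintype_card, hF, hK]
  let e : L ≃+* K := FiniteField.ringEquivOfCardEq hLc
  let _ : Algebra F K := (e.toRingHom.comp (algebraMap F L)).toAlgebra
  have h2 : finrank F K = 2 := by
    refine Nat.pow_right_injective (Fintype.one_lt_card : 2 ≤ Fintype.card F) ?_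
    simp only
    rw [← Module.card_eq_pow_finrank, hK, hF]
  have hm : finrank F (Fin a ⊕ Fin a → K) = 2 * (2 * a) := by
    rw [← Module.finrank_mul_finrank F K, h2, finrank_symp_space]
  obtain ⟨Ψ, hΨ⟩ := exists_spB_embed (F := F) (sympBilin_nondegenerate (F := K) a)
    (sympBilin_isAlt (F := K) a) hm
  exact ⟨Ψ.comp (spEquivSpB a K).toMonoidHom, hΨ.comp (spEquivSpB a K).injective⟩

end Cfsg.Agent.S2678
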