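import Cfsg.Statements.S2679
import Cfsg.Agent.Known.OrthBC
import Cfsg.Agent.Class.AO.Field
import Cfsg.Agent.Class.PGL2Borel

set_option autoImplicit false
open Cfsg

namespace Cfsg.Agent.S2679

open Cfsg.Lib.Known Cfsg.Lib.Class Cfsg.Lib.Class.Orth QuadraticMap Module

/-- An elliptic orthogonal group embeds in the hyperbolic orthogonal group of the same dimension over the quadratic extension: for a field F with q elements and a field K with q² elements there is an injective homomorphism from O⁻_2m(F) (isometries of Σ_(j<m−1) x_j y_j + z₁² + a z₁z₂ + c z₂², binary part anisotropic) to O⁺_2m(K) (isometries of Σ_(j<m) x_j y_j over K). -/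
theorem result {F K : Type*} [Field F] [Fintype F] [Field K] [Fintype K] {q : ℕ} (hF : Fintype.card F = q) (hK : Fintype.card K = q ^ 2) {m : ℕ} (hm : 1 ≤ m) (a c : F) (hac : ∀ z₁ z₂ : F, z₁ ^ 2 + a * z₁ * z₂ + c * z₂ ^ 2 = 0 → z₁ = 0 ∧ z₂ = 0) : ∃ φ : ↥(Cfsg.isometryGroup F (Cfsg.quadFormMinus (m - 1) F a c)) →* ↥(Cfsg.isometryGroup K (Cfsg.quadFormPlus m K)), Function.Injective φ := by
  obtain ⟨m, rfl⟩ : ∃ k, m = k + 1 := ⟨m - 1, by omega⟩
  obtain ⟨f⟩ := nonempty_ringHom_of_card_eq_pow (F := K) (K := F) (m := 2) (by simp [hF, hK])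
  have h := isBC_quadMinus f m a c
  have hQ := h.nondegenerate_iff.mpr (quadMinus_nondegenerate m hac)
  obtain ⟨x, hx⟩ := AO.exists_root_quadratic (k := f.fieldRange) (by
    rw [← Nat.card_congr f.rangeRestrictFieldEquiv.toEquiv, hK, Nat.card_eq_fintype_card, hF])
    ⟨f a, a, rfl⟩ ⟨f c, c, rfl⟩
  have H := isHyp_quadMinus m (f a) (f c)
  have hz : (Sum.elim 0 ![x, 1] : _ → K) ∈ hypPerp (quadMinus m K (f a) (f c)) _ _ :=
    (mem_hypPerp (e := fun i => Pi.single (Sum.inl (Sum.inl i)) 1)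
      (f := fun i => Pi.single (Sum.inl (Sum.inr i)) 1)).mpr ⟨fun i => by
        simp [polar, quadFormMinus, quadFormPlus, Pi.single_apply], fun i => by
        simp [polar, quadFormMinus, quadFormPlus, Pi.single_apply]⟩
  have hz1 : quadMinus m K (f a) (f c) (Sum.elim 0 ![x, 1]) = 0 := by
    simpa [quadFormMinus, quadFormPlus] using hx
  obtain ⟨y, hy, hzy⟩ := exists_hyp_partner (H.perp_nondegenerate hQ) (x := ⟨_, hz⟩)
    (fun h => by simpa using congrFun (congrArg Subtype.val h) (Sum.inr 1)) hz1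
  obtain ⟨g, hg⟩ := exists_equiv_plus hQ (m := m + 1) (by simp; omega)
    ((H.cons hz y.2 hz1 hy hzy).isPlus (by simp; omega))
  rw [← coe_quadMinus, ← coe_quadPlus] at *
  refine ⟨((OCongr g one_ne_zero (by simpa using hg)).symm.trans
    (oEquivIsom _).symm).toMonoidHom.comp (h.bcO.comp (oEquivIsom (quadMinus m F a c)).toMonoidHom),
    (MulEquiv.injective _).comp (Function.Injective.comp (g := h.bcO) (fun s t hst => ?_)
      (MulEquiv.injective (oEquivIsom (quadMinus m F a c))))⟩
  exact Subtype.ext (LinearEquiv.ext fun v => h.injective (by rw [← h.bcO_apply, hst, h.bcO_apply]))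

end Cfsg.Agent.S2679
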