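import Cfsg.Statements.S2682
import Cfsg.Agent.Known.InvTwoCard

set_option autoImplicit false
open Cfsg

namespace Cfsg.Agent.S2682

open Cfsg.Lib.Known Cfsg.Lib.Class Cfsg.Lib.Class.Orth QuadraticMap Module

/-- Centraliser order of an involution t of Sp_2m(q), q even, with s = rank(t − 1) even and f(v, tv) ≠ 0 for some v, f the symplectic form (type c_s): |C(t)| = q^(2ms − (3s² − 3s)/2 − 1) · |Sp_(s−2)(q)| · |Sp_(2m−2s)(q)|. -/
theorem result {F : Type*} [Field F] [Fintype F] [CharP F 2] {q : ℕ} (hF : Fintype.card F = q) {m s : ℕ} (t : Matrix.symplecticGroup (Fin m) F) (ht : t ^ 2 = 1) (hs : ((t : Matrix (Fin m ⊕ Fin m) (Fin m ⊕ Fin m) F) - 1).rank = s) (heven : Even s) (hna : ∃ v : Fin m ⊕ Fin m → F, Cfsg.sympForm m F v ((t : Matrix (Fin m ⊕ Fin m) (Fin m ⊕ Fin m) F).mulVec v) ≠ 0) : Nat.card ↥(Subgroup.centralizer ({t} : Set ↥(Matrix.symplecticGroup (Fin m) F))) = q ^ (2 * m * s - (3 * s ^ 2 - 3 * s) / 2 -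 1) * ((q : ℕ) ^ (((s - 2) / 2) ^ 2) * ∏ i : Fin ((s - 2) / 2), (q ^ (2 * ((i : ℕ) + 1)) - 1)) * ((q : ℕ) ^ ((m - s) ^ 2) * ∏ i : Fin (m - s), (q ^ (2 * ((i : ℕ) + 1)) - 1)) := by
  have hB := sympBilin_nondegenerate (F := F) m
  have hA := sympBilin_isAlt (F := F) m
  have hG := witt2_SpB hB hA
  have hV := finrank_symp_space (F := F) m
  have ht' : spEquivSpB m F t * spEquivSpB m F t = 1 := by rw [← map_mul, ← pow_two, ht, map_one]
  rw [rank_sub_one (spEquivSpB_apply m t)] at hs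
  simp only [← sympBilin_apply, ← spEquivSpB_apply] at hna
  have h1 := (hG.isInv ht').two_mul_finrank_le hG.sym
  have hna' : ¬ (resForm (sympBilin m F) (spEquivSpB m F t).1).IsAlt := by
    rw [(hG.isInv ht').resForm_isAlt_iff hA]
    obtain ⟨v, hv⟩ := hna
    exact fun h => hv (h v)
  have hs0 : s ≠ 0 := by
    rintro rfl
    have : Subsingleton (resSp (spEquivSpB m F t).1) := Module.finrank_zero_iff.1 hs
    exact hna' fun x => by rw [Subsingleton.elim x 0, map_zero]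
  obtain ⟨j, rfl⟩ : ∃ j, m = s + j := ⟨m - s, by omega⟩
  obtain ⟨k, rfl⟩ : ∃ k, s = 2 * k + 2 := by
    obtain ⟨k, rfl⟩ := heven
    exact ⟨k - 1, by omega⟩
  rw [card_centralizer_congr (spEquivSpB _ F), hG.card_centralizer ht',
    card_fixSub_resSp hB hA ht' hs hV, ((hG.isInv ht').symND_resForm hG.sym).card_of_even hna' hs,
    spOrd_eq_prod_fin, spOrd_eq_prod_fin, hF, Nat.add_sub_cancel_left, Nat.add_sub_cancel,
    Nat.mul_div_cancel_left _ two_pos, mul_mul_mul_comm, ← pow_add, mul_assoc (q ^ _),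
    mul_comm (spOrd q k)]
  congr 2
  have e1 : (2 * k + 2) * (2 * k + 2 + 1) = 2 * (2 * k ^ 2 + 5 * k + 3) := by ring
  have e2 : 3 * (2 * k + 2) ^ 2 = 12 * k ^ 2 + 24 * k + 12 := by ring
  have e3 : 2 * (2 * k + 2 + j) * (2 * k + 2) = 8 * k ^ 2 + 16 * k + 8 + 2 * (2 * k + 2) * j := by
    ring
  rw [e1, e2, e3]
  omega

end Cfsg.Agent.S2682
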