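import Cfsg.Statements.S2684
import Cfsg.Agent.Known.InvTwoCard

set_option autoImplicit false
open Cfsg

namespace Cfsg.Agent.S2684

open Cfsg.Lib.Known Cfsg.Lib.Class Cfsg.Lib.Class.Orth QuadraticMap Module

/-- For the hyperbolic form Q = Σ x_j y_j on F^(2m) over a finite field with q elements, q even (excluding m = 2 over the field of two elements), and an involution x ≠ 1 of the orthogonal group with s = rank(x − 1) even and Q vanishing on the image of x − 1 (equivalently f(v, xv) = 0 for all v, where f(u, w) = Q(u + w) − Q(u) − Q(w) is the bilinear form of Q; type a_s, which lies in Ω): its centraliser in Ω (the commutator subgroup of the orthogonal group) has order q^(2ms − (3s² + s)/2) · |Sp_s(q)| · |Ω⁺_(2m−2s)(q)|, where |Ω⁺_2k(q)| = q^(k(k−1)) (q^k − 1) Π_(i=1)^(k−1) (q^(2i) − 1) for k ≥ 1 and the last factor is 1 when s = m. -/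
theorem result {F : Type*} [Field F] [Fintype F] [CharP F 2] {q : ℕ} (hF : Fintype.card F = q) {m s : ℕ} (h : Fintype.card F ≠ 2 ∨ m ≠ 2) (x : ↥(Cfsg.isometryGroup F (Cfsg.quadFormPlus m F))) (hx : x ^ 2 = 1) (hx1 : x ≠ 1) (hs : (((x : Matrix.GeneralLinearGroup (Fin m ⊕ Fin m) F) : Matrix (Fin m ⊕ Fin m) (Fin m ⊕ Fin m) F) - 1).rank = s) (heven : Even s) (halt : ∀ v : Fin m ⊕ Fin m → F, Cfsg.quadFormPlus m F ((((x : Matrix.GeneralLinearGroup (Fin m ⊕ Fin m) F) : Matrix (Fin m ⊕ Fin m) (Fin m ⊕ Fin m) F) - 1).mulVec v) = 0) : Nat.card {g : ↥(Cfsg.Omega F (Cfsg.quadFormPlus m F)) // (g : ↥(Cfsg.isometryGroup F (Cfsg.quadFormPlus m F))) * x = x * (g : ↥(Cfsg.isometryGroup F (Cfsg.quadFormPlus m F)))} = q ^ (2 * m * s - (3 * s ^ 2 + s) / 2) * ((q : ℕ) ^ ((s / 2) ^ 2) * ∏ i : Fin (s / 2), (q ^ (2 * ((i : ℕ) + 1)) - 1)) * (if s = m then 1 else q ^ ((m - s) * (m - s - 1)) * (q ^ (m - s) - 1) * ∏ i : Fin (m - s - 1), (q ^ (2 * ((i : ℕ) + 1)) - 1)) :=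 by
  revert x
  rw [← coe_quadPlus]
  intro x hx _ hs halt
  have hQ := quadPlus_nondegenerate (F := F) m
  have hE := not_exc_quadPlus h
  have hG := witt2_O hQ
  have hV := finrank_plusSpace (F := F) (m := m)
  rw [card_Omega_comm]
  rw [rank_sub_one (oEquivIsom_apply _ x)] at hs
  simp only [← Matrix.toLin'_apply] at halt
  rw [rank_sub_one_eq (oEquivIsom_apply _ x)] at halt
  have ht' : oEquivIsom _ x * oEquivIsom _ x = 1 := by rw [← map_mul, ← pow_two, hx, map_one]
  generalize oEquivIsom _ x = t at hs ht' halt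
  have h1 := (hG.isInv ht').two_mul_finrank_le hG.sym
  have ha : ∀ x ∈ resSp t.1, quadPlus m F x = 0 := by
    rintro _ ⟨v, rfl⟩
    exact halt v
  have ha' : (resForm (polarBilin (quadPlus m F)) t.1).IsAlt := by
    rwa [(hG.isInv ht').resForm_isAlt_iff hG.alt, alt_iff_singular t.2]
  obtain ⟨j, rfl⟩ : ∃ j, m = s + j := ⟨m - s, by omega⟩
  obtain ⟨k, rfl⟩ := even_iff_exists_two_mul.1 heven
  have h2 := hG.card_centralizer ht'
  rw [card_fixSub_O_eq, card_fixG_singular j (2 * k) hQ (isPlus_quadPlus _) ha hs hV,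
    ((hG.isInv ht').symND_resForm hG.sym).card_of_isAlt ha' hs, hF, Nat.choose_two_right] at h2
  have e1 : (2 * k) * (2 * k - 1) / 2 + k = 2 * k ^ 2 := by
    rw [mul_assoc, Nat.mul_div_cancel_left _ two_pos]
    rcases k with _ | k
    · simp
    · rw [show 2 * (k + 1) - 1 = 2 * k + 1 by omega]; ring
  have e2 : 3 * (2 * k) ^ 2 = 12 * k ^ 2 := by ring
  have e3 : 2 * (2 * k + j) * (2 * k) = 8 * k ^ 2 + 2 * (2 * k) * j := by ring
  rw [spOrd_eq_prod_fin, Nat.add_sub_cancel_left, Nat.mul_div_cancel_left _ two_pos, e2, e3,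
    show 8 * k ^ 2 + 2 * (2 * k) * j - (12 * k ^ 2 + 2 * k) / 2 =
      2 * (2 * k) * j + 2 * k * (2 * k - 1) / 2 by omega]
  rcases j with _ | j
  · rw [card_commutator_comm_of_max hQ hE (by rw [hV, hs]; rfl) ha, h2, if_pos (add_zero _).symm,
      oPlusOrd, if_pos rfl]
    ring
  · refine Nat.eq_of_mul_eq_mul_left two_pos ?_
    rw [two_mul_card_commutator_comm hQ hE ht' (fun h => by have := h.1; omega), h2,
      if_neg (by omega), oPlusOrd, if_neg (by omega), Finset.prod_range]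
    ring

end Cfsg.Agent.S2684
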