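import Cfsg.Statements.S2685
import Cfsg.Agent.Known.InvTwoCard

set_option autoImplicit false
open Cfsg

namespace Cfsg.Agent.S2685

open Cfsg.Lib.Known Cfsg.Lib.Class Cfsg.Lib.Class.Orth QuadraticMap Module

/-- For the hyperbolic form Q = Σ x_j y_j on F^(2m) over a finite field with q elements, q even (excluding m = 2 over the field of two elements), and an involution x of the orthogonal group with s = rank(x − 1) even and Q not vanishing on the image of x − 1 (f(v, xv) ≠ 0 for some v, where f(u, w) = Q(u + w) − Q(u) − Q(w) is the bilinear form of Q; type c_s, which lies in Ω): its centraliser in Ω (the commutator subgroup of the orthogonal group) has order q^(2m(s−1) − (3s² − 5s)/2 − 1) · |Sp_(s−2)(q)| · |Sp_(2m−2s)(q)|. -/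
theorem result {F : Type*} [Field F] [Fintype F] [CharP F 2] {q : ℕ} (hF : Fintype.card F = q) {m s : ℕ} (h : Fintype.card F ≠ 2 ∨ m ≠ 2) (x : ↥(Cfsg.isometryGroup F (Cfsg.quadFormPlus m F))) (hx : x ^ 2 = 1) (hs : (((x : Matrix.GeneralLinearGroup (Fin m ⊕ Fin m) F) : Matrix (Fin m ⊕ Fin m) (Fin m ⊕ Fin m) F) - 1).rank = s) (heven : Even s) (hna : ∃ v : Fin m ⊕ Fin m → F, Cfsg.quadFormPlus m F ((((x : Matrix.GeneralLinearGroup (Fin m ⊕ Fin m) F) : Matrix (Fin m ⊕ Fin m) (Fin m ⊕ Fin m) F) - 1).mulVec v) ≠ 0) : Nat.card {g : ↥(Cfsg.Omega F (Cfsg.quadFormPlus m F)) // (g : ↥(Cfsg.isometryGroup F (Cfsg.quadFormPlus m F))) * x = x * (g : ↥(Cfsg.isometryGroup F (Cfsg.quadFormPlus m F)))} = q ^ (2 * m * (s - 1) - (3 * s ^ 2 - 5 * s) / 2 - 1) * ((q : ℕ) ^ (((s - 2) / 2) ^ 2) * ∏ i : Fin ((s - 2) / 2), (q ^ (2 * ((i : ℕ) + 1)) - 1)) * ((q : ℕ) ^ ((m - s) ^ 2) * ∏ i : Fin (m - s), (q ^ (2 * ((i : ℕ) + 1)) - 1)) := by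
  revert x
  rw [← coe_quadPlus]
  intro x hx hs hna
  have hQ := quadPlus_nondegenerate (F := F) m
  have hE := not_exc_quadPlus h
  have hG := witt2_O hQ
  have hV := finrank_plusSpace (F := F) (m := m)
  rw [card_Omega_comm]
  rw [rank_sub_one (oEquivIsom_apply _ x)] at hs
  simp only [← Matrix.toLin'_apply] at hna
  rw [rank_sub_one_eq (oEquivIsom_apply _ x)] at hna
  have ht' : oEquivIsom _ x * oEquivIsom _ x = 1 := by rw [← map_mul, ← pow_two, hx, map_one]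
  generalize oEquivIsom _ x = t at hs ht' hna
  have h1 := (hG.isInv ht').two_mul_finrank_le hG.sym
  have hna : ¬ ∀ x ∈ resSp t.1, quadPlus m F x = 0 := fun h => by
    obtain ⟨v, hv⟩ := hna
    exact hv (h _ ⟨v, rfl⟩)
  have hna' : ¬ (resForm (polarBilin (quadPlus m F)) t.1).IsAlt := by
    rwa [(hG.isInv ht').resForm_isAlt_iff hG.alt, alt_iff_singular t.2]
  have hs0 : s ≠ 0 := by
    rintro rfl
    exact hna fun x hx => by rw [Submodule.finrank_eq_zero.1 hs, Submodule.mem_bot] at hx; rw [hx, map_zero]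
  obtain ⟨j, rfl⟩ : ∃ j, m = s + j := ⟨m - s, by omega⟩
  obtain ⟨k, rfl⟩ : ∃ k, s = 2 * k + 2 := by
    obtain ⟨k, rfl⟩ := heven
    exact ⟨k - 1, by omega⟩
  refine Nat.eq_of_mul_eq_mul_left two_pos ?_
  rw [two_mul_card_commutator_comm hQ hE ht' (fun h => hna h.2), hG.card_centralizer ht',
    card_fixSub_O_eq, card_fixG_nonalt j (2 * k + 1) hQ (resSp_le_orth hQ ht') hna hs hV,
    ((hG.isInv ht').symND_resForm hG.sym).card_of_even hna' hs,
    spOrd_eq_prod_fin, spOrd_eq_prod_fin, hF, Nat.add_sub_cancel_left, Nat.add_sub_cancel,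
    Nat.mul_div_cancel_left _ two_pos, Nat.choose_two_right]
  have e1 : (2 * k + 1 + 1) * (2 * k + 1 + 1 - 1) = 2 * (2 * k ^ 2 + 3 * k + 1) := by
    rw [Nat.add_sub_cancel]; ring
  have e2 : 3 * (2 * k + 2) ^ 2 = 12 * k ^ 2 + 24 * k + 12 := by ring
  have e3 : 2 * (2 * k + 2 + j) * (2 * k + 2 - 1) =
      8 * k ^ 2 + 12 * k + 4 + 2 * (2 * k + 1) * j := by
    rw [show 2 * k + 2 - 1 = 2 * k + 1 by omega]; ring
  rw [e1, e2, e3, show 8 * k ^ 2 + 12 * k + 4 + 2 * (2 * k + 1) * j -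
    (12 * k ^ 2 + 24 * k + 12 - 5 * (2 * k + 2)) / 2 - 1 =
      2 * (2 * k + 1) * j + 2 * (2 * k ^ 2 + 3 * k + 1) / 2 + (2 * k + 1) by omega]
  ring

end Cfsg.Agent.S2685
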