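import Cfsg.Statements.S2697
import Mathlib
import Cfsg.Agent.Known.PSLAutCent

set_option autoImplicit false
open Cfsg

namespace Cfsg.Agent.S2697

open Cfsg.Lib.Known

/-- Let T = PSL_n(F) be simple over a finite field (n ≥ 2; |F| ≥ 4 when n = 2) and let x be a field automorphism or a graph-field automorphism of T of prime order r. Then an element y of the coset Inndiag(T)·x (that is, y = δ x with δ in the inner-diagonal group, the image of PGL_n(F)) has order r if and only if y is conjugate to x by an element of Inndiag(T). -/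
theorem result {F : Type*} [Field F] [Fintype F] {p f : ℕ} [Fact p.Prime] (hF : Fintype.card F = p ^ f) (hf : 1 ≤ f) {n : ℕ} (hn : 2 ≤ n) (hs : n = 2 → 4 ≤ Fintype.card F) (x δ : MulAut (Matrix.ProjectiveSpecialLinearGroup (Fin n) F)) (hx : Cfsg.IsFieldAutClassPSL x ∨ Cfsg.IsGraphFieldAutClassPSL x) {r : ℕ} (hr : r.Prime) (hxr : orderOf x = r) (hδ : δ ∈ Cfsg.inndiagPSL n F) :
    orderOf (δ * x) = r ↔ Cfsg.IsConjUnder (Cfsg.inndiagPSL n F) x (δ * x) := by
  have hN := normal_range_innD (F := F) hn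
  rw [inndiagPSL_eq_range] at hδ ⊢
  refine ⟨fun h => ?_, fun h => (IsConjUnder.orderOf_eq h).trans hxr⟩
  have key : ∃ (α : MulAut (Matrix.ProjectiveSpecialLinearGroup (Fin n) F)) (σ : RingAut F),
      σ ≠ 1 ∧ (α * x * α⁻¹ = fieldAut (Fin n) F σ ∨
        3 ≤ n ∧ α * x * α⁻¹ = fieldAut (Fin n) F σ * graphAut (Fin n) F) := by
    rcases hx with ⟨α, σ, h1, h2⟩ | ⟨h3, α, φ, γ, σ, h1, h2, h4, h5⟩
    · exact ⟨α, σ, h1, Or.inl (isStdFieldAutPSL_iff.1 h2)⟩
    · rw [isStdFieldAutPSL_iff.1 h2, isInverseTransposeAutPSL_iff.1 h4] at h5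
      exact ⟨α, σ, h1, Or.inr ⟨h3, h5⟩⟩
  obtain ⟨α, σ, h1, h2⟩ := key
  have h3 : orderOf (α * x * α⁻¹) = r := ((MulAut.conj α).orderOf_eq x).trans hxr
  have h4 : α * (δ * x) * α⁻¹ = α * δ * α⁻¹ * (α * x * α⁻¹) := by group
  rw [← isConjUnder_conj_iff _ α, h4]
  refine isConjUnder_of_orderOf_eq hn h1 h2 (h3 ▸ hr) (hN.conj_mem _ hδ α) ?_
  rw [← h4, h3]
  exact ((MulAut.conj α).orderOf_eq _).trans h

end Cfsg.Agent.S2697
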