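import Cfsg.Statements.S2698
import Mathlib
import Cfsg.Agent.Known.PSLAutCent

set_option autoImplicit false
open Cfsg

namespace Cfsg.Agent.S2698

open Cfsg.Lib.Known Cfsg.Lib.Class

/-- Let T = PSL_n(F) be simple over the field F with p^f elements (n ≥ 2; p^f ≥ 4 when n = 2), G = Inndiag(T) the image of PGL_n(F) in Aut(T), and x a field automorphism of T of prime order r. Then r divides f; the centralizer C_G(x) is isomorphic to PGL_n(F₀) for the subfield size |F₀| = p^(f/r); and the G-class of x is the union of exactly gcd(n, (p^f − 1)/(p^(f/r) − 1)) classes under conjugation by T (the inner automorphism group). -/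
theorem result {F : Type*} [Field F] [Fintype F] {p f : ℕ} [Fact p.Prime] (hF : Fintype.card F = p ^ f) (hf : 1 ≤ f) {n : ℕ} (hn : 2 ≤ n) (hs : n = 2 → 4 ≤ Fintype.card F) (x : MulAut (Matrix.ProjectiveSpecialLinearGroup (Fin n) F)) (hx : Cfsg.IsFieldAutClassPSL x) {r : ℕ} (hr : r.Prime) (hxr : orderOf x = r) (F₀ : Type*) [Field F₀] [Fintype F₀] (hF₀ : Fintype.card F₀ = p ^ (f / r)) :
    r ∣ f ∧ Nonempty (↥(Cfsg.inndiagPSL n F ⊓ Subgroup.centralizer {x}) ≃* Matrix.ProjGenLinGroup (Fin n) F₀) ∧ Cfsg.splitClassCount (Cfsg.inndiagPSL n F) (Cfsg.Inn (Matrix.ProjectiveSpecialLinearGroup (Fin n) F)) x = Nat.gcd n ((p ^ f - 1) / (p ^ (f / r) - 1)) := by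
  have hN := normal_range_innD (F := F) hn
  have : Nontrivial (Fin n) := Fin.nontrivial_iff_two_le.2 hn
  have : NeZero n := ⟨by omega⟩
  rw [inndiagPSL_eq_range]
  obtain ⟨α, σ, -, h2⟩ := hx
  rw [isStdFieldAutPSL_iff] at h2
  have h3 : orderOf (σ : RingAut F) = r := by
    rw [← orderOf_fieldAut (ι := Fin n), ← h2]
    exact ((MulAut.conj α).orderOf_eq x).trans hxr
  have h4 : r ∣ f := h3 ▸ orderOf_ringAut_dvd hF σ
  have h5 : Nat.card (fixedSubfield σ) = p ^ (f / r) :=
    card_fixedSubfield (by rw [hF, ← pow_mul, Nat.div_mul_cancel h4]) h3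
  refine ⟨h4, ?_, ?_⟩
  · obtain ⟨e⟩ := nonempty_centralizer_fieldAut_equiv (ι := Fin n) σ
    obtain ⟨e'⟩ := nonempty_ringEquiv_of_natCard_eq (F := fixedSubfield σ) (K := F₀)
      (by rw [h5, Nat.card_eq_fintype_card, hF₀])
    rw [← h2] at e
    exact ⟨(centralizerConjEquiv _ α x).trans (e.trans (pglEquiv _ e'))⟩
  · rw [← splitClassCount_conj _ _ α, h2, splitClassCount_innD (comap_centralizer_fieldAut σ),
      map_det_fixedGL, index_range_pow_sup, index_fixedUnits, h5, Nat.card_eq_fintype_card, hF]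

end Cfsg.Agent.S2698
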