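import Cfsg.Statements.S2705
import Mathlib
import Cfsg.Agent.Known.TwU
import Cfsg.Agent.Known.PSUAutMain

set_option autoImplicit false
open Cfsg

namespace Cfsg.Agent.S2705

open Cfsg.Lib.Known Cfsg.Lib.Known.Tw Cfsg.Lib.Class

/-- Let T = PSU_n(q) be simple (n ≥ 3, (n, q) ≠ (3, 2), q = p^f), realised over the field F with q² elements, G = Inndiag(T) the image of PGU_n(q) in Aut(T), and x a field automorphism of T (conjugate to a standard field automorphism of odd order) of odd prime order r. Then r divides f; C_G(x) is isomorphic to PGU_n(q₀) with q₀ = p^(f/r), realised over a field F₀ with q₀² elements; and the G-class of x is the union of exactly gcd(n, (q + 1)/(q₀ + 1)) T-classes. -/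
theorem result {F : Type*} [Field F] [Fintype F] {p f q : ℕ} [Fact p.Prime] (hq : q = p ^ f) (hf : 1 ≤ f) (hF : Fintype.card F = q ^ 2) {n : ℕ} (hn : 3 ≤ n) (hs : ¬ (n = 3 ∧ q = 2)) (x : MulAut (Cfsg.PSU n F q)) (hx : Cfsg.IsFieldAutClassPSU x) {r : ℕ} (hr : r.Prime) (hro : Odd r) (hxr : orderOf x = r) (F₀ : Type*) [Field F₀] [Fintype F₀] (hF₀ : Fintype.card F₀ = p ^ (2 * (f / r))) :
    r ∣ f ∧ Nonempty (↥(Cfsg.inndiagPSU n F q ⊓ Subgroup.centralizer {x}) ≃* Cfsg.PGU n F₀ (p ^ (f / r))) ∧ Cfsg.splitClassCount (Cfsg.inndiagPSU n F q) (Cfsg.Inn (Cfsg.PSU n F q)) x = Nat.gcd n ((q + 1) / (p ^ (f / r) + 1)) := by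
  have hN := normal_range_innU hF hn hs
  rw [inndiagPSU_eq_range]
  obtain ⟨α, φ, σ, -, hσ, h1, h2⟩ := hx
  rw [isFieldAutPSUOf_iff.1 h1] at h2
  have h3 : orderOf σ = r := by
    rw [← orderOf_fieldU hF hn, ← h2]
    exact ((MulAut.conj α).orderOf_eq x).trans hxr
  have hF1 : Fintype.card F = p ^ (2 * f) := by rw [hF, hq, ← pow_mul, mul_comm]
  have h4 : r ∣ f := (Nat.coprime_two_right.2 hro).dvd_of_dvd_mul_left
    (h3 ▸ orderOf_ringAut_dvd hF1 σ)
  have hF' : Fintype.card F = (p ^ (2 * (f / r))) ^ r := by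
    rw [hF1, ← pow_mul, mul_assoc, Nat.div_mul_cancel h4]
  have hF₀' : Fintype.card F₀ = (p ^ (f / r)) ^ 2 := by rw [hF₀, ← pow_mul, mul_comm]
  obtain ⟨j, hj⟩ := exists_isFix (F₀ := F₀) σ (by
    rw [card_fixedSubfield hF' h3, Nat.card_eq_fintype_card, hF₀])
  refine ⟨h4, ?_, ?_⟩
  · obtain ⟨e⟩ := nonempty_centralizer_fieldU hF hF₀' (n := n) (by omega) hj hσ
    exact ⟨(centralizerConjEquiv _ α x).trans (h2 ▸ e)⟩
  · rw [← splitClassCount_conj _ _ α, h2, splitClassCount_fieldU hF hF₀' (by omega) hj hσ]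

end Cfsg.Agent.S2705
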