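import Cfsg.Statements.S2709
import Mathlib
import Cfsg.Agent.Known.GraphU

set_option autoImplicit false
open Cfsg

namespace Cfsg.Agent.S2709

open Cfsg.Lib.Known Cfsg.Lib.Known.Tw Cfsg.Lib.Class

/-- Let T = PSU_n(q) be simple (n ≥ 3, (n,q) ≠ (3,2), q = p^f), realised over the field F with q² elements, G = Inndiag(T) the image of PGU_n(q), and γ an involutory graph automorphism of T. The G-class of γ is the union of exactly c T-classes, where: if n is even and q is odd, c = gcd(n/2, q + 1) when C_G(γ) is isomorphic to PGSp_n(F₀) for a field F₀ with q elements (symplectic type) and c = gcd(n, q + 1)/2 otherwise; and c = gcd(n, q + 1) when n is odd or q is even. -/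
theorem result {F : Type*} [Field F] [Fintype F] {p f q : ℕ} [Fact p.Prime] (hq : q = p ^ f) (hf : 1 ≤ f) (hF : Fintype.card F = q ^ 2) {n : ℕ} (hn : 3 ≤ n) (hs : ¬ (n = 3 ∧ q = 2)) (F₀ : Type*) [Field F₀] [Fintype F₀] (hF₀ : Fintype.card F₀ = q) (γ : MulAut (Cfsg.PSU n F q)) (hγ : Cfsg.IsGraphAutClassPSU γ) (hγ2 : orderOf γ = 2) :
    ((Even n ∧ Odd q ∧ Nonempty (↥(Cfsg.inndiagPSU n F q ⊓ Subgroup.centralizer {γ}) ≃* Cfsg.PGSp (n / 2) F₀)) → Cfsg.splitClassCount (Cfsg.inndiagPSU n F q) (Cfsg.Inn (Cfsg.PSU n F q)) γ = Nat.gcd (n / 2) (q + 1)) ∧ ((Even n ∧ Odd q ∧ ¬ Nonempty (↥(Cfsg.inndiagPSU n F q ⊓ Subgroup.centralizer {γ}) ≃* Cfsg.PGSp (n / 2) F₀)) → Cfsg.splitClassCount (Cfsg.inndiagPSU n F q) (Cfsg.Inn (Cfsg.PSU n F q)) γ = Nat.gcd n (q + 1) / 2) ∧ (¬ (Even n ∧ Odd q) → Cfsg.splitClassCount (Cfsg.inndiagPSU n F q) (Cfsg.Inn (Cfsg.PSU n F q)) γ = Nat.gcd n (q + 1)) := by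
  obtain ⟨j, hj⟩ := exists_isFix (F₀ := F₀) (frobqEquiv hF) (by
    rw [card_fixedSubfield hF (orderOf_frobq hF), Nat.card_eq_fintype_card, hF₀])
  refine (graphData_PSU hj hn).split (by omega) ⟨hγ, hγ2⟩
    (hF₀ ▸ ⟨two_ne_zero_of_odd_card, odd_card_of_two_ne_zero⟩)
    (fun h => h.add_one.two_dvd) (fun r h => ?_) (fun {_ m} r hm h => ?_)
    fun {_ m} r hm h2 h => ?_ <;> obtain ⟨K, hK, e⟩ := r.splitClassCount hj (by omega) <;>
    rw [e, ← card_ker_unitsNorm hF (orderOf_frobq hF)]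
  · refine relIndex_pow _ fun x => ?_
    simp only [hK, h, mem_ker_unitsNorm_two]
    constructor
    · rintro ⟨b, _, _, ⟨e, rfl, rfl⟩, h1, rfl⟩
      refine ⟨b * Units.map (j : F₀ →* F) e, ?_, by rw [mul_pow, map_pow]⟩
      rw [Units.val_mul, Units.coe_map, MonoidHom.coe_coe, map_mul, hj.apply, ← h1,
        Units.val_pow_eq_pow_val, map_pow]
      ring
    · rintro ⟨a, h1, rfl⟩
      exact ⟨a, 1, 1, ⟨1, by simp, by simp⟩, by simpa using h1, by simp⟩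
  · refine relIndex_pow _ fun x => ?_
    simp only [hK, h, mem_ker_norm_iff hj]
    constructor
    · rintro ⟨b, c, _, rfl, h1, rfl⟩
      exact ⟨_, ⟨b, c, h1, rfl⟩, by rw [mul_pow, map_pow, ← pow_mul, ← hm]⟩
    · rintro ⟨_, ⟨b, c, h1, rfl⟩, rfl⟩
      exact ⟨b, c, _, rfl, h1, by rw [mul_pow, map_pow, ← pow_mul, ← hm]⟩
  · refine relIndex_pow_neg (fun h0 => h2 (j.injective (by rw [map_ofNat, h0, map_zero])))
      (mem_ker_unitsNorm_two.2 (by rw [Units.val_neg, Units.val_one, map_neg, map_one]; simp)) _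
      fun x => ?_
    have hneg : ∀ d : F₀ˣ, Units.map (j : F₀ →* F) (-d) = -Units.map (j : F₀ →* F) d :=
      fun d => Units.ext (map_neg j _)
    simp only [hK, h, mem_ker_norm_iff hj]
    constructor
    · rintro ⟨b, c, _, rfl | rfl, h1, rfl⟩
      · exact ⟨_, ⟨b, c, h1, rfl⟩, Or.inl (by rw [mul_pow, map_pow, ← pow_mul, ← hm])⟩
      · exact ⟨_, ⟨b, c, h1, rfl⟩, Or.inr (by
          rw [mul_pow, hneg, map_pow, ← pow_mul, ← hm, mul_neg])⟩
    · rintro ⟨_, ⟨b, c, h1, rfl⟩, rfl | rfl⟩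
      · exact ⟨b, c, _, Or.inl rfl, h1, by rw [mul_pow, map_pow, ← pow_mul, ← hm]⟩
      · exact ⟨b, c, _, Or.inr rfl, h1, by rw [mul_pow, hneg, map_pow, ← pow_mul, ← hm, mul_neg]⟩

end Cfsg.Agent.S2709
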