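import Cfsg.Statements.S2711
import Mathlib
import Cfsg.Agent.Known.TwU
import Cfsg.Agent.Known.PSUAutMain

set_option autoImplicit false
open Cfsg

namespace Cfsg.Agent.S2711

open Cfsg.Lib.Known Cfsg.Lib.Known.Tw Cfsg.Lib.Class

/-- Let T = PSU_n(q) be simple (n ≥ 3, (n,q) ≠ (3,2)), realised over the field F with q² elements, and let x be a field automorphism of T (conjugate to a standard field automorphism of odd order) of prime order r. Then an element y of the coset Inndiag(T)·x (y = δ x with δ in the image of PGU_n(q)) has order r if and only if y is conjugate to x by an element of Inndiag(T). (T has no graph-field automorphisms.) -/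
theorem result {F : Type*} [Field F] [Fintype F] {p f q : ℕ} [Fact p.Prime] (hq : q = p ^ f) (hf : 1 ≤ f) (hF : Fintype.card F = q ^ 2) {n : ℕ} (hn : 3 ≤ n) (hs : ¬ (n = 3 ∧ q = 2)) (x δ : MulAut (Cfsg.PSU n F q)) (hx : Cfsg.IsFieldAutClassPSU x) {r : ℕ} (hr : r.Prime) (hxr : orderOf x = r) (hδ : δ ∈ Cfsg.inndiagPSU n F q) :
    orderOf (δ * x) = r ↔ Cfsg.IsConjUnder (Cfsg.inndiagPSU n F q) x (δ * x) := by
  have hN := normal_range_innU hF hn hs
  rw [inndiagPSU_eq_range] at hδ ⊢
  refine ⟨fun h => ?_, fun h => (IsConjUnder.orderOf_eq h).trans hxr⟩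
  obtain ⟨α, φ, σ, -, hσ, h1, h2⟩ := hx
  rw [isFieldAutPSUOf_iff.1 h1] at h2
  have h3 : orderOf σ = r := by
    rw [← orderOf_fieldU hF hn, ← h2]
    exact ((MulAut.conj α).orderOf_eq x).trans hxr
  have h4 : α * (δ * x) * α⁻¹ = α * δ * α⁻¹ * (α * x * α⁻¹) := by group
  obtain ⟨g, hg⟩ := hN.conj_mem _ hδ α
  rw [← isConjUnder_conj_iff _ α, h4, h2, ← hg]
  refine isConjUnder_fieldU hF (by omega) hσ ?_
  rw [hg, ← h2, ← h4, h3, ← h, conj_pow, pow_orderOf_eq_one, mul_one, mul_inv_cancel]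

end Cfsg.Agent.S2711
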