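import Cfsg.Statements.S2713
import Mathlib
import Cfsg.Agent.Known.TwSp
import Cfsg.Agent.Known.PSpAutMain

set_option autoImplicit false
open Cfsg

namespace Cfsg.Agent.S2713

open Cfsg.Lib.Known Cfsg.Lib.Known.Tw Cfsg.Lib.Class

/-- Let T = PSp_{2m}(F) be simple over a finite field (m ≥ 2, (2m, |F|) ≠ (4, 2)) and let x be a field automorphism of T of prime order r. Then an element y of the coset Inndiag(T)·x (y = δ x with δ in the image of the projective conformal symplectic group) has order r if and only if y is conjugate to x by an element of Inndiag(T). -/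
theorem result {F : Type*} [Field F] [Fintype F] {m : ℕ} (hm : 2 ≤ m) (hs : m = 2 → 3 ≤ Fintype.card F) (x δ : MulAut (Cfsg.PSp m F)) (hx : Cfsg.IsFieldAutClassPSp x) {r : ℕ} (hr : r.Prime) (hxr : orderOf x = r) (hδ : δ ∈ Cfsg.inndiagPSp m F) :
    orderOf (δ * x) = r ↔ Cfsg.IsConjUnder (Cfsg.inndiagPSp m F) x (δ * x) := by
  have hN := normal_range_innSp (F := F) hm
  rw [inndiagPSp_eq_range] at hδ ⊢
  refine ⟨fun h => ?_, fun h => (IsConjUnder.orderOf_eq h).trans hxr⟩
  obtain ⟨α, σ, -, h2⟩ := hx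
  rw [isStdFieldAutPSp_iff] at h2
  have h3 : orderOf σ = r := by
    rw [← orderOf_fieldSp (m := m) (by omega), ← h2]
    exact ((MulAut.conj α).orderOf_eq x).trans hxr
  have h4 : α * (δ * x) * α⁻¹ = α * δ * α⁻¹ * (α * x * α⁻¹) := by group
  obtain ⟨g, hg⟩ := hN.conj_mem _ hδ α
  rw [← isConjUnder_conj_iff _ α, h4, h2, ← hg]
  refine isConjUnder_fieldSp (by omega) ?_
  rw [hg, ← h2, ← h4, h3, ← h, conj_pow, pow_orderOf_eq_one, mul_one, mul_inv_cancel]

end Cfsg.Agent.S2713
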