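import Cfsg.Statements.S2718
import Cfsg.Agent.Known.OrthSplit2

set_option autoImplicit false
open Cfsg

namespace Cfsg.Agent.S2718

open Cfsg.Lib.Known Cfsg.Lib.Class Cfsg.Lib.Class.Orth QuadraticMap Module

/-- Let T = PΩ⁺_{2m}(F) with m ≥ 4 and |F| = q odd, G = Inndiag(T), and γ an involutory graph automorphism of T induced by a similarity (one interchanging the two classes of maximal totally singular subspaces). Then the G-class of γ is either a single T-class or the union of exactly two T-classes, and it is the union of two unless m is odd and q ≡ 3 (mod 4). -/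
theorem result {F : Type*} [Field F] [Fintype F] (hodd : Odd (Fintype.card F)) {m : ℕ} (hm : 4 ≤ m) (γ : MulAut (Cfsg.POmega F (Cfsg.quadFormPlus m F))) (hγ : Cfsg.IsSimilarityGraphAutPOmegaPlus m γ) (hγ2 : orderOf γ = 2) :
    (Cfsg.splitClassCount (Cfsg.inndiagPOmegaPlus m F) (Cfsg.Inn (Cfsg.POmega F (Cfsg.quadFormPlus m F))) γ = 1 ∨ Cfsg.splitClassCount (Cfsg.inndiagPOmegaPlus m F) (Cfsg.Inn (Cfsg.POmega F (Cfsg.quadFormPlus m F))) γ = 2) ∧ (¬ (Odd m ∧ Fintype.card F % 4 = 3) → Cfsg.splitClassCount (Cfsg.inndiagPOmegaPlus m F) (Cfsg.Inn (Cfsg.POmega F (Cfsg.quadFormPlus m F))) γ = 2) := by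
  have h2 : (2 : F) ≠ 0 := two_ne_zero_of_odd_card hodd
  have H := bigO_qPlus (F := F) hm
  obtain ⟨g, hg, hn, hi⟩ := hγ
  obtain ⟨T, hT, hr⟩ := exists_rep_of_mem_sim (Q := qPlus m F) hg
  obtain rfl : rhoM _ T = γ := (hr.isInduced_refl_iff hT).mp hi
  rw [inndiagPOmegaPlus_eq (by omega), ← negO_notMem_plus_iff h2 m]
  have := count_graph h2 H.nd (M := m) (by omega) (by simp [two_mul]) (ker_rhoM H) hT
    (fun h => hn ((preserves_iff H.nd H.nexc (isPlus_qPlus m) hT (hr.apply_of_σ hT)).mpr h))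
    (hγ2 ▸ pow_orderOf_eq_one _)
  rw [← inn_eq_map_NG] at this
  exact ⟨this.1, fun h => this.2 fun h' => h (qPlus_eq (F := F) m ▸ h'.2)⟩

end Cfsg.Agent.S2718
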