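import Cfsg.Statements.S2719
import Cfsg.Agent.Known.OrthSplit2

set_option autoImplicit false
open Cfsg

namespace Cfsg.Agent.S2719

open Cfsg.Lib.Known Cfsg.Lib.Class Cfsg.Lib.Class.Orth QuadraticMap Module

/-- Let T = PΩ⁻_{2m+2}(F) with m ≥ 3 and |F| = q odd (form with anisotropic binary part z₁² + a z₁ z₂ + b z₂²), G = Inndiag(T), and γ an involutory graph automorphism of T (an automorphism in the image of the semisimilarity group, not inner-diagonal, of order 2). Then the G-class of γ is either a single T-class or the union of exactly two T-classes, and it is the union of two unless m is even and q ≡ 1 (mod 4). -/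
theorem result {F : Type*} [Field F] [Fintype F] (hodd : Odd (Fintype.card F)) {m : ℕ} (hm : 3 ≤ m) (a b : F) (hab : (∀ z₁ z₂ : F, z₁ ^ 2 + a * z₁ * z₂ + b * z₂ ^ 2 = 0 → z₁ = 0 ∧ z₂ = 0)) (γ : MulAut (Cfsg.POmega F (Cfsg.quadFormMinus m F a b))) (hγ : Cfsg.IsGraphAutClassPOmegaMinus m a b γ) (hγ2 : orderOf γ = 2) :
    (Cfsg.splitClassCount (Cfsg.inndiagPOmegaMinus m F a b) (Cfsg.Inn (Cfsg.POmega F (Cfsg.quadFormMinus m F a b))) γ = 1 ∨ Cfsg.splitClassCount (Cfsg.inndiagPOmegaMinus m F a b) (Cfsg.Inn (Cfsg.POmega F (Cfsg.quadFormMinus m F a b))) γ = 2) ∧ (¬ (Even m ∧ Fintype.card F % 4 = 1) → Cfsg.splitClassCount (Cfsg.inndiagPOmegaMinus m F a b) (Cfsg.Inn (Cfsg.POmega F (Cfsg.quadFormMinus m F a b))) γ = 2) := by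
  have h2 : (2 : F) ≠ 0 := two_ne_zero_of_odd_card hodd
  have H := bigO_qMinus (F := F) hm hab
  obtain ⟨hg, hn, -⟩ := hγ
  rw [inndiagPOmegaMinus_eq (by omega) hab] at hn ⊢
  obtain ⟨T, rfl⟩ : γ ∈ (rhoM (qMinus m F a b)).range := gammaPOmega_eq (Q := qMinus m F a b) ▸ hg
  have h1 : rhoM _ T ^ 2 = 1 := orderOf_dvd_iff_pow_eq_one.mp (dvd_of_eq hγ2)
  have hT := σ_eq_one_of_not_isPlus H.nd H.nexc (by omega) (finrank_minusSpace m)
    (not_isPlus_qMinus m hab) (ker_rhoM H) h1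
  have := count_graph h2 H.nd (by omega) (finrank_minusSpace m) (ker_rhoM H) hT
    (fun h => hn ⟨T, h, rfl⟩) h1
  rw [← inn_eq_map_NG] at this
  refine ⟨this.1, fun h => this.2 fun h' => h ?_⟩
  have h3 := mt (negO_mem_minus_iff h2 m hab).mpr (qMinus_eq (F := F) m a b ▸ h'.2)
  have h4 := Nat.odd_add_one.mp h'.1
  rw [Nat.not_odd_iff_even] at h4
  have := Nat.odd_iff.mp hodd
  exact ⟨h4, by_contra fun h5 => h3 ⟨h4, by omega⟩⟩

end Cfsg.Agent.S2719
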