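import Cfsg.Statements.S2724
import Cfsg.Agent.Known.OrthOutMat

set_option autoImplicit false
open Cfsg

namespace Cfsg.Agent.S2724

open Cfsg.Lib.Known Cfsg.Lib.Class Cfsg.Lib.Class.Orth QuadraticMap Module

/-- Let T = PΩ⁺_{2m}(F) with m ≥ 4 and |F| = q odd. The image G̃ of the conformal orthogonal group in Aut(T), taken modulo the inner automorphism group T, is elementary abelian of order 4 when m is odd and q ≡ 3 (mod 4), and dihedral of order 8 otherwise. -/
theorem result {F : Type*} [Field F] [Fintype F] (hodd : Odd (Fintype.card F)) {m : ℕ} (hm : 4 ≤ m) :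
    ((Odd m ∧ Fintype.card F % 4 = 3) → (∃ φ : ↥(Cfsg.pgoAut F (Cfsg.quadFormPlus m F)) →* Multiplicative (ZMod 2 × ZMod 2), Function.Surjective φ ∧ φ.ker = (Cfsg.Inn (Cfsg.POmega F (Cfsg.quadFormPlus m F))).subgroupOf (Cfsg.pgoAut F (Cfsg.quadFormPlus m F)))) ∧ (¬ (Odd m ∧ Fintype.card F % 4 = 3) → (∃ φ : ↥(Cfsg.pgoAut F (Cfsg.quadFormPlus m F)) →* DihedralGroup 4, Function.Surjective φ ∧ φ.ker = (Cfsg.Inn (Cfsg.POmega F (Cfsg.quadFormPlus m F))).subgroupOf (Cfsg.pgoAut F (Cfsg.quadFormPlus m F)))) := by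
  have h2 := two_ne_zero_of_odd_card hodd
  have H := bigO_quadPlus (F := F) hm
  have hV := finrank_plusSpace (F := F) (m := m)
  rw [← coe_quadPlus, ← negO_notMem_plus_iff h2, not_not, pgoAut_eq]
  exact ⟨fun h => exists_hom_inn H NG_le_ker_sig (exists_klein_GO H.nd h2 (by omega) hV h),
    fun h => exists_hom_inn H NG_le_ker_sig (exists_dihedral H.nd h2 (by omega) hV h)⟩

end Cfsg.Agent.S2724
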