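import Cfsg.Statements.S2725
import Cfsg.Agent.Known.OrthOutMat

set_option autoImplicit false
open Cfsg

namespace Cfsg.Agent.S2725

open Cfsg.Lib.Known Cfsg.Lib.Class Cfsg.Lib.Class.Orth QuadraticMap Module

/-- Let T = PΩ⁺_{2m}(F) with m ≥ 4 and |F| = q odd. The inner-diagonal group G = Inndiag(T) (image of the class-preserving similarities) taken modulo the inner automorphism group T is cyclic of order 2 when m is odd and q ≡ 3 (mod 4), cyclic of order 4 when m is odd and q ≡ 1 (mod 4), and elementary abelian of order 4 when m is even. -/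
theorem result {F : Type*} [Field F] [Fintype F] (hodd : Odd (Fintype.card F)) {m : ℕ} (hm : 4 ≤ m) :
    ((Odd m ∧ Fintype.card F % 4 = 3) → (∃ φ : ↥(Cfsg.inndiagPOmegaPlus m F) →* Multiplicative (ZMod 2), Function.Surjective φ ∧ φ.ker = (Cfsg.Inn (Cfsg.POmega F (Cfsg.quadFormPlus m F))).subgroupOf (Cfsg.inndiagPOmegaPlus m F))) ∧ ((Odd m ∧ Fintype.card F % 4 = 1) → (∃ φ : ↥(Cfsg.inndiagPOmegaPlus m F) →* Multiplicative (ZMod 4), Function.Surjective φ ∧ φ.ker = (Cfsg.Inn (Cfsg.POmega F (Cfsg.quadFormPlus m F))).subgroupOf (Cfsg.inndiagPOmegaPlus m F))) ∧ (Even m → (∃ φ : ↥(Cfsg.inndiagPOmegaPlus m F) →* Multiplicative (ZMod 2 × ZMod 2), Function.Surjective φ ∧ φ.ker = (Cfsg.Inn (Cfsg.POmega F (Cfsg.quadFormPlus m F))).subgroupOf (Cfsg.inndiagPOmegaPlus m F))) := by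
  have h2 := two_ne_zero_of_odd_card hodd
  have H := bigO_qPlus (F := F) hm
  have hV := finrank_plusSpace (F := F) (m := m)
  have hN := NG_le_GOo H.nd H.nexc hV
  have key := negO_notMem_plus_iff h2 m
  rw [← qPlus_eq] at key
  rw [inndiagPOmegaPlus_eq (by omega)]
  exact ⟨fun h => exists_hom_inn H hN (exists_two_GOo H.nd h2 (by omega) hV (key.2 h)),
    fun h => exists_hom_inn H hN (exists_four_GOo H.nd h2 (by omega) hV
      (not_not.1 fun h' => by have := (key.1 h').2; omega) h.1),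
    fun h => exists_hom_inn H hN (exists_klein_GOo H.nd h2 (by omega) hV
      (not_not.1 fun h' => Nat.not_even_iff_odd.2 (key.1 h').1 h) h)⟩

end Cfsg.Agent.S2725
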