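import Cfsg.Statements.S2735
import Cfsg.Agent.Known.OrthDescMat

set_option autoImplicit false
open Cfsg

namespace Cfsg.Agent.S2735

open Cfsg.Lib.Known Cfsg.Lib.Class Cfsg.Lib.Class.Orth QuadraticMap Module

/-- Let T = Ω_{2m+1}(F) (m ≥ 3, |F| odd) and x a field automorphism of T of prime order r. Then an element y of the coset Inndiag(T)·x (y = δ x with δ induced by a similarity of the form) has order r if and only if y is conjugate to x by an element of Inndiag(T). (T has no graph or graph-field automorphisms.) -/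
theorem result {F : Type*} [Field F] [Fintype F] (hodd : Odd (Fintype.card F)) {m : ℕ} (hm : 3 ≤ m) (x δ : MulAut (Cfsg.POmega F (Cfsg.quadFormOdd m F))) (hx : Cfsg.IsFieldAutClassPOmega (Cfsg.quadFormOdd m F) x) {r : ℕ} (hr : r.Prime) (hxr : orderOf x = r) (hδ : δ ∈ Cfsg.inndiagPOmegaOdd m F) :
    orderOf (δ * x) = r ↔ Cfsg.IsConjUnder (Cfsg.inndiagPOmegaOdd m F) x (δ * x) := by
  have h2 := two_ne_zero_of_odd_card hodd
  have H := bigO_qOdd h2 hm
  obtain ⟨α, σ, h1, h3⟩ := (isFieldAutClass_iff (qOdd_map m)).1 hx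
  obtain ⟨A, rfl, h4⟩ := exists_of_conj_eq (surj_qOdd h2 hm) h3
  rw [inndiagPOmegaOdd_eq'] at hδ ⊢
  exact orderOf_mul_eq_iff (ker_rhoM H) le_rfl range_scal_le_ker
    (fun _ _ a b c => lang_odd H.nd (M := m) (by omega) (by simp; omega) a b (mul_inv_eq_one.1 c))
    (h4 ▸ h1) hr hxr hδ

end Cfsg.Agent.S2735
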