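import Cfsg.Statements.S2738
import Cfsg.Agent.Class.SLCenter
import Cfsg.Agent.Class.SLGen

set_option autoImplicit false
open Cfsg

namespace Cfsg.Agent.S2738

theorem commutator_le {G : Type*} [Group G] {K : Subgroup G}
    (hK : (Subgroup.center G).IsComplement' K) : commutator G ≤ K := by
  have h : Subgroup.center G ⊔ K = ⊤ := hK.sup_eq_top
  have : K.Normal := Subgroup.normalizer_eq_top_iff.1 (eq_top_iff.2 (h.ge.trans
    (sup_le (Subgroup.center_le_normalizer _) Subgroup.le_normalizer)))
  refine Subgroup.Normal.quotient_commutative_iff_commutator_le.1 ⟨⟨fun a b => ?_⟩⟩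
  obtain ⟨a, rfl⟩ := QuotientGroup.mk_surjective a
  obtain ⟨b, rfl⟩ := QuotientGroup.mk_surjective b
  obtain ⟨⟨z, k⟩, rfl, -⟩ := hK.existsUnique a
  rw [QuotientGroup.mk_mul_of_mem _ k.2, ← QuotientGroup.mk_mul, ← QuotientGroup.mk_mul,
    Subgroup.mem_center_iff.1 z.2]

/-- The special linear group SL(3, 4) has centre of order 3 and does not split over it: no subgroup is a complement to the centre (so SL(3, 4) is a non-split central extension of PSL(3, 4) by a group of order 3). -/
theorem result (F : Type*) [Field F] [Fintype F] (hF : Fintype.card F = 4) : Nat.card ↥(Subgroup.center (Matrix.SpecialLinearGroup (Fin 3) F)) = 3 ∧ ¬ ∃ K : Subgroup (Matrix.SpecialLinearGroup (Fin 3) F), Subgroup.IsComplement' (Subgroup.center (Matrix.SpecialLinearGroup (Fin 3) F)) K := by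
  have h1 : Nat.card (Subgroup.center (Matrix.SpecialLinearGroup (Fin 3) F)) = 3 := by
    rw [Lib.Class.card_center_SL (by simp), Nat.card_eq_fintype_card, hF]; simp
  refine ⟨h1, fun ⟨K, hK⟩ => ?_⟩
  have h2 := commutator_le hK
  rw [Lib.Class.SL_commutator_eq_top (by simp), top_le_iff] at h2
  have h3 := hK.card_mul_card
  rw [h2, h1, Subgroup.card_top] at h3
  have := Nat.card_pos (α := Matrix.SpecialLinearGroup (Fin 3) F)
  omega

end Cfsg.Agent.S2738
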