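import Cfsg.Statements.S2739
import Cfsg.Agent.CITCor.NonSimple

set_option autoImplicit false
open scoped Pointwise
open Cfsg

namespace Cfsg.Agent.S2739

/-- In the projective special linear group PSL(3, 4) all subgroups of order 3 are conjugate. -/
theorem result (F : Type*) [Field F] [Fintype F] (hF : Fintype.card F = 4) (X Y : Subgroup (Matrix.ProjectiveSpecialLinearGroup (Fin 3) F)) (hX : Nat.card ↥X = 3) (hY : Nat.card ↥Y = 3) : ∃ g : Matrix.ProjectiveSpecialLinearGroup (Fin 3) F, MulAut.conj g • X = Y := by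
  obtain ⟨x, -, hx⟩ := Cfsg.Lib.CITCor.l34_three hF
  have : Fact (Nat.Prime 3) := ⟨by norm_num⟩
  have key : ∀ Z : Subgroup (Matrix.ProjectiveSpecialLinearGroup (Fin 3) F), Nat.card Z = 3 →
      ∃ z, orderOf z = 3 ∧ Subgroup.zpowers z = Z := by
    intro Z hZ
    have : IsCyclic Z := isCyclic_of_prime_card hZ
    obtain ⟨z, hz⟩ := (Subgroup.isCyclic_iff_exists_zpowers_eq_top Z).1 this
    exact ⟨z, by rw [← Nat.card_zpowers, hz, hZ], hz⟩
  obtain ⟨a, ha, rfl⟩ := key X hX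
  obtain ⟨b, hb, rfl⟩ := key Y hY
  obtain ⟨g, hg⟩ := isConj_iff.1 ((hx a ha).symm.trans (hx b hb))
  refine ⟨g, ?_⟩
  rw [← hg]
  exact MonoidHom.map_zpowers (MulAut.conj g).toMonoidHom a

end Cfsg.Agent.S2739
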