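import Cfsg.Statements.S2751
import Cfsg.Agent.Local.CubicZ5
import Cfsg.Agent.Solv.Cores

set_option autoImplicit false
open Cfsg

namespace Cfsg.Agent.S2751
open Cfsg.Lib.Local Cfsg.Lib.Local.Amal Subgroup

theorem pair_subgroupOf {G : Type*} [Group G] {M T H : Subgroup G} (h : S3Pair M T) (hM : M ≤ H) :
    S3Pair (M.subgroupOf H) (T.subgroupOf H) := by
  have := h.fin
  have : Fact (Nat.Prime 2) := Nat.fact_prime_two
  have e := subgroupOfEquivOfLe hM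
  have : Finite (M.subgroupOf H) := Finite.of_equiv _ e.toEquiv.symm
  have hT : T ≤ M := h.syl.le
  have c1 := Nat.card_congr e.toEquiv
  refine ⟨this, sylowIn_of_card (comap_mono hT) ?_, ?_⟩
  · rw [c1, ← sylowIn_card_eq h.syl]
    exact Nat.card_congr (subgroupOfEquivOfLe (hT.trans hM)).toEquiv
  · rw [c1, h.card, pCoreOf, pCoreOf, card_map_of_injective (subtype_injective _),
      card_map_of_injective (subtype_injective _), ← Lib.Solv.comap_pCore_of_ker e.toMonoidHom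
      e.surjective (by rw [(MonoidHom.ker_eq_bot_iff _).mpr e.injective]; exact IsPGroup.of_bot)]
    congr 1
    exact Nat.card_congr ⟨fun x => ⟨e.symm x, by simp [mem_comap]⟩, fun x => ⟨e x, x.2⟩,
      fun x => by simp, fun x => Subtype.ext (e.symm_apply_apply _)⟩

/-- Goldschmidt's bound for amalgams of index (3, 3): let M₁ and M₂ be finite subgroups of a group G such that M₁ ⊓ M₂ is a Sylow 2-subgroup of both M₁ and M₂, each quotient Mᵢ / O₂(Mᵢ) is isomorphic to the symmetric group of degree 3, and no nontrivial subgroup of M₁ ⊓ M₂ is normal in both M₁ and M₂. Then M₁ ⊓ M₂ has order at most 2^7. -/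
theorem result {G : Type*} [Group G] (M₁ M₂ : Subgroup G) [Finite M₁] [Finite M₂] (ha₁ : ∃ P : Sylow 2 M₁, (P : Subgroup M₁) = (M₁ ⊓ M₂).subgroupOf M₁) (ha₂ : ∃ P : Sylow 2 M₂, (P : Subgroup M₂) = (M₁ ⊓ M₂).subgroupOf M₂) (hb₁ : Nonempty (M₁ ⧸ Cfsg.pCore 2 M₁ ≃* Equiv.Perm (Fin 3))) (hb₂ : Nonempty (M₂ ⧸ Cfsg.pCore 2 M₂ ≃* Equiv.Perm (Fin 3))) (hc : ∀ N : Subgroup G, N ≤ M₁ ⊓ M₂ → (N.subgroupOf M₁).Normal → (N.subgroupOf M₂).Normal → N = ⊥) : Nat.card ↥(M₁ ⊓ M₂) ≤ 2 ^ 7 := by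
  have p1 := pair_subgroupOf (s3Pair_of inf_le_left ha₁ (card_eq_six_of_equiv hb₁))
    (le_sup_left : M₁ ≤ M₁ ⊔ M₂)
  have p2 := pair_subgroupOf (s3Pair_of inf_le_right ha₂ (card_eq_six_of_equiv hb₂))
    (le_sup_right : M₂ ≤ M₁ ⊔ M₂)
  have e0 : (M₁ ⊓ M₂).subgroupOf (M₁ ⊔ M₂) =
      M₁.subgroupOf (M₁ ⊔ M₂) ⊓ M₂.subgroupOf (M₁ ⊔ M₂) := comap_inf _ _ _
  rw [e0] at p1 p2
  have hgen : M₁.subgroupOf (M₁ ⊔ M₂) ⊔ M₂.subgroupOf (M₁ ⊔ M₂) = ⊤ := by
    rw [← subgroupOf_sup le_sup_left le_sup_right, subgroupOf_self]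
  have hcore : ∀ N : Subgroup ↥(M₁ ⊔ M₂), N ≤ M₁.subgroupOf (M₁ ⊔ M₂) ⊓ M₂.subgroupOf (M₁ ⊔ M₂) →
      N.Normal → N = ⊥ := by
    intro N h1 h2
    have key : ∀ M : Subgroup G, M ≤ M₁ ⊔ M₂ → ((N.map (M₁ ⊔ M₂).subtype).subgroupOf M).Normal := by
      intro M hM
      refine ⟨fun x hx g => ?_⟩
      obtain ⟨y, hy, e⟩ := hx
      exact ⟨_, h2.conj_mem y hy ⟨g, hM g.2⟩, by simp [show (y : G) = x from e]⟩
    have := hc (N.map (M₁ ⊔ M₂).subtype) (by rintro _ ⟨y, hy, rfl⟩; exact h1 hy)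
      (key _ le_sup_left) (key _ le_sup_right)
    exact (map_eq_bot_iff_of_injective _ (subtype_injective _)).mp this
  have h := Cubic.card_edge_le (C := cosetCubic hgen hcore p1 p2) (cosetGraph_adj_mk 1)
  rw [stabilizer_inl_one, stabilizer_inr_one, ← e0,
    Nat.card_congr (subgroupOfEquivOfLe (inf_le_left.trans le_sup_left)).toEquiv] at h
  exact h

end Cfsg.Agent.S2751
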