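import Cfsg.Statements.S2758
import Cfsg.Agent.Gold.S4Basic
import Cfsg.Agent.Local.Dihedral

set_option autoImplicit false
open Cfsg

namespace Cfsg.Agent.S2758

open Subgroup Cfsg.Lib

theorem inv_of_involves {G : Type*} [Group G] [Finite G] {p : ℕ} [hpp : Fact p.Prime] (hp : p ≠ 2)
    (h : Cfsg.Involves (DihedralGroup p) G) : ∃ x y : G, (∃ k : ℕ, orderOf x = 2 ^ k) ∧
      (∃ k : ℕ, orderOf y = p ^ k) ∧ y ≠ 1 ∧ x * y * x⁻¹ = y⁻¹ := by
  obtain ⟨K, f, hf⟩ := Trans.involves_iff_exists_surjective.1 h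
  have : NeZero p := ⟨hpp.out.ne_zero⟩
  obtain ⟨x, t, m, h1, h2, h3⟩ := Gold.exists_lift_inverted f hf (q := p) (k := 1) hp
    (y := DihedralGroup.r 1) (τ := DihedralGroup.sr 0) (by simp) (by simp)
  obtain ⟨u, -, ⟨j, hj⟩, hu⟩ := Solv.Real.exists_two_elem_mem_zpowers_inverts h2
  obtain ⟨k, -, hk⟩ := (Nat.dvd_prime_pow hpp.out).1 (orderOf_dvd_of_pow_eq_one h1)
  refine ⟨u, x, ⟨j, by rw [orderOf_coe, hj]⟩, ⟨k, by rw [orderOf_coe, hk]⟩, fun hx => ?_,
    by exact_mod_cast congrArg Subtype.val hu⟩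
  rw [show x = 1 from Subtype.ext hx, map_one, inv_pow, eq_comm, inv_eq_one] at h3
  have := orderOf_dvd_of_pow_eq_one h3
  rw [DihedralGroup.orderOf_r_one] at this
  exact hp ((Nat.prime_dvd_prime_iff_eq hpp.out Nat.prime_two).1 this)

theorem ne_inv {G : Type*} [Group G] {p : ℕ} [hpp : Fact p.Prime] (hp : p ≠ 2) {y : G} {k : ℕ}
    (hy : orderOf y = p ^ k) (h : y = y⁻¹) : y = 1 := by
  have h2 : orderOf y ∣ 2 := orderOf_dvd_of_pow_eq_one (by rw [pow_two]; nth_rewrite 1 [h]; simp)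
  have h3 : (p ^ k).Coprime 2 :=
    Nat.Coprime.pow_left _ ((Nat.coprime_primes hpp.out Nat.prime_two).2 hp)
  rw [← orderOf_eq_one_iff]
  exact Nat.Coprime.eq_one_of_dvd (hy ▸ h3) h2

theorem involves_of_inv {G : Type*} [Group G] [Finite G] {p : ℕ} [hpp : Fact p.Prime] (hp : p ≠ 2)
    {x y : G} {k : ℕ} (hx : orderOf x = 2 ^ k) (hy : orderOf y = p) (h : x * y * x⁻¹ = y⁻¹) :
    Cfsg.Involves (DihedralGroup p) G := by
  let K : Subgroup G := closure {x, y}
  have hxK : x ∈ K := subset_closure (by simp)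
  have hyK : y ∈ K := subset_closure (by simp)
  let a : K := ⟨x, hxK⟩
  let b : K := ⟨y, hyK⟩
  have hab : a * b * a⁻¹ = b⁻¹ := Subtype.ext h
  have hc : Commute (x ^ 2) y := by
    have : x ^ 2 * y * (x ^ 2)⁻¹ = y := by
      calc x ^ 2 * y * (x ^ 2)⁻¹ = x * (x * y * x⁻¹) * x⁻¹ := by rw [pow_two]; group
        _ = (x * y * x⁻¹)⁻¹ := by nth_rewrite 1 [h]; group
        _ = y := by rw [h, inv_inv]
    exact mul_inv_eq_iff_eq_mul.1 this
  have hcen : K ≤ centralizer {x ^ 2} := (closure_le _).2 (by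
    rintro g (rfl | rfl)
    · exact mem_centralizer_singleton_iff.2 (Commute.self_pow g 2)
    · exact mem_centralizer_singleton_iff.2 hc.symm)
  have hN : ((zpowers (x ^ 2)).subgroupOf K).Normal := ⟨fun n hn g => by
    obtain ⟨i, hi⟩ := mem_subgroupOf.1 hn
    have h1 : Commute (g : G) (n : G) :=
      hi ▸ (show Commute (g : G) (x ^ 2) from mem_centralizer_singleton_iff.1 (hcen g.2)).zpow_right i
    have : g * n * g⁻¹ = n := Subtype.ext (by simp [h1.eq])
    rwa [this]⟩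
  let π := QuotientGroup.mk' ((zpowers (x ^ 2)).subgroupOf K)
  have hs : π a * π a = 1 := by
    rw [← map_mul]
    exact (QuotientGroup.eq_one_iff _).2 (mem_subgroupOf.2 (by
      rw [show ((a * a : K) : G) = x ^ 2 from (pow_two x).symm]; exact mem_zpowers _))
  have hi : π a * π b * (π a)⁻¹ = (π b)⁻¹ := by rw [← map_inv, ← map_mul, ← map_mul, hab, map_inv]
  have hy1 : y ≠ 1 := fun e => hpp.out.ne_one (by rw [← hy, e, orderOf_one])
  have ho : orderOf (π b) = p := by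
    refine orderOf_eq_prime ?_ fun e => ?_
    · rw [← map_pow, show b ^ p = 1 from Subtype.ext (by simp [b, ← hy]),
        map_one]
    · have h1 : y ∈ zpowers (x ^ 2) := mem_subgroupOf.1 ((QuotientGroup.eq_one_iff _).1 e)
      have h2 := (orderOf_dvd_of_mem_zpowers h1).trans (orderOf_pow_dvd 2)
      rw [hx, hy] at h2
      exact hp ((Nat.prime_dvd_prime_iff_eq hpp.out Nat.prime_two).1 (hpp.out.dvd_of_dvd_pow h2))
  have hsr : π a ∉ zpowers (π b) := by
    rintro ⟨i, hi'⟩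
    have h1 : Commute (π a) (π b) := hi' ▸ Commute.zpow_self _ i
    rw [h1.eq, mul_inv_cancel_right] at hi
    exact hpp.out.ne_one (by
      rw [← ho, ne_inv hp (k := 1) (by rw [ho, pow_one]) hi, orderOf_one])
  have hinj := Local.dihedralHom_injective hs hi hsr
  have hsurj : Function.Surjective (Local.dihedralHom hs hi (pow_orderOf_eq_one (π b))) := by
    rw [← MonoidHom.range_eq_top, Local.dihedralHom_range, eq_top_iff]
    rintro q -
    obtain ⟨⟨g, hg⟩, rfl⟩ := QuotientGroup.mk'_surjective _ q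
    induction hg using closure_induction with
    | mem g hg =>
      rcases hg with rfl | rfl
      · exact subset_closure (Or.inl rfl)
      · exact subset_closure (Or.inr rfl)
    | one => exact one_mem _
    | mul g g' hg hg' h1 h2 => exact mul_mem h1 h2
    | inv g hg h1 => exact inv_mem h1
  exact ⟨K, zpowers (x ^ 2), hN, ⟨ho ▸ (MulEquiv.ofBijective _ ⟨hinj, hsurj⟩).symm⟩⟩

theorem inv_of_norm {G : Type*} [Group G] [Finite G] {p : ℕ} [hpp : Fact p.Prime]
    {x : G} {P : Subgroup G} {k : ℕ} (hx : orderOf x = 2 ^ k) (hP : IsPGroup p P)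
    (hn : x ∈ normalizer (P : Set G)) (hc : x ∉ centralizer (P : Set G)) :
    ∃ x y : G, (∃ k : ℕ, orderOf x = 2 ^ k) ∧
      (∃ k : ℕ, orderOf y = p ^ k) ∧ y ≠ 1 ∧ x * y * x⁻¹ = y⁻¹ := by
  induction k generalizing x with
  | zero => exact absurd (orderOf_eq_one_iff.1 hx ▸ one_mem _) hc
  | succ k ih =>
    by_cases h2 : x ^ 2 ∈ centralizer (P : Set G)
    · simp only [mem_centralizer_iff, not_forall] at hc
      obtain ⟨u, hu, hux⟩ := hc
      have hy : u⁻¹ * (x * u * x⁻¹) ∈ P := mul_mem (inv_mem hu) ((mem_normalizer_iff.1 hn u).1 hu)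
      obtain ⟨m, hm⟩ := (IsPGroup.iff_orderOf.1 hP) ⟨_, hy⟩
      refine ⟨x, _, ⟨_, hx⟩, ⟨m, by rw [← hm, ← orderOf_coe]⟩, fun e => hux ?_, ?_⟩
      · rw [inv_mul_eq_one, eq_mul_inv_iff_mul_eq] at e
        exact e
      · have := h2 u hu
        calc x * (u⁻¹ * (x * u * x⁻¹)) * x⁻¹ = x * u⁻¹ * x⁻¹ * (x ^ 2 * u) * (x ^ 2)⁻¹ := by group
          _ = _ := by rw [← this]; group
    · refine ih ?_ (pow_mem hn 2) h2
      rw [orderOf_pow_of_dvd two_ne_zero (hx ▸ Dvd.intro_left _ (pow_succ 2 k).symm), hx, pow_succ,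
        Nat.mul_div_cancel _ two_pos]

/-- For an odd prime p and a finite group G the following are equivalent: the dihedral group of order 2p is involved in G; some element of 2-power order normalizes but does not centralize some p-subgroup of G; some element of 2-power order inverts some nonidentity element of p-power order. -/
theorem result {G : Type*} [Group G] [Finite G] {p : ℕ} [Fact p.Prime] (hp : p ≠ 2) : (Cfsg.Involves (DihedralGroup p) G ↔ ∃ (x : G) (P : Subgroup G), (∃ k : ℕ, orderOf x = 2 ^ k) ∧ IsPGroup p ↥P ∧ x ∈ Subgroup.normalizer (P : Set G) ∧ x ∉ Subgroup.centralizer (P : Set G)) ∧ (Cfsg.Involves (DihedralGroup p) G ↔ ∃ x y : G, (∃ k : ℕ, orderOf x = 2 ^ k) ∧ (∃ k : ℕ, orderOf y = p ^ k) ∧ y ≠ 1 ∧ x * y * x⁻¹ = y⁻¹) := by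
  have hpp : p.Prime := Fact.out
  have hCA : (∃ x y : G, (∃ k : ℕ, orderOf x = 2 ^ k) ∧ (∃ k : ℕ, orderOf y = p ^ k) ∧ y ≠ 1 ∧
      x * y * x⁻¹ = y⁻¹) → Cfsg.Involves (DihedralGroup p) G := by
    rintro ⟨x, y, ⟨k, hx⟩, ⟨m, hy⟩, hy1, h⟩
    obtain _ | m := m
    · exact absurd (orderOf_eq_one_iff.1 hy) hy1
    refine involves_of_inv hp hx (y := y ^ p ^ m) ?_ (by rw [← conj_pow, h, inv_pow])
    rw [orderOf_pow_of_dvd (pow_ne_zero _ hpp.ne_zero) (hy ▸ pow_dvd_pow p (Nat.le_succ m)), hy,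
      pow_succ', Nat.mul_div_cancel _ (pow_pos hpp.pos m)]
  refine ⟨⟨fun h => ?_, ?_⟩, inv_of_involves hp, hCA⟩
  · obtain ⟨x, y, hx, ⟨m, hy⟩, hy1, h⟩ := inv_of_involves hp h
    refine ⟨x, zpowers y, hx, IsPGroup.of_card (by rw [Nat.card_zpowers, hy]),
      Gold.mem_normalizer_zpowers_of_inverts h, fun hc => hy1 (ne_inv hp hy ?_)⟩
    rw [← h, ← hc y (mem_zpowers y), mul_inv_cancel_right]
  · rintro ⟨x, P, ⟨k, hx⟩, hP, hn, hc⟩
    exact hCA (inv_of_norm hx hP hn hc)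

end Cfsg.Agent.S2758
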