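import Cfsg.Statements.S2759
import Cfsg.Agent.Gold.S4Basic
import Cfsg.Agent.Trans.LiftNormalizer

set_option autoImplicit false
open Cfsg

namespace Cfsg.Agent.S2759

open Cfsg.Lib.Trans Cfsg.Lib.Gold Subgroup

set_option maxRecDepth 100000 in
theorem v4_facts : ∃ V : Subgroup (Equiv.Perm (Fin 4)), IsPGroup 2 V ∧ V.Normal ∧
    ∃ y τ : Equiv.Perm (Fin 4), y ^ 3 ^ 1 = 1 ∧ τ * y * τ⁻¹ = y⁻¹ ∧
      y⁻¹ ^ 2 ∉ centralizer (V : Set (Equiv.Perm (Fin 4))) := by
  let V : Subgroup (Equiv.Perm (Fin 4)) :=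
    { carrier := {g | g ^ 2 = 1 ∧ Equiv.Perm.sign g = 1}
      mul_mem' := by
        intro a b
        revert a b
        decide
      one_mem' := by decide
      inv_mem' := by
        intro a
        revert a
        decide }
  refine ⟨V, fun g => ⟨1, Subtype.ext (by simpa using g.2.1)⟩, ⟨?_⟩,
    Equiv.swap 0 1 * Equiv.swap 1 2, Equiv.swap 0 1, by decide, by decide, fun h => ?_⟩
  · change ∀ n : Equiv.Perm (Fin 4), n ^ 2 = 1 ∧ Equiv.Perm.sign n = 1 →
      ∀ g : Equiv.Perm (Fin 4), (g * n * g⁻¹) ^ 2 = 1 ∧ Equiv.Perm.sign (g * n * g⁻¹) = 1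
    decide
  · have := h (Equiv.swap 0 1 * Equiv.swap 2 3) (by
      change _ ∧ _
      decide)
    revert this
    decide

/-- For a finite group G, the symmetric group of degree 4 is involved in G if and only if there is a 2-subgroup T of G such that the symmetric group of degree 3 is involved in N(T)/C(T). -/
theorem result {G : Type*} [Group G] [Finite G] : Cfsg.Involves (Equiv.Perm (Fin 4)) G ↔ ∃ T : Subgroup G, IsPGroup 2 ↥T ∧ Cfsg.Involves (Equiv.Perm (Fin 3)) (↥(Subgroup.normalizer (T : Set G)) ⧸ (Subgroup.centralizer (T : Set G)).subgroupOf (Subgroup.normalizer (T : Set G))) := by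
  constructor
  · intro h
    obtain ⟨K, f, hf⟩ := involves_iff_exists_surjective.1 h
    obtain ⟨V, hV, hVn, y, τ, hy, hτ, hyc⟩ := v4_facts
    obtain ⟨S, hS, hSV, hN⟩ := exists_lift_normalizer f hf hV
    have hs : Function.Surjective (f.comp (normalizer (S : Set K)).subtype) := fun z => by
      obtain ⟨n, hn, rfl⟩ := hN (show z ∈ normalizer (V : Set (Equiv.Perm (Fin 4))) by
        rw [normalizer_eq_top]; trivial)
      exact ⟨⟨n, hn⟩, rfl⟩
    have : Fact (Nat.Prime 3) := ⟨Nat.prime_three⟩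
    obtain ⟨x, t, m, h1, h2, h3⟩ := exists_lift_inverted _ hs (by norm_num) hy hτ
    refine ⟨S.map K.subtype, hS.map _, involves_S3_of_not_noReal3 fun hr => hyc ?_⟩
    have hle : ∀ z : normalizer (S : Set K), ((z : K) : G) ∈
        normalizer ((S.map K.subtype : Subgroup G) : Set G) := fun z =>
      le_normalizer_map K.subtype ⟨z, z.2, rfl⟩
    let φ : normalizer (S : Set K) →* normalizer ((S.map K.subtype : Subgroup G) : Set G) :=
      (K.subtype.comp (normalizer (S : Set K)).subtype).codRestrict _ hle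
    have h4 := hr.eq_one (x := QuotientGroup.mk' _ (φ x)) (g := QuotientGroup.mk' _ (φ t)) (k := m)
      (by rw [← map_pow, ← map_pow, h1, map_one, map_one])
      (by rw [← map_inv, ← map_mul, ← map_mul, ← map_inv, ← map_mul, ← map_mul, h2, map_inv, map_inv])
    rw [QuotientGroup.mk'_apply, QuotientGroup.eq_one_iff, mem_subgroupOf] at h4
    rw [← h3, ← hSV]
    rintro - ⟨s, hs, rfl⟩
    have h5 : s * (x : K) = x * s := Subtype.ext (h4 s ⟨s, hs, rfl⟩)
    change f s * f x = f x * f s
    rw [← map_mul, h5, map_mul]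
  · rintro ⟨T, hT, h⟩
    by_contra hG
    refine not_involves_S3_iff.2 (noReal3_of_centralizer_le_ker hG hT le_rfl (QuotientGroup.mk' _)
      (QuotientGroup.mk'_surjective _) fun x hx _ => ?_) h
    rw [QuotientGroup.mk'_apply, QuotientGroup.eq_one_iff, mem_subgroupOf]
    exact hx

end Cfsg.Agent.S2759
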