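import Cfsg.Statements.S2760
import Cfsg.Agent.Local.CharP

set_option autoImplicit false
open Cfsg

namespace Cfsg.Agent.S2760

open Subgroup Cfsg.Lib Cfsg.Lib.Trans Cfsg.Lib.Local

/-- Let G be a finite group with C_G(O₂(G)) ≤ O₂(G) and H a subgroup of G such that H is normal in G, or the subgroup O²(H) generated by the elements of H of odd order is normal in G. Then C_H(O₂(H)) ≤ O₂(H). -/
theorem result {G : Type*} [Group G] [Finite G] (hchar : Subgroup.centralizer (Cfsg.pCore 2 G : Set G) ≤ Cfsg.pCore 2 G) (H : Subgroup G) (hH : H.Normal ∨ ((Cfsg.pResidual 2 ↥H).map H.subtype).Normal) : Subgroup.centralizer (Cfsg.pCore 2 ↥H : Set ↥H) ≤ Cfsg.pCore 2 ↥H := by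
  haveI : Fact (Nat.Prime 2) := ⟨Nat.prime_two⟩
  have hT : Local.CharP 2 (⊤ : Subgroup G) := charP_top_iff.2 hchar
  rw [← Local.charP_iff]
  rcases hH with hH | hH
  · exact hT.of_normal le_top (normalizer_eq_top H).ge
  · have hK : Local.CharP 2 (resOf 2 H) := hT.of_normal le_top (normalizer_eq_top _).ge
    refine charP_of_isPGroup_inf (Local.isPGroup_of_resOf_le hK.isPGroup_inf (le_inf ?_ ?_))
    · exact resOf_mono inf_le_left
    · exact (resOf_le _).trans (inf_le_right.trans (centralizer_le
        (pCoreOf_le_of_normal (resOf_le H) (le_normalizer_resOf H))))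

end Cfsg.Agent.S2760
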