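import Cfsg.Statements.S2761
import Cfsg.Agent.Trans.QdSylow

set_option autoImplicit false
open Cfsg

open Cfsg.Lib Cfsg.Lib.Trans Cfsg.Lib.Trans.Qd Subgroup Matrix

namespace Cfsg.Agent.S2761

/-- The affine action of `Qd`. -/
@[reducible] def affAction (F : Type*) [Field F] : MulAction (qdOver F) (Fin 2 → F) where
  smul M v := vec M + (qdLin F M).1 *ᵥ v
  one_smul v := by
    change vec (1 : qdOver F) + (qdLin F 1).1 *ᵥ v = v
    rw [← mk_zero_one, qdLin_mk, vec_mk]
    simp
  mul_smul M N v := by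
    obtain ⟨a, g, rfl⟩ := exists_mk M
    obtain ⟨b, h, rfl⟩ := exists_mk N
    change Qd.vec _ + (qdLin F _).1 *ᵥ v =
      Qd.vec _ + (qdLin F _).1 *ᵥ (Qd.vec _ + (qdLin F _).1 *ᵥ v)
    simp only [mk_mul, qdLin_mk, vec_mk, mul_mulVec, mulVec_add, add_assoc]

theorem toPermHom_injective (F : Type*) [Field F] :
    Function.Injective (@MulAction.toPermHom (qdOver F) (Fin 2 → F) _ (affAction F)) := by
  rw [injective_iff_map_eq_one]
  intro M hM
  have h : ∀ v, vec M + (qdLin F M).1 *ᵥ v = v := fun v => congrArg (fun f : Equiv.Perm _ => f v) hM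
  have h0 : vec M = 0 := by simpa using h 0
  have h1 : qdLin F M = 1 := Subtype.ext (Matrix.ext_iff_mulVec.mpr fun v => by
    simpa [h0] using h v)
  rw [← mk_vec_qdLin M, h0, h1, mk_zero_one]

/-- The group Qd(2), the natural semidirect product of an elementary abelian group of order 4 by SL₂(2) (realised as the affine subgroup of SL₃(2)), is isomorphic to the symmetric group of degree 4. -/
theorem result : Nonempty (↥(Cfsg.qd 2) ≃* Equiv.Perm (Fin 4)) := by
  have h1 : Nat.card (Fin 2 → ZMod 2) = 4 := by simp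
  have hb := (Nat.bijective_iff_injective_and_card _).mpr ⟨toPermHom_injective (ZMod 2), by
    rw [card_qdOver_zmod, Nat.card_perm, h1]
    rfl⟩
  exact ⟨(MulEquiv.ofBijective _ hb).trans (Finite.equivFinOfCardEq h1).permCongrHom⟩

end Cfsg.Agent.S2761
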