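import Cfsg.Statements.S2762
import Cfsg.Agent.Trans.QdStruct

set_option autoImplicit false
open Cfsg

open Cfsg.Lib.Trans Cfsg.Lib.Trans.Qd Subgroup

namespace Cfsg.Agent.S2762

/-- Structure of Qd over a finite field F of characteristic p (the affine subgroup of SL₃(F)): its largest normal p-subgroup is the group of translations (matrices with upper-left block the identity), the block-diagonal matrices form a complement isomorphic to SL₂(F), and the translation subgroup is a natural SL₂(F)-module for that complement. -/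
theorem result {F : Type*} [Field F] [Fintype F] {p : ℕ} [Fact p.Prime] [CharP F p] : (∀ M : ↥(Cfsg.qdOver F), M ∈ Cfsg.pCore p ↥(Cfsg.qdOver F) ↔ ((M : Matrix.SpecialLinearGroup (Fin 3) F) : Matrix (Fin 3) (Fin 3) F) 0 0 = 1 ∧ ((M : Matrix.SpecialLinearGroup (Fin 3) F) : Matrix (Fin 3) (Fin 3) F) 0 1 = 0 ∧ ((M : Matrix.SpecialLinearGroup (Fin 3) F) : Matrix (Fin 3) (Fin 3) F) 1 0 = 0 ∧ ((M : Matrix.SpecialLinearGroup (Fin 3) F) : Matrix (Fin 3) (Fin 3) F) 1 1 = 1) ∧ ∃ K : Subgroup ↥(Cfsg.qdOver F), (∀ M : ↥(Cfsg.qdOver F), M ∈ K ↔ ((M : Matrix.SpecialLinearGroup (Fin 3) F) : Matrix (Fin 3) (Fin 3) F) 0 2 = 0 ∧ ((M : Matrix.SpecialLinearGroup (Fin 3) F) : Matrix (Fin 3) (Fin 3) F) 1 2 = 0) ∧ K ⊓ Cfsg.pCore p ↥(Cfsg.qdOver F) = ⊥ ∧ K ⊔ Cfsg.pCore p ↥(Cfsg.qdOver F) = ⊤ ∧ Nonempty (↥K ≃* Matrix.SpecialLinearGroup (Fin 2) F) ∧ Cfsg.IsNaturalSL2Module F (Cfsg.pCore p ↥(Cfsg.qdOver F)) K := by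
  rw [pCore_qdOver p]
  refine ⟨fun M => ?_, (qdSec F).range, fun M => ?_, ?_, ?_,
    ⟨(MonoidHom.ofInjective qdSec_injective).symm⟩, le_normalizer_of_normal,
    (qdLin F).comp (qdSec F).range.subtype,
    (MulEquiv.toAdditive ((MonoidHom.ofInjective qdTr_injective).trans
      (MulEquiv.subgroupCongr range_qdTr)).symm).trans (AddEquiv.additiveMultiplicative _),
    fun g => ⟨⟨_, g, rfl⟩, qdLin_qdSec g⟩, ?_, ?_⟩
  · rw [MonoidHom.mem_ker, Matrix.SpecialLinearGroup.ext_iff]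
    simp [Fin.forall_fin_two, and_assoc, coe_qdLin]
  · constructor
    · rintro ⟨g, rfl⟩
      exact ⟨rfl, rfl⟩
    · rintro ⟨h1, h2⟩
      refine ⟨qdLin F M, ?_⟩
      rw [qdSec_apply, ← mk_vec_qdLin M, qdLin_mk, mk_inj]
      refine ⟨?_, rfl⟩
      ext i
      fin_cases i
      · exact h1.symm
      · exact h2.symm
  · rw [eq_bot_iff]
    rintro _ ⟨⟨g, rfl⟩, h⟩
    rw [(qdLin_qdSec g).symm.trans h, map_one]
    exact one_mem _
  · rw [← comap_map_eq, ← MonoidHom.range_comp, MonoidHom.range_eq_top.mpr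
      fun g => ⟨g, qdLin_qdSec g⟩, comap_top]
  · rw [centralizer_ker_qdLin]
    rfl
  · intro l v
    obtain ⟨w, rfl⟩ := ((MonoidHom.ofInjective qdTr_injective).trans
      (MulEquiv.subgroupCongr range_qdTr)).surjective v
    refine ⟨((MonoidHom.ofInjective qdTr_injective).trans (MulEquiv.subgroupCongr range_qdTr))
      (Multiplicative.ofAdd (((qdLin F) l).1.mulVec w.toAdd)), (conj_qdTr _ _).symm, ?_⟩
    simp

end Cfsg.Agent.S2762
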