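import Cfsg.Statements.S2764
import Cfsg.Agent.Trans.PUMain

set_option autoImplicit false
open Cfsg

namespace Cfsg.Agent.S2764

open Cfsg.Lib.Trans Cfsg.Lib.Trans.TJ Cfsg.Lib.Trans.PU Cfsg.Lib.Local.MSS Subgroup

/-- Pushing up for a rank-one quotient: let G be a finite group and p a prime with C_G(O_p(G)) ≤ O_p(G), suppose G/K ≅ PSL₂(p^n) for some normal subgroup K and some n ≥ 1, that a Sylow p-subgroup S of G lies in exactly one maximal subgroup of G, and that no nontrivial characteristic subgroup of S is normal in G. Then G/O_p(G) ≅ SL₂(p^n), and every noncentral chief factor U/W of G inside O_p(G) is a natural SL₂-module over the field with p^n elements for the action of G/W. -/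
theorem result {G : Type*} [Group G] [Finite G] {p : ℕ} [Fact p.Prime] (S : Sylow p G) (hE₁ : Subgroup.centralizer (Cfsg.pCore p G : Set G) ≤ Cfsg.pCore p G) (hE₂ : ∃! M : Subgroup G, IsCoatom M ∧ (S : Subgroup G) ≤ M) (K : Subgroup G) [K.Normal] (F : Type) [Field F] [Fintype F] (n : ℕ) (hn : 1 ≤ n) (hF : Fintype.card F = p ^ n) (hE₃ : Nonempty (G ⧸ K ≃* Matrix.ProjectiveSpecialLinearGroup (Fin 2) F)) (hd : ∀ T : Subgroup ↥(S : Subgroup G), T ≠ ⊥ → T.Characteristic → ¬ (T.map (S : Subgroup G).subtype).Normal) : Nonempty (G ⧸ Cfsg.pCore p G ≃* Matrix.SpecialLinearGroup (Fin 2) F) ∧ ∀ (U W : Subgroup G) [W.Normal], U ≤ Cfsg.pCore p G → Cfsg.IsChiefFactor U W → ¬ ⁅U, (⊤ : Subgroup G)⁆ ≤ W → Cfsg.IsNaturalSL2Module F (U.map (QuotientGroup.mk' W)) (⊤ : Subgroup (G ⧸ W)) := by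
  obtain ⟨M, hr, hq⟩ := exists_rankOne' (isSylowIn_top S) hE₁ hE₂ K F hF hE₃
  obtain ⟨h, ⟨A, D, c⟩ | ⟨S', A, A', Y, D, c⟩⟩ := NoChar.cases hd hr
  · obtain ⟨θ, ψ, hm, e⟩ := c.data h F hq
    refine ⟨equiv_of_kerOf hm (e.trans pCoreOf_top), fun U W _ hU hc hn => ?_⟩
    rw [← pCoreOf_top] at hU
    exact chief_nat hm hc (fun e' => hc.1.not_ge ((le_inf le_rfl hU).trans (chief_inf_le hc hn
      (hyp_of_res (isPGroup_pCoreOf _) (c.comm_res h)) e'))) (chief_inf_Z hc hn)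
      fun l hl => theta_Q hm (hU (hc.1.le hl))
  · obtain ⟨-, θ, θ', ψ, ψ', hm, hm', e⟩ := c.data h F hq
    refine ⟨equiv_of_kerOf hm (e.trans pCoreOf_top), fun U W _ hU hc hn => ?_⟩
    rw [← pCoreOf_top] at hU
    haveI := c.normal
    by_cases e' : U ⊓ vv p ⊤ ≤ W
    · exact chief_nat hm' hc (fun e' => hc.1.not_ge ((le_inf le_rfl hU).trans e')) (chief_inf_le hc hn
        (hyp_of_res ((isPGroup_pCoreOf _).to_le c.hat_le) (c.comm_res h)) e') fun l hl =>
        (hm'.theta_eq_one_iff (mem_top l)).2 fun v hv => c.commQ (hU (hc.1.le hl)) hv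
    · exact chief_nat hm hc e' (chief_inf_Z hc hn) fun l hl => theta_Q hm (hU (hc.1.le hl))

end Cfsg.Agent.S2764
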