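import Cfsg.Statements.S2765
import Cfsg.Agent.Trans.PUMain

set_option autoImplicit false
open Cfsg

namespace Cfsg.Agent.S2765

open Cfsg.Lib.Trans Cfsg.Lib.Trans.TJ Cfsg.Lib.Trans.PU Cfsg.Lib.Local.MSS Subgroup

/-- In the same pushing-up situation (G finite, C_G(O_p(G)) ≤ O_p(G), G/K ≅ PSL₂(p^n) with n ≥ 1, a Sylow p-subgroup S in exactly one maximal subgroup, no nontrivial characteristic subgroup of S normal in G), one of the following holds: (I) S has nilpotency class 2, exponent 4 if p = 2 and exponent p otherwise, and G has exactly one noncentral chief factor inside O_p(G); or (II) p = 3, S has class 3 and exponent 9, and G has exactly two noncentral chief factors inside O_p(G). 'Exactly one' is phrased as: some noncentral chief factor U/W inside O_p(G) with G acting hypercentrally on W and on O_p(G)/U; 'exactly two' analogously with a chain. -/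
theorem result {G : Type*} [Group G] [Finite G] {p : ℕ} [Fact p.Prime] (S : Sylow p G) (hE₁ : Subgroup.centralizer (Cfsg.pCore p G : Set G) ≤ Cfsg.pCore p G) (hE₂ : ∃! M : Subgroup G, IsCoatom M ∧ (S : Subgroup G) ≤ M) (K : Subgroup G) [K.Normal] (F : Type) [Field F] [Fintype F] (n : ℕ) (hn : 1 ≤ n) (hF : Fintype.card F = p ^ n) (hE₃ : Nonempty (G ⧸ K ≃* Matrix.ProjectiveSpecialLinearGroup (Fin 2) F)) (hd : ∀ T : Subgroup ↥(S : Subgroup G), T ≠ ⊥ → T.Characteristic → ¬ (T.map (S : Subgroup G).subtype).Normal) : ((S : Subgroup G).lowerCentralSeries 2 = ⊥ ∧ (S : Subgroup G).lowerCentralSeries 1 ≠ ⊥ ∧ (p = 2 → Monoid.exponent ↥(S : Subgroup G) = 4) ∧ (p ≠ 2 → Monoid.exponent ↥(S : Subgroup G) = p) ∧ (∃ U W : Subgroup G, W ≤ U ∧ U ≤ (Cfsg.pCore p G) ∧ Cfsg.IsChiefFactor U W ∧ ¬ ⁅U, (⊤ : Subgroup G)⁆ ≤ W ∧ (∃ k : ℕ, Cfsg.iterCommutator W ⊤ k = ⊥) ∧ (∃ k : ℕ, Cfsg.iterCommutator (Cfsg.pCore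 p G) ⊤ k ≤ U))) ∨ (p = 3 ∧ (S : Subgroup G).lowerCentralSeries 3 = ⊥ ∧ (S : Subgroup G).lowerCentralSeries 2 ≠ ⊥ ∧ Monoid.exponent ↥(S : Subgroup G) = 9 ∧ (∃ U₁ W₁ U₂ W₂ : Subgroup G, W₁ ≤ U₁ ∧ U₁ ≤ W₂ ∧ W₂ ≤ U₂ ∧ U₂ ≤ (Cfsg.pCore p G) ∧ Cfsg.IsChiefFactor U₁ W₁ ∧ Cfsg.IsChiefFactor U₂ W₂ ∧ ¬ ⁅U₁, (⊤ : Subgroup G)⁆ ≤ W₁ ∧ ¬ ⁅U₂, (⊤ : Subgroup G)⁆ ≤ W₂ ∧ (∃ k : ℕ, Cfsg.iterCommutator W₁ ⊤ k = ⊥) ∧ (∃ k : ℕ, Cfsg.iterCommutator W₂ ⊤ k ≤ U₁) ∧ (∃ k : ℕ, Cfsg.iterCommutator (Cfsg.pCore p G) ⊤ k ≤ U₂))) := by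
  obtain ⟨M, hr, hq⟩ := exists_rankOne' (isSylowIn_top S) hE₁ hE₂ K F hF hE₃
  replace hd : NoChar (S : Subgroup G) := hd
  have hp : p.Prime := Fact.out
  obtain ⟨h, ⟨A, D, c⟩ | ⟨S', A, A', Y, D, c⟩⟩ := hd.cases hr
  · obtain ⟨θ, ψ, hm, e⟩ := c.data h F hq
    have hD := le_sup_right.trans c.VD.le
    have h1 : (S : Subgroup G).lowerCentralSeries 1 ≠ ⊥ := fun e => by
      obtain ⟨v, hv, h1⟩ := h.nc
      exact h1 (commutator_eq_bot_iff_le_centralizer.1 e (h.Q_le (vv_le _ hv)))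
    refine Or.inl ⟨hd.lcs c.sup_eq c.D_cent hD h.Q_le (c.lcs_eq h), h1, ?_, fun h2 => ?_, _, _,
      hm.le, pCoreOf_top (p := p) (G := G) ▸ vv_le _, natMod_chief hm, natMod_not_le hm, hyp_Z,
      pCoreOf_top (p := p) (G := G) ▸ hyp_of_res (isPGroup_pCoreOf _) (c.comm_res h)⟩
    · rintro rfl
      have h2 := hd.pow c.sup_eq c.D_cent hD h.Q_le fun x hx => c.pow_sq hx
      refine Nat.eq_prime_pow_of_dvd_least_prime_pow (k := 1) hp (fun h3 => h1 ?_) h2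
      refine commutator_eq_bot_iff_le_centralizer.2 fun x hx y hy => congrArg Subtype.val
        (mul_comm_of_exponent_two (G := (S : Subgroup G)) ?_ ⟨y, hy⟩ ⟨x, hx⟩)
      refine (hp.eq_one_or_self_of_dvd _ h3).resolve_left fun h4 => h1 ?_
      refine commutator_eq_bot_iff_le_centralizer.2 fun x hx y hy => congrArg Subtype.val
        (@Subsingleton.elim (S : Subgroup G) (Monoid.exp_eq_one_iff.1 h4) (⟨y, hy⟩ * ⟨x, hx⟩)
          (⟨x, hx⟩ * ⟨y, hy⟩))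
    · refine (hp.eq_one_or_self_of_dvd _ (hd.pow c.sup_eq c.D_cent hD h.Q_le
        fun x hx => c.pow_odd h h2 hx)).resolve_left fun h4 => h1 ?_
      refine commutator_eq_bot_iff_le_centralizer.2 fun x hx y hy => congrArg Subtype.val
        (@Subsingleton.elim (S : Subgroup G) (Monoid.exp_eq_one_iff.1 h4) (⟨y, hy⟩ * ⟨x, hx⟩)
          (⟨x, hx⟩ * ⟨y, hy⟩))
  · obtain ⟨rfl, θ, θ', ψ, ψ', hm, hm', e⟩ := c.data h F hq
    haveI := c.normal
    refine Or.inr ⟨rfl, hd.lcs (c.sup_eq h) (c.D_cent h) c.DQ h.Q_le (c.lcs_eq h), fun e => ?_, ?_,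
      _, _, _, _, hm.le, le_sup_left, hm'.le, pCoreOf_top.le, natMod_chief hm, natMod_chief hm',
      natMod_not_le hm, natMod_not_le hm', hyp_Z,
      hyp_of_res ((isPGroup_pCoreOf _).to_le c.hat_le) (c.comm_res h), 0, pCoreOf_top.ge⟩
    · obtain ⟨y, hy, h1⟩ := c.exists_y h
      obtain ⟨w, hw, h2⟩ := c.exists_w
      refine c.cub h hy h1 hy h1 hw h2 ?_
      rw [← inv_mem_iff, commutatorElement_inv, mem_bot.1 (e.le (commutator_mem_commutator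
        (commutator_mem_commutator (c.Y_le hy) (c.QS (c.AQ' hw))) (c.Y_le hy)))]
      exact one_mem _
    · obtain ⟨x, hx, h1⟩ := c.exists_cube h rfl
      exact Nat.eq_prime_pow_of_dvd_least_prime_pow (k := 1) hp (fun h3 => h1 (congrArg Subtype.val
        (Monoid.exponent_dvd_iff_forall_pow_eq_one.1 h3 ⟨x, hx⟩)))
        (hd.pow (c.sup_eq h) (c.D_cent h) c.DQ h.Q_le fun x hx => c.pow_sq h hx)

end Cfsg.Agent.S2765
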