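import Cfsg.Statements.S2766
import Cfsg.Agent.Trans.PUBlk

set_option autoImplicit false
open Cfsg

namespace Cfsg.Agent.S2766

open Cfsg.Lib Cfsg.Lib.Solv Cfsg.Lib.Trans Cfsg.Lib.Trans.TJ Cfsg.Lib.Trans.PU Cfsg.Lib.Trans.MP
  Cfsg.Lib.Local.MSS Subgroup
open scoped commutatorElement

/-- the subgroup generated by commutators and `p`-th powers. -/
def ph {G : Type*} [Group G] (p : ℕ) (X : Subgroup G) : Subgroup G :=
  closure {y | (∃ a ∈ X, ∃ b ∈ X, ⁅a, b⁆ = y) ∨ ∃ a ∈ X, a ^ p = y}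

theorem norm_ph {G : Type*} [Group G] [Finite G] (p : ℕ) (X : Subgroup G) :
    normalizer (X : Set G) ≤ normalizer (ph p X : Set G) := fun g hg => by
  refine mem_normalizer_of_cj_le ?_
  rw [ph, cj_closure]
  refine closure_mono ?_
  have k := (mem_normalizer_iff.1 hg · |>.1)
  rintro _ ⟨_, ⟨a, ha, b, hb, rfl⟩ | ⟨a, ha, rfl⟩, rfl⟩
  · exact Or.inl ⟨_, k a ha, _, k b hb, by group⟩
  · exact Or.inr ⟨_, k a ha, conj_pow⟩

theorem ph_eq {G : Type*} [Group G] {p : ℕ} {P D : Subgroup G} (h : vv p P ⊔ D = pCoreOf p P) :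
    ph p (pCoreOf p P) = ph p D := by
  have hD := le_sup_right.trans h.le
  have k {x : G} (hx : x ∈ pCoreOf p P) : ∃ v ∈ vv p P, ∃ d ∈ D, v * d = x :=
    TJ.mem_sup_of_le_normalizer (((vv_le_cent P).trans (TJ.centralizer_anti hD)).trans
      (centralizer_le_normalizer _)) (h.ge hx)
  unfold ph
  congr 1
  ext y
  refine or_congr ⟨?_, fun ⟨a, ha, b, hb, e⟩ => ⟨a, hD ha, b, hD hb, e⟩⟩
    ⟨?_, fun ⟨a, ha, e⟩ => ⟨a, hD ha, e⟩⟩
  · rintro ⟨a, ha, b, hb, rfl⟩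
    obtain ⟨v, hv, d, hd, rfl⟩ := k ha
    obtain ⟨w, hw, e, he, rfl⟩ := k hb
    refine ⟨d, hd, e, he, ?_⟩
    rw [← vv_le_cent P hv d (hD hd), ← vv_le_cent P hw e (hD he), comm_cent_mul
      (comm_eq_one_of_mem' (mul_mem (hD he) (vv_le P hw)) (vv_le_cent P hv)),
      comm_mul_cent (comm_eq_one_of_mem (hD hd) (vv_le_cent P hw))]
  · rintro ⟨a, ha, rfl⟩
    obtain ⟨v, hv, d, hd, rfl⟩ := k ha
    exact ⟨d, hd, by rw [(show Commute v d from (vv_le_cent P hv d (hD hd)).symm).mul_pow, vv_pow hv,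
      one_mul]⟩

/-- Let p ≥ 5 be prime and G a maximal p-local subgroup of a finite group H (G is the normalizer of a nontrivial p-subgroup and lies in no other such normalizer). Suppose C_G(O_p(G)) ≤ O_p(G), G/K ≅ PSL₂(p^n) for some normal K and n ≥ 1, a Sylow p-subgroup S of G lies in exactly one maximal subgroup of G, and N_H(S) is not contained in G. Then G = G₀ × E for subgroups G₀ ≅ Qd(p^n) (the natural semidirect product of the plane over the field with p^n elements by SL₂) and E an elementary abelian p-group. -/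
theorem result {H : Type*} [Group H] [Finite H] {p : ℕ} [Fact p.Prime] (hp : 5 ≤ p) (G : Subgroup H) (hloc : ∃ R : Subgroup H, IsPGroup p ↥R ∧ R ≠ ⊥ ∧ G = Subgroup.normalizer (R : Set H)) (hmax : ∀ R : Subgroup H, IsPGroup p ↥R → R ≠ ⊥ → G ≤ Subgroup.normalizer (R : Set H) → Subgroup.normalizer (R : Set H) = G) (S : Sylow p ↥G) (hE₁ : Subgroup.centralizer (Cfsg.pCore p ↥G : Set ↥G) ≤ Cfsg.pCore p ↥G) (hE₂ : ∃! M : Subgroup ↥G, IsCoatom M ∧ (S : Subgroup ↥G) ≤ M) (K : Subgroup ↥G) [K.Normal] (F : Type) [Field F] [Fintype F] (n : ℕ) (hn : 1 ≤ n) (hF : Fintype.card F = p ^ n) (hE₃ : Nonempty (↥G ⧸ K ≃* Matrix.ProjectiveSpecialLinearGroup (Fin 2) F)) (hN : ¬ Subgroup.normalizer (((S : Subgroup ↥G).map G.subtype : Subgroup H) : Set H) ≤ G) : ∃ G₀ E : Subgroup H, Cfsg.IsInternalDirectProduct G₀ E G ∧ Cfsg.IsElementaryAbelian p E ∧ Nonempty (↥G₀ ≃* ↥(Cfsg.qdOver F)) := by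
  obtain ⟨M, hr, hq⟩ := exists_rankOne' (isSylowIn_top S) hE₁ hE₂ K F hF hE₃
  have hf := G.subtype_injective
  have hs : Star G.subtype S := fun N h1 _ h3 => by_contra fun h4 => hN (h3.trans (hmax _
    ((S.isPGroup'.to_le h1).map _) (fun e => h4 ((Subgroup.map_eq_bot_iff_of_injective _ hf).1 e))
    (le_normalizer_map_subtype N)).le)
  have h := hs.r1 hf hr
  obtain ⟨γ, σ, l, e, e'⟩ | ⟨γ, σ, l, e, e'⟩ := hs.lp hf h
  swap
  · have := l.c2
    rw [e, e'] at this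
    have := (this.pull hf).three' h
    omega
  have c := l.c1
  have hQ : pCoreOf p (γ 0) ≤ vv p (γ 0) := by
    have c' : vv p (γ 1) ⊔ pCoreOf p (γ 0) ⊓ pCoreOf p (γ 1) = pCoreOf p (γ 1) := by
      rw [inf_comm]; exact (LP.rev (N := 0) (b := 1) ⟨l.amal, l.pos, l.hb, l.mem, l.sl, l.sr,
        fun i hi => l.crit i (by omega), fun i hi => l.opp i (by omega)⟩).c1.VD
    have h1 : ph p (pCoreOf p (γ 0)) = ⊥ := by_contra fun h1 => by
      have h2 := hmax (ph p _) ((isPGroup_pCoreOf (γ 0)).to_le ((closure_le _).2 ?_)) h1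
        ((e.trans G.range_subtype).ge.trans ((self_le_normalizer_pCoreOf _).trans (norm_ph p _)))
      · have h3 : γ 1 ≤ γ 0 := ((self_le_normalizer_pCoreOf _).trans (norm_ph p _)).trans (by
          rw [ph_eq c', ← ph_eq c.VD, h2, e, G.range_subtype])
        obtain ⟨x, hx⟩ := l.mem 1
        refine l.crit 0 (Nat.zero_le _) ?_
        rw [zero_add, eq_of_le_of_card_ge h3 (by rw [← hx, e, card_cj])]
        exact vv_le _
      · rintro _ (⟨a, ha, b, hb, rfl⟩ | ⟨a, ha, rfl⟩)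
        exacts [comm_mem_cent ha hb, pow_mem ha p]
    exact fun x hx => mem_vv.2 ⟨hx, fun y hy => commutatorElement_eq_one_iff_mul_comm.1
      (h1.le (Subgroup.subset_closure (Or.inl ⟨y, hy, x, hx, rfl⟩))),
      h1.le (Subgroup.subset_closure (Or.inr ⟨x, hx, rfl⟩))⟩
  rw [e, e'] at c
  replace hQ : pCoreOf p (⊤ : Subgroup G) ≤ vv p ⊤ := fun x hx =>
    (mem_V_pull hf).1 (e ▸ hQ (e.symm ▸ (mem_Q_pull hf).2 hx))
  replace c := c.pull hf
  obtain ⟨θ, ψ, hm, hk⟩ := c.data h F hq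
  have hne := hk ▸ h.not_res_le
  have hodd : Odd p := (Fact.out : p.Prime).odd_of_ne_two (by omega)
  haveI : CharP F p := charP_of_card_eq_prime_pow hF
  have h2 : (2 : F) ≠ 0 := fun e => by
    have := Nat.le_of_dvd two_pos ((CharP.cast_eq_zero_iff F p 2).1 e)
    omega
  have h3 : (2 : F) ^ 2 ≠ 1 := fun e => by
    have := Nat.le_of_dvd three_pos ((CharP.cast_eq_zero_iff F p 3).1 (by
      push_cast; linear_combination e))
    omega
  have hon := (h.map_res hm hk.ge).trans (Matrix.SL2.commutator_eq_top h2 h3)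
  have hU := c.res_inf h hm
  have hUV : ⁅vv p (⊤ : Subgroup G), Local.resOf p ⊤⁆ ≤ vv p ⊤ := commutator_le_left _ _
  have hZ {x : G} (h1 : x ∈ ⁅vv p (⊤ : Subgroup G), Local.resOf p ⊤⁆)
      (h2 : x ∈ centralizer ((⊤ : Subgroup G) : Set G)) : x = 1 := by
    obtain ⟨z, -, hz⟩ := hm.onto (-1)
    refine mem_bot.1 (mem_of_sq_mem hodd (vv_pow (hUV h1)) (mem_of_neg (Q := kerOf hm)
      (U := ⁅vv p ⊤, Local.resOf p ⊤⁆) ?_ ?_ (comm_neg_mem hm hz)
      (fun u hu => (neg_mem hm hz (hUV hu)).2) ?_ h2))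
    · exact (commutator_mono hUV hUV).trans (commutator_eq_bot_iff_le_centralizer.2 (vv_ab _)).le
    · exact (commutator_mono hk.le hUV).trans (commutator_eq_bot_iff_le_centralizer.2 (Q_le_cent _)).le
    · exact commutator_mono le_rfl le_top ((comm_res_res _ (vv_le _)).ge h1)
  have hm' := hm.restrict hUV le_normalizer_of_normal (natMod_res hm hne)
  rw [show _ ⊓ _ = ⊥ from le_bot_iff.1 fun x hx => hZ hx.1 hx.2.2] at hm'
  obtain ⟨ε⟩ := nonempty_equiv_qdOver (E := Local.resOf p ⊤) ⟨le_normalizer_of_normal, bot_le, hm'.add,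
    hm'.surj, hm'.ker, fun l _ k _ => hm.mul l (mem_top l) k (mem_top k),
    fun l _ => hm'.act l (mem_top l), fun T => hon.ge (mem_top T)⟩ (commutator_le_right _ _)
    (fun g hg => ⟨fun e => hU.le ⟨hk.le e, hg⟩, fun e => hk.ge (hU.ge e).1⟩) h2
  refine ⟨(Local.resOf p ⊤).map G.subtype, (vv p ⊤ ⊓ centralizer ((⊤ : Subgroup G) : Set G)).map G.subtype,
    ⟨map_subtype_le _, map_subtype_le _, ?_, ?_, ?_⟩, ea_map (ea_mono (vv_ea _) inf_le_left) _,
    ⟨(equivMapOfInjective _ _ hf).symm.trans ε⟩⟩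
  · rintro _ ⟨a, -, rfl⟩ _ ⟨b, hb, rfl⟩
    exact congrArg Subtype.val (hb.2 a (mem_top a))
  · rw [← map_inf _ _ _ hf, Subgroup.map_eq_bot_iff_of_injective _ hf]
    exact le_bot_iff.1 fun x hx => hZ (hU.le ⟨vv_le _ hx.2.1, hx.1⟩) hx.2.2
  · rw [← Subgroup.map_sup]
    refine (congrArg _ (top_le_iff.1 fun x _ => ?_)).trans
      ((MonoidHom.range_eq_map _).symm.trans G.range_subtype)
    obtain ⟨l, hl, e⟩ := hon.ge (mem_top (homT hm x))
    obtain ⟨w, hw, e'⟩ := natMod_res hm hne (l⁻¹ * x) (hQ (hk.le (show homT hm _ = 1 by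
      rw [map_mul, map_inv, e, inv_mul_cancel])))
    rw [← mul_inv_cancel_left l x, ← mul_inv_cancel_left w (l⁻¹ * x)]
    exact mul_mem (mem_sup_left hl) (mul_mem (mem_sup_left (commutator_le_right _ _ hw))
      (mem_sup_right e'))

end Cfsg.Agent.S2766
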