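import Cfsg.Statements.S2772
import Cfsg.Agent.Local.CubicCoset

set_option autoImplicit false
open Cfsg

namespace Cfsg.Agent.S2772
open Subgroup MulAction Cfsg.Lib.Local Cfsg.Lib.Local.Amal
open Cfsg.Lib.Trans hiding IsSylowIn exists_isSylowIn_ge exists_isSylowIn
open Cfsg.Lib.Block (IsSylowIn isSylowIn_map exists_isSylowIn_ge exists_isSylowIn)

theorem mem_of_two_pows {X : Type*} [Group X] {H : Subgroup X} {g : X} {a b : ℕ} (h : a.Coprime b)
    (ha : g ^ a ∈ H) (hb : g ^ b ∈ H) : g ∈ H := by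
  have h1 := Nat.gcd_eq_gcd_ab a b
  rw [h.gcd_eq_one] at h1
  have h2 : g = (g ^ a) ^ Nat.gcdA a b * (g ^ b) ^ Nat.gcdB a b := by
    rw [← zpow_natCast, ← zpow_natCast, ← zpow_mul, ← zpow_mul, ← zpow_add, ← h1]; simp
  rw [h2]
  exact H.mul_mem (H.zpow_mem ha _) (H.zpow_mem hb _)

/-- the product of two transvections of an elementary abelian 2-group has order dividing 24 on it -/
theorem transvection_comm {X : Type*} [Group X] {Z : Subgroup X} (hsq : ∀ x ∈ Z, x * x = 1)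
    {t s : X} (htn : ∀ x ∈ Z, t * x * t⁻¹ ∈ Z) (hsn : ∀ x ∈ Z, s * x * s⁻¹ ∈ Z)
    (ht : ∀ x ∈ Z, ∀ y ∈ Z, t * x ≠ x * t → t * y ≠ y * t → t * (x * y) = x * y * t)
    (hs : ∀ x ∈ Z, ∀ y ∈ Z, s * x ≠ x * s → s * y ≠ y * s → s * (x * y) = x * y * s)
    {q : ℕ} (hq : q.Coprime 6) {z : X} (hz : z ∈ Z) (hd : (t * s) ^ q * z = z * (t * s) ^ q) :
    t * s * z = z * (t * s) := by
  classical
  set d := t * s with hd'
  have hk : ∀ k : ℕ, d ^ k * z * (d ^ k)⁻¹ ∈ Z := by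
    intro k
    induction k with
    | zero => simpa using hz
    | succ k ih =>
      have := htn _ (hsn _ ih)
      rwa [show t * (s * (d ^ k * z * (d ^ k)⁻¹) * s⁻¹) * t⁻¹ = d ^ (k + 1) * z * (d ^ (k + 1))⁻¹ by
        rw [pow_succ']; generalize d ^ k = e; rw [hd']; group] at this
  have key : ∀ {u : X}, (∀ x ∈ Z, ∀ y ∈ Z, u * x ≠ x * u → u * y ≠ y * u → u * (x * y) = x * y * u) →
      ∀ x ∈ Z, ∀ y ∈ Z, (u * x = x * u ↔ u * y = y * u) → u * (x * y) = x * y * u := by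
    intro u hu x hx y hy h
    by_cases h1 : u * x = x * u
    · rw [← mul_assoc, h1, mul_assoc, h.mp h1, mul_assoc]
    · exact hu x hx y hy h1 (fun h2 => h1 (h.mpr h2))
  have main : ∀ i m : ℕ, 0 < m → m ≤ 4 →
      (t * (d ^ i * z * (d ^ i)⁻¹) = (d ^ i * z * (d ^ i)⁻¹) * t ↔
        t * (d ^ (i + m) * z * (d ^ (i + m))⁻¹) = (d ^ (i + m) * z * (d ^ (i + m))⁻¹) * t) →
      (s * (d ^ i * z * (d ^ i)⁻¹) = (d ^ i * z * (d ^ i)⁻¹) * s ↔
        s * (d ^ (i + m) * z * (d ^ (i + m))⁻¹) = (d ^ (i + m) * z * (d ^ (i + m))⁻¹) * s) →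
      d * z = z * d := by
    intro i m m0 m4 h1 h2
    have a1 := key ht _ (hk i) _ (hk (i + m)) h1
    have a2 := key hs _ (hk i) _ (hk (i + m)) h2
    set x := d ^ i * z * (d ^ i)⁻¹ with hx
    set c := x * (d ^ (i + m) * z * (d ^ (i + m))⁻¹) with hc
    have a3 : Commute d c := by
      show t * s * c = c * (t * s)
      rw [mul_assoc, a2, ← mul_assoc, a1, mul_assoc]
    have a4 : d ^ m * x * (d ^ m)⁻¹ = x * c := by
      rw [hc, ← mul_assoc x x, hsq x (hk i), one_mul, hx, add_comm i m, pow_add]; group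
    have a5 : c * c = 1 := hsq c (Z.mul_mem (hk i) (hk _))
    have a6 : d ^ (m + m) * x * (d ^ (m + m))⁻¹ = x := by
      calc d ^ (m + m) * x * (d ^ (m + m))⁻¹ = d ^ m * (d ^ m * x * (d ^ m)⁻¹) * (d ^ m)⁻¹ := by
            rw [pow_add]; group
        _ = d ^ m * (x * c) * (d ^ m)⁻¹ := by rw [a4]
        _ = d ^ m * x * (d ^ m)⁻¹ * (d ^ m * c * (d ^ m)⁻¹) := by group
        _ = x * c * c := by rw [a4, (a3.pow_left m).eq, mul_inv_cancel_right]
        _ = x := by rw [mul_assoc, a5, mul_one]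
    have a7 : d ^ (m + m) ∈ centralizer ({z} : Set X) := by
      rw [mem_centralizer_singleton_iff]
      calc d ^ (m + m) * z = (d ^ i)⁻¹ * (d ^ (m + m) * x * (d ^ (m + m))⁻¹) * d ^ i * d ^ (m + m) := by
            rw [hx]; group
        _ = z * d ^ (m + m) := by rw [a6, hx]; group
    have a8 : q.Coprime (m + m) := by
      have : m + m ∣ 6 ^ 3 := by interval_cases m <;> norm_num
      exact (hq.pow_right 3).coprime_dvd_right this
    exact mem_centralizer_singleton_iff.mp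
      (mem_of_two_pows a8 (mem_centralizer_singleton_iff.mpr hd) a7)
  obtain ⟨i, j, hij, h⟩ := Fintype.exists_ne_map_eq_of_card_lt (fun k : Fin 5 =>
    (decide (t * (d ^ k.1 * z * (d ^ k.1)⁻¹) = (d ^ k.1 * z * (d ^ k.1)⁻¹) * t),
      decide (s * (d ^ k.1 * z * (d ^ k.1)⁻¹) = (d ^ k.1 * z * (d ^ k.1)⁻¹) * s))) (by simp)
  simp only [Prod.mk.injEq, decide_eq_decide] at h
  have hij' : i.1 ≠ j.1 := fun h => hij (Fin.ext h)
  rcases lt_or_gt_of_ne hij' with h1 | h1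
  · obtain ⟨m, hm⟩ := Nat.exists_eq_add_of_le h1.le
    exact main i m (by omega) (by omega) (hm ▸ h.1) (hm ▸ h.2)
  · obtain ⟨m, hm⟩ := Nat.exists_eq_add_of_le h1.le
    exact main j m (by omega) (by omega) (hm ▸ h.1.symm) (hm ▸ h.2.symm)

/-- local consequences of `K / O₂(K)` dihedral of order `2q` -/
structure DihLoc {X : Type*} [Group X] (q : ℕ) (K : Subgroup X) : Prop where
  card : Nat.card K = 2 * q * Nat.card (pCoreOf 2 K)
  rot : ∀ t ∈ K, t * t = 1 → t ∉ pCoreOf 2 K → ∃ g ∈ K, t * (g * t * g⁻¹) ∉ pCoreOf 2 K ∧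
    (t * (g * t * g⁻¹)) ^ q ∈ pCoreOf 2 K
  two : ∀ x ∈ K, ∀ y ∈ K, x * x = 1 → y * y = 1 → x * y = y * x → x ∉ pCoreOf 2 K →
    y ∉ pCoreOf 2 K → x * y ∈ pCoreOf 2 K
  act : ¬ K ≤ centralizer (sylowCenterClosure 2 K : Set X)

theorem DihLoc.cj {X : Type*} [Group X] {q : ℕ} {K : Subgroup X} (h : DihLoc q K) (y : X) :
    DihLoc q (cj y K) := by
  refine ⟨by rw [← cj_pCoreOf', card_cj, card_cj, h.card], fun t ht tt htQ => ?_,
    fun a ha b hb aa bb ab haQ hbQ => ?_, ?_⟩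
  · rw [← cj_pCoreOf'] at htQ ⊢
    rw [mem_cj] at ht htQ
    obtain ⟨g, hg, h1, h2⟩ := h.rot _ ht (by
      rw [show y⁻¹ * t * y * (y⁻¹ * t * y) = y⁻¹ * (t * t) * y by group, tt]; simp) htQ
    refine ⟨y * g * y⁻¹, conj_mem_cj.mpr hg, ?_, ?_⟩
    · rw [mem_cj]
      rwa [show y⁻¹ * (t * (y * g * y⁻¹ * t * (y * g * y⁻¹)⁻¹)) * y =
        y⁻¹ * t * y * (g * (y⁻¹ * t * y) * g⁻¹) by group]
    · rw [mem_cj]
      rwa [show y⁻¹ * t * y * (g * (y⁻¹ * t * y) * g⁻¹) =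
        y⁻¹ * (t * (y * g * y⁻¹ * t * (y * g * y⁻¹)⁻¹)) * y⁻¹⁻¹ by group, conj_pow, inv_inv] at h2
  · rw [← cj_pCoreOf'] at haQ hbQ ⊢
    rw [mem_cj] at ha hb haQ hbQ ⊢
    have := h.two _ ha _ hb
      (by rw [show y⁻¹ * a * y * (y⁻¹ * a * y) = y⁻¹ * (a * a) * y by group, aa]; simp)
      (by rw [show y⁻¹ * b * y * (y⁻¹ * b * y) = y⁻¹ * (b * b) * y by group, bb]; simp)
      (by rw [show y⁻¹ * a * y * (y⁻¹ * b * y) = y⁻¹ * (a * b) * y by group, ab]; group) haQ hbQ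
    rwa [show y⁻¹ * a * y * (y⁻¹ * b * y) = y⁻¹ * (a * b) * y by group] at this
  · rw [← cj_scc, ← cj_centralizer, cj_le_cj]; exact h.act

theorem dihLoc_of {X : Type*} [Group X] {q : ℕ} (hq : q.Prime) (hq2 : q ≠ 2) {K : Subgroup X}
    (hD : Nonempty (K ⧸ pCore 2 K ≃* DihedralGroup q))
    (hact : ¬ K ≤ centralizer (sylowCenterClosure 2 K : Set X)) : DihLoc q K := by
  obtain ⟨e⟩ := hD
  have : Fact q.Prime := ⟨hq⟩
  let φ : K →* DihedralGroup q := e.toMonoidHom.comp (QuotientGroup.mk' _)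
  have hs : Function.Surjective φ := e.surjective.comp (QuotientGroup.mk'_surjective _)
  have hk : ∀ k : K, φ k = 1 ↔ (k : X) ∈ pCoreOf 2 K := by
    intro k
    rw [Lib.Local.MSS.mem_pCoreOf_coe, ← QuotientGroup.eq_one_iff]
    exact e.map_eq_one_iff
  have h2 : (2 : ZMod q) ≠ 0 := by
    intro h
    have : q ∣ 2 := (ZMod.natCast_eq_zero_iff 2 q).mp (by exact_mod_cast h)
    exact hq2 ((Nat.prime_dvd_prime_iff_eq hq Nat.prime_two).mp this)
  have hsr : ∀ t : K, (t : X) * t = 1 → (t : X) ∉ pCoreOf 2 K → ∃ i, φ t = DihedralGroup.sr i := by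
    intro t tt ht
    have h1 : φ t * φ t = 1 := by rw [← map_mul, show t * t = 1 from Subtype.ext tt, map_one]
    rcases h3 : φ t with i | i
    · exfalso
      rw [h3, DihedralGroup.r_mul_r, DihedralGroup.one_def, DihedralGroup.r.injEq, ← two_mul,
        mul_eq_zero] at h1
      apply ht
      rw [← hk, h3, h1.resolve_left h2, DihedralGroup.r_zero]
    · exact ⟨i, rfl⟩
  refine ⟨?_, fun t ht tt htQ => ?_, fun a ha b hb aa bb ab haQ hbQ => ?_, hact⟩
  · rw [pCoreOf, card_map_of_injective K.subtype_injective, ← DihedralGroup.nat_card,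
      ← Nat.card_congr e.toEquiv]
    exact card_eq_card_quotient_mul_card_subgroup _
  · obtain ⟨i, hi⟩ := hsr ⟨t, ht⟩ tt htQ
    obtain ⟨g, hg⟩ := hs (DihedralGroup.r 1)
    have h3 : φ (⟨t, ht⟩ * (g * ⟨t, ht⟩ * g⁻¹)) = DihedralGroup.r (-2) := by
      simp only [map_mul, map_inv, hi, hg, DihedralGroup.inv_r, DihedralGroup.r_mul_sr,
        DihedralGroup.sr_mul_r, DihedralGroup.sr_mul_sr]
      congr 1; ring
    refine ⟨g, g.2, fun h => ?_, ?_⟩
    · have := (hk (⟨t, ht⟩ * (g * ⟨t, ht⟩ * g⁻¹))).mpr h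
      rw [h3, DihedralGroup.one_def, DihedralGroup.r.injEq, neg_eq_zero] at this
      exact h2 this
    · refine (hk ((⟨t, ht⟩ * (g * ⟨t, ht⟩ * g⁻¹)) ^ q)).mp ?_
      rw [map_pow, h3, DihedralGroup.r_pow]
      simp
  · obtain ⟨i, hi⟩ := hsr ⟨a, ha⟩ aa haQ
    obtain ⟨j, hj⟩ := hsr ⟨b, hb⟩ bb hbQ
    have h3 : φ ⟨a, ha⟩ * φ ⟨b, hb⟩ = φ ⟨b, hb⟩ * φ ⟨a, ha⟩ := by
      rw [← map_mul, ← map_mul]; exact congrArg φ (Subtype.ext ab)
    rw [hi, hj, DihedralGroup.sr_mul_sr, DihedralGroup.sr_mul_sr, DihedralGroup.r.injEq] at h3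
    have h4 : j - i = 0 := by
      have : 2 * (j - i) = 0 := by linear_combination h3
      exact (mul_eq_zero.mp this).resolve_left h2
    refine (hk (⟨a, ha⟩ * ⟨b, hb⟩)).mp ?_
    rw [map_mul, hi, hj, DihedralGroup.sr_mul_sr, h4, DihedralGroup.r_zero]

theorem DihLoc.card_sylow {X : Type*} [Group X] {q : ℕ} (hq : q.Prime) (hq2 : q ≠ 2)
    {K : Subgroup X} [Finite K] (h : DihLoc q K) {T : Subgroup X} (hT : IsSylowIn 2 T K) :
    Nat.card K = q * Nat.card T := by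
  have : Fact (Nat.Prime 2) := Nat.fact_prime_two
  have : Finite (pCoreOf 2 K) := finite_of_le (pCoreOf_le' K)
  obtain ⟨k, hk⟩ := IsPGroup.iff_card.mp (Amal.isPGroup_pCoreOf (p := 2) K)
  have h1 : ¬ 2 ∣ q := fun h => hq2 ((Nat.prime_dvd_prime_iff_eq Nat.prime_two hq).mp h).symm
  rw [sylowIn_card_eq hT, h.card, hk, show 2 * q * 2 ^ k = q * 2 ^ (k + 1) by ring,
    Nat.factorization_mul hq.ne_zero (by positivity), Nat.Prime.factorization_pow Nat.prime_two]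
  simp [Nat.factorization_eq_zero_of_not_dvd h1]

theorem eq_of_lt_of_prime {X : Type*} [Group X] {q : ℕ} (hq : q.Prime) {T L K : Subgroup X}
    [Finite K] (hc : Nat.card K = q * Nat.card T) (h1 : T ≤ L) (h2 : L ≤ K) : L = T ∨ L = K := by
  have : Finite T := finite_of_le (h1.trans h2)
  have a1 := Lib.Solv.card_inf_mul_relIndex T K
  rw [inf_eq_left.mpr (h1.trans h2), hc, mul_comm] at a1
  have a2 : T.relIndex K = q := Nat.eq_of_mul_eq_mul_right Nat.card_pos a1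
  have a3 := relIndex_mul_relIndex T L K h1 h2
  rw [a2] at a3
  rcases (Nat.dvd_prime hq).mp (Dvd.intro _ a3) with h | h
  · exact Or.inl (le_antisymm (relIndex_eq_one.mp h) h1)
  · rw [h] at a3
    exact Or.inr (le_antisymm h2 (relIndex_eq_one.mp
      (Nat.eq_of_mul_eq_mul_left hq.pos (a3.trans (mul_one q).symm))))

theorem DihLoc.mem_Q {X : Type*} [Group X] {q : ℕ} (hq : q.Prime) (hq2 : q ≠ 2)
    {K : Subgroup X} [Finite K] (h : DihLoc q K) {g : X} (hg : g ∈ K)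
    (hc : g ∈ centralizer (sylowCenterClosure 2 K : Set X)) : g ∈ pCoreOf 2 K := by
  set N := K ⊓ centralizer (sylowCenterClosure 2 K : Set X) with hN
  have hn : K ≤ normalizer (N : Set X) := Lib.Solv.le_normalizer_inf le_normalizer
    ((le_normalizer_scc K).trans (Lib.Trans.normalizer_le_normalizer_centralizer _))
  have key : ∀ T, IsSylowIn 2 T K → N ≤ T ∨ omZ 2 T ≤ centralizer (K : Set X) := by
    intro T hT
    rcases eq_of_lt_of_prime hq (h.card_sylow hq hq2 hT) (L := T ⊔ N) le_sup_left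
      (sup_le hT.le inf_le_left) with h1 | h1
    · exact Or.inl (le_sup_right.trans h1.le)
    · right
      rw [le_centralizer_iff, ← h1]
      exact sup_le (le_centralizer_iff.mp (omZ_le_centralizer T))
        (inf_le_right.trans (centralizer_le (omZ_le_scc hT)))
  by_cases h1 : ∃ T, IsSylowIn 2 T K ∧ N ≤ T
  · obtain ⟨T, hT, h2⟩ := h1
    exact le_pCoreOf inf_le_left hn (hT.isPGroup.to_le h2) ⟨hg, hc⟩
  · push Not at h1
    exact absurd (le_centralizer_iff.mp (scc_le_iff.mpr fun T hT =>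
      (key T hT).resolve_left (h1 T hT))) h.act

theorem eq_three {X : Type*} [Group X] {q : ℕ} (hq : q.Prime) (hq2 : q ≠ 2) {M₁ M₂ : Subgroup X}
    (h : IsCharPAmalgamPair 2 M₁ M₂) (h1 : DihLoc q M₁) (h2 : DihLoc q M₂) : q = 3 := by
  have : Fact (Nat.Prime 2) := Nat.fact_prime_two
  have hD : ∀ δ : CosetVertex M₁ M₂, DihLoc q (stabilizer X δ) := by
    intro δ
    obtain ⟨x, h3 | h3⟩ := exists_stab_eq δ <;> rw [h3]
    · exact h1.cj x
    · exact h2.cj x
  have hQ : ∀ δ : CosetVertex M₁ M₂, ∀ z ∈ vertexZ 2 δ, ∀ y ∈ vertexQ 2 δ, y * z = z * y :=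
    fun δ z hz y hy => by
      have := stab_finite h δ
      exact scc_le_centralizer_pCoreOf _ hz y hy
  have hcomm : ∀ δ : CosetVertex M₁ M₂, ∀ z ∈ vertexZ 2 δ, ∀ y ∈ vertexZ 2 δ, y * z = z * y :=
    fun δ z hz y hy => hQ δ z hz y (vertexZ_le_vertexQ h δ hy)
  have hsq : ∀ δ : CosetVertex M₁ M₂, ∀ z ∈ vertexZ 2 δ, z * z = 1 := by
    intro δ
    let L : Subgroup X :=
      { carrier := {z | z ∈ vertexZ 2 δ ∧ z * z = 1}
        one_mem' := ⟨one_mem _, mul_one _⟩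
        mul_mem' := fun {x y} hx hy => ⟨mul_mem hx.1 hy.1, by
          calc x * y * (x * y) = x * (y * x) * y := by group
            _ = (x * x) * (y * y) := by rw [hcomm δ x hx.1 y hy.1]; group
            _ = 1 := by rw [hx.2, hy.2, one_mul]⟩
        inv_mem' := fun {x} hx => ⟨inv_mem hx.1, by rw [← mul_inv_rev, hx.2, inv_one]⟩ }
    have : vertexZ 2 δ ≤ L := scc_le_iff.mpr fun T hT z hz =>
      ⟨omZ_le_scc hT hz, by rw [← pow_two]; exact (mem_omZ.mp hz).2.2⟩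
    exact fun z hz => (this hz).2
  obtain ⟨a, b, hc⟩ := exists_isCriticalPair h
  have := stab_finite h a
  have := stab_finite h b
  have l1 : vertexZ 2 a ≤ stabilizer X b := vertexZ_le_stab_of_dist_le h hc.2.le
  have l2 : vertexZ 2 b ≤ stabilizer X a :=
    vertexZ_le_stab_of_dist_le h (by rw [SimpleGraph.dist_comm]; exact hc.2.le)
  obtain ⟨z, z1, z2⟩ := SetLike.not_le_iff_exists.mp hc.1
  have z3 : z ∉ vertexQ 2 b := fun h3 => z2 (vertexQ_le_neighbourKernel h b h3)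
  have : ∃ t ∈ vertexZ 2 b, t * z ≠ z * t := by
    by_contra hcon
    push Not at hcon
    exact z3 ((hD b).mem_Q hq hq2 (l1 z1) hcon)
  obtain ⟨t, t1, t2⟩ := this
  have t3 : t ∉ vertexQ 2 a := fun h3 => t2 (hQ a z z1 t h3)
  obtain ⟨g, hg, g1, g2⟩ := (hD a).rot t (l2 t1) (hsq b t t1) t3
  have hn : ∀ k ∈ stabilizer X a, ∀ x ∈ vertexZ 2 a, k * x * k⁻¹ ∈ vertexZ 2 a :=
    fun k hk x hx => mem_normalizer_conj (le_normalizer_scc _ hk) hx
  have ht : ∀ x ∈ vertexZ 2 a, ∀ y ∈ vertexZ 2 a, t * x ≠ x * t → t * y ≠ y * t →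
      t * (x * y) = x * y * t := by
    intro x hx y hy a1 a2
    exact (hQ b t t1 _ ((hD b).two x (l1 hx) y (l1 hy) (hsq a x hx) (hsq a y hy) (hcomm a y hy x hx)
      (fun h3 => a1 (hQ b t t1 x h3).symm) (fun h3 => a2 (hQ b t t1 y h3).symm))).symm
  have hs0 : g * t * g⁻¹ ∈ stabilizer X a := mul_mem (mul_mem hg (l2 t1)) (inv_mem hg)
  by_contra hq3
  have hcop : q.Coprime 6 := by
    rw [show 6 = 2 * 3 by rfl]
    exact ((Nat.coprime_primes hq Nat.prime_two).mpr hq2).mul_right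
      ((Nat.coprime_primes hq Nat.prime_three).mpr hq3)
  refine g1 ((hD a).mem_Q hq hq2 (mul_mem (l2 t1) hs0) fun w hw => ?_)
  refine (transvection_comm (hsq a) (hn t (l2 t1)) (hn _ hs0) ht ?_ hcop hw (hQ a w hw _ g2)).symm
  intro x hx y hy a1 a2
  have b1 := ht _ (hn _ (inv_mem hg) x hx) _ (hn _ (inv_mem hg) y hy)
    (fun h3 => a1 (by
      calc g * t * g⁻¹ * x = g * (t * (g⁻¹ * x * g⁻¹⁻¹)) * g⁻¹ := by group
        _ = _ := by rw [h3]; group))
    (fun h3 => a2 (by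
      calc g * t * g⁻¹ * y = g * (t * (g⁻¹ * y * g⁻¹⁻¹)) * g⁻¹ := by group
        _ = _ := by rw [h3]; group))
  calc g * t * g⁻¹ * (x * y) = g * (t * (g⁻¹ * x * g⁻¹⁻¹ * (g⁻¹ * y * g⁻¹⁻¹))) * g⁻¹ := by group
    _ = _ := by rw [b1]; group


/-- Sims' Theorem in local form: let H be a finite non-abelian simple group and G a maximal subgroup of H with C_G(O₂(G)) ≤ O₂(G), such that N_H(S) is not contained in G for a Sylow 2-subgroup S of G and G/O₂(G) is dihedral of order 2q for a prime q. Then G is isomorphic to the symmetric group of degree 4 or to its direct product with a group of order 2. -/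
theorem result {H : Type*} [Group H] [Finite H] [IsSimpleGroup H] (hna : ¬ IsMulCommutative H) (G : Subgroup H) (hG : IsCoatom G) (hchar : Subgroup.centralizer (Cfsg.pCore 2 ↥G : Set ↥G) ≤ Cfsg.pCore 2 ↥G) (S : Sylow 2 ↥G) (hN : ¬ Subgroup.normalizer (((S : Subgroup ↥G).map G.subtype : Subgroup H) : Set H) ≤ G) (q : ℕ) (hq : q.Prime) (hD : Nonempty (↥G ⧸ Cfsg.pCore 2 ↥G ≃* DihedralGroup q)) : Nonempty (↥G ≃* Equiv.Perm (Fin 4)) ∨ Nonempty (↥G ≃* Equiv.Perm (Fin 4) × Multiplicative (ZMod 2)) := by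
  have : Fact (Nat.Prime 2) := Nat.fact_prime_two
  set T : Subgroup H := (S : Subgroup G).map G.subtype with hT
  have hTs : IsSylowIn 2 T G := ⟨S, rfl⟩
  obtain ⟨x, hx, hxG⟩ := SetLike.not_le_iff_exists.mp hN
  have hcard : Nat.card (G ⧸ pCore 2 G) = 2 * q := by
    obtain ⟨e⟩ := hD
    rw [Nat.card_congr e.toEquiv, DihedralGroup.nat_card]
  have hcard2 : Nat.card G = 2 * q * Nat.card (pCore 2 G) := by
    rw [← hcard]; exact card_eq_card_quotient_mul_card_subgroup _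
  have hq2 : q ≠ 2 := by
    rintro rfl
    have h1 : IsPGroup 2 G := by
      obtain ⟨k, hk⟩ := IsPGroup.iff_card.mp (Lib.Solv.pCore_isPGroup 2 G)
      exact IsPGroup.of_card (n := k + 2) (by rw [hcard2, hk]; ring)
    have h2 := pCoreOf_eq_self h1
    have h3 : Nat.card (pCoreOf 2 G) = Nat.card (pCore 2 G) :=
      card_map_of_injective G.subtype_injective
    rw [h2, hcard2] at h3
    have : 0 < Nat.card (pCore 2 G) := Nat.card_pos
    omega
  have hnormal : ∀ N : Subgroup H, N ≤ G → G ≤ normalizer (N : Set H) →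
      x ∈ normalizer (N : Set H) → N = ⊥ := by
    intro N h1 h2 h3
    have h4 : normalizer (N : Set H) = ⊤ := hG.2 _ (lt_of_le_of_ne h2 fun h => hxG (h ▸ h3))
    rcases (normalizer_eq_top_iff.mp h4).eq_bot_or_eq_top with h | h
    · exact h
    · exact absurd (top_le_iff.mp (h ▸ h1)) hG.1
  have hxT : cj x T = T := cj_eq_self_iff.mpr hx
  have h2G : 2 ∣ Nat.card G := ⟨q * Nat.card (pCore 2 G), by rw [hcard2]; ring⟩
  have hTne : T ≠ ⊥ := sylowIn_ne_bot hTs h2G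
  have hZ : ¬ G ≤ centralizer (omZ 2 T : Set H) := by
    intro h
    refine omZ_ne_bot hTs.isPGroup hTne (hnormal _ ((omZ_le T).trans hTs.le)
      (h.trans (centralizer_le_normalizer _)) ?_)
    rw [← cj_eq_self_iff, cj_omZ, hxT]
  have hGx : cj x G ≠ G := by
    intro h
    have := hnormal G le_rfl le_normalizer (cj_eq_self_iff.mp h)
    exact hTne (eq_bot_iff.mpr (hTs.le.trans this.le))
  have hL : DihLoc q G := dihLoc_of hq hq2 hD fun h => hZ (h.trans (centralizer_le (omZ_le_scc hTs)))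
  have hTs' : IsSylowIn 2 T (cj x G) := hxT ▸ sylowIn_cj hTs x
  have hnle : ¬ G ≤ cj x G := fun h => hGx (eq_of_le_of_card_ge h (card_cj x G).le).symm
  have hinf : G ⊓ cj x G = T := by
    rcases eq_of_lt_of_prime hq (hL.card_sylow hq hq2 hTs) (le_inf hTs.le hTs'.le) inf_le_left
      with h | h
    · exact h
    · exact absurd (h.ge.trans inf_le_right) hnle
  have hgen : G ⊔ cj x G = ⊤ := by
    refine hG.2 _ (lt_of_le_of_ne le_sup_left fun h => hGx ?_)
    exact eq_of_le_of_card_ge (le_sup_right.trans h.ge) (card_cj x G).ge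
  have hcore : ∀ N : Subgroup H, N ≤ G ⊓ cj x G → N.Normal → N = ⊥ := fun N h1 h2 =>
    hnormal N (h1.trans inf_le_left) le_normalizer_of_normal (le_normalizer_of_normal (mem_top x))
  have c1 := charP_iff.mp hchar
  have c2 : cj x G ⊓ centralizer (pCoreOf 2 (cj x G) : Set H) ≤ pCoreOf 2 (cj x G) := by
    rwa [← cj_pCoreOf', ← cj_centralizer, ← cj_inf, cj_le_cj]
  have hA : IsCharPAmalgamPair 2 G (cj x G) := by
    refine ⟨⟨hgen, hG.1, fun h => hnle (h ▸ le_top), hcore⟩, inferInstance, inferInstance, h2G,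
      by rwa [card_cj], fun P P₁ P₂ => ?_, hchar, charP_iff.mpr c2⟩
    have e1 : Nat.card P = Nat.card T := by
      rw [P.card_eq_multiplicity, hinf]
      exact (sylowIn_card_eq (hTs.of_le le_rfl hTs.le)).symm
    rw [e1, P₁.card_eq_multiplicity, P₂.card_eq_multiplicity, ← sylowIn_card_eq hTs,
      ← sylowIn_card_eq hTs']
    exact ⟨rfl, rfl⟩
  have hq3 := eq_three hq hq2 hA hL (hL.cj x)
  subst hq3
  have s1 : S3Pair G T := ⟨inferInstance, hTs, hL.card⟩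
  have s2 : S3Pair (cj x G) T := hxT ▸ s1.cj x
  have hZ' : ¬ cj x G ≤ centralizer (omZ 2 T : Set H) := by
    rwa [← hxT, ← cj_omZ, ← cj_centralizer, cj_le_cj]
  rcases amalgam_S4 hgen hcore (hinf ▸ s1) (hinf ▸ s2) c1 c2 (hinf ▸ hZ) (hinf ▸ hZ') with
    ⟨h, -⟩ | ⟨⟨e⟩, -⟩
  · exact Or.inl h
  · exact Or.inr ⟨e.trans MulEquiv.prodComm⟩

end Cfsg.Agent.S2772
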