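import Cfsg.Statements.S2773
import Cfsg.Agent.Trans.PushTr4

set_option autoImplicit false
universe u
open Cfsg

namespace Cfsg.Agent.S2773

open Subgroup Cfsg.Lib.Trans Cfsg.Lib.Trans.TJ

/-- For every nontrivial finite 3-group S there is a nontrivial characteristic subgroup K of S such that, in every finite group G containing S as a Sylow 3-subgroup, S ∩ G' is the product of S ∩ (C_G(Z(S)))' and S ∩ (N_G(K))' (derived subgroups; product taken elementwise). -/
theorem result {S : Type u} [Group S] [Finite S] [Nontrivial S] (hS : IsPGroup 3 S) : ∃ K : Subgroup S, K ≠ ⊥ ∧ K.Characteristic ∧ ∀ (G : Type u) [Group G] [Finite G] (τ : S →* G), Function.Injective τ → (∃ P : Sylow 3 G, (P : Subgroup G) = τ.range) → ∀ g : G, g ∈ τ.range ⊓ commutator G ↔ ∃ a ∈ τ.range ⊓ ⁅Subgroup.centralizer ((τ.range ⊓ Subgroup.centralizer (τ.range : Set G) : Subgroup G) : Set G), Subgroup.centralizer ((τ.range ⊓ Subgroup.centralizer (τ.range : Set G) : Subgroup G) : Set G)⁆, ∃ b ∈ τ.range ⊓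 ⁅Subgroup.normalizer ((K.map τ : Subgroup G) : Set G), Subgroup.normalizer ((K.map τ : Subgroup G) : Set G)⁆, g = a * b := by
  haveI : Fact (Nat.Prime 3) := ⟨Nat.prime_three⟩
  refine ⟨kTr 3 S, isCharPFunctor_kTr.1 _ hS inferInstance,
    characteristic_iff_map_eq.2 fun φ => isCharPFunctor_kTr.2 _ _ hS φ, ?_⟩
  rintro G _ _ τ hτ ⟨P, hP⟩ g
  have h1 : IsSylowIn 3 τ.range ⊤ := hP ▸ isSylowIn_top P
  have e : (kTr 3 S).map τ = inducedFunctor (kTr 3) τ.range := by
    rw [inducedFunctor, map_kTr hS hτ, map_kTr h1.isPGroup (subtype_injective _), range_subtype]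
  have hK := le_normalizer.trans (cf_normalizer_le
    (isConjugacyFunctor_induced (G := G) (isCharPFunctor_kTr (p := 3))) h1.isPGroup)
  rw [e]
  refine ⟨fun hg => ?_, ?_⟩
  · obtain ⟨a, ha, b, hb, h⟩ := TJ.mem_sup_of_le_normalizer (fun x hx => mem_normalizer_of_cj_eq (by
      rw [cj_inf, cj_eq_of_mem hx.1, cj_commutator, cj_eq_of_mem (hK hx.1)]))
      (inf_commutator_le_kTr (by decide) h1 hg)
    exact ⟨a, ha, b, hb, h.symm⟩
  · rintro ⟨a, ha, b, hb, rfl⟩
    exact mul_mem (inf_le_inf_left _ (commutator_mono le_top le_top) ha)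
      (inf_le_inf_left _ (commutator_mono le_top le_top) hb)

end Cfsg.Agent.S2773
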