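import Cfsg.Statements.S2774
import Cfsg.Agent.Trans.PushTr4

set_option autoImplicit false
open Cfsg

namespace Cfsg.Agent.S2774

open Subgroup Cfsg.Lib.Trans Cfsg.Lib.Trans.TJ

/-- Let p be an odd prime and S a nontrivial Sylow p-subgroup of a finite group G. Then S ∩ G' is generated by the subgroups S ∩ (N_G(K))' as K ranges over the nontrivial characteristic subgroups of S (derived subgroups of the normalizers). -/
theorem result {G : Type*} [Group G] [Finite G] {p : ℕ} [Fact p.Prime] (hp : p ≠ 2) (S : Sylow p G) (hS : (S : Subgroup G) ≠ ⊥) : (S : Subgroup G) ⊓ commutator G = ⨆ K : {K : Subgroup ↥(S : Subgroup G) // K ≠ ⊥ ∧ K.Characteristic}, (S : Subgroup G) ⊓ ⁅Subgroup.normalizer ((((K : Subgroup ↥(S : Subgroup G))).map (S : Subgroup G).subtype : Subgroup G) : Set G), Subgroup.normalizer ((((K : Subgroup ↥(S : Subgroup G))).map (S : Subgroup G).subtype : Subgroup G) : Set G)⁆ := by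
  refine le_antisymm ?_ (iSup_le fun K => inf_le_inf_left _ (commutator_mono le_top le_top))
  haveI := (nontrivial_iff_ne_bot _).2 hS
  refine (inf_commutator_le_kTr hp (isSylowIn_top S)).trans (sup_le ?_ ?_)
  · refine le_trans ?_ (le_iSup (fun K : {K : Subgroup ↥(S : Subgroup G) // K ≠ ⊥ ∧ K.Characteristic} =>
      (S : Subgroup G) ⊓ ⁅normalizer ((K.1.map (S : Subgroup G).subtype : Subgroup G) : Set G),
        normalizer ((K.1.map (S : Subgroup G).subtype : Subgroup G) : Set G)⁆)
      ⟨center _, isCharPFunctor_cenF.1 _ S.isPGroup' this, inferInstance⟩)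
    rw [← induced_cenF]
    exact inf_le_inf_left _ (commutator_mono (centralizer_le_normalizer _)
      (centralizer_le_normalizer _))
  · exact le_iSup (fun K : {K : Subgroup ↥(S : Subgroup G) // K ≠ ⊥ ∧ K.Characteristic} =>
      (S : Subgroup G) ⊓ ⁅normalizer ((K.1.map (S : Subgroup G).subtype : Subgroup G) : Set G),
        normalizer ((K.1.map (S : Subgroup G).subtype : Subgroup G) : Set G)⁆)
      ⟨kTr p _, isCharPFunctor_kTr.1 _ S.isPGroup' this,
        characteristic_iff_map_eq.2 fun φ => isCharPFunctor_kTr.2 _ _ S.isPGroup' φ⟩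

end Cfsg.Agent.S2774
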