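import Cfsg.Statements.S2779
import Cfsg.Agent.Trans.NatCoord

set_option autoImplicit false
open Cfsg

namespace Cfsg.Agent.S2779

open Cfsg.Lib.Trans Cfsg.Lib.Trans.MP Cfsg.Lib.Trans.PU Cfsg.Lib.Trans.TJ Subgroup
open scoped commutatorElement

/-- Let L act on the elementary abelian p-group V (inside a finite group, by conjugation, faithfully) as SL₂(F) on its natural module, F a field with p^n elements, and let S be a Sylow p-subgroup of L. Then [V, S, S] = 1; |V| = p^(2n) and |C_V(S)| = p^n; and for every nonidentity s ∈ S and every v ∈ V outside C_V(S): C_V(s) = C_V(S) = [V, S] = [V, s] = the subgroup generated by the commutators [v, t], t ∈ S. -/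
theorem result {G : Type*} [Group G] [Finite G] {p : ℕ} [Fact p.Prime] {F : Type*} [Field F] [Fintype F] (n : ℕ) (hF : Fintype.card F = p ^ n) (V L : Subgroup G) (hnat : Cfsg.IsNaturalSL2Module F V L) (hf : L ⊓ Subgroup.centralizer (V : Set G) = ⊥) (S : Sylow p ↥L) (T : Subgroup G) (hT : T = ((S : Subgroup ↥L).map L.subtype)) : ⁅⁅V, T⁆, T⁆ = ⊥ ∧ Nat.card V = p ^ (2 * n) ∧ Nat.card ↥(V ⊓ Subgroup.centralizer ((T : Subgroup G) : Set G)) = p ^ n ∧ ∀ s ∈ T, s ≠ 1 → (V ⊓ Subgroup.centralizer ({s} : Set G)) = (V ⊓ Subgroup.centralizer ((T : Subgroup G) : Set G)) ∧ ⁅V, T⁆ = (V ⊓ Subgroup.centralizer ((T : Subgroup G) : Set G)) ∧ ⁅V, Subgroup.zpowers s⁆ = (V ⊓ Subgroup.centralizer ((T : Subgroup G) : Set G)) ∧ ∀ v ∈ V, v ∉ Subgroup.centralizer (T : Set G) → Subgroup.closure {x : G | ∃ t ∈ T, x = v * t * v⁻¹ * t⁻¹} = (V ⊓ Subgroup.centralizer ((T : Subgroup G) : Set G)) := by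
  obtain ⟨X, θ, ψ, h, hL, hm⟩ := exists_pd hF hnat hf (hT ▸ isSylowIn_map_subtype S)
  have hTL : T ≤ L := hL ▸ le_sup_left
  have inj : ∀ u ∈ V, ∀ v ∈ V, ψ u = ψ v → u = v := fun u hu v hv e =>
    inv_mul_eq_one.1 (mem_bot.1 ((hm.psi_eq_iff hu hv).1 e))
  have hc : ∀ s ∈ T, ∀ v ∈ V, ∀ t, θ s = Cfsg.Lib.Chev.Core.sl2U t → ψ ⁅s, v⁆ = ![t * ψ v 1, 0] :=
    fun s hs v hv t e => by
      rw [hm.psi_comm (hTL hs) hv, e]
      apply vec_ext <;> simp [mv_apply]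
  have h1 : ⁅V, T⁆ ≤ V ⊓ centralizer (T : Set G) := comm_le_iff.2 fun a ha v hv => by
    obtain ⟨t, e⟩ := h.ontoU.1 a ha
    have := hm.comm_mem (hTL ha) hv
    exact ⟨this, (h.centA _ this).2 (by rw [hc a ha v hv t e]; rfl)⟩
  have hV : Nat.card V = p ^ (2 * n) := by
    have := hm.relIndex_eq
    rw [relIndex_bot_left, hF, ← pow_mul, mul_comm] at this
    exact this
  refine ⟨commutator_eq_bot_iff_le_centralizer.2 (h1.trans inf_le_right), hV, ?_, fun s hs hs1 => ?_⟩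
  · have := card_mul_relIndex (inf_le_left : V ⊓ centralizer (T : Set G) ≤ V)
    rw [h.relIndex_A, hV, hF, two_mul, pow_add] at this
    exact Nat.eq_of_mul_eq_mul_right (pow_pos (Fact.out : p.Prime).pos n) this
  obtain ⟨t, e⟩ := h.ontoU.1 s hs
  have ht : t ≠ 0 := fun e' => hs1 (h.inj s (mem_sup_left hs) (by rw [e, e', sl2U_zero]))
  have h2 : V ⊓ centralizer (T : Set G) ≤ ⁅V, zpowers s⁆ := fun u hu => by
    obtain ⟨v, hv, e'⟩ := hm.surj ![0, t⁻¹ * ψ u 0]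
    rw [inj u hu.1 _ (hm.comm_mem (hTL hs) hv) (by
      rw [hc s hs v hv t e, e']
      exact vec_ext (by simp [ht]) ((h.centA u hu.1).1 hu.2))]
    exact comm_mem_comm (mem_zpowers s) hv
  have h3 : ⁅V, zpowers s⁆ ≤ ⁅V, T⁆ := commutator_mono le_rfl (zpowers_le.2 hs)
  refine ⟨le_antisymm (fun u hu => ⟨hu.1, (h.centA u hu.1).2 ?_⟩)
    fun u hu => ⟨hu.1, fun x hx => hu.2 x (hx ▸ hs)⟩, le_antisymm h1 (h2.trans h3),
    le_antisymm (h3.trans h1) h2, fun v hv hvT => le_antisymm ((closure_le _).2 ?_) fun u hu => ?_⟩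
  · have := hc s hs u hu.1 t e
    rw [commutatorElement_eq_one_iff_mul_comm.2 (hu.2 s rfl), hm.psi_one] at this
    simpa [ht] using congrFun this 0
  · rintro _ ⟨r, hr, rfl⟩
    exact h1 (commutator_mem_commutator hv hr)
  · have hv1 : ψ v 1 ≠ 0 := fun e => hvT ((h.centA v hv).2 e)
    obtain ⟨r, hr, e'⟩ := h.ontoU.2 (ψ u 0 * (ψ v 1)⁻¹)
    rw [inj u hu.1 _ (hm.comm_mem (hTL hr) hv) (by
      rw [hc r hr v hv _ e']
      exact vec_ext (by simp [hv1]) ((h.centA u hu.1).1 hu.2)), ← commutatorElement_inv]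
    exact inv_mem (subset_closure ⟨r, hr, rfl⟩)

end Cfsg.Agent.S2779
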