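import Cfsg.Statements.S2780
import Cfsg.Agent.Trans.NatCoord

set_option autoImplicit false
open Cfsg

namespace Cfsg.Agent.S2780

open Cfsg.Lib.Trans Cfsg.Lib.Trans.MP Cfsg.Lib.Trans.PU Cfsg.Lib.Trans.TJ Subgroup Cfsg.Lib.Solv
open scoped commutatorElement

/-- Let L act on the elementary abelian p-group V (inside a finite group, faithfully) as SL₂(F) on its natural module, F a field with p^n elements, S a Sylow p-subgroup of L. Then: for every g ∈ L not normalizing S, V is the internal direct product of C_V(S) and C_V(gSg⁻¹); every nonidentity element of L of order prime to p acts on V without nonidentity fixed points; and C_V(S) and V/C_V(S) are irreducible for N_L(S): the only N_L(S)-invariant subgroups of C_V(S) are 1 and C_V(S), and the only N_L(S)-invariant subgroups between C_V(S) and V are those two. -/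
theorem result {G : Type*} [Group G] [Finite G] {p : ℕ} [Fact p.Prime] {F : Type*} [Field F] [Fintype F] (n : ℕ) (hF : Fintype.card F = p ^ n) (V L : Subgroup G) (hnat : Cfsg.IsNaturalSL2Module F V L) (hf : L ⊓ Subgroup.centralizer (V : Set G) = ⊥) (S : Sylow p ↥L) (T : Subgroup G) (hT : T = ((S : Subgroup ↥L).map L.subtype)) : (∀ g ∈ L, g ∉ Subgroup.normalizer (T : Set G) → Cfsg.IsInternalDirectProduct (V ⊓ Subgroup.centralizer ((T : Subgroup G) : Set G)) (V ⊓ Subgroup.centralizer ((T.map (MulAut.conj g).toMonoidHom : Subgroup G) : Set G)) V) ∧ (∀ x ∈ L, x ≠ 1 → (orderOf x).Coprime p → (V ⊓ Subgroup.centralizer ({x} : Set G)) = ⊥) ∧ (∀ U : Subgroup G, U ≤ (V ⊓ Subgroup.centralizer ((T : Subgroup G) : Set G)) → L ⊓ Subgroup.normalizer (T : Set G) ≤ Subgroup.normalizer (U : Set G) → U = ⊥ ∨ U = (V ⊓ Subgroup.centralizer ((T : Subgroup G) : Set G))) ∧ (∀ U : Subgroup G, (V ⊓ Subgroup.centralizer ((T : Subgroup G)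 : Set G)) ≤ U → U ≤ V → L ⊓ Subgroup.normalizer (T : Set G) ≤ Subgroup.normalizer (U : Set G) → U = (V ⊓ Subgroup.centralizer ((T : Subgroup G) : Set G)) ∨ U = V) := by
  haveI := charP_of_card hF
  obtain ⟨X, θ, ψ, h, hL, hm⟩ := exists_pd hF hnat hf (hT ▸ isSylowIn_map_subtype S)
  have hTL : T ≤ L := hL ▸ le_sup_left
  have inj : ∀ u ∈ V, ∀ v ∈ V, ψ u = ψ v → u = v := fun u hu v hv e =>
    inv_mul_eq_one.1 (mem_bot.1 ((hm.psi_eq_iff hu hv).1 e))
  have ab : ∀ u ∈ V, ∀ v ∈ V, u * v = v * u := fun u hu v hv =>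
    inj _ (V.mul_mem hu hv) _ (V.mul_mem hv hu) (by rw [hm.add u hu v hv, hm.add v hv u hu, add_comm])
  have hN : ∀ g ∈ L, (θ g).1 1 0 = 0 → g ∈ normalizer (T : Set G) := fun g hg e =>
    mem_normalizer_of_cj_le (cj_le_iff.2 fun t ht => by
      obtain ⟨s, e'⟩ := h.ontoU.1 t ht
      have hd := PU.sl2_det (θ g)
      have e2 : θ (g * t * g⁻¹) = θ g * θ t * (θ g)⁻¹ := by
        rw [hm.mul _ (L.mul_mem hg (hTL ht)) _ (L.inv_mem hg), hm.mul _ hg _ (hTL ht), hm.theta_inv hg]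
      refine h.mem_A_of (hL ▸ L.mul_mem (L.mul_mem hg (hTL ht)) (L.inv_mem hg)) ?_ ?_
      · show (θ (g * t * g⁻¹)).1 0 0 = 1
        rw [e2, sl2_mul, sl2_mul, sl2_mul, sl2_inv00, sl2_inv10, e', e]
        rw [e] at hd
        show (_ * 1 + _ * 0) * _ + _ = _
        linear_combination hd
      · show (θ (g * t * g⁻¹)).1 1 0 = 0
        rw [e2, sl2_mul, sl2_mul, sl2_mul, sl2_inv00, sl2_inv10, e', e]
        show (_ * 1 + _ * 0) * _ + _ = _
        ring)
  have hD : ∀ c : Fˣ, ∃ l ∈ L ⊓ normalizer (T : Set G), θ l = sl2D c := fun c => by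
    obtain ⟨l, hl, e⟩ := hm.onto (sl2D c)
    exact ⟨l, ⟨hl, hN l hl (by rw [e]; rfl)⟩, e⟩
  refine ⟨fun g hg hgN => ?_, fun x hx hx1 hxp => eq_bot_iff.2 fun v hv => ?_,
    fun U hU hn => ?_, fun U hU hUV hn => ?_⟩
  · have h0 : (θ g⁻¹).1 1 0 ≠ 0 := fun e => hgN (by simpa using inv_mem (hN _ (L.inv_mem hg) e))
    have k : ∀ v ∈ V, v ∈ centralizer ((cj g T : Subgroup G) : Set G) ↔
        (θ g⁻¹).1 1 0 * ψ v 0 + (θ g⁻¹).1 1 1 * ψ v 1 = 0 := fun v hv => by
      have := hm.act _ (L.inv_mem hg) v hv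
      rw [inv_inv] at this
      rw [mem_cent_cj, h.centA _ (by simpa using hm.conj_mem (L.inv_mem hg) hv), this, mv_apply]
    refine ⟨inf_le_left, inf_le_left, fun a ha b hb => ab a ha.1 b hb.1,
      eq_bot_iff.2 fun v hv => ?_, le_antisymm (sup_le inf_le_left inf_le_left) fun v hv => ?_⟩
    · have h1 := (h.centA v hv.1.1).1 hv.1.2
      have h2 := (k v hv.1.1).1 hv.2.2
      rw [h1, mul_zero, add_zero, mul_eq_zero, or_iff_right h0] at h2
      exact (hm.ker v hv.1.1).1 (vec_ext h2 h1)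
    · obtain ⟨w, hw, e⟩ := hm.surj ![-((θ g⁻¹).1 1 0)⁻¹ * (θ g⁻¹).1 1 1 * ψ v 1, ψ v 1]
      have h1 := V.mul_mem hv (V.inv_mem hw)
      rw [← inv_mul_cancel_right v w]
      refine mul_mem (mem_sup_left ⟨h1, (h.centA _ h1).2 ?_⟩) (mem_sup_right ⟨hw, (k w hw).2 ?_⟩)
      · rw [hm.add v hv _ (V.inv_mem hw), hm.psi_inv hw, e]; simp
      · rw [e]; simp; field_simp; ring
  · by_contra hv1
    obtain ⟨g, hg⟩ := Qd.exists_mulVec_single_eq (fun e => hv1 ((hm.ker v hv.1).1 e))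
    have h1 := hm.act x hx v hv.1
    rw [hv.2 x rfl, mul_inv_cancel_right, ← hg] at h1
    have h2 : (g⁻¹ * θ x * g).1.mulVec ![1, 0] = ![1, 0] := by
      rw [Qd.mul_mulVec, Qd.mul_mulVec, ← h1, ← Qd.mul_mulVec, inv_mul_cancel]; simp
    have h3 := eq_sl2U (T := g⁻¹ * θ x * g) (by simpa [mv_apply] using congrFun h2 0)
      (by simpa [mv_apply] using congrFun h2 1)
    have h4 : (g⁻¹ * θ x * g) ^ p = 1 := by rw [h3, sl2U_pow]; simp [sl2U_zero]
    have h5 : x ^ p = 1 := h.inj _ (hL ▸ L.pow_mem hx p) (by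
      rw [natMod_theta_pow hm hx]
      have : g⁻¹ * θ x * g = g⁻¹ * θ x * g⁻¹⁻¹ := by rw [inv_inv]
      rw [this, conj_pow] at h4
      simpa [mul_eq_one_iff_eq_inv, inv_mul_eq_iff_eq_mul] using h4)
    exact hx1 (orderOf_eq_one_iff.1 (hxp.eq_one_of_dvd (orderOf_dvd_of_pow_eq_one h5)))
  · refine (bot_or_exists_ne_one U).imp id fun ⟨u, hu, hu1⟩ => le_antisymm hU fun w hw => ?_
    have h1 := (h.centA u (hU hu).1).1 (hU hu).2
    have h2 := (h.centA w hw.1).1 hw.2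
    have h3 : ψ u 0 ≠ 0 := fun e => hu1 ((hm.ker u (hU hu).1).1 (vec_ext e h1))
    by_cases h4 : ψ w 0 = 0
    · rw [mem_bot.1 ((hm.ker w hw.1).1 (vec_ext h4 h2))]; exact U.one_mem
    obtain ⟨l, hl, e⟩ := hD (Units.mk0 _ (mul_ne_zero h4 (inv_ne_zero h3)))
    rw [inj w hw.1 _ (hm.conj_mem hl.1 (hU hu).1) (by
      rw [hm.act l hl.1 u (hU hu).1, e]
      apply vec_ext <;> simp [mv_apply, h1, h2, h3])]
    exact mem_normalizer_conj (hn hl) hu
  · refine or_iff_not_imp_left.2 fun h0 => le_antisymm hUV fun w hw => ?_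
    obtain ⟨u, hu, hu1⟩ := SetLike.not_le_iff_exists.1 fun e => h0 (le_antisymm e hU)
    have h3 : ψ u 1 ≠ 0 := fun e => hu1 ⟨hUV hu, (h.centA u (hUV hu)).2 e⟩
    by_cases h4 : ψ w 1 = 0
    · exact hU ⟨hw, (h.centA w hw).2 h4⟩
    obtain ⟨l, hl, e⟩ := hD (Units.mk0 _ (mul_ne_zero h3 (inv_ne_zero h4)))
    have h5 := hm.conj_mem hl.1 (hUV hu)
    have h6 := V.mul_mem hw (V.inv_mem h5)
    rw [← inv_mul_cancel_right w (l * u * l⁻¹)]
    refine mul_mem (hU ⟨h6, (h.centA _ h6).2 ?_⟩) (mem_normalizer_conj (hn hl) hu)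
    rw [hm.add _ hw _ (V.inv_mem h5), hm.psi_inv h5, hm.act l hl.1 u (hUV hu), e]
    simp [mv_apply, h3]

end Cfsg.Agent.S2780
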