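import Cfsg.Statements.S2788
import Cfsg.Agent.Trans.SL2Nat
import Cfsg.Agent.Class.NegOne

set_option autoImplicit false
open Cfsg

open Subgroup Cfsg.Lib Cfsg.Lib.Solv Cfsg.Lib.LG4 Cfsg.Lib.Trans.SL2Nat

namespace Cfsg.Agent.S2788

/-- Let H act faithfully by conjugation on the elementary abelian p-subgroup V of a finite group with H ≅ SL₂(F), F a field with p^n elements, S a Sylow p-subgroup of H, and A ≤ S a subgroup of order at least 3 acting quadratically on V ([V, A, A] = 1). Then |V/C_V(a)| ≥ p^n for every nonidentity a ∈ A. -/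
theorem result {G : Type*} [Group G] [Finite G] {p : ℕ} [Fact p.Prime] (V H : Subgroup G) (hV : Cfsg.IsElementaryAbelian p V) (hHV : H ≤ Subgroup.normalizer (V : Set G)) (hf : H ⊓ Subgroup.centralizer (V : Set G) = ⊥) {F : Type*} [Field F] [Fintype F] (n : ℕ) (hF : Fintype.card F = p ^ n) (hiso : Nonempty (↥H ≃* Matrix.SpecialLinearGroup (Fin 2) F)) (S : Sylow p ↥H) (T : Subgroup G) (hT : T = ((S : Subgroup ↥H).map H.subtype)) (A : Subgroup G) (hA : A ≤ T) (hA3 : 3 ≤ Nat.card A) (hquad : ⁅⁅V, A⁆, A⁆ = ⊥) : ∀ a ∈ A, a ≠ 1 → p ^ n ≤ ((V ⊓ Subgroup.centralizer ({a} : Set G))).relIndex V := by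
  intro a ha h1
  have hp := (Fact.out : p.Prime)
  have := charP_of_card_eq_prime_pow hF
  have hVp : IsPGroup p V := fun x => ⟨1, Subtype.ext (by simpa using hV.2 x x.2)⟩
  obtain ⟨e, he⟩ := exists_equiv hiso.some S
  obtain ⟨s, hs, rfl⟩ := hT ▸ hA ha
  obtain ⟨b, hb⟩ := (he s).1 hs
  have hb0 : b ≠ 0 := by
    rintro rfl
    exact h1 (by rw [e.map_eq_one_iff.1 (hb.symm.trans Class.slU_zero), map_one])
  have hθ : Function.Injective (conjAutOf V H hHV) := (MonoidHom.ker_eq_bot_iff _).1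
    (eq_bot_iff.2 fun x hx => Subtype.ext (hf.le ⟨x.2, (mem_ker_conjAutOf hHV).1 hx⟩))
  have hn : n ≠ 0 := by
    rintro rfl
    exact Fintype.one_lt_card.ne' hF
  by_cases h2 : n = 1
  · rw [h2, pow_one, coe_subtype, relIndex_cent hHV]
    obtain ⟨j, hj⟩ := hVp.index (fxA (conjAutOf V H hHV s))
    rw [hj]
    refine Nat.le_self_pow (fun h => h1 ?_) p
    rw [h, pow_zero, index_eq_one] at hj
    rw [hθ (a₁ := s) (a₂ := 1) (MulEquiv.ext fun v => by simpa using mem_fxA.1 (hj.ge (mem_top v))),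
      map_one]
  refine (Nat.pow_le_pow_iff_left two_ne_zero).1 ?_
  by_cases h3 : p = 2 ∧ n = 3
  · obtain ⟨rfl, rfl⟩ := h3
    obtain ⟨x, h4, h5⟩ := exists_nine hF hb0
    obtain ⟨x, rfl⟩ := e.surjective x
    rw [hb, ← map_inv, ← map_mul, ← map_mul, ← map_mul, ← map_pow] at h4 h5
    rw [coe_subtype, relIndex_cent hHV]
    refine (le_index_nine hVp (φ := conjAutOf V H hHV (s * (x * s * x⁻¹))) ?_ fun h => h5 ?_).trans ?_
    · rw [← map_pow, e.map_eq_one_iff.1 h4, map_one]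
    · rw [hθ (a₁ := _ ^ 3) (a₂ := 1) (by rw [map_pow, h, map_one]), map_one]
    · rw [map_mul, map_mul, map_mul, map_inv, sq]
      exact (index_fxA_mul _ _).trans (by rw [index_fxA_conj])
  obtain ⟨l, hl, h4⟩ := Class.zsigmondy hp.one_lt (n := n * 2) (by omega) (by omega) (by omega)
  have := Fact.mk hl
  have hlp : l ≠ p := by
    rintro rfl
    rw [ZMod.natCast_self, orderOf_eq_zero_iff'.2 fun n hn => by
      rw [zero_pow hn.ne']; exact zero_ne_one] at h4
    omega
  have hl2 : l ≠ 2 := by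
    rintro rfl
    have := orderOf_le_card_univ (x := (p : ZMod 2))
    rw [h4, ZMod.card] at this
    omega
  rw [← pow_mul, ← h4]
  refine (bound_three hVp hHV hf ((QuotientGroup.mk' (center _)).comp e.toMonoidHom)
    ((QuotientGroup.mk'_surjective _).comp e.surjective) hl hlp s).1 ?_
  obtain ⟨x, hx⟩ := psl2_two hl hl2 (F := F) (by
    rw [Class.card_SL_fin_two hF, ← pow_mul]
    refine Dvd.dvd.mul_left ((ZMod.natCast_eq_zero_iff _ _).1 ?_) _
    rw [Nat.cast_sub (Nat.one_le_pow _ _ hp.pos), Nat.cast_pow, ← h4, pow_orderOf_eq_one]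
    simp) hb0
  exact ⟨QuotientGroup.mk x, by simpa [← hb] using hx⟩

end Cfsg.Agent.S2788
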