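import Cfsg.Statements.S2792
import Cfsg.Agent.Trans.HallWielandt

set_option autoImplicit false
open Cfsg

namespace Cfsg.Agent.S2792

open Cfsg.Lib.Trans Subgroup


/-- Let S be a Sylow p-subgroup of the finite group G and W a subgroup of S weakly closed in S with respect to G. If S ∩ G' ≠ S ∩ (N_G(W))', then there are x ∈ S, z ∈ W and a maximal subgroup W₀ of W such that the iterated commutator [x, z; p−1] (with [x, z] = x⁻¹z⁻¹xz and [x, z; i+1] = [[x, z; i], z]) lies in W₀ but not in the Frattini subgroup of W₀; in particular [x, z; p−1] ≠ 1. -/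
theorem result {G : Type*} [Group G] [Finite G] {p : ℕ} [Fact p.Prime] (S : Sylow p G) (W : Subgroup G) (hW : Cfsg.IsWeaklyClosed W (S : Subgroup G)) (h : (S : Subgroup G) ⊓ commutator G ≠ (S : Subgroup G) ⊓ ⁅Subgroup.normalizer (W : Set G), Subgroup.normalizer (W : Set G)⁆) : ∃ x ∈ (S : Subgroup G), ∃ z ∈ W, ∃ W₀ : Subgroup ↥W, IsCoatom W₀ ∧ (fun y : G => y⁻¹ * z⁻¹ * y * z)^[p - 1] x ∈ W₀.map W.subtype ∧ (fun y : G => y⁻¹ * z⁻¹ * y * z)^[p - 1] x ∉ ((frattini ↥W₀).map W₀.subtype).map W.subtype := by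
  have hSN := IsWeaklyClosed.le_normalizer' hW
  obtain ⟨x, hx, T, hT1, hT2, hT3, hxT, z, hz, hzT, χ, h1⟩ := exists_hom_iterate_ne_one S hW
    (fun e => h (inf_commutator_eq_of_subgroupOf_eq S hSN e))
  have hxW : x ∈ normalizer (W : Set G) := hSN hx
  have hp : p.Prime := Fact.out
  have hi : (T.subgroupOf W).index = p := by
    have e : T ⊔ W = W ⊔ zpowers x :=
      le_antisymm (sup_le hT1 le_sup_left) (sup_le le_sup_right
        ((zpowers_le.mpr hxT).trans le_sup_left))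
    rw [← hT3, ← e, Cfsg.Lib.Solv.PG.relIndex_sup_of_le_normalizer (le_sup_left.trans hT2)]
    rfl
  set y := (fun y : G => y⁻¹ * z⁻¹ * y * z)^[p - 1] x with hy
  have hyT : y ∈ T := by
    by_contra hn
    exact h1 (extOne_of_not_mem χ hn)
  have hyW : y ∈ W := by
    have key : ∀ n, (fun y : G => y⁻¹ * z⁻¹ * y * z)^[n + 1] x ∈ W := by
      intro n
      induction n with
      | zero =>
        exact mul_mem (mem_normalizer_conj' hxW (inv_mem hz)) hz
      | succ n ih =>
        rw [Function.iterate_succ_apply']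
        exact mul_mem (mul_mem (mul_mem (inv_mem ih) (inv_mem hz)) ih) hz
    have := key (p - 2)
    rwa [show p - 2 + 1 = p - 1 by have := hp.two_le; omega] at this
  refine ⟨x, hx, z, hz, T.subgroupOf W, Cfsg.Lib.Solv.PG.isCoatom_of_index_prime (hi ▸ hp),
    ⟨⟨y, hyW⟩, hyT, rfl⟩, ?_⟩
  rintro ⟨_, ⟨w, hw, rfl⟩, e⟩
  let ψ : T.subgroupOf W →* Multiplicative (ZMod p) := χ.comp (W.subtype.subgroupComap T)
  have : Cfsg.Lib.Solv.ElemAb p (Multiplicative (ZMod p)) :=
    ⟨mul_comm, fun a => by simpa using pow_card_eq_one' (x := a)⟩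
  have h2 : ψ w = 1 := Cfsg.Lib.Solv.frattini_le_ker_of_elemAb p ψ hw
  apply h1
  rw [extOne_of_mem χ hyT, ← h2]
  exact congrArg χ (Subtype.ext e.symm)

end Cfsg.Agent.S2792
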