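import Cfsg.Statements.S2856
import Cfsg.Agent.Local.AmalgamVIter

set_option autoImplicit false
open Cfsg

namespace Cfsg.Agent.S2856
open scoped commutatorElement
open Cfsg.Lib Cfsg.Lib.Local Cfsg.Lib.Local.Amal MulAction
open Cfsg.Lib.Trans hiding IsSylowIn exists_isSylowIn_ge exists_isSylowIn

/-- Let (M₁, M₂) be an amalgam pair in X satisfying the rank-two standing hypothesis (characteristic p, the normalizers in M₁ and in M₂ of a Sylow p-subgroup of M₁ ∩ M₂ equal and contained in M₁ ∩ M₂, and strongly p-embedded residues), λ a vertex of the coset graph, L_λ the subgroup of its stabilizer generated by the p-elements, Q_λ = O_p of the stabilizer, O^p(L_λ) the subgroup of L_λ generated by its elements of order prime to p, and V_λ^{(k)} the subgroup generated by the Z_μ over the vertices μ at distance at most k from λ (Z_μ being generated by the Ω₁(Z(S)), S a Sylow p-subgroup of the stabilizer of μ). If n ≥ 1 and V_λ^{(n)} ≤ Q_λ, then O^p(L_λ) does not centralize V_λ^{(n)}/[V_λ^{(n)},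 Q_λ], that is, [V_λ^{(n)}, O^p(L_λ)] is not contained in [V_λ^{(n)}, Q_λ]. -/
theorem result {X : Type*} [Group X] {p : ℕ} [Fact p.Prime] (M₁ M₂ : Subgroup X) (h : Cfsg.IsSpeAmalgamPair p M₁ M₂) (lam : Cfsg.CosetVertex M₁ M₂) (n : ℕ) (hn : 1 ≤ n) (V : Subgroup X) (hV : V = Cfsg.vertexVIter p M₁ M₂ n lam) (hVQ : V ≤ Cfsg.vertexQ p lam) : ¬ ⁅V, ((Cfsg.pResidual p ↥(Cfsg.pElementClosure p (MulAction.stabilizer X lam))).map (Cfsg.pElementClosure p (MulAction.stabilizer X lam)).subtype)⁆ ≤ ⁅V, Cfsg.vertexQ p lam⁆ := by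
  intro hcon
  have := stab_finite h.1 lam
  have hgen := h.1.1.1
  obtain ⟨m, rfl⟩ : ∃ m, n = m + 1 := ⟨n - 1, by omega⟩
  obtain ⟨μ, hμ⟩ := cosetGraph_exists_adj lam
  set O := (pResidual p ↥(pElementClosure p (stabilizer X lam))).map
      (pElementClosure p (stabilizer X lam)).subtype with hO
  set U := vertexVIter p M₁ M₂ m μ with hU
  have hUV : U ≤ V := hV ▸ vIter_le_succ hgen m hμ
  have hQμ : vertexQ p lam ≤ stabilizer X μ :=
    (vertexQ_le_neighbourKernel h.1 lam).trans (neighbourKernel_le_of_adj hμ)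
  have h1 : V ≤ U ⊔ ⁅V, vertexQ p lam⁆ := by
    conv_lhs => rw [hV]
    apply vIter_succ_le h.1
    intro ν hν
    obtain ⟨g, hg, -, rfl⟩ := locTrans_pResidual h lam μ ν hμ hν
    rw [vIter_smul hgen, cj_le_iff]
    intro u hu
    have h2 : g * u * g⁻¹ = u * ⁅u⁻¹, g⁆ := by rw [commutatorElement_def]; group
    rw [h2]
    exact Subgroup.mul_mem_sup hu (hcon (Subgroup.commutator_mem_commutator
      (V.inv_mem (hUV hu)) hg))
  have hfin : Finite (vertexQ p lam) := finite_of_le (pCoreOf_le' _)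
  have h2 : V ≤ U := le_of_le_sup_commutator (Amal.isPGroup_pCoreOf _) (hUV.trans hVQ) hVQ
    (hQμ.trans (stab_le_normalizer_vIter hgen m μ)) h1
  have h3 : V = U := le_antisymm h2 hUV
  apply vIter_ne_bot h.1 m μ
  refine amalgam_eq_bot_of_locTrans h.1.1 hμ
    (hUV.trans (hVQ.trans (le_inf (pCoreOf_le' _) hQμ))) le_rfl ?_ ?_
  · refine (cosetGraph_locTrans lam).mono ?_
    rw [← hU, ← h3, hV]
    exact stab_le_normalizer_vIter hgen _ _
  · exact (cosetGraph_locTrans μ).mono (stab_le_normalizer_vIter hgen _ _)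

end Cfsg.Agent.S2856
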