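import Cfsg.Statements.S2857
import Cfsg.Agent.Local.AmalgamVIter

set_option autoImplicit false
open Cfsg

namespace Cfsg.Agent.S2857
open Cfsg.Lib Cfsg.Lib.Local Cfsg.Lib.Local.Amal MulAction
open Cfsg.Lib.Trans hiding IsSylowIn exists_isSylowIn_ge exists_isSylowIn

/-- Let (M₁, M₂) be an amalgam pair in X satisfying the rank-two standing hypothesis (characteristic p, the normalizers in M₁ and in M₂ of a Sylow p-subgroup of M₁ ∩ M₂ equal and contained in M₁ ∩ M₂, and strongly p-embedded residues), λ a vertex of the coset graph, L_λ the subgroup of its stabilizer generated by the p-elements, Q_λ = O_p of the stabilizer, O^p(L_λ) the subgroup of L_λ generated by its elements of order prime to p, and V_λ^{(k)} the subgroup generated by the Z_μ over the vertices μ at distance at most k from λ (Z_μ being generated by the Ω₁(Z(S)), S a Sylow p-subgroup of the stabilizer of μ). If n ≥ 2 and V_λ^{(n)} ≤ Q_λ, then O^p(L_λ) does not centralize V_λ^{(n)}/V_λ^{(n-2)},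 that is, [V_λ^{(n)}, O^p(L_λ)] is not contained in V_λ^{(n-2)}. -/
theorem result {X : Type*} [Group X] {p : ℕ} [Fact p.Prime] (M₁ M₂ : Subgroup X) (h : Cfsg.IsSpeAmalgamPair p M₁ M₂) (lam : Cfsg.CosetVertex M₁ M₂) (n : ℕ) (hn : 2 ≤ n) (hVQ : Cfsg.vertexVIter p M₁ M₂ n lam ≤ Cfsg.vertexQ p lam) : ¬ ⁅Cfsg.vertexVIter p M₁ M₂ n lam, ((Cfsg.pResidual p ↥(Cfsg.pElementClosure p (MulAction.stabilizer X lam))).map (Cfsg.pElementClosure p (MulAction.stabilizer X lam)).subtype)⁆ ≤ Cfsg.vertexVIter p M₁ M₂ (n - 2) lam := by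
  intro hcon
  have := stab_finite h.1 lam
  have hgen := h.1.1.1
  obtain ⟨m, rfl⟩ : ∃ m, n = m + 2 := ⟨n - 2, by omega⟩
  rw [Nat.add_sub_cancel] at hcon
  obtain ⟨μ, hμ⟩ := cosetGraph_exists_adj lam
  have hUV : vertexVIter p M₁ M₂ (m + 1) μ ≤ vertexVIter p M₁ M₂ (m + 2) lam :=
    vIter_le_succ hgen _ hμ
  have hWU : vertexVIter p M₁ M₂ m lam ≤ vertexVIter p M₁ M₂ (m + 1) μ :=
    vIter_le_succ hgen _ hμ.symm
  have hQμ : vertexQ p lam ≤ stabilizer X μ :=
    (vertexQ_le_neighbourKernel h.1 lam).trans (neighbourKernel_le_of_adj hμ)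
  apply vIter_ne_bot h.1 (m + 1) μ
  refine amalgam_eq_bot_of_locTrans h.1.1 hμ
    (hUV.trans (hVQ.trans (le_inf (pCoreOf_le' _) hQμ))) le_rfl ?_ ?_
  · refine (locTrans_pResidual h lam).mono ?_
    rw [Solv.le_normalizer_iff_commutator_le]
    exact (Subgroup.commutator_mono hUV le_rfl).trans (hcon.trans hWU)
  · exact (cosetGraph_locTrans μ).mono (stab_le_normalizer_vIter hgen _ _)

end Cfsg.Agent.S2857
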