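import Cfsg.Statements.S3084
import Cfsg.Agent.Solv.QExt
import Cfsg.Agent.Solv.Griess

set_option autoImplicit false
open Cfsg

namespace Cfsg.Agent.S3084

open Cfsg.Lib.QExt Cfsg.Lib.QExt.QE in
theorem hyp {U : Type*} [AddCommGroup U] [Module (ZMod 2) U] [Module.Finite (ZMod 2) U]
    {β : LinearMap.BilinForm (ZMod 2) U} (h : ND β) : Lib.Griess.Hyp (⟨0, 1⟩ : QE β) where
  ne_one e := absurd (show (1 : ZMod 2) = 0 from congrArg QE.c e) (by decide)
  mul_self := by rw [mul_self_eq]; ext <;> simp
  comm x := (Subgroup.mem_center_iff.1 (mem_center_of_u rfl) x).symm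
  conj x h1 h2 := by
    have hx : x.u ≠ 0 := by
      intro h0
      rcases z2_cases x.c with hc | hc
      · exact h1 (QE.ext h0 hc)
      · exact h2 (QE.ext h0 hc)
    obtain ⟨v, hv⟩ : ∃ v, β x.u v + β v x.u ≠ 0 := by
      by_contra hc
      push Not at hc
      exact hx (h _ hc)
    refine ⟨(⟨v, 0⟩ : QE β)⁻¹, ?_⟩
    rw [inv_inv, conj_eq]
    ext
    · simp
    · have := (z2_cases _).resolve_left hv
      simp only [mul_c, map_zero, LinearMap.zero_apply]
      linear_combination this
  card := by
    haveI : Finite U := Module.finite_of_finite (ZMod 2)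
    obtain ⟨k, hk⟩ := IsPGroup.iff_card.1 h.isPre.isPGroup
    rw [hk]
    intro h3
    exact absurd (Nat.prime_three.dvd_of_dvd_pow h3) (by norm_num)
  aut α := by
    obtain ⟨x, hx⟩ := h.exists_conj_on α
    refine ⟨x, fun a ha => ?_⟩
    have h1 : (α a).u = a.u := by rw [ha, conj_eq]; simp
    rw [hx a h1, right_eq_mul] at ha
    exact absurd (show (1 : ZMod 2) = 0 from congrArg QE.c ha) (by decide)

/-- Let K be a group acting faithfully and linearly on a finite-dimensional vector space U of dimension 2n ≥ 2 over the field with two elements, preserving a quadratic form q whose polar bilinear form is non-degenerate and which vanishes on some n-dimensional subspace (a non-singular form of plus type). Then there is a finite group R with a normal extraspecial 2-subgroup Q of order 2^(2n+1), an isomorphism of R/Q with K, and a surjective homomorphism χ from Q onto (the additive group of) U with kernel the centre of Q, such that χ carries conjugation by any r in R to the action of the image of r in K,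 and an element a of Q squares to the identity exactly when q vanishes at χ(a). -/
theorem result {K : Type*} [Group K] {U : Type*} [AddCommGroup U] [Module (ZMod 2) U] [Module.Finite (ZMod 2) U] (n : ℕ) (hn1 : 1 ≤ n) (hn : Module.finrank (ZMod 2) U = 2 * n) (ρ : Representation (ZMod 2) K U) (hρ : Function.Injective ρ) (q : QuadraticForm (ZMod 2) U) (hq : ∀ (k : K) (u : U), q (ρ k u) = q u) (hnd : (QuadraticMap.polarBilin q).Nondegenerate) (hplus : ∃ W : Submodule (ZMod 2) U, Module.finrank (ZMod 2) ↥W = n ∧ ∀ w ∈ W, q w = 0) : ∃ (R : Type) (_ : Group R) (_ : Finite R) (Q : Subgroup R) (hN : Q.Normal) (e : R ⧸ Q ≃* K) (χ : ↥Q →* Multiplicative U), Cfsg.IsExtraspecial 2 ↥Q ∧ Nat.card ↥Q = 2 ^ (2 * n + 1) ∧ Function.Surjective χ ∧ χ.ker = Subgroup.center ↥Q ∧ (∀ (r : R) (a : ↥Q), χ ⟨r * a * r⁻¹, hN.conj_mem (a : R) a.2 r⟩ = Multiplicative.ofAdd (ρ (e (r : R ⧸ Q)) (Multiplicative.toAdd (χ a)))) ∧ ∀ a : ↥Q, a * a = 1 ↔ q (Multiplicative.toAdd (χ a)) = 0 := by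
  classical
  let b : U ≃ₗ[ZMod 2] (Fin (2 * n) → ZMod 2) := (Module.finBasisOfFinrankEq _ _ hn).equivFun
  obtain ⟨β₀, hβ₀⟩ := LinearMap.BilinMap.toQuadraticMap_surjective q
  let β : LinearMap.BilinForm (ZMod 2) (Fin (2 * n) → ZMod 2) :=
    LinearMap.BilinForm.comp β₀ b.symm.toLinearMap b.symm.toLinearMap
  have hβ : ∀ u, β u u = q (b.symm u) := fun u => by rw [← hβ₀]; rfl
  have h : Lib.QExt.ND β := by
    intro u hu
    apply b.symm.injective
    rw [map_zero]
    refine hnd.1 _ fun v => ?_
    rw [← hβ₀, LinearMap.BilinMap.polarBilin_toQuadraticMap]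
    have := hu (b v)
    simpa [β] using this
  haveI : Nonempty (Fin (2 * n)) := ⟨⟨0, by omega⟩⟩
  obtain ⟨N, _, _, ι, π, hι, hπ, hπι, hconj, hker⟩ := Lib.Griess.exists_extension (hyp h)
  -- the action of `K` on the coordinate space
  let σ : K →* Module.End (ZMod 2) (Fin (2 * n) → ZMod 2) := b.conjRingEquiv.toMonoidHom.comp ρ
  have hσ : ∀ k u, σ k u = b (ρ k (b.symm u)) := fun k u => rfl
  have hσi : Function.Injective σ := b.conjRingEquiv.injective.comp hρ
  let R : Subgroup N := (σ.toHomUnits.range).comap ((h.linHom.comp π).toHomUnits)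
  have hσi' : Function.Injective σ.toHomUnits := fun k k' e => hσi (congrArg Units.val e)
  let θ : R →* K := (MonoidHom.ofInjective hσi').symm.toMonoidHom.comp
    ((h.linHom.comp π).toHomUnits.subgroupComap _)
  have hθ : ∀ r : R, σ (θ r) = h.linHom (π r) := fun r =>
    congrArg Units.val (MonoidHom.apply_ofInjective_symm hσi' _)
  have hθs : Function.Surjective θ := by
    intro k
    obtain ⟨α, hα⟩ := h.exists_lift (LinearMap.GeneralLinearGroup.toLinearEquiv (σ.toHomUnits k))
      fun u => by
        rw [hβ, hβ]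
        change q (b.symm (σ k u)) = _
        rw [hσ, b.symm_apply_apply, hq]
    obtain ⟨x, rfl⟩ := hπ α
    have e : σ k = h.linHom (π x) := LinearMap.ext fun u => (hα u).symm
    exact ⟨⟨x, k, Units.ext e⟩, hσi ((hθ _).trans e.symm)⟩
  let ι' : Lib.QExt.QE β →* R := ι.codRestrict R fun a => ⟨1, Units.ext (by
    change σ 1 = h.linHom (π (ι a))
    rw [map_one, hπι, h.linHom_conj])⟩
  have hι' : Function.Injective ι' := fun a a' e => hι (congrArg Subtype.val e)
  have hrange : ι'.range = θ.ker := by
    ext r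
    rw [MonoidHom.mem_ker]
    constructor
    · rintro ⟨a, rfl⟩
      apply hσi
      rw [hθ, map_one]
      change h.linHom (π (ι a)) = 1
      rw [hπι, h.linHom_conj]
    · intro hr
      have h1 := hθ r
      rw [hr, map_one] at h1
      obtain ⟨x, hx⟩ := h.exists_conj h1.symm
      obtain ⟨a, ha⟩ := hker ((ι x)⁻¹ * r) (by rw [map_mul, map_inv, hπι, hx, inv_mul_cancel])
      refine ⟨x * a, Subtype.ext ?_⟩
      change ι (x * a) = r
      rw [map_mul, ha, mul_inv_cancel_left]
  haveI hN : ι'.range.Normal := by rw [hrange]; infer_instance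
  let ε : Lib.QExt.QE β ≃* ι'.range := MonoidHom.ofInjective hι'
  let χ : ι'.range →* Multiplicative U :=
    (AddMonoidHom.toMultiplicative b.symm.toLinearMap.toAddMonoidHom).comp
      ((Lib.QExt.QE.chi β).comp ε.symm.toMonoidHom)
  have hχ : ∀ a, χ (ε a) = Multiplicative.ofAdd (b.symm a.u) := fun a => by
    simp only [χ, MonoidHom.comp_apply, MulEquiv.coe_toMonoidHom, MulEquiv.symm_apply_apply]
    rfl
  have hZ : ∀ a, ε a ∈ Subgroup.center ι'.range ↔ a ∈ Subgroup.center (Lib.QExt.QE β) := fun a => by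
    simp only [Subgroup.mem_center_iff]
    constructor
    · intro hc g
      apply ε.injective
      rw [map_mul, map_mul, hc]
    · intro hc g
      obtain ⟨g, rfl⟩ := ε.surjective g
      rw [← map_mul, ← map_mul, hc]
  have hcard : Nat.card ι'.range = 2 ^ (2 * n + 1) := by
    rw [← Nat.card_congr ε.toEquiv, Lib.QExt.QE.card_eq, Nat.card_fun]
    simp [pow_succ]
  refine ⟨R, inferInstance, inferInstance, ι'.range, hN,
    (QuotientGroup.quotientMulEquivOfEq hrange).trans
      (QuotientGroup.quotientKerEquivOfSurjective θ hθs), χ, ?_, hcard, ?_, ?_, ?_, ?_⟩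
  · have hP : Lib.Trans.ES.IsPre 2 ι'.range := by
      refine ⟨?_, fun x y => ?_⟩
      · exact (Nat.card_congr (Subgroup.centerCongr ε).toEquiv).symm.trans h.isPre.card_center
      · obtain ⟨x, rfl⟩ := ε.surjective x
        obtain ⟨y, rfl⟩ := ε.surjective y
        rw [← map_commutatorElement, hZ]
        exact h.isPre.classTwo x y
    refine hP.isExtraspecial fun ht => ?_
    have := hP.card_eq_of_center_eq_top ht
    rw [hcard] at this
    have h2 := Nat.pow_right_injective (le_refl 2) (this.trans (pow_one 2).symm)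
    omega
  · intro u
    exact ⟨ε ⟨b u.toAdd, 0⟩, by rw [hχ]; simp⟩
  · ext a
    obtain ⟨a, rfl⟩ := ε.surjective a
    rw [MonoidHom.mem_ker, hχ, hZ, h.mem_center_iff]
    simp
  · intro r a
    obtain ⟨a, rfl⟩ := ε.surjective a
    have e1 : (⟨r * ε a * r⁻¹, hN.conj_mem _ (ε a).2 r⟩ : ι'.range) = ε (π r a) :=
      Subtype.ext (Subtype.ext (hconj r a))
    rw [e1, hχ, hχ, ← h.linHom_apply, ← hθ, hσ, b.symm_apply_apply]
    rfl
  · intro a
    obtain ⟨a, rfl⟩ := ε.surjective a
    rw [hχ, ← map_mul, map_eq_one_iff _ ε.injective, Lib.QExt.QE.mul_self_eq_one_iff, hβ]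
    rfl

end Cfsg.Agent.S3084
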