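import Cfsg.Statements.S3085
import Mathlib
import Cfsg.Agent.Trans.Extraspecial
import Cfsg.Agent.Solv.PGroupBasic

set_option autoImplicit false
open Cfsg

namespace Cfsg.Agent.S3085

open Subgroup Cfsg.Lib.Trans.ES
open scoped commutatorElement

/-- `z` is a central involution and any two elements commute up to `z`. -/
structure Ctx {Q : Type*} [Group Q] (z : Q) : Prop where
  ne : z ≠ 1
  sq : z * z = 1
  cen : ∀ x, z * x = x * z
  anti : ∀ x y : Q, x * y ≠ y * x → x * y = y * x * z
  sqc : ∀ x y : Q, x * x * y = y * (x * x)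

variable {Q : Type*} [Group Q] {z : Q}

theorem Ctx.ne_of (h : Ctx z) {x y : Q} (e : x * y = y * x * z) : x * y ≠ y * x := fun e' =>
  h.ne (by rwa [e', left_eq_mul] at e)

theorem Ctx.mul_comm_anti (h : Ctx z) {v x y : Q} (hx : x * v = v * x) (hy : y * v ≠ v * y) :
    x * y * v ≠ v * (x * y) ∧ y * x * v ≠ v * (y * x) := by
  have := h.anti _ _ hy
  refine ⟨h.ne_of ?_, h.ne_of ?_⟩
  · rw [mul_assoc, this, ← mul_assoc, ← mul_assoc, hx, mul_assoc v]
  · rw [mul_assoc, hx, ← mul_assoc, this, mul_assoc, h.cen, ← mul_assoc, mul_assoc v]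

theorem Ctx.mul_anti_anti (h : Ctx z) {v x y : Q} (hx : x * v ≠ v * x) (hy : y * v ≠ v * y) :
    x * y * v = v * (x * y) := by
  rw [mul_assoc, h.anti _ _ hy, ← mul_assoc, ← mul_assoc, h.anti _ _ hx, mul_assoc _ z, h.cen,
    ← mul_assoc, mul_assoc _ z, h.sq, mul_one, mul_assoc]

open scoped Classical in
/-- The lift of the reflection in `v`. -/
noncomputable def tau (h : Ctx z) (v : Q) (hv : v * v = z) : MulAut Q where
  toFun x := if x * v = v * x then x else x * v
  invFun x := if x * v = v * x then x else x * v⁻¹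
  left_inv x := by
    by_cases hx : x * v = v * x
    · simp [hx]
    · simp only [if_neg hx, if_neg (h.mul_comm_anti rfl hx).2, mul_inv_cancel_right]
  right_inv x := by
    by_cases hx : x * v = v * x
    · simp [hx]
    · beta_reduce
      rw [if_neg hx, if_neg (h.mul_comm_anti (x := v⁻¹) (by simp) hx).2, inv_mul_cancel_right]
  map_mul' x y := by
    by_cases hx : x * v = v * x <;> by_cases hy : y * v = v * y
    · rw [if_pos hx, if_pos hy, if_pos (by rw [mul_assoc, hy, ← mul_assoc, hx, mul_assoc])]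
    · rw [if_pos hx, if_neg hy, if_neg (h.mul_comm_anti hx hy).1, mul_assoc]
    · rw [if_neg hx, if_pos hy, if_neg (h.mul_comm_anti hy hx).2, mul_assoc, hy, mul_assoc]
    · rw [if_neg hx, if_neg hy, if_pos (h.mul_anti_anti hx hy), h.anti _ _ hy, mul_assoc x,
        ← mul_assoc v, ← mul_assoc v, hv, h.cen, mul_assoc, h.sq, mul_one]

theorem tau_pos (h : Ctx z) {v : Q} (hv : v * v = z) {x : Q} (hx : x * v = v * x) :
    tau h v hv x = x := if_pos hx

theorem tau_neg (h : Ctx z) {v : Q} (hv : v * v = z) {x : Q} (hx : x * v ≠ v * x) :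
    tau h v hv x = x * v := if_neg hx

theorem tau_sq (h : Ctx z) {v : Q} (hv : v * v = z) : tau h v hv * tau h v hv = MulAut.conj v := by
  ext x
  rw [MulAut.mul_apply, MulAut.conj_apply, eq_mul_inv_iff_mul_eq]
  by_cases hx : x * v = v * x
  · rw [tau_pos h hv hx, tau_pos h hv hx, hx]
  · rw [tau_neg h hv hx, tau_neg h hv (h.mul_comm_anti rfl hx).2, mul_assoc x, hv, mul_assoc,
      h.cen, ← mul_assoc, h.anti _ _ hx, mul_assoc, h.sq, mul_one]

theorem tau_comm (h : Ctx z) {u v : Q} (hu : u * u = z) (hv : v * v = z) (huv : u * v = v * u) :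
    tau h u hu * tau h v hv = tau h v hv * tau h u hu := by
  ext x
  rw [MulAut.mul_apply, MulAut.mul_apply]
  by_cases hx : x * v = v * x <;> by_cases hy : x * u = u * x
  · rw [tau_pos h hv hx, tau_pos h hu hy, tau_pos h hv hx]
  · rw [tau_pos h hv hx, tau_neg h hu hy, map_mul, tau_pos h hv hx, tau_pos h hv huv]
  · rw [tau_neg h hv hx, tau_pos h hu hy, map_mul, tau_pos h hu hy, tau_pos h hu huv.symm,
      tau_neg h hv hx]
  · rw [tau_neg h hv hx, tau_neg h hu hy, map_mul, map_mul, tau_neg h hv hx, tau_neg h hu hy,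
      tau_pos h hv huv, tau_pos h hu huv.symm, mul_assoc, mul_assoc, huv]

theorem mul_conj (α : MulAut Q) (w : Q) : α * MulAut.conj w = MulAut.conj (α w) * α := by
  ext x
  simp


/-- Let Q be an extraspecial 2-group of order 2^(2n+1) with n ≥ 3 that is of plus type (it contains an elementary abelian subgroup of order 2^(n+1)). Then the group of inner automorphisms of Q has no complement in the full automorphism group of Q: the extension of the inner automorphism group (elementary abelian of order 2^(2n)) by the outer automorphism group (the orthogonal group of plus type) does not split. -/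
theorem result {Q : Type*} [Group Q] [Finite Q] (n : ℕ) (hn : 3 ≤ n) (hQ : Cfsg.IsExtraspecial 2 Q) (hcard : Nat.card Q = 2 ^ (2 * n + 1)) (hplus : ∃ E : Subgroup Q, Cfsg.IsElementaryAbelian 2 E ∧ Nat.card ↥E = 2 ^ (n + 1)) (L : Subgroup (MulAut Q)) : ¬ (Cfsg.Inn Q).IsComplement' L := by
  intro hL
  haveI : Fact (Nat.Prime 2) := ⟨Nat.prime_two⟩
  have hP := IsPre.of_isExtraspecial hQ
  obtain ⟨z, hz, hz1⟩ := hP.exists_center_ne_one
  have hZ : ∀ c ∈ center Q, c = 1 ∨ c = z := fun c hc => by
    obtain ⟨k, hk, rfl⟩ := hP.exists_pow_eq hz hz1 hc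
    interval_cases k <;> simp
  have h : Ctx z := ⟨hz1, by rw [← sq, hP.pow_eq_one_of_mem_center hz],
    fun x => (mem_center_iff.1 hz x).symm, fun x y hxy => by
      rw [swap_eq y x, (hZ _ (hP.classTwo x y)).resolve_left
        (fun e => hxy (commutatorElement_eq_one_iff_mul_comm.1 e)), mem_center_iff.1 hz],
    fun x y => by rw [← sq, mem_center_iff.1 (hP.pow_mem_center x) y]⟩
  have hconj : ∀ w : Q, MulAut.conj w = 1 ↔ w ∈ center Q := fun w => by
    rw [mem_center_iff, MulEquiv.ext_iff]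
    exact forall_congr' fun x => by
      rw [MulAut.conj_apply, MulAut.one_apply, mul_inv_eq_iff_eq_mul, eq_comm]
  have hdis : ∀ w : Q, MulAut.conj w ∈ L → w ∈ center Q := fun w hw =>
    (hconj w).1 (disjoint_def.1 hL.disjoint ⟨w, rfl⟩ hw)
  have hlift : ∀ α : MulAut Q, ∃ w : Q, MulAut.conj w * α ∈ L := fun α => by
    obtain ⟨⟨⟨_, w, rfl⟩, l⟩, e⟩ := hL.2 α
    refine ⟨w⁻¹, ?_⟩
    rw [← e, map_inv]
    simp
  obtain ⟨v, hv⟩ : ∃ v : Q, v * v = z := by
    by_contra! e
    have e1 : ∀ x : Q, x * x = 1 := fun x =>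
      (hZ _ (by rw [← sq]; exact hP.pow_mem_center x)).resolve_right (e x)
    have e2 : center Q = ⊤ := eq_top_iff.2 fun x _ => mem_center_iff.2 fun y => by
      rw [← inv_eq_of_mul_eq_one_right (e1 (y * x)), mul_inv_rev,
        inv_eq_of_mul_eq_one_right (e1 x), inv_eq_of_mul_eq_one_right (e1 y)]
    have e3 := hP.card_center
    rw [e2, card_top, hcard] at e3
    have := Nat.pow_right_injective le_rfl (e3.trans (pow_one 2).symm)
    omega
  have hnc : ∀ v : Q, v * v = z → v ∉ center Q := fun v hv e =>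
    hz1 (by rw [← hv, ← sq, hP.pow_eq_one_of_mem_center e])
  obtain ⟨w, hw⟩ := hlift (tau h v hv)
  have hwv : w * v ≠ v * w := fun e => by
    have e1 := L.mul_mem hw hw
    rw [mul_assoc, ← mul_assoc (tau h v hv), mul_conj, tau_pos h hv e, mul_assoc, tau_sq,
      ← map_mul, ← map_mul, ← mul_assoc] at e1
    exact hnc v hv ((mul_mem_cancel_left (by rw [← sq]; exact hP.pow_mem_center w)).1 (hdis _ e1))
  have hwc : w ∉ center Q := fun e => hwv (mem_center_iff.1 e v).symm
  obtain ⟨E, hE, hEc⟩ := hplus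
  obtain ⟨s, hs, hsZ⟩ : ∃ s ∈ E ⊓ (centralizer {v} ⊓ centralizer {w}), s ∉ center Q := by
    by_contra! e
    have e1 := card_le_of_le (show E ⊓ (centralizer {v} ⊓ centralizer {w}) ≤ center Q from e)
    have e2 := index_inf_le (H := centralizer ({v} : Set Q)) (K := centralizer {w})
    rw [hP.index_centralizer (hnc v hv), hP.index_centralizer hwc] at e2
    have e3 := Cfsg.Lib.Solv.PG.relIndex_mul_card_inf (centralizer {v} ⊓ centralizer {w}) E
    have e4 : (centralizer {v} ⊓ centralizer {w} : Subgroup Q).relIndex E ≤ 2 * 2 :=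
      (relIndex_le_of_le_right le_top (by
        rw [relIndex_top_right]; exact index_ne_zero_of_finite)).trans
          ((relIndex_top_right _).trans_le e2)
    rw [hEc] at e3
    rw [hP.card_center, inf_comm] at e1
    have e5 : 2 ^ 4 ≤ 2 ^ (n + 1) := Nat.pow_le_pow_right two_pos (by omega)
    have := Nat.mul_le_mul e4 e1
    omega
  have hsv : s * v = v * s := mem_centralizer_singleton_iff.1 hs.2.1
  have hsw : s * w = w * s := mem_centralizer_singleton_iff.1 hs.2.2
  have hss : s * s = 1 := by rw [← sq]; exact hE.2 s hs.1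
  have hu : v * s * (v * s) = z := by
    rw [mul_assoc, ← mul_assoc s, hsv, mul_assoc, hss, mul_one, hv]
  have huv : v * s * v = v * (v * s) := by rw [mul_assoc, hsv]
  obtain ⟨w', hw'⟩ := hlift (tau h _ hu)
  have hwu : w * (v * s) ≠ v * s * w := (h.mul_comm_anti hsw hwv.symm).2.symm
  have e1 := L.mul_mem (L.mul_mem hw hw') (L.inv_mem (L.mul_mem hw' hw))
  rw [mul_assoc (MulAut.conj w), ← mul_assoc (tau h v hv), mul_conj, mul_assoc (MulAut.conj w'),
    ← mul_assoc (tau h _ hu), mul_conj, tau_neg h hu hwu, mul_assoc _ (tau h _ hu),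
    tau_comm h hu hv huv, mul_assoc _ (tau h v hv), ← mul_assoc, ← mul_assoc (MulAut.conj w'),
    mul_inv_rev, mul_assoc, mul_inv_cancel_left, ← map_mul, ← map_mul, ← map_inv,
    ← map_mul] at e1
  have e2 := (QuotientGroup.eq_one_iff _).2 (hdis _ e1)
  letI : CommGroup (Q ⧸ center Q) := { (inferInstance : Group (Q ⧸ center Q)) with
    mul_comm := by
      rintro ⟨a⟩ ⟨b⟩
      exact commutatorElement_eq_one_iff_mul_comm.1
        ((QuotientGroup.eq_one_iff ⁅a, b⁆).2 (hP.classTwo a b)) }
  simp only [QuotientGroup.mk_mul, QuotientGroup.mk_inv, mul_inv_eq_one] at e2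
  rw [mul_left_comm, mul_right_inj] at e2
  by_cases e : w' * v = v * w'
  · rw [tau_pos h hv e, left_eq_mul, ← QuotientGroup.mk_mul, QuotientGroup.eq_one_iff] at e2
    exact hnc _ hu e2
  · rw [tau_neg h hv e, QuotientGroup.mk_mul, mul_right_inj, left_eq_mul,
      QuotientGroup.eq_one_iff] at e2
    exact hsZ e2

end Cfsg.Agent.S3085
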