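import Cfsg.Statements.S3356
import Cfsg.Agent.Perm.HalfAut

set_option autoImplicit false
open Cfsg

namespace Cfsg.Agent.S3356

open Cfsg.Lib.Perm MulAction Subgroup

/-- Let G be a finite 3/2-transitive permutation group: G acts faithfully and transitively on a finite set, the point stabilizers are non-trivial, and for each point a all orbits of G_a on the remaining points have the same size. Suppose G has a regular normal subgroup N and G is not a Frobenius group (some two-point stabilizer is non-trivial). Then N is an elementary abelian p-group for some prime p, and every non-trivial normal subgroup of G contains N (so N is the unique minimal normal subgroup). -/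
theorem result {G Ω : Type*} [Group G] [Finite G]
    [MulAction G Ω] [FaithfulSMul G Ω] [Finite Ω] (htrans : MulAction.IsPretransitive G Ω)
    (hne : ∀ a : Ω, MulAction.stabilizer G a ≠ ⊥)
    (hhalf : ∀ a b c : Ω, b ≠ a → c ≠ a →
      Nat.card (MulAction.orbit (MulAction.stabilizer G a) b) = Nat.card (MulAction.orbit (MulAction.stabilizer G a) c))
    (N : Subgroup G) [hN : N.Normal] (hNt : MulAction.IsPretransitive N Ω) (hNr : ∀ a : Ω, MulAction.stabilizer N a = ⊥)
    (hnotF : ∃ a b : Ω, a ≠ b ∧ MulAction.stabilizer G a ⊓ MulAction.stabilizer G b ≠ ⊥) :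
    (∃ p : ℕ, p.Prime ∧ IsMulCommutative N ∧ ∀ x ∈ N, x ^ p = 1) ∧
    (∀ M : Subgroup G, M.Normal → M ≠ ⊥ → N ≤ M) := by
  obtain ⟨a, b, hab, hb⟩ := hnotF
  let := MulDistribMulAction.compHom N ((MulAut.conjNormal (H := N)).comp (stabilizer G a).subtype)
  have hsm : ∀ (h : stabilizer G a) (n : N), ((h • n : N) : G) = h * n * (h : G)⁻¹ := fun _ _ => rfl
  have hinj : ∀ n n' : N, (n : G) • a = (n' : G) • a → n = n' := fun n n' e => by
    have : n'⁻¹ * n ∈ stabilizer N a := by
      rw [mem_stabilizer_iff, mul_smul, inv_smul_eq_iff]; exact e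
    rw [hNr, mem_bot, inv_mul_eq_one] at this
    exact this.symm
  have hact : ∀ (h : stabilizer G a) (n : N), ((h • n : N) : G) • a = h • (n : G) • a :=
    fun h n => by rw [hsm, mul_smul, mul_smul, mem_stabilizer_iff.1 (inv_mem h.2)]; rfl
  have hst : ∀ n : N, stabilizer (stabilizer G a) n = stabilizer (stabilizer G a) ((n : G) • a) :=
    fun n => by
      ext h
      rw [mem_stabilizer_iff, mem_stabilizer_iff, ← hact]
      exact ⟨fun e => by rw [e], hinj _ _⟩
  have hs : ∀ n : N, n ≠ 1 → (stabilizer (stabilizer G a) n).index =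
      (stabilizer (stabilizer G a) b).index := fun n hn => by
    rw [hst, index_stabilizer, index_stabilizer]
    exact hhalf a _ _ (fun e => hn (hinj _ _ (by simpa using e))) hab.symm
  have hf : ∀ h : stabilizer G a, (∀ n : N, h • n = n) → h = 1 := fun h hh =>
    Subtype.ext (eq_of_smul_eq_smul (α := Ω) fun x => by
      obtain ⟨n, rfl⟩ := hNt.exists_smul_eq a x
      have := hact h n
      rw [hh] at this
      exact this.symm.trans (one_smul G _).symm)
  have hm : (stabilizer (stabilizer G a) b).index ≠ Nat.card (stabilizer G a) := fun e => by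
    have h1 := (stabilizer (stabilizer G a) b).card_mul_index
    rw [e, mul_eq_right₀ Nat.card_pos.ne', card_eq_one] at h1
    refine hb (eq_bot_iff.2 fun g hg => ?_)
    have : (⟨g, hg.1⟩ : stabilizer G a) ∈ stabilizer (stabilizer G a) b := hg.2
    rw [h1, mem_bot] at this
    exact congrArg Subtype.val this
  have : Nontrivial N := by
    obtain ⟨n, hn⟩ := hNt.exists_smul_eq a b
    exact ⟨n, 1, fun e => hab (by rw [← hn, e, one_smul])⟩
  obtain ⟨p, hp, hc, hx⟩ := half_elementary hs hf hm
  refine ⟨⟨p, hp, ⟨⟨hc⟩⟩, fun x h => congrArg Subtype.val (hx ⟨x, h⟩)⟩, fun M hM hM0 => ?_⟩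
  rcases half_eq_bot_or_top hs hf hm (M.subgroupOf N) (fun g x hx => hM.conj_mem _ hx g) with h | h
  · refine (hM0 (eq_bot_iff.2 fun g hg => ?_)).elim
    have hd := subgroupOf_eq_bot.1 h
    obtain ⟨n, hn⟩ := hNt.exists_smul_eq a (g • a)
    have h1 := hf ⟨(n : G)⁻¹ * g, by rw [mem_stabilizer_iff, mul_smul, ← hn]; exact inv_smul_smul _ _⟩
      fun x => Subtype.ext (by
        rw [hsm, mul_inv_eq_iff_eq_mul, mul_assoc,
          (commute_of_normal_of_disjoint M N hM hN hd g x hg x.2).eq, ← mul_assoc, ← mul_assoc]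
        congr 1
        exact congrArg Subtype.val (hc n⁻¹ x))
    have h2 : (n : G) = g := inv_mul_eq_one.1 (congrArg Subtype.val h1)
    exact hd.le_bot ⟨hg, h2 ▸ n.2⟩
  · exact subgroupOf_eq_top.1 h

end Cfsg.Agent.S3356
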