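import Cfsg.Statements.S3370
import Cfsg.Agent.Perm.HalfP2

set_option autoImplicit false
open Cfsg

namespace Cfsg.Agent.S3370

open Cfsg.Lib.Perm Cfsg.Lib.Solv Subgroup

/-- Let q be a prime, V a non-trivial finite vector space over the field with q elements, and G a non-trivial finite p-group (p prime) acting faithfully and linearly on V and transitively on the non-zero vectors. Then either q = 2 and G has prime order p = |V| − 1; or p = 2, V has q elements with q = 2^m + 1 and G is cyclic of order 2^m; or p = 2, q = 3, V has 9 elements and G is cyclic of order 8, quaternion of order 8, or semidihedral of order 16. -/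
theorem result (q : ℕ) [Fact q.Prime] {V : Type*} [AddCommGroup V] [Module (ZMod q) V] [Finite V] [Nontrivial V]
    {G : Type*} [Group G] [Finite G] [Nontrivial G] (p : ℕ) [Fact p.Prime] (hG : IsPGroup p G)
    (ρ : G →* (V ≃ₗ[ZMod q] V)) (hρ : Function.Injective ρ)
    (htrans : ∀ v w : V, v ≠ 0 → w ≠ 0 → ∃ g : G, ρ g v = w) :
    (q = 2 ∧ p = Nat.card V - 1 ∧ Nat.card G = p) ∨
    (p = 2 ∧ Nat.card V = q ∧ (∃ m : ℕ, q = 2 ^ m + 1 ∧ Nat.card G = 2 ^ m) ∧ IsCyclic G) ∨
    (p = 2 ∧ q = 3 ∧ Nat.card V = 9 ∧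
      ((IsCyclic G ∧ Nat.card G = 8) ∨ Nonempty (G ≃* QuaternionGroup 2) ∨ (Cfsg.IsQuasiDihedral G ∧ Nat.card G = 16))) := by
  have hq : q.Prime := Fact.out
  have hp : p.Prime := Fact.out
  have hi : ∀ v : V, v ≠ 0 → (vStab ρ v).index + 1 = Nat.card V := fun v hv => by
    rw [← card_orb, show {u : V | ∃ g : G, ρ g v = u} = Set.univ \ {0} from ?_,
      ← Nat.card_univ (α := V)]
    · exact Set.ncard_sdiff_singleton_add_one (Set.mem_univ (0 : V)) Set.finite_univ
    · ext u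
      refine ⟨?_, fun hu => htrans v u hv hu.2⟩
      rintro ⟨g, rfl⟩
      exact ⟨trivial, by simpa⟩
  have h : HalfTr ρ := fun v w hv hw => Nat.succ_injective ((hi v hv).trans (hi w hw).symm)
  obtain ⟨v, hv⟩ := exists_ne (0 : V)
  obtain ⟨b, hb⟩ := hG.index (vStab ρ v)
  have hV := Module.natCard_eq_pow_finrank (K := ZMod q) (V := V)
  rw [Nat.card_zmod] at hV
  have hd := Module.finrank_pos (R := ZMod q) (M := V)
  have hb0 : 1 ≤ b := by
    by_contra hb0
    obtain ⟨g, hg⟩ := exists_ne (1 : G)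
    refine hg (eq_one_of_rho hρ fun w => ?_)
    by_cases hw : w = 0
    · simp [hw]
    · rw [show b = 0 by omega, pow_zero, h v w hv hw, index_eq_one] at hb
      exact hb.ge (mem_top g)
  have e : q ^ Module.finrank (ZMod q) V = p ^ b + 1 := by rw [← hV, ← hb, hi v hv]
  have hnum := prime_pow_eq_prime_pow_add_one hq hp hd hb0 e
  have h9 : q ^ Module.finrank (ZMod q) V = 9 → p ^ b = 8 → p = 2 ∧ q = 3 := fun h1 h2 =>
    ⟨(Nat.prime_dvd_prime_iff_eq hp Nat.prime_two).1 (hp.dvd_of_dvd_pow (n := 3)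
      (show p ∣ 8 from h2 ▸ dvd_pow_self p (by omega))),
    (Nat.prime_dvd_prime_iff_eq hq Nat.prime_three).1 (hq.dvd_of_dvd_pow (n := 2)
      (show q ∣ 9 from h1 ▸ dvd_pow_self q (by omega)))⟩
  rcases h.pgroup hG hρ with ⟨hc, hs⟩ | ⟨h1, m, h2, h3⟩ | ⟨h1, -, ε, hε⟩ | ⟨h1, rfl, rfl⟩
  · rw [show vStab ρ v = ⊥ from eq_bot_iff.2 fun g hg => hs v hv g hg, index_bot] at hb
    rcases hnum with ⟨rfl, rfl, -, h1⟩ | ⟨rfl, h1, -, h2⟩ | ⟨h1, h2⟩
    · exact Or.inl ⟨rfl, by rw [hV, e]; simp, by rw [hb, pow_one]⟩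
    · refine Or.inr (Or.inl ⟨rfl, by rw [hV, h1, pow_one], ⟨b, h2, hb⟩, ?_⟩)
      have : IsMulCommutative (⊤ : Subgroup G) := ⟨⟨fun x y => Subtype.ext (eq_of_rho hρ fun w => by
        obtain ⟨c, rfl⟩ := exists_smul_eq_of_finrank_eq_one h1 hv w
        obtain ⟨a, ha⟩ := exists_smul_eq_of_finrank_eq_one h1 hv (ρ x v)
        obtain ⟨a', ha'⟩ := exists_smul_eq_of_finrank_eq_one h1 hv (ρ y v)
        simp only [coe_mul, rho_mul, map_smul, ← ha, ← ha', smul_smul, mul_comm])⟩⟩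
      exact topEquiv.isCyclic.1 (isCyclic_of_semiregular (ρ := ρ) fun a _ v hv e => hs v hv a e)
    · refine Or.inr (Or.inr ⟨(h9 h1 h2).1, (h9 h1 h2).2, hV.trans h1, ?_⟩)
      rcases hc with hc | ⟨n, ⟨f⟩⟩
      · exact Or.inl ⟨hc, hb.trans h2⟩
      · have h3 := Nat.card_congr f.toEquiv
        rw [hb, h2] at h3
        obtain rfl : n = 2 := by
          rcases n with _ | n
          · have : Infinite (QuaternionGroup 0) := Infinite.of_injective
              (fun i : ℤ => (QuaternionGroup.a i : QuaternionGroup 0)) fun _ _ h => by injection h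
            simp at h3
          · rw [Nat.card_eq_fintype_card, QuaternionGroup.card] at h3
            omega
        exact Or.inr (Or.inl ⟨f⟩)
  · have hd2 : Module.finrank (ZMod q) V = 2 := Nat.pow_right_injective hq.two_le (hV.symm.trans h1)
    have hp2 : p = 2 := by
      obtain ⟨n, hn⟩ := hG.exists_card_eq
      refine ((Nat.prime_dvd_prime_iff_eq Nat.prime_two hp).1
        (Nat.prime_two.dvd_of_dvd_pow (hn ▸ ?_ : 2 ∣ p ^ n))).symm
      rcases h3 with ⟨⟨f⟩⟩ | ⟨-, h3⟩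
      · rw [Nat.card_congr f.toEquiv, DihedralGroup.nat_card]; exact dvd_mul_right _ _
      · rw [h3]; exact dvd_pow_self 2 (by omega)
    rcases hnum with ⟨rfl, rfl, -, h4⟩ | ⟨-, h4, -⟩ | ⟨h4, h5⟩
    · rw [hd2, hp2] at h4; omega
    · omega
    obtain ⟨-, rfl⟩ := h9 h4 h5
    obtain rfl : m = 2 := Nat.pow_right_injective le_rfl (show 2 ^ m = 2 ^ 2 by omega)
    refine Or.inr (Or.inr ⟨hp2, rfl, h1, Or.inr (Or.inr (h3.resolve_left fun ⟨f⟩ => ?_))⟩)
    have h6 : ∀ w, w ≠ 0 → vStab ρ w = ⊥ := fun w hw => by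
      have := (vStab ρ w).card_mul_index
      rw [← h v w hv hw, hb, h5, Nat.card_congr f.toEquiv, DihedralGroup.nat_card] at this
      exact card_eq_one.1 (by omega)
    have hF : IsFC (⊤ : Subgroup G) := IsFC.of_fpf (ρ := subRep ρ ⊤) (FPF.of_apply fun g w hw e =>
      Subtype.ext ((h6 w hw).le e))
    exact absurd ((hF.of_injective (f.symm.trans topEquiv.symm).toMonoidHom
      (MulEquiv.injective _)).eq_of_sq (z := .sr 0) (w := .sr 1) (by decide) (by decide) (by decide)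
      (by decide)) (by decide)
  · exfalso
    obtain ⟨g, hg⟩ := htrans (ε.symm ![1, 0]) (ε.symm ![1, 1]) (by simp) (by simp)
    obtain ⟨a, s, -, -, hf | hf⟩ := (hε _).1 ⟨g, rfl⟩
    · simpa [hg] using congrFun (hf ![1, 0]) 1
    · simpa [hg] using congrFun (hf ![1, 0]) 0
  · exfalso
    rw [← hV, h1] at e
    exact absurd ((Nat.prime_five.dvd_of_dvd_pow (show 5 ∣ 2 ^ b by omega))) (by norm_num)

end Cfsg.Agent.S3370
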