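import Cfsg.Statements.S3375
import Mathlib.GroupTheory.FixedPointFree
import Mathlib.GroupTheory.Index

set_option autoImplicit false
open Cfsg

namespace Cfsg.Agent.S3375

open Subgroup


/-- Let γ be an automorphism of order 2 of a finite group H. (i) If γ fixes only the identity, then H is abelian and γ inverts every element. (ii) If γ has exactly two fixed points and H has a subgroup of index 2, then H has a γ-invariant abelian subgroup of index 2 on which γ acts by inversion. -/
theorem result {H : Type*} [Group H] [Finite H] (γ : MulAut H) (hγ : orderOf γ = 2) :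
    ((∀ h : H, γ h = h → h = 1) → (∀ a b : H, a * b = b * a) ∧ ∀ h : H, γ h = h⁻¹) ∧
    ((Nat.card {h : H // γ h = h} = 2 ∧ ∃ M : Subgroup H, M.index = 2) →
      ∃ A : Subgroup H, A.index = 2 ∧ IsMulCommutative A ∧ (∀ a ∈ A, γ a ∈ A) ∧ ∀ a ∈ A, γ a = a⁻¹) := by
  have h2 : Function.Involutive γ := fun x => by
    rw [← MulAut.mul_apply, ← pow_two, ← hγ, pow_orderOf_eq_one, MulAut.one_apply]
  refine ⟨fun h => ⟨fun a b => (MonoidHom.FixedPointFree.commute_all_of_involutive h h2 a b).eq,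
    congrFun (MonoidHom.FixedPointFree.coe_eq_inv_of_involutive h h2)⟩, ?_⟩
  rintro ⟨hC, M, hM⟩
  obtain ⟨A, hA, hAγ⟩ : ∃ A : Subgroup H, A.index = 2 ∧ ∀ a, γ a ∈ A ↔ a ∈ A := by
    by_cases h : ∀ a, γ a ∈ M ↔ a ∈ M
    · exact ⟨M, hM, h⟩
    obtain ⟨b, hb⟩ := not_forall.mp h
    refine ⟨{ carrier := {a | γ a ∈ M ↔ a ∈ M}
              one_mem' := by simp
              mul_mem' := fun {x y} hx hy => by
                simp only [Set.mem_ofPred_eq, map_mul, mul_mem_iff_of_index_two hM] at *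
                tauto
              inv_mem' := fun {x} hx => by simpa using hx }, ?_, fun a => ?_⟩
    · refine index_eq_two_iff.mpr ⟨b, fun a => ?_⟩
      simp only [← SetLike.mem_coe, coe_set_mk, Submonoid.coe_set_mk, Subsemigroup.coe_set_mk,
        Set.mem_ofPred_eq, map_mul]
      simp only [SetLike.mem_coe, mul_mem_iff_of_index_two hM, Xor]
      tauto
    · change (γ (γ a) ∈ M ↔ γ a ∈ M) ↔ (γ a ∈ M ↔ a ∈ M)
      rw [h2]; tauto
  let C : Subgroup H := MonoidHom.eqLocus γ.toMonoidHom (MonoidHom.id H)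
  let c : H ⧸ C → A := Quotient.lift (fun h => ⟨h * (γ h)⁻¹, by
    rw [mul_mem_iff_of_index_two hA, inv_mem_iff, hAγ]⟩) fun x y hxy => Subtype.ext (by
      have : γ (x⁻¹ * y) = x⁻¹ * y := QuotientGroup.leftRel_apply.mp hxy
      rw [map_mul, map_inv, inv_mul_eq_iff_eq_mul] at this
      simp [this, mul_assoc])
  have hc : Function.Injective c := by
    rintro ⟨x⟩ ⟨y⟩ h
    have h1 : x * (γ x)⁻¹ = y * (γ y)⁻¹ := congrArg Subtype.val h
    refine QuotientGroup.eq.mpr (show γ (x⁻¹ * y) = x⁻¹ * y from ?_)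
    rw [map_mul, map_inv, eq_inv_mul_iff_mul_eq, ← mul_assoc, h1, inv_mul_cancel_right]
  have h3 : Nat.card A ≤ Nat.card (H ⧸ C) := by
    have h4 := A.card_mul_index
    have h5 := C.card_mul_index
    rw [show Nat.card C = 2 from hC, index] at h5
    rw [hA] at h4
    omega
  have key : ∀ a ∈ A, γ a = a⁻¹ := fun a ha => by
    obtain ⟨⟨x⟩, hx⟩ := (hc.bijective_of_nat_card_le h3).2 ⟨a, ha⟩
    rw [← show x * (γ x)⁻¹ = a from congrArg Subtype.val hx, map_mul, map_inv, h2, mul_inv_rev,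
      inv_inv]
  refine ⟨A, hA, IsMulCommutative.of_comm fun a b => Subtype.ext (inv_injective ?_),
    fun a ha => (hAγ a).mpr ha, key⟩
  rw [coe_mul, ← key _ (mul_mem a.2 b.2), map_mul, key _ a.2, key _ b.2, coe_mul, mul_inv_rev]

end Cfsg.Agent.S3375
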