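import Cfsg.Statements.S3381
import Cfsg.Agent.Perm.HalfInv

set_option autoImplicit false
open Cfsg

namespace Cfsg.Agent.S3381


/-- Let G be a finite group acting faithfully and linearly on a non-trivial finite vector space V over the field with q elements (q prime) so that every non-zero vector has a stabilizer of order 2, and suppose G has a central involution. Then V has q^(2r) elements for some r and G contains exactly q^r + 1 non-central involutions. -/
theorem result
    (q : ℕ) [Fact q.Prime] {V : Type*} [AddCommGroup V] [Module (ZMod q) V] [Finite V] [Nontrivial V]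
    {G : Type*} [Group G] [Finite G] (ρ : G →* (V ≃ₗ[ZMod q] V)) (hρ : Function.Injective ρ)
    (hstab : ∀ v : V, v ≠ 0 → Nat.card {g : G // ρ g v = v} = 2)
    (z : G) (hz : orderOf z = 2) (hzc : z ∈ Subgroup.center G) :
    ∃ r : ℕ, Nat.card V = q ^ (2 * r) ∧
      Nat.card {g : G // orderOf g = 2 ∧ g ∉ Subgroup.center G} = q ^ r + 1 := by
  obtain ⟨r, h1, h2⟩ := Cfsg.Lib.Perm.card_noncentral_involutions hρ hstab hz hzc
  refine ⟨r, ?_, by rw [h2, Nat.card_zmod]⟩
  rw [Module.natCard_eq_pow_finrank (K := ZMod q), h1, Nat.card_zmod]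

end Cfsg.Agent.S3381
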