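import Cfsg.Statements.S3382
import Mathlib.GroupTheory.PGroup
import Mathlib.FieldTheory.Finite.Basic

set_option autoImplicit false
open Cfsg

namespace Cfsg.Agent.S3382

theorem eq_of_odd {G : Type*} [Group G] (α : MulAut G) {n : ℕ} (hn : Odd n) (hα : α ^ n = 1)
    {x h : G} (e : α x = x * h) (hh : α h = h) {k : ℕ} (hk : h ^ 2 ^ k = 1) : α x = x := by
  have h1 : ∀ m : ℕ, (α ^ m) x = x * h ^ m := fun m => by
    induction m with
    | zero => simp
    | succ m ih => rw [pow_succ', MulAut.mul_apply, ih, map_mul, map_pow, e, hh, mul_assoc, pow_succ']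
  have h2 := h1 n
  rw [hα, MulAut.one_apply, left_eq_mul] at h2
  have h3 : orderOf h = 1 := Nat.eq_one_of_dvd_coprimes
    ((Nat.coprime_two_right.2 hn).pow_right k) (orderOf_dvd_of_pow_eq_one h2)
    (orderOf_dvd_of_pow_eq_one hk)
  rw [e, orderOf_eq_one_iff.1 h3, mul_one]

section
variable {F : Type*} [Field F] {T : Subgroup ((Fin 2 → F) ≃ₗ[F] (Fin 2 → F))}

/-- Diagonal with entries `a`, `b`. -/
def IsD (x : T) (a b : F) : Prop := ∀ v, x.1 v = ![a * v 0, b * v 1]

/-- Antidiagonal with entries `a`, `b`. -/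
def IsW (x : T) (a b : F) : Prop := ∀ v, x.1 v = ![b * v 1, a * v 0]

variable {x y : T} {a b c d : F}

theorem IsD.mul (h : IsD x a b) (h' : IsD y c d) : IsD (x * y) (a * c) (b * d) := fun v => by
  change x.1 (y.1 v) = _
  rw [h', h]; simp [mul_assoc]

theorem IsD.mulW (h : IsD x a b) (h' : IsW y c d) : IsW (x * y) (b * c) (a * d) := fun v => by
  change x.1 (y.1 v) = _
  rw [h', h]; simp [mul_assoc]

theorem IsW.mulD (h : IsW x a b) (h' : IsD y c d) : IsW (x * y) (a * c) (b * d) := fun v => by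
  change x.1 (y.1 v) = _
  rw [h', h]; simp [mul_assoc]

theorem IsW.mul (h : IsW x a b) (h' : IsW y c d) : IsD (x * y) (b * c) (a * d) := fun v => by
  change x.1 (y.1 v) = _
  rw [h', h]; simp [mul_assoc]

theorem isD_one : IsD (1 : T) 1 1 := fun v => by
  ext i; fin_cases i <;> simp

theorem IsD.iff (h : IsD x a b) (h' : IsD y c d) : x = y ↔ a = c ∧ b = d := by
  constructor
  · rintro rfl
    simpa using (h 1).symm.trans (h' 1)
  · rintro ⟨rfl, rfl⟩
    exact Subtype.ext (LinearEquiv.ext fun v => (h v).trans (h' v).symm)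

theorem IsW.iff (h : IsW x a b) (h' : IsW y c d) : x = y ↔ a = c ∧ b = d := by
  constructor
  · rintro rfl
    simpa [and_comm] using (h 1).symm.trans (h' 1)
  · rintro ⟨rfl, rfl⟩
    exact Subtype.ext (LinearEquiv.ext fun v => (h v).trans (h' v).symm)

theorem IsD.pow (h : IsD x a b) (n : ℕ) : IsD (x ^ n) (a ^ n) (b ^ n) := by
  induction n with
  | zero => simpa using isD_one
  | succ n ih => simpa only [pow_succ] using ih.mul h

end

/-- Let q = 2^m + 1 be a prime other than 5. Then the automorphism group of the group of linear maps of F_q² of the forms (x, y) ↦ (a x, ± a⁻¹ y) and (x, y) ↦ (± a⁻¹ y, a x) with a ≠ 0 is itself a 2-group. -/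
theorem result (q m : ℕ) [Fact q.Prime] (hq : q = 2 ^ m + 1) (hq5 : q ≠ 5)
    (T : Subgroup ((Fin 2 → ZMod q) ≃ₗ[ZMod q] (Fin 2 → ZMod q)))
    (hT : ∀ f, f ∈ T ↔ ∃ a s : ZMod q, a ≠ 0 ∧ (s = 1 ∨ s = -1) ∧
      ((∀ v, f v = ![a * v 0, s * a⁻¹ * v 1]) ∨ (∀ v, f v = ![s * a⁻¹ * v 1, a * v 0]))) :
    IsPGroup 2 (MulAut T) := by
  have hT' : ∀ x : T, ∃ a b : ZMod q, (a * b) ^ 2 = 1 ∧ (IsD x a b ∨ IsW x a b) := fun x => by
    obtain ⟨a, s, ha, hs, h⟩ := (hT x).1 x.2
    refine ⟨a, _, ?_, h⟩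
    rw [mul_comm s, mul_inv_cancel_left₀ ha]
    rcases hs with rfl | rfl <;> simp
  have hmk : ∀ a : ZMod q, a ≠ 0 → ∃ x : T, IsD x a a⁻¹ := fun a ha => by
    let f : (Fin 2 → ZMod q) ≃ₗ[ZMod q] (Fin 2 → ZMod q) := LinearEquiv.piCongrRight fun i =>
      LinearEquiv.smulOfNeZero (ZMod q) (ZMod q) (![a, a⁻¹] i) (by fin_cases i <;> simpa)
    have : ∀ v, f v = ![a * v 0, 1 * a⁻¹ * v 1] := fun v => by
      ext i; fin_cases i <;> simp [f]
    exact ⟨⟨f, (hT f).2 ⟨a, 1, ha, Or.inl rfl, Or.inl this⟩⟩, by simpa [IsD] using this⟩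
  have hne : ∀ {a b : ZMod q}, (a * b) ^ 2 = 1 → a ≠ 0 := fun h e => by simp [e] at h
  have hpow : ∀ a : ZMod q, a ≠ 0 → a ^ 2 ^ m = 1 := fun a ha => by
    have := ZMod.pow_card_sub_one_eq_one ha
    rwa [show q - 1 = 2 ^ m from Nat.sub_eq_of_eq_add hq] at this
  have hexp : ∀ x : T, x ^ 2 ^ (m + 2) = 1 := fun x => by
    obtain ⟨a, b, h, hx | hx⟩ := hT' x
    · rw [(hx.pow _).iff isD_one, pow_add, pow_mul, pow_mul, hpow a (hne h),
        hpow b (hne (mul_comm a b ▸ h))]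
      simp
    · have : x ^ 4 = 1 := by
        rw [show 4 = 2 * 2 from rfl, pow_mul, pow_two x, ((hx.mul hx).pow 2).iff isD_one, mul_comm b]
        exact ⟨h, h⟩
      rw [pow_add, mul_comm, pow_mul, show 2 ^ 2 = 4 from rfl, this, one_pow]
  have : Finite ((Fin 2 → ZMod q) ≃ₗ[ZMod q] (Fin 2 → ZMod q)) :=
    Finite.of_injective _ DFunLike.coe_injective
  suffices key : ∀ (α : MulAut T) (n : ℕ), Odd n → α ^ n = 1 → ∀ x, α x = x by
    intro α
    obtain ⟨k, n, hn, e⟩ := Nat.exists_eq_two_pow_mul_odd (orderOf_pos α).ne'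
    exact ⟨k, MulEquiv.ext (key _ n hn (by rw [← pow_mul, ← e, pow_orderOf_eq_one]))⟩
  intro α n hn hα
  have step : ∀ x : T, α (x⁻¹ * α x) = x⁻¹ * α x → α x = x := fun x h =>
    eq_of_odd α hn hα (mul_inv_cancel_left _ _).symm h (hexp _)
  obtain ⟨z, hz⟩ := hmk (-1) (by simp)
  rw [inv_neg, inv_one] at hz
  have hz2 : z * z = 1 := ((hz.mul hz).iff isD_one).2 (by simp)
  have hsq : ∀ x : T, x * x * (x * x) = 1 → x * x = 1 ∨ x * x = z := fun x h => by
    obtain ⟨a, b, h1, hx | hx⟩ := hT' x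
    · rw [((hx.mul hx).mul (hx.mul hx)).iff isD_one] at h
      rw [(hx.mul hx).iff isD_one, (hx.mul hx).iff hz]
      rcases mul_self_eq_one_iff.1 h.1 with e | e
      · exact Or.inl ⟨e, by linear_combination h1 - b * b * e⟩
      · exact Or.inr ⟨e, by linear_combination -h1 + b * b * e⟩
    · rw [(hx.mul hx).iff isD_one, (hx.mul hx).iff hz, mul_comm b, and_self, and_self]
      exact mul_self_eq_one_iff.1 (by rw [← h1, pow_two])
  obtain ⟨r, hr⟩ : ∃ r : T, IsW r 1 (-1) := by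
    let f : (Fin 2 → ZMod q) ≃ₗ[ZMod q] (Fin 2 → ZMod q) :=
      { toFun := fun v => ![-v 1, v 0]
        invFun := fun v => ![v 1, -v 0]
        map_add' := fun v w => by ext i; fin_cases i <;> simp [add_comm]
        map_smul' := fun c v => by ext i; fin_cases i <;> simp
        left_inv := fun v => by ext i; fin_cases i <;> simp
        right_inv := fun v => by ext i; fin_cases i <;> simp }
    exact ⟨⟨f, (hT f).2 ⟨1, -1, one_ne_zero, Or.inr rfl, Or.inr fun v => by simp [f]⟩⟩,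
      fun v => by simp [f]⟩
  have hr2 : r * r = z := ((hr.mul hr).iff hz).2 (by simp)
  have hαz : α z = z := by
    rcases hsq (α r) (by rw [← map_mul, ← map_mul, hr2, hz2, map_one]) with h | h <;>
      rw [← map_mul, hr2] at h
    · rw [h, (map_eq_one_iff α α.injective).1 h]
    · exact h
  have step' : ∀ x h : T, α x = x * h → α h = h → α x = x := fun x h e hh =>
    step x (by rw [e, inv_mul_cancel_left, hh])
  have step2 : ∀ x : T, α x = x ∨ α x = x * z → α x = x := fun x h =>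
    h.elim id fun h => step' x z h hαz
  rcases lt_or_ge m 2 with hm | hm
  · have h1 : ∀ {a b : ZMod q}, (a * b) ^ 2 = 1 → (a = 1 ∨ a = -1) ∧ (b = 1 ∨ b = -1) := by
      have : ∀ a : ZMod q, a ≠ 0 → a = 1 ∨ a = -1 := fun a ha => mul_self_eq_one_iff.1 (by
        have := hpow a ha
        interval_cases m
        · simp at this; simp [this]
        · simpa [pow_two] using this)
      exact fun {a b} h => ⟨this _ (hne h), this _ (hne (mul_comm a b ▸ h))⟩
    have hD : ∀ (x : T) (a : ZMod q), a = 1 ∨ a = -1 → IsD x a a → α x = x := by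
      rintro x _ (rfl | rfl) hx
      · rw [(hx.iff isD_one).2 ⟨rfl, rfl⟩, map_one]
      · rw [(hx.iff hz).2 ⟨rfl, rfl⟩, hαz]
    have hr' : α r = r := by
      obtain ⟨c, d, h, hx | hx⟩ := hT' (α r)
      · have e : α r * α r = z := by rw [← map_mul, hr2, hαz]
        rw [(hx.mul hx).iff hz] at e
        have e2 : (-1 : ZMod q) = 1 := by rcases (h1 h).1 with rfl | rfl <;> simpa using e.1.symm
        refine α.injective (hD _ 1 (Or.inl rfl) ?_)
        rcases h1 h with ⟨rfl | rfl, rfl | rfl⟩ <;> simpa only [e2] using hx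
      · have e : α r * α r = z := by rw [← map_mul, hr2, hαz]
        rw [(hx.mul hx).iff hz] at e
        refine step2 r ?_
        rw [hx.iff hr, hx.iff (hr.mulD hz)]
        rcases (h1 h).1 with rfl | rfl
        · exact Or.inl ⟨rfl, by simpa using e.1⟩
        · exact Or.inr ⟨by simp, by simpa using e.1⟩
    have hW : ∀ (x : T) (a : ZMod q), a = 1 ∨ a = -1 → IsW x a (-a) → α x = x := by
      rintro x _ (rfl | rfl) hx
      · rw [(hx.iff hr).2 ⟨rfl, rfl⟩, hr']
      · rw [(hx.iff (hr.mulD hz)).2 (by simp), map_mul, hr', hαz]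
    have hcl : ∀ x : T, α x = x ∨ ∃ a : ZMod q, (a = 1 ∨ a = -1) ∧ (IsD x a (-a) ∨ IsW x a a) := by
      intro x
      obtain ⟨a, b, h, hx⟩ := hT' x
      obtain rfl | rfl : b = a ∨ b = -a := by rcases h1 h with ⟨rfl | rfl, rfl | rfl⟩ <;> simp
      · exact hx.elim (fun hx => Or.inl (hD x _ (h1 h).1 hx)) fun hx => Or.inr ⟨_, (h1 h).1, Or.inr hx⟩
      · exact hx.elim (fun hx => Or.inr ⟨_, (h1 h).1, Or.inl hx⟩) fun hx => Or.inl (hW x _ (h1 h).1 hx)
    intro x
    rcases hcl x with h | ⟨a, ha, hx⟩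
    · exact h
    rcases hcl (α x) with h | ⟨c, hc, hy⟩
    · exact α.injective h
    have haa : a * a = 1 := mul_self_eq_one_iff.2 ha
    have hac : a * c = 1 ∨ a * c = -1 := by rcases ha with rfl | rfl <;> rcases hc with rfl | rfl <;> simp
    have hxx : x * x = 1 := hx.elim (fun hx => ((hx.mul hx).iff isD_one).2 (by simpa))
      fun hx => ((hx.mul hx).iff isD_one).2 (by simpa)
    refine step' x (x * α x) (by rw [← mul_assoc, hxx, one_mul]) ?_
    rcases hx with hx | hx <;> rcases hy with hy | hy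
    · exact hD _ _ hac (by simpa using hx.mul hy)
    · exact hW _ (-(a * c)) (by rcases hac with h | h <;> simp [h]) (by simpa using hx.mulW hy)
    · exact hW _ _ hac (by simpa using hx.mulD hy)
    · exact hD _ _ hac (hx.mul hy)
  have hm3 : 3 ≤ m := by
    rcases hm.eq_or_lt with rfl | h
    · exact (hq5 hq).elim
    · exact h
  obtain ⟨g, hg0, hg⟩ : ∃ g : ZMod q, g ≠ 0 ∧ g ^ 4 ≠ 1 := by
    obtain ⟨g, hg⟩ := IsCyclic.exists_ofOrder_eq_natCard (α := (ZMod q)ˣ)
    refine ⟨g, g.ne_zero, fun e => ?_⟩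
    have h1 := Nat.le_of_dvd four_pos (orderOf_dvd_of_pow_eq_one (show g ^ 4 = 1 from Units.ext e))
    rw [hg, Nat.card_eq_fintype_card, ZMod.card_units] at h1
    have := Nat.pow_le_pow_right two_pos hm3
    omega
  have hDD : ∀ (x : T) (a b : ZMod q), IsD x a b → ∃ c d, IsD (α x) c d := by
    intro x a b hx
    obtain ⟨c, d, h, hy | hy⟩ := hT' (α x)
    · exact ⟨c, d, hy⟩
    obtain ⟨u, hu⟩ := hmk g hg0
    obtain ⟨u, rfl⟩ := α.surjective u
    have h1 : x * (u * u) = u * u * x := by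
      obtain ⟨a', b', -, h' | h'⟩ := hT' u <;>
        exact ((hx.mul (h'.mul h')).iff ((h'.mul h').mul hx)).2 ⟨mul_comm _ _, mul_comm _ _⟩
    have h2 := congrArg α h1
    simp only [map_mul] at h2
    have h3 := (((hy.mulD (hu.mul hu)).iff ((hu.mul hu).mulW hy)).1 h2).1
    have := hne h
    refine (hg ?_).elim
    field_simp at h3
    exact h3
  have hD1 : ∀ (x : T) (a b : ZMod q), IsD x a b → x * x = 1 → α x = x := by
    intro x a b hx hxx
    obtain ⟨c, d, hy⟩ := hDD x a b hx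
    have hcl : ∀ (x : T) (a b : ZMod q), IsD x a b → x * x = 1 →
        α x = x ∨ (a = 1 ∨ a = -1) ∧ b = -a := fun x a b hx hxx => by
      rw [(hx.mul hx).iff isD_one, mul_self_eq_one_iff, mul_self_eq_one_iff] at hxx
      rcases hxx with ⟨rfl | rfl, rfl | rfl⟩
      · exact Or.inl (by rw [(hx.iff isD_one).2 ⟨rfl, rfl⟩, map_one])
      · simp
      · simp
      · exact Or.inl (by rw [(hx.iff hz).2 ⟨rfl, rfl⟩, hαz])
    rcases hcl x a b hx hxx with h | ⟨ha, rfl⟩
    · exact h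
    rcases hcl _ c d hy (by rw [← map_mul, hxx, map_one]) with h | ⟨hc, rfl⟩
    · exact α.injective h
    refine step2 x ?_
    rw [hy.iff hx, hy.iff (hx.mul hz)]
    rcases ha with rfl | rfl <;> rcases hc with rfl | rfl <;> simp
  have hinv : ∀ (x : T) (a b : ZMod q), IsD x a b → ∃ c d, IsD x⁻¹ c d := fun x a b hx =>
    ⟨_, _, by rw [inv_eq_of_mul_eq_one_left ((pow_succ x _).symm.trans
      (Nat.succ_pred_eq_of_pos (Nat.two_pow_pos (m + 2)) ▸ hexp x :))]; exact hx.pow _⟩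
  have hD : ∀ (k : ℕ) (x : T) (a b : ZMod q), IsD x a b → x ^ 2 ^ k = 1 → α x = x := by
    intro k
    induction k with
    | zero => intro x a b _ h; rw [pow_zero, pow_one] at h; rw [h, map_one]
    | succ k ih =>
      intro x a b hx h
      have h1 := ih (x * x) _ _ (hx.mul hx) (by rwa [← pow_two, ← pow_mul, ← pow_succ'])
      obtain ⟨c, d, hy⟩ := hDD x a b hx
      obtain ⟨a', b', hx'⟩ := hinv x a b hx
      refine step x (hD1 _ _ _ (hx'.mul hy) ?_)
      have h2 : α x * x⁻¹ = x⁻¹ * α x :=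
        ((hy.mul hx').iff (hx'.mul hy)).2 ⟨mul_comm _ _, mul_comm _ _⟩
      rw [mul_assoc, ← mul_assoc (α x), h2, mul_assoc, ← map_mul, h1]
      simp
  intro x
  obtain ⟨a, b, -, hx | hx⟩ := hT' x
  · exact hD _ x a b hx (hexp x)
  obtain ⟨c, d, -, hy | hy⟩ := hT' (α x)
  · exact α.injective (hD _ _ c d hy (hexp _))
  obtain ⟨a', b', hx'⟩ := hinv _ _ _ (hx.mul hx)
  exact step x (hD _ _ _ _ (by simpa [mul_assoc] using hx'.mul (hx.mul hy)) (hexp _))

end Cfsg.Agent.S3382
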