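import Cfsg.Statements.S3383
import Cfsg.Agent.Solv.FrobeniusGroup

set_option autoImplicit false
open Cfsg

namespace Cfsg.Agent.S3383

open Cfsg.Lib.Solv Subgroup


/-- Let H be a Frobenius complement in a finite group L and K the Frobenius kernel (as a subgroup). Then K is characteristic in L, and every normal subgroup of L either contains K or is contained in K. -/
theorem result {L : Type*} [Group L] [Finite L]
    (H : Subgroup L) (hH : Cfsg.IsFrobeniusComplement H)
    (K : Subgroup L) (hK : (K : Set L) = Cfsg.frobeniusKernel H) :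
    K.Characteristic ∧ ∀ N : Subgroup L, N.Normal → K ≤ N ∨ N ≤ K := by
  obtain ⟨hn, -, -, -, h⟩ := Fpf.of_coe_eq hH hK.symm
  refine ⟨characteristic_iff_le_comap.mpr fun φ x hx => ?_,
    fun N _ => (Fpf.le_or_le h N).symm⟩
  have hm := isMalnormal_of_isFrobeniusComplement hH
  rw [mem_comap, ← SetLike.mem_coe, hK, hm.mem_frobeniusKernel_iff_orderOf_dvd]
  rw [← SetLike.mem_coe, hK, hm.mem_frobeniusKernel_iff_orderOf_dvd] at hx
  simpa using hx

end Cfsg.Agent.S3383
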