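import Cfsg.Statements.S3431
import Cfsg.Agent.Van.Nse
import Cfsg.Agent.S0497
import Cfsg.Agent.Class.A5Recog
import Cfsg.Agent.Bender.ModOne
import Cfsg.Agent.Solv.Cores
import Cfsg.Agent.Solv.ElemLift
-- import your own Cfsg.Agent.* helpers here

set_option autoImplicit false
open Cfsg

namespace Cfsg.Agent.S3431

open Cfsg.Lib.Nse Equiv

theorem card_alt (n k : ℕ) : Nat.card {g : alternatingGroup (Fin n) // g ^ k = 1} =
    (Finset.univ.filter fun g : Perm (Fin n) => g ^ k = 1 ∧ Perm.sign g = 1).card := by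
  rw [← Fintype.card_subtype, ← Nat.card_eq_fintype_card]
  exact Nat.card_congr ⟨fun g => ⟨g.1.1, congrArg Subtype.val g.2, g.1.2⟩,
    fun g => ⟨⟨g.1, g.2.2⟩, Subtype.ext g.2.1⟩, fun _ => rfl, fun _ => rfl⟩

theorem mk_prime (G : Type*) [Group G] [Finite G] {p : ℕ} (hp : p.Prime) :
    mk G p + 1 = Nat.card {g : G // g ^ p = 1} := by
  rw [← sum_mk G hp.ne_zero, hp.sum_divisors, (num G).one]

theorem mk_four (G : Type*) [Group G] [Finite G] :
    1 + mk G 2 + mk G 4 = Nat.card {g : G // g ^ 4 = 1} := by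
  rw [← sum_mk G (by norm_num), show (4 : ℕ) = 2 ^ 2 from rfl,
    Nat.sum_divisors_prime_pow Nat.prime_two]
  simp [Finset.sum_range_succ, (num G).one]

theorem vals_iff {G : Type*} [Group G] [Finite G] {ks : List ℕ} (h : ∀ g : G, orderOf g ∈ ks)
    (v : ℕ) (hv : v ≠ 0) : (∃ k, mk G k = v) ↔ v ∈ ks.map (mk G) := by
  rw [List.mem_map]
  refine ⟨fun ⟨k, hk⟩ => ?_, fun ⟨k, _, hk⟩ => ⟨k, hk⟩⟩
  obtain ⟨g, rfl⟩ := mk_ne_zero.1 (hk ▸ hv : mk G k ≠ 0)
  exact ⟨_, h g, hk⟩

theorem order_mem {n : ℕ} {g : alternatingGroup (Fin n)} {a : ℕ} {ks : List ℕ} (h : g.1 ^ a = 1)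
    (ha : a ≠ 0) (hk : ∀ d ∈ a.divisors, d ∈ ks) : orderOf g ∈ ks :=
  hk _ (Nat.mem_divisors.2 ⟨orderOf_dvd_of_pow_eq_one (Subtype.ext h), ha⟩)

theorem alt4 (v : ℕ) (hv : v ≠ 0) :
    (∃ k, mk (alternatingGroup (Fin 4)) k = v) ↔ v ∈ [1, 3, 8] := by
  have h0 : ∀ g : Perm (Fin 4), Perm.sign g = 1 → g ^ 2 = 1 ∨ g ^ 3 = 1 := by decide +kernel
  have h2 := (mk_prime _ Nat.prime_two).trans ((card_alt 4 2).trans (by decide +kernel : _ = 4))
  have h3 := (mk_prime _ Nat.prime_three).trans ((card_alt 4 3).trans (by decide +kernel : _ = 9))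
  rw [vals_iff (ks := [1, 2, 3]) (fun g => by
    rcases h0 g.1 g.2 with h | h
    all_goals exact order_mem h (by norm_num) (by decide)) v hv]
  simp only [List.map_cons, List.map_nil, (num _).one, Nat.add_right_cancel (m := 1) (k := 3) h2,
    Nat.add_right_cancel (m := 1) (k := 8) h3]

theorem alt5 (v : ℕ) (hv : v ≠ 0) :
    (∃ k, mk (alternatingGroup (Fin 5)) k = v) ↔ v ∈ [1, 15, 20, 24] := by
  have h0 : ∀ g : Perm (Fin 5), Perm.sign g = 1 → g ^ 2 = 1 ∨ g ^ 3 = 1 ∨ g ^ 5 = 1 := by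
    decide +kernel
  have h2 := (mk_prime _ Nat.prime_two).trans ((card_alt 5 2).trans (by decide +kernel : _ = 16))
  have h3 := (mk_prime _ Nat.prime_three).trans ((card_alt 5 3).trans (by decide +kernel : _ = 21))
  have h5 := (mk_prime _ Nat.prime_five).trans ((card_alt 5 5).trans (by decide +kernel : _ = 25))
  rw [vals_iff (ks := [1, 2, 3, 5]) (fun g => by
    rcases h0 g.1 g.2 with h | h | h
    all_goals exact order_mem h (by norm_num) (by decide)) v hv]
  simp only [List.map_cons, List.map_nil, (num _).one, Nat.add_right_cancel (m := 1) (k := 15) h2,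
    Nat.add_right_cancel (m := 1) (k := 20) h3, Nat.add_right_cancel (m := 1) (k := 24) h5]

theorem a6_pow : ∀ g : Perm (Fin 6), Perm.sign g = 1 → g ^ 3 = 1 ∨ g ^ 4 = 1 ∨ g ^ 5 = 1 := by
  decide +kernel

theorem a6_cnt : [2, 3, 4, 5].map (fun k => (Finset.univ.filter
    fun g : Perm (Fin 6) => g ^ k = 1 ∧ Perm.sign g = 1).card) = [46, 81, 136, 145] := by
  decide +kernel

theorem alt6 (v : ℕ) (hv : v ≠ 0) :
    (∃ k, mk (alternatingGroup (Fin 6)) k = v) ↔ v ∈ [1, 45, 80, 90, 144] := by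
  have h0 := a6_cnt
  simp only [← card_alt, List.map_cons, List.map_nil, List.cons.injEq, and_true] at h0
  have h2 := (mk_prime _ Nat.prime_two).trans h0.1
  have h3 := (mk_prime _ Nat.prime_three).trans h0.2.1
  have h4 := (mk_four _).trans h0.2.2.1
  have h5 := (mk_prime _ Nat.prime_five).trans h0.2.2.2
  have h1 := (num (alternatingGroup (Fin 6))).one
  rw [vals_iff (ks := [1, 2, 3, 4, 5]) (fun g => by
    rcases a6_pow g.1 g.2 with h | h | h
    all_goals exact order_mem h (by norm_num) (by decide)) v hv]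
  clear h0
  generalize mk (alternatingGroup (Fin 6)) = m at *
  simp only [List.map_cons, List.map_nil, List.mem_cons, List.not_mem_nil, or_false]
  omega

theorem mem_image_iff {G : Type*} [Group G] [Finite G] {v : ℕ} (hv : v ≠ 0) :
    (∃ k, mk G k = v) ↔
      v ∈ (fun m : ℕ => Nat.card {g : G // orderOf g = m}) '' Set.range (orderOf : G → ℕ) :=
  ⟨fun ⟨k, hk⟩ => ⟨k, mk_ne_zero.1 (hk ▸ hv), hk⟩, fun ⟨k, _, hk⟩ => ⟨k, hk⟩⟩

/-- If the orders in `ks` account for all elements, every element has its order in `ks`. -/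
theorem order_mem_of_sum {G : Type*} [Group G] [Finite G] (ks : Finset ℕ)
    (hk : ks ⊆ (Nat.card G).divisors) (h : ∑ k ∈ ks, mk G k = Nat.card G) (g : G) :
    orderOf g ∈ ks := by
  by_contra h0
  have h1 := Finset.sum_le_sum_of_subset (f := mk G) (Finset.insert_subset
    (Nat.mem_divisors.2 ⟨orderOf_dvd_natCard g, Nat.card_pos.ne'⟩) hk)
  rw [Finset.sum_insert h0, h, ← (num G).sum] at h1
  exact mk_ne_zero.2 ⟨g, rfl⟩ (by omega)

theorem simple360 {G : Type*} [Group G] [Finite G] (hG : Nat.card G = 360)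
    (ho : ∀ g : G, orderOf g ∈ ({1, 2, 3, 4, 5} : Finset ℕ))
    (h3 : Nat.card {g : G // g ^ 3 = 1} = 81) (h5 : Nat.card {g : G // g ^ 5 = 1} = 145) :
    IsSimpleGroup G := by
  have := Fact.mk Nat.prime_five
  have hnt : Nontrivial G := Finite.one_lt_card_iff_nontrivial.1 (by omega)
  -- a normal subgroup of index prime to `p` contains all solutions of `g ^ p = 1`
  have hle : ∀ (N : Subgroup G) [N.Normal] (p : ℕ), p.Coprime N.index →
      Nat.card {g : G // g ^ p = 1} ≤ Nat.card N := by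
    intro N _ p hp
    refine Nat.card_le_card_of_injective (fun g => ⟨g.1, ?_⟩)
      fun a b hab => Subtype.ext (congrArg (Subtype.val : N → G) hab)
    refine Cfsg.Lib.Solv.le_of_coprime_card_index (H := Subgroup.zpowers g.1) ?_
      (Subgroup.mem_zpowers _)
    rw [Nat.card_zpowers]
    exact Nat.Coprime.coprime_dvd_left (orderOf_dvd_of_pow_eq_one g.2) hp
  obtain ⟨x, hx⟩ := exists_prime_orderOf_dvd_card' (G := G) 5 (by rw [hG]; norm_num)
  -- `x` acts freely on invariant sets of nonidentity elements of order prime to `5`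
  have hfree : ∀ φ : G → Prop, (∀ s g, φ g → φ (s * g * s⁻¹)) →
      (∀ g, φ g → g ≠ 1 ∧ ¬ 5 ∣ orderOf g) → 5 ∣ Nat.card {g // φ g} := by
    intro φ h1 h2
    have h := Cfsg.Lib.Bender.card_dvd_of_conj_free (Subgroup.zpowers x) φ
      (fun s _ g hg => h1 s g hg) (fun s hs g hg hsg => by
        by_contra hs1
        have h6 : orderOf s = 5 := by
          have h7 := Subgroup.orderOf_dvd_natCard _ hs
          rw [Nat.card_zpowers, hx] at h7
          exact ((Nat.dvd_prime Nat.prime_five).1 h7).resolve_left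
            fun h8 => hs1 (orderOf_eq_one_iff.1 h8)
        have h8 : Commute s g := by rwa [mul_inv_eq_iff_eq_mul] at hsg
        have h9 := h8.orderOf_mul_eq_mul_orderOf_of_coprime
          (h6 ▸ (Nat.Prime.coprime_iff_not_dvd Nat.prime_five).2 (h2 g hg).2)
        have h10 := ho (s * g)
        have h11 : orderOf g ≠ 1 := fun h12 => (h2 g hg).1 (orderOf_eq_one_iff.1 h12)
        have h12 := orderOf_pos g
        rw [h9, h6] at h10
        simp only [Finset.mem_insert, Finset.mem_singleton] at h10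
        omega)
    rwa [Nat.card_zpowers, hx] at h
  refine ⟨fun N hN => ?_⟩
  by_contra hc
  push Not at hc
  have hmul := N.card_mul_index
  rw [hG] at hmul
  have hi1 : N.index ≠ 1 := fun h => hc.2 (Subgroup.index_eq_one.1 h)
  have hc1 : Nat.card N ≠ 1 := fun h => hc.1 (Subgroup.eq_bot_of_card_eq _ h)
  have hd : N.index ∈ Nat.divisors 360 := Nat.mem_divisors.2 ⟨Dvd.intro_left _ hmul, by norm_num⟩
  by_cases h5i : 5 ∣ N.index
  · have h5N : ¬ 5 ∣ Nat.card N := fun h => by
      have := Nat.mul_dvd_mul h h5i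
      rw [hmul] at this
      norm_num at this
    have hP : ∀ k : ℕ, 5 ∣ Nat.card {g // (g ∈ N ∧ g ^ k = 1) ∧ g ≠ 1} := fun k =>
      hfree _ (fun s g hg => ⟨⟨hN.conj_mem g hg.1.1 s, by rw [conj_pow, hg.1.2]; simp⟩,
        fun h => hg.2 (by simpa using h)⟩)
        fun g hg => ⟨hg.2, fun h => h5N (h.trans (Subgroup.orderOf_dvd_natCard _ hg.1.1))⟩
    have hadd : ∀ k : ℕ, Nat.card {g // g ∈ N ∧ g ^ k = 1} =
        1 + Nat.card {g // (g ∈ N ∧ g ^ k = 1) ∧ g ≠ 1} := fun k => by
      have h1 := Cfsg.Lib.Solv.Count.cnt_add (fun g : G => g ∈ N ∧ g ^ k = 1) (fun g => g = 1)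
      rw [Cfsg.Lib.Solv.Count.cnt_eq_one (P := fun g : G => (g ∈ N ∧ g ^ k = 1) ∧ g = 1) (a := 1)
        ⟨⟨one_mem _, one_pow _⟩, rfl⟩ fun g hg => hg.2] at h1
      exact h1
    have h0 := hadd 0
    have h0' := hP 0
    have h00 : Nat.card {g // g ∈ N ∧ g ^ 0 = 1} = Nat.card N :=
      Nat.card_congr (Equiv.subtypeEquivRight fun g => by simp)
    have hcases : N.index = 10 ∨ N.index = 60 := by
      have key : ∀ d ∈ Nat.divisors 360, 5 ∣ d → (360 / d) % 5 = 1 → 360 / d ≠ 1 →
          d = 10 ∨ d = 60 := by decide +kernel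
      have h1 : 360 / N.index = Nat.card N := by
        rw [← hmul, Nat.mul_div_cancel _ (Nat.pos_of_ne_zero Subgroup.index_ne_zero_of_finite)]
      exact key _ hd h5i (by omega) (by omega)
    rcases hcases with h | h
    · have := hle N 3 (by rw [h]; norm_num)
      rw [h] at hmul
      omega
    · rw [h] at hmul
      have h6 : Nat.card N = 6 := by omega
      obtain ⟨a, ha, ha2⟩ := Cfsg.Lib.Solv.exists_mem_orderOf_eq_prime Nat.prime_two (K := N)
        (by rw [h6]; norm_num)
      obtain ⟨b, hb, hb3⟩ := Cfsg.Lib.Solv.exists_mem_orderOf_eq_prime Nat.prime_three (K := N)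
        (by rw [h6]; norm_num)
      have h1 := hP 2
      have h2 : 0 < Nat.card {g // (g ∈ N ∧ g ^ 2 = 1) ∧ g ≠ 1} := by
        have : Nonempty {g // (g ∈ N ∧ g ^ 2 = 1) ∧ g ≠ 1} :=
          ⟨⟨a, ⟨ha, ha2 ▸ pow_orderOf_eq_one a⟩, by rintro rfl; simp at ha2⟩⟩
        exact Nat.card_pos
      have h7 := Cfsg.Lib.Solv.Count.cnt_add (fun g : G => g ∈ N) (fun g => g ^ 2 = 1)
      have h8 : Cfsg.Lib.Solv.Count.cnt (fun g : G => g ∈ N ∧ ¬ g ^ 2 = 1) ≠ 0 := by
        have : Nonempty {g // g ∈ N ∧ ¬ g ^ 2 = 1} := ⟨⟨b, hb, fun h9 => by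
          have := orderOf_dvd_of_pow_eq_one h9
          rw [hb3] at this
          norm_num at this⟩⟩
        exact Nat.card_pos.ne'
      have h9 := hadd 2
      have h10 : Cfsg.Lib.Solv.Count.cnt (fun g : G => g ∈ N) = 6 := h6
      have h11 : Cfsg.Lib.Solv.Count.cnt (fun g : G => g ∈ N ∧ g ^ 2 = 1) =
        Nat.card {g // g ∈ N ∧ g ^ 2 = 1} := rfl
      omega
  · have h1 := hle N 5 ((Nat.Prime.coprime_iff_not_dvd Nat.prime_five).2 h5i)
    have h2 : N.index = 2 := by
      have h7 : 0 < N.index := Nat.pos_of_ne_zero Subgroup.index_ne_zero_of_finite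
      by_contra h8
      have h9 : 3 ≤ N.index := by omega
      nlinarith
    have h7 := hle N 15 (by rw [h2]; norm_num)
    have h8 := sum_mk G (n := 15) (by norm_num)
    rw [show Nat.divisors 15 = {1, 3, 5, 15} by decide +kernel] at h8
    have h9 := mk_prime G Nat.prime_three
    have h10 := mk_prime G Nat.prime_five
    simp only [Finset.mem_insert, Finset.mem_singleton, Finset.sum_insert, Finset.sum_singleton,
      OfNat.one_ne_ofNat, Nat.reduceEqDiff, or_self, not_false_eq_true] at h8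
    rw [h2] at hmul
    omega

/-- Let n be 4, 5 or 6 and let G be a finite group whose set of sizes of same-order classes (the set of numbers #{g : o(g) = m} over the element orders m of G) equals that of the alternating group of degree n. Then G is isomorphic to that alternating group. -/
theorem result {G : Type*} [Group G] [Finite G] (n : ℕ) (hn : n = 4 ∨ n = 5 ∨ n = 6)
    (h : ((fun m : ℕ => Nat.card {g : G // orderOf g = m}) '' Set.range (orderOf : G → ℕ)) = ((fun m : ℕ => Nat.card {g : ↥(alternatingGroup (Fin n)) // orderOf g = m}) '' Set.range (orderOf : ↥(alternatingGroup (Fin n)) → ℕ))) :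
    Nonempty (G ≃* ↥(alternatingGroup (Fin n))) := by
  have hv : ∀ v, v ≠ 0 → ((∃ k, mk G k = v) ↔ ∃ k, mk (alternatingGroup (Fin n)) k = v) :=
    fun v hv => by rw [mem_image_iff hv, mem_image_iff hv, h]
  have hS : ∀ {tg}, (∀ k, k ≠ 0 → ∑ d ∈ k.divisors, mk G d = S tg k) →
      ∀ k, k ≠ 0 → Nat.card {g : G // g ^ k = 1} = S tg k :=
    fun h1 k hk => (sum_mk G hk).symm.trans (h1 k hk)
  have h1 := (num G).one
  have h2 := mk_prime G Nat.prime_two
  have h3 := mk_prime G Nat.prime_three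
  have h4 := mk_four G
  have h5 := mk_prime G Nat.prime_five
  rcases hn with rfl | rfl | rfl
  · obtain ⟨hG, hs⟩ := main4 (num G) fun v h0 => (hv v h0).trans (alt4 v h0)
    have e2 : _ = 4 := hS hs 2 (by norm_num)
    have e3 : _ = 9 := hS hs 3 (by norm_num)
    refine Cfsg.Lib.Class.nonempty_mulEquiv_A4_of_pow hG fun g => ?_
    have := order_mem_of_sum {1, 2, 3} (by rw [hG]; decide) (by simp; omega) g
    simp only [Finset.mem_insert, Finset.mem_singleton] at this
    simp only [← orderOf_dvd_iff_pow_eq_one]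
    rcases this with h | h | h <;> simp [h]
  · obtain ⟨hG, hs⟩ := main5 (num G) fun v h0 => (hv v h0).trans (alt5 v h0)
    have e2 : _ = 16 := hS hs 2 (by norm_num)
    have e3 : _ = 21 := hS hs 3 (by norm_num)
    have e5 : _ = 25 := hS hs 5 (by norm_num)
    refine Cfsg.Lib.Class.nonempty_mulEquiv_A5_of_pow hG fun g => ?_
    have := order_mem_of_sum {1, 2, 3, 5} (by rw [hG]; decide) (by simp; omega) g
    simp only [Finset.mem_insert, Finset.mem_singleton] at this
    simp only [← orderOf_dvd_iff_pow_eq_one]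
    rcases this with h | h | h | h <;> simp [h]
  · obtain ⟨hG, hs⟩ := main6 (num G) fun v h0 => (hv v h0).trans (alt6 v h0)
    have e2 : _ = 46 := hS hs 2 (by norm_num)
    have e3 : _ = 81 := hS hs 3 (by norm_num)
    have e4 : _ = 136 := hS hs 4 (by norm_num)
    have e5 : _ = 145 := hS hs 5 (by norm_num)
    have := simple360 hG (order_mem_of_sum _ (by rw [hG]; decide +kernel) (by simp; omega)) e3 e5
    exact Cfsg.Agent.S0497.result hG

end Cfsg.Agent.S3431
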