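import Cfsg.Statements.S3704
import Mathlib

set_option autoImplicit false
open Cfsg

namespace Cfsg.Agent.S3704

open MulAction Finset

section
variable {G Ω : Type*} [Group G] [MulAction G Ω]

theorem inv_const (h2 : IsMultiplyPretransitive G Ω 2) (M : Ω → Ω → ℚ)
    (hM : ∀ (g : G) x y, M (g • x) (g • y) = M x y) {x y : Ω} (hxy : x ≠ y) [DecidableEq Ω]
    (u v : Ω) : M u v = if u = v then M x x else M x y := by
  have := isPretransitive_of_is_two_pretransitive (G := G) (α := Ω)
  split_ifs with h
  · obtain ⟨g, rfl⟩ := exists_smul_eq G x u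
    rw [← h, hM]
  · obtain ⟨g, rfl, rfl⟩ := is_two_pretransitive_iff.1 h2 hxy h
    rw [hM]

open Classical in
/-- incidence matrix -/
noncomputable def inc (H : Subgroup G) (a : Ω) (x : Ω) (q : G ⧸ H) : ℚ :=
  if q.out⁻¹ • x ∈ orbit H a then 1 else 0

open Classical in
theorem inc_mk (H : Subgroup G) (a x : Ω) (g : G) :
    inc H a x g = if g⁻¹ • x ∈ orbit H a then 1 else 0 := by
  obtain ⟨h, e⟩ := QuotientGroup.mk_out_eq_mul H g
  rw [inc, e, mul_inv_rev, mul_smul]
  congr 1
  refine propext ⟨fun h1 => ?_, fun h1 => mem_orbit_of_mem_orbit h⁻¹ h1⟩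
  have := mem_orbit_of_mem_orbit h h1
  rwa [Subgroup.smul_def, smul_inv_smul] at this

theorem inc_smul (H : Subgroup G) (a x : Ω) (g : G) (q : G ⧸ H) :
    inc H a (g • x) (g • q) = inc H a x q := by
  obtain ⟨k, rfl⟩ := QuotientGroup.mk_surjective q
  rw [MulAction.Quotient.smul_mk, inc_mk, inc_mk, smul_eq_mul, mul_inv_rev, mul_smul, inv_smul_smul]

end


/-- Let G be a finite group acting faithfully and 2-transitively on a finite set Ω of size n, and let H be a subgroup of index n in G which is not transitive on Ω and fixes no point of Ω. Then H has exactly two orbits on Ω. -/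
theorem result {G Ω : Type*} [Group G] [Finite G] [MulAction G Ω] [FaithfulSMul G Ω] [Finite Ω] (h2 : MulAction.IsMultiplyPretransitive G Ω 2) (H : Subgroup G) (hidx : H.index = Nat.card Ω) (hnt : ¬ MulAction.IsPretransitive H Ω) (hfix : ∀ a : Ω, ∃ h : H, h • a ≠ a) : Nat.card (MulAction.orbitRel.Quotient H Ω) = 2 := by
  classical
  have := Fintype.ofFinite Ω
  have := Fintype.ofFinite (G ⧸ H)
  obtain ⟨a, b, hab⟩ : ∃ a b : Ω, b ∉ orbit H a := by
    by_contra hn
    push Not at hn
    exact hnt ⟨fun x y => hn x y⟩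
  have hne : a ≠ b := fun e => hab (e ▸ mem_orbit_self a)
  let L : (Ω → ℚ) →ₗ[ℚ] (G ⧸ H → ℚ) := Matrix.vecMulLinear (Matrix.of (inc H a))
  have hL : ∀ v q, L v q = ∑ x, v x * inc H a x q := fun v q => rfl
  have e1 : ∀ c x : Ω, inc H c x ((1 : G) : G ⧸ H) = if x ∈ orbit H c then 1 else 0 := fun c x => by
    rw [inc_mk, inv_one, one_smul]
  have hinj : Function.Injective L := by
    rw [injective_iff_map_eq_zero]
    intro v hv
    let M : Ω → Ω → ℚ := fun x y => ∑ q, inc H a x q * inc H a y q
    have hM := inv_const h2 M (fun g x y => by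
      simp only [M]
      rw [← Equiv.sum_comp (MulAction.toPerm g)]
      simp only [toPerm_apply, inc_smul]) hne
    have hlt : M a b < M a a := by
      refine sum_lt_sum (fun q _ => ?_) ⟨((1 : G) : G ⧸ H), mem_univ _, by simp [e1, hab]⟩
      simp only [inc]; split_ifs <;> norm_num
    have h3 : ∀ y, (M a a - M a b) * v y + M a b * ∑ x, v x = 0 := fun y => by
      have h4 : ∑ x, v x * M x y = 0 := by
        simp only [M, mul_sum, ← mul_assoc]
        rw [sum_comm]
        simp only [← sum_mul, ← hL, hv, Pi.zero_apply, zero_mul, sum_const_zero]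
      rw [← h4, mul_sum, ← add_sum_erase _ _ (mem_univ y), ← add_sum_erase _ _ (mem_univ y), hM y y,
        if_pos rfl, sum_congr rfl fun x hx => show v x * M x y = M a b * v x by
          rw [hM, if_neg (mem_erase.1 hx).1, mul_comm]]
      ring
    have h5 : ∀ y, v y = v a := fun y =>
      mul_left_cancel₀ (sub_pos.2 hlt).ne' (by linarith [h3 y, h3 a])
    have h6 := congrFun hv ((1 : G) : G ⧸ H)
    simp only [hL, h5, ← mul_sum, Pi.zero_apply, mul_eq_zero] at h6
    have h7 : 0 < ∑ x, inc H a x ((1 : G) : G ⧸ H) :=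
      sum_pos' (fun x _ => by rw [e1]; split_ifs <;> norm_num) ⟨a, mem_univ _, by simp [e1]⟩
    exact funext fun y => (h5 y).trans (h6.resolve_right h7.ne')
  have hsurj := (LinearMap.injective_iff_surjective_of_finrank_eq_finrank (by
    rw [Module.finrank_fintype_fun_eq_card, Module.finrank_fintype_fun_eq_card,
      ← Nat.card_eq_fintype_card, ← hidx, ← Nat.card_eq_fintype_card]; rfl)).1 hinj
  choose N hN using fun x => hsurj (inc H b x)
  have hNi := inv_const h2 N (fun g x y => congrFun (hinj (a₁ := fun y => N (g • x) (g • y)) (by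
    ext q
    rw [hN, hL, ← inc_smul H b x g, ← hN, hL, eq_comm, ← Equiv.sum_comp (MulAction.toPerm g)]
    simp only [toPerm_apply, inc_smul])) y) hne
  have key : ∀ x, x ∉ orbit H a → inc H b x ((1 : G) : G ⧸ H) =
      N a b * ∑ y, inc H a y ((1 : G) : G ⧸ H) := fun x hx => by
    rw [← hN, hL, mul_sum]
    refine sum_congr rfl fun y _ => ?_
    rw [hNi]
    split_ifs with h
    · simp [e1, ← h, hx]
    · rfl
  rw [Nat.card_eq_two_iff]
  refine ⟨Quotient.mk'' a, Quotient.mk'' b, fun e => hab (orbitRel_apply.1 (Quotient.exact' e.symm)),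
    Set.eq_univ_of_forall fun q => ?_⟩
  obtain ⟨x, rfl⟩ := Quotient.exists_rep q
  by_cases hx : x ∈ orbit H a
  · exact Or.inl (Quotient.sound' hx)
  · have := (key x hx).trans (key b hab).symm
    rw [e1, e1, if_pos (mem_orbit_self b)] at this
    exact Or.inr (Quotient.sound' (by by_contra h; simp [orbitRel_apply.not.1 h] at this))

end Cfsg.Agent.S3704
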