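import Cfsg.Statements.S3733
import Cfsg.Agent.Solv.CoprimeAbelian

set_option autoImplicit false
open Cfsg

namespace Cfsg.Agent.S3733

open Subgroup Cfsg.Lib.Solv in
theorem aux {V A ι : Type*} [CommGroup V] [Group A] [Finite A] (φ : A →* MulAut V) (s : Finset ι)
    (B : ι → Subgroup A) (hne : s.Nonempty) (hpart : ∀ a : A, a ≠ 1 → ∃! i, i ∈ s ∧ a ∈ B i)
    (hfix : ∀ i ∈ s, ∀ v : V, (∀ b ∈ B i, φ b v = v) → v = 1) (v : V) :
    v ^ (s.card - 1) = 1 := by
  classical
  have := Fintype.ofFinite A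
  have h1 : ∀ C : Subgroup A, ∀ b ∈ C,
      φ b (∏ a ∈ Finset.univ.filter (· ∈ C), φ a v) = ∏ a ∈ Finset.univ.filter (· ∈ C), φ a v := by
    intro C b hb
    rw [map_prod]
    refine Finset.prod_equiv (Equiv.mulLeft b) (fun a => ?_) (fun a _ => by simp)
    simp [C.mul_mem_cancel_left hb]
  have h2 : ∀ i ∈ s, ∏ a ∈ Finset.univ.filter (· ∈ B i), φ a v = 1 :=
    fun i hi => hfix i hi _ (h1 (B i))
  obtain ⟨i₀, hi₀⟩ := hne
  have h3 : ∏ a : A, φ a v = 1 := by
    have := hfix i₀ hi₀ _ (fun b _ => h1 ⊤ b trivial)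
    simpa using this
  have h4 : ∏ i ∈ s, ∏ a ∈ Finset.univ.filter (· ∈ B i), φ a v = 1 := Finset.prod_eq_one h2
  simp only [Finset.prod_filter] at h4
  rw [Finset.prod_comm] at h4
  have h5 : ∀ a : A, (∏ i ∈ s, if a ∈ B i then φ a v else 1) =
      φ a v * if a = 1 then v ^ (s.card - 1) else 1 := by
    intro a
    rw [← Finset.prod_filter, Finset.prod_const]
    split_ifs with ha
    · subst ha
      simp only [one_mem, Finset.filter_true, map_one, MulAut.one_apply]
      rw [← pow_succ', Nat.sub_add_cancel (Finset.card_pos.mpr ⟨i₀, hi₀⟩)]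
    · obtain ⟨i, hi, hu⟩ := hpart a ha
      have : s.filter (fun i => a ∈ B i) = {i} := by
        ext j
        simp only [Finset.mem_filter, Finset.mem_singleton]
        exact ⟨fun h => hu j h, fun h => h ▸ hi⟩
      rw [this]; simp
  simp only [h5, Finset.prod_mul_distrib, h3, one_mul] at h4
  simpa using h4

/-- Let A and V be subgroups of a finite group with V abelian and nontrivial and A normalizing V. Suppose a nonempty finite family of proper subgroups of A partitions A: every non-identity element of A lies in exactly one member. If the number of members minus one is coprime to the order of V, then some member B of the family has a non-identity fixed point on V, that is V ∩ C(B) ≠ 1. -/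
theorem result {G : Type*} [Group G] [Finite G] (A V : Subgroup G) (hVab : IsMulCommutative V) (hV : V ≠ ⊥) (hAV : A ≤ Subgroup.normalizer (V : Set G)) (𝒜 : Finset (Subgroup G)) (hne : 𝒜.Nonempty) (hprop : ∀ B ∈ 𝒜, B < A) (hpart : ∀ a ∈ A, a ≠ 1 → ∃! B, B ∈ 𝒜 ∧ a ∈ B) (hk : (𝒜.card - 1).Coprime (Nat.card V)) : ∃ B ∈ 𝒜, V ⊓ Subgroup.centralizer (B : Set G) ≠ ⊥ := by
  open scoped IsMulCommutative in
  by_contra hcon
  push Not at hcon
  apply hV
  rw [eq_bot_iff]
  intro v hv
  have := aux (Cfsg.Lib.Solv.conjAutOf V A hAV) 𝒜 (fun B => B.subgroupOf A) hne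
    (fun a ha => hpart a a.2 (fun h => ha (Subtype.ext h))) (fun B hB w hw => ?_) ⟨v, hv⟩
  · have h5 : (⟨v, hv⟩ : V) = 1 := orderOf_eq_one_iff.mp (Nat.eq_one_of_dvd_coprimes hk
      (orderOf_dvd_of_pow_eq_one this) (orderOf_dvd_natCard _))
    exact congrArg Subtype.val h5
  · have h6 : (w : G) ∈ V ⊓ Subgroup.centralizer (B : Set G) := by
      refine ⟨w.2, fun b hb => ?_⟩
      exact (Cfsg.Lib.Solv.conjAutOf_apply_eq_self_iff hAV ⟨b, (hprop B hB).le hb⟩ w).mp
        (hw ⟨b, (hprop B hB).le hb⟩ hb)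
    rw [hcon B hB] at h6
    exact Subtype.ext h6

end Cfsg.Agent.S3733
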