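import Cfsg.Statements.S3734
import Cfsg.Agent.Solv.CoprimeGen

set_option autoImplicit false
open Cfsg

namespace Cfsg.Agent.S3734

/-- Let A and G be subgroups of a finite group with A abelian, A normalizing G and the orders of A and G coprime. Then G is generated by the fixed-point subgroups C_G(B) of those subgroups B of A for which A/B is cyclic (that is, A = ⟨B, a⟩ for some a), and [G, A] is generated by the commutator subgroups [C_G(B), A] over the same subgroups B. -/
theorem result {X : Type*} [Group X] [Finite X] (A G : Subgroup X) (hAab : IsMulCommutative A) (hAG : A ≤ Subgroup.normalizer (G : Set X)) (hcop : (Nat.card A).Coprime (Nat.card G)) : (⨆ B ∈ {B : Subgroup X | B ≤ A ∧ ∃ a ∈ A, B ⊔ Subgroup.zpowers a = A}, G ⊓ Subgroup.centralizer (B : Set X)) = G ∧ (⨆ B ∈ {B : Subgroup X | B ≤ A ∧ ∃ a ∈ A, B ⊔ Subgroup.zpowers a = A}, ⁅G ⊓ Subgroup.centralizer (B : Set X), A⁆) = ⁅G, A⁆ := by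
  have hn : ∀ B : Subgroup X, B ≤ A →
      A ≤ Subgroup.normalizer ((G ⊓ Subgroup.centralizer (B : Set X) : Subgroup X) : Set X) :=
    fun B hB => Cfsg.Lib.Solv.le_normalizer_inf_centralizer hAG
      (Cfsg.Lib.Solv.Coprime.le_normalizer_of_le_of_comm hB)
  constructor
  · refine le_antisymm (iSup₂_le fun _ _ => inf_le_left) ?_
    exact Cfsg.Lib.Solv.Coprime.le_of_forall_cocyclic hAG hcop fun B h1 h2 =>
      le_iSup₂_of_le (f := fun B (_ : B ∈ {B : Subgroup X | B ≤ A ∧ ∃ a ∈ A,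
        B ⊔ Subgroup.zpowers a = A}) => G ⊓ Subgroup.centralizer (B : Set X)) B ⟨h1, h2⟩ le_rfl
  · refine le_antisymm (iSup₂_le fun _ _ => Subgroup.commutator_mono inf_le_left le_rfl) ?_
    exact Cfsg.Lib.Solv.Coprime.commutator_le_of_forall_cocyclic hAG hcop fun B h1 h2 =>
      le_iSup₂_of_le (f := fun B (_ : B ∈ {B : Subgroup X | B ≤ A ∧ ∃ a ∈ A,
        B ⊔ Subgroup.zpowers a = A}) => ⁅G ⊓ Subgroup.centralizer (B : Set X), A⁆) B ⟨h1, h2⟩ le_rfl

end Cfsg.Agent.S3734
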