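import Cfsg.Statements.S3736
import Cfsg.Agent.Trans.MinimalAction

set_option autoImplicit false
open Cfsg

namespace Cfsg.Agent.S3736

open Cfsg.Lib.Trans Cfsg.Lib.Solv Subgroup


/-- The Hall–Higman reduction for a minimal non-trivial action. Let B, A and P be subgroups of a finite group with P a p-group, B normalizing P, and A a normal subgroup of B of order prime to p. Suppose A does not centralize P but centralizes every proper B-invariant subgroup of P. Then [P, A] = P; P is elementary abelian or special; B acts irreducibly on P/Φ(P), that is, the only B-invariant subgroups of P containing Φ(P) are Φ(P) and P; and if p is odd then every element of P has order dividing p. -/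
theorem result {X : Type*} [Group X] [Finite X] {p : ℕ} [Fact p.Prime] (B A P : Subgroup X) (hP : IsPGroup p P) (hBP : B ≤ Subgroup.normalizer (P : Set X)) (hAB : A ≤ B) (hAn : B ≤ Subgroup.normalizer (A : Set X)) (hAp : (Nat.card A).Coprime p) (hnt : ⁅P, A⁆ ≠ ⊥) (hmin : ∀ U : Subgroup X, U < P → B ≤ Subgroup.normalizer (U : Set X) → ⁅U, A⁆ = ⊥) : ⁅P, A⁆ = P ∧ (Cfsg.IsElementaryAbelian p P ∨ Cfsg.IsSpecial p ↥P) ∧ (∀ U : Subgroup X, (frattini ↥P).map P.subtype ≤ U → U ≤ P → B ≤ Subgroup.normalizer (U : Set X) → U = (frattini ↥P).map P.subtype ∨ U = P) ∧ (p ≠ 2 → ∀ x ∈ P, x ^ p = 1) := by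
  obtain ⟨h1, h2, h3, h4, h5⟩ := minimal_action_structure' hP hBP hAB hAn hAp hnt hmin
  have key : ∀ U < P, B ≤ normalizer (U : Set X) → U ≤ (frattini P).map P.subtype := by
    intro U hU hB
    rw [h4]
    exact le_inf hU.le (commutator_eq_bot_iff_le_centralizer.mp (hmin U hU hB))
  refine ⟨h1, ?_, fun U hU1 hU2 hU3 => ?_, fun hp x hx => (h5 x hx).resolve_right fun h => hp h.1⟩
  · by_cases hc : P ≤ centralizer (P : Set X)
    · left
      refine ⟨le_centralizer_iff_isMulCommutative.mp hc, fun a ha => ?_⟩
      have := pow_mem_map_frattini hP ha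
      rwa [h3, commutator_eq_bot_iff_le_centralizer.mpr hc, mem_bot] at this
    · right
      have h6 : (center P).map P.subtype = (frattini P).map P.subtype := by
        have e : (center P).map P.subtype = P ⊓ centralizer (P : Set X) := by
          ext x
          constructor
          · rintro ⟨y, hy, rfl⟩
            exact ⟨y.2, fun z hz => congrArg Subtype.val (mem_center_iff.mp hy ⟨z, hz⟩)⟩
          · rintro ⟨hx1, hx2⟩
            exact ⟨⟨x, hx1⟩, mem_center_iff.mpr fun z => Subtype.ext (hx2 z z.2), rfl⟩
        rw [e]
        refine le_antisymm (key _ (lt_of_le_of_ne inf_le_left fun h => hc (inf_eq_left.mp h))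
          (le_normalizer_inf hBP (le_normalizer_centralizer hBP))) (le_inf (map_subtype_le _) h2)
      refine ⟨hP, (map_injective P.subtype_injective h6).symm, ?_⟩
      apply map_injective P.subtype_injective
      rw [h6, h3, Subgroup.map_subtype_commutator]
  · by_cases h : U = P
    · exact Or.inr h
    · exact Or.inl (le_antisymm (key U (lt_of_le_of_ne hU2 h) hU3) hU1)

end Cfsg.Agent.S3736
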