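import Cfsg.Statements.S3738
import Cfsg.Agent.Rank2.Three

set_option autoImplicit false
set_option maxHeartbeats 400000
open Cfsg

namespace Cfsg.Agent.S3738

/-- Let d be a non-identity 3-element of a finite group and P a 2-subgroup normalized by d on which ⟨d⟩ acts faithfully (no non-identity power of d centralizes P) and without non-identity fixed points (C_P(d) = 1). If every abelian subgroup of P has 2-rank at most 2, then d has order 3. -/
theorem result {X : Type*} [Group X] [Finite X] (d : X) (n : ℕ) (hn : 1 ≤ n) (hd : orderOf d = 3 ^ n) (P : Subgroup X) (hP : IsPGroup 2 P) (hdP : d ∈ Subgroup.normalizer (P : Set X)) (hfaith : Subgroup.zpowers d ⊓ Subgroup.centralizer (P : Set X) = ⊥) (hfpf : P ⊓ Subgroup.centralizer {d} = ⊥) (hrank : ∀ V : Subgroup X, V ≤ P → IsMulCommutative V → Cfsg.PRankLE 2 2 V) : orderOf d = 3 := by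
  let φ : MulAut P := P.normalizerMonoidHom ⟨d, hdP⟩
  have hφ : ∀ (k : ℕ) (x : P), (((φ ^ k) x : P) : X) = d ^ k * x * (d ^ k)⁻¹ := fun k x => by
    rw [← map_pow]; rfl
  have h1 : φ ^ 3 ^ n = 1 := MulEquiv.ext fun x => Subtype.ext (by
    rw [hφ, ← hd, pow_orderOf_eq_one]; simp)
  obtain ⟨k, -, hk⟩ := (Nat.dvd_prime_pow Nat.prime_three).1 (orderOf_dvd_iff_pow_eq_one.2 h1)
  have hr : PRankLE 2 2 P := fun A hA h2 => by
    have := hrank (A.map P.subtype) (Subgroup.map_subtype_le A) inferInstance ⊤ inferInstance (by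
      rintro ⟨_, x, hx, rfl⟩ -
      exact Subtype.ext (congrArg (fun y : P => (y : X)) (h2 x hx)))
    rwa [Subgroup.card_top, Subgroup.card_map_of_injective P.subtype_injective] at this
  have h3 := Lib.Rank2.cube_eq_one_of_fpf hP hr hk fun x hx => Subtype.ext (by
    have : (x : X) ∈ P ⊓ Subgroup.centralizer {d} :=
      ⟨x.2, Subgroup.mem_centralizer_singleton_iff.2 (by
        have := hφ 1 x
        rw [pow_one, hx, pow_one, eq_mul_inv_iff_mul_eq] at this
        exact this)⟩
    rwa [hfpf] at this)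
  have h4 : d ^ 3 ∈ Subgroup.zpowers d ⊓ Subgroup.centralizer (P : Set X) :=
    ⟨pow_mem (Subgroup.mem_zpowers d) 3, fun x hx => by
      have := hφ 3 ⟨x, hx⟩
      rw [h3, eq_mul_inv_iff_mul_eq] at this
      exact this⟩
  rw [hfaith, Subgroup.mem_bot] at h4
  refine Nat.dvd_antisymm (orderOf_dvd_iff_pow_eq_one.2 h4) ?_
  rw [hd]; exact dvd_pow_self 3 (by omega)

end Cfsg.Agent.S3738
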