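import Cfsg.Statements.S3739
import Cfsg.Agent.S0501
import Cfsg.Agent.Solv.FrattiniRep
import Cfsg.Agent.Solv.FrattiniP
import Cfsg.Agent.Solv.Cores
import Cfsg.Agent.Solv.PGroupNormal
import Cfsg.Agent.FT.BG4.Elem
import Cfsg.Agent.FT.Elem
import Cfsg.Agent.Gold.TFMod

set_option autoImplicit false
open Cfsg

namespace Cfsg.Agent.S3739

open Subgroup

theorem dvd_card_of_stab {T X : Type*} [Group T] [MulAction T X] [Finite X] {m : ℕ}
    (h : ∀ x : X, m ∣ (MulAction.stabilizer T x).index) : m ∣ Nat.card X := by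
  classical
  have := Fintype.ofFinite (MulAction.orbitRel.Quotient T X)
  rw [Nat.card_congr (MulAction.selfEquivSigmaOrbits T X), Nat.card_sigma]
  refine Finset.dvd_sum fun ω _ => ?_
  have := h ω.out
  rw [MulAction.index_stabilizer, ← Nat.card_coe_set_eq] at this
  exact this

variable {G : Type*} [Group G] [Finite G]

/-- rank at most two -/
def Rk (G : Type*) [Group G] : Prop :=
  ∀ E : Subgroup G, IsElementaryAbelian 2 E → Nat.card E ≤ 4

theorem rk_of (h : ¬ ∃ E : Subgroup G, IsElementaryAbelian 2 E ∧ Nat.card E = 8) : Rk G := by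
  intro E hE
  by_contra hlt
  haveI : Fact (Nat.Prime 2) := ⟨Nat.prime_two⟩
  obtain ⟨n, hn⟩ := IsPGroup.iff_card.1 (Lib.FT.abelem_pgroup hE)
  have h3 : 3 ≤ n := by
    by_contra h3
    have : n ≤ 2 := by omega
    have := Nat.pow_le_pow_right (show 0 < 2 by norm_num) this
    omega
  obtain ⟨K, hK⟩ := Sylow.exists_subgroup_card_pow_prime (G := E) 2 (n := 3)
    (hn ▸ pow_dvd_pow 2 h3)
  refine h ⟨K.map E.subtype, ⟨⟨⟨?_⟩⟩, ?_⟩, ?_⟩
  · rintro ⟨_, a, -, rfl⟩ ⟨_, b, -, rfl⟩
    have := congrArg E.subtype (hE.1.is_comm.comm a b)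
    rw [map_mul, map_mul] at this
    exact Subtype.ext this
  · rintro _ ⟨a, -, rfl⟩
    exact hE.2 a a.2
  · rw [card_map_of_injective E.subtype_injective, hK]; rfl

theorem Rk.absorb (h : Rk G) {E : Subgroup G} (hE : IsElementaryAbelian 2 E)
    (h4 : Nat.card E = 4) {u : G} (hu : u ^ 2 = 1) (hc : u ∈ centralizer (E : Set G)) :
    u ∈ E := by
  have h1 := h _ (Lib.FT.BG4.isElementaryAbelian_sup_zpowers hE hc hu)
  have : E = E ⊔ zpowers u := eq_of_le_of_card_ge le_sup_left (by omega)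
  rw [this]
  exact mem_sup_right (mem_zpowers u)

theorem card_cases {E C : Subgroup G} (h4 : Nat.card E = 4) (hC : C ≤ E) :
    C = ⊥ ∨ Nat.card C = 2 ∨ C = E := by
  have hd := card_dvd_of_le hC
  rw [h4] at hd
  have hle := Nat.le_of_dvd (by norm_num) hd
  have hpos : 0 < Nat.card C := Nat.card_pos
  interval_cases hc : Nat.card C
  · exact Or.inl (card_eq_one.1 hc)
  · exact Or.inr (Or.inl rfl)
  · exact absurd hd (by norm_num)
  · exact Or.inr (Or.inr (eq_of_le_of_card_ge hC (by omega)))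

/-- a `3`-element normalising a four-group and fixing an involution of it centralises it -/
theorem fix3 {E : Subgroup G} (h4 : Nat.card E = 4) {t : G} {j : ℕ} (ht : t ^ 3 ^ j = 1)
    (hn : t ∈ normalizer (E : Set G)) (hne : E ⊓ centralizer {t} ≠ ⊥) :
    t ∈ centralizer (E : Set G) := by
  have hm := Lib.Gold.TF.card_modEq_inf_centralizer (r := 3) Nat.prime_three ht hn
  rcases card_cases h4 (inf_le_left : E ⊓ centralizer {t} ≤ E) with h | h | h
  · exact absurd h hne
  · rw [h4, h] at hm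
    exact absurd hm (by decide)
  · intro e he
    have : e ∈ E ⊓ centralizer {t} := h.symm ▸ he
    exact (mem_centralizer_singleton_iff.1 this.2)

theorem pow3 {t : G} (h : IsPGroup 3 (zpowers t)) : ∃ j, t ^ 3 ^ j = 1 := by
  obtain ⟨j, hj⟩ := h ⟨t, mem_zpowers t⟩
  exact ⟨j, congrArg Subtype.val hj⟩

/-- The counting argument on the Frattini quotient. -/
theorem core {Q T C : Subgroup G} [Q.Normal] [C.Normal] (hQ : IsPGroup 2 Q)
    (hs : SectionalPRankLE 2 4 Q) (hT : IsPGroup 3 T) (hTC : ¬ T ≤ C)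
    (hf : ∀ t ∈ T, t ∉ C → Q ⊓ centralizer {t} = ⊥) :
    ⁅T ⊓ C, Q⁆ ≤ (frattini Q).map Q.subtype := by
  haveI : Fact (Nat.Prime 2) := ⟨Nat.prime_two⟩
  haveI : Fact (Nat.Prime 3) := ⟨Nat.prime_three⟩
  set F : Subgroup G := (frattini Q).map Q.subtype with hF
  haveI : F.Normal := ConjAct.normal_of_characteristic_of_normal
  have hFQ : F ≤ Q := map_subtype_le _
  let π := QuotientGroup.mk' F
  let V : Subgroup (G ⧸ F) := Q.map π
  haveI : V.Normal := Normal.map inferInstance π (QuotientGroup.mk'_surjective F)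
  have hsq : ∀ q ∈ Q, π q ^ 2 = 1 := by
    intro q hq
    rw [← map_pow]
    exact (QuotientGroup.eq_one_iff _).2
      ⟨⟨q, hq⟩ ^ 2, Lib.Solv.pow_mem_frattini hQ _, rfl⟩
  -- the order of `V`
  have hV16 : Nat.card V ≤ 16 := by
    have h1 := hs ⊤ ((frattini Q).comap (⊤ : Subgroup Q).subtype) ⊤
    have hsq' : ∀ a : (⊤ : Subgroup Q) ⧸ (frattini Q).comap (⊤ : Subgroup Q).subtype,
        a ^ 2 = 1 := by
      intro a
      obtain ⟨a, rfl⟩ := QuotientGroup.mk_surjective a
      rw [← QuotientGroup.mk_pow]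
      exact (QuotientGroup.eq_one_iff _).2 (Lib.Solv.pow_mem_frattini hQ (a : Q))
    have h2 := h1 ⟨⟨fun a b => Subtype.ext (by
      have e1 := hsq' (a.1 * b.1)
      have e2 := hsq' a.1
      have e3 := hsq' b.1
      rw [pow_two] at e1 e2 e3
      show a.1 * b.1 = b.1 * a.1
      calc a.1 * b.1 = (b.1 * b.1) * (a.1 * b.1) * (a.1 * a.1) := by
            rw [e2, e3, one_mul, mul_one]
        _ = b.1 * ((b.1 * a.1) * (b.1 * a.1)) * a.1 := by simp only [mul_assoc]
        _ = b.1 * a.1 := by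
          have e4 := hsq' (b.1 * a.1)
          rw [pow_two] at e4
          rw [e4, mul_one])⟩⟩ (fun a _ => hsq' a)
    rw [card_top, ← index_eq_card, index_comap_of_surjective _
      (fun x => ⟨⟨x, mem_top x⟩, rfl⟩)] at h2
    have h3 : Nat.card V = (frattini Q).index := by
      have e1 : Nat.card V = F.relIndex Q := by
        have := relIndex_ker Q π
        rw [QuotientGroup.ker_mk'] at this
        exact this.symm
      rw [e1, relIndex, hF, subgroupOf, comap_map_eq_self_of_injective Q.subtype_injective]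
    omega
  have hVp : IsPGroup 2 V := hQ.map π
  -- fixed-point-free action on the quotient
  have hfV : ∀ t ∈ T, t ∉ C → ∀ v ∈ V, π t * v * (π t)⁻¹ = v → v = 1 := by
    rintro t ht htC _ ⟨q, hq, rfl⟩ hfix
    by_contra hne
    obtain ⟨j, hj⟩ := hT ⟨t, ht⟩
    have hj : t ^ 3 ^ j = 1 := congrArg Subtype.val hj
    let D : Subgroup G := (zpowers (π q)).comap π
    have hDQ : D ≤ Q := by
      have : D ≤ V.comap π := comap_mono (zpowers_le.2 ⟨q, hq, rfl⟩)
      refine this.trans ?_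
      rw [comap_map_eq, QuotientGroup.ker_mk']
      exact sup_le le_rfl hFQ
    have hDc : Nat.card D = Nat.card F * 2 := by
      have := QuotientGroup.card_preimage_mk F (zpowers (π q) : Set (G ⧸ F))
      have h2 : Nat.card (zpowers (π q)) = 2 := by
        rw [Nat.card_zpowers]
        exact orderOf_eq_prime (hsq q hq) hne
      exact this.trans (congrArg _ h2)
    have hcm : Commute (π t) (π q) := by
      have := congrArg (· * π t) hfix
      simpa [Commute, SemiconjBy] using this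
    have hnD : t ∈ normalizer (D : Set G) := by
      refine mem_normalizer_fintype fun y hy => ?_
      obtain ⟨k, hk⟩ := hy
      refine ⟨k, ?_⟩
      have hk : π q ^ k = π y := hk
      show π q ^ k = π (t * y * t⁻¹)
      rw [map_mul, map_mul, map_inv, ← hk, (hcm.zpow_right k).eq]
      simp
    have m1 := Lib.Gold.TF.card_modEq_inf_centralizer (r := 3) Nat.prime_three hj hnD
    have m2 := Lib.Gold.TF.card_modEq_inf_centralizer (r := 3) Nat.prime_three hj
      (show t ∈ normalizer (F : Set G) by rw [normalizer_eq_top]; trivial)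
    have b1 : D ⊓ centralizer {t} = ⊥ :=
      eq_bot_iff.2 ((inf_le_inf_right _ hDQ).trans (hf t ht htC).le)
    have b2 : F ⊓ centralizer {t} = ⊥ :=
      eq_bot_iff.2 ((inf_le_inf_right _ hFQ).trans (hf t ht htC).le)
    rw [b1, card_bot, hDc] at m1
    rw [b2, card_bot] at m2
    unfold Nat.ModEq at m1 m2
    omega
  let B : Subgroup (G ⧸ F) := V ⊓ centralizer ((T ⊓ C).map π : Set (G ⧸ F))
  have hB : ∀ v, v ∈ B ↔ v ∈ V ∧ ∀ a ∈ T, a ∈ C → π a * v = v * π a := by
    intro v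
    constructor
    · exact fun h => ⟨h.1, fun a h1 h2 => h.2 _ ⟨a, ⟨h1, h2⟩, rfl⟩⟩
    · rintro ⟨h1, h2⟩
      refine ⟨h1, ?_⟩
      rintro _ ⟨a, ha, rfl⟩
      exact h2 a ha.1 ha.2
  have hBc : ∀ t ∈ T, ∀ v ∈ B, π t * v * (π t)⁻¹ ∈ B := by
    intro t ht v hv
    obtain ⟨h1, h2⟩ := (hB v).1 hv
    refine (hB _).2 ⟨Normal.conj_mem inferInstance _ h1 _, fun a ha hc => ?_⟩
    have := h2 (t⁻¹ * a * t) (T.mul_mem (T.mul_mem (T.inv_mem ht) ha) ht)
      (Normal.conj_mem' inferInstance _ hc _)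
    rw [map_mul, map_mul, map_inv] at this
    calc π a * (π t * v * (π t)⁻¹) = π t * ((π t)⁻¹ * π a * π t * v) * (π t)⁻¹ := by group
      _ = _ := by rw [this]; group
  let S := {v : G ⧸ F // v ∈ V ∧ v ∉ B}
  letI : MulAction T S :=
    { smul := fun t v => ⟨π t * v * (π t)⁻¹, Normal.conj_mem inferInstance _ v.2.1 _, fun h =>
        v.2.2 (by
          have := hBc _ (T.inv_mem t.2) _ h
          rw [map_inv] at this
          simpa [mul_assoc] using this)⟩
      one_smul := fun v => Subtype.ext (by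
        show π ((1 : T) : G) * v * (π ((1 : T) : G))⁻¹ = v
        simp)
      mul_smul := fun s t v => Subtype.ext (by
        show π ((s * t : T) : G) * v * (π ((s * t : T) : G))⁻¹ =
          π s * (π t * v * (π t)⁻¹) * (π s)⁻¹
        rw [coe_mul, map_mul]; group) }
  have hsm : ∀ (t : T) (v : S), ((t • v : S) : G ⧸ F) = π t * v * (π t)⁻¹ := fun _ _ => rfl
  have h9 : 9 ∣ Nat.card S := by
    refine dvd_card_of_stab (T := T) fun v => ?_
    set A : Subgroup T := C.subgroupOf T with hA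
    have hle : MulAction.stabilizer T v ≤ A := by
      intro t ht
      by_contra htC
      have := hfV t t.2 htC v v.2.1 ((hsm t v).symm.trans (congrArg Subtype.val ht))
      exact v.2.2 (this ▸ B.one_mem)
    rw [← relIndex_mul_index hle]
    obtain ⟨a, ha⟩ := hT.index A
    obtain ⟨b, hb⟩ := (hT.to_subgroup A).index ((MulAction.stabilizer T v).subgroupOf A)
    have ha0 : a ≠ 0 := by
      rintro rfl
      rw [pow_zero, index_eq_one, hA, subgroupOf_eq_top] at ha
      exact hTC ha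
    have hb0 : b ≠ 0 := by
      rintro rfl
      rw [pow_zero, index_eq_one, subgroupOf_eq_top] at hb
      refine v.2.2 ((hB _).2 ⟨v.2.1, fun x hx hc => ?_⟩)
      have : (⟨x, hx⟩ : T) • v = v := hb (show (⟨x, hx⟩ : T) ∈ A from hc)
      have := (hsm _ v).symm.trans (congrArg Subtype.val this)
      have := congrArg (· * π x) this
      simpa using this
    rw [relIndex, ha, hb]
    exact mul_dvd_mul (dvd_pow_self 3 hb0) (dvd_pow_self 3 ha0)
  have hsum : Nat.card S + Nat.card B = Nat.card V := by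
    have := Set.ncard_diff_add_ncard_of_subset (s := (B : Set (G ⧸ F))) (t := V)
      (fun v hv => hv.1)
    rw [← Nat.card_coe_set_eq, ← Nat.card_coe_set_eq, ← Nat.card_coe_set_eq] at this
    exact this
  have hBV : B = V := by
    obtain ⟨n, hn⟩ := IsPGroup.iff_card.1 hVp
    obtain ⟨c, hc⟩ := IsPGroup.iff_card.1 (hVp.to_le (inf_le_left : B ≤ V))
    have hn4 : n ≤ 4 := by
      by_contra h
      have := Nat.pow_le_pow_right (show 0 < 2 by norm_num) (show 5 ≤ n by omega)
      omega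
    have hc4 : c ≤ 4 := by
      by_contra h
      have := Nat.pow_le_pow_right (show 0 < 2 by norm_num) (show 5 ≤ c by omega)
      have hc' : Nat.card B = 2 ^ c := hc
      omega
    refine eq_of_le_of_card_ge inf_le_left ?_
    have hc' : Nat.card B = 2 ^ c := hc
    rw [hn, hc'] at hsum
    rw [hn]
    show _ ≤ Nat.card B
    rw [hc']
    interval_cases n <;> interval_cases c <;> omega
  rw [commutator_le]
  intro a ha q hq
  have := ((hB (π q)).1 (hBV.symm ▸ ⟨q, hq, rfl⟩)).2 a ha.1 ha.2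
  refine (QuotientGroup.eq_one_iff _).1 ?_
  show π (a * q * a⁻¹ * q⁻¹) = 1
  rw [map_mul, map_mul, map_mul, this, map_inv, map_inv]
  group

/-- Let G be a finite group with C_G(O₂(G)) ≤ O₂(G) containing an element of order 6, and let d be a non-identity 3-element of G normalizing a nontrivial elementary abelian 2-subgroup W with C_W(d) = 1. Then G has an elementary abelian subgroup of order 8. -/
theorem result {G : Type*} [Group G] [Finite G] (hchar : Subgroup.centralizer (Cfsg.pCore 2 G : Set G) ≤ Cfsg.pCore 2 G) (hsix : ∃ g : G, orderOf g = 6) (d : G) (hd1 : d ≠ 1) (hd : IsPGroup 3 ↥(Subgroup.zpowers d)) (W : Subgroup G) (hW : Cfsg.IsElementaryAbelian 2 W) (hW1 : W ≠ ⊥) (hdW : d ∈ Subgroup.normalizer (W : Set G)) (hfpf : W ⊓ Subgroup.centralizer {d} = ⊥) : ∃ E : Subgroup G, Cfsg.IsElementaryAbelian 2 E ∧ Nat.card E = 8 := by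
  by_contra h8
  have rk := rk_of h8
  haveI : Fact (Nat.Prime 2) := ⟨Nat.prime_two⟩
  haveI : Fact (Nat.Prime 3) := ⟨Nat.prime_three⟩
  set Q := pCore 2 G with hQdef
  have hQ : IsPGroup 2 Q := Lib.Solv.pCore_isPGroup 2 G
  obtain ⟨j, hj⟩ := pow3 hd
  have hWp := Lib.FT.abelem_pgroup hW
  -- a `d`-invariant nontrivial subgroup of `W` has order four
  have four : ∀ U : Subgroup G, U ≤ W → U ≠ ⊥ → d ∈ normalizer (U : Set G) →
      Nat.card U = 4 := by
    intro U hU h1 hn
    have hm := Lib.Gold.TF.card_modEq_inf_centralizer (r := 3) Nat.prime_three hj hn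
    have b : U ⊓ centralizer {d} = ⊥ := eq_bot_iff.2 ((inf_le_inf_right _ hU).trans hfpf.le)
    rw [b, card_bot] at hm
    have h4 := (card_le_of_le hU).trans (rk W hW)
    have := (one_lt_card_iff_ne_bot U).2 h1
    unfold Nat.ModEq at hm
    omega
  have hW4 := four W le_rfl hW1 hdW
  let Z : Subgroup G :=
    { carrier := {z | z ∈ Q ⊓ centralizer (Q : Set G) ∧ z ^ 2 = 1}
      one_mem' := ⟨one_mem _, one_pow 2⟩
      mul_mem' := fun {a b} ha hb => ⟨mul_mem ha.1 hb.1, by
        have : Commute a b := hb.1.2 a ha.1.1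
        rw [this.mul_pow, ha.2, hb.2, one_mul]⟩
      inv_mem' := fun {a} ha => ⟨inv_mem ha.1, by rw [inv_pow, ha.2, inv_one]⟩ }
  haveI hZn : Z.Normal := ⟨fun z hz g => ⟨Normal.conj_mem inferInstance _ hz.1 g, by
    rw [conj_pow, hz.2]; simp⟩⟩
  have hZE : IsElementaryAbelian 2 Z :=
    ⟨⟨⟨fun a b => Subtype.ext (b.2.1.2 a a.2.1.1)⟩⟩, fun a ha => ha.2⟩
  have hZp := Lib.FT.abelem_pgroup hZE
  have hQ1 : Q ≠ ⊥ := by
    intro h
    apply hd1
    have : d ∈ centralizer (Q : Set G) := by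
      intro y hy
      have : y = 1 := by
        have hy : y ∈ Q := hy
        rwa [h] at hy
      simp [this]
    have := hchar this
    rwa [h] at this
  have inv2 : ∀ r ∈ Q, r ≠ 1 → ∃ k : ℕ, r ^ k ≠ 1 ∧ (r ^ k) ^ 2 = 1 := by
    intro r hr h1
    obtain ⟨n, hn⟩ := IsPGroup.iff_orderOf.1 hQ ⟨r, hr⟩
    rw [orderOf_mk] at hn
    rcases n with _ | n
    · exact absurd (orderOf_eq_one_iff.1 hn) h1
    · refine ⟨2 ^ n, pow_ne_one_of_lt_orderOf (by positivity) ?_, ?_⟩
      · rw [hn]; exact Nat.pow_lt_pow_right (by norm_num) (by omega)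
      · rw [← pow_mul, ← pow_succ, ← hn, pow_orderOf_eq_one]
  have hZ1 : Z ≠ ⊥ := by
    obtain ⟨⟨r, hr⟩, h1⟩ := ne_bot_iff_exists_ne_one.1
      (Lib.Solv.PG.inf_centralizer_ne_bot hQ hQ le_normalizer hQ1)
    obtain ⟨k, k1, k2⟩ := inv2 r hr.1 fun h => h1 (Subtype.ext h)
    exact ne_bot_iff_exists_ne_one.2 ⟨⟨r ^ k, pow_mem hr k, k2⟩, fun h =>
      k1 (congrArg Subtype.val h)⟩
  have nZ : ∀ P : Subgroup G, P ≤ normalizer (Z : Set G) := by
    intro P; rw [normalizer_eq_top]; exact le_top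
  have hZW : Z = W := by
    have h1 : W ⊓ Z ≠ ⊥ := by
      obtain ⟨⟨r, hr⟩, h1⟩ := ne_bot_iff_exists_ne_one.1
        (Lib.Solv.PG.inf_centralizer_ne_bot hWp hZp (nZ W) hZ1)
      exact ne_bot_iff_exists_ne_one.2 ⟨⟨r, rk.absorb hW hW4 hr.1.2 hr.2, hr.1⟩, fun h =>
        h1 (Subtype.ext (show r = 1 from congrArg Subtype.val h))⟩
    have h2 := four (W ⊓ Z) inf_le_left h1 (mem_normalizer_fintype fun y hy =>
      ⟨(mem_normalizer_iff.1 hdW y).1 hy.1, hZn.conj_mem _ hy.2 _⟩)
    have h3 := rk Z hZE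
    have e1 : W ⊓ Z = W := eq_of_le_of_card_ge inf_le_left (by omega)
    have e2 : W ⊓ Z = Z := eq_of_le_of_card_ge inf_le_right (by omega)
    exact e2.symm.trans e1
  have hZ4 : Nat.card Z = 4 := hZW ▸ hW4
  let C : Subgroup G := centralizer (Z : Set G)
  haveI : C.Normal := normal_centralizer
  -- an element of order three centralising `Z`
  obtain ⟨g, hg⟩ := hsix
  have hg6 : g ^ 6 = 1 := hg ▸ pow_orderOf_eq_one g
  have hx3 : (g ^ 2) ^ 3 ^ 1 = 1 := by rw [← pow_mul]; exact hg6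
  have hu2 : (g ^ 3) ^ 2 = 1 := by rw [← pow_mul]; exact hg6
  have hx1 : g ^ 2 ≠ 1 := pow_ne_one_of_lt_orderOf (by norm_num) (by omega)
  have hu1 : g ^ 3 ≠ 1 := pow_ne_one_of_lt_orderOf (by norm_num) (by omega)
  have hxC : g ^ 2 ∈ C := by
    refine fix3 hZ4 hx3 (nZ ⊤ trivial) ?_
    have hup : IsPGroup 2 (zpowers (g ^ 3)) :=
      IsPGroup.of_card (n := 1) (by rw [Nat.card_zpowers]; exact orderOf_eq_prime hu2 hu1)
    have hU := Lib.Solv.PG.inf_centralizer_ne_bot hup hZp (nZ _) hZ1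
    rcases card_cases hZ4 (inf_le_left : Z ⊓ centralizer (zpowers (g ^ 3) : Set G) ≤ Z)
      with h | h | h
    · exact absurd h hU
    · have hn : g ^ 2 ∈ normalizer ((Z ⊓ centralizer (zpowers (g ^ 3) : Set G) :
          Subgroup G) : Set G) := by
        refine mem_normalizer_fintype fun y hy => ⟨hZn.conj_mem _ hy.1 _, ?_⟩
        rintro _ ⟨k, rfl⟩
        have c1 : Commute ((g ^ 3) ^ k) y := hy.2 _ ⟨k, rfl⟩
        have c2 : Commute ((g ^ 3) ^ k) (g ^ 2) :=
          ((Commute.refl g).pow_pow 3 2).zpow_left k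
        exact (c2.mul_right c1).mul_right c2.inv_right
      have hm := Lib.Gold.TF.card_modEq_inf_centralizer (r := 3) Nat.prime_three hx3 hn
      intro hb
      have b : Z ⊓ centralizer (zpowers (g ^ 3) : Set G) ⊓ centralizer {g ^ 2} = ⊥ :=
        eq_bot_iff.2 ((inf_le_inf_right _ inf_le_left).trans hb.le)
      rw [b, card_bot, h] at hm
      exact absurd hm (by decide)
    · have hu : g ^ 3 ∈ Z := rk.absorb hZE hZ4 hu2 fun y hy => by
        have : y ∈ Z ⊓ centralizer (zpowers (g ^ 3) : Set G) := h.symm ▸ hy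
        exact (this.2 _ (mem_zpowers _)).symm
      exact ne_bot_iff_exists_ne_one.2 ⟨⟨g ^ 3, hu, mem_centralizer_singleton_iff.2
        ((Commute.refl g).pow_pow 3 2)⟩, fun h => hu1 (congrArg Subtype.val h)⟩
  obtain ⟨T, hT⟩ := hd.exists_le_sylow
  have hxp : IsPGroup 3 (zpowers (g ^ 2)) :=
    IsPGroup.of_card (n := 1) (by rw [Nat.card_zpowers]; exact orderOf_eq_prime hx3 hx1)
  obtain ⟨T', hT'⟩ := hxp.exists_le_sylow
  obtain ⟨h, hh⟩ := MulAction.exists_smul_eq G T' T
  have hxT : h * g ^ 2 * h⁻¹ ∈ (T : Subgroup G) := by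
    rw [← hh, Sylow.coe_subgroup_smul]
    exact ⟨g ^ 2, hT' (mem_zpowers _), rfl⟩
  have hs : SectionalPRankLE 2 4 Q := by
    refine Cfsg.Agent.S0501.result hQ fun A _ h1 h2 => ?_
    rw [← card_map_of_injective Q.subtype_injective]
    refine rk _ ⟨⟨⟨?_⟩⟩, ?_⟩
    · rintro ⟨_, a, ha, rfl⟩ ⟨_, b, hb, rfl⟩
      have := congrArg (Q.subtype.comp A.subtype) (h1.is_comm.comm (⟨a, ha⟩ : A) ⟨b, hb⟩)
      rw [map_mul, map_mul] at this
      exact Subtype.ext this
    · rintro _ ⟨a, ha, rfl⟩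
      exact congrArg Subtype.val (h2 a ha)
  have hc := core (T := T) (C := C) hQ hs T.isPGroup' (fun hle => by
      have hdC : d ∈ C := hle (hT (mem_zpowers d))
      apply hW1
      rw [← hfpf]
      refine (inf_eq_left.2 fun w hw => mem_centralizer_singleton_iff.2 ?_).symm
      exact hdC w (hZW.symm ▸ hw : w ∈ Z)) (fun t ht htC => by
      by_contra hne
      obtain ⟨⟨r, hr⟩, h1⟩ := ne_bot_iff_exists_ne_one.1 hne
      obtain ⟨k, k1, k2⟩ := inv2 r hr.1 fun h => h1 (Subtype.ext h)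
      have hrZ : r ^ k ∈ Z := rk.absorb hZE hZ4 k2 fun y hy =>
        (hy.1.2 _ (pow_mem hr.1 k)).symm
      obtain ⟨i, hi⟩ := T.isPGroup' ⟨t, ht⟩
      exact htC (fix3 hZ4 (congrArg Subtype.val hi) (nZ ⊤ trivial)
        (ne_bot_iff_exists_ne_one.2 ⟨⟨r ^ k, hrZ, pow_mem hr.2 k⟩, fun h =>
          k1 (congrArg Subtype.val h)⟩)))
  have h2 := Lib.Solv.isPGroup_of_commutator_le_frattini hQ hchar hc
  obtain ⟨n, hn⟩ := h2 ⟨h * g ^ 2 * h⁻¹, hxT, Normal.conj_mem inferInstance _ hxC h⟩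
  have hn : (h * g ^ 2 * h⁻¹) ^ 2 ^ n = 1 := congrArg Subtype.val hn
  rw [conj_pow, mul_inv_eq_one, mul_eq_left] at hn
  have o1 := orderOf_dvd_of_pow_eq_one hn
  rw [orderOf_eq_prime (p := 3) hx3 hx1] at o1
  exact absurd (Nat.prime_three.dvd_of_dvd_pow o1) (by norm_num)

end Cfsg.Agent.S3739
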