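import Cfsg.Statements.S3740
import Cfsg.Agent.Known.SL2Unip
import Cfsg.Agent.Perm.QuatAut
import Cfsg.Agent.Trans.SLTwoP
import Cfsg.Agent.Solv.Conj
import Cfsg.Agent.Class.PSL2Subfield
import Cfsg.Agent.Class.SL2Dickson

set_option autoImplicit false
open Cfsg

namespace Cfsg.Agent.S3740

open Cfsg.Lib.Known.GL2 Cfsg.Lib.Class Matrix
open scoped commutatorElement

/-- Let F be a finite field of odd characteristic p and let a be a p-element of SL₂(F) normalizing a subgroup R of order prime to p with [R, a] ≠ 1. Then p = 3, R is a quaternion group of order 8, and R⟨a⟩ is isomorphic to SL₂(3). -/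
theorem result (F : Type) [Field F] [Fintype F] {p : ℕ} [Fact p.Prime] [CharP F p] (hp : p ≠ 2) (a : Matrix.SpecialLinearGroup (Fin 2) F) (ha : IsPGroup p ↥(Subgroup.zpowers a)) (R : Subgroup (Matrix.SpecialLinearGroup (Fin 2) F)) (hR : (Nat.card R).Coprime p) (haR : a ∈ Subgroup.normalizer (R : Set (Matrix.SpecialLinearGroup (Fin 2) F))) (hnt : ⁅R, Subgroup.zpowers a⁆ ≠ ⊥) : p = 3 ∧ Nonempty (↥R ≃* QuaternionGroup 2) ∧ Nonempty (↥(R ⊔ Subgroup.zpowers a) ≃* Matrix.SpecialLinearGroup (Fin 2) (ZMod 3)) := by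
  have hpp : p.Prime := Fact.out
  have h2 := two_ne_zero_of_charP (F := F) p hp
  have ha1 : a ≠ 1 := fun h => hnt (by rw [h, Subgroup.zpowers_one_eq_bot, Subgroup.commutator_bot_right])
  have ho : orderOf a = p := by
    obtain ⟨P, hP⟩ := ha.exists_le_sylow
    obtain ⟨g, hg⟩ := (slLin F).exists_sylow_eq_map p P
    obtain ⟨_, ⟨b, rfl⟩, rfl⟩ := hg ▸ hP (Subgroup.mem_zpowers a)
    exact orderOf_eq_prime (by rw [← map_pow, Lin2.u_pow_char, map_one]) ha1
  have hle := Subgroup.zpowers_le.2 haR
  have hcard : Nat.card (R ⊔ Subgroup.zpowers a : Subgroup _) = Nat.card R * p := by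
    rw [Lib.Solv.card_sup_of_disjoint_of_le_normalizer hle (Subgroup.inf_eq_bot_of_coprime (by
      rwa [Nat.card_zpowers, ho])), Nat.card_zpowers, ho]
  set H := R ⊔ Subgroup.zpowers a with hH
  have hn : (R.subgroupOf H).Normal := by
    rw [hH, sup_comm]; exact Subgroup.normal_subgroupOf_sup_of_le_normalizer hle
  have hR' : Nat.card (R.subgroupOf H) = Nat.card R := card_subgroupOf_of_le le_sup_left
  have hi : (R.subgroupOf H).index = p := by
    have := (R.subgroupOf H).card_mul_index
    rw [hR', hcard] at this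
    exact Nat.eq_of_mul_eq_mul_left Nat.card_pos this
  have hnp : ¬ p ∣ Nat.card R := (Nat.Prime.coprime_iff_not_dvd hpp).1 hR.symm
  have hS : 1 < Nat.card (Sylow p H) := by
    by_contra h
    have : Subsingleton (Sylow p H) := Finite.card_le_one_iff_subsingleton.1 (not_lt.1 h)
    obtain ⟨P, hP⟩ := (ha.comap_subtype (K := H)).exists_le_sylow
    have := P.normal_of_subsingleton
    obtain ⟨n, hn'⟩ := P.isPGroup'.exists_card_eq
    have hd : R.subgroupOf H ⊓ (P : Subgroup H) = ⊥ :=
      Subgroup.inf_eq_bot_of_coprime (by rw [hR', hn']; exact hR.pow_right n)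
    refine hnt (eq_bot_iff.2 (Subgroup.commutator_le.2 fun r hr x hx => ?_))
    have := Subgroup.commutator_le_inf (R.subgroupOf H) (P : Subgroup H)
      (Subgroup.commutator_mem_commutator (g₁ := ⟨r, Subgroup.mem_sup_left hr⟩)
        (g₂ := ⟨x, Subgroup.mem_sup_right hx⟩) hr (hP hx))
    rw [hd] at this
    exact congrArg Subtype.val (Subgroup.mem_bot.1 this)
  obtain ⟨K, hK, ⟨e⟩⟩ := exists_SL2_zmod_le_of_sylow p hp hS
  have hKc : Nat.card K = p * (p - 1) * (p + 1) := by
    rw [Nat.card_congr e.toEquiv, card_SL2, Nat.card_zmod]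
  obtain rfl : p = 3 := by
    by_contra h3
    have h5 : 5 ≤ p := hpp.five_le_of_ne_two_of_ne_three hp h3
    have hc : commutator K = ⊤ := by
      have := Subgroup.map_commutator ⊤ ⊤ e.symm.toMonoidHom
      rwa [← commutator_def, Lib.Trans.Quad.commutator_SL_two_eq_top h5,
        Subgroup.map_top_of_surjective _ e.symm.surjective, eq_comm] at this
    have : IsCyclic (H ⧸ R.subgroupOf H) := isCyclic_of_prime_card hi
    have h6 := Subgroup.map_mono (f := H.subtype)
      (Subgroup.Normal.quotient_commutative_iff_commutator_le.1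
        (inferInstance : IsMulCommutative (H ⧸ R.subgroupOf H)))
    have h7 := Subgroup.map_subtype_commutator K
    rw [hc, ← MonoidHom.range_eq_map, Subgroup.range_subtype] at h7
    rw [Subgroup.map_subtype_commutator, Subgroup.subgroupOf_map_subtype] at h6
    have h8 : K ≤ R := h7.le.trans ((Subgroup.commutator_mono hK hK).trans (h6.trans inf_le_left))
    exact hnp (((dvd_mul_right p _).mul_right _).trans (hKc ▸ Subgroup.card_dvd_of_le h8))
  have h16 : Nat.card R ∣ 2 ^ 4 := by
    have : Nontrivial (Sylow 3 H) := Finite.one_lt_card_iff_nontrivial.1 hS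
    obtain ⟨P, Q, hPQ⟩ := exists_pair_ne (Sylow 3 H)
    obtain ⟨x, y, hxy, ⟨u, huM, hu, hu1⟩, v, hvM, hv, hv1⟩ := exists_unip_of_sylow_ne 3 hPQ
    rcases dickson_of_two_unip 3 hp hxy huM hu hu1 hvM hv hv1 with ⟨-, ⟨f⟩⟩ | ⟨F₀, c, h⟩
    · exfalso
      have hs := slπ.subgroupMap_surjective H
      have := f.isSimpleGroup
      have h60 := card_of_equiv_A5 ⟨f⟩
      rcases (hn.map _ hs).eq_bot_or_eq_top with h | h
      · have := (R.subgroupOf H).index_map_dvd hs
        rw [h, Subgroup.index_bot, h60, hi] at this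
        omega
      · have := Subgroup.card_map_dvd (R.subgroupOf H) (slπ.subgroupMap H)
        rw [h, Subgroup.card_top, h60, hR'] at this
        omega
    · have h1 := Subgroup.card_dvd_of_le h.ge
      rw [card_map_conj] at h1
      have h3 := two_mul_card_pslSub h2 F₀
      have := Fintype.ofFinite F₀
      obtain ⟨m, -, hm⟩ := FiniteField.card F₀ 3
      rw [← Nat.card_eq_fintype_card] at hm
      have h4 : Nat.card F₀ ∣ 2 * (Nat.card R * 3) := by
        rw [← hcard]
        exact (((dvd_mul_right _ _).mul_right _).trans h3.symm.dvd).trans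
          (Nat.mul_dvd_mul_left 2 (h1.trans (Subgroup.card_map_dvd _ _)))
      rw [← mul_assoc, hm, Nat.Coprime.dvd_mul_left (Nat.Coprime.pow_left _
        (Nat.Coprime.mul_right (by norm_num) hR.symm)), ← hm, Nat.dvd_prime Nat.prime_three] at h4
      have h5 := h4.resolve_left (by have := two_le_card_field F₀; omega)
      have h6 := h.card_dvd
      rw [h5] at h3 h6
      have h7 := card_eq_two_mul_card_map h2 (H := H) (Dvd.dvd.trans (by omega) h1)
      rw [hcard] at h7
      have h8 : Nat.card R * 3 ∣ 2 ^ 4 * 3 := h7 ▸ Nat.mul_dvd_mul_left 2 h6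
      exact Nat.dvd_of_mul_dvd_mul_right (by norm_num) h8
  obtain ⟨n, -, hn⟩ := (Nat.dvd_prime_pow Nat.prime_two).1 h16
  obtain ⟨f⟩ := Lib.Perm.q8_of_not_mem_centralizer (IsPGroup.of_card hn)
    (fun x _ y _ => sl2_involution_unique h2) haR (by rw [ho]; norm_num) fun h => hnt (by
      rw [Subgroup.commutator_comm, Subgroup.commutator_eq_bot_iff_le_centralizer,
        Subgroup.zpowers_le]; exact h)
  have h9 : K = H := Subgroup.eq_of_le_of_card_ge hK (by
    rw [hKc, hcard, Nat.card_congr f.toEquiv, Nat.card_eq_fintype_card, QuaternionGroup.card])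
  exact ⟨rfl, ⟨f⟩, h9 ▸ ⟨e⟩⟩

end Cfsg.Agent.S3740
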