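import Cfsg.Statements.S3741
import Cfsg.Agent.Solv.Pairing
import Cfsg.Agent.Solv.PGroupNormal

set_option autoImplicit false
open Cfsg

namespace Cfsg.Agent.S3741

open Cfsg.Lib.Solv.PG Subgroup
open scoped commutatorElement

/-- Let A and B be subgroups of a finite p-group with [A, B] ≤ A ∩ B and [A, B] of order at most p. Then |A : C_A(B)| = |B : C_B(A)|. -/
theorem result {G : Type*} [Group G] [Finite G] {p : ℕ} [Fact p.Prime] (hG : IsPGroup p G) (A B : Subgroup G) (hAB : ⁅A, B⁆ ≤ A ⊓ B) (hcard : Nat.card ↥⁅A, B⁆ ≤ p) : (A ⊓ Subgroup.centralizer (B : Set G)).relIndex A = (B ⊓ Subgroup.centralizer (A : Set G)).relIndex B := by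
  have hp : p.Prime := Fact.out
  rw [inf_relIndex_left, inf_relIndex_left]
  obtain ⟨k, hk⟩ := (hG.to_subgroup ⁅A, B⁆).exists_card_eq
  have hk1 : k ≤ 1 := by
    rw [hk] at hcard
    exact (Nat.pow_le_pow_iff_right hp.one_lt).mp (by simpa using hcard)
  have hb : ∀ C : Subgroup G, C ≤ centralizer ((⊥ : Subgroup G) : Set G) := fun C =>
    le_centralizer_iff.mpr bot_le
  rcases Nat.le_one_iff_eq_zero_or_eq_one.mp hk1 with rfl | rfl
  · have h0 : ⁅A, B⁆ = ⊥ := Subgroup.card_eq_one.mp (by simpa using hk)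
    exact relIndex_centralizer_eq_of_commutator_le (Z := ⊥) h0.le (hb A) (hb B)
  · rw [pow_one] at hk
    have : IsCyclic (⁅A, B⁆ : Subgroup G) := isCyclic_of_prime_card hk
    exact relIndex_centralizer_eq_of_commutator_le le_rfl
      (le_centralizer_of_card_eq_prime (hG.to_subgroup A) (normalizer_commutator_ge_left A B) hk)
      (le_centralizer_of_card_eq_prime (hG.to_subgroup B) (normalizer_commutator_ge_right A B) hk)

end Cfsg.Agent.S3741
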