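import Cfsg.Statements.S3746
import Cfsg.Agent.Trans.Component
import Cfsg.Agent.Solv.Conj

set_option autoImplicit false
open Cfsg

namespace Cfsg.Agent.S3746

open Cfsg.Lib.Solv
open scoped Pointwise

/-- Let Z ≤ Z(G) be a central subgroup of a finite group G and E a subgroup of G containing Z whose image E/Z is a component of G/Z (subnormal and quasisimple). Then the derived subgroup [E, E] is a component of G. -/
theorem result {G : Type*} [Group G] [Finite G] (Z : Subgroup G) (hZ : Z ≤ Subgroup.center G) [Z.Normal] (E : Subgroup G) (hZE : Z ≤ E) (hE : Cfsg.IsComponent (E.map (QuotientGroup.mk' Z))) : Cfsg.IsComponent ⁅E, E⁆ := by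
  have hk : (QuotientGroup.mk' Z).ker = Z := QuotientGroup.ker_mk' Z
  have hZc : ∀ A : Subgroup G, ⁅Z, A⁆ = ⊥ := fun A =>
    Subgroup.commutator_eq_bot_iff_le_centralizer.2 (hZ.trans (Subgroup.center_le_centralizer _))
  have hsub : E.IsSubnormal := by
    have := (Cfsg.Lib.Trans.IsComponent.isSubnormal hE).comap (QuotientGroup.mk' Z)
    rwa [Subgroup.comap_map_eq, hk, sup_eq_left.2 hZE] at this
  have hmap : (⁅E, E⁆ : Subgroup G).map (QuotientGroup.mk' Z) = E.map (QuotientGroup.mk' Z) := by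
    rw [Subgroup.map_commutator, Cfsg.Lib.Trans.IsComponent.perfect hE]
  have hE' : ⁅E, E⁆ ⊔ Z = E := by
    have := congrArg (Subgroup.comap (QuotientGroup.mk' Z)) hmap
    rwa [Subgroup.comap_map_eq, Subgroup.comap_map_eq, hk, sup_eq_left.2 hZE] at this
  have hp : ⁅(⁅E, E⁆ : Subgroup G), ⁅E, E⁆⁆ = ⁅E, E⁆ := by
    rw [← Cfsg.Lib.Trans.commutator_sup_self_of_central (hZc _) (hZc _), hE']
  refine ⟨Cfsg.Lib.Trans.isSubnormal_commutator_self hsub, ?_⟩
  refine Cfsg.Lib.Trans.isQuasisimple_of_map hp (QuotientGroup.mk' Z) ?_ ?_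
  · rw [hk]
    exact inf_le_left.trans (hZ.trans (Subgroup.center_le_centralizer _))
  · rw [hmap]; exact Cfsg.Lib.Trans.IsComponent.isQuasisimple hE

end Cfsg.Agent.S3746
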