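import Cfsg.Statements.S3748
import Cfsg.Agent.Solv.Fitting
import Cfsg.Agent.Solv.Subnormal
import Cfsg.Agent.S0064

set_option autoImplicit false
open Cfsg

namespace Cfsg.Agent.S3748

open Cfsg.Lib.Solv

/-- Call a proper subgroup M of G primitive when M = N_G(N) for every non-trivial normal subgroup N of M. If M is a primitive subgroup of the finite group G, then no non-trivial subnormal subgroup of G is contained in M; in particular M ∩ F(G) = 1. -/
theorem result {G : Type*} [Group G] [Finite G] (M : Subgroup G) (hM : M ≠ ⊤) (hprim : ∀ N : Subgroup G, N ≤ M → M ≤ Subgroup.normalizer (N : Set G) → N ≠ ⊥ → Subgroup.normalizer (N : Set G) = M) : (∀ L : Subgroup G, L.IsSubnormal → L ≤ M → L = ⊥) ∧ M ⊓ Cfsg.fittingSubgroup G = ⊥ := by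
  have key : ∀ L : Subgroup G, L.IsSubnormal → L ≤ M → L = ⊥ := by
    intro L hL hLM
    obtain ⟨D, hLD, hDM, hMD, hD⟩ := conj_le_or_normalizer_not_le hL hLM
    by_contra hne
    have hD0 : D ≠ ⊥ := fun h => hne (le_bot_iff.1 (h ▸ hLD))
    have h1 := hprim D hDM hMD hD0
    rcases hD with hD | hD
    · exact hM (h1 ▸ Subgroup.normalizer_eq_top_iff.2 hD)
    · exact hD h1.le
  refine ⟨key, key _ ?_ inf_le_left⟩
  exact Subgroup.IsSubnormal.trans inf_le_right
    (Cfsg.Agent.S0064.result.1 inferInstance _) (fitting_normal G).isSubnormal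

end Cfsg.Agent.S3748
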