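import Cfsg.Statements.S3749
import Cfsg.Agent.Solv.CoprimeSylow
import Cfsg.Agent.Solv.CoprimeFixed
import Cfsg.Agent.Solv.CardModEq
import Cfsg.Agent.Solv.Cores
import Cfsg.Agent.Solv.Conj

set_option autoImplicit false
open Cfsg

namespace Cfsg.Agent.S3749

open Cfsg.Lib.Solv
open scoped Pointwise

/-- Call a proper subgroup M of G primitive when M = N_G(N) for every non-trivial normal subgroup N of M. Let M be a primitive subgroup of the finite group G, p a prime with O_p(M) ≠ 1, and N a normal subgroup of G with M ∩ N = 1. Then p does not divide the order of N; for every prime q there is exactly one Sylow q-subgroup of N normalized by M; and if the order of N has at least two prime divisors then M is not a maximal subgroup of G. -/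
theorem result {G : Type*} [Group G] [Finite G] (M : Subgroup G) (hM : M ≠ ⊤) (hprim : ∀ N : Subgroup G, N ≤ M → M ≤ Subgroup.normalizer (N : Set G) → N ≠ ⊥ → Subgroup.normalizer (N : Set G) = M) {p : ℕ} [Fact p.Prime] (hOp : Cfsg.pCore p ↥M ≠ ⊥) (N : Subgroup G) [N.Normal] (hMN : M ⊓ N = ⊥) : ¬ p ∣ Nat.card N ∧ (∀ q : ℕ, [Fact q.Prime] → ∃! Q : Sylow q ↥N, M ≤ Subgroup.normalizer ((Q : Subgroup ↥N).map N.subtype : Set G)) ∧ ((∃ q r : ℕ, q.Prime ∧ r.Prime ∧ q ≠ r ∧ q ∣ Nat.card N ∧ r ∣ Nat.card N) → ¬ IsCoatom M) := by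
  have hp : p.Prime := Fact.out
  set P : Subgroup G := (pCore p M).map M.subtype with hP
  have hPM : P ≤ M := Subgroup.map_subtype_le _
  have hMP : M ≤ Subgroup.normalizer (P : Set G) :=
    Subgroup.le_normalizer.trans (normalizer_le_normalizer_map_pCore p M)
  have hP0 : P ≠ ⊥ := fun h => hOp ((Subgroup.map_eq_bot_iff_of_injective _
    M.subtype_injective).1 h)
  have hNP := hprim P hPM hMP hP0
  have hPp : IsPGroup p P := isPGroup_map_pCore p M
  have hN : ∀ H : Subgroup G, H ≤ Subgroup.normalizer (N : Set G) := fun H => by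
    rw [Subgroup.normalizer_eq_top]; exact le_top
  have hC : N ⊓ Subgroup.centralizer (P : Set G) = ⊥ := by
    rw [eq_bot_iff, ← hMN]
    exact le_inf (inf_le_right.trans (hNP ▸ Subgroup.centralizer_le_normalizer _)) inf_le_left
  have h1 : ¬ p ∣ Nat.card N := fun h => inf_centralizer_ne_bot_of_dvd_card hPp (hN P) h hC
  have hcop : (Nat.card P).Coprime (Nat.card N) :=
    coprime_card_of_isPGroup hPp (hp.coprime_iff_not_dvd.2 h1).symm
  have hs : Group.IsSolvable P ∨ Group.IsSolvable N := Or.inl (Coprime.isSolvable_of_isPGroup hPp)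
  have h2 : ∀ q : ℕ, [Fact q.Prime] → ∃! Q : Sylow q N,
      M ≤ Subgroup.normalizer (((Q : Subgroup N).map N.subtype : Subgroup G) : Set G) := by
    intro q _
    have huniq : ∀ Q R : Sylow q N,
        P ≤ Subgroup.normalizer (((Q : Subgroup N).map N.subtype : Subgroup G) : Set G) →
        P ≤ Subgroup.normalizer (((R : Subgroup N).map N.subtype : Subgroup G) : Set G) →
        Q = R := by
      intro Q R hQ hR
      obtain ⟨c, hc, hce⟩ := Coprime.invariant_sylow_conj (hN P) hcop hs Q R hQ hR
      have : (c : G) ∈ N ⊓ Subgroup.centralizer (P : Set G) := ⟨c.2, hc⟩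
      rw [hC, Subgroup.mem_bot] at this
      have hc1 : c = 1 := Subtype.ext this
      rw [hc1, map_one, one_smul] at hce
      exact hce
    obtain ⟨Q, hQ⟩ := Coprime.exists_invariant_sylow (hN P) hcop hs q
    refine ⟨Q, fun m hm => ?_, fun R hR => huniq R Q (hPM.trans hR) hQ⟩
    have hQs := Coprime.not_dvd_relIndex_sylow_map Q
    obtain ⟨R, hR⟩ := Coprime.exists_sylow_map_eq (p := q) (K := N)
      (P := MulAut.conj m • (Q : Subgroup N).map N.subtype)
      (by
        have := conj_smul_mono m (Subgroup.map_subtype_le (Q : Subgroup N))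
        rwa [Subgroup.Normal.conj_smul_eq_self m N] at this)
      (isPGroup_conj_smul (Q.isPGroup'.map _) m)
      (by
        have := relIndex_conj_smul m ((Q : Subgroup N).map N.subtype) N
        rw [Subgroup.Normal.conj_smul_eq_self m N] at this
        rwa [this])
    have hRQ : R = Q := by
      refine huniq R Q ?_ hQ
      rw [hR, ← conj_smul_normalizer]
      have := conj_smul_mono m hQ
      rwa [conj_smul_eq_of_mem_normalizer (hMP hm)] at this
    rw [mem_normalizer_iff_conj_smul_eq, ← hR, hRQ]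
  refine ⟨h1, h2, ?_⟩
  rintro ⟨q, r, hq, hr, hqr, hqN, hrN⟩ hco
  haveI : Fact q.Prime := ⟨hq⟩
  obtain ⟨Q, hQ, -⟩ := h2 q
  set Q' : Subgroup G := (Q : Subgroup N).map N.subtype with hQ'
  have hQN : Q' ≤ N := Subgroup.map_subtype_le _
  have hQp : IsPGroup q Q' := Q.isPGroup'.map _
  have hlt : M < Q' ⊔ M := by
    refine lt_of_le_of_ne le_sup_right fun h => ?_
    have h0 : Q' = ⊥ := by
      rw [eq_bot_iff, ← hMN]
      exact le_inf (h ▸ le_sup_left) hQN
    have := Coprime.not_dvd_relIndex_sylow_map Q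
    rw [← hQ', h0, Subgroup.relIndex_bot_left] at this
    exact this hqN
  have htop := hco.2 _ hlt
  have := sup_inf_assoc_of_le_normalizer hQ hQN
  rw [htop, top_inf_eq, hMN, sup_bot_eq] at this
  rw [this] at hrN
  obtain ⟨k, hk⟩ := IsPGroup.iff_card.1 hQp
  rw [hk] at hrN
  exact hqr ((Nat.prime_dvd_prime_iff_eq hr hq).1 (hr.dvd_of_dvd_pow hrN)).symm

end Cfsg.Agent.S3749
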