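import Cfsg.Statements.S3750
import Cfsg.Agent.Solv.ComponentClosure
import Cfsg.Agent.Solv.Fitting
import Cfsg.Agent.Solv.Nilpotent

set_option autoImplicit false
open Cfsg

namespace Cfsg.Agent.S3750

open Cfsg.Lib.Solv
open scoped Pointwise

/-- Call a proper subgroup M of G primitive when M = N_G(N) for every non-trivial normal subgroup N of M. Let M be a primitive subgroup of the finite group G and N a normal subgroup of G with M ∩ F*(N) ≠ 1. Then F(G) = 1 and F*(N) = F*(G) = E(G); in particular every minimal normal subgroup of G is contained in N. -/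
theorem result {G : Type*} [Group G] [Finite G] (M : Subgroup G) (hM : M ≠ ⊤) (hprim : ∀ N : Subgroup G, N ≤ M → M ≤ Subgroup.normalizer (N : Set G) → N ≠ ⊥ → Subgroup.normalizer (N : Set G) = M) (N : Subgroup G) [N.Normal] (hMF : M ⊓ (Cfsg.generalizedFittingSubgroup ↥N).map N.subtype ≠ ⊥) : Cfsg.fittingSubgroup G = ⊥ ∧ (Cfsg.generalizedFittingSubgroup ↥N).map N.subtype = Cfsg.generalizedFittingSubgroup G ∧ Cfsg.generalizedFittingSubgroup G = Cfsg.layer G ∧ ∀ K : Subgroup G, K.Normal → K ≠ ⊥ → (∀ K' : Subgroup G, K'.Normal → K' ≤ K → K' = ⊥ ∨ K' = K) → K ≤ N := by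
  set D : Subgroup G := M ⊓ (generalizedFittingSubgroup N).map N.subtype with hD
  have hFN := Cfsg.Lib.Trans.map_genFitting_subtype_eq_inf_of_normal N
  have hND : Subgroup.normalizer (D : Set G) = M := by
    refine hprim D inf_le_left (le_normalizer_inf Subgroup.le_normalizer ?_) hMF
    rw [hFN, Subgroup.normalizer_eq_top]; exact le_top
  have hcore : ∀ K : Subgroup G, K.Normal → K ≤ Subgroup.centralizer (D : Set G) → K = ⊥ := by
    intro K hK hKD
    by_contra h0
    have hKM : K ≤ M := hKD.trans (hND ▸ Subgroup.centralizer_le_normalizer _)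
    have := hprim K hKM (by rw [Subgroup.normalizer_eq_top]; exact le_top) h0
    rw [Subgroup.normalizer_eq_top] at this
    exact hM this.symm
  have hDF : D ≤ generalizedFittingSubgroup G := inf_le_right.trans (hFN ▸ inf_le_left)
  have hDN : D ≤ N := inf_le_right.trans (Subgroup.map_subtype_le _)
  have hF : fittingSubgroup G = ⊥ := by
    have h1 := hcore (Subgroup.centralizer (generalizedFittingSubgroup G : Set G)) inferInstance
      (Subgroup.centralizer_le (SetLike.coe_subset_coe.2 hDF))
    rw [Cfsg.Lib.Trans.centralizer_genFitting_eq, ← map_subtype_center,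
      Subgroup.map_eq_bot_iff_of_injective _ (fittingSubgroup G).subtype_injective] at h1
    by_contra h0
    haveI : Nontrivial (fittingSubgroup G) := (Subgroup.nontrivial_iff_ne_bot _).2 h0
    exact Group.IsNilpotent.center_ne_bot (fittingSubgroup G) h1
  have hCN : Subgroup.centralizer (N : Set G) = ⊥ :=
    hcore _ inferInstance (Subgroup.centralizer_le (SetLike.coe_subset_coe.2 hDN))
  have hE := Cfsg.Lib.Trans.genFitting_eq_layer_of_fitting_eq_bot hF
  have hmin : ∀ K : Subgroup G, IsMinNormal K → K ≤ N := by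
    intro K hK
    haveI := hK.normal
    refine hK.le_of_inf_ne_bot fun h => hK.ne_bot ?_
    rw [eq_bot_iff, ← hCN]
    exact le_centralizer_of_disjoint (by rw [Subgroup.normalizer_eq_top]; exact le_top)
      (by rw [Subgroup.normalizer_eq_top]; exact le_top) h
  refine ⟨hF, ?_, hE, fun K h1 h2 h3 => hmin K ⟨h1, h2, h3⟩⟩
  rw [hFN, inf_eq_left, hE, ← sSup_isMinNormal_eq_layer hF]
  exact sSup_le hmin

end Cfsg.Agent.S3750
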