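import Cfsg.Statements.S3751
import Cfsg.Agent.Local.CharP
import Cfsg.Agent.Trans.SylowIn
import Cfsg.Agent.Solv.Conj
import Cfsg.Agent.Solv.Cores

set_option autoImplicit false
open Cfsg

namespace Cfsg.Agent.S3751

open Cfsg.Lib.Solv
open scoped Pointwise

open Cfsg.Lib.Trans Cfsg.Lib.Local

variable {G : Type*} [Group G]

def IsLoc (p : ℕ) (M : Subgroup G) : Prop :=
  ∃ T : Subgroup G, IsPGroup p T ∧ T ≠ ⊥ ∧ M = Subgroup.normalizer (T : Set G)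

def IsMaxLoc (p : ℕ) (M : Subgroup G) : Prop :=
  IsLoc p M ∧ ∀ L : Subgroup G, IsLoc p L → M ≤ L → L = M

variable [Finite G] {p : ℕ} [Fact p.Prime]

theorem exists_isMaxLoc {M : Subgroup G} (hM : IsLoc p M) : ∃ L, IsMaxLoc p L ∧ M ≤ L := by
  obtain ⟨L, hML, hL⟩ := Set.Finite.exists_le_maximal (s := {L : Subgroup G | IsLoc p L})
    (Set.toFinite _) hM
  exact ⟨L, ⟨hL.1, fun K hK hLK => le_antisymm (hL.2 hK hLK) hLK⟩, hML⟩

theorem IsLoc.conj {M : Subgroup G} (hM : IsLoc p M) (g : G) : IsLoc p (MulAut.conj g • M) := by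
  obtain ⟨T, hT, hT0, rfl⟩ := hM
  exact ⟨_, isPGroup_conj_smul hT g, fun h => hT0 (conj_smul_eq_bot_iff.1 h),
    conj_smul_normalizer g T⟩

theorem IsMaxLoc.conj {M : Subgroup G} (hM : IsMaxLoc p M) (g : G) :
    IsMaxLoc p (MulAut.conj g • M) := by
  refine ⟨hM.1.conj g, fun L hL h => ?_⟩
  rw [← hM.2 _ (hL.conj g⁻¹) (by
    have := conj_smul_mono g⁻¹ h
    rwa [conj_inv_smul_conj_smul] at this), conj_smul_conj_inv_smul]

theorem IsLoc.charP (hloc : IsOfLocalCharacteristic p G) {M : Subgroup G} (hM : IsLoc p M) :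
    Cfsg.Lib.Local.CharP p M := by
  obtain ⟨T, hT, hT0, rfl⟩ := hM
  exact charP_iff.2 (hloc.2 T hT hT0)

theorem IsMaxLoc.normalizer_eq (hloc : IsOfLocalCharacteristic p G) {M : Subgroup G}
    (hM : IsMaxLoc p M) {A : Subgroup G} (hA : A ≠ ⊥) (hAM : A ≤ M)
    (hMA : M ≤ Subgroup.normalizer (A : Set G)) : Subgroup.normalizer (A : Set G) = M := by
  have hc := (hM.1.charP hloc).of_normal hAM hMA
  have h0 := hc.pCoreOf_ne_bot hA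
  have h1 := hM.2 _ ⟨_, Cfsg.Lib.Local.isPGroup_pCoreOf A, h0, rfl⟩
    (hMA.trans (Cfsg.Lib.Local.normalizer_le_normalizer_pCoreOf A))
  exact le_antisymm (h1 ▸ Cfsg.Lib.Local.normalizer_le_normalizer_pCoreOf A) hMA

theorem IsLoc.ne_bot {M : Subgroup G} (hM : IsLoc p M) : M ≠ ⊥ := by
  obtain ⟨T, hT, hT0, rfl⟩ := hM
  exact fun h => hT0 (eq_bot_iff.2 (h ▸ Subgroup.le_normalizer))

theorem exists_pair (hloc : IsOfLocalCharacteristic p G) {M₁ M₂ : Subgroup G}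
    (h₁ : IsMaxLoc p M₁) (h₂ : IsMaxLoc p M₂) (hne : M₁ ≠ M₂)
    (hd : p ∣ Nat.card (M₁ ⊓ M₂ : Subgroup G)) :
    ∃ L₁ L₂ T : Subgroup G, IsMaxLoc p L₁ ∧ IsMaxLoc p L₂ ∧ L₁ ≠ L₂ ∧ IsSylowIn p T L₁ ∧
      IsSylowIn p T L₂ := by
  obtain ⟨T0, hT0⟩ := exists_isSylowIn (p := p) (M₁ ⊓ M₂)
  have hT00 : T0 ≠ ⊥ := fun h => hT0.eq_bot_iff.1 h hd
  obtain ⟨T, hT0T, hT⟩ := Set.Finite.exists_le_maximal
    (s := {T : Subgroup G | IsPGroup p T ∧ ∃ L₁ L₂ : Subgroup G, IsMaxLoc p L₁ ∧ IsMaxLoc p L₂ ∧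
      L₁ ≠ L₂ ∧ T ≤ L₁ ∧ T ≤ L₂}) (Set.toFinite _)
    (a := T0) ⟨hT0.isPGroup, M₁, M₂, h₁, h₂, hne, hT0.le.trans inf_le_left, hT0.le.trans inf_le_right⟩
  obtain ⟨⟨hTp, L₁, L₂, hL₁, hL₂, hL, hT1, hT2⟩, hmax⟩ := hT
  have hT0' : T ≠ ⊥ := fun h => hT00 (eq_bot_iff.2 (h ▸ hT0T))
  obtain ⟨L, hLm, hNL⟩ := exists_isMaxLoc (p := p) ⟨T, hTp, hT0', rfl⟩
  obtain ⟨M, hM, hML, hTM⟩ : ∃ M, IsMaxLoc p M ∧ M ≠ L ∧ T ≤ M := by
    by_cases h : L₁ = L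
    · exact ⟨L₂, hL₂, fun h' => hL (h.trans h'.symm), hT2⟩
    · exact ⟨L₁, hL₁, h, hT1⟩
  have hTs : IsSylowIn p T M := by
    refine isSylowIn_of_maximal hTM hTp fun Q hQ hTQ hQM => ?_
    by_contra hne
    have hlt := lt_inf_normalizer hQ (lt_of_le_not_ge hTQ hne)
    exact hlt.not_ge (hmax ⟨hQ.to_le inf_le_left, M, L, hM, hLm, hML, inf_le_left.trans hQM,
      inf_le_right.trans hNL⟩ hlt.le)
  have hTL : T ≤ L := Subgroup.le_normalizer.trans hNL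
  obtain ⟨S, hS, hTS⟩ := exists_isSylowIn_ge hTp hTL
  rcases hTS.eq_or_lt with h | h
  · exact ⟨M, L, T, hM, hLm, hML, hTs, h ▸ hS⟩
  · obtain ⟨x, hx, hxT⟩ := SetLike.exists_of_lt (lt_inf_normalizer hS.isPGroup h)
    have hxM : x ∉ M := fun hxM => hxT (by
      have := hTs.eq_inf hS.isPGroup hTS
      rw [← this]; exact ⟨hx.1, hxM⟩)
    refine ⟨M, MulAut.conj x • M, T, hM, hM.conj x, fun he => hxM ?_, hTs, ?_⟩
    · rw [← hM.normalizer_eq hloc hM.1.ne_bot le_rfl Subgroup.le_normalizer,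
        mem_normalizer_iff_conj_smul_eq]
      exact he.symm
    · have := hTs.cj x
      rw [← cj_def, ← cj_def, map_conj_eq_smul, map_conj_eq_smul,
        conj_smul_eq_of_mem_normalizer hx.2] at this
      exact this

/-- Two distinct subgroups M₁, M₂ of G form a primitive pair when, for {i, j} = {1, 2}, every non-trivial normal subgroup A of M_i contained in M₁ ∩ M₂ satisfies N_{M_j}(A) = M₁ ∩ M₂; the pair has characteristic p when moreover C_{M_i}(O_p(M_i)) ≤ O_p(M_i) for both i and O_p(M₁)O_p(M₂) ≤ M₁ ∩ M₂. Let G be a finite group, p a prime dividing its order, with O_p(G) = 1 and every p-local subgroup of characteristic p. Then either G has a primitive pair of characteristic p, or every maximal p-local subgroup M of G is strongly p-embedded in G: M is a proper subgroup, p divides its order, and for every g ∉ M the order of M ∩ gMg⁻¹ is prime to p. -/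
theorem result {G : Type*} [Group G] [Finite G] {p : ℕ} [Fact p.Prime] (hloc : Cfsg.IsOfLocalCharacteristic p G) (hOp : Cfsg.pCore p G = ⊥) : (∃ M₁ M₂ : Subgroup G, M₁ ≠ M₂ ∧ (∀ A : Subgroup G, A ≠ ⊥ → A ≤ M₁ ⊓ M₂ → (M₁ ≤ Subgroup.normalizer (A : Set G) → M₂ ⊓ Subgroup.normalizer (A : Set G) = M₁ ⊓ M₂) ∧ (M₂ ≤ Subgroup.normalizer (A : Set G) → M₁ ⊓ Subgroup.normalizer (A : Set G) = M₁ ⊓ M₂)) ∧ Subgroup.centralizer (Cfsg.pCore p ↥M₁ : Set ↥M₁) ≤ Cfsg.pCore p ↥M₁ ∧ Subgroup.centralizer (Cfsg.pCore p ↥M₂ : Set ↥M₂) ≤ Cfsg.pCore p ↥M₂ ∧ (Cfsg.pCore p ↥M₁).map M₁.subtype ⊔ (Cfsg.pCore p ↥M₂).map M₂.subtype ≤ M₁ ⊓ M₂) ∨ (∀ M : Subgroup G, (∃ T : Subgroup G, IsPGroup p T ∧ T ≠ ⊥ ∧ M = Subgroup.normalizer (T : Set G)) → (∀ L : Subgroup G, (∃ T : Subgroup G, IsPGroup p T ∧ T ≠ ⊥ ∧ L = Subgroup.normalizer (T : Set G)) → M ≤ L → L = M) → M ≠ ⊤ ∧ p ∣ Nat.card M ∧ ∀ g :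 G, g ∉ M → ¬ p ∣ Nat.card ↥(M ⊓ M.map (MulAut.conj g).toMonoidHom)) := by
  by_cases h : ∃ M₁ M₂ : Subgroup G, IsMaxLoc p M₁ ∧ IsMaxLoc p M₂ ∧ M₁ ≠ M₂ ∧
      p ∣ Nat.card (M₁ ⊓ M₂ : Subgroup G)
  · left
    obtain ⟨M₁, M₂, h₁, h₂, hne, hd⟩ := h
    obtain ⟨L₁, L₂, T, hL₁, hL₂, hL, hT₁, hT₂⟩ := exists_pair hloc h₁ h₂ hne hd
    refine ⟨L₁, L₂, hL, fun A hA hAL => ⟨fun h => ?_, fun h => ?_⟩, charP_iff.1 (hL₁.1.charP hloc),
      charP_iff.1 (hL₂.1.charP hloc), ?_⟩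
    · rw [hL₁.normalizer_eq hloc hA (hAL.trans inf_le_left) h, inf_comm]
    · rw [hL₂.normalizer_eq hloc hA (hAL.trans inf_le_right) h]
    · exact (sup_le (Cfsg.Lib.Local.pCoreOf_le_sylowIn hT₁)
        (Cfsg.Lib.Local.pCoreOf_le_sylowIn hT₂)).trans (le_inf hT₁.le hT₂.le)
  · right
    intro M hM hmax
    have hM' : IsMaxLoc p M := ⟨hM, hmax⟩
    obtain ⟨T, hT, hT0, rfl⟩ := hM
    refine ⟨fun h => hT0 ?_, ?_, fun g hg hd => h ⟨_, _, hM', hM'.conj g, fun he => hg ?_, hd⟩⟩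
    · exact pCore_eq_bot_iff.1 hOp T (Subgroup.normalizer_eq_top_iff.1 h) hT
    · refine dvd_trans ?_ (Subgroup.card_dvd_of_le Subgroup.le_normalizer)
      by_contra hd
      exact hT0 ((isSylowIn_self hT).eq_bot_iff.2 hd)
    · rw [← hM'.normalizer_eq hloc hM'.1.ne_bot le_rfl Subgroup.le_normalizer,
        mem_normalizer_iff_conj_smul_eq]
      exact he.symm

end Cfsg.Agent.S3751
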