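import Cfsg.Statements.S3753
import Cfsg.Agent.Trans.TransvPair

set_option autoImplicit false
open Cfsg

namespace Cfsg.Agent.S3753

open Subgroup Cfsg.Lib.Solv Cfsg.Lib.Trans.Quad

variable {p : ℕ} [hp : Fact p.Prime]

/-- A quadratic `p`-element that centralizes the kernel modulo `O_p` lies in `O_p`. -/
theorem mem_of_quad {H V : Type*} [Group H] [Finite H] [Group V] [Finite V] (hH : TransvFree p H)
    (hV : IsPGroup p V) (θ : H →* MulAut V) {x : H} (hx : ∀ v, θ x (θ x v * v⁻¹) = θ x v * v⁻¹)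
    (hxp : IsPGroup p (zpowers x)) (hc : ∀ c ∈ θ.ker, x * c * x⁻¹ * c⁻¹ ∈ pCore p H) :
    x ∈ pCore p H := by
  have h1 := hH.mk_mem_pCore hV θ hx
  set π := QuotientGroup.mk' (pCore p H)
  have hπ : Function.Surjective π := QuotientGroup.mk'_surjective _
  set D := (pCore p (H ⧸ θ.ker)).comap (QuotientGroup.mk' θ.ker)
  haveI := (inferInstance : D.Normal).map π hπ
  haveI := (inferInstance : θ.ker.Normal).map π hπ
  set K := D.map π ⊓ centralizer (θ.ker.map π : Set (H ⧸ pCore p H))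
  have hxK : π x ∈ K := ⟨mem_map_of_mem _ h1, by
    rintro _ ⟨c, hc', rfl⟩
    have : π (x * c * x⁻¹ * c⁻¹) = 1 := (QuotientGroup.eq_one_iff _).2 (hc c hc')
    simp only [map_mul, map_inv] at this
    rw [mul_inv_eq_one, mul_inv_eq_iff_eq_mul] at this
    exact this.symm⟩
  have h2 : IsPGroup p (K ⧸ center K) := fun y => by
    obtain ⟨⟨_, ⟨d, hd, rfl⟩, hy⟩, rfl⟩ := QuotientGroup.mk_surjective y
    obtain ⟨k, hk⟩ := pCore_isPGroup p (H ⧸ θ.ker) ⟨_, hd⟩
    have h3 : d ^ p ^ k ∈ θ.ker := (QuotientGroup.eq_one_iff _).1 (congrArg Subtype.val hk)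
    refine ⟨k, ?_⟩
    rw [← QuotientGroup.mk_pow, QuotientGroup.eq_one_iff, mem_center_iff]
    exact fun z => Subtype.ext (z.2.2 _ ⟨_, h3, map_pow π d _⟩).symm
  haveI : Group.IsNilpotent K := Group.of_quotient_center_nilpotent h2.isNilpotent
  obtain ⟨P, hP⟩ := ((hxp.map π).comap_of_injective K.subtype K.subtype_injective).exists_le_sylow
  have h4 := pCore_eq_of_normal_sylow P
    (P.normal_of_normalizerCondition Group.normalizerCondition_of_isNilpotent)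
  have h5 := map_pCore_le_of_normal (p := p) K
  rw [pCore_quotient_pCore, h4] at h5
  exact (QuotientGroup.eq_one_iff x).1 (h5 ⟨⟨_, hxK⟩, hP (mem_map_of_mem π (mem_zpowers x)), rfl⟩)

variable {G : Type*} [Group G] [Finite G]

omit hp [Finite G] in
theorem quad {M V A : Subgroup G} (h : M ≤ normalizer (V : Set G))
    (hA : ∀ x ∈ A, ∀ y ∈ A, x * y = y * x) (hVA : V ≤ normalizer (A : Set G)) {a : M}
    (ha : (a : G) ∈ A) (v : V) :
    conjAutOf V M h a (conjAutOf V M h a v * v⁻¹) = conjAutOf V M h a v * v⁻¹ := by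
  refine Subtype.ext ?_
  have h1 : (a : G) * v * (a : G)⁻¹ * (v : G)⁻¹ ∈ A := by
    rw [mul_assoc, mul_assoc, ← mul_assoc (v : G)]
    exact mul_mem ha ((mem_normalizer_iff.1 (hVA v.2) _).1 (inv_mem ha))
  change (a : G) * (a * v * (a : G)⁻¹ * (v : G)⁻¹) * (a : G)⁻¹ = a * v * (a : G)⁻¹ * (v : G)⁻¹
  rw [hA _ ha _ h1, mul_inv_cancel_right]

theorem key {M N V A : Subgroup G} (hM : TransvFree p M) (hV : IsPGroup p V)
    (h : M ≤ normalizer (V : Set G)) (hA : ∀ x ∈ A, ∀ y ∈ A, x * y = y * x)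
    (hVA : V ≤ normalizer (A : Set G)) (hC : M ⊓ centralizer (V : Set G) ≤ N) {a : G} (ha : a ∈ A)
    (haM : a ∈ M) (haQ : a ∈ (pCore p N).map N.subtype) : a ∈ (pCore p M).map M.subtype := by
  set Q := (pCore p N).map N.subtype
  have hQ : IsPGroup p Q := isPGroup_map_pCore p N
  have hN : N ≤ normalizer (Q : Set G) :=
    le_normalizer.trans (normalizer_le_normalizer_map_pCore p N)
  refine ⟨⟨a, haM⟩, mem_of_quad hM hV _ (quad h hA hVA ha)
    ((hQ.comap_of_injective M.subtype M.subtype_injective).to_le (zpowers_le.2 haQ))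
    fun c hc => ?_, rfl⟩
  set C := (conjAutOf V M h).ker
  have h1 : ∀ c ∈ C, (c : G) ∈ normalizer (Q : Set G) := fun c hc =>
    hN (hC ⟨c.2, (mem_ker_conjAutOf h).1 hc⟩)
  refine map_pCore_le_of_normal C (le_map_pCore (N := Q.subgroupOf M ⊓ C) inf_le_right
    (fun d hd => ?_) ((hQ.comap_of_injective M.subtype M.subtype_injective).to_inf_left) ⟨?_, ?_⟩)
  · refine mem_normalizer_iff.2 fun y => and_congr (mem_normalizer_iff.1 (h1 d hd) y) ?_
    exact mem_normalizer_iff.1 (le_normalizer hd) y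
  · change a * c * a⁻¹ * (c : G)⁻¹ ∈ Q
    rw [mul_assoc, mul_assoc, ← mul_assoc (c : G)]
    exact mul_mem haQ ((mem_normalizer_iff.1 (h1 c hc) _).1 (inv_mem haQ))
  · exact C.mul_mem ((inferInstance : C.Normal).conj_mem c hc _) (C.inv_mem hc)

theorem min_cent {M V A : Subgroup G} (hM : TransvFree p M) (hV : IsPGroup p V) (h0 : V ≠ ⊥)
    (h : M ≤ normalizer (V : Set G)) (hmin : ∀ U ≤ V, U ≠ ⊥ → M ≤ normalizer (U : Set G) → U = V)
    (hA : ∀ x ∈ A, ∀ y ∈ A, x * y = y * x) (hVA : V ≤ normalizer (A : Set G)) {a : G} (ha : a ∈ A)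
    (haM : a ∈ M) : a ∈ centralizer (V : Set G) := by
  set θ := conjAutOf V M h
  have h1 := hM.mk_mem_pCore hV θ (quad h hA hVA (a := ⟨a, haM⟩) ha)
  set D := (pCore p (M ⧸ θ.ker)).comap (QuotientGroup.mk' θ.ker)
  have h2 : IsPGroup p (D.map θ) := by
    rintro ⟨_, d, hd, rfl⟩
    obtain ⟨k, hk⟩ := pCore_isPGroup p (M ⧸ θ.ker) ⟨_, hd⟩
    have h3 : d ^ p ^ k ∈ θ.ker := (QuotientGroup.eq_one_iff _).1 (congrArg Subtype.val hk)
    exact ⟨k, Subtype.ext ((map_pow θ d _).symm.trans h3)⟩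
  obtain ⟨n, hn0, hn⟩ := hV.nontrivial_iff_card.1 ((nontrivial_iff_ne_bot V).2 h0)
  obtain ⟨v, hv, hv1⟩ := h2.exists_fixed_point_of_prime_dvd_card_of_fixed_point V
    (hn ▸ dvd_pow_self _ hn0.ne') (a := 1) fun g => map_one g.1
  haveI : ((D.map M.subtype).subgroupOf M).Normal := by
    rw [subgroupOf, comap_map_eq_self_of_injective M.subtype_injective]; infer_instance
  have h3 := hmin (V ⊓ centralizer (D.map M.subtype : Set G)) inf_le_left (fun h4 => hv1 ?_) ?_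
  · exact fun w hw => ((h3.ge hw).2 a ⟨⟨a, haM⟩, h1, rfl⟩).symm
  · have : (v : G) ∈ V ⊓ centralizer (D.map M.subtype : Set G) := ⟨v.2, by
      rintro _ ⟨d, hd, rfl⟩
      exact mul_inv_eq_iff_eq_mul.1 (congrArg Subtype.val (hv ⟨_, d, hd, rfl⟩))⟩
    rw [h4] at this
    exact Subtype.ext (mem_bot.1 this).symm
  · have h5 : ∀ m ∈ M, ∀ w ∈ V ⊓ centralizer (D.map M.subtype : Set G),
        m * w * m⁻¹ ∈ V ⊓ centralizer (D.map M.subtype : Set G) := fun m hm w hw => by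
      refine ⟨(mem_normalizer_iff.1 (h hm) w).1 hw.1, ?_⟩
      rintro _ ⟨d, hd, rfl⟩
      have := hw.2 _ ⟨_, (inferInstance : D.Normal).conj_mem d hd ⟨m, hm⟩⁻¹, rfl⟩
      change m⁻¹ * d * m⁻¹⁻¹ * w = w * (m⁻¹ * d * m⁻¹⁻¹) at this
      change d * (m * w * m⁻¹) = m * w * m⁻¹ * d
      calc _ = m * (m⁻¹ * d * m⁻¹⁻¹ * w) * m⁻¹ := by group
        _ = _ := by rw [this]; group
    exact fun m hm => mem_normalizer_iff.2 fun w => ⟨h5 m hm w, fun hw => by
      simpa [mul_assoc] using h5 _ (inv_mem hm) _ hw⟩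

omit hp [Finite G] in
theorem le_norm_closure {S : Set G} {g : G} (h : ∀ s ∈ S, g * s * g⁻¹ ∈ S)
    (h' : ∀ s ∈ S, g⁻¹ * s * g⁻¹⁻¹ ∈ S) : g ∈ normalizer (closure S : Set G) := by
  have k : ∀ g : G, (∀ s ∈ S, g * s * g⁻¹ ∈ S) → ∀ x ∈ closure S, g * x * g⁻¹ ∈ closure S :=
    fun g h => (closure_le ((closure S).comap (MulAut.conj g).toMonoidHom)).2
      fun s hs => subset_closure (h s hs)
  exact mem_normalizer_iff.2 fun x => ⟨k g h x, fun hx => by simpa [mul_assoc] using k _ h' _ hx⟩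

theorem core (M : Bool → Subgroup G) (hT : ∀ i, TransvFree p (M i))
    (h0 : ∀ i, (pCore p (M i)).map (M i).subtype ≠ ⊥)
    (hQ : ∀ i j, (pCore p (M i)).map (M i).subtype ≤ M j)
    (hc : ∀ i, centralizer (pCore p (M i) : Set (M i)) ≤ pCore p (M i))
    (hP : ∀ i (A : Subgroup G), A ≠ ⊥ → (∀ j, A ≤ M j) → M i ≤ normalizer (A : Set G) →
      M (!i) ⊓ normalizer (A : Set G) ≤ M i) :
    ∃ A : Subgroup G, A ≠ ⊥ ∧ ∀ j, A ≤ M j ∧ M j ≤ normalizer (A : Set G) := by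
  set Q := fun i => (pCore p (M i)).map (M i).subtype
  have hQp : ∀ i, IsPGroup p (Q i) := fun i => isPGroup_map_pCore p _
  have hQn : ∀ i, M i ≤ normalizer (Q i : Set G) := fun i =>
    le_normalizer.trans (normalizer_le_normalizer_map_pCore p _)
  have hex : ∀ i, ∃ V : Subgroup G, (V ≤ Q i ∧ V ≠ ⊥ ∧ M i ≤ normalizer (V : Set G)) ∧
      ∀ U ≤ V, U ≠ ⊥ → M i ≤ normalizer (U : Set G) → U = V := fun i => by
    obtain ⟨V, hV⟩ := Set.Finite.exists_minimal (Set.toFinite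
      {V : Subgroup G | V ≤ Q i ∧ V ≠ ⊥ ∧ M i ≤ normalizer (V : Set G)}) ⟨Q i, le_rfl, h0 i, hQn i⟩
    exact ⟨V, hV.1, fun U h1 h2 h3 => h1.antisymm (hV.2 ⟨h1.trans hV.1.1, h2, h3⟩ h1)⟩
  choose V hV hmin using hex
  have hVp : ∀ i, IsPGroup p (V i) := fun i => (hQp i).to_le (hV i).1
  have hQC : ∀ i j, M i ⊓ centralizer (Q i : Set G) ≤ M j := fun i j x hx =>
    hQ i j ⟨⟨x, hx.1⟩, hc i fun y hy => Subtype.ext (hx.2 _ ⟨y, hy, rfl⟩), rfl⟩
  have hVa : ∀ i, ∀ x ∈ V i, ∀ y ∈ V i, x * y = y * x := fun i x hx y hy => by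
    haveI := (nontrivial_iff_ne_bot _).2 (hV i).2.1
    haveI := (hVp i).center_nontrivial
    obtain ⟨z, hz⟩ := exists_ne (1 : center (V i))
    have := hmin i (V i ⊓ centralizer (V i : Set G)) inf_le_left (fun h => hz ?_) fun m hm => ?_
    · exact (this.ge hy).2 x hx
    · have h1 : ((z : V i) : G) ∈ V i ⊓ centralizer (V i : Set G) := ⟨z.1.2, fun w hw =>
        congrArg Subtype.val (mem_center_iff.1 z.2 ⟨w, hw⟩)⟩
      rw [h] at h1
      exact Subtype.ext (Subtype.ext (mem_bot.1 h1))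
    · have h1 : ∀ m ∈ M i, ∀ w ∈ V i ⊓ centralizer (V i : Set G),
          m * w * m⁻¹ ∈ V i ⊓ centralizer (V i : Set G) := fun m hm w hw => by
        refine ⟨(mem_normalizer_iff.1 ((hV i).2.2 hm) w).1 hw.1, fun d hd => ?_⟩
        have := hw.2 _ ((mem_normalizer_iff.1 ((hV i).2.2 (inv_mem hm)) d).1 hd)
        calc _ = m * (m⁻¹ * d * m⁻¹⁻¹ * w) * m⁻¹ := by group
          _ = _ := by rw [this]; group
      exact mem_normalizer_iff.2 fun w => ⟨h1 m hm w, fun hw => by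
        simpa [mul_assoc] using h1 _ (inv_mem hm) _ hw⟩
  have hVQ : ∀ i, V (!i) ≤ Q i := fun i a ha => key (hT i) (hQp i) (hQn i) (hVa _)
    ((hQ i _).trans (hV _).2.2) (hQC i (!i)) ha (hQ _ i ((hV _).1 ha)) ((hV _).1 ha)
  set W := fun i => closure {w : G | ∃ m ∈ M i, m⁻¹ * w * m ∈ V (!i)}
  have hVW : ∀ i, V (!i) ≤ W i := fun i v hv => subset_closure ⟨1, one_mem _, by simpa using hv⟩
  have hWn : ∀ i, M i ≤ normalizer (W i : Set G) := fun i => by
    have : ∀ g ∈ M i, ∀ s ∈ {w : G | ∃ m ∈ M i, m⁻¹ * w * m ∈ V (!i)},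
        g * s * g⁻¹ ∈ {w : G | ∃ m ∈ M i, m⁻¹ * w * m ∈ V (!i)} := fun g hg s ⟨m, hm, hs⟩ =>
      ⟨g * m, mul_mem hg hm, by simpa [mul_assoc] using hs⟩
    exact fun g hg => le_norm_closure (this g hg) (this _ (inv_mem hg))
  have hWQ : ∀ i, W i ≤ Q i := fun i => (closure_le _).2 fun w ⟨m, hm, hw⟩ => by
    simpa [mul_assoc] using (mem_normalizer_iff.1 (hQn i hm) _).1 (hVQ i hw)
  have hconj : ∀ (g : G) {A B : Subgroup G}, (∀ u ∈ B, g⁻¹ * u * g ∈ normalizer (A : Set G)) →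
      (∀ x ∈ A, ∀ y ∈ A, x * y = y * x) →
      (∀ x ∈ A.comap (MulAut.conj g⁻¹).toMonoidHom, ∀ y ∈ A.comap (MulAut.conj g⁻¹).toMonoidHom,
        x * y = y * x) ∧ B ≤ normalizer (A.comap (MulAut.conj g⁻¹).toMonoidHom : Set G) :=
    fun g A B h1 h2 => ⟨fun x hx y hy => (MulAut.conj g⁻¹).injective (by
      rw [map_mul, map_mul]; exact h2 _ hx _ hy), fun u hu => mem_normalizer_iff.2 fun x => by
        have := mem_normalizer_iff.1 (h1 u hu) (g⁻¹ * x * g)
        simpa [mul_assoc] using this⟩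
  have hWa : ∀ i, ∀ x ∈ W i, ∀ y ∈ W i, x * y = y * x := fun i => by
    have h1 : ∀ m ∈ M i, ∀ w, m⁻¹ * w * m ∈ V (!i) → w ∈ centralizer (V (!i) : Set G) :=
      fun m hm w hw => by
        obtain ⟨h2, h3⟩ := hconj m (A := V (!i)) (B := V (!i)) (fun u hu => (hV _).2.2 (hQ i _ (by
          have := (mem_normalizer_iff.1 (hQn i (inv_mem hm)) _).1 (hVQ i hu)
          rwa [inv_inv] at this))) (hVa _)
        exact min_cent (hT _) (hVp _) (hV _).2.1 (hV _).2.2 (hmin _) h2 h3 (by simpa using hw)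
          (hQ i _ (hWQ i (subset_closure ⟨m, hm, hw⟩)))
    have h2 : W i ≤ centralizer (W i : Set G) := by
      rw [centralizer_closure]
      refine (closure_le _).2 fun x ⟨m, hm, hx⟩ y ⟨n, hn, hy⟩ => (MulAut.conj n⁻¹).injective ?_
      have := h1 (n⁻¹ * m) (mul_mem (inv_mem hn) hm) (n⁻¹ * x * n) (by simpa [mul_assoc] using hx)
        _ hy
      simpa [mul_assoc] using this
    exact fun x hx y hy => h2 hy x hx
  have hWC : ∀ j, M j ⊓ centralizer (W j : Set G) ≤ M (!j) := fun j x hx => by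
    refine hP (!j) (V (!j)) (hV _).2.1 (fun k => (hV _).1.trans (hQ _ k)) (hV _).2.2
      ⟨by simpa using hx.1, centralizer_le_normalizer _ fun v hv => hx.2 v (hVW j hv)⟩
  have main : ∀ n, ∀ l : List G, l.length = n → (∀ x ∈ l, ∃ k, x ∈ M k) →
      ∀ i j, ∀ w ∈ W i, l.prod * w * l.prod⁻¹ ∈ Q j := by
    intro n
    induction n with
    | zero =>
      intro l hl _ i j w hw
      rw [List.length_eq_zero_iff.1 hl, List.prod_nil, one_mul, inv_one, mul_one]
      by_cases hij : i = j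
      · exact hij ▸ hWQ i hw
      · obtain rfl : i = !j := by simpa using Bool.eq_not_iff.2 hij
        exact key (hT j) (hQp j) (hQn j) (hWa _) ((hQ j _).trans (hWn _)) (hQC j _) hw
          (hQ _ j (hWQ _ hw)) (hWQ _ hw)
    | succ n ih =>
      have weak : ∀ l : List G, l.length = n + 1 → (∀ x ∈ l, ∃ k, x ∈ M k) →
          ∃ k, ∀ i, ∀ w ∈ W i, l.prod * w * l.prod⁻¹ ∈ Q k := by
        rintro (_ | ⟨m, l⟩) hl h
        · simp at hl
        obtain ⟨k, hk⟩ := h m (by simp)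
        refine ⟨k, fun i w hw => ?_⟩
        have := (mem_normalizer_iff.1 (hQn k hk) _).1
          (ih l (by simpa using hl) (fun x hx => h x (by simp [hx])) i k w hw)
        rw [List.prod_cons, mul_inv_rev]
        simpa only [mul_assoc] using this
      intro l hl h i j w hw
      obtain ⟨k, hk⟩ := weak l hl h
      obtain ⟨k', hk'⟩ := weak (l.map fun x => x⁻¹).reverse (by simpa using hl) fun x hx => by
        obtain ⟨y, hy, rfl⟩ := List.mem_map.1 (List.mem_reverse.1 hx)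
        exact (h y hy).imp fun k hk => inv_mem hk
      rw [← List.prod_inv_reverse, inv_inv] at hk'
      by_cases hkj : k = j
      · exact hkj ▸ hk i w hw
      · obtain rfl : k = !j := by simpa using Bool.eq_not_iff.2 hkj
        obtain ⟨h2, h3⟩ := hconj l.prod (A := W i) (B := W j)
          (fun u hu => hWn i (hQ _ i (hk' j u hu))) (hWa i)
        exact key (hT j) ((hQp j).to_le (hWQ j)) (hWn j) h2 h3 (hWC j)
          (by simpa [mul_assoc] using hw) (hQ _ j (hk i w hw)) (hk i w hw)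
  set S := {a : G | ∃ l : List G, (∀ x ∈ l, ∃ k, x ∈ M k) ∧ ∃ w ∈ W true, l.prod * w * l.prod⁻¹ = a}
  have hS : ∀ j, ∀ g ∈ M j, ∀ s ∈ S, g * s * g⁻¹ ∈ S := by
    rintro j g hg _ ⟨l, hl, w, hw, rfl⟩
    refine ⟨g :: l, fun x hx => ?_, w, hw, by rw [List.prod_cons]; group⟩
    rcases List.mem_cons.1 hx with rfl | hx
    exacts [⟨j, hg⟩, hl x hx]
  refine ⟨closure S, fun h => (hV (!true)).2.1 (eq_bot_iff.2 fun v hv => h.le (subset_closure
    ⟨[], by simp, v, hVW true hv, by simp⟩)), fun j => ⟨(closure_le _).2 ?_, fun g hg =>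
      le_norm_closure (hS j g hg) (hS j _ (inv_mem hg))⟩⟩
  rintro _ ⟨l, hl, w, hw, rfl⟩
  exact hQ j j (main _ l rfl hl true j w hw)

theorem two {M N : Subgroup G} (hc : centralizer (pCore 2 M : Set M) ≤ pCore 2 M)
    (hab : ∀ S : Sylow 2 M, IsMulCommutative (S : Subgroup M))
    (h : (pCore 2 N).map N.subtype ≤ M) : (pCore 2 N).map N.subtype ≤ (pCore 2 M).map M.subtype := by
  obtain ⟨S, hS⟩ := ((isPGroup_map_pCore 2 N).comap_of_injective M.subtype
    M.subtype_injective).exists_le_sylow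
  refine fun x hx => ⟨⟨x, h hx⟩, hc fun y hy => ?_, rfl⟩
  exact congrArg Subtype.val ((hab S).is_comm.comm ⟨y, pCore_le_sylow S hy⟩ ⟨_, hS hx⟩)

/-- Two distinct subgroups M₁, M₂ of G form a primitive pair when, for {i, j} = {1, 2}, every non-trivial normal subgroup A of M_i contained in M₁ ∩ M₂ satisfies N_{M_j}(A) = M₁ ∩ M₂; the pair has characteristic p when moreover C_{M_i}(O_p(M_i)) ≤ O_p(M_i) for both i and O_p(M₁)O_p(M₂) ≤ M₁ ∩ M₂. If the finite group G has a primitive pair (M₁, M₂) of characteristic p for some prime p, then M₁ or M₂ has non-abelian Sylow 2-subgroups. In particular no group of odd order has a primitive pair of characteristic p. -/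
theorem result {G : Type*} [Group G] [Finite G] {p : ℕ} [Fact p.Prime] (M₁ M₂ : Subgroup G) (hne : M₁ ≠ M₂) (hP : ∀ A : Subgroup G, A ≠ ⊥ → A ≤ M₁ ⊓ M₂ → (M₁ ≤ Subgroup.normalizer (A : Set G) → M₂ ⊓ Subgroup.normalizer (A : Set G) = M₁ ⊓ M₂) ∧ (M₂ ≤ Subgroup.normalizer (A : Set G) → M₁ ⊓ Subgroup.normalizer (A : Set G) = M₁ ⊓ M₂)) (hc₁ : Subgroup.centralizer (Cfsg.pCore p ↥M₁ : Set ↥M₁) ≤ Cfsg.pCore p ↥M₁) (hc₂ : Subgroup.centralizer (Cfsg.pCore p ↥M₂ : Set ↥M₂) ≤ Cfsg.pCore p ↥M₂) (hO : (Cfsg.pCore p ↥M₁).map M₁.subtype ⊔ (Cfsg.pCore p ↥M₂).map M₂.subtype ≤ M₁ ⊓ M₂) : (∃ S : Sylow 2 ↥M₁, ¬ IsMulCommutative (S : Subgroup ↥M₁)) ∨ (∃ S : Sylow 2 ↥M₂, ¬ IsMulCommutative (S : Subgroup ↥M₂)) := by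
  by_contra hcon
  simp only [not_or, not_exists, not_not] at hcon
  have hO₁ := le_sup_left.trans hO
  have hO₂ := le_sup_right.trans hO
  have hb : ∀ {M : Subgroup G}, centralizer (pCore p M : Set M) ≤ pCore p M →
      (pCore p M).map M.subtype = ⊥ → M = ⊥ := fun {M} hc h => eq_bot_iff.2 fun x hx =>
    h.le ⟨⟨x, hx⟩, hc fun y hy => Subtype.ext (by
      obtain h1 : (y : G) = 1 := h.le ⟨y, hy, rfl⟩
      simp [h1]), rfl⟩
  have h1 : (pCore p M₁).map M₁.subtype ≠ ⊥ := fun h => hne (by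
    rw [hb hc₂ (eq_bot_iff.2 ((hO₂.trans inf_le_left).trans (hb hc₁ h).le)), hb hc₁ h])
  have h2 : (pCore p M₂).map M₂.subtype ≠ ⊥ := fun h => hne (by
    rw [hb hc₁ (eq_bot_iff.2 ((hO₁.trans inf_le_right).trans (hb hc₂ h).le)), hb hc₂ h])
  obtain ⟨A, hA, h3, h4, h5⟩ : ∃ A : Subgroup G, A ≠ ⊥ ∧ A ≤ M₁ ⊓ M₂ ∧
      M₁ ≤ normalizer (A : Set G) ∧ M₂ ≤ normalizer (A : Set G) := by
    by_cases hp2 : p = 2
    · subst hp2
      have := (two hc₂ hcon.2 (hO₁.trans inf_le_right)).antisymm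
        (two hc₁ hcon.1 (hO₂.trans inf_le_left))
      exact ⟨_, h1, hO₁, le_normalizer.trans (normalizer_le_normalizer_map_pCore 2 _),
        this ▸ le_normalizer.trans (normalizer_le_normalizer_map_pCore 2 _)⟩
    · obtain ⟨A, hA, h⟩ := core (p := p) (fun i => cond i M₁ M₂)
        (Bool.forall_bool.2 ⟨transvFree_of_abelian_sylow_two hp2 default (hcon.2 _),
          transvFree_of_abelian_sylow_two hp2 default (hcon.1 _)⟩) (Bool.forall_bool.2 ⟨h2, h1⟩)
        (Bool.forall_bool.2 ⟨Bool.forall_bool.2 ⟨hO₂.trans inf_le_right, hO₂.trans inf_le_left⟩,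
          Bool.forall_bool.2 ⟨hO₁.trans inf_le_right, hO₁.trans inf_le_left⟩⟩)
        (Bool.forall_bool.2 ⟨hc₂, hc₁⟩) (Bool.forall_bool.2
          ⟨fun A h0 h hn => ((hP A h0 (le_inf (h true) (h false))).2 hn).le.trans inf_le_right,
          fun A h0 h hn => ((hP A h0 (le_inf (h true) (h false))).1 hn).le.trans inf_le_left⟩)
      exact ⟨A, hA, le_inf (h true).1 (h false).1, (h true).2, (h false).2⟩
  exact hne (le_antisymm ((le_inf le_rfl h4).trans (((hP A hA h3).2 h5).le.trans inf_le_right))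
    ((le_inf le_rfl h5).trans (((hP A hA h3).1 h4).le.trans inf_le_left)))

end Cfsg.Agent.S3753
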