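import Cfsg.Statements.S3754
import Cfsg.Agent.Local.Res
import Cfsg.Agent.Solv.CoprimeGen
import Cfsg.Agent.Solv.PSolvable
import Cfsg.Agent.Solv.FrattiniP

set_option autoImplicit false
open Cfsg

namespace Cfsg.Agent.S3754

open Subgroup Cfsg.Lib.Solv Cfsg.Lib.Local
open scoped Pointwise commutatorElement

theorem bar {G : Type*} [Group G] [Finite G] {p : ℕ} [Fact p.Prime] {A D : Subgroup G}
    (hA : IsPGroup p A) (hD : (Nat.card D).Coprime p) (hAD : A ≤ normalizer (D : Set G)) {x : G}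
    (hx : x ∈ D) : ∃ y ∈ D ⊓ resOf p (A ⊔ MulAut.conj x • A),
      MulAut.conj y • A = MulAut.conj x • A := by
  set L := A ⊔ MulAut.conj x • A with hL
  have hc : (Nat.card (D ⊓ L : Subgroup G)).Coprime p := hD.of_dvd_left (card_dvd_of_le inf_le_left)
  obtain ⟨y, hy, e⟩ := Coprime.exists_conj_eq (A := A) (K := D ⊓ L)
    (PG.le_normalizer_inf hAD (le_sup_left.trans le_normalizer))
    (coprime_card_of_isPGroup hA hc) (Or.inl (Coprime.isSolvable_of_isPGroup hA))
    (B := MulAut.conj x • A) (fun b hb => by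
      have ha := Coprime.mem_conj_smul.1 hb
      have e : b = (x * ((x⁻¹ * b * x) * x⁻¹ * (x⁻¹ * b * x)⁻¹)) * (x⁻¹ * b * x) := by group
      rw [e]
      refine mul_mem (mem_sup_left ⟨mul_mem hx (Coprime.conj_mem hAD ha (inv_mem hx)), ?_⟩)
        (mem_sup_right ha)
      have e' : x * ((x⁻¹ * b * x) * x⁻¹ * (x⁻¹ * b * x)⁻¹) = b * (x⁻¹ * b * x)⁻¹ := by group
      rw [e']
      exact L.mul_mem (mem_sup_right hb) (L.inv_mem (mem_sup_left ha)))
    (Coprime.card_conj_smul A x)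
  exact ⟨y, ⟨hy.1, MSS.le_resOf_of_coprime inf_le_right hc hy⟩, e⟩

theorem main {M : Type*} [Group M] [Finite M] {p : ℕ} [hp : Fact p.Prime]
    (hM : Cfsg.IsPSolvable p M) (A : Subgroup M) (hA : IsPGroup p A)
    (hΦ : (frattini ↥A).map A.subtype ≤ Cfsg.pCore p M) (hnot : ¬ A ≤ Cfsg.pCore p M) :
    ∃ x ∈ (Cfsg.pPrimeCore p (M ⧸ Cfsg.pCore p M)).comap (QuotientGroup.mk' (Cfsg.pCore p M)),
      ∀ L : Subgroup M, L = A ⊔ MulAut.conj x • A → x ∈ resOf p L ∧ resOf p L ≤
        (Cfsg.pPrimeCore p (M ⧸ Cfsg.pCore p M)).comap (QuotientGroup.mk' (Cfsg.pCore p M)) ∧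
      ⁅resOf p L, A⁆ = resOf p L ∧ (A ⊓ (pCore p L).map L.subtype).relIndex A = p ∧
      ⁅A ⊓ (pCore p L).map L.subtype, L⁆ ≤ pCore p M := by
  set π := QuotientGroup.mk' (pCore p M) with hπ
  have hker : π.ker = pCore p M := QuotientGroup.ker_mk' _
  set F := pPrimeCore p (M ⧸ pCore p M) with hF
  have hFc : (Nat.card F).Coprime p := coprime_card_pPrimeCore p _
  set A' := A.map π with hA'
  have hA'p : IsPGroup p A' := hA.map π
  have hE : IsElementaryAbelian p A' := by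
    rw [← map_frattini_eq_bot_iff hA'p, ← map_map_frattini_of_isPGroup hA, Subgroup.map_eq_bot_iff,
      hker]
    exact hΦ
  have := hE.1
  have hA'0 : A' ≠ ⊥ := by
    rw [Ne, Subgroup.map_eq_bot_iff, hker]
    exact hnot
  obtain ⟨B', hB'A, hB'i, hB'⟩ : ∃ B' : Subgroup (M ⧸ pCore p M), B' ≤ A' ∧ B'.relIndex A' = p ∧
      ¬ F ⊓ centralizer (B' : Set (M ⧸ pCore p M)) ≤ centralizer (A' : Set (M ⧸ pCore p M)) := by
    by_contra h
    push Not at h
    have h1 := Coprime.le_of_forall_hyperplane (K := F) hE.2 hA'0 le_normalizer_of_normal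
      (coprime_card_of_isPGroup hA'p hFc) h
    have h2 := (le_centralizer_iff.1 h1).trans
      ((hM.quotient _).centralizer_pPrimeCore_le (pCore_quotient_pCore p M))
    apply hA'0
    rw [← inf_eq_left.2 h2]
    exact inf_eq_bot_of_isPGroup_of_coprime hA'p hFc
  set D := F ⊓ centralizer (B' : Set (M ⧸ pCore p M)) with hD
  have hDc : (Nat.card D).Coprime p := hFc.of_dvd_left (card_dvd_of_le inf_le_left)
  have hA'B : A' ≤ centralizer (B' : Set (M ⧸ pCore p M)) := fun a ha b hb =>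
    PG.mul_comm_of_mem (hB'A hb) ha
  have hAD : A' ≤ normalizer (D : Set (M ⧸ pCore p M)) :=
    PG.le_normalizer_inf le_normalizer_of_normal (hA'B.trans le_normalizer)
  have hex : ∃ x : M, π x ∈ D ∧ MulAut.conj (π x) • A' ≠ A' := by
    obtain ⟨y, hy, hy'⟩ := SetLike.not_le_iff_exists.1 hB'
    obtain ⟨x, rfl⟩ := QuotientGroup.mk'_surjective _ y
    refine ⟨x, hy, fun h => hy' fun a ha => ?_⟩
    have h1 : ⁅π x, a⁆ ∈ A' ⊓ D := by
      constructor
      · exact A'.mul_mem (h ▸ Coprime.conj_mem_conj_smul _ ha) (A'.inv_mem ha)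
      · have : ⁅π x, a⁆ = π x * (a * (π x)⁻¹ * a⁻¹) := by
          simp only [commutatorElement_def, mul_assoc]
        rw [this]
        exact D.mul_mem hy (Coprime.conj_mem hAD ha (inv_mem hy))
    rw [inf_eq_bot_of_isPGroup_of_coprime hA'p hDc, mem_bot,
      commutatorElement_eq_one_iff_mul_comm] at h1
    exact h1.symm
  obtain ⟨x₀, hx₀, hmin⟩ := Set.exists_min_image {x : M | π x ∈ D ∧ MulAut.conj (π x) • A' ≠ A'}
    (fun x => Nat.card (A ⊔ MulAut.conj x • A : Subgroup M)) (Set.toFinite _) hex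
  have hmap : ∀ x : M, (A ⊔ MulAut.conj x • A).map π = A' ⊔ MulAut.conj (π x) • A' := fun x => by
    rw [Subgroup.map_sup, map_conj_smul]
  obtain ⟨y, ⟨hyD, hy⟩, e⟩ := bar hA'p hDc hAD hx₀.1
  rw [← hmap, ← MSS.map_resOf] at hy
  obtain ⟨x, hx, rfl⟩ := hy
  have hxne : MulAut.conj (π x) • A' ≠ A' := e ▸ hx₀.2
  have hLL : A ⊔ MulAut.conj x • A = A ⊔ MulAut.conj x₀ • A := by
    refine eq_of_le_of_card_ge (sup_le le_sup_left fun b hb => ?_) (hmin x ⟨hyD, hxne⟩)
    have h1 := MSS.resOf_le _ hx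
    have := mul_mem (mul_mem h1 (mem_sup_left (Coprime.mem_conj_smul.1 hb))) (inv_mem h1)
    simpa [mul_assoc] using this
  rw [← hLL] at hx
  refine ⟨x, hyD.1, fun L hL => ?_⟩
  rw [← hL] at hx
  have hAL : A ≤ L := hL ▸ le_sup_left
  have hxL : x ∈ L := MSS.resOf_le _ hx
  have hL' : L.map π ≤ D ⊔ A' := by
    rw [hL, hmap]
    refine sup_le le_sup_right fun b hb => ?_
    have := mul_mem (mul_mem (mem_sup_left hyD : π x ∈ D ⊔ A')
      (mem_sup_right (Coprime.mem_conj_smul.1 hb))) (inv_mem (mem_sup_left hyD))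
    simpa [mul_assoc] using this
  have hLB : L.map π ≤ centralizer (B' : Set (M ⧸ pCore p M)) :=
    hL'.trans (sup_le inf_le_right hA'B)
  have hKn : A ≤ normalizer (resOf p L : Set M) := hAL.trans (MSS.self_le_normalizer_resOf L)
  have hB : A ⊓ (pCore p L).map L.subtype = A ⊓ B'.comap π := by
    have h1 : A ⊓ B'.comap π ≤ A ⊓ (pCore p L).map L.subtype := by
      refine le_inf inf_le_left ((inf_le_inf_right _ hAL).trans (le_map_pCore inf_le_left ?_ ?_))
      · refine PG.le_normalizer_inf le_normalizer ?_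
        exact (map_le_iff_le_comap.1 (hLB.trans (centralizer_le_normalizer _))).trans
          (le_normalizer_comap π)
      · exact ((hA'p.to_le hB'A).comap_of_ker_isPGroup π
          ((pCore_isPGroup p M).to_le hker.le)).to_inf_right
    have h2 : Nat.card A = p * Nat.card (A ⊓ B'.comap π : Subgroup M) := by
      rw [← PG.relIndex_mul_card (inf_le_left : A ⊓ B'.comap π ≤ A), inf_relIndex_left,
        relIndex_comap, hB'i]
    refine (PG.eq_or_eq_of_card_eq_prime_mul hp.out h2 h1 inf_le_left).resolve_right fun h3 => ?_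
    have h4 : A ≤ (pCore p L).map L.subtype := h3 ▸ inf_le_right
    have h5 : L ≤ (pCore p L).map L.subtype := by
      conv_lhs => rw [hL]
      refine sup_le h4 fun b hb => ?_
      have := Coprime.conj_mem (le_normalizer.trans (normalizer_le_normalizer_map_pCore p L)) hxL
        (h4 (Coprime.mem_conj_smul.1 hb))
      simpa [mul_assoc] using this
    rw [MSS.resOf_eq_bot_of_isPGroup ((isPGroup_map_pCore p L).to_le h5), SetLike.mem_coe, mem_bot] at hx
    apply hxne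
    rw [hx, map_one, map_one, one_smul]
  refine ⟨hx, ?_, ?_, ?_, ?_⟩
  · rw [← map_le_iff_le_comap, MSS.map_resOf]
    exact (MSS.resOf_mono hL').trans
      ((MSS.resOf_sup_le hAD (MSS.resOf_le_of_isPGroup hA'p D)).trans inf_le_left)
  · refine le_antisymm (le_normalizer_iff_commutator_le_left.1 hKn) ?_
    have h1 : L ≤ ⁅resOf p L, A⁆ ⊔ A := by
      conv_lhs => rw [hL]
      refine sup_le le_sup_right fun b hb => ?_
      have ha := Coprime.mem_conj_smul.1 hb
      have e : b = ⁅x, x⁻¹ * b * x⁆ * (x⁻¹ * b * x) := by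
        simp only [commutatorElement_def]; group
      rw [e]
      exact mul_mem (mem_sup_left (commutator_mem_commutator hx ha)) (mem_sup_right ha)
    exact (MSS.resOf_mono h1).trans (MSS.resOf_sup_le (normalizer_commutator_ge_right _ _)
      (MSS.resOf_le_of_isPGroup hA _))
  · rw [hB, inf_relIndex_left, relIndex_comap, hB'i]
  · rw [hB, commutator_le]
    intro b hb g hg
    rw [← hker, MonoidHom.mem_ker, map_commutatorElement, commutatorElement_eq_one_iff_mul_comm]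
    exact hLB (mem_map_of_mem π hg) _ hb.2

/-- Let M be a finite p-soluble group and A a p-subgroup of M with Φ(A) ≤ O_p(M) but A ≰ O_p(M). Then there is x ∈ O_{p,p'}(M) such that L = ⟨A, xAx⁻¹⟩ satisfies: x ∈ O^p(L) and O^p(L) ≤ O_{p,p'}(M); [O^p(L), A] = O^p(L); A ∩ O_p(L) has index p in A; and [A ∩ O_p(L), L] ≤ O_p(M). Here O^p(L) is the subgroup generated by the p'-elements of L and O_{p,p'}(M) the preimage of O_{p'}(M/O_p(M)). -/
theorem result {M : Type*} [Group M] [Finite M] {p : ℕ} [Fact p.Prime] (hM : Cfsg.IsPSolvable p M) (A : Subgroup M) (hA : IsPGroup p A) (hΦ : (frattini ↥A).map A.subtype ≤ Cfsg.pCore p M) (hnot : ¬ A ≤ Cfsg.pCore p M) : ∃ x ∈ (Cfsg.pPrimeCore p (M ⧸ Cfsg.pCore p M)).comap (QuotientGroup.mk' (Cfsg.pCore p M)), x ∈ (Cfsg.pResidual p ↥(A ⊔ A.map (MulAut.conj x).toMonoidHom)).map (A ⊔ A.map (MulAut.conj x).toMonoidHom).subtype ∧ (Cfsg.pResidual p ↥(A ⊔ A.map (MulAut.conj x).toMonoidHom)).map (A ⊔ A.map (MulAut.conj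 x).toMonoidHom).subtype ≤ (Cfsg.pPrimeCore p (M ⧸ Cfsg.pCore p M)).comap (QuotientGroup.mk' (Cfsg.pCore p M)) ∧ ⁅(Cfsg.pResidual p ↥(A ⊔ A.map (MulAut.conj x).toMonoidHom)).map (A ⊔ A.map (MulAut.conj x).toMonoidHom).subtype, A⁆ = (Cfsg.pResidual p ↥(A ⊔ A.map (MulAut.conj x).toMonoidHom)).map (A ⊔ A.map (MulAut.conj x).toMonoidHom).subtype ∧ (A ⊓ (Cfsg.pCore p ↥(A ⊔ A.map (MulAut.conj x).toMonoidHom)).map (A ⊔ A.map (MulAut.conj x).toMonoidHom).subtype).relIndex A = p ∧ ⁅A ⊓ (Cfsg.pCore p ↥(A ⊔ A.map (MulAut.conj x).toMonoidHom)).map (A ⊔ A.map (MulAut.conj x).toMonoidHom).subtype, A ⊔ A.map (MulAut.conj x).toMonoidHom⁆ ≤ Cfsg.pCore p M := by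
  obtain ⟨x, hx, h⟩ := main hM A hA hΦ hnot
  exact ⟨x, hx, h _ rfl⟩

end Cfsg.Agent.S3754
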