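import Cfsg.Statements.S3756
import Cfsg.Agent.Ngrp.Tri
import Cfsg.Agent.Gold.S4Basic

set_option autoImplicit false
open Cfsg

namespace Cfsg.Agent.S3756
open Subgroup Cfsg.Lib.Ngrp Cfsg.Lib.Trans Cfsg.Lib.Trans.TJ Cfsg.Lib.Local Cfsg.Lib.Local.JC

theorem involves {G : Type*} [Group G] [Finite G] {W : Subgroup G} {d u t : G} (h : FD W d)
    (hu : u ∈ W) (h1 : u ≠ 1) (ht : t ∈ normalizer (W : Set G)) (htu : t * u * t⁻¹ = u)
    (hc : t ∉ centralizer (W : Set G)) :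
    Involves (Equiv.Perm (Fin 4)) (normalizer (W : Set G)) := by
  have hv : d * u * d⁻¹ ∈ W := mem_normalizer_conj h.nd hu
  have hne := h.conj_ne hu h1
  have v1 : d * u * d⁻¹ ≠ 1 := by simpa using h1
  have hs : d * t * d⁻¹ ∈ normalizer (W : Set G) := mul_mem (mul_mem h.nd ht) (inv_mem h.nd)
  have hsc : d * t * d⁻¹ ∉ centralizer (W : Set G) := fun e => hc (by
    simpa [mul_assoc] using mem_normalizer_conj
      (normalizer_le_normalizer_centralizer W (inv_mem h.nd)) e)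
  have hsv : d * t * d⁻¹ * (d * u * d⁻¹) * (d * t * d⁻¹)⁻¹ = d * u * d⁻¹ := by
    rw [← htu]
    conv_lhs => rw [htu]
    group
  have hW : W ≤ normalizer (W : Set G) := le_normalizer
  refine Lib.Gold.involves_S4_iff_qd.2 (Lib.Gold.involves_qd_of_pair (u := ⟨u, hW hu⟩)
    (v := ⟨_, hW hv⟩) (t := ⟨t, ht⟩) (s := ⟨_, hs⟩)
    (Subtype.ext (by simpa [pow_two] using ea_sq h.ea hu))
    (by rw [pow_two]; exact Subtype.ext (ea_sq h.ea hv))
    (Subtype.ext (ea_comm h.ea hu hv)) (fun e => h1 (congrArg Subtype.val e))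
    (fun e => ?_) (Subtype.ext htu) (Subtype.ext ?_) (Subtype.ext hsv) (Subtype.ext ?_))
  · obtain ⟨n, hn⟩ := e
    rcases (mem_zpowers_two (ea_sq h.ea hu)).1 ⟨n, congrArg Subtype.val hn⟩ with e | e
    exacts [v1 e, hne e]
  · rcases (h.mem_iff hu h1).1 (mem_normalizer_conj ht hv) with e | e | e | e
    · exact absurd (by simpa using e) h1
    · exact absurd (Geo.conj_inj (e.trans htu.symm)) hne
    · exact absurd (h.fix_cases hu h1 ht htu hc hv e) (not_or.2 ⟨v1, hne⟩)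
    · exact e
  · rcases (h.mem_iff hu h1).1 (mem_normalizer_conj hs hu) with e | e | e | e
    · exact absurd e (Geo.conj_ne_one h1)
    · exact absurd (h.fix_cases hv v1 hs hsv hsc hu e) (not_or.2 ⟨h1, hne.symm⟩)
    · exact absurd (Geo.conj_inj (e.trans hsv.symm)) hne.symm
    · exact e

/-- Let G be a finite group of even order with O₂(G) = 1 such that every 2-local subgroup of G is solvable, of characteristic 2, and has no section isomorphic to the symmetric group of degree 4. Then every maximal 2-local subgroup of G is strongly embedded in G. -/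
theorem result {G : Type*} [Group G] [Finite G] (heven : Even (Nat.card G)) (hO : Cfsg.pCore 2 G = ⊥) (hloc : ∀ M : Subgroup G, Cfsg.IsTwoLocal M → Group.IsSolvable M ∧ Cfsg.IsOfCharacteristicTwo ↥M ∧ ¬ Cfsg.Involves (Equiv.Perm (Fin 4)) ↥M) (M : Subgroup G) (hM : Cfsg.IsMaximalTwoLocal M) : Cfsg.IsStronglyEmbedded M := by
  have ah : AH G := ⟨⟨heven, fun T h1 h2 => (hloc _ ⟨T, h1, h2, rfl⟩).2.1⟩, fun N h => (hloc N h).1⟩
  have hJ : ∀ (T W : Subgroup G) (d : G), IsPGroup 2 T → ¬ JCd T W d := fun T W d hT h => by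
    obtain ⟨A, J₀, a, u, h⟩ := h.exists_jd hT
    exact (hloc _ (isTwoLocal_normalizer (ea_isPGroup h.ea) h.fd.ne_bot)).2.2
      (involves h.fd h.hu h.ne (h.nJ h.aJT) (h.fix h.aJT) h.not_cent)
  obtain ⟨S⟩ : Nonempty (Sylow 2 G) := inferInstance
  rcases tri ah hO (z48_of_no hJ) (fun S T W V d d' h => hJ T W d (S.isPGroup'.to_le h.le) h.jW) S
    with ⟨M₀, h1, h2⟩ | ⟨z, Y, h⟩
  · obtain ⟨⟨D, hD, h0, rfl⟩, hm⟩ := hM
    obtain ⟨g, -, hg⟩ := (isSylowIn_top S).exists_cj_le hD le_top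
    have h3 : normalizer (D : Set G) ≤ cj g⁻¹ M₀ := by
      rw [← cj_le_iff_le_cj_inv, cj_normalizer]
      exact h2.normalizer_le_of_isPGroup (hg.trans h1.1) (isPGroup_cj hD g) (mt cj_eq_bot.1 h0)
    have h4 : IsTwoLocal M₀ := ⟨_, isPGroup_pCoreOf M₀, h1.2, le_antisymm (le_normalizer_pCoreOf M₀)
      (h2.normalizer_le_of_isPGroup (MSS.pCoreOf_le _) (isPGroup_pCoreOf M₀) h1.2)⟩
    rw [← hm _ (twoLocal_cj h4 g⁻¹) h3]
    exact isStronglyEmbedded_iff_se.2 (h2.conj g⁻¹)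
  · obtain ⟨d, hd⟩ := h.exists_fd
    obtain ⟨t, ht, hc⟩ := SetLike.not_le_iff_exists.1 h.not_le
    exact absurd (involves hd h.mem h.ne (h.norm ht) (Geo.Cz_conj (h.S_le ht)) hc)
      (hloc _ (isTwoLocal_normalizer (ea_isPGroup h.ea) hd.ne_bot)).2.2

end Cfsg.Agent.S3756
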