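import Cfsg.Statements.S3757
import Cfsg.Agent.Inst.S0515
import Cfsg.Agent.Cond.S3757

set_option autoImplicit false
open Cfsg

namespace Cfsg.Agent.S3757

/-- Let A and G be subgroups of a finite group with A an elementary abelian p-group of rank at least 3 (order at least p³) normalizing G, and G of order prime to p. If C_G(a) is solvable for every non-identity a ∈ A, then G is solvable. -/
theorem result {X : Type*} [Group X] [Finite X] {p : ℕ} [Fact p.Prime] (A G : Subgroup X) (hA : Cfsg.IsElementaryAbelian p A) (hrank : p ^ 3 ≤ Nat.card A) (hAG : A ≤ Subgroup.normalizer (G : Set X)) (hG : (Nat.card G).Coprime p) (hsol : ∀ a ∈ A, a ≠ 1 → Group.IsSolvable ↥(G ⊓ Subgroup.centralizer ({a} : Set X))) : Group.IsSolvable G := by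
  revert X p A G hA hrank hAG hG hsol
  exact @Cfsg.Agent.Gate.S3757.out Cfsg.Agent.Cond.S3757

end Cfsg.Agent.S3757
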