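import Cfsg.Statements.S3760
-- import your own Cfsg.Agent.* helpers here

set_option autoImplicit false
open Cfsg

namespace Cfsg.Agent.S3760

/-- Let the group G act transitively on a set X, let x ∈ X with stabilizer H = G_x, and let K ≤ H. Then N_G(K) acts transitively on the set of fixed points of K if and only if every G-conjugate of K contained in H is already an H-conjugate of K. -/
theorem result {G : Type*} [Group G] {X : Type*} [MulAction G X] (htrans : ∀ a b : X, ∃ g : G, g • a = b) (x : X) (K : Subgroup G) (hK : K ≤ MulAction.stabilizer G x) : (∀ a b : X, (∀ k ∈ K, k • a = a) → (∀ k ∈ K, k • b = b) → ∃ g ∈ Subgroup.normalizer (K : Set G), g • a = b) ↔ ∀ g : G, K.map (MulAut.conj g).toMonoidHom ≤ MulAction.stabilizer G x → ∃ h ∈ MulAction.stabilizer G x, K.map (MulAut.conj g).toMonoidHom = K.map (MulAut.conj h).toMonoidHom := by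
  have hmem : ∀ (g y : G), y ∈ K.map (MulAut.conj g).toMonoidHom ↔ g⁻¹ * y * g ∈ K := by
    intro g y
    constructor
    · rintro ⟨k, hk, rfl⟩
      simpa [mul_assoc] using hk
    · intro h
      exact ⟨_, h, by simp [mul_assoc]⟩
  constructor
  · intro h g hg
    obtain ⟨n, hn, hnx⟩ := h x (g⁻¹ • x) (fun k hk => hK hk) (fun k hk => by
      have : g * k * g⁻¹ ∈ MulAction.stabilizer G x := hg ((hmem g _).mpr (by simpa [mul_assoc] using hk))
      rw [MulAction.mem_stabilizer_iff, mul_smul, mul_smul] at this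
      rw [← inv_smul_eq_iff.mpr this.symm])
    refine ⟨g * n, ?_, ?_⟩
    · rw [MulAction.mem_stabilizer_iff, mul_smul, hnx, smul_inv_smul]
    · ext y
      rw [hmem, hmem, Subgroup.mem_normalizer_iff''.mp hn]
      simp [mul_assoc]
  · intro h
    have key : ∀ a : X, (∀ k ∈ K, k • a = a) → ∃ g ∈ Subgroup.normalizer (K : Set G), g • a = x := by
      intro a ha
      obtain ⟨g, hg⟩ := htrans a x
      obtain ⟨u, hu, hgu⟩ := h g (fun y hy => by
        have := ha _ ((hmem g y).mp hy)
        rw [MulAction.mem_stabilizer_iff, ← hg]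
        rw [mul_smul, mul_smul, inv_smul_eq_iff] at this
        exact this)
      refine ⟨u⁻¹ * g, ?_, ?_⟩
      · rw [Subgroup.mem_normalizer_iff]
        intro y
        have h1 := hmem g (u * (u⁻¹ * g * y * (u⁻¹ * g)⁻¹) * u⁻¹)
        rw [hgu, hmem] at h1
        simpa [mul_assoc] using h1.symm
      · rw [mul_smul, hg, inv_smul_eq_iff]
        exact hu.symm
    intro a b ha hb
    obtain ⟨g, hg, hga⟩ := key a ha
    obtain ⟨g', hg', hgb⟩ := key b hb
    exact ⟨g'⁻¹ * g, mul_mem (inv_mem hg') hg, by rw [mul_smul, hga, inv_smul_eq_iff, hgb]⟩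

end Cfsg.Agent.S3760
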