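import Cfsg.Statements.S3761
import Cfsg.Agent.Solv.ExtraSub
import Cfsg.Agent.Trans.MaxClassTwo

set_option autoImplicit false
open Cfsg

namespace Cfsg.Agent.S3761

open Subgroup Cfsg.Lib.Solv.PG
open scoped commutatorElement

variable {G : Type*} [Group G] {p : ℕ}

theorem powerClosure_zpowers (a : G) : powerClosure p 1 (zpowers a) = zpowers (a ^ p) := by
  refine le_antisymm (powerClosure_le_iff.mpr ?_)
    (zpowers_le.mpr (by simpa using pow_mem_powerClosure (p := p) (n := 1) (mem_zpowers a)))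
  rintro _ ⟨k, rfl⟩
  exact ⟨k, by simp only [pow_one, ← zpow_natCast, ← zpow_mul, mul_comm]⟩

/-- `g` acts on `⟨a⟩` as a power `r`, with `r ≡ 1 mod 4` if `p = 2`. -/
def Good (p : ℕ) (a g : G) : Prop := ∃ r : ℕ, g * a * g⁻¹ = a ^ r ∧ (p = 2 → r ≡ 1 [MOD 4])

theorem Good.pow {a g : G} (h : Good p a g) (k : ℕ) : Good p a (g ^ k) := by
  obtain ⟨r, h1, h2⟩ := h
  exact ⟨r ^ k, pow_conj_eq h1 k, fun hp => by simpa using (h2 hp).pow k⟩

theorem Good.mem [Finite G] (hp : p.Prime) {a g : G} {n : ℕ} (ha : orderOf a = p ^ n) (hn : 0 < n)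
    (h : Good p a g) (hg : g ^ p ∈ zpowers a) : g ∈ centralizer (zpowers (a ^ p) : Set G) := by
  obtain ⟨r, h1, h2⟩ := h
  have h3 : g ^ p * a * (g ^ p)⁻¹ = a := by
    rw [mul_comm_of_mem hg (mem_zpowers a), mul_inv_cancel_right]
  have h4 := modEq_one_of_conj_eq_pow (k := 1) hp ha hn h1 (by rwa [pow_one])
  obtain ⟨u, hu, hpu⟩ := exists_geom_sum_eq hp h4 h2
  obtain ⟨s, rfl⟩ : ∃ s, r = s + 1 := Nat.exists_eq_succ_of_ne_zero (by
    rintro rfl
    exact hp.not_dvd_one ((Nat.modEq_zero_iff_dvd).mp h4.symm))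
  rw [pow_conj_eq h1, ← geom_sum_mul_add, hu, pow_succ, mul_eq_right, ← orderOf_dvd_iff_pow_eq_one,
    ha, mul_right_comm] at h3
  have h5 := (Nat.Coprime.pow_left n ((Nat.Prime.coprime_iff_not_dvd hp).mpr hpu)
    ).dvd_of_dvd_mul_right h3
  rw [mem_centralizer_zpowers_iff, conj_pow_eq h1, add_mul, pow_add, one_mul, mul_eq_right,
    ← orderOf_dvd_iff_pow_eq_one, ha, mul_comm]
  exact h5

theorem odd_of_conj [Finite G] (hG : IsPGroup 2 G) {a g : G} {n r : ℕ} (ha : orderOf a = 2 ^ n)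
    (hn : 0 < n) (h : g * a * g⁻¹ = a ^ r) : r % 2 = 1 := by
  obtain ⟨k, hk⟩ := hG g
  exact modEq_one_of_conj_eq_pow (k := k) Nat.prime_two ha hn h (by rw [hk]; group)

theorem case_one [Finite G] {a : G} {m : ℕ} (hc : Nat.card G = 2 ^ (m + 3))
    (hi : (zpowers a).index = 2) (hna : ¬ IsMulCommutative G)
    (h : m = 0 ∨ centralizer (powerClosure 2 1 (zpowers a) : Set G) ≤ zpowers a) :
    (∃ m : ℕ, Nonempty (G ≃* DihedralGroup m)) ∨ (∃ m : ℕ, Nonempty (G ≃* QuaternionGroup m)) ∨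
      IsQuasiDihedral G := by
  obtain ⟨c, b, hca, ha, hb, ⟨h1, h2⟩ | ⟨h1, h2⟩ | ⟨hm, h1, h2⟩ | ⟨hm, h1, h2⟩⟩ :=
    Cfsg.Lib.Trans.two_group_cyclic_index_two hc _ inferInstance hi (by
      by_contra hcon
      push Not at hcon
      exact hna ⟨⟨hcon⟩⟩)
  · exact Or.inl ⟨_, Cfsg.Lib.Trans.nonempty_mulEquiv_dihedral c b ha hb h2 (by rw [← sq, h1])
      (by rw [hc]; ring)⟩
  · exact Or.inr (Or.inl ⟨_, Cfsg.Lib.Trans.nonempty_mulEquiv_quaternion c b (n := 2 * 2 ^ m)
      (by rw [ha]; ring) hb h2 (by rw [← sq, h1]) (by rw [hc]; ring)⟩)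
  · refine absurd (hca ▸ (h.resolve_left (by omega)) ?_) hb
    rw [← hca, powerClosure_zpowers, mem_centralizer_zpowers_iff, ← conj_pow, h2, ← zpow_natCast,
      ← zpow_natCast, ← zpow_mul, zpow_eq_zpow_iff_modEq, ha]
    exact (Int.modEq_iff_dvd.mpr ⟨-1, by push_cast; ring⟩)
  · refine Or.inr (Or.inr ⟨m + 2, by omega, hc, c, b, by rw [ha]; ring,
      orderOf_eq_prime h1 (fun h0 => hb (h0 ▸ one_mem _)), ?_⟩)
    have : 1 ≤ 2 ^ (m + 1) := Nat.one_le_two_pow
    rw [h2, ← zpow_natCast, show m + 2 - 1 = m + 1 from rfl]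
    congr 1
    push_cast [this]
    ring

/-- Let G be a finite non-abelian p-group with a cyclic normal subgroup U of order p^n such that C_G(U) = U. Then either p = 2 and G is dihedral, generalized quaternion or semidihedral of order 2^(n+1); or, writing U₁ for the subgroup generated by the p-th powers of elements of U and M = C_G(U₁), the subgroup U has index p in M and the subgroup Ω₁(M) generated by the elements of M of order dividing p is elementary abelian of order p² and characteristic in G. -/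
theorem result {G : Type*} [Group G] [Finite G] {p : ℕ} [Fact p.Prime] (hG : IsPGroup p G) (hna : ¬ IsMulCommutative G) (U : Subgroup G) [U.Normal] (hU : IsCyclic U) (n : ℕ) (hUn : Nat.card U = p ^ n) (hC : Subgroup.centralizer (U : Set G) = U) : (p = 2 ∧ Nat.card G = 2 ^ (n + 1) ∧ ((∃ m : ℕ, Nonempty (G ≃* DihedralGroup m)) ∨ (∃ m : ℕ, Nonempty (G ≃* QuaternionGroup m)) ∨ Cfsg.IsQuasiDihedral G)) ∨ (U.relIndex (Subgroup.centralizer (Cfsg.powerClosure p 1 U : Set G)) = p ∧ Cfsg.IsElementaryAbelian p (Cfsg.omegaOne p (Subgroup.centralizer (Cfsg.powerClosure p 1 U : Set G))) ∧ Nat.card ↥(Cfsg.omegaOne p (Subgroup.centralizer (Cfsg.powerClosure p 1 U : Set G))) = p ^ 2 ∧ (Cfsg.omegaOne p (Subgroup.centralizer (Cfsg.powerClosure p 1 U : Set G))).Characteristic) := by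
  have hp : p.Prime := Fact.out
  obtain ⟨a, rfl⟩ := exists_zpowers_eq U
  have ha : orderOf a = p ^ n := by rwa [Nat.card_zpowers] at hUn
  have hne : zpowers a ≠ ⊤ := fun h => hna (isMulCommutative_top_iff.mp (h ▸ inferInstance))
  have hn : 2 ≤ n := by
    by_contra hlt
    refine hne (hC.symm.trans (centralizer_eq_top_iff_subset.mpr ?_))
    rcases (show n = 0 ∨ n = 1 by omega) with rfl | rfl
    · rw [Subgroup.card_eq_one.mp hUn]; exact (bot_le : ⊥ ≤ center G)
    · exact le_center_of_card_eq_prime hG _ (by simpa using hUn)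
  have hconj : ∀ g : G, ∃ r : ℕ, g * a * g⁻¹ = a ^ r := fun g =>
    exists_conj_eq_pow (le_normalizer_of_normal (mem_top g))
  set M := centralizer (powerClosure p 1 (zpowers a) : Set G) with hM
  have hM' : M = centralizer (zpowers (a ^ p) : Set G) := by rw [hM, powerClosure_zpowers]
  have hUM : zpowers a ≤ M := (le_centralizer _).trans (centralizer_le (powerClosure_le 1 _))
  have hgood : ∀ g, ¬ Good p a g → p = 2 ∧ ∃ r, g * a * g⁻¹ = a ^ r ∧ r % 4 = 3 := fun g hg => by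
    obtain ⟨r, hr⟩ := hconj g
    obtain ⟨rfl, h4⟩ := Classical.not_imp.mp fun h => hg ⟨r, hr, h⟩
    have := odd_of_conj hG ha (by omega) hr
    exact ⟨rfl, r, hr, by unfold Nat.ModEq at h4; omega⟩
  by_cases hMU : M ≤ zpowers a
  · have h1 : ∀ g, Good p a g → g ∈ zpowers a := fun g hg => by
      by_contra hga
      obtain ⟨k, hk⟩ := hG g
      obtain ⟨j, h2, h3⟩ := exists_pow_not_mem_pow_mem (p := p) (k := k) hga (hk ▸ one_mem _)
      exact h2 (hMU (hM' ▸ (hg.pow _).mem hp ha (by omega) h3))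
    obtain ⟨x, -, hx⟩ := SetLike.exists_of_lt hne.lt_top
    obtain ⟨rfl, r, hr, hr4⟩ := hgood x fun h => hx (h1 x h)
    have hi : (zpowers a).index = 2 := by
      refine index_eq_two_iff_exists_notMem_and.mpr ⟨x, hx, fun g => ?_⟩
      by_cases hg : g ∈ zpowers a
      · exact Or.inr hg
      obtain ⟨-, s, hs, hs4⟩ := hgood g fun h => hg (h1 g h)
      refine Or.inl (h1 _ ⟨s * r, ?_, fun _ => ?_⟩)
      · rw [← conj_pow_eq hs, ← hr]; group
      · unfold Nat.ModEq; rw [Nat.mul_mod, hr4, hs4]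
    have hc : Nat.card G = 2 ^ (n + 1) := by rw [← (zpowers a).index_mul_card, hi, hUn, pow_succ']
    obtain ⟨m, rfl⟩ : ∃ m, n = m + 2 := ⟨n - 2, by omega⟩
    exact Or.inl ⟨rfl, hc, case_one hc hi hna (Or.inr hMU)⟩
  have hi : (zpowers a).relIndex M = p := by
    have h1 := Cfsg.Lib.FT.BG4.relIndex_centralizer_le_card (H := M) (v := a)
      (S := omegaOne p (zpowers a)) fun x hx => by
        refine mem_omegaOne (mul_mem (Normal.conj_mem ‹_› a (mem_zpowers a) x)
          (inv_mem (mem_zpowers a))) ?_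
        have : Commute (x * a * x⁻¹) a⁻¹ := mul_comm_of_mem
          (Normal.conj_mem ‹_› a (mem_zpowers a) x) (inv_mem (mem_zpowers a))
        rw [commutatorElement_def, this.mul_pow, conj_pow,
          mem_centralizer_zpowers_iff.mp (hM' ▸ hx), inv_pow, mul_inv_cancel]
    rw [card_omegaOne_of_isCyclic (hG.to_subgroup _) (by
      rw [Ne, ← Subgroup.card_eq_one, hUn]; exact (Nat.one_lt_pow (by omega) hp.one_lt).ne'),
      ← centralizer_closure, ← zpowers_eq_closure, hC] at h1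
    have h2 := prime_mul_card_le_of_lt (hG.to_subgroup M) (lt_of_le_not_ge hUM hMU)
    rw [← relIndex_mul_card hUM] at h2
    exact le_antisymm h1 (Nat.le_of_mul_le_mul_right h2 Nat.card_pos)
  have hcM : Nat.card M = p * Nat.card (zpowers a) := by rw [← relIndex_mul_card hUM, hi]
  by_cases h22 : p = 2 ∧ n = 2
  · obtain ⟨rfl, rfl⟩ := h22
    have : (zpowers (a ^ 2)).Normal := powerClosure_zpowers (p := 2) a ▸ inferInstance
    have h1 : M = ⊤ := hM'.trans (centralizer_eq_top_iff_subset.mpr (le_center_of_card_eq_prime hG _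
      (by rw [Nat.card_zpowers, orderOf_pow_of_dvd two_ne_zero (ha ▸ by norm_num), ha]; rfl)))
    rw [h1, relIndex_top_right] at hi
    rw [h1, card_top, hUn] at hcM
    exact Or.inl ⟨rfl, hcM, case_one (m := 0) hcM hi hna (Or.inl rfl)⟩
  have hMgood : ∀ g ∈ M, Good p a g := fun g hg => by
    obtain ⟨r, hr⟩ := hconj g
    refine ⟨r, hr, ?_⟩
    rintro rfl
    rw [hM', mem_centralizer_zpowers_iff, conj_pow_eq hr, pow_eq_pow_iff_modEq, ha] at hg
    have := hg.of_dvd (pow_dvd_pow 2 (show 3 ≤ n by omega))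
    unfold Nat.ModEq at this ⊢
    omega
  obtain ⟨V, hV1, hV2, hV3⟩ : ∃ V : Subgroup G, IsMulCommutative V ∧ Nat.card V = p ^ 2 ∧
      ∀ w : G, w ∈ V ↔ w ∈ M ∧ w ^ p = 1 := by
    obtain ⟨x, hxM, hx⟩ := SetLike.not_le_iff_exists.mp hMU
    obtain ⟨r, hr, hr2⟩ := hMgood x hxM
    have hxp : x ^ p ∈ zpowers a := by
      have := ((zpowers a).subgroupOf M).pow_index_mem ⟨x, hxM⟩
      rwa [show ((zpowers a).subgroupOf M).index = p from hi] at this
    obtain ⟨m, hm⟩ := exists_pow_eq_of_mem_zpowers hxp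
    have hr1 := modEq_one_of_conj_eq_pow (k := 1) hp ha (by omega) hr (by rw [pow_one, hm]; group)
    obtain ⟨k, rfl⟩ : p ∣ m := by
      by_contra hpm
      have := mem_zpowers_pow_of_not_dvd hp ha hpm
      rw [← hm] at this
      refine hx (hC ▸ mem_centralizer_zpowers_iff.mpr ?_)
      rw [mul_comm_of_mem (mem_zpowers x) (zpowers_le.mpr (npow_mem_zpowers x p) this),
        mul_inv_cancel_right]
    obtain ⟨j, hj⟩ := exists_pow_mul_pow_prime_eq_one hp ha hr hr1 hr2 hm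
    have hyA : a ^ j * x ∉ zpowers a := fun h =>
      hx ((mul_mem_cancel_left (npow_mem_zpowers a j)).mp h)
    have hy : a ^ j * x * a * (a ^ j * x)⁻¹ = a ^ r := by
      calc a ^ j * x * a * (a ^ j * x)⁻¹ = a ^ j * (x * a * x⁻¹) * (a ^ j)⁻¹ := by group
        _ = a ^ r := by rw [hr]; group
    obtain ⟨V, h1, h2, h3⟩ := exists_omega_of_conj_eq_pow hp ha (by omega) hy hr1 hr2 hj hyA
    rw [sup_zpowers_eq_of_card_eq_prime_mul hp hUM hcM
      (M.mul_mem (hUM (npow_mem_zpowers a j)) hxM) hyA] at h3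
    exact ⟨V, h1, h2, h3⟩
  have hV : omegaOne p M = V := le_antisymm (omegaOne_le_iff.mpr fun x h1 h2 => (hV3 x).mpr ⟨h1, h2⟩)
    fun x hx => mem_omegaOne ((hV3 x).mp hx).1 ((hV3 x).mp hx).2
  refine Or.inr ⟨hi, hV ▸ ⟨hV1, fun x hx => ((hV3 x).mp hx).2⟩, hV ▸ hV2, ?_⟩
  by_cases hall : ∀ g, Good p a g
  · rw [show omegaOne p M = omegaOne p ⊤ from le_antisymm (omegaOne_mono le_top)
      (omegaOne_le_iff.mpr fun x _ hx => mem_omegaOne
        (hM' ▸ (hall x).mem hp ha (by omega) (hx ▸ one_mem _)) hx)]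
    infer_instance
  push Not at hall
  obtain ⟨g, hg⟩ := hall
  obtain ⟨rfl, r, hr, hr4⟩ := hgood g hg
  have h1 : zpowers (a ^ 2) ≤ commutator G := by
    obtain ⟨t, rfl⟩ : ∃ t, r = 2 * (2 * t + 1) + 1 := ⟨r / 4, by omega⟩
    have h2 : ⁅g, a⁆ = (a ^ 2) ^ (2 * t + 1) := by
      rw [commutatorElement_def, hr, pow_succ, mul_inv_cancel_right, pow_mul]
    refine zpowers_le.mpr (zpowers_le.mpr (h2 ▸ commutator_mem_commutator trivial trivial)
      (mem_zpowers_pow_of_not_dvd hp (n := n - 1) (m := 2 * t + 1) ?_ (by omega)))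
    simpa using orderOf_pow_prime_pow hp ha (k := 1) (by omega)
  have h2 : commutator G ≤ zpowers a := hC ▸ commutator_le_centralizer_of_isCyclic _
  have h3 : Nat.card (zpowers a) = 2 * Nat.card (zpowers (a ^ 2)) := by
    have := orderOf_pow_prime_pow hp ha (k := 1) (by omega)
    rw [hUn, Nat.card_zpowers, ← pow_one 2, this, pow_one, ← pow_succ',
      Nat.sub_add_cancel (by omega)]
  rcases eq_or_eq_of_card_eq_prime_mul hp h3 h1 h2 with h | h
  · rw [hM', ← h]; infer_instance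
  · rw [hM, ← h]; infer_instance

end Cfsg.Agent.S3761
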