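import Cfsg.Statements.S3764
import Cfsg.Agent.FT.BG3.T34b

set_option autoImplicit false
open Cfsg

namespace Cfsg.Agent.S3764

/-- Let p, q, r be distinct primes and let X, Q, V be subgroups of a finite group with X of order r, Q an extraspecial q-group normalized by X with C_Q(X) = Z(Q), and V an elementary abelian p-group normalized by X and Q on which XQ acts faithfully ((X ⊔ Q) ∩ C(V) = 1). If C_V(X) = 1, then q = 2, r = 2^n + 1 for some n, and Q has order 2^(2n+1). -/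
theorem result {G : Type*} [Group G] [Finite G] {p q r : ℕ} (hp : p.Prime) (hq : q.Prime) (hr : r.Prime) (hpq : p ≠ q) (hpr : p ≠ r) (hqr : q ≠ r) (X Q V : Subgroup G) (hX : Nat.card X = r) (hQ : Cfsg.IsExtraspecial q ↥Q) (hXQ : X ≤ Subgroup.normalizer (Q : Set G)) (hCQ : Q ⊓ Subgroup.centralizer (X : Set G) = (Subgroup.center ↥Q).map Q.subtype) (hV : Cfsg.IsElementaryAbelian p V) (hXV : X ≤ Subgroup.normalizer (V : Set G)) (hQV : Q ≤ Subgroup.normalizer (V : Set G)) (hfaith : (X ⊔ Q) ⊓ Subgroup.centralizer (V : Set G) = ⊥) (hCV : V ⊓ Subgroup.centralizer (X : Set G) = ⊥) : q = 2 ∧ ∃ n : ℕ, r = 2 ^ n + 1 ∧ Nat.card Q = 2 ^ (2 * n + 1) := by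
  have : Fact p.Prime := ⟨hp⟩
  have : Fact q.Prime := ⟨hq⟩
  have hVp : IsPGroup p V := fun v => ⟨1, by rw [pow_one]; exact Subtype.ext (hV.2 v v.2)⟩
  obtain ⟨a, ha⟩ := IsPGroup.iff_card.1 hVp
  obtain ⟨b, hb⟩ := IsPGroup.iff_card.1 hQ.1.1
  have h1 : (Nat.card Q).Coprime (Nat.card X) := by
    rw [hb, hX]; exact ((Nat.coprime_primes hq hr).2 hqr).pow_left _
  have h2 : (Nat.card V).Coprime (Nat.card X) := by
    rw [ha, hX]; exact ((Nat.coprime_primes hp hr).2 hpr).pow_left _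
  have h3 : (Nat.card V).Coprime (Nat.card Q) := by
    rw [ha, hb]; exact Nat.coprime_pow_primes _ _ hp hq hpq
  have hZ : (Subgroup.center Q).map Q.subtype = Q ⊓ Subgroup.centralizer (Q : Set G) := by
    ext x
    constructor
    · rintro ⟨y, hy, rfl⟩
      exact ⟨y.2, fun z hz => congrArg Subtype.val (Subgroup.mem_center_iff.1 hy ⟨z, hz⟩)⟩
    · rintro ⟨hx, hx'⟩
      exact ⟨⟨x, hx⟩, Subgroup.mem_center_iff.2 fun z => Subtype.ext (hx' z z.2), rfl⟩
  have hZc : Nat.card ↥(Q ⊓ Subgroup.centralizer (Q : Set G)) = q := by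
    rw [← hZ, Cfsg.Lib.Solv.card_map_subtype, hQ.2]
  have hZ1 : Q ⊓ Subgroup.centralizer (Q : Set G) ≠ ⊥ := fun h => by
    rw [h, Subgroup.card_bot] at hZc; exact hq.one_lt.ne hZc
  have hQ' : ⁅Q, Q⁆ = Q ⊓ Subgroup.centralizer (Q : Set G) := by
    rw [← Subgroup.map_subtype_commutator, hQ.1.2.2, hZ]
  obtain ⟨d, h4, h5⟩ := Cfsg.Lib.FT.extraspecial_prime_sdprod_card (hZc ▸ hq)
    (hQ'.le.trans inf_le_right) hXQ h1 (hX ▸ hr) (hCQ.trans hZ)
    (Cfsg.Lib.Solv.Coprime.isSolvable_of_isPGroup hVp) hQV hXV h3 h2 hCV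
    fun h => hZ1 (le_bot_iff.1 (hfaith ▸ le_inf (inf_le_left.trans le_sup_right) h))
  have hd1 : d ≠ 1 := by
    rintro rfl
    rw [one_pow, mul_one] at h4
    have h6 := Subgroup.eq_of_le_of_card_ge
      (inf_le_left : Q ⊓ Subgroup.centralizer (Q : Set G) ≤ Q) h4.le
    exact hZ1 (hQ' ▸ Subgroup.commutator_eq_bot_iff_le_centralizer.2 (inf_eq_left.1 h6))
  have hd0 : d ≠ 0 := by
    rintro rfl
    exact Nat.card_pos.ne' (by simpa using h4)
  have h6 := (h5.resolve_left hd1).trans hX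
  obtain ⟨rfl, n, hn⟩ := Cfsg.Lib.FT.eq_two_of_sq_dvd_prime_pow hq hr (by omega) h6
    (hb ▸ Dvd.intro_left _ h4.symm)
  refine ⟨rfl, n, by rw [← h6, hn], ?_⟩
  rw [h4, hZc, hn]; ring

end Cfsg.Agent.S3764
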