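import Cfsg.Statements.S3765
import Cfsg.Agent.FT.BG3.T34b

set_option autoImplicit false
open Cfsg

namespace Cfsg.Agent.S3765

/-- Let p, q, r be distinct primes and let X, Q, V be subgroups of a finite group with X of order r normalizing the q-group Q and acting faithfully on it (X ∩ C(Q) = 1), and V a nontrivial elementary abelian p-group normalized by X and Q on which XQ acts faithfully. If q = 2 and r has the form 2^n + 1, assume in addition that Q is abelian. Then C_V(X) ≠ 1. -/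
theorem result {G : Type*} [Group G] [Finite G] {p q r : ℕ} (hp : p.Prime) (hq : q.Prime) (hr : r.Prime) (hpq : p ≠ q) (hpr : p ≠ r) (hqr : q ≠ r) (X Q V : Subgroup G) (hX : Nat.card X = r) (hQ : IsPGroup q Q) (hXQ : X ≤ Subgroup.normalizer (Q : Set G)) (hXfaith : X ⊓ Subgroup.centralizer (Q : Set G) = ⊥) (hV : Cfsg.IsElementaryAbelian p V) (hV1 : V ≠ ⊥) (hXV : X ≤ Subgroup.normalizer (V : Set G)) (hQV : Q ≤ Subgroup.normalizer (V : Set G)) (hfaith : (X ⊔ Q) ⊓ Subgroup.centralizer (V : Set G) = ⊥) (hexc : q = 2 → (∃ n : ℕ, r = 2 ^ n + 1) → IsMulCommutative Q) : V ⊓ Subgroup.centralizer (X : Set G) ≠ ⊥ := by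
  have : Fact p.Prime := ⟨hp⟩
  have : Fact q.Prime := ⟨hq⟩
  have hVp : IsPGroup p V := fun v => ⟨1, by rw [pow_one]; exact Subtype.ext (hV.2 v v.2)⟩
  obtain ⟨a, ha⟩ := IsPGroup.iff_card.1 hVp
  obtain ⟨b, hb⟩ := IsPGroup.iff_card.1 hQ
  have h1 : (Nat.card Q).Coprime (Nat.card X) := by
    rw [hb, hX]; exact ((Nat.coprime_primes hq hr).2 hqr).pow_left _
  have h2 : (Nat.card V).Coprime (Nat.card X) := by
    rw [ha, hX]; exact ((Nat.coprime_primes hp hr).2 hpr).pow_left _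
  have h3 : (Nat.card V).Coprime (Nat.card Q) := by
    rw [ha, hb]; exact Nat.coprime_pow_primes _ _ hp hq hpq
  intro hCV
  have h4 := Cfsg.Lib.FT.prime_sdprod_cent1 (Cfsg.Lib.Solv.Coprime.isSolvable_of_isPGroup hQ)
    (fun d hd h5 h6 => by
      obtain ⟨h7, n, hn⟩ := Cfsg.Lib.FT.eq_two_of_sq_dvd_prime_pow hq hr hd (h5.trans hX) (hb ▸ h6)
      exact Subgroup.le_centralizer_iff_isMulCommutative.2 (hexc h7 ⟨n, by rw [← hX, ← h5, hn]⟩))
    hXQ h1 (hX ▸ hr) (Cfsg.Lib.Solv.Coprime.isSolvable_of_isPGroup hVp) hQV hXV h3 h2 hCV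
  have h5 : ⁅X, Q⁆ = ⊥ := le_bot_iff.1 (hfaith ▸ le_inf
    ((Cfsg.Lib.Solv.commutator_le_right_of_le_normalizer hXQ).trans le_sup_right) h4)
  have h6 : X = ⊥ := le_bot_iff.1 (hXfaith ▸ le_inf le_rfl
    (Subgroup.commutator_eq_bot_iff_le_centralizer.1 h5))
  rw [h6, Subgroup.card_bot] at hX
  exact hr.one_lt.ne hX

end Cfsg.Agent.S3765
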