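import Cfsg.Statements.S3766
import Cfsg.Agent.FT.BG1.Chief

set_option autoImplicit false
open Cfsg

namespace Cfsg.Agent.S3766

open scoped commutatorElement in
theorem aux {G : Type*} [Group G] {U V : Subgroup G} [V.Normal] {g : G}
    (h : ∀ u ∈ U, u * g * u⁻¹ * g⁻¹ ∈ V) : ⁅U, Subgroup.zpowers g⁆ ≤ V := by
  rw [Subgroup.commutator_le]
  rintro u hu _ ⟨n, rfl⟩
  rw [← QuotientGroup.eq_one_iff, ← QuotientGroup.mk'_apply, map_commutatorElement,
    commutatorElement_eq_one_iff_commute, map_zpow]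
  refine Commute.zpow_right ?_ n
  rw [← commutatorElement_eq_one_iff_commute, ← map_commutatorElement, QuotientGroup.mk'_apply,
    QuotientGroup.eq_one_iff]
  exact h u hu

/-- Let G be a finite solvable group and N a normal subgroup of G. Call a pair V < U of normal subgroups of G a chief factor of G when no normal subgroup of G lies strictly between them; an element g centralizes the chief factor U/V when u g u⁻¹ g⁻¹ ∈ V for all u ∈ U. Then an element of G lies in the Fitting subgroup F(N) if and only if it lies in N and centralizes every chief factor of G; and also if and only if it lies in N and centralizes every chief factor U/V of G with U ≤ F(N). -/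
theorem result {G : Type*} [Group G] [Finite G] (hG : Group.IsSolvable G) (N : Subgroup G) [N.Normal] (g : G) : (g ∈ (Cfsg.fittingSubgroup ↥N).map N.subtype ↔ g ∈ N ∧ ∀ U V : Subgroup G, (U.Normal ∧ V.Normal ∧ V < U ∧ ∀ W : Subgroup G, W.Normal → V ≤ W → W ≤ U → W = V ∨ W = U) → ∀ u ∈ U, u * g * u⁻¹ * g⁻¹ ∈ V) ∧ (g ∈ (Cfsg.fittingSubgroup ↥N).map N.subtype ↔ g ∈ N ∧ ∀ U V : Subgroup G, (U.Normal ∧ V.Normal ∧ V < U ∧ ∀ W : Subgroup G, W.Normal → V ≤ W → W ≤ U → W = V ∨ W = U) → U ≤ (Cfsg.fittingSubgroup ↥N).map N.subtype → ∀ u ∈ U, u * g * u⁻¹ * g⁻¹ ∈ V) := by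
  have key : ∀ U V : Subgroup G, Cfsg.Lib.FT.IsChiefFactor ⊤ V U ↔ (U.Normal ∧ V.Normal ∧ V < U ∧
      ∀ W : Subgroup G, W.Normal → V ≤ W → W ≤ U → W = V ∨ W = U) := by
    intro U V
    constructor
    · intro h
      exact ⟨Subgroup.normalizer_eq_top_iff.mp (top_le_iff.mp h.normalV.2),
        Subgroup.normalizer_eq_top_iff.mp (top_le_iff.mp h.normalW.2), h.lt,
        fun W hW h1 h2 => h.minimal W h1 h2 Subgroup.le_normalizer_of_normal⟩
    · rintro ⟨h1, h2, h3, h4⟩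
      exact ⟨⟨le_top, Subgroup.le_normalizer_of_normal⟩, ⟨le_top, Subgroup.le_normalizer_of_normal⟩,
        h3, fun X hX hX' hn => h4 X (Subgroup.normalizer_eq_top_iff.mp (top_le_iff.mp hn)) hX hX'⟩
  have hN : Cfsg.Lib.FT.NormalIn N ⊤ := ⟨le_top, Subgroup.le_normalizer_of_normal⟩
  have h1 : g ∈ (Cfsg.fittingSubgroup ↥N).map N.subtype → g ∈ N ∧ ∀ U V : Subgroup G, (U.Normal ∧ V.Normal ∧ V < U ∧ ∀ W : Subgroup G, W.Normal → V ≤ W → W ≤ U → W = V ∨ W = U) → ∀ u ∈ U, u * g * u⁻¹ * g⁻¹ ∈ V := fun hg =>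
    ⟨Subgroup.map_subtype_le _ hg, fun U V h u hu =>
      Cfsg.Lib.FT.Fitting_stab_chief hN ((key U V).mpr h) (Subgroup.commutator_mem_commutator hu hg)⟩
  have h2 : (g ∈ N ∧ ∀ U V : Subgroup G, (U.Normal ∧ V.Normal ∧ V < U ∧ ∀ W : Subgroup G, W.Normal → V ≤ W → W ≤ U → W = V ∨ W = U) → U ≤ (Cfsg.fittingSubgroup ↥N).map N.subtype → ∀ u ∈ U, u * g * u⁻¹ * g⁻¹ ∈ V) → g ∈ (Cfsg.fittingSubgroup ↥N).map N.subtype := by
    rintro ⟨hg, h⟩
    refine Cfsg.Lib.FT.chief_stab_sub_Fitting (X := Subgroup.zpowers g) inferInstance hN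
      ((Subgroup.zpowers_le).mpr hg) (fun W V hc hV => ?_) (Subgroup.mem_zpowers g)
    have := ((key V W).mp hc).2.1
    exact aux (h V W ((key V W).mp hc) hV)
  exact ⟨⟨h1, fun h => h2 ⟨h.1, fun U V hc _ => h.2 U V hc⟩⟩,
    ⟨fun hg => ⟨(h1 hg).1, fun U V hc _ => (h1 hg).2 U V hc⟩, h2⟩⟩

end Cfsg.Agent.S3766
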