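import Cfsg.Statements.S3767
import Cfsg.Agent.FT.BG3.Count

set_option autoImplicit false
open Cfsg

namespace Cfsg.Agent.S3767

/-- Let P be an extraspecial p-group of order p^(2n+1) and H a cyclic group of order h prime to p acting on P (inside a common finite group: H normalizes P) so that C_P(x) = Z(P) for every non-identity x ∈ H. Then h divides p^n + 1 or h divides p^n − 1. -/
theorem result {G : Type*} [Group G] [Finite G] {p : ℕ} [Fact p.Prime] (P H : Subgroup G) (hP : Cfsg.IsExtraspecial p ↥P) (n : ℕ) (hn : Nat.card P = p ^ (2 * n + 1)) (hH : IsCyclic H) (hcop : (Nat.card H).Coprime p) (hHP : H ≤ Subgroup.normalizer (P : Set G)) (hfix : ∀ x ∈ H, x ≠ 1 → P ⊓ Subgroup.centralizer {x} = (Subgroup.center ↥P).map P.subtype) : Nat.card H ∣ p ^ n + 1 ∨ Nat.card H ∣ p ^ n - 1 := by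
  have hZ : (Subgroup.center P).map P.subtype = P ⊓ Subgroup.centralizer (P : Set G) := by
    ext x
    constructor
    · rintro ⟨y, hy, rfl⟩
      exact ⟨y.2, fun z hz => congrArg Subtype.val (Subgroup.mem_center_iff.1 hy ⟨z, hz⟩)⟩
    · rintro ⟨hx, hx'⟩
      exact ⟨⟨x, hx⟩, Subgroup.mem_center_iff.2 fun z => Subtype.ext (hx' z z.2), rfl⟩
  refine Cfsg.Lib.FT.extraspecial_sdprod_cycle_dvd Fact.out ?_ ?_ hn hHP hcop.symm ?_
  · rw [← hZ, Cfsg.Lib.Solv.card_map_subtype, hP.2]
  · rw [← Subgroup.map_subtype_commutator, hP.1.2.2, hZ]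
    exact inf_le_right
  · rw [← hZ]; exact hfix

end Cfsg.Agent.S3767
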