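import Cfsg.Statements.S3769
import Cfsg.Agent.FT.BG3.T34

set_option autoImplicit false
open Cfsg

namespace Cfsg.Agent.S3769

/-- Let G and V be subgroups of a finite group with G solvable of odd order normalizing V, V an elementary abelian ℓ-group for a prime ℓ not dividing the order of G, and suppose G has a normal Hall subgroup K with a complement R of prime order. If C_V(R) = 1, then [R, K] centralizes V. -/
theorem result {X : Type*} [Group X] [Finite X] (G : Subgroup X) (hsolv : Group.IsSolvable G) (hodd : Odd (Nat.card G)) (V : Subgroup X) {ℓ : ℕ} (hℓ : ℓ.Prime) (hV : Cfsg.IsElementaryAbelian ℓ V) (hℓG : ¬ ℓ ∣ Nat.card G) (hGV : G ≤ Subgroup.normalizer (V : Set X)) (K R : Subgroup X) (hKG : K ≤ G) (hKn : G ≤ Subgroup.normalizer (K : Set X)) (hHall : (Nat.card K).Coprime (K.relIndex G)) (hRG : R ≤ G) (hR : (Nat.card R).Prime) (hKR : K ⊓ R = ⊥) (hKRG : K ⊔ R = G) (hCV : V ⊓ Subgroup.centralizer (R : Set X) = ⊥) : ⁅R, K⁆ ≤ Subgroup.centralizer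 (V : Set X) := by
  have : Fact ℓ.Prime := ⟨hℓ⟩
  have hVp : IsPGroup ℓ V := fun v => ⟨1, by rw [pow_one]; exact Subtype.ext (hV.2 v v.2)⟩
  have hcop : (Nat.card V).Coprime (Nat.card G) := by
    obtain ⟨n, hn⟩ := IsPGroup.iff_card.1 hVp
    rw [hn]
    exact ((Nat.Prime.coprime_iff_not_dvd hℓ).2 hℓG).pow_left n
  have h1 : K.relIndex G = Nat.card R := by
    rw [← hKRG, Cfsg.Lib.Solv.Coprime.relIndex_sup_of_le_normalizer (hRG.trans hKn)]
    have := Cfsg.Lib.Solv.card_inf_mul_relIndex K R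
    rwa [hKR, Subgroup.card_bot, one_mul] at this
  exact Cfsg.Lib.FT.odd_prime_sdprod_cent1 (Cfsg.Lib.FT.isSolvable_subgroup_of_le hKG hsolv)
    (hodd.of_dvd_nat (Subgroup.card_dvd_of_le hKG)) (hodd.of_dvd_nat (Subgroup.card_dvd_of_le hRG))
    (hRG.trans hKn) (h1 ▸ hHall) hR (Cfsg.Lib.Solv.Coprime.isSolvable_of_isPGroup hVp)
    (hKG.trans hGV) (hRG.trans hGV) (hcop.coprime_dvd_right (Subgroup.card_dvd_of_le hKG))
    (hcop.coprime_dvd_right (Subgroup.card_dvd_of_le hRG)) hCV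

end Cfsg.Agent.S3769
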