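import Cfsg.Statements.S3770
import Cfsg.Agent.FT.BG3.T35
import Cfsg.Agent.Char.FrobWielandt

set_option autoImplicit false
open Cfsg

namespace Cfsg.Agent.S3770

/-- Let G and V be subgroups of a finite group with G a Frobenius group with complement R of prime order and kernel K, G normalizing V, and V an elementary abelian ℓ-group for a prime ℓ not dividing the order of G. If C_V(R) has order ℓ, then the derived subgroup of K centralizes V. -/
theorem result {X : Type*} [Group X] [Finite X] (G : Subgroup X) (V : Subgroup X) {ℓ : ℕ} (hℓ : ℓ.Prime) (hV : Cfsg.IsElementaryAbelian ℓ V) (hℓG : ¬ ℓ ∣ Nat.card G) (hGV : G ≤ Subgroup.normalizer (V : Set X)) (R : Subgroup ↥G) (hR : Cfsg.IsFrobeniusComplement R) (hRp : (Nat.card R).Prime) (hCV : Nat.card ↥(V ⊓ Subgroup.centralizer ((R.map G.subtype : Subgroup X) : Set X)) = ℓ) : ⁅Subgroup.closure (Subtype.val '' Cfsg.frobeniusKernel R), Subgroup.closure (Subtype.val '' Cfsg.frobeniusKernel R)⁆ ≤ Subgroup.centralizer (V : Set X) := by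
  obtain ⟨N, hN, hNn, hc⟩ := Cfsg.Lib.Char.frobenius_kernel_exists R hR
  have e : Subgroup.closure (Subtype.val '' Cfsg.frobeniusKernel R) = N.map G.subtype := by
    rw [← hN, ← Subgroup.closure_eq (N.map G.subtype)]
    rfl
  rw [e]
  have : Fact ℓ.Prime := ⟨hℓ⟩
  have hVp : IsPGroup ℓ V := fun v => ⟨1, by rw [pow_one]; exact Subtype.ext (hV.2 v v.2)⟩
  have hcop : (Nat.card V).Coprime (Nat.card G) := by
    obtain ⟨n, hn⟩ := IsPGroup.iff_card.1 hVp
    rw [hn]
    exact ((Nat.Prime.coprime_iff_not_dvd hℓ).2 hℓG).pow_left n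
  have hRp' : (Nat.card (R.map G.subtype)).Prime := by
    rwa [Cfsg.Lib.Solv.card_map_subtype]
  have hmal := Cfsg.Lib.Solv.isMalnormal_of_isFrobeniusComplement hR
  have hfpf := hmal.fpf_of_disjoint (disjoint_iff.1 hc.disjoint)
  have hRN : R ≤ Subgroup.normalizer (N : Set G) := by
    rw [Subgroup.normalizer_eq_top]; exact le_top
  have hreg := Cfsg.Lib.FT.semiregular_map G.subtype hRN hfpf
  refine Cfsg.Lib.FT.frobenius_prime_cent_cyclic
    ((Subgroup.map_subtype_le R).trans (Cfsg.Lib.Solv.le_normalizer_map_subtype N)) hRp' ?_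
    (Cfsg.Lib.Solv.Coprime.isSolvable_of_isPGroup hVp)
    ((Subgroup.map_subtype_le N).trans hGV) ((Subgroup.map_subtype_le R).trans hGV)
    (hcop.coprime_dvd_right (Subgroup.card_dvd_of_le (Subgroup.map_subtype_le N)))
    (hcop.coprime_dvd_right (Subgroup.card_dvd_of_le (Subgroup.map_subtype_le R)))
    (isCyclic_of_prime_card hCV)
  obtain ⟨x, hx, hx1⟩ := ((R.map G.subtype).bot_or_exists_ne_one).resolve_left
    fun h => by rw [h, Subgroup.card_bot] at hRp'; exact Nat.not_prime_one hRp'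
  rw [← Cfsg.Lib.FT.prime_semiprime _ hRp' x hx hx1]
  exact hreg x hx hx1

end Cfsg.Agent.S3770
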