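import Cfsg.Statements.S3772
import Cfsg.Agent.Solv.ExtraTwo

set_option autoImplicit false
open Cfsg

namespace Cfsg.Agent.S3772

open Cfsg.Lib.Solv Cfsg.Lib.Solv.PG Subgroup Cfsg.Lib.Trans.ES

/-- Let G be a finite 2-group whose Frattini subgroup Φ(G) has order 2, with |G : Φ(G)| = 2^d, and let j be the number of elements x of G with x² = 1. Then j = 2^d, or j = 2^d + 2^(d−r) or j = 2^d − 2^(d−r) for some positive integer r with 2r ≤ d. Moreover if d = 2r and j is 2^d + 2^r or 2^d − 2^r, then G is extraspecial. -/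
theorem result {G : Type*} [Group G] [Finite G] (hG : IsPGroup 2 G) (hΦ : Nat.card (frattini G) = 2) (d : ℕ) (hd : (frattini G).index = 2 ^ d) : (Nat.card {x : G // x ^ 2 = 1} = 2 ^ d ∨ ∃ r : ℕ, 1 ≤ r ∧ 2 * r ≤ d ∧ (Nat.card {x : G // x ^ 2 = 1} = 2 ^ d + 2 ^ (d - r) ∨ Nat.card {x : G // x ^ 2 = 1} + 2 ^ (d - r) = 2 ^ d)) ∧ (∀ r : ℕ, d = 2 * r → (Nat.card {x : G // x ^ 2 = 1} = 2 ^ d + 2 ^ r ∨ Nat.card {x : G // x ^ 2 = 1} + 2 ^ r = 2 ^ d) → Cfsg.IsExtraspecial 2 G) := by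
  obtain ⟨z, hz, -⟩ := exists_quad2_of_card_frattini hG hΦ
  have hc : Nat.card G = 2 ^ d * 2 := by rw [← (frattini G).index_mul_card, hd, hΦ]
  have hdef : defect G = 2 * (Nat.card {x : G // x ^ 2 = 1} : ℤ) - 2 ^ d * 2 := by
    rw [defect, nInv, hc]; push_cast; rfl
  by_cases hZ : ∀ w ∈ center G, w ^ 2 = 1
  · have hne : center G ≠ ⊤ := fun ht => by
      have : frattini G = ⊥ := le_bot_iff.mp ((frattini_le_iff_of_isPGroup hG ⊥).mpr
        ⟨((commutator_eq_bot_iff_center_eq_top G).mpr ht).le, fun x => hZ x (ht ▸ mem_top x)⟩)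
      rw [this, card_bot] at hΦ
      omega
    obtain ⟨s, hs⟩ := (hG.to_subgroup (center G)).exists_card_eq
    have h1 := card_lt_card_of_lt hne.lt_top
    rw [card_top, hs, hc, ← pow_succ, Nat.pow_lt_pow_iff_right (by norm_num)] at h1
    have h2 : s ≠ 0 := by
      rintro rfl
      exact hz.ne_one (mem_bot.mp (Subgroup.card_eq_one.mp (by simpa using hs) ▸ hz.central))
    obtain ⟨t, ht, h3⟩ := eq_or_eq_neg_two_pow_of_sq (k := d + 1 + s)
      (by rw [hz.defect_sq_of_forall hZ, hc, hs]; push_cast; ring)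
    obtain ⟨t, rfl⟩ : ∃ u, t = u + 1 := ⟨t - 1, by omega⟩
    rw [hdef, pow_succ _ t] at h3
    refine ⟨Or.inr ⟨d - t, by omega, by omega, ?_⟩, fun r hr h4 => ?_⟩
    · rw [show d - (d - t) = t by omega]
      zify
      omega
    · have h5 : (2 : ℤ) ^ t = 2 ^ r := by
        have : (0 : ℤ) < 2 ^ t := by positivity
        have : (0 : ℤ) < 2 ^ r := by positivity
        zify at h4
        omega
      have h6 : t = r := Nat.pow_right_injective le_rfl (by exact_mod_cast h5)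
      obtain rfl : s = 1 := by omega
      exact IsPre.isExtraspecial ⟨by simpa using hs, hz.classTwo⟩ hne
  · push Not at hZ
    obtain ⟨w, hw, hw2⟩ := hZ
    have h1 := hz.defect_eq_zero hw hw2
    rw [hdef] at h1
    refine ⟨Or.inl (by zify; omega), fun r hr h4 => ?_⟩
    have : (0 : ℤ) < 2 ^ r := by positivity
    zify at h4
    omega

end Cfsg.Agent.S3772
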