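import Cfsg.Statements.S3773
import Cfsg.Agent.Solv.QuadCount
import Cfsg.Agent.Solv.FrattiniP
import Cfsg.Agent.Trans.Extraspecial

set_option autoImplicit false
open Cfsg

namespace Cfsg.Agent.S3773

open Subgroup Cfsg.Lib.Solv Cfsg.Lib.Solv.PG
open scoped commutatorElement


/-- Let G be a finite 2-group of nilpotency class at most 2 and exponent dividing 4 in which the elements x with x² = 1 form a subgroup N. Then |G| ≤ |N|³, and |G| < |N|³ unless G is special. -/
theorem result {G : Type*} [Group G] [Finite G] (hG : IsPGroup 2 G) (hcl : (⊤ : Subgroup G).lowerCentralSeries 2 = ⊥) (hexp : ∀ x : G, x ^ 4 = 1) (hN : ∀ x y : G, x ^ 2 = 1 → y ^ 2 = 1 → (x * y) ^ 2 = 1) : Nat.card G ≤ Nat.card {x : G // x ^ 2 = 1} ^ 3 ∧ (¬ Cfsg.IsSpecial 2 G → Nat.card G < Nat.card {x : G // x ^ 2 = 1} ^ 3) := by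
  classical
  have : Fact (Nat.Prime 2) := ⟨Nat.prime_two⟩
  let N : Subgroup G :=
    { carrier := {x | x ^ 2 = 1}
      mul_mem' := fun {a b} ha hb => hN a b ha hb
      one_mem' := one_pow 2
      inv_mem' := fun {a} ha => by rw [Set.mem_ofPred, inv_pow, inv_eq_one]; exact ha }
  change Nat.card G ≤ Nat.card N ^ 3 ∧ (_ → Nat.card G < Nat.card N ^ 3)
  have hc : Cfsg.Lib.Trans.ES.ClassTwo G := fun x y => mem_center_iff.mpr fun g =>
    (commutatorElement_eq_one_iff_mul_comm.mp (mem_bot.mp (hcl ▸ commutator_mem_commutator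
      (commutator_mem_commutator (mem_top x) (mem_top y)) (mem_top g)))).symm
  have hsq : ∀ x : G, x ^ 2 ∈ N := fun x => (pow_mul x 2 2).symm.trans (hexp x)
  have hΦN : frattini G ≤ N := by
    rw [frattini_eq_closure_sq hG, closure_le]; rintro _ ⟨x, rfl⟩; exact hsq x
  have hΦZ : frattini G ≤ center G := by
    rw [frattini_eq_closure_sq hG, closure_le]; rintro _ ⟨x, rfl⟩
    exact mem_center_iff.mpr fun g => commutatorElement_eq_one_iff_mul_comm.mp
      ((hc.pow_right g x 2).trans (hΦN (commutator_le_frattini_of_isPGroup hG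
        (commutator_mem_commutator (mem_top g) (mem_top x)))))
  have h1 : N.index ≤ Nat.card (frattini G) ^ 2 := by
    have := relIndex_le_relIndex_sq (H := ⊤) (D := ⊥) (L := N) (isPGroup_top hG) hΦZ
      (fun w hw => hΦN hw) (fun x _ => pow_mem_frattini hG x) fun x _ => Iff.rfl
    rwa [relIndex_top_right, relIndex_bot_left] at this
  have h2 := card_le_of_le hΦN
  have hpos : 0 < Nat.card N := Nat.card_pos
  rw [card_eq_index_mul N, pow_succ]
  refine ⟨Nat.mul_le_mul_right _ (h1.trans (Nat.pow_le_pow_left h2 2)), fun hs =>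
    Nat.mul_lt_mul_of_pos_right (not_le.mp fun h3 => hs ?_) hpos⟩
  have h4 : frattini G = N :=
    eq_of_le_of_card_eq hΦN (le_antisymm h2 ((Nat.pow_le_pow_iff_left two_ne_zero).mp (h3.trans h1)))
  have hn : N.Normal := h4 ▸ inferInstance
  have h5 : center G ≤ N := fun z hz => by
    by_contra hzN
    have h6 : orderOf (z ^ 2) = 2 := orderOf_eq_prime (hsq z) hzN
    have h7 := relIndex_le_relIndex_sq (H := ⊤) (D := zpowers (z ^ 2)) (L := N ⊔ zpowers z)
      (isPGroup_top hG) (h4 ▸ hΦZ) (fun w hw => (show w ^ 2 = 1 from hw) ▸ one_mem _)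
      (fun x _ => hsq x) fun x _ => ⟨fun hx => by
        obtain ⟨k, hk, n, rfl⟩ := (mem_sup_zpowers_iff (le_normalizer_of_normal (mem_top z))).mp hx
        rw [(show Commute k z from mem_center_iff.mp hz k).zpow_right n |>.mul_pow,
          show k ^ 2 = 1 from hk, one_mul, ← zpow_natCast (z ^ n), ← zpow_mul, mul_comm,
          zpow_mul, zpow_natCast]
        exact zpow_mem_zpowers _ _, fun hx => by
        rcases (mem_zpowers_iff_mem_range_orderOf.mp hx |> Finset.mem_image.mp) with ⟨i, hi, hx⟩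
        rw [h6, Finset.mem_range] at hi
        interval_cases i
        · exact mem_sup_left (show x ^ 2 = 1 by simpa using hx.symm)
        · have : x * z⁻¹ ∈ N := show _ ^ 2 = 1 by
            rw [(show Commute x z from mem_center_iff.mp hz x).inv_right.mul_pow, ← hx]; simp
          simpa using mul_mem (mem_sup_left this) (mem_sup_right (mem_zpowers z) : _ ∈ N ⊔ _)⟩
    have h8 := relIndex_mul_index (le_sup_left : N ≤ N ⊔ zpowers z)
    rw [relIndex_sup_left, relIndex_zpowers_eq_prime Nat.prime_two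
      (le_normalizer_of_normal (mem_top z)) hzN (hsq z)] at h8
    have h9 := relIndex_mul_card (zpowers_le.mpr (hsq z))
    rw [Nat.card_zpowers, h6] at h9
    rw [relIndex_top_right] at h7
    rw [← h8, ← h9] at h3
    nlinarith
  refine ⟨hG, le_antisymm hΦZ (h4 ▸ h5), le_antisymm ((commutator_le_frattini_of_isPGroup hG).trans
    hΦZ) (h5.trans (by_contra fun h6 => ?_))⟩
  obtain ⟨M, hM, h7, h8, h9⟩ := exists_normal_step_down hG
    (lt_of_le_not_ge (h4 ▸ commutator_le_frattini_of_isPGroup hG) h6)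
  let _ : CommGroup (G ⧸ M) :=
    { mul_comm := (Normal.quotient_commutative_iff_commutator_le.mpr h7).is_comm.comm }
  let f : G →* G ⧸ M := (powMonoidHom 2).comp (QuotientGroup.mk' M)
  have hf : ∀ x, x ∈ f.ker ↔ x ^ 2 ∈ M := fun x => QuotientGroup.eq_one_iff (x ^ 2)
  have h10 : f.ker.index ≤ 2 := by
    have := relIndex_ker N (QuotientGroup.mk' M)
    rw [QuotientGroup.ker_mk', relIndex_eq_of_card_eq_mul h8.le h9] at this
    rw [index_ker, this]
    refine card_le_of_le ?_
    rintro _ ⟨x, rfl⟩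
    exact ⟨x ^ 2, hsq x, rfl⟩
  have h11 := relIndex_le_relIndex_sq (H := f.ker) (D := ⊥) (L := N) (hG.to_subgroup _)
    (h8.le.trans (h4 ▸ hΦZ)) (fun w hw => h8.le hw) (fun x hx => (hf x).mp hx) fun x _ => Iff.rfl
  rw [← relIndex_mul_index (show N ≤ f.ker from fun x hx => (hf x).mpr
    ((show x ^ 2 = 1 from hx) ▸ one_mem _)), h9] at h3
  rw [relIndex_bot_left] at h11
  have := Nat.mul_le_mul h11 h10
  nlinarith

end Cfsg.Agent.S3773
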