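import Cfsg.Statements.S3774
import Cfsg.Agent.Solv.PGroupNormal

set_option autoImplicit false
open Cfsg

namespace Cfsg.Agent.S3774

/-- Let G be a nontrivial finite 2-group whose automorphism group permutes the involutions of G transitively. Then every involution of G is central, so that the involutions together with 1 form the subgroup Ω₁(Z(G)), and if this subgroup has order q then |G| is a power of q. -/
theorem result {G : Type*} [Group G] [Finite G] [Nontrivial G] (hG : IsPGroup 2 G) (htrans : ∀ x y : G, x ≠ 1 → x ^ 2 = 1 → y ≠ 1 → y ^ 2 = 1 → ∃ a : MulAut G, a x = y) : (∀ x : G, x ^ 2 = 1 → x ∈ Subgroup.center G) ∧ ∃ m : ℕ, Nat.card G = Nat.card {z : G // z ^ 2 = 1} ^ m := by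
  classical
  obtain ⟨z, -, hz, hz2⟩ := Lib.Solv.PG.exists_mem_center_orderOf_eq hG ⊤ top_ne_bot
  have hz1 : z ≠ 1 := by rintro rfl; simp at hz2
  have hz3 : z ^ 2 = 1 := hz2 ▸ pow_orderOf_eq_one z
  have hc : ∀ x : G, x ^ 2 = 1 → x ∈ Subgroup.center G := fun x hx => by
    by_cases hx1 : x = 1
    · exact hx1 ▸ one_mem _
    obtain ⟨a, rfl⟩ := htrans z x hz1 hz3 hx1 hx
    exact (MulEquivClass.apply_mem_center_iff a).2 hz
  refine ⟨hc, ?_⟩
  let Ω : Subgroup G :=
    { carrier := {x | x ^ 2 = 1}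
      one_mem' := one_pow 2
      mul_mem' := fun {a b} ha hb => by
        rw [Set.mem_setOf_eq, Commute.mul_pow (Subgroup.mem_center_iff.1 (hc b hb) a), ha, hb,
          one_mul]
      inv_mem' := fun {a} ha => by rw [Set.mem_setOf_eq, inv_pow, ha, inv_one] }
  obtain ⟨n, hn⟩ := (hG.to_subgroup Ω).exists_card_eq
  obtain ⟨k, hk⟩ := hG.exists_card_eq
  change Nat.card {x : G // x ^ 2 = 1} = _ at hn
  have := Fintype.ofFinite G
  have hf : ∀ g : G, g ≠ 1 → g ^ (orderOf g / 2) ≠ 1 ∧ (g ^ (orderOf g / 2)) ^ 2 = 1 := by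
    intro g hg
    obtain ⟨j, hj⟩ := IsPGroup.iff_orderOf.1 hG g
    rcases j with _ | j
    · exact absurd (by simpa using hj) hg
    rw [← pow_mul, ← orderOf_dvd_iff_pow_eq_one, Ne, ← orderOf_dvd_iff_pow_eq_one, hj, pow_succ,
      Nat.mul_div_cancel _ two_pos, ← pow_succ, Nat.pow_dvd_pow_iff_le_right one_lt_two]
    simp
  have h1 := Finset.card_eq_sum_card_fiberwise (f := fun g : G => g ^ (orderOf g / 2))
    (s := Finset.univ.erase 1) (t := (Finset.univ.filter fun x : G => x ^ 2 = 1).erase 1)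
    fun g hg => by simpa using (hf g (by simpa using hg)).symm
  rw [Finset.sum_congr rfl (g := fun _ => ((Finset.univ.erase 1).filter
    fun g : G => g ^ (orderOf g / 2) = z).card) fun y hy => by
      obtain ⟨a, rfl⟩ := htrans z y hz1 hz3 (by simpa using hy : _ ∧ _).1
        (by simpa using hy : _ ∧ _).2
      refine (Finset.card_equiv a.toEquiv fun g => ?_).symm
      simp [← map_pow], Finset.sum_const, Finset.card_erase_of_mem (by simp),
    Finset.card_erase_of_mem (by simp), Finset.card_univ, ← Fintype.card_subtype,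
    ← Nat.card_eq_fintype_card, ← Nat.card_eq_fintype_card, hn, hk] at h1
  have h2 : 2 ^ n - 1 ∣ 2 ^ k - 1 := ⟨_, h1⟩
  rw [← Nat.gcd_eq_left_iff_dvd, Nat.pow_sub_one_gcd_pow_sub_one] at h2
  have h3 : 2 ^ n.gcd k = 2 ^ n := by
    have := Nat.one_le_two_pow (n := n.gcd k)
    have := Nat.one_le_two_pow (n := n)
    omega
  obtain ⟨m, rfl⟩ := Nat.gcd_eq_left_iff_dvd.1 (Nat.pow_right_injective le_rfl h3)
  exact ⟨m, by rw [hk, hn, pow_mul]⟩

end Cfsg.Agent.S3774
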