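import Cfsg.Statements.S3775
import Cfsg.Agent.Solv.MaschkeSection

set_option autoImplicit false
open Cfsg

namespace Cfsg.Agent.S3775

section
open Subgroup Cfsg.Lib.Solv
variable {A X : Type*} [CommGroup A] [Finite A] {p : ℕ} [hp : Fact p.Prime] [Group X]

theorem three_two (hA : IsPGroup p A) (φ : X →* MulAut A)
    (h3 : ∀ B : Subgroup A, (∀ x, ∀ b ∈ B, φ x b ∈ B) → (∀ b ∈ B, b ^ p = 1) →
      B = ⊥ ∨ ∀ a : A, a ∈ B ↔ a ^ p = 1) (B : Subgroup A) (hB : ∀ x, ∀ b ∈ B, φ x b ∈ B) :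
    ∃ i : ℕ, ∀ a : A, a ∈ B ↔ a ^ p ^ i = 1 := by
  classical
  have hex : ∃ i : ℕ, ∀ b ∈ B, b ^ p ^ i = 1 := by
    obtain ⟨k, hk⟩ := hA.exists_card_eq
    exact ⟨k, fun b _ => by rw [← hk, pow_card_eq_one']⟩
  refine ⟨Nat.find hex, fun a => ⟨Nat.find_spec hex a, ?_⟩⟩
  have key : ∀ i ≤ Nat.find hex, ∀ a : A, a ^ p ^ i = 1 → a ∈ B := by
    intro i
    induction i with
    | zero => intro _ a ha; rw [pow_zero, pow_one] at ha; rw [ha]; exact one_mem _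
    | succ i ih =>
      intro hi a ha
      let I : Subgroup A := (B ⊓ (powMonoidHom (p ^ (i + 1))).ker).map (powMonoidHom (p ^ i))
      have hI : I ≠ ⊥ := by
        have h1 := Nat.find_min hex (m := Nat.find hex - 1) (by omega)
        push Not at h1
        obtain ⟨b, hb, hb'⟩ := h1
        intro h0
        apply hb'
        have h2 : (b ^ p ^ (Nat.find hex - 1 - i)) ^ p ^ i ∈ I := by
          refine ⟨_, ⟨pow_mem hb _, ?_⟩, rfl⟩
          change (b ^ p ^ (Nat.find hex - 1 - i)) ^ p ^ (i + 1) = 1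
          rw [← pow_mul, ← pow_add, show Nat.find hex - 1 - i + (i + 1) = Nat.find hex by omega]
          exact Nat.find_spec hex b hb
        rwa [h0, mem_bot, ← pow_mul, ← pow_add,
          show Nat.find hex - 1 - i + i = Nat.find hex - 1 by omega] at h2
      have h4 := (h3 I (by
        rintro x _ ⟨b, ⟨hb, hb'⟩, rfl⟩
        refine ⟨φ x b, ⟨hB x b hb, ?_⟩, (map_pow _ _ _).symm⟩
        change φ x b ^ _ = 1
        rw [← map_pow, show b ^ _ = 1 from hb', map_one]) (by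
        rintro _ ⟨b, ⟨-, hb'⟩, rfl⟩
        change (b ^ _) ^ p = 1
        rw [← pow_mul, ← pow_succ]
        exact hb')).resolve_left hI
      obtain ⟨b, ⟨hb, -⟩, hb'⟩ := (h4 (a ^ p ^ i)).mpr (by rwa [← pow_mul, ← pow_succ])
      have h5 := ih (by omega) (a * b⁻¹) (by
        rw [mul_pow, inv_pow, mul_inv_eq_one]; exact hb'.symm)
      simpa using mul_mem h5 hb
  exact key _ le_rfl a

theorem one_three [Finite X] (hA : IsPGroup p A) (hX : (Nat.card X).Coprime p) (φ : X →* MulAut A)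
    (h1 : ¬ ∃ B C : Subgroup A, B ≠ ⊥ ∧ C ≠ ⊥ ∧ (∀ x, ∀ b ∈ B, φ x b ∈ B) ∧
      (∀ x, ∀ b ∈ C, φ x b ∈ C) ∧ B ⊓ C = ⊥ ∧ B ⊔ C = ⊤) (B₀ : Subgroup A)
    (hB₀ : ∀ x, ∀ b ∈ B₀, φ x b ∈ B₀) (hB₀p : ∀ b ∈ B₀, b ^ p = 1) :
    B₀ = ⊥ ∨ ∀ a : A, a ∈ B₀ ↔ a ^ p = 1 := by
  classical
  by_cases h0 : B₀ = ⊥
  · exact Or.inl h0
  right
  obtain ⟨⟨b₀, hb₀⟩, hb₀'⟩ := ne_bot_iff_exists_ne_one.mp h0
  replace hb₀' : b₀ ≠ 1 := fun h => hb₀' (Subtype.ext h)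
  have hex : ∃ i : ℕ, ∀ b : A, b ^ p ^ i = 1 := by
    obtain ⟨k, hk⟩ := hA.exists_card_eq
    exact ⟨k, fun b => by rw [← hk, pow_card_eq_one']⟩
  obtain ⟨e, he⟩ : ∃ e, Nat.find hex = e + 1 := by
    refine Nat.exists_eq_succ_of_ne_zero fun h => hb₀' ?_
    have := Nat.find_spec hex b₀
    rwa [h, pow_zero, pow_one] at this
  have he1 : ∀ b : A, b ^ p ^ (e + 1) = 1 := he ▸ Nat.find_spec hex
  let Ω : Subgroup A := (powMonoidHom (p ^ e)).ker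
  have hΩ : ∀ x, ∀ b ∈ Ω, φ x b ∈ Ω := fun x b hb => by
    change φ x b ^ _ = 1
    rw [← map_pow, show b ^ _ = 1 from hb, map_one]
  obtain ⟨B, -, hB⟩ := Finite.exists_le_minimal
    (p := fun B : Subgroup A => (∀ x, ∀ b ∈ B, φ x b ∈ B) ∧ ¬ B ≤ Ω) (a := ⊤)
    ⟨fun _ _ _ => trivial, fun h => Nat.find_min hex (m := e) (by omega) fun b => h (mem_top b)⟩
  obtain ⟨D, hD, hD1, hD2⟩ := Coprime.exists_invariant_complement_section' hX φ
    (N := B.map (powMonoidHom p)) (U := B ⊓ Ω) (B := B)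
    (by rintro _ ⟨b, hb, rfl⟩
        refine ⟨pow_mem hb _, ?_⟩
        change (b ^ p) ^ _ = 1
        rw [← pow_mul, ← pow_succ', he1]) inf_le_left
    (by rintro x _ ⟨b, hb, rfl⟩
        exact ⟨φ x b, hB.prop.1 x b hb, (map_pow _ _ _).symm⟩)
    (fun x b hb => ⟨hB.prop.1 x b hb.1, hΩ x b hb.2⟩) hB.prop.1
    (by rw [commutator_eq_bot_iff_le_centralizer.mpr (fun x _ y _ => mul_comm y x)]; exact bot_le)
    (fun b hb => ⟨b, hb, rfl⟩)
  have hDB : B ≤ D := hB.le_of_le ⟨hD, fun h => hB.prop.2 (hD2 ▸ sup_le inf_le_right h)⟩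
    (hD2 ▸ le_sup_right)
  have hhom : ∀ b ∈ B, b ^ p ^ e = 1 → ∃ c ∈ B, c ^ p = b := fun b hb hb' =>
    hD1.le (show b ∈ B ⊓ Ω ⊓ D from ⟨⟨hb, hb'⟩, hDB hb⟩)
  obtain ⟨W₀, hW₀⟩ := Coprime.exists_isCompl_of_homocyclic he1 hhom
  obtain ⟨k, hk⟩ := (hA.to_subgroup B).exists_card_eq
  obtain ⟨W, hW, hWi⟩ := Coprime.exists_invariant_isCompl_of_isCompl φ hB.prop.1
    (hk ▸ hX.pow_right k) hW₀
  have hBtop : B = ⊤ := by
    have hW0 : W = ⊥ := by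
      by_contra hW0
      exact h1 ⟨B, W, fun h => hB.prop.2 (h ▸ bot_le), hW0, hB.prop.1, hWi, hW.inf_eq_bot,
        hW.sup_eq_top⟩
    simpa [hW0] using hW.sup_eq_top
  subst hBtop
  have key : ∀ j ≤ e, ∀ x : A, x ^ p = 1 → ∃ y : A, y ^ p ^ j = x := by
    intro j
    induction j with
    | zero => intro _ x _; exact ⟨x, by simp⟩
    | succ j ih =>
      intro hj x hx
      obtain ⟨y, rfl⟩ := ih (by omega) x hx
      obtain ⟨c, -, rfl⟩ := hhom y trivial (by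
        rw [← pow_mul, ← pow_succ] at hx
        rw [show e = j + 1 + (e - (j + 1)) by omega, pow_add, pow_mul, hx, one_pow])
      exact ⟨c, by rw [← pow_mul, ← pow_succ']⟩
  have hC : ⊤ ≤ B₀.comap (powMonoidHom (p ^ e)) := by
    refine hB.le_of_le ⟨fun x b hb => ?_, fun h => hb₀' ?_⟩ le_top
    · change φ x b ^ _ ∈ B₀
      rw [← map_pow]
      exact hB₀ x _ hb
    · obtain ⟨y, rfl⟩ := key e le_rfl b₀ (hB₀p _ hb₀)
      exact h (show y ∈ B₀.comap (powMonoidHom (p ^ e)) from hb₀)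
  refine fun a => ⟨hB₀p a, fun ha => ?_⟩
  obtain ⟨y, rfl⟩ := key e le_rfl a ha
  exact hC (mem_top y)

theorem three_one (hA : IsPGroup p A) (φ : X →* MulAut A)
    (h3 : ∀ B : Subgroup A, (∀ x, ∀ b ∈ B, φ x b ∈ B) → (∀ b ∈ B, b ^ p = 1) →
      B = ⊥ ∨ ∀ a : A, a ∈ B ↔ a ^ p = 1) :
    ¬ ∃ B C : Subgroup A, B ≠ ⊥ ∧ C ≠ ⊥ ∧ (∀ x, ∀ b ∈ B, φ x b ∈ B) ∧
      (∀ x, ∀ b ∈ C, φ x b ∈ C) ∧ B ⊓ C = ⊥ ∧ B ⊔ C = ⊤ := by
  rintro ⟨B, C, hB, hC, hBi, hCi, h, -⟩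
  obtain ⟨i, hi⟩ := three_two hA φ h3 B hBi
  obtain ⟨j, hj⟩ := three_two hA φ h3 C hCi
  rcases le_total i j with hij | hij
  · refine hB (h ▸ (inf_eq_left.mpr fun a ha => (hj a).mpr ?_).symm)
    rw [← Nat.add_sub_cancel' hij, pow_add, pow_mul, (hi a).mp ha, one_pow]
  · refine hC (h ▸ (inf_eq_right.mpr fun a ha => (hi a).mpr ?_).symm)
    rw [← Nat.add_sub_cancel' hij, pow_add, pow_mul, (hj a).mp ha, one_pow]

omit [Finite A] hp in
theorem two_three (φ : X →* MulAut A)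
    (h2 : ∀ B : Subgroup A, (∀ x, ∀ b ∈ B, φ x b ∈ B) → ∃ i : ℕ, ∀ a : A, a ∈ B ↔ a ^ p ^ i = 1)
    (B : Subgroup A) (hB : ∀ x, ∀ b ∈ B, φ x b ∈ B) (hBp : ∀ b ∈ B, b ^ p = 1) :
    B = ⊥ ∨ ∀ a : A, a ∈ B ↔ a ^ p = 1 := by
  obtain ⟨i, hi⟩ := h2 B hB
  rcases i with _ | i
  · left
    ext a
    simpa using hi a
  · right
    refine fun a => ⟨hBp a, fun ha => (hi a).mpr ?_⟩
    rw [pow_succ', pow_mul, ha, one_pow]

end

/-- Let A be a finite abelian p-group and X a group of automorphisms of A of order prime to p. Call a subgroup of A invariant when every element of X maps it onto itself. Then the following are equivalent: (i) A is not the direct product of two nontrivial invariant subgroups; (ii) every invariant subgroup of A is one of the subgroups Ω_i(A) = {a : a^(p^i) = 1}; (iii) the subgroup Ω₁(A) of elements of order dividing p has no invariant subgroups other than 1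 and itself. -/
theorem result {A : Type*} [CommGroup A] [Finite A] {p : ℕ} [Fact p.Prime] (hA : IsPGroup p A) (X : Subgroup (MulAut A)) (hX : (Nat.card X).Coprime p) : ((¬ ∃ B C : Subgroup A, B ≠ ⊥ ∧ C ≠ ⊥ ∧ (∀ x ∈ X, B.map x.toMonoidHom = B) ∧ (∀ x ∈ X, C.map x.toMonoidHom = C) ∧ B ⊓ C = ⊥ ∧ B ⊔ C = ⊤) ↔ (∀ B : Subgroup A, (∀ x ∈ X, B.map x.toMonoidHom = B) → ∃ i : ℕ, ∀ a : A, a ∈ B ↔ a ^ p ^ i = 1)) ∧ ((∀ B : Subgroup A, (∀ x ∈ X, B.map x.toMonoidHom = B) → ∃ i : ℕ, ∀ a : A, a ∈ B ↔ a ^ p ^ i = 1) ↔ (∀ B : Subgroup A, (∀ x ∈ X, B.map x.toMonoidHom = B) → (∀ b ∈ B, b ^ p = 1) → B = ⊥ ∨ ∀ a : A, a ∈ B ↔ a ^ p = 1)) := by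
  have hfin : Finite (MulAut A) := Finite.of_injective _ MulEquiv.toEquiv_injective
  have key : ∀ B : Subgroup A, (∀ x ∈ X, B.map x.toMonoidHom = B) ↔
      ∀ x, ∀ b ∈ B, X.subtype x b ∈ B := by
    intro B
    refine ⟨fun h x b hb => (h x x.2).le ⟨b, hb, rfl⟩, fun h x hx => le_antisymm ?_ fun b hb => ?_⟩
    · rintro _ ⟨b, hb, rfl⟩
      exact h ⟨x, hx⟩ b hb
    · exact ⟨_, h ⟨x, hx⟩⁻¹ b hb, x.apply_symm_apply b⟩
  simp only [key]
  exact ⟨⟨fun h => three_two hA _ (one_three hA hX _ h), fun h => three_one hA _ (two_three _ h)⟩,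
    ⟨two_three _, three_two hA _⟩⟩

end Cfsg.Agent.S3775
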