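import Cfsg.Statements.S3777
import Cfsg.Agent.Solv.FrattiniP
import Cfsg.Agent.Solv.CyclicP
import Cfsg.Agent.Solv.Conj
import Cfsg.Agent.Trans.MaxClass

set_option autoImplicit false
open Cfsg

namespace Cfsg.Agent.S3777


open Cfsg.Lib.Solv Subgroup
open scoped commutatorElement

section
variable {G : Type*} [Group G]

theorem exists_not_mem_two {K A B : Subgroup G} (hA : ¬ K ≤ A) (hB : ¬ K ≤ B) :
    ∃ x ∈ K, x ∉ A ∧ x ∉ B := by
  obtain ⟨a, ha, haA⟩ := SetLike.not_le_iff_exists.mp hA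
  obtain ⟨b, hb, hbB⟩ := SetLike.not_le_iff_exists.mp hB
  by_cases h1 : a ∈ B
  · by_cases h2 : b ∈ A
    · exact ⟨a * b, K.mul_mem ha hb, by rwa [mul_mem_cancel_right h2],
        by rwa [mul_mem_cancel_left h1]⟩
    · exact ⟨b, hb, h2, hbB⟩
  · exact ⟨a, ha, haA, h1⟩

theorem index_centralizer_subgroup (C : Subgroup G) (x : C) :
    (centralizer ({x} : Set C)).index = (centralizer ({(x : G)} : Set G)).relIndex C := by
  rw [relIndex]
  congr 1
  ext y
  rw [mem_subgroupOf, mem_centralizer_singleton_iff, mem_centralizer_singleton_iff, Subtype.ext_iff]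
  rfl

variable [Finite G] {p : ℕ} [hp : Fact p.Prime]

omit hp in
theorem relIndex_le_index (A C : Subgroup G) : A.relIndex C ≤ A.index := by
  rw [← relIndex_top_right]
  exact relIndex_le_of_le_right le_top index_ne_zero_of_finite

theorem exists_third (hG : IsPGroup p G) {A B : Subgroup G} (hA : A.index = p) (hB : B.index = p)
    (h : ¬ B ≤ A) : ∃ C : Subgroup G, C.index = p ∧ C ⊓ A ≤ B ∧ C ⊓ B ≤ A ∧
      (p ≠ 2 → ∃ g, g ∉ A ∧ g ∉ B ∧ g ∉ C) := by
  have hA' := (PG.isCoatom_iff_index_eq_prime hG).mpr hA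
  have hB' := (PG.isCoatom_iff_index_eq_prime hG).mpr hB
  have := PG.normal_of_index_eq_prime hG hA
  have := PG.normal_of_index_eq_prime hG hB
  obtain ⟨b, hb, hbA⟩ := SetLike.not_le_iff_exists.mp h
  obtain ⟨a, ha, haB⟩ := SetLike.not_le_iff_exists.mp
    (fun h' : A ≤ B => h ((hA'.le_iff_eq hB'.1).mp h').le)
  have h1 : a * b ∉ A := by rwa [mul_mem_cancel_left ha]
  have h2 : a * b ∉ B := by rwa [mul_mem_cancel_right hb]
  have h3 := PG.card_sup_zpowers hp.out (K := A ⊓ B) (x := a * b)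
    (le_normalizer_of_normal (mem_top _)) (fun h => h1 h.1)
    ⟨PG.pow_mem_of_index_eq_prime hG hA _, PG.pow_mem_of_index_eq_prime hG hB _⟩
  have h4 : (A ⊓ B).index = p * p := by
    rw [← relIndex_mul_index inf_le_right, inf_relIndex_right, hB]
    congr 1
    refine ((Nat.dvd_prime hp.out).mp (hA ▸ relIndex_dvd_index_of_normal A B)).resolve_left ?_
    rwa [relIndex_eq_one]
  have key : ∀ X : Subgroup G, A ⊓ B ≤ X → a * b ∉ X → (A ⊓ B ⊔ zpowers (a * b)) ⊓ X = A ⊓ B :=
    fun X hX hx => (PG.eq_or_eq_of_card_eq_prime_mul hp.out h3 (le_inf le_sup_left hX)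
      inf_le_left).resolve_right fun h => hx (inf_eq_left.mp h (mem_sup_right (mem_zpowers _)))
  refine ⟨A ⊓ B ⊔ zpowers (a * b), PG.index_eq_of_card_eq_mul ?_,
    (key A inf_le_left h1).le.trans inf_le_right, (key B inf_le_right h2).le.trans inf_le_left,
    fun hp2 => ⟨a * b⁻¹, by rwa [mul_mem_cancel_left ha, inv_mem_iff],
      by rwa [mul_mem_cancel_right (B.inv_mem hb)], fun h5 => hbA ?_⟩⟩
  · rw [h3, ← mul_assoc, ← h4, index_mul_card]
  · have h6 := mul_mem (inv_mem h5) (mem_sup_right (mem_zpowers (a * b)))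
    rw [show (a * b⁻¹)⁻¹ * (a * b) = b ^ 2 by rw [sq]; group] at h6
    have h7 : b ^ 2 ∈ A := ((key B inf_le_right h2).le ⟨h6, B.pow_mem hb 2⟩).1
    obtain ⟨k, hk⟩ := IsPGroup.iff_orderOf.mp hG b
    exact zpowers_le.mpr h7 (PG.mem_zpowers_pow_of_not_dvd hp.out hk fun h =>
      hp2 ((Nat.prime_dvd_prime_iff_eq hp.out Nat.prime_two).mp h))

theorem exists_key (hG : IsPGroup p G) {C : Subgroup G} (hC : C.index = p) {g : G} (hg : g ∉ C) :
    ∃ H : Subgroup C, Nat.card (commutator G) = Nat.card (commutator C) * H.index ∧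
      H.index ≤ (centralizer ({g} : Set G)).index ∧ ∀ x : C, x ∉ H →
        (centralizer ({(x : G)} : Set G)).index = p * (centralizer ({x} : Set C)).index := by
  have hC' := (PG.isCoatom_iff_index_eq_prime hG).mpr hC
  have := PG.normal_of_index_eq_prime hG hC
  set π := QuotientGroup.mk' (⁅C, C⁆ : Subgroup G)
  have hs := QuotientGroup.mk'_surjective (⁅C, C⁆ : Subgroup G)
  have hn := Normal.map this π hs
  have hc : IsMulCommutative (C.map π) := PG.isMulCommutative_of_forall (by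
    rintro _ ⟨x, hx, rfl⟩ _ ⟨y, hy, rfl⟩
    rw [← commutatorElement_eq_one_iff_mul_comm, ← map_commutatorElement]
    exact (QuotientGroup.eq_one_iff _).mpr (commutator_mem_commutator hx hy))
  have htop : ∀ y ∉ C, C.map π ⊔ zpowers (π y) = ⊤ := fun y hy => by
    rw [← MonoidHom.map_zpowers, ← Subgroup.map_sup, PG.sup_zpowers_eq_top_of_isCoatom hC' hy,
      map_top_of_surjective π hs]
  obtain ⟨φ, h1, h2⟩ := Cfsg.Lib.Trans.mem_commutator_iff_of_sup_zpowers (C.map π) (htop g hg)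
  let ψ := φ.comp (π.subgroupMap C)
  have h3 : ∀ x : C, x ∈ ψ.ker ↔ π x * π g = π g * π x := fun x => by
    rw [MonoidHom.mem_ker, ← commutatorElement_eq_one_iff_mul_comm]
    exact Eq.congr_left (h1 _)
  refine ⟨ψ.ker, ?_, ?_, fun x hx => ?_⟩
  · rw [index_ker, MonoidHom.range_comp, MonoidHom.range_eq_top.mpr (π.subgroupMap_surjective C),
      ← MonoidHom.range_eq_map, h2, ← card_map_mk'_mul_card_inf ⁅C, C⁆ (commutator G),
      (inf_eq_left (b := commutator G)).mpr (commutator_mono le_top le_top), mul_comm, ← card_map_subtype (commutator C),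
      Subgroup.map_subtype_commutator, commutator_def, Subgroup.map_commutator,
      map_top_of_surjective π hs, commutator_def]
  · refine (index_antitone fun x hx => (h3 x).mpr ?_).trans (relIndex_le_index _ C)
    rw [← map_mul, ← map_mul, mem_centralizer_singleton_iff.mp (mem_subgroupOf.mp hx)]
  · rw [index_centralizer_subgroup, ← hC, mul_comm, relIndex_mul_index]
    intro y hy
    by_contra hyC
    apply hx
    rw [h3]
    have h4 : (⊤ : Subgroup (G ⧸ (⁅C, C⁆ : Subgroup G))) ≤ centralizer {π x} := by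
      rw [← htop y hyC]
      refine sup_le (fun z hz => mem_centralizer_singleton_iff.mpr
        (PG.mul_comm_of_mem hz (mem_map_of_mem π x.2))) (zpowers_le.mpr ?_)
      rw [mem_centralizer_singleton_iff, ← map_mul, ← map_mul, mem_centralizer_singleton_iff.mp hy]
    exact (mem_centralizer_singleton_iff.mp (h4 (mem_top _))).symm

theorem le_pow_of_lt (hG : IsPGroup p G) {H : Subgroup G} {m : ℕ} (h : H.index < p ^ (m + 1)) :
    H.index ≤ p ^ m := by
  obtain ⟨k, hk⟩ := hG.index H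
  rw [hk] at h ⊢
  rw [Nat.pow_lt_pow_iff_right hp.out.one_lt] at h
  exact Nat.pow_le_pow_right hp.out.pos (by omega)

omit hp in
theorem exists_succ_of_lt {H : Subgroup G} {n : ℕ} (h : H.index < p ^ n) : ∃ m, n = m + 1 := by
  rcases n with _ | m
  · have : H.index ≠ 0 := index_ne_zero_of_finite
    rw [pow_zero] at h
    omega
  · exact ⟨m, rfl⟩

end

/-- The statement proved by induction on the order. -/
def Claim (p : ℕ) (G : Type*) [Group G] : Prop :=
  ∀ (n : ℕ) (H₁ H₂ : Subgroup G), H₁ ≠ ⊤ → (3 ≤ H₂.index ∨ H₂ ≤ H₁) →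
    (∀ x, x ∉ H₁ → x ∉ H₂ → (centralizer ({x} : Set G)).index < p ^ n) →
      Nat.card (commutator G) ≤ p ^ n.choose 2

theorem choose_succ (n : ℕ) : (n + 1).choose 2 = n.choose 2 + n := by
  rw [Nat.choose_succ_succ' n 1, Nat.choose_one_right, add_comm]

theorem two_case {C : Type*} [Group C] [Finite C] (hC : IsPGroup 2 C)
    (ih : ∀ E : Subgroup C, E.index = 2 → Claim 2 E) {D H : Subgroup C} (hD : D.index = 2)
    (hH : H.index = 2) (hne : ¬ H ≤ D) {m : ℕ}
    (h1 : ∀ x, x ∉ D → (centralizer ({x} : Set C)).index < 2 ^ (m + 1))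
    (h2 : ∀ x, x ∉ D → x ∉ H → (centralizer ({x} : Set C)).index < 2 ^ m) :
    Nat.card (commutator C) * 2 ≤ 2 ^ (m + 1).choose 2 := by
  obtain ⟨E, hE, hED, hEH, -⟩ := exists_third hC hD hH hne
  obtain ⟨h, hh, hhD⟩ := SetLike.not_le_iff_exists.mp hne
  obtain ⟨K, h3, h4, h5⟩ := exists_key hC hE (g := h) fun he => hhD (hEH ⟨he, hh⟩)
  have h6 : D.subgroupOf E ≠ ⊤ := fun he => by
    have h7 := subgroupOf_eq_top.mp he
    have h8 := ((PG.isCoatom_iff_index_eq_prime hC).mpr hE).le_iff_eq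
      ((PG.isCoatom_iff_index_eq_prime hC).mpr hD).1 |>.mp h7
    rw [← h8, inf_idem] at hED
    exact hne ((((PG.isCoatom_iff_index_eq_prime hC).mpr hD).le_iff_eq
      ((PG.isCoatom_iff_index_eq_prime hC).mpr hH).1).mp hED).le
  have h7 : ∀ x : E, x ∉ D.subgroupOf E → (centralizer ({(x : C)} : Set C)).index < 2 ^ m :=
    fun x hx => h2 x hx fun hxH => hx (hEH ⟨x.2, hxH⟩)
  have h8 := ih E hE m _ _ h6 (Or.inr le_rfl) fun x hx _ => by
    rw [index_centralizer_subgroup]
    exact (relIndex_le_index _ _).trans_lt (h7 x hx)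
  obtain ⟨x, -, hx⟩ := SetLike.exists_of_lt (lt_top_iff_ne_top.mpr h6)
  obtain ⟨k, rfl⟩ := exists_succ_of_lt (h7 x hx)
  have h9 : ∀ x : E, x ∉ D.subgroupOf E → x ∉ K → (centralizer ({x} : Set E)).index < 2 ^ k :=
    fun x hx hxK => by
      have := h7 x hx
      rw [h5 x hxK, pow_succ'] at this
      omega
  rw [h3, choose_succ (k + 1), pow_add, mul_assoc]
  by_cases hK : K = ⊤
  · rw [hK, index_top, one_mul]
    exact Nat.mul_le_mul h8 (Nat.le_self_pow (by omega) 2)
  obtain ⟨y, -, hy1, hy2⟩ := exists_not_mem_two (K := ⊤) (top_le_iff.not.mpr h6)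
    (top_le_iff.not.mpr hK)
  obtain ⟨j, rfl⟩ := exists_succ_of_lt (h9 y hy1 hy2)
  rcases le_or_gt 3 K.index with h10 | h10
  · have h11 := ih E hE _ _ _ h6 (Or.inl h10) h9
    have h12 := h4.trans (le_pow_of_lt hC (h1 h hhD))
    rw [choose_succ (j + 1), pow_add, mul_assoc, mul_comm K.index]
    exact Nat.mul_le_mul h11 (Nat.mul_le_mul (Nat.le_self_pow (by omega) 2) h12)
  · refine Nat.mul_le_mul h8 ?_
    rw [pow_succ, pow_succ]
    have : 1 ≤ 2 ^ j := Nat.one_le_two_pow
    omega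

universe u in
theorem claim {p : ℕ} [hp : Fact p.Prime] (N : ℕ) : ∀ (G : Type u) [Group G] [Finite G],
    Nat.card G = N → IsPGroup p G → Claim p G := by
  induction N using Nat.strong_induction_on with
  | _ N ih =>
  intro G _ _ hN hG n H₁ H₂ hH₁ hH₂ hb
  have hsub : ∀ C : Subgroup G, C.index = p → Nat.card C < N := fun C hC => by
    rw [← hN, ← C.index_mul_card, hC]
    exact (Nat.lt_mul_iff_one_lt_left Nat.card_pos).mpr hp.out.one_lt
  by_cases hc : IsCyclic G
  · rw [commutator_eq_bot, card_bot]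
    exact Nat.one_le_pow _ _ hp.out.pos
  obtain ⟨M₁, -, hle, hM₁⟩ := PG.exists_normal_index_eq_prime hG hH₁
  have hco := @PG.isCoatom_iff_index_eq_prime G _ p _ _ hG
  obtain ⟨C, g, hC, hCM, hCH, hg1, hg2, hg3⟩ : ∃ (C : Subgroup G) (g : G), C.index = p ∧
      ¬ C ≤ M₁ ∧ C ⊓ H₂ ≤ M₁ ∧ g ∉ C ∧ g ∉ M₁ ∧ g ∉ H₂ := by
    by_cases h : H₂ ≤ M₁
    · obtain ⟨C, hC, hne⟩ : ∃ C : Subgroup G, IsCoatom C ∧ C ≠ M₁ := by
        by_contra h'
        push Not at h'
        exact hc (isCyclic_of_isCoatom_unique fun A B hA hB => (h' A hA).trans (h' B hB).symm)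
      obtain ⟨g, -, h1, h2⟩ := exists_not_mem_two (K := ⊤) (top_le_iff.not.mpr hC.1)
        (top_le_iff.not.mpr (hco.mpr hM₁).1)
      exact ⟨C, g, hco.mp hC, fun h' => hne ((hC.le_iff_eq (hco.mpr hM₁).1).mp h').symm,
        inf_le_right.trans h, h1, h2, fun h' => h2 (h h')⟩
    · have h3 := hH₂.resolve_right fun h' => h (h'.trans hle)
      obtain ⟨M, -, hM, hM'⟩ := PG.exists_normal_index_eq_prime hG (H := H₂) (by
        rintro rfl
        rw [index_top] at h3
        omega)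
      have hMM : ¬ M ≤ M₁ := fun h' => h (hM.trans h')
      obtain ⟨C, hC, h4, h5, h6⟩ := exists_third hG hM₁ hM' hMM
      have h7 : ¬ C ≤ M₁ := fun h' => by
        rw [← ((hco.mpr hC).le_iff_eq (hco.mpr hM₁).1).mp h', inf_idem] at h4
        exact hMM (((hco.mpr hM₁).le_iff_eq (hco.mpr hM').1).mp h4).le
      have h8 := (inf_le_inf_left C hM).trans h5
      by_cases hp2 : p = 2
      · obtain ⟨g, h9, h10, h11⟩ := exists_not_mem_two hMM (B := H₂) fun h' => by
          rw [← le_antisymm h' hM, hM'] at h3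
          omega
        exact ⟨C, g, hC, h7, h8, fun h' => h10 (h5 ⟨h', h9⟩), h10, h11⟩
      · obtain ⟨g, h9, h10, h11⟩ := h6 hp2
        exact ⟨C, g, hC, h7, h8, h11, h9, fun h' => h10 (hM h')⟩
  have hgb := hb g (fun h => hg2 (hle h)) hg3
  obtain ⟨m, rfl⟩ := exists_succ_of_lt hgb
  obtain ⟨H, h1, h2, h3⟩ := exists_key hG hC hg1
  have ihC := ih _ (hsub C hC) C rfl (hG.to_subgroup C)
  have h4 : M₁.subgroupOf C ≠ ⊤ := fun h => hCM (subgroupOf_eq_top.mp h)
  have h5 : ∀ x : C, x ∉ M₁.subgroupOf C → (centralizer ({(x : G)} : Set G)).index < p ^ (m + 1) :=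
    fun x hx => hb x (fun h => hx (hle h)) fun h => hx (hCH ⟨x.2, h⟩)
  have h6 : ∀ x : C, x ∉ M₁.subgroupOf C → (centralizer ({x} : Set C)).index < p ^ (m + 1) :=
    fun x hx => by
      rw [index_centralizer_subgroup]
      exact (relIndex_le_index _ _).trans_lt (h5 x hx)
  have h7 : ∀ x : C, x ∉ M₁.subgroupOf C → x ∉ H → (centralizer ({x} : Set C)).index < p ^ m :=
    fun x hx hxH => by
      have := h5 x hx
      rw [h3 x hxH, pow_succ'] at this
      exact Nat.lt_of_mul_lt_mul_left this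
  rw [h1]
  by_cases h8 : 3 ≤ H.index ∨ H ≤ M₁.subgroupOf C
  · rw [choose_succ, pow_add]
    exact Nat.mul_le_mul (ihC m _ _ h4 h8 h7) (h2.trans (le_pow_of_lt hG hgb))
  push Not at h8
  by_cases h9 : H.index = 2
  · obtain rfl : p = 2 := by
      obtain ⟨k, hk⟩ := (hG.to_subgroup C).index H
      exact ((Nat.Prime.pow_eq_iff Nat.prime_two).mp (hk.symm.trans h9)).1
    rw [h9]
    refine two_case (hG.to_subgroup C) (fun E hE => ih _ ?_ E rfl
      ((hG.to_subgroup C).to_subgroup E)) ?_ h9 h8.2 h6 h7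
    · exact (Nat.le_of_dvd Nat.card_pos (card_subgroup_dvd_card E)).trans_lt (hsub C hC)
    · have := PG.normal_of_index_eq_prime hG hM₁
      refine ((Nat.dvd_prime Nat.prime_two).mp
        (hM₁ ▸ relIndex_dvd_index_of_normal M₁ C)).resolve_left ?_
      rwa [index_eq_one]
  · have h10 : H.index ≠ 0 := index_ne_zero_of_finite
    rw [show H.index = 1 by omega, mul_one]
    exact ihC _ _ _ h4 (Or.inr le_rfl) fun x hx _ => h6 x hx

/-- Vaughan-Lee's Theorem: if G is a finite p-group in which every conjugacy class has at most p^b elements (every element has centralizer of index at most p^b), then the derived subgroup of G has order at most p^(b(b+1)/2). -/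
theorem result {G : Type*} [Group G] [Finite G] {p : ℕ} [Fact p.Prime] (hG : IsPGroup p G) (b : ℕ) (hb : ∀ x : G, (Subgroup.centralizer ({x} : Set G)).index ≤ p ^ b) : Nat.card (commutator G) ≤ p ^ (b * (b + 1) / 2) := by
  rcases subsingleton_or_nontrivial G with h | h
  · exact (Finite.card_le_one_iff_subsingleton.mpr inferInstance).trans
      (Nat.one_le_pow _ _ (Fact.out : p.Prime).pos)
  · have := claim _ G rfl hG (b + 1) ⊥ ⊥ bot_ne_top (Or.inr le_rfl) fun x _ _ =>
      (hb x).trans_lt (Nat.pow_lt_pow_right (Fact.out : p.Prime).one_lt (Nat.lt_succ_self b))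
    rwa [Nat.choose_two_right, Nat.add_sub_cancel, mul_comm] at this

end Cfsg.Agent.S3777
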