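import Cfsg.Statements.S3778
import Cfsg.Agent.Solv.CommCalc
import Cfsg.Agent.Solv.PGroupNormal

set_option autoImplicit false
open Cfsg

namespace Cfsg.Agent.S3778


open Cfsg.Lib.Solv Subgroup Finset
open scoped commutatorElement Classical

variable {G : Type*} [Group G] [Finite G] {p : ℕ} [hp : Fact p.Prime]

/-- The two-step centralizer. -/
def K (G : Type*) [Group G] (i : ℕ) : Subgroup G :=
  commLe ((⊤ : Subgroup G).lowerCentralSeries i) ((⊤ : Subgroup G).lowerCentralSeries (i + 2))

theorem pow_card_le (hG : IsPGroup p G) (x : G) (m : ℕ) :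
    p ^ ((range m).filter fun i => x ∉ K G i).card ≤
      ((⊤ : Subgroup G).lowerCentralSeries m ⊔ centralizer {x}).index := by
  induction m with
  | zero => exact Nat.pos_of_ne_zero index_ne_zero_of_finite
  | succ m ih =>
    have hle : (⊤ : Subgroup G).lowerCentralSeries (m + 1) ⊔ centralizer {x} ≤
        (⊤ : Subgroup G).lowerCentralSeries m ⊔ centralizer {x} :=
      sup_le_sup_right (Subgroup.lowerCentralSeries_antitone _ (Nat.le_succ m)) _
    rw [range_add_one, filter_insert]
    split_ifs with h
    · exact ih.trans (index_antitone hle)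
    · have hlt := lt_of_le_of_ne hle fun he => h ⟨le_normalizer_of_normal (mem_top x), fun g hg => by
        obtain ⟨y, hy, c, hc, rfl⟩ := mem_sup_of_normal_left.mp (he.ge (mem_sup_left hg))
        have h1 : ⁅x, y * c⁆ = ⁅y, x⁆⁻¹ := by
          simp only [commutatorElement_def]
          calc x * (y * c) * x⁻¹ * (y * c)⁻¹ = x * y * (c * x⁻¹ * c⁻¹) * y⁻¹ := by group
            _ = _ := by
              rw [(show Commute c x from mem_centralizer_singleton_iff.mp hc).inv_right.eq]; group
        rw [h1]
        exact inv_mem (commutator_mem_commutator hy (mem_top x))⟩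
      have h1 := PG.prime_mul_card_le_of_lt (hG.to_subgroup _) hlt
      rw [card_insert_of_notMem (by simp), pow_succ]
      refine (Nat.mul_le_mul_right p ih).trans (Nat.le_of_mul_le_mul_right ?_ (Nat.card_pos
        (α := ↥((⊤ : Subgroup G).lowerCentralSeries (m + 1) ⊔ centralizer {x}))))
      rw [index_mul_card, mul_assoc, ← ((⊤ : Subgroup G).lowerCentralSeries m ⊔
        centralizer {x}).index_mul_card]
      exact Nat.mul_le_mul_left _ h1

theorem K_ne_top (hG : IsPGroup p G) {i : ℕ}
    (h : (⊤ : Subgroup G).lowerCentralSeries (i + 1) ≠ ⊥) : K G i ≠ ⊤ := fun he => by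
  have h1 := (le_commLe_iff.mp he.ge).2
  rw [Subgroup.commutator_comm] at h1
  exact (PG.commutator_lt (hG.to_subgroup ⊤) (hG.to_subgroup _) le_normalizer_of_normal h).not_ge h1

/-- If G is a finite p-group in which every conjugacy class has at most p^b elements (every element has centralizer of index at most p^b), then G is abelian when b = 0, and when b ≥ 1 its nilpotency class c satisfies (c − 1)(p − 1) < bp, that is c < bp/(p − 1) + 1, and hence c ≤ 2b. -/
theorem result {G : Type*} [Group G] [Finite G] {p : ℕ} [Fact p.Prime] (hG : IsPGroup p G) (b : ℕ) (hb : ∀ x : G, (Subgroup.centralizer ({x} : Set G)).index ≤ p ^ b) : ∃ c : ℕ, (⊤ : Subgroup G).lowerCentralSeries c = ⊥ ∧ (b ≠ 0 → (c - 1) * (p - 1) < b * p ∧ c ≤ 2 * b) ∧ (b = 0 → c ≤ 1) := by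
  have hp : p.Prime := Fact.out
  have := hG.isNilpotent
  have := Fintype.ofFinite G
  refine ⟨Group.nilpotencyClass G, Subgroup.lowerCentralSeries_nilpotencyClass, fun hb0 => ?_, ?_⟩
  · set m := Group.nilpotencyClass G - 1 with hm
    have h1 : ∀ i ∈ range m, Nat.card G * (p - 1) ≤ (univ.filter fun x => x ∉ K G i).card * p := by
      intro i hi
      have h2 := PG.prime_mul_card_le_of_lt (hG.to_subgroup ⊤) (lt_top_iff_ne_top.mpr
        (K_ne_top hG (i := i) fun h => by
          have := Subgroup.lowerCentralSeries_eq_bot_iff_nilpotencyClass_le.mp h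
          have := mem_range.mp hi
          omega))
      have h3 := card_filter_add_card_filter_not (s := (univ : Finset G)) (fun x => x ∈ K G i)
      rw [card_univ, ← Nat.card_eq_fintype_card, ← Fintype.card_subtype,
        ← Nat.card_eq_fintype_card] at h3
      rw [card_top] at h2
      rw [Nat.mul_sub_one, Nat.sub_le_iff_le_add]
      nlinarith
    have h2 : ∀ x : G, ((range m).filter fun i => x ∉ K G i).card ≤ b := fun x =>
      (Nat.pow_le_pow_iff_right hp.one_lt).mp
        ((pow_card_le hG x m).trans ((index_antitone le_sup_right).trans (hb x)))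
    have h3 : ∑ x : G, ((range m).filter fun i => x ∉ K G i).card < ∑ _x : G, b :=
      sum_lt_sum (fun x _ => h2 x) ⟨1, mem_univ _, by
        rw [filter_false_of_mem fun i _ h => h (one_mem _)]
        exact Nat.pos_of_ne_zero hb0⟩
    have h4 := sum_le_sum h1
    rw [sum_const, card_range, smul_eq_mul, ← sum_mul] at h4
    rw [sum_const, card_univ, ← Nat.card_eq_fintype_card, smul_eq_mul,
      show ∑ x : G, ((range m).filter fun i => x ∉ K G i).card =
        ∑ i ∈ range m, (univ.filter fun x => x ∉ K G i).card from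
        sum_card_bipartiteAbove_eq_sum_card_bipartiteBelow _] at h3
    have h5 : m * (p - 1) < b * p := by
      apply Nat.lt_of_mul_lt_mul_left (a := Nat.card G)
      rw [mul_left_comm, ← mul_assoc _ b]
      exact h4.trans_lt (Nat.mul_lt_mul_of_pos_right h3 hp.pos)
    refine ⟨h5, ?_⟩
    obtain ⟨q, rfl⟩ : ∃ q, p = q + 2 := ⟨p - 2, by have := hp.two_le; omega⟩
    have h6 : m < 2 * b := by
      by_contra h
      have := Nat.mul_le_mul_right (q + 2 - 1) (not_lt.mp h)
      rw [show q + 2 - 1 = q + 1 from rfl] at this h5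
      nlinarith
    omega
  · rintro rfl
    rw [← Subgroup.lowerCentralSeries_eq_bot_iff_nilpotencyClass_le, top_lowerCentralSeries_one,
      commutator_eq_bot_iff]
    refine ⟨⟨fun x y => mem_centralizer_singleton_iff.mp ?_⟩⟩
    have h1 := hb y
    have h2 : (centralizer ({y} : Set G)).index ≠ 0 := index_ne_zero_of_finite
    rw [pow_zero] at h1
    rw [index_eq_one.mp (by omega : (centralizer ({y} : Set G)).index = 1)]
    exact mem_top x

end Cfsg.Agent.S3778
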