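import Cfsg.Statements.S3780
import Cfsg.Agent.Solv.FrattiniP

set_option autoImplicit false
open Cfsg

namespace Cfsg.Agent.S3780


open Cfsg.Lib.Solv Subgroup

theorem card_ker_comp_le {V : Type*} [Group V] [Finite V] (f g : V →* V) :
    Nat.card (g.comp f).ker ≤ Nat.card g.ker * Nat.card f.ker := by
  let φ : (g.comp f).ker →* V := f.comp (g.comp f).ker.subtype
  rw [← φ.ker.index_mul_card, index_ker]
  refine Nat.mul_le_mul (card_le_of_le ?_) ?_
  · rintro _ ⟨x, rfl⟩
    exact x.2
  · rw [← card_map_of_injective (g.comp f).ker.subtype_injective]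
    refine card_le_of_le ?_
    rintro _ ⟨x, hx, rfl⟩
    exact hx

theorem card_ker_pow_le {V : Type*} [Group V] [Finite V] (f : Monoid.End V) (k : ℕ) :
    Nat.card (MonoidHom.ker (f ^ k : Monoid.End V)) ≤ Nat.card (MonoidHom.ker f) ^ k := by
  induction k with
  | zero =>
    rw [pow_zero, pow_zero]
    exact (card_eq_one.mpr ((MonoidHom.ker_eq_bot_iff _).mpr fun _ _ h => h)).le
  | succ k ih =>
    rw [pow_succ, pow_succ]
    exact (card_ker_comp_le f (f ^ k : Monoid.End V)).trans (Nat.mul_le_mul_right _ ih)

/-- Let V be a finite abelian p-group and α an automorphism of V of order p whose fixed-point subgroup has order p^n. Then V can be generated by pn elements: some subset of V with at most pn elements generates V. -/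
theorem result {V : Type*} [CommGroup V] [Finite V] {p : ℕ} [Fact p.Prime] (hV : IsPGroup p V) (α : MulAut V) (hα : orderOf α = p) (n : ℕ) (hfix : Nat.card {v : V // α v = v} = p ^ n) : ∃ S : Finset V, S.card ≤ p * n ∧ Subgroup.closure (S : Set V) = ⊤ := by
  have hp : p.Prime := Fact.out
  let δ : Monoid.End V := (α : V →* V) / MonoidHom.id V
  let d : AddMonoid.End (Additive V) := MonoidHom.toAdditive δ
  have hd : ∀ (k : ℕ) (x : V), (d ^ k) (Additive.ofMul x) = Additive.ofMul ((δ ^ k) x) := by
    intro k
    induction k with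
    | zero => exact fun x => rfl
    | succ k ih => intro x; rw [pow_succ, pow_succ]; exact ih (δ x)
  have ha : ∀ (k : ℕ) (x : V), ((d + 1) ^ k) (Additive.ofMul x) = Additive.ofMul ((α ^ k) x) := by
    intro k
    induction k with
    | zero => exact fun x => rfl
    | succ k ih =>
      intro x
      have : (d + 1) (Additive.ofMul x) = Additive.ofMul (α x) :=
        congrArg Additive.ofMul (div_mul_cancel (α x) x)
      rw [pow_succ, pow_succ, AddMonoid.End.coe_mul, Function.comp_apply, this, ih]
      rfl
  obtain ⟨r, hr⟩ := (Commute.one_right d).exists_add_pow_prime_eq hp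
  have h1 : (powMonoidHom p : V →* V).ker ≤ MonoidHom.ker (δ ^ p : Monoid.End V) := by
    intro x hx
    have h2 := ha p x
    have h3 : ((p : AddMonoid.End (Additive V)) * d * 1 * r) (Additive.ofMul x) = 0 := by
      rw [mul_one, mul_assoc, Nat.cast_comm, AddMonoid.End.coe_mul, Function.comp_apply,
        AddMonoid.End.natCast_apply, ← ofMul_pow, show x ^ p = 1 from hx, ofMul_one, map_zero]
    rw [hr, ← hα, pow_orderOf_eq_one, hα, one_pow] at h2
    change (d ^ p) _ + Additive.ofMul x + _ = Additive.ofMul x at h2
    erw [h3] at h2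
    rw [add_zero, add_eq_right] at h2
    exact (hd p x).symm.trans h2
  have h2 : Nat.card (MonoidHom.ker δ) = p ^ n := by
    rw [← hfix]
    exact Nat.card_congr (Equiv.subtypeEquivRight fun x => div_eq_one)
  have h3 : frattini V = (powMonoidHom p : V →* V).range :=
    Subgroup.ext fun x => mem_frattini_iff_of_isMulCommutative hV
  obtain ⟨k, hk⟩ := hV.index (frattini V)
  obtain ⟨T, hT1, hT2⟩ := exists_card_eq_closure_eq_top hV hk
  refine ⟨T, ?_, hT2⟩
  have h4 := (card_le_of_le h1).trans (card_ker_pow_le δ p)
  rwa [← index_range, ← h3, hk, h2, ← pow_mul, Nat.pow_le_pow_iff_right hp.one_lt, ← hT1,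
    mul_comm] at h4

end Cfsg.Agent.S3780
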