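import Cfsg.Statements.S3785
import Cfsg.Agent.Trans.SmallOrderAction
import Cfsg.Agent.Solv.FittingOf
import Cfsg.Agent.Solv.NilpotentHall
import Cfsg.Agent.Solv.CoprimeSylow
import Cfsg.Agent.Solv.Cores

set_option autoImplicit false
open Cfsg

namespace Cfsg.Agent.S3785

open Subgroup Cfsg.Lib.Solv in
open scoped commutatorElement in
theorem aux {G : Type*} [Group G] [Finite G] (hG : Group.IsSolvable G)
    (hodd : Odd (Nat.card (Cfsg.fittingSubgroup G))) (K : Subgroup G) (hK : K.Normal)
    (hg : ∀ g ∈ K, ∀ x ∈ Cfsg.fittingSubgroup G, (orderOf x).Prime → g * x = x * g) :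
    K ≤ Cfsg.fittingSubgroup G := by
  induction K using WellFoundedLT.induction with
  | ind K ih =>
  by_cases h0 : K = ⊥
  · rw [h0]; exact bot_le
  have hlt : ⁅K, K⁆ < K := by
    have := (nontrivial_iff_ne_bot K).mpr h0
    rw [← Subgroup.map_subtype_commutator]
    conv_rhs => rw [← K.range_subtype, MonoidHom.range_eq_map]
    exact (map_lt_map_iff_of_injective K.subtype_injective).mpr
      (Group.IsSolvable.commutator_lt_top_of_nontrivial K)
  have hKF : ⁅K, K⁆ ≤ fittingSubgroup G :=
    ih _ hlt inferInstance (fun g hg' => hg g (hlt.le hg'))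
  refine Coprime.le_of_forall_invariant_pgroup_le (A := ⊥) bot_le (by simp) (Or.inr inferInstance)
    (fun q _ Q hQK hQ _ => ?_)
  -- `P = Q O_q(G)` is a `q`-group normalized by `F`
  have hP : IsPGroup q (Q ⊔ pCore q G : Subgroup G) := IsPGroup.to_sup_of_normal_right hQ (pCore_isPGroup q G)
  have hFP : fittingSubgroup G ≤ normalizer ((Q ⊔ pCore q G : Subgroup G) : Set G) := by
    refine fitting_le_of_forall_pCore_le fun p hp => ?_
    by_cases hpq : p = q
    · subst hpq
      exact le_sup_right.trans le_normalizer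
    · refine le_normalizer_sup ?_ le_normalizer_of_normal
      refine le_trans ?_ (centralizer_le_normalizer _)
      rw [le_centralizer_iff]
      obtain ⟨k, hk⟩ := hQ.exists_card_eq
      refine Cfsg.Lib.Trans.le_centralizer_of_fix_small_order (pCore_isPGroup p G)
        le_normalizer_of_normal
        (hk ▸ Nat.Coprime.pow_left _ ((Nat.coprime_primes Fact.out hp.out).mpr (Ne.symm hpq))) ?_
      intro x hx hx' a ha
      have hxF := pCore_le_fitting p G hx
      have h1 : x ^ p = 1 := by
        rcases hx' with h | ⟨rfl, h⟩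
        · exact h
        · have h2 : orderOf x = 1 := Nat.eq_one_of_dvd_coprimes
            (Nat.Coprime.pow_left 2 (Nat.coprime_two_left.mpr hodd))
            (orderOf_dvd_of_pow_eq_one h) ((fittingSubgroup G).orderOf_dvd_natCard hxF)
          rw [orderOf_eq_one_iff.mp h2, one_pow]
      by_cases hx1 : x = 1
      · simp [hx1]
      · exact (hg a (hQK ha) x hxF (by rw [orderOf_eq_prime h1 hx1]; exact hp.out)).symm
  have h1 : Q ⊔ pCore q G ≤ fittingOf (Q ⊔ fittingSubgroup G) :=
    le_fittingOf (sup_le_sup_left (pCore_le_fitting q G) _)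
      (sup_le (le_sup_left.trans le_normalizer) hFP) hP.isNilpotent
  have h2 : fittingOf (Q ⊔ fittingSubgroup G) ≤ fittingOf (K ⊔ fittingSubgroup G) := by
    refine fittingOf_mono_of_le_normalizer (sup_le_sup_right hQK _)
      (sup_le ?_ (le_sup_right.trans le_normalizer))
    intro k hk
    refine mem_normalizer_of_conj_mem fun x hx => ?_
    obtain ⟨y, hy, z, hz, rfl⟩ := mem_sup_of_normal_right.mp hx
    have : k * (y * z) * k⁻¹ = ⁅k, y⁆ * y * (k * z * k⁻¹) := by rw [commutatorElement_def]; group
    rw [this]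
    exact mul_mem (mul_mem (mem_sup_right (hKF (commutator_mem_commutator hk (hQK hy))))
      (mem_sup_left hy)) (mem_sup_right (Normal.conj_mem inferInstance _ hz _))
  exact le_sup_left.trans (h1.trans (h2.trans (fittingOf_le_fitting_of_normal _)))

/-- Let G be a finite solvable group whose Fitting subgroup F(G) has odd order. If an element g of G commutes with every element of prime order of F(G), then g ∈ F(G). -/
theorem result {G : Type*} [Group G] [Finite G] (hG : Group.IsSolvable G) (hodd : Odd (Nat.card (Cfsg.fittingSubgroup G))) (g : G) (hg : ∀ x ∈ Cfsg.fittingSubgroup G, (orderOf x).Prime → g * x = x * g) : g ∈ Cfsg.fittingSubgroup G := by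
  let S : Set G := {x | x ∈ Cfsg.fittingSubgroup G ∧ (orderOf x).Prime}
  have hn : (Subgroup.centralizer S).Normal := by
    refine ⟨fun n hn a x hx => ?_⟩
    have h1 : a⁻¹ * x * a ∈ S := by
      refine ⟨Subgroup.Normal.conj_mem' inferInstance _ hx.1 _, ?_⟩
      have : orderOf (a⁻¹ * x * a) = orderOf x := by
        simpa using (MulAut.conj a⁻¹).orderOf_eq x
      rw [this]; exact hx.2
    have := hn _ h1
    calc x * (a * n * a⁻¹) = a * (a⁻¹ * x * a * n) * a⁻¹ := by group
      _ = a * n * a⁻¹ * x := by rw [this]; group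
  exact aux hG hodd _ hn (fun g hg x hx hx' => (hg x ⟨hx, hx'⟩).symm)
    (fun x hx => (hg x hx.1 hx.2).symm)

end Cfsg.Agent.S3785
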