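import Cfsg.Statements.S3787
import Cfsg.Agent.Solv.HallHigmanA
import Cfsg.Agent.Solv.PReduce
import Cfsg.Agent.Solv.PGroupNormal
import Cfsg.Agent.Trans.Involves
-- import your own Cfsg.Agent.* helpers here

set_option autoImplicit false
open Cfsg Cfsg.Lib.Solv Module
open scoped commutatorElement Pointwise

namespace Cfsg.Agent.S3787

universe u

/-- The shape of `C_p ≀ C_p`. -/
def IsWr (p : ℕ) (W : Type*) [Group W] : Prop :=
  ∃ (B : Subgroup W) (t : W), B.Normal ∧ IsMulCommutative B ∧ (∀ b ∈ B, b ^ p = 1) ∧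
    Nat.card B = p ^ p ∧ orderOf t = p ∧ t ∉ B ∧ Nat.card W = p ^ (p + 1) ∧
    Nat.card ↥(B ⊓ Subgroup.centralizer ({t} : Set W)) = p

theorem IsWr.of_equiv {p : ℕ} {W W' : Type*} [Group W] [Group W'] (h : IsWr p W) (e : W' ≃* W) :
    IsWr p W' := by
  obtain ⟨B, t, h1, h2, h3, h4, h5, h6, h7, h8⟩ := h
  have hc : ∀ H : Subgroup W, Nat.card (H.comap e.toMonoidHom) = Nat.card H := fun H =>
    Nat.card_congr (Equiv.subtypeEquiv e.toEquiv fun _ => Iff.rfl)
  refine ⟨B.comap e.toMonoidHom, e.symm t, inferInstance,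
    Subgroup.comap_injective_isMulCommutative B e.injective,
    fun b hb => e.injective (by rw [map_pow, map_one]; exact h3 _ hb), (hc B).trans h4,
    by rw [MulEquiv.orderOf_eq, h5], fun h => h6 (by simpa using h),
    (Nat.card_congr e.toEquiv).trans h7, ?_⟩
  rw [← h8, ← hc]
  congr 2
  ext x
  simp only [Subgroup.mem_inf, Subgroup.mem_comap, Subgroup.mem_centralizer_singleton_iff]
  refine and_congr Iff.rfl ⟨fun h => ?_, fun h => e.injective ?_⟩
  · simpa using congrArg e h
  · simpa using h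

theorem coeff_eq_zero {K V : Type*} [Field K] [AddCommGroup V] [Module K V] {T : End K V} {w : V}
    {m : ℕ} (h0 : (T ^ m) w ≠ 0) (h1 : (T ^ (m + 1)) w = 0) {n j : ℕ} {c : Fin n → K}
    (h : ∑ i, c i • (T ^ (j + i)) w = 0) : ∀ (k : ℕ) (i : Fin n), (i : ℕ) = k → j + i ≤ m →
      c i = 0 := by
  intro k
  induction k using Nat.strong_induction_on with
  | _ k ih =>
    intro i hi hm
    have := congrArg (T ^ (m - (j + i))) h
    rw [map_sum, map_zero, Finset.sum_eq_single i] at this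
    · rw [map_smul, ← End.mul_apply, ← pow_add, Nat.sub_add_cancel hm] at this
      exact (smul_eq_zero.1 this).resolve_right h0
    · intro l _ hl
      rcases lt_or_gt_of_ne hl with hlt | hlt
      · rw [ih l (hi ▸ hlt) l rfl (by have : (l : ℕ) < i := hlt; omega), zero_smul, map_zero]
      · have : (i : ℕ) < l := hlt
        rw [map_smul, ← End.mul_apply, ← pow_add,
          show m - (j + i) + (j + l) = (l - i - 1) + (m + 1) by omega, pow_add, End.mul_apply, h1,
          map_zero, smul_zero]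
    · intro h
      exact absurd (Finset.mem_univ i) h

theorem exists_isWr {Y : Type u} [Group Y] [Finite Y] {p : ℕ} [hp : Fact p.Prime] {V : Subgroup Y}
    [V.Normal] [hV : ElemAb p V] (S : SecRep p V ⊥) {t : Y} (ht : t ^ p = 1)
    (h : (S.ρ t - 1) ^ (p - 1) ≠ 0) :
    ∃ W : Subgroup Y, W ≤ V ⊔ Subgroup.zpowers t ∧ IsWr p W := by
  obtain ⟨w, hw⟩ : ∃ w, ((S.ρ t - 1) ^ (p - 1)) w ≠ 0 := by
    by_contra! h'
    exact h (LinearMap.ext h')
  have hp1 := hp.out.one_lt
  set T := S.ρ t - 1 with hT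
  have hTp : T ^ p = 0 := by
    have := HH.sub_one_pow_char_pow (ZMod p) p (S.ρ t) 1
    rwa [pow_one, ← map_pow, ht, map_one, sub_self] at this
  have hw1 : (T ^ (p - 1 + 1)) w = 0 := by rw [Nat.sub_add_cancel hp1.le, hTp]; rfl
  let Λ : (Fin p → ZMod p) →ₗ[ZMod p] S.V :=
    Fintype.linearCombination (ZMod p) fun i : Fin p => (T ^ (i : ℕ)) w
  have hΛ : ∀ c, Λ c = ∑ i, c i • (T ^ (i : ℕ)) w := fun c => rfl
  have hinj : Function.Injective Λ := by
    rw [← LinearMap.ker_eq_bot, LinearMap.ker_eq_bot']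
    intro c hc
    ext i
    exact coeff_eq_zero hw hw1 (j := 0) (by simpa only [zero_add, hΛ] using hc) i i rfl
      (by have := i.2; omega)
  have hgen : ∀ i, (T ^ i) w ∈ LinearMap.range Λ := by
    intro i
    by_cases hi : i < p
    · exact ⟨Pi.single ⟨i, hi⟩ 1, by simp [Λ]⟩
    · rw [pow_eq_zero_of_le (not_lt.1 hi) hTp]
      exact zero_mem _
  have hTU : ∀ u ∈ LinearMap.range Λ, T u ∈ LinearMap.range Λ := by
    rintro _ ⟨c, rfl⟩
    rw [hΛ, map_sum]
    refine Submodule.sum_mem _ fun i _ => ?_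
    rw [map_smul, ← End.mul_apply, ← pow_succ']
    exact Submodule.smul_mem _ _ (hgen _)
  let pre : Submodule (ZMod p) S.V → Subgroup Y := fun U =>
    { carrier := {y | y ∈ V ∧ S.π y ∈ U}
      one_mem' := ⟨V.one_mem, S.π_one ▸ U.zero_mem⟩
      mul_mem' := fun ha hb => ⟨V.mul_mem ha.1 hb.1, S.π_mul ha.1 hb.1 ▸ U.add_mem ha.2 hb.2⟩
      inv_mem' := fun ha => ⟨V.inv_mem ha.1, S.π_inv ha.1 ▸ U.neg_mem ha.2⟩ }
  have hpre : ∀ U, Nat.card (pre U) = Nat.card U := fun U =>
    Nat.card_congr (Equiv.ofBijective (fun y => ⟨S.π y, y.2.2⟩) ⟨fun a b hab => Subtype.ext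
      (mul_inv_eq_one.1 (Subgroup.mem_bot.1 ((S.π_eq_iff a.2.1 b.2.1).1 (congrArg Subtype.val hab)))),
      fun u => by
        obtain ⟨a, ha, hau⟩ := S.π_surj u
        exact ⟨⟨a, ha, hau ▸ u.2⟩, Subtype.ext hau⟩⟩)
  set B := pre (LinearMap.range Λ) with hB
  have hBV : B ≤ V := fun y hy => hy.1
  have hBcard : Nat.card B = p ^ p := by
    rw [hpre, ← Nat.card_congr (LinearEquiv.ofInjective Λ hinj).toEquiv]
    simp
  have htB : Subgroup.zpowers t ≤ Subgroup.normalizer (B : Set Y) := by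
    refine Subgroup.zpowers_le.2 (mem_normalizer_of_conj_mem fun y hy => ⟨?_, ?_⟩)
    · exact Subgroup.Normal.conj_mem inferInstance y hy.1 t
    · rw [← S.ρ_π t hy.1, ← sub_add_cancel (S.ρ t) 1, ← hT, LinearMap.add_apply]
      exact Submodule.add_mem _ (hTU _ hy.2) hy.2
  have htV : t ∉ V := fun htV => by
    rw [hT, show S.ρ t = 1 from S.le_ker htV, sub_self, zero_pow (by omega)] at h
    exact h rfl
  have hto : orderOf t = p := orderOf_eq_prime ht fun h => htV (h ▸ V.one_mem)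
  have hdisj : Disjoint B (Subgroup.zpowers t) := by
    have : Fact (Nat.card (Subgroup.zpowers t)).Prime := by rwa [Nat.card_zpowers, hto]
    rw [← Subgroup.subgroupOf_eq_bot]
    refine (Subgroup.eq_bot_or_eq_top_of_prime_card _).resolve_right fun h => htV (hBV ?_)
    exact Subgroup.subgroupOf_eq_top.1 h (Subgroup.mem_zpowers t)
  have hcent : B ⊓ Subgroup.centralizer {t} = pre (ZMod p ∙ (T ^ (p - 1)) w) := by
    have key : ∀ y ∈ V, y ∈ Subgroup.centralizer {t} ↔ T (S.π y) = 0 := by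
      intro y hy
      rw [hT, S.sub_one_π t hy, S.π_eq_zero (SecRep.commutator_mem t hy), Subgroup.mem_bot,
        commutatorElement_eq_one_iff_mul_comm, Subgroup.mem_centralizer_singleton_iff, eq_comm]
    ext y
    constructor
    · rintro ⟨⟨hy, c, hc⟩, hyt⟩
      refine ⟨hy, ?_⟩
      have h1 := (key y hy).1 hyt
      rw [← hc, hΛ, map_sum] at h1
      simp only [map_smul, ← End.mul_apply, ← pow_succ', add_comm _ 1] at h1
      rw [← hc, hΛ]
      refine Submodule.sum_mem _ fun i _ => ?_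
      by_cases hi : (i : ℕ) = p - 1
      · rw [hi]
        exact Submodule.smul_mem _ _ (Submodule.mem_span_singleton_self _)
      · rw [coeff_eq_zero hw hw1 h1 i i rfl (by have := i.2; omega), zero_smul]
        exact zero_mem _
    · rintro ⟨hy, hyw⟩
      obtain ⟨c, hc⟩ := Submodule.mem_span_singleton.1 hyw
      refine ⟨⟨hy, hc ▸ Submodule.smul_mem _ _ (hgen _)⟩, (key y hy).2 ?_⟩
      rw [← hc, map_smul, ← End.mul_apply, ← pow_succ', hw1, smul_zero]
  have hVc := ElemAb.isMulCommutative p V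
  have hBc := HH.isMulCommutative_of_le hBV
  refine ⟨B ⊔ Subgroup.zpowers t, sup_le_sup_right hBV _, B.subgroupOf _,
    ⟨t, Subgroup.mem_sup_right (Subgroup.mem_zpowers t)⟩, Coprime.normal_subgroupOf_sup htB,
    inferInstance, fun b hb => Subtype.ext (congrArg V.subtype (hV.pow_eq_one ⟨b, hBV hb⟩)),
    (card_subgroupOf_of_le le_sup_left).trans hBcard, by rw [Subgroup.orderOf_mk, hto],
    fun h => htV (hBV h), ?_, ?_⟩
  · rw [Coprime.card_sup htB hdisj, hBcard, Nat.card_zpowers, hto, pow_succ]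
  · have : B.subgroupOf (B ⊔ Subgroup.zpowers t) ⊓ Subgroup.centralizer
        {(⟨t, Subgroup.mem_sup_right (Subgroup.mem_zpowers t)⟩ : (B ⊔ Subgroup.zpowers t :))} =
        (B ⊓ Subgroup.centralizer {t}).subgroupOf (B ⊔ Subgroup.zpowers t) := by
      ext x
      simp only [Subgroup.mem_inf, Subgroup.mem_subgroupOf, Subgroup.mem_centralizer_singleton_iff,
        Subtype.ext_iff, Subgroup.coe_mul]
    rw [this, card_subgroupOf_of_le (inf_le_left.trans le_sup_left), hcent, hpre,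
      Module.natCard_eq_pow_finrank (K := ZMod p), finrank_span_singleton hw, Nat.card_zmod,
      pow_one]

theorem aux {G : Type u} [Group G] [Finite G] {p : ℕ} [hp : Fact p.Prime] (hp2 : p ≠ 2)
    (hnf : ¬ ∃ k : ℕ, p = 2 ^ k + 1) (hG : IsPSolvable p G)
    [hV : ElemAb p (pCore p G)] (hC : Subgroup.centralizer (pCore p G : Set G) ≤ pCore p G)
    (P : Sylow p G) (hne : ¬ (P : Subgroup G) ≤ pCore p G) :
    ∃ (W : Type u) (_ : Group W) (_ : Finite W), IsWr p W ∧ Involves W (P : Subgroup G) := by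
  set V := pCore p G with hVdef
  have hVp : IsPGroup p V := pCore_isPGroup p G
  have hVc := ElemAb.isMulCommutative p V
  have hVV : V ≤ Subgroup.centralizer (V : Set G) :=
    Subgroup.le_centralizer_iff_isMulCommutative.2 inferInstance
  obtain ⟨a₀, ha₀, ha₀V⟩ := SetLike.not_le_iff_exists.1 hne
  obtain ⟨k₀, hk₀⟩ := PG.exists_pow_prime_pow_eq_one P.isPGroup' ha₀
  obtain ⟨j, haV, hapV⟩ := PG.exists_pow_not_mem_pow_mem ha₀V (hk₀ ▸ V.one_mem)
  have haP : a₀ ^ p ^ j ∈ (P : Subgroup G) := Subgroup.pow_mem _ ha₀ _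
  generalize a₀ ^ p ^ j = a at haV hapV haP
  obtain ⟨N, hN, hNmap, hNg⟩ := exists_complement_pCore p G
  obtain ⟨k, hk, hbN⟩ := hNg a
  have hmk : QuotientGroup.mk' V (k * a) = QuotientGroup.mk' V a := by
    rw [map_mul, show QuotientGroup.mk' V k = 1 from (QuotientGroup.eq_one_iff _).2 hk, one_mul]
  have hbp : (QuotientGroup.mk' V (k * a)) ^ p = 1 := by
    rw [hmk, ← map_pow]
    exact (QuotientGroup.eq_one_iff _).2 hapV
  have hb : ¬ N ≤ Subgroup.centralizer {k * a} := by
    intro h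
    refine HH.not_le_centralizer_pPrimeCore (hG.quotient V) (pCore_quotient_pCore p G)
      (y := QuotientGroup.mk' V (k * a)) (j := 1) ?_ (by rwa [pow_one]) ?_
    · rw [hmk]
      exact fun h => haV ((QuotientGroup.eq_one_iff _).1 h)
    · rw [← hNmap]
      rintro _ ⟨n, hn, rfl⟩
      rw [Subgroup.mem_centralizer_singleton_iff, ← map_mul, ← map_mul,
        Subgroup.mem_centralizer_singleton_iff.1 (h hn)]
  have hbV : (k * a) ^ p ∈ V :=
    (QuotientGroup.eq_one_iff _).1 ((map_pow (QuotientGroup.mk' V) _ _).trans hbp)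
  have hbC : (k * a) ^ p ∈ Subgroup.centralizer (N : Set G) :=
    mem_centralizer_of_mem_normalizer hVp hN hbV (Subgroup.pow_mem _ hbN p)
  have hbP : k * a ∈ (P : Subgroup G) := Subgroup.mul_mem _ (pCore_le_sylow P hk) haP
  generalize k * a = b at hbN hb hbV hbC hbP
  set C := V ⊓ Subgroup.centralizer (N : Set G) with hCdef
  set H := Subgroup.normalizer (C : Set G) with hH
  have hVH : V ≤ H :=
    (hVV.trans (Subgroup.centralizer_le inf_le_left)).trans (Subgroup.centralizer_le_normalizer _)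
  have hNH : Subgroup.normalizer (N : Set G) ≤ H :=
    le_normalizer_inf_centralizer Subgroup.le_normalizer_of_normal le_rfl
  let φ := QuotientGroup.mk' (C.subgroupOf H)
  have hφ : Function.Surjective φ := QuotientGroup.mk'_surjective _
  have hφ1 : ∀ x : H, φ x = 1 ↔ (x : G) ∈ C := fun x => QuotientGroup.eq_one_iff _
  have : ElemAb p (V.subgroupOf H) := ElemAb.of_equiv (Subgroup.subgroupOfEquivOfLe hVH).symm
  have hV' : ElemAb p ((V.subgroupOf H).map φ) := ElemAb.map _ φ
  have : ((V.subgroupOf H).map φ).Normal := Subgroup.Normal.map inferInstance φ hφ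
  have := ElemAb.isMulCommutative p ((V.subgroupOf H).map φ)
  obtain ⟨S⟩ := nonempty_secRep p ((V.subgroupOf H).map φ) ⊥
    (Subgroup.commutator_self_eq_bot_iff.2 inferInstance).le
    fun x hx => congrArg Subtype.val (hV'.pow_eq_one ⟨x, hx⟩)
  have ht : φ ⟨b, hNH hbN⟩ ^ p = 1 := by
    rw [← map_pow, hφ1]
    exact ⟨hbV, hbC⟩
  have hNN : N ≤ H := Subgroup.le_normalizer.trans hNH
  have key := HH.thmB_of_nonExc p (HH.nonExc_of_not_fermat hp2 hnf) S.ρ
    (N := (N.subgroupOf H).map φ) (hN.coprime_dvd_left ((Subgroup.card_map_dvd _ _).trans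
      (card_subgroupOf_of_le hNN).dvd)) ?_ (x := φ ⟨b, hNH hbN⟩)
    (Subgroup.le_normalizer_map φ ⟨_, Subgroup.le_normalizer_comap _ hbN, rfl⟩) (k := 0)
    (by rwa [zero_add, pow_one]) ?_
  · rw [zero_add, pow_one] at key
    obtain ⟨W, hW, hWr⟩ := exists_isWr S ht key
    refine ⟨W, inferInstance, inferInstance, hWr, Lib.Trans.involves_trans
      (Lib.Trans.involves_of_le (L := ((P : Subgroup G).subgroupOf H).map φ) (hW.trans (sup_le
        (Subgroup.map_mono (Subgroup.comap_mono (pCore_le_sylow P)))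
        (Subgroup.zpowers_le.2 ⟨_, hbP, rfl⟩))))
      (Lib.Trans.involves_trans (Lib.Trans.involves_map φ _)
        (Lib.Trans.involves_of_injective (H.subtype.subgroupComap P) fun x y h =>
          Subtype.ext (Subtype.ext (congrArg (P : Subgroup G).subtype h))))⟩
  · rintro _ ⟨g, hg, rfl⟩ hg1
    replace hg : (g : G) ∈ N := hg
    have h1 : ⁅V, Subgroup.zpowers (g : G)⁆ ≤ C := by
      rw [Subgroup.commutator_comm, Subgroup.commutator_le]
      rintro _ ⟨i, rfl⟩ v hv
      have := S.mem_ker_iff.1 (Subgroup.zpow_mem _ hg1 i) (φ ⟨v, hVH hv⟩) ⟨_, hv, rfl⟩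
      rw [Subgroup.mem_bot, ← map_zpow, ← map_commutatorElement, hφ1] at this
      exact this
    have h2 := Coprime.le_centralizer_of_commutator_le (by
      obtain ⟨e, he⟩ := IsPGroup.iff_card.1 (hVp.to_le (inf_le_left : C ≤ V))
      rw [he]
      exact (hN.coprime_dvd_left
        (Subgroup.card_dvd_of_le (Subgroup.zpowers_le.2 hg))).pow_right e) h1
      ((Subgroup.zpowers_le.2 hg).trans (Subgroup.le_centralizer_iff.1 inf_le_right))
    have h3 : (g : G) ∈ V ⊓ N := ⟨hC (h2 (Subgroup.mem_zpowers _)), hg⟩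
    rw [inf_eq_bot_of_isPGroup_of_coprime hVp hN, Subgroup.mem_bot] at h3
    rw [show g = 1 from Subtype.ext h3, map_one]
  · intro h
    apply hb
    intro n hn
    have h1 := Subgroup.mem_centralizer_singleton_iff.1 (h ⟨⟨n, hNN hn⟩, hn, rfl⟩)
    rw [pow_zero, pow_one, ← commutatorElement_eq_one_iff_mul_comm, ← map_commutatorElement,
      hφ1] at h1
    have h2 : ⁅n, b⁆ ∈ V ⊓ N := ⟨h1.1, by
      rw [commutatorElement_def, mul_assoc, mul_assoc, ← mul_assoc b]
      exact N.mul_mem hn (conj_mem_of_mem_normalizer hbN (N.inv_mem hn))⟩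
    rw [inf_eq_bot_of_isPGroup_of_coprime hVp hN, Subgroup.mem_bot,
      commutatorElement_eq_one_iff_mul_comm] at h2
    exact Subgroup.mem_centralizer_singleton_iff.2 h2

/-- Let G be a finite p-soluble group, p an odd prime not of the form 2^k + 1, and suppose the wreath product C_p ≀ C_p (of order p^(p+1)) is not involved in a Sylow p-subgroup of G: no section of a Sylow p-subgroup is isomorphic to it. Then G has p-length at most 1. -/
theorem result {G : Type*} [Group G] [Finite G] {p : ℕ} [Fact p.Prime] (hp2 : p ≠ 2) (hnf : (¬ ∃ k : ℕ, p = 2 ^ k + 1)) (hG : Cfsg.IsPSolvable p G) (P : Sylow p G) (hwr : ∀ (W : Type) [Group W] [Finite W], (∃ (B : Subgroup W) (t : W), B.Normal ∧ IsMulCommutative B ∧ (∀ b ∈ B, b ^ p = 1) ∧ Nat.card B = p ^ p ∧ orderOf t = p ∧ t ∉ B ∧ Nat.card W = p ^ (p + 1) ∧ Nat.card ↥(B ⊓ Subgroup.centralizer ({t} : Set W)) = p) → ¬ Cfsg.Involves W ↥(P : Subgroup G)) : Cfsg.PLengthLE p 1 G := by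
  obtain ⟨G₁, _, _, f, hf, h1, h2, h3⟩ := exists_reduction_hom (isPConstrained_of_isPSolvable hG)
  refine HH.pLengthLE_one_of_sylow_le P ?_
  rw [← h1, ← Subgroup.map_le_iff_le_comap]
  by_contra hne
  obtain ⟨W, _, _, hW, hWP⟩ := aux hp2 hnf (hG.of_surjective f hf) h3 (P.mapSurjective hf) hne
  have : Finite (Shrink.{0} W) := Finite.of_equiv _ (equivShrink.{0} W)
  exact hwr (Shrink.{0} W) (hW.of_equiv Shrink.mulEquiv)
    (Lib.Trans.involves_trans (Lib.Trans.involves_of_equiv Shrink.mulEquiv)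
      (Lib.Trans.involves_trans hWP (Lib.Trans.involves_map f _)))

end Cfsg.Agent.S3787
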