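import Cfsg.Statements.S3788
import Cfsg.Agent.Solv.HallHigmanA
import Cfsg.Agent.Solv.PReduce
import Cfsg.Agent.Solv.InvolvesS4
import Cfsg.Agent.Solv.CyclicP
import Cfsg.Agent.Solv.CardModEq
import Cfsg.Agent.Solv.CommCalc
import Cfsg.Agent.Solv.CoprimeAbelian
-- import your own Cfsg.Agent.* helpers here

set_option autoImplicit false
open Cfsg Cfsg.Lib.Solv
open scoped commutatorElement Pointwise

namespace Cfsg.Agent.S3788

universe u

/-- A transvection-like element normalising an odd order subgroup that it does not centralise. -/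
theorem involves_of_transvection {G : Type*} [Group G] [Finite G] {V L N : Subgroup G} [V.Normal]
    [IsMulCommutative V] (hV : IsPGroup 2 V) (hC : Subgroup.centralizer (V : Set G) ≤ V)
    (hLV : L ≤ V) (hL : Nat.card L ∣ 2) (hN : (Nat.card N).Coprime 2) {b : G}
    (hbN : b ∈ Subgroup.normalizer (N : Set G)) (hb2 : b ^ 2 ∈ Subgroup.centralizer (N : Set G))
    (hb : ¬ N ≤ Subgroup.centralizer {b}) (hVb : ⁅V, Subgroup.zpowers b⁆ ≤ L) :
    Involves (Equiv.Perm (Fin 4)) G := by
  obtain ⟨m, hm, hmb⟩ := SetLike.not_le_iff_exists.1 hb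
  set n₀ := m * b * m⁻¹ * b⁻¹ with hn₀
  have hn₀N : n₀ ∈ N := by
    rw [hn₀, mul_assoc, mul_assoc, ← mul_assoc b]
    exact N.mul_mem hm (conj_mem_of_mem_normalizer hbN (N.inv_mem hm))
  have hn₀1 : orderOf n₀ ≠ 1 := fun h => hmb (Subgroup.mem_centralizer_singleton_iff.2
    (commutatorElement_eq_one_iff_mul_comm.1 (orderOf_eq_one_iff.1 h)))
  have hinv₀ : b * n₀ * b⁻¹ = n₀⁻¹ := by
    have h1 : b ^ 2 * m⁻¹ = m⁻¹ * b ^ 2 := (hb2 _ (N.inv_mem hm)).symm
    calc b * n₀ * b⁻¹ = b * m * b⁻¹ * (b ^ 2 * m⁻¹) * (b ^ 2)⁻¹ := by rw [hn₀]; group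
      _ = n₀⁻¹ := by rw [h1, hn₀]; group
  set r := (orderOf n₀).minFac with hr
  have hrp : r.Prime := Nat.minFac_prime hn₀1
  have := Fact.mk hrp
  set n := n₀ ^ (orderOf n₀ / r) with hn
  have hno : orderOf n = r := orderOf_pow_orderOf_div (orderOf_pos n₀).ne' (Nat.minFac_dvd _)
  have hnN : n ∈ N := N.pow_mem hn₀N _
  have hinv : b * n * b⁻¹ = n⁻¹ := by rw [hn, ← conj_pow, hinv₀, inv_pow]
  have hr2 : r.Coprime 2 := hN.coprime_dvd_left (hno ▸ N.orderOf_dvd_natCard hnN)
  obtain ⟨j, hj⟩ := Nat.coprime_two_right.1 hr2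
  set s := n ^ (j + 1) with hs
  have hns : n = s * b * s⁻¹ * b⁻¹ := by
    have h1 : b * s⁻¹ * b⁻¹ = s := by rw [hs, ← inv_pow, ← conj_pow, ← conj_inv, hinv, inv_inv]
    rw [mul_assoc s b, mul_assoc s, h1, hs, ← pow_add, show j + 1 + (j + 1) = r + 1 by omega,
      pow_succ, ← hno, pow_orderOf_eq_one, one_mul]
  have hVV : V ≤ Subgroup.centralizer (V : Set G) :=
    Subgroup.le_centralizer_iff_isMulCommutative.2 inferInstance
  have hL'V : MulAut.conj s • L ≤ V := by
    rw [← Subgroup.Normal.conj_smul_eq_self s V]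
    exact conj_smul_mono s hLV
  set M := L ⊔ MulAut.conj s • L with hM
  have hMV : M ≤ V := sup_le hLV hL'V
  have hMcard : Nat.card M ∣ 2 * 2 :=
    (card_sup_dvd_of_le_normalizer ((hL'V.trans (hVV.trans (Subgroup.centralizer_le hLV))).trans
      (Subgroup.centralizer_le_normalizer _))).trans
      (mul_dvd_mul hL (by rwa [card_conj_smul]))
  have hVb' : ⁅V, Subgroup.zpowers (s * b * s⁻¹)⁆ ≤ MulAut.conj s • L := by
    rw [← conj_smul_zpowers, ← Subgroup.Normal.conj_smul_eq_self s V, ← conj_smul_commutator]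
    exact conj_smul_mono s hVb
  set W := ⁅V, Subgroup.zpowers n⁆ with hW
  have hWM : W ≤ M := by
    have h1 : ∀ Y : Subgroup G, ⁅V, Y⁆ ≤ M → Y ≤ Subgroup.normalizer (M : Set G) := fun Y h =>
      le_normalizer_iff_commutator_le.2 ((Subgroup.commutator_mono hMV le_rfl).trans h)
    have h2 := hVb.trans (le_sup_left : L ≤ M)
    have h3 := hVb'.trans (le_sup_right : _ ≤ M)
    refine le_trans (Subgroup.commutator_mono le_rfl (Subgroup.zpowers_le.2 ?_))
      (commutator_sup_right_le_of_le_normalizer (h1 _ h3) (h1 _ h2) h3 h2)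
    rw [hns]
    exact Subgroup.mul_mem_sup (Subgroup.mem_zpowers _)
      (Subgroup.inv_mem _ (Subgroup.mem_zpowers _))
  have hcop : (Nat.card (Subgroup.zpowers n)).Coprime (Nat.card V) := by
    obtain ⟨k, hk⟩ := IsPGroup.iff_card.1 hV
    rw [Nat.card_zpowers, hno, hk]
    exact hr2.pow_right k
  have hWV : W ≤ V := hWM.trans hMV
  have hWC : W ⊓ Subgroup.centralizer (Subgroup.zpowers n : Set G) = ⊥ := by
    have := Coprime.centralizer_inf_commutator_eq_bot (V := V) (A := Subgroup.zpowers n)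
      Subgroup.le_normalizer_of_normal hcop
    rw [eq_bot_iff, ← this]
    exact fun x hx => ⟨⟨hWV hx.1, hx.2⟩, hx.1⟩
  have hW0 : W ≠ ⊥ := by
    intro h
    have h1 := hC (commutator_eq_bot_iff_le_centralizer'.1 h (Subgroup.mem_zpowers n))
    have h2 : n ∈ V ⊓ N := ⟨h1, hnN⟩
    rw [inf_eq_bot_of_isPGroup_of_coprime hV hN, Subgroup.mem_bot] at h2
    rw [h2, orderOf_one] at hno
    exact hrp.one_lt.ne hno
  have hnW := right_le_normalizer_commutator V (Subgroup.zpowers n)
  have hmod := card_modEq_one_of_inf_centralizer_eq_bot (q := r)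
    (IsPGroup.of_card (n := 1) (by rw [Nat.card_zpowers, hno, pow_one])) hnW hWC
  have hW1 := (Subgroup.one_lt_card_iff_ne_bot W).2 hW0
  have hW4 := Nat.le_of_dvd (by norm_num) ((Subgroup.card_dvd_of_le hWM).trans hMcard)
  have hrd := Nat.le_of_dvd (by omega) ((Nat.modEq_iff_dvd' hW1.le).1 hmod.symm)
  have hr1 := hrp.one_lt
  have hr3 : r = 3 := by omega
  have hbn : Subgroup.zpowers b ≤ Subgroup.normalizer (Subgroup.zpowers n : Set G) :=
    Subgroup.zpowers_le.2 (PG.mem_normalizer_zpowers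
      (hinv ▸ Subgroup.inv_mem _ (Subgroup.mem_zpowers n)))
  have hDn : Subgroup.zpowers n ⊔ Subgroup.zpowers b ≤
      Subgroup.normalizer (Subgroup.zpowers n : Set G) := sup_le Subgroup.le_normalizer hbn
  have hDW : Subgroup.zpowers n ⊔ Subgroup.zpowers b ≤ Subgroup.normalizer (W : Set G) :=
    le_normalizer_commutator Subgroup.le_normalizer_of_normal hDn
  refine involves_perm_four (W := W) (by omega) hDW ?_ (n := n) ?_
    (by rw [← hr3, ← hno, pow_orderOf_eq_one]) fun h => hW0 ?_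
  · rw [eq_bot_iff, ← hWC]
    refine le_inf inf_le_left ?_
    rw [← Subgroup.commutator_eq_bot_iff_le_centralizer, eq_bot_iff,
      ← (Subgroup.disjoint_of_coprime_natCard hcop).eq_bot]
    exact le_inf (commutator_le_right_of_le_normalizer (inf_le_right.trans hDn))
      ((Subgroup.commutator_mono (inf_le_left.trans hWV) le_rfl).trans hWV)
  · have h1 : ⁅s, b⁆ ∈ ⁅Subgroup.zpowers n ⊔ Subgroup.zpowers b,
        Subgroup.zpowers n ⊔ Subgroup.zpowers b⁆ := Subgroup.commutator_mem_commutator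
      (Subgroup.mem_sup_left (Subgroup.npow_mem_zpowers n _))
      (Subgroup.mem_sup_right (Subgroup.mem_zpowers b))
    rwa [commutatorElement_def, ← hns] at h1
  · rw [← hWC, left_eq_inf, Subgroup.le_centralizer_iff]
    exact Subgroup.zpowers_le.2 h

theorem aux {G : Type u} [Group G] [Finite G] {p : ℕ} [hp : Fact p.Prime] (hG : IsPSolvable p G)
    [hV : ElemAb p (pCore p G)] (hC : Subgroup.centralizer (pCore p G : Set G) ≤ pCore p G)
    (P : Sylow p G) (A : Subgroup G) (hAP : A ≤ (P : Subgroup G))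
    (hAn : (P : Subgroup G) ≤ Subgroup.normalizer (A : Set G)) [hA : IsCyclic A]
    (h : p ≠ 2 ∨ ¬ Involves (Equiv.Perm (Fin 4)) G) : A ≤ pCore p G := by
  set V := pCore p G with hVdef
  have hVp : IsPGroup p V := pCore_isPGroup p G
  have hAp : IsPGroup p A := P.isPGroup'.to_le hAP
  have hVc := ElemAb.isMulCommutative p V
  have hVV : V ≤ Subgroup.centralizer (V : Set G) :=
    Subgroup.le_centralizer_iff_isMulCommutative.2 inferInstance
  have hAA : A ≤ Subgroup.centralizer (A : Set G) :=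
    Subgroup.le_centralizer_iff_isMulCommutative.2 hA.isMulCommutative
  by_contra hne
  obtain ⟨a₀, ha₀, ha₀V⟩ := SetLike.not_le_iff_exists.1 hne
  obtain ⟨k₀, hk₀⟩ := PG.exists_pow_prime_pow_eq_one hAp ha₀
  obtain ⟨j, haV, hapV⟩ := PG.exists_pow_not_mem_pow_mem ha₀V (hk₀ ▸ V.one_mem)
  have haA : a₀ ^ p ^ j ∈ A := A.pow_mem ha₀ _
  generalize a₀ ^ p ^ j = a at haV hapV haA
  set L := A ⊓ V with hL
  have hVA : ⁅V, A⁆ ≤ L := le_inf
    (commutator_le_right_of_le_normalizer ((pCore_le_sylow P).trans hAn))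
    (Subgroup.commutator_le_left _ _)
  have hLa : L ≤ Subgroup.zpowers (a ^ p) := by
    have h1 := (PG.le_total_of_isCyclic hAp (inf_le_left : L ≤ A)
      (Subgroup.zpowers_le.2 haA)).resolve_right fun h => haV (h (Subgroup.mem_zpowers a)).2
    intro l hl
    obtain ⟨i, rfl⟩ := PG.exists_pow_eq_of_mem_zpowers (h1 hl)
    obtain ⟨c, rfl⟩ : p ∣ i := by
      by_contra hi
      obtain ⟨k, hk⟩ := PG.exists_pow_prime_pow_eq_one hAp haA
      have : a ∈ Subgroup.zpowers (a ^ i) := mem_zpowers_pow_iff.2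
        (((hp.out.coprime_iff_not_dvd.2 hi).symm.pow_right k).coprime_dvd_right
          (orderOf_dvd_of_pow_eq_one hk))
      exact haV (Subgroup.zpowers_le.2 hl.2 this)
    rw [pow_mul]
    exact Subgroup.npow_mem_zpowers _ c
  obtain ⟨N, hN, hNmap, hNg⟩ := exists_complement_pCore p G
  obtain ⟨k, hk, hbN⟩ := hNg a
  have hmk : QuotientGroup.mk' V (k * a) = QuotientGroup.mk' V a := by
    rw [map_mul, show QuotientGroup.mk' V k = 1 from (QuotientGroup.eq_one_iff _).2 hk, one_mul]
  have hbp : (QuotientGroup.mk' V (k * a)) ^ p = 1 := by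
    rw [hmk, ← map_pow]
    exact (QuotientGroup.eq_one_iff _).2 hapV
  have hb : ¬ N ≤ Subgroup.centralizer {k * a} := by
    intro h
    refine HH.not_le_centralizer_pPrimeCore (hG.quotient V) (pCore_quotient_pCore p G)
      (y := QuotientGroup.mk' V (k * a)) (j := 1) ?_ (by rwa [pow_one]) ?_
    · rw [hmk]
      exact fun h => haV ((QuotientGroup.eq_one_iff _).1 h)
    · rw [← hNmap]
      rintro _ ⟨n, hn, rfl⟩
      rw [Subgroup.mem_centralizer_singleton_iff, ← map_mul, ← map_mul,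
        Subgroup.mem_centralizer_singleton_iff.1 (h hn)]
  have hbC : (k * a) ^ p ∈ Subgroup.centralizer (N : Set G) :=
    mem_centralizer_of_mem_normalizer hVp hN
      ((QuotientGroup.eq_one_iff _).1 ((map_pow (QuotientGroup.mk' V) _ _).trans hbp))
      (Subgroup.pow_mem _ hbN p)
  have hVL : V ≤ Subgroup.normalizer (L : Set G) :=
    (hVV.trans (Subgroup.centralizer_le inf_le_right)).trans (Subgroup.centralizer_le_normalizer _)
  have hAL : A ≤ Subgroup.normalizer (L : Set G) :=
    (hAA.trans (Subgroup.centralizer_le inf_le_left)).trans (Subgroup.centralizer_le_normalizer _)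
  have hbVA : Subgroup.zpowers (k * a) ≤ V ⊔ A :=
    Subgroup.zpowers_le.2 (Subgroup.mul_mem_sup hk haA)
  have hVb : ⁅V, Subgroup.zpowers (k * a)⁆ ≤ L :=
    (Subgroup.commutator_mono le_rfl hbVA).trans (commutator_sup_right_le_of_le_normalizer hVL hAL
      (by rw [Subgroup.commutator_eq_bot_iff_le_centralizer.2 hVV]; exact bot_le) hVA)
  by_cases hp2 : p = 2
  · subst hp2
    refine h.resolve_left (not_not.2 rfl) (involves_of_transvection hVp hC inf_le_right ?_ hN hbN
      hbC hb hVb)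
    refine (Subgroup.card_dvd_of_le hLa).trans ?_
    rw [Nat.card_zpowers]
    exact orderOf_dvd_of_pow_eq_one (congrArg Subtype.val (hV.pow_eq_one ⟨_, hapV⟩))
  obtain ⟨S⟩ := nonempty_secRep p V ⊥ (Subgroup.commutator_eq_bot_iff_le_centralizer.2 hVV).le
    fun x hx => congrArg Subtype.val (hV.pow_eq_one ⟨x, hx⟩)
  have hpow : (k * a) ^ p = a ^ p := by
    have h1 := S.π_mul_pow a hk (p ^ 1)
    have h2 : ⁅a, ⁅a, k⁆⁆ = 1 := by
      have : ⁅a, k⁆ ∈ A := by
        rw [← commutatorElement_inv]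
        exact A.inv_mem (hVA (Subgroup.commutator_mem_commutator hk haA)).1
      exact commutatorElement_eq_one_iff_mul_comm.2 (hAA this a haA)
    have := hp.out.two_le
    rw [HH.geom_sum_eq_sub_one_pow (ZMod p) p, pow_one, show p - 1 = (p - 3) + 1 + 1 by omega,
      pow_succ, pow_succ, Module.End.mul_apply, Module.End.mul_apply, S.sub_one_π a hk,
      S.sub_one_π a (SecRep.commutator_mem a hk), h2, S.π_one, map_zero,
      S.π_eq_zero (SecRep.mul_pow_mul_inv_mem a hk p), Subgroup.mem_bot] at h1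
    exact mul_inv_eq_one.1 h1
  have hNL : N ≤ Subgroup.centralizer (L : Set G) := by
    rw [Subgroup.le_centralizer_iff]
    exact hLa.trans (Subgroup.zpowers_le.2 (hpow ▸ hbC))
  have hR : ⁅⁅N, Subgroup.zpowers (k * a)⁆, V⁆ ≤ L := by
    refine three_subgroups_le_of_le_normalizer
      (hNL.trans (Subgroup.centralizer_le_normalizer _)) (hbVA.trans (sup_le hVL hAL)) hVL ?_ ?_
    · rw [Subgroup.commutator_comm _ V]
      exact (Subgroup.commutator_mono hVb le_rfl).trans
        (commutator_le_left_of_le_normalizer (hNL.trans (Subgroup.centralizer_le_normalizer _)))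
    · exact (Subgroup.commutator_mono (Subgroup.commutator_le_left _ _) le_rfl).trans hVb
  have hRN : ⁅N, Subgroup.zpowers (k * a)⁆ ≤ N :=
    commutator_le_left_of_le_normalizer (Subgroup.zpowers_le.2 hbN)
  have hRV := (Coprime.le_centralizer_of_commutator_le (K := V) (N := L) (by
    obtain ⟨e, he⟩ := IsPGroup.iff_card.1 (hVp.to_le (inf_le_right : L ≤ V))
    rw [he]
    exact (hN.coprime_dvd_left (Subgroup.card_dvd_of_le hRN)).pow_right e)
    (by rwa [Subgroup.commutator_comm]) (hRN.trans hNL)).trans hC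
  apply hb
  rw [← HH.centralizer_zpowers_eq, ← Subgroup.commutator_eq_bot_iff_le_centralizer, eq_bot_iff,
    ← inf_eq_bot_of_isPGroup_of_coprime hVp hN]
  exact le_inf hRV hRN

/-- Let G be a finite p-soluble group, P a Sylow p-subgroup of G and A a cyclic normal subgroup of P. If p is odd, or if no section of G is isomorphic to the symmetric group of degree 4, then A ≤ O_{p',p}(G). -/
theorem result {G : Type*} [Group G] [Finite G] {p : ℕ} [Fact p.Prime] (hG : Cfsg.IsPSolvable p G) (P : Sylow p G) (A : Subgroup G) (hAP : A ≤ (P : Subgroup G)) (hAn : (P : Subgroup G) ≤ Subgroup.normalizer (A : Set G)) (hA : IsCyclic A) (h : p ≠ 2 ∨ ¬ Cfsg.Involves (Equiv.Perm (Fin 4)) G) : A ≤ Cfsg.pPrimePCore p G := by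
  obtain ⟨G₁, _, _, f, hf, h1, h2, h3⟩ := exists_reduction_hom (isPConstrained_of_isPSolvable hG)
  rw [← h1, ← Subgroup.map_le_iff_le_comap]
  have : IsCyclic (A.map f) := isCyclic_of_surjective _ (f.subgroupMap_surjective A)
  exact aux (hG.of_surjective f hf) h3 (P.mapSurjective hf) _ (Subgroup.map_mono hAP)
    ((Subgroup.map_mono hAn).trans (Subgroup.le_normalizer_map f))
    (h.imp_right fun h h' => h (Cfsg.Lib.Trans.involves_trans h'
      (Cfsg.Lib.Trans.involves_of_surjective f hf)))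

end Cfsg.Agent.S3788
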