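import Cfsg.Statements.S3790
import Cfsg.Agent.Solv.PLength
-- import your own Cfsg.Agent.* helpers here

set_option autoImplicit false
open Cfsg Cfsg.Lib.Solv

namespace Cfsg.Agent.S3790

universe u

theorem aux (p : ℕ) [hp : Fact p.Prime] {ι : Type} (q l : ι → ℕ) (hq : ∀ i, (q i).Prime ∧ q i ≠ p)
    (s : Finset ι) : ∀ (G : Type u) [Group G] [Finite G],
      (∀ t : ℕ, t.Prime → t ∣ Nat.card G → t ≠ p → ∃ i ∈ s, q i = t) →
      (∀ i ∈ s, PLengthLE (q i) (l i) G) → PLengthLE p (∏ i ∈ s, (1 + l i)) G := by
  classical
  induction s using Finset.induction_on with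
  | empty =>
    intro G _ _ hc _
    rw [Finset.prod_empty]
    refine PLengthLE.of_isPGroup (isPGroup_iff_isPiNum.2 fun t ht htG => ?_)
    by_contra hne
    obtain ⟨i, hi, -⟩ := hc t ht htG hne
    exact absurd hi (Finset.notMem_empty i)
  | insert j s hj ih =>
    haveI : Fact (q j).Prime := ⟨(hq j).1⟩
    have base : ∀ (G : Type u) [Group G] [Finite G],
        (∀ t : ℕ, t.Prime → t ∣ Nat.card G → t ≠ p → ∃ i ∈ insert j s, q i = t) →
        (∀ i ∈ s, PLengthLE (q i) (l i) G) → (Nat.card G).Coprime (q j) →
        PLengthLE p (∏ i ∈ s, (1 + l i)) G := by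
      intro G _ _ hc hl hcop
      refine ih G (fun t ht htG hne => ?_) hl
      obtain ⟨i, hi, rfl⟩ := hc t ht htG hne
      rcases Finset.mem_insert.1 hi with rfl | hi
      · exact absurd htG ((Nat.Prime.coprime_iff_not_dvd ht).1 hcop.symm)
      · exact ⟨i, hi, rfl⟩
    have key : ∀ (k : ℕ) (G : Type u) [Group G] [Finite G],
        (∀ t : ℕ, t.Prime → t ∣ Nat.card G → t ≠ p → ∃ i ∈ insert j s, q i = t) →
        (∀ i ∈ s, PLengthLE (q i) (l i) G) → PLengthLE (q j) k G →
        PLengthLE p ((1 + k) * ∏ i ∈ s, (1 + l i)) G := by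
      intro k
      induction k with
      | zero =>
        intro G _ _ hc hl h0
        simpa using base G hc hl (pLengthLE_zero_iff.1 h0)
      | succ k ihk =>
        intro G _ _ hc hl hk
        have hQ := ihk (G ⧸ pPrimePCore (q j) G)
          (fun t ht htG => hc t ht (htG.trans (Subgroup.card_quotient_dvd_card _)))
          (fun i hi => by haveI : Fact (q i).Prime := ⟨(hq i).1⟩; exact (hl i hi).quotient _)
          (pLengthLE_succ_iff.1 hk)
        have hK := base (pPrimeCore (q j) G)
          (fun t ht htG => hc t ht (htG.trans (Subgroup.card_subgroup_dvd_card _)))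
          (fun i hi => by haveI : Fact (q i).Prime := ⟨(hq i).1⟩; exact (hl i hi).subgroup _)
          (coprime_card_pPrimeCore _ _)
        have hK' := hK.of_equiv
          (Subgroup.subgroupOfEquivOfLe (pPrimeCore_le_pPrimePCore (q j) G)).symm
        obtain ⟨a, ha⟩ := exists_relIndex_pPrimePCore (q j) G
        have hL := PLengthLE.extension (b := 0) _ hK' (PLengthLE.of_coprime (by
          rw [← Subgroup.index_eq_card]
          change Nat.Coprime ((pPrimeCore (q j) G).relIndex (pPrimePCore (q j) G)) p
          rw [ha]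
          exact Nat.Coprime.pow_left _ ((Nat.coprime_primes (hq j).1 hp.out).2 (hq j).2)))
        have := PLengthLE.extension _ hL hQ
        exact this.mono (le_of_eq (by ring))
    intro G _ _ hc hl
    rw [Finset.prod_insert hj]
    exact key _ G hc (fun i hi => hl i (Finset.mem_insert_of_mem hi))
      (hl j (Finset.mem_insert_self j s))

/-- Let G be a finite solvable group and p a prime. Suppose p₁, …, p_r are distinct primes, all different from p, that include every prime dividing the order of G other than p, and that G has p_i-length at most l_i for each i. Then G has p-length at most the product of the numbers 1 + l_i. -/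
theorem result {G : Type*} [Group G] [Finite G] (hG : Group.IsSolvable G) (p : ℕ) [Fact p.Prime] (r : ℕ) (q : Fin r → ℕ) (hq : ∀ i, (q i).Prime ∧ q i ≠ p) (hinj : Function.Injective q) (hcover : ∀ s : ℕ, s.Prime → s ∣ Nat.card G → s ≠ p → ∃ i, q i = s) (l : Fin r → ℕ) (hl : ∀ i, Cfsg.PLengthLE (q i) (l i) G) : Cfsg.PLengthLE p (Finset.univ.prod fun i => 1 + l i) G := by
  exact aux p q l hq Finset.univ G
    (fun t ht htG hne => (hcover t ht htG hne).imp fun i hi => ⟨Finset.mem_univ i, hi⟩) fun i _ => hl i

end Cfsg.Agent.S3790
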