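import Cfsg.Statements.S3791
import Cfsg.Agent.Solv.PLength
import Cfsg.Agent.Solv.DerivedLength
import Cfsg.Agent.Solv.MinNormal
-- import your own Cfsg.Agent.* helpers here

set_option autoImplicit false
open Cfsg Cfsg.Lib.Solv

namespace Cfsg.Agent.S3791

universe u

theorem aux {r : ℕ} (q d : Fin r → ℕ) [hq : ∀ i, Fact (q i).Prime] (G : Type u) [Group G]
    [Finite G] : Group.IsSolvable G → (∀ s : ℕ, s.Prime → s ∣ Nat.card G → ∃ i, q i = s) →
      (∀ i, ∀ P : Sylow (q i) G, derivedSeries P (d i) = ⊥) →
      ∀ l : Fin r → ℕ, (∀ i, PLengthLE (q i) (l i) G) → derivedSeries G (∑ i, d i * l i) = ⊥ := by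
  refine card_induction (P := fun G _ _ => Group.IsSolvable G →
      (∀ s : ℕ, s.Prime → s ∣ Nat.card G → ∃ i, q i = s) →
      (∀ i, ∀ P : Sylow (q i) G, derivedSeries P (d i) = ⊥) →
      ∀ l : Fin r → ℕ, (∀ i, PLengthLE (q i) (l i) G) → derivedSeries G (∑ i, d i * l i) = ⊥)
    (fun G _ _ ih => ?_) G
  intro hG hc hd l hl
  have quot : ∀ (N : Subgroup G) [N.Normal], N ≠ ⊥ → ∀ l : Fin r → ℕ,
      (∀ i, PLengthLE (q i) (l i) (G ⧸ N)) → derivedSeries (G ⧸ N) (∑ i, d i * l i) = ⊥ := by
    intro N _ hN l hl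
    exact ih _ (card_quotient_lt hN) inferInstance
      (fun s hs h => hc s hs (h.trans (Subgroup.card_quotient_dvd_card N)))
      (fun i => sylow_derivedSeries_eq_bot_of_surjective _ (QuotientGroup.mk'_surjective N) (hd i))
      l hl
  rcases subsingleton_or_nontrivial G with h | h
  · exact derivedSeries_eq_bot_of_subsingleton _
  obtain ⟨p, N, hp, hN, -, -, hNp⟩ := exists_isMinNormal_elementary G
  have hpG : p ∣ Nat.card G := by
    have := Fact.mk hp
    have := (Subgroup.nontrivial_iff_ne_bot N).2 hN.ne_bot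
    obtain ⟨k, hk0, hk⟩ := hNp.nontrivial_iff_card.1 this
    exact ((dvd_pow_self p hk0.ne').trans hk.symm.dvd).trans (Subgroup.card_subgroup_dvd_card N)
  obtain ⟨j, rfl⟩ := hc p hp hpG
  have hO : pCore (q j) G ≠ ⊥ := fun h => hN.ne_bot (le_bot_iff.1 (h ▸ le_pCore hN.normal hNp))
  by_cases hK : pPrimeCore (q j) G = ⊥
  · obtain ⟨k, hk⟩ : ∃ k, l j = k + 1 := by
      refine Nat.exists_eq_succ_of_ne_zero fun h0 => ?_
      have := hl j
      rw [h0, pLengthLE_zero_iff] at this
      exact (Nat.Prime.coprime_iff_not_dvd hp).1 this.symm hpG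
    have h1 := quot (pCore (q j) G) hO (Function.update l j k) (fun i => by
      by_cases hij : i = j
      · subst hij
        rw [Function.update_self]
        have := hl i
        rw [hk, pLengthLE_succ_iff] at this
        exact this.of_equiv (QuotientGroup.quotientMulEquivOfEq (pPrimePCore_eq_pCore hK))
      · rw [Function.update_of_ne hij]
        exact (hl i).quotient _)
    have h2 := derivedSeries_eq_bot_of_extension _ h1
      (derivedSeries_eq_bot_of_isPGroup (hd j) (pCore_isPGroup (q j) G))
    refine derivedSeries_eq_bot_mono (le_of_eq ?_) h2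
    rw [← Finset.add_sum_erase _ _ (Finset.mem_univ j), ← Finset.add_sum_erase _ _ (Finset.mem_univ j),
      Function.update_self, hk, Finset.sum_congr rfl (g := fun i => d i * l i)
        (fun i hi => by rw [Function.update_of_ne (Finset.ne_of_mem_erase hi)])]
    ring
  · have h1 := (derivedSeries_quotient_eq_bot_iff _).1 (quot _ hO l fun i => (hl i).quotient _)
    have h2 := (derivedSeries_quotient_eq_bot_iff _).1 (quot _ hK l fun i => (hl i).quotient _)
    rw [← le_bot_iff, ← pCore_inf_pPrimeCore (q j) G]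
    exact le_inf h1 h2

/-- The Hall–Higman bound on derived length: let G be a finite solvable group, let p₁, …, p_r be distinct primes that include every prime dividing the order of G, and suppose that for each i the Sylow p_i-subgroups of G have derived length at most d_i and G has p_i-length at most l_i. Then G has derived length at most Σ d_i l_i. -/
theorem result {G : Type*} [Group G] [Finite G] (hG : Group.IsSolvable G) (r : ℕ) (q : Fin r → ℕ) (hq : ∀ i, (q i).Prime) (hinj : Function.Injective q) (hcover : ∀ s : ℕ, s.Prime → s ∣ Nat.card G → ∃ i, q i = s) (d l : Fin r → ℕ) (hd : ∀ i, ∀ P : Subgroup G, (haveI := Fact.mk (hq i); ∃ S : Sylow (q i) G, (S : Subgroup G) = P) → derivedSeries ↥P (d i) = ⊥) (hl : ∀ i, Cfsg.PLengthLE (q i) (l i) G) : derivedSeries G (Finset.univ.sum fun i => d i * l i) = ⊥ := by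
  have : ∀ i, Fact (q i).Prime := fun i => ⟨hq i⟩
  exact aux q d G hG hcover (fun i P => hd i P ⟨P, rfl⟩) l hl

end Cfsg.Agent.S3791
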