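import Cfsg.Statements.S3792
import Cfsg.Agent.Trans.PowellExc
import Cfsg.Agent.Block.Fong
import Cfsg.Agent.FT.PLength
import Cfsg.Agent.Local.BaerSuzuki

set_option autoImplicit false
open Cfsg

namespace Cfsg.Agent.S3792

open Cfsg.Lib Cfsg.Lib.Solv Cfsg.Lib.Trans Cfsg.Lib.Trans.Powell Subgroup
open scoped commutatorElement Pointwise

/-- `x ∈ O_{p',p}(⟨x, g⟩)`. -/
def Nice (p : ℕ) {G : Type*} [Group G] (x g : G) : Prop :=
  ∃ K N : Subgroup G, (Nat.card K).Coprime p ∧ x ∈ N ∧ N ≤ normalizer (K : Set G) ∧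
    g ∈ normalizer (K : Set G) ∧ g ∈ normalizer (N : Set G) ∧ ∀ n ∈ N, ∃ j : ℕ, n ^ p ^ j ∈ K

section
variable {p : ℕ} {G G' : Type*} [Group G] [Group G']

theorem Nice.map [Finite G] {x g : G} (h : Nice p x g) (f : G →* G') : Nice p (f x) (f g) := by
  obtain ⟨K, N, h1, h2, h3, h4, h5, h6⟩ := h
  refine ⟨K.map f, N.map f, h1.coprime_dvd_left (Subgroup.card_map_dvd _ f), ⟨x, h2, rfl⟩,
    (map_mono h3).trans (le_normalizer_map f), le_normalizer_map f ⟨g, h4, rfl⟩,
    le_normalizer_map f ⟨g, h5, rfl⟩, ?_⟩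
  rintro _ ⟨n, hn, rfl⟩
  obtain ⟨j, hj⟩ := h6 n hn
  exact ⟨j, _, hj, map_pow f n _⟩

theorem Nice.comap [Finite G] {x g : G'} (f : G' →* G) (hf : Function.Injective f)
    (h : Nice p (f x) (f g)) : Nice p x g := by
  obtain ⟨K, N, h1, h2, h3, h4, h5, h6⟩ := h
  refine ⟨K.comap f, N.comap f, h1.coprime_dvd_left (card_comap_dvd_of_injective K f hf), h2,
    (comap_mono h3).trans (le_normalizer_comap f), le_normalizer_comap f h4,
    le_normalizer_comap f h5, fun n hn => ?_⟩
  obtain ⟨j, hj⟩ := h6 _ hn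
  exact ⟨j, by rwa [mem_comap, map_pow]⟩

theorem nice_of_mem [Finite G] [Fact p.Prime] {x : G} (h : x ∈ pPrimePCore p G) (g : G) :
    Nice p x g :=
  have := FT.pl_pPrimePCore_normal (G := G) (p := p)
  ⟨pPrimeCore p G, pPrimePCore p G, coprime_card_pPrimeCore p G, h, le_normalizer_of_normal,
    le_normalizer_of_normal (K := ⊤) trivial, le_normalizer_of_normal (K := ⊤) trivial,
    fun _ hn => FT.pl_exists_pow_mem_of_mem_pPrimePCore hn⟩

theorem mul_pow_mul_inv_mem {A : Subgroup G} {g a : G} (hg : g ∈ normalizer (A : Set G))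
    (ha : a ∈ A) (n : ℕ) : (a * g) ^ n * (g ^ n)⁻¹ ∈ A := by
  induction n with
  | zero => simp
  | succ n ih =>
    have : (a * g) ^ (n + 1) * (g ^ (n + 1))⁻¹ =
        ((a * g) ^ n * (g ^ n)⁻¹) * (g ^ n * a * (g ^ n)⁻¹) := by
      rw [pow_succ, pow_succ]; group
    rw [this]
    exact A.mul_mem ih ((mem_normalizer_iff.1 (pow_mem hg n) a).1 ha)

theorem le_centralizer_of_nice [Finite G] [hp : Fact p.Prime] {V R : Subgroup G} [hV : V.Normal]
    (hVp : IsPGroup p V) [IsMulCommutative V] (hC : centralizer (V : Set G) ≤ V) {x : G} {j : ℕ}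
    (hx : x ^ p ^ j = 1) (hR : (Nat.card R).Coprime p) (hxR : x ∈ normalizer (R : Set G))
    (h : ∀ g, Nice p x g) : R ≤ centralizer {x} := by
  by_contra hne
  have hcop : (Nat.card (zpowers x)).Coprime (Nat.card R) := by
    rw [Nat.card_zpowers]
    exact (hR.symm.pow_left j).coprime_dvd_left (orderOf_dvd_of_pow_eq_one hx)
  obtain ⟨q, Q, hq, hQR, hQ, hxQ, hQY, hcomm, -, hmin⟩ := HH.exists_minimal (zpowers_le.2 hxR)
    le_rfl le_normalizer hcop (Or.inl (Coprime.isSolvable_zpowers x))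
    (by rwa [HH.centralizer_zpowers_eq])
  have := Fact.mk hq
  have hQp : (Nat.card Q).Coprime p := hR.coprime_dvd_left (card_dvd_of_le hQR)
  obtain ⟨m, hm⟩ := IsPGroup.iff_card.1 hVp
  have hQV : (Nat.card Q).Coprime (Nat.card V) := hm ▸ hQp.pow_right m
  obtain ⟨r, hrQ, hr⟩ := SetLike.not_le_iff_exists.1 hQY
  set W := ⁅V, Q⁆ with hW
  have hWV : W ≤ V := commutator_le_left V Q
  have hWC : W ⊓ centralizer (Q : Set G) = ⊥ := by
    rw [eq_bot_iff, ← Coprime.centralizer_inf_commutator_eq_bot (A := Q) (V := V)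
      le_normalizer_of_normal hQV]
    exact le_inf (le_inf (inf_le_left.trans hWV) inf_le_right) inf_le_left
  have hNW : normalizer (Q : Set G) ≤ normalizer (W : Set G) :=
    le_normalizer_commutator le_normalizer_of_normal le_rfl
  have hxQ' : x ∈ normalizer (Q : Set G) := hxQ (mem_zpowers x)
  have key : ∀ v ∈ W, ∃ w ∈ W, x * w = w * x ∧ v = ⁅w, r⁆ := by
    intro v hv
    obtain ⟨K, N, hK, hxN, hNK, hyK, hyN, hpow⟩ := h (v * r)
    set L := closure ({x, v * r} : Set G) with hL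
    have hxL : x ∈ L := subset_closure (by simp)
    have hyL : v * r ∈ L := subset_closure (by simp)
    have hLle : ∀ X : Subgroup G, x ∈ X → v * r ∈ X → L ≤ X := fun X h1 h2 => by
      rw [hL, closure_le]
      rintro _ (rfl | rfl)
      exacts [h1, h2]
    have hLW : L ≤ normalizer (W : Set G) :=
      hLle _ (hNW hxQ') (mul_mem (le_normalizer hv) (hNW (le_normalizer hrQ)))
    have hLK : L ≤ normalizer (K : Set G) := hLle _ (hNK hxN) hyK
    have hLN : L ≤ normalizer (N : Set G) := hLle _ (le_normalizer hxN) hyN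
    have h1 : Q ≤ W ⊔ L := by
      by_contra hn
      refine hr (hmin (Q ⊓ (W ⊔ L)) (lt_of_le_of_ne inf_le_left fun h => hn (h ▸ inf_le_right))
        (le_normalizer_inf hxQ ((zpowers_le.2 (mem_sup_right hxL)).trans le_normalizer)) ⟨hrQ, ?_⟩)
      have := mul_mem (mem_sup_left (inv_mem hv) : v⁻¹ ∈ W ⊔ L) (mem_sup_right hyL)
      rwa [inv_mul_cancel_left] at this
    have h2 : Q ≤ W ⊔ (N ⊓ L) := by
      rw [← hcomm]
      refine le_trans (commutator_mono le_rfl (zpowers_le.2 (mem_sup_right (mem_inf.2 ⟨hxN, hxL⟩))))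
        (commutator_le_right_of_le_normalizer (h1.trans (sup_le (le_sup_left.trans le_normalizer)
          (le_normalizer_sup hLW (le_normalizer_inf hLN le_normalizer)))))
    have h3 : ∀ s ∈ Q, ∃ k ∈ W, k * s ∈ K := by
      intro s hs
      have h4 : s ∈ W ⊔ (K ⊓ L) := by
        obtain ⟨w, hw, n, hn, rfl⟩ := (mem_sup_of_le_normalizer (inf_le_right.trans hLW)).1
          (h2 hs)
        obtain ⟨i, hi⟩ := hpow n hn.1
        refine mem_of_pow_mem_of_pow_mem (hQp.pow_right i) (by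
          rw [show (w * n) ^ Nat.card Q = 1 from
            congrArg Subtype.val (pow_card_eq_one' (x := (⟨_, hs⟩ : Q)))]
          exact one_mem _) ?_
        have := mul_mem (mem_sup_left (mul_pow_mul_inv_mem (hLW hn.2) hw (p ^ i)) : _ ∈ W ⊔ (K ⊓ L))
          (mem_sup_right ⟨hi, pow_mem hn.2 _⟩)
        rwa [inv_mul_cancel_right] at this
      obtain ⟨w, hw, k, hk, rfl⟩ := (mem_sup_of_le_normalizer (inf_le_right.trans hLW)).1 h4
      exact ⟨w⁻¹, inv_mem hw, by rw [inv_mul_cancel_left]; exact hk.1⟩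
    obtain ⟨w, hw, hwK⟩ := Coprime.exists_conj_le (le_normalizer.trans hNW)
      (hQV.coprime_dvd_right (card_dvd_of_le hWV)) (Or.inl (isSolvable_of_isPGroup hQ)) h3
    have h5 : ∀ u ∈ W, ∀ t ∈ normalizer (Q : Set G), u * t ∈ normalizer (K : Set G) →
        u * t * w = w * t := by
      intro u hu t ht hut
      have h6 : (w * t)⁻¹ * (u * t * w) ∈ W ⊓ centralizer (Q : Set G) := by
        refine mem_inf.2 ⟨?_, fun s hs => ?_⟩
        · have := mul_mem ((mem_normalizer_iff.1 (hNW (inv_mem ht)) _).1 (mul_mem (inv_mem hw) hu)) hw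
          convert this using 1
          group
        · have h7 := (mem_normalizer_iff.1 hut _).1 (hwK (Coprime.conj_mem_conj_smul w hs))
          have h8 := hwK (Coprime.conj_mem_conj_smul w ((mem_normalizer_iff.1 ht s).1 hs))
          have h9 : (u * t * (w * s * w⁻¹) * (u * t)⁻¹) * (w * (t * s * t⁻¹) * w⁻¹)⁻¹ ∈ K ⊓ V := by
            refine mem_inf.2 ⟨K.mul_mem h7 (K.inv_mem h8), ?_⟩
            rw [← QuotientGroup.eq_one_iff]
            have hu1 := (QuotientGroup.eq_one_iff u).2 (hWV hu)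
            have hw1 := (QuotientGroup.eq_one_iff w).2 (hWV hw)
            simp only [QuotientGroup.mk_mul, QuotientGroup.mk_inv, hu1, hw1]
            group
          rw [(disjoint_of_coprime_natCard (hm ▸ hK.pow_right m)).eq_bot, mem_bot, mul_inv_eq_one] at h9
          calc s * ((w * t)⁻¹ * (u * t * w)) =
                (w * t)⁻¹ * (w * (t * s * t⁻¹) * w⁻¹) * (u * t * w) := by group
            _ = (w * t)⁻¹ * (u * t * w) * s := by rw [← h9]; group
      rw [hWC, mem_bot, inv_mul_eq_one] at h6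
      exact h6.symm
    refine ⟨w, hw, by simpa using h5 1 (one_mem _) x hxQ' (by simpa using hNK hxN), ?_⟩
    rw [commutatorElement_def, ← h5 v hv r (le_normalizer hrQ) hyK]
    group
  have h6 : W ≤ centralizer (zpowers x : Set G) := by
    rw [HH.centralizer_zpowers_eq, ← inf_eq_left]
    refine eq_of_le_of_card_ge inf_le_left (Nat.card_le_card_of_surjective
      (fun w => ⟨⁅(w : G), r⁆, commutator_mem_commutator (hWV w.2.1) hrQ⟩) fun v => ?_)
    obtain ⟨w, hw, h1, h2⟩ := key v v.2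
    exact ⟨⟨w, hw, mem_centralizer_singleton_iff.2 h1.symm⟩, Subtype.ext h2.symm⟩
  have h7 : W ≤ centralizer (Q : Set G) := by
    rw [le_centralizer_iff, ← hcomm]
    exact Coprime.commutator_le_centralizer_of_le_centralizer (le_normalizer.trans hNW)
      (le_centralizer_iff.1 h6)
  have h8 : Q ≤ V := by
    refine le_trans ?_ hC
    rw [le_centralizer_iff, ← commutator_eq_bot_iff_le_centralizer, eq_bot_iff, ← hWC]
    exact le_inf le_rfl h7
  refine hr ?_
  rw [show r = 1 from mem_bot.1 ((disjoint_of_coprime_natCard hQV).eq_bot ▸ (⟨hrQ, h8 hrQ⟩ : r ∈ Q ⊓ V))]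
  exact one_mem _

theorem commutator_mem_pPrimeCore [Finite G] [hp : Fact p.Prime] (hG : IsPSolvable p G)
    {R : Subgroup G} {x : G} {j : ℕ} (hx : x ^ p ^ j = 1) (hR : (Nat.card R).Coprime p)
    (hxR : x ∈ normalizer (R : Set G)) (h : ∀ g, Nice p x g) {r : G} (hr : r ∈ R) :
    ⁅x, r⁆ ∈ pPrimeCore p G := by
  obtain ⟨G₁, _, _, f, hf, h1, h2, h3⟩ := exists_reduction_hom (isPConstrained_of_isPSolvable hG)
  have := ElemAb.isMulCommutative p (pCore p G₁)
  have h4 := le_centralizer_of_nice (pCore_isPGroup p G₁) h3 (x := f x) (j := j)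
    (by rw [← map_pow, hx, map_one]) (hR.coprime_dvd_left (Subgroup.card_map_dvd R f))
    (le_normalizer_map f ⟨x, hxR, rfl⟩) (fun g => by
      obtain ⟨g, rfl⟩ := hf g
      exact (h g).map f) ⟨r, hr, rfl⟩
  refine Block.mem_pPrimeCore_of_mem_pPrimePCore ?_ fun hd => ?_
  · rw [← h1, mem_comap, map_commutatorElement, commutatorElement_eq_one_iff_mul_comm.2
      (mem_centralizer_singleton_iff.1 h4).symm]
    exact one_mem _
  · exact hp.out.coprime_iff_not_dvd.1 hR.symm (hd.trans (R.orderOf_dvd_natCard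
      (mul_mem ((mem_normalizer_iff.1 hxR r).1 hr) (inv_mem hr))))

theorem mem_pPrimeCore_of_forall [Finite G] [hp : Fact p.Prime] (hG : IsPSolvable p G) {y : G}
    (h : ∀ g : G, ∃ K : Subgroup G, (Nat.card K).Coprime p ∧ y ∈ K ∧ g ∈ normalizer (K : Set G)) :
    y ∈ pPrimeCore p G := by
  let f := QuotientGroup.mk' (pPrimeCore p G)
  have key : ∀ (K : Subgroup G) (u : G), (Nat.card K).Coprime p → u ∈ K → f u ∈ pCore p _ →
      f u = 1 := fun K u hK hu h1 => by
    obtain ⟨m, hm⟩ := IsPGroup.iff_card.1 (pCore_isPGroup p (G ⧸ pPrimeCore p G))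
    exact mem_bot.1 ((disjoint_of_coprime_natCard
      (hm ▸ (hK.coprime_dvd_left (Subgroup.card_map_dvd K f)).pow_right m)).eq_bot ▸
        (⟨⟨u, hu, rfl⟩, h1⟩ : f u ∈ K.map f ⊓ pCore p _))
  obtain ⟨K, hK, hy, -⟩ := h 1
  refine (QuotientGroup.eq_one_iff y).1 (key K y hK hy
    ((hG.quotient _).centralizer_pCore_le (pPrimeCore_quotient_pPrimeCore p G) fun v hv => ?_))
  obtain ⟨v, rfl⟩ := QuotientGroup.mk'_surjective _ v
  obtain ⟨K, hK, hy, hv'⟩ := h v
  rw [← commutatorElement_eq_one_iff_mul_comm, ← map_commutatorElement]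
  refine key K _ hK (mul_mem ((mem_normalizer_iff.1 hv' y).1 hy) (inv_mem hy)) ?_
  rw [map_commutatorElement]
  exact commutator_le_left _ ⊤ (commutator_mem_commutator hv (mem_top _))

theorem eq_one_of_forall [Finite G] [IsSimpleGroup G] [hp : Fact p.Prime] (hdvd : p ∣ Nat.card G)
    (h3 : ∀ a b c : G, IsPSolvable p (closure ({a, b, c} : Set G))) {y : G}
    (h : ∀ g : G, ∃ K : Subgroup G, (Nat.card K).Coprime p ∧ y ∈ K ∧ g ∈ normalizer (K : Set G)) :
    y = 1 := by
  let Y : Subgroup G :=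
    { carrier := {y | ∀ g : G, ∃ K : Subgroup G, (Nat.card K).Coprime p ∧ y ∈ K ∧
        g ∈ normalizer (K : Set G)}
      one_mem' := fun g => ⟨⊥, by simp, one_mem _, le_normalizer_of_normal (K := ⊤) trivial⟩
      inv_mem' := fun h g => (h g).imp fun K hK => ⟨hK.1, inv_mem hK.2.1, hK.2.2⟩
      mul_mem' := fun {a b} ha hb g => by
        set H := closure ({a, b, g} : Set G)
        have key : ∀ y : H, (∀ g : G, ∃ K : Subgroup G, (Nat.card K).Coprime p ∧ (y : G) ∈ K ∧
            g ∈ normalizer (K : Set G)) → (y : G) ∈ (pPrimeCore p H).map H.subtype :=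
          fun y hy => ⟨y, mem_pPrimeCore_of_forall (h3 a b g) fun u => by
            obtain ⟨K, h1, h2, h3⟩ := hy u
            exact ⟨K.comap H.subtype, h1.coprime_dvd_left
              (card_comap_dvd_of_injective K _ H.subtype_injective), h2,
              le_normalizer_comap _ h3⟩, rfl⟩
        exact ⟨(pPrimeCore p H).map H.subtype,
          (coprime_card_pPrimeCore p H).coprime_dvd_left (Subgroup.card_map_dvd _ _),
          mul_mem (key ⟨a, subset_closure (by simp)⟩ ha) (key ⟨b, subset_closure (by simp)⟩ hb),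
          le_normalizer_map _ ⟨⟨g, subset_closure (by simp)⟩,
            le_normalizer_of_normal (K := ⊤) trivial, rfl⟩⟩ }
  have hY : Y.Normal := ⟨fun y hy t g => by
    obtain ⟨K, h1, h2, h3⟩ := hy (t⁻¹ * g * t)
    refine ⟨K.map (MulAut.conj t).toMonoidHom, h1.coprime_dvd_left (Subgroup.card_map_dvd _ _),
      ⟨y, h2, rfl⟩, le_normalizer_map _ ⟨_, h3, ?_⟩⟩
    simp [mul_assoc]⟩
  rcases hY.eq_bot_or_eq_top with h1 | h1
  · exact mem_bot.1 (h1 ▸ (h : y ∈ Y))
  · obtain ⟨z, hz⟩ := exists_prime_orderOf_dvd_card' p hdvd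
    obtain ⟨K, h2, h4, -⟩ := (h1 ▸ mem_top z : z ∈ Y) 1
    exact absurd (hz ▸ K.orderOf_dvd_natCard h4) (hp.out.coprime_iff_not_dvd.1 h2.symm)

theorem eq_one_of_nice [Finite G] [IsSimpleGroup G] (hna : ¬ IsMulCommutative G)
    [hp : Fact p.Prime] (hdvd : p ∣ Nat.card G)
    (h3 : ∀ a b c : G, IsPSolvable p (closure ({a, b, c} : Set G))) {x : G} {j : ℕ}
    (hx : x ^ p ^ j = 1) (h : ∀ g, Nice p x g) : x = 1 := by
  have h1 : ∀ R : Subgroup G, (Nat.card R).Coprime p → x ∈ normalizer (R : Set G) → ∀ r ∈ R,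
      ⁅x, r⁆ = 1 := by
    intro R hR hxR r hr
    refine eq_one_of_forall hdvd h3 fun g => ?_
    set H := closure ({x, r, g} : Set G)
    have hxH : x ∈ H := subset_closure (by simp)
    have hrH : r ∈ H := subset_closure (by simp)
    refine ⟨(pPrimeCore p H).map H.subtype,
      (coprime_card_pPrimeCore p H).coprime_dvd_left (Subgroup.card_map_dvd _ _),
      ⟨⁅(⟨x, hxH⟩ : H), (⟨r, hrH⟩ : H)⁆, commutator_mem_pPrimeCore (h3 x r g) (R := R.comap H.subtype) (j := j)
        (x := ⟨x, hxH⟩)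
        (Subtype.ext hx) (hR.coprime_dvd_left (card_comap_dvd_of_injective R _ H.subtype_injective))
        (le_normalizer_comap _ hxR) (fun u => Nice.comap H.subtype H.subtype_injective (h u)) hr,
        rfl⟩, le_normalizer_map _ ⟨⟨g, subset_closure (by simp)⟩,
          le_normalizer_of_normal (K := ⊤) trivial, rfl⟩⟩
  have h2 := Local.baer_suzuki_elem (p := p) x fun g => by
    obtain ⟨K, N, hK, hxN, hNK, hgK, hgN, hpow⟩ := h g
    have hxC : x ∈ centralizer (K : Set G) := fun r hr =>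
      (commutatorElement_eq_one_iff_mul_comm.1 (h1 K hK (hNK hxN) r hr)).symm
    set M := N ⊓ centralizer (K : Set G) with hM
    have hxM : x ∈ M := ⟨hxN, hxC⟩
    have hgM : g * x * g⁻¹ ∈ M := (mem_normalizer_iff.1 (le_normalizer_inf_centralizer
      (zpowers_le.2 hgN) (zpowers_le.2 hgK) (mem_zpowers g)) x).1 hxM
    have hnil : Group.IsNilpotent M := by
      have : IsPGroup p (M ⧸ center M) := fun u => by
        obtain ⟨u, rfl⟩ := QuotientGroup.mk_surjective u
        obtain ⟨i, hi⟩ := hpow u u.2.1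
        refine ⟨i, ?_⟩
        rw [← QuotientGroup.mk_pow, QuotientGroup.eq_one_iff, mem_center_iff]
        exact fun v => Subtype.ext (v.2.2 _ hi).symm
      exact Group.of_quotient_center_nilpotent this.isNilpotent
    obtain ⟨P⟩ : Nonempty (Sylow p M) := inferInstance
    have hP : (P : Subgroup M).Normal := inferInstance
    have hmem : ∀ u : M, (u : G) ^ p ^ j = 1 → (u : G) ∈ (P : Subgroup M).map M.subtype :=
      fun u hu => by
        obtain ⟨P', hP'⟩ := (PG.isPGroup_zpowers (p := p) (k := j) (x := u)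
          (Subtype.ext hu)).exists_le_sylow
        have := Sylow.unique_of_normal P hP
        exact ⟨u, Subsingleton.elim P' P ▸ hP' (mem_zpowers u), rfl⟩
    refine (P.isPGroup'.map M.subtype).to_le ?_
    rw [closure_le]
    rintro _ (rfl | rfl)
    · exact hmem ⟨_, hxM⟩ hx
    · exact hmem ⟨_, hgM⟩ (by simp only; rw [conj_pow, hx]; group)
  rcases (normalClosure_normal (s := {x})).eq_bot_or_eq_top with h4 | h4
  · exact mem_bot.1 (h4 ▸ subset_normalClosure (Set.mem_singleton x))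
  · rw [h4] at h2
    have h5 : IsPGroup p G := h2.of_equiv topEquiv
    have := h5.isNilpotent
    exact absurd (IsSimpleGroup.comm_iff_isSolvable.2 inferInstance) fun h6 => hna ⟨⟨h6⟩⟩

end

/-- Powell's Theorem: let G be a finite non-abelian simple group and p an odd prime dividing its order such that every proper subgroup of G is p-soluble. Then G can be generated by three elements. -/
theorem result {G : Type*} [Group G] [Finite G] [IsSimpleGroup G] (hna : ¬ IsMulCommutative G) {p : ℕ} [Fact p.Prime] (hp : p ≠ 2) (hdvd : p ∣ Nat.card G) (hprop : ∀ H : Subgroup G, H ≠ ⊤ → Cfsg.IsPSolvable p ↥H) : ∃ x y z : G, Subgroup.closure ({x, y, z} : Set G) = ⊤ := by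
  classical
  have hp' : p.Prime := Fact.out
  by_contra hne
  have h3 : ∀ a b c : G, IsPSolvable p (closure ({a, b, c} : Set G)) := fun a b c =>
    hprop _ fun h => hne ⟨a, b, c, h⟩
  have hex : ∃ e : ℕ, ∀ g : G, (∃ j : ℕ, g ^ p ^ j = 1) → g ^ p ^ e = 1 := by
    refine ⟨Nat.card G, fun g ⟨j, hj⟩ => ?_⟩
    obtain ⟨i, -, hi⟩ := (Nat.dvd_prime_pow hp').1 (orderOf_dvd_of_pow_eq_one hj)
    refine orderOf_dvd_iff_pow_eq_one.1 (hi ▸ pow_dvd_pow p ?_)
    exact ((Nat.lt_pow_self hp'.one_lt).le.trans hi.ge).trans orderOf_le_card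
  obtain ⟨k, hk⟩ : ∃ k, Nat.find hex = k + 1 := Nat.exists_eq_succ_of_ne_zero fun h0 => by
    obtain ⟨z, hz⟩ := exists_prime_orderOf_dvd_card' p hdvd
    have h1 := Nat.find_spec hex z ⟨1, by rw [pow_one, ← hz, pow_orderOf_eq_one]⟩
    rw [h0, pow_zero, pow_one] at h1
    rw [h1, orderOf_one] at hz
    exact hp'.one_lt.ne hz
  have he := hk ▸ Nat.find_spec hex
  have hexp : ∀ H : Subgroup G, HH.SylowExp p (k + 1) (H ⧸ pPrimeCore p H) := fun H =>
    HH.SylowExp.of_surjective (G := H) (fun P u hu => Subtype.ext (he u (by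
      obtain ⟨i, hi⟩ := PG.exists_pow_prime_pow_eq_one P.isPGroup' hu
      exact ⟨i, congrArg Subtype.val hi⟩))) _ (QuotientGroup.mk'_surjective _)
  by_cases hc : ∀ T : Subgroup G, IsPGroup p T → ∀ a ∈ T, ∀ b ∈ T, Commute (a ^ p ^ k) (b ^ p ^ k)
  · refine Nat.find_min hex (hk.symm ▸ k.lt_add_one) fun a ⟨j, hj⟩ => ?_
    refine eq_one_of_nice hna hdvd h3 (j := j) (by rw [← pow_mul, mul_comm, pow_mul, hj, one_pow])
      fun g => ?_
    set H := closure ({a, a, g} : Set G)
    have haH : a ∈ H := subset_closure (by simp)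
    obtain ⟨P, hP⟩ := (PG.isPGroup_zpowers (p := p) (k := j) (x := (⟨a, haH⟩ : H))
      (Subtype.ext hj)).exists_le_sylow
    refine (nice_of_mem (x := (⟨a, haH⟩ : H) ^ p ^ k) ?_ ⟨g, subset_closure (by simp)⟩).map H.subtype
    refine mem_comap.2 ?_
    rw [map_pow]
    refine pow_mem_pCore hp ((h3 a a g).quotient _) (pPrimeCore_quotient_pPrimeCore p H) (hexp H)
      (P.mapSurjective (QuotientGroup.mk'_surjective _)) ?_ ⟨_, hP (mem_zpowers _), rfl⟩
    rintro _ ⟨u, hu, rfl⟩ _ ⟨v, hv, rfl⟩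
    rw [← map_pow, ← map_pow]
    refine Commute.map (Subtype.ext ?_) _
    exact hc _ (P.isPGroup'.map H.subtype) u ⟨u, hu, rfl⟩ v ⟨v, hv, rfl⟩
  · push Not at hc
    obtain ⟨T, hT, a, ha, b, hb, hab⟩ := hc
    obtain ⟨j, hj⟩ := PG.exists_pow_prime_pow_eq_one hT
      (commutator_le_self _ (commutator_mem_commutator (pow_mem ha (p ^ k)) (pow_mem hb (p ^ k))))
    refine hab (commutatorElement_eq_one_iff_commute.1 (eq_one_of_nice hna hdvd h3 hj fun g => ?_))
    set H := closure ({a, b, g} : Set G)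
    have haH : a ∈ H := subset_closure (by simp)
    have hbH : b ∈ H := subset_closure (by simp)
    obtain ⟨P, hP⟩ := (hT.comap_subtype (K := H)).exists_le_sylow
    refine (nice_of_mem (x := ⁅(⟨a, haH⟩ : H) ^ p ^ k, (⟨b, hbH⟩ : H) ^ p ^ k⁆) ?_
      ⟨g, subset_closure (by simp)⟩).map H.subtype
    refine mem_comap.2 ?_
    rw [map_commutatorElement, map_pow, map_pow]
    exact commutator_pow_mem_pCore hp ((h3 a b g).quotient _) (pPrimeCore_quotient_pPrimeCore p H)
      (hexp H) (P.mapSurjective (QuotientGroup.mk'_surjective _)) ⟨_, hP ha, rfl⟩ ⟨_, hP hb, rfl⟩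

end Cfsg.Agent.S3792
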