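import Cfsg.Statements.S3794
import Cfsg.Agent.Solv.FitTools
import Cfsg.Agent.Solv.ActionTransport
import Cfsg.Agent.Solv.FixedPointFree
import Cfsg.Agent.Solv.ClassSize

set_option autoImplicit false
open Cfsg

namespace Cfsg.Agent.S3794

open Subgroup Cfsg.Lib.Solv Cfsg.Lib.Solv.FH
open scoped commutatorElement

theorem ambient {G : Type*} [Group G] [Finite G] {K : Subgroup G} [K.Normal]
    (hK : Group.IsSolvable K) {s : G} (hs : s ^ 4 = 1) (hfpf : K ⊓ centralizer {s} = ⊥)
    (hodd : (Nat.card K).Coprime 2) : ⁅K, K⁆ ≤ fittingOf K := by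
  have hsK : s ∈ normalizer (K : Set G) := le_normalizer_of_normal ⊤ K trivial
  have hR : (Nat.card (zpowers s)).Coprime (Nat.card K) := by
    rw [Nat.card_zpowers]
    exact (Nat.Coprime.pow_right 2 hodd).symm.coprime_dvd_left (orderOf_dvd_of_pow_eq_one hs)
  have hs4 : s * s * s * s = 1 := by rw [← hs]; simp [pow_succ]
  have hs3 : s⁻¹ = s * s * s := inv_eq_of_mul_eq_one_left hs4
  have hpow : ∀ r ∈ zpowers s, r = 1 ∨ r = s * s ∨ r * r = s * s := by
    intro r hr
    obtain ⟨n, rfl⟩ := mem_powers_iff_mem_zpowers.mpr hr
    have h4 : n % 4 < 4 := Nat.mod_lt _ (by norm_num)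
    simp only [pow_eq_pow_mod n hs]
    interval_cases n % 4
    · simp
    · simp
    · simp [sq]
    · refine Or.inr (Or.inr ?_)
      rw [← pow_add, show 3 + 3 = 4 + 2 from rfl, pow_add, hs, one_mul, sq]
  have hT := commutator_le_fittingOf (A := zpowers s) (T := zpowers (s * s)) hK hR
    (zpowers_le.mpr (mul_mem (mem_zpowers s) (mem_zpowers s))) fun q _ P hPK hP hPn => by
      have key : ∀ x ∈ P, s * s * x * (s * s)⁻¹ = x⁻¹ → x ∈ centralizer (opF q K : Set G) := by
        intro x hx hinv
        have h1 : (x * s) ^ 4 = 1 := by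
          rw [← orderOf_dvd_iff_pow_eq_one, Fpf.orderOf_mul_eq hsK hfpf (hPK hx),
            orderOf_dvd_iff_pow_eq_one, hs]
        have h2 : Commute x (s * x * s⁻¹) := by
          rw [← commutatorElement_eq_one_iff_commute, ← h1, commutatorElement_def]
          calc _ = x * (s * x * s⁻¹) * (s * s * x * (s * s)⁻¹) *
              (s * (s * s * x * (s * s)⁻¹) * s⁻¹) * (s * s * s * s) := by rw [hinv, hs4]; group
            _ = _ := by simp only [pow_succ]; group
        obtain ⟨L, hL⟩ : ∃ L, L = closure ({x, s * x * s⁻¹} : Set G) := ⟨_, rfl⟩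
        have hLP : L ≤ P := by
          rw [hL, closure_le]
          rintro _ (rfl | rfl)
          exacts [hx, conj_mem_of_mem_normalizer (hPn (mem_zpowers s)) hx]
        have hxL : x ∈ L := hL ▸ subset_closure (Or.inl rfl)
        have hyL : s * x * s⁻¹ ∈ L := hL ▸ subset_closure (Or.inr rfl)
        have hLc : IsMulCommutative L := by
          rw [hL]
          refine isMulCommutative_closure ?_
          rintro _ (rfl | rfl) _ (rfl | rfl)
          exacts [rfl, h2, h2.symm, rfl]
        have hLi : ∀ y ∈ L, s * s * y * (s * s)⁻¹ = y⁻¹ := by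
          intro y hy
          have hy' := hy
          rw [hL] at hy'
          induction hy' using closure_induction with
          | mem z hz =>
            rcases hz with rfl | rfl
            · exact hinv
            · calc _ = s * (s * s * x * (s * s)⁻¹) * s⁻¹ := by group
                _ = _ := by rw [hinv]; group
          | one => simp
          | mul a b ha hb iha ihb =>
            rw [← hL] at ha hb
            calc _ = (s * s * a * (s * s)⁻¹) * (s * s * b * (s * s)⁻¹) := by simp [mul_assoc]
              _ = _ := by rw [iha ha, ihb hb, ← mul_inv_rev, setLike_mul_comm ha hb]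
          | inv a ha iha =>
            rw [← hL] at ha
            rw [← congrArg (·⁻¹) (iha ha)]; simp [mul_assoc]
        have hsL : zpowers s ≤ normalizer (L : Set G) := by
          refine zpowers_le.mpr (mem_normalizer_of_conj_mem fun y hy => ?_)
          have : L ≤ L.comap (MulAut.conj s).toMonoidHom := by
            conv_lhs => rw [hL]
            rw [closure_le]
            rintro _ (rfl | rfl)
            · exact hyL
            · change s * (s * x * s⁻¹) * s⁻¹ ∈ L
              rw [show s * (s * x * s⁻¹) * s⁻¹ = x⁻¹ by rw [← hinv]; group]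
              exact inv_mem hxL
          exact this hy
        obtain ⟨k, hk⟩ := (hP.to_le hLP).exists_card_eq
        refine wielandt_mod_cent hsL (hR.coprime_dvd_right (card_dvd_of_le (hLP.trans hPK)))
          (fun r hr hr1 y hy => ?_) (haveI := opF_isNilpotent q K; IsNilpotent.to_isSolvable)
          (le_normalizer_of_normal _ _) (le_normalizer_of_normal _ _)
          (hk ▸ (coprime_card_opF q K).pow_right k)
          (hR.symm.coprime_dvd_left (card_dvd_of_le (opF_le q K))) ?_ hxL
        · have hc : Commute y r := mem_centralizer_singleton_iff.mp hy.2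
          have hc2 : Commute y (s * s) := by
            rcases hpow r hr with h | h | h
            exacts [absurd h hr1, h ▸ hc, h ▸ hc.mul_right hc]
          have h3 : y ^ 2 = 1 := by
            have := hLi y hy.1
            rw [← hc2.eq, mul_inv_cancel_right] at this
            rw [sq]; nth_rewrite 1 [this]; simp
          have h4 : orderOf y = 1 := Nat.eq_one_of_dvd_coprimes hodd
            (orderOf_dvd_natCard _ (hPK (hLP hy.1))) (orderOf_dvd_of_pow_eq_one h3)
          rw [orderOf_eq_one_iff.mp h4]
          exact one_mem _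
        · rw [zpowers_eq_closure, centralizer_closure]
          exact Fpf.mono_left hfpf (opF_le q K)
      rw [commutator_le]
      intro p hp u hu
      rcases hpow u (zpowers_le.mpr (mul_mem (mem_zpowers s) (mem_zpowers s)) hu) with
        rfl | rfl | h
      · simp
      · refine key _ ?_ ?_
        · rw [commutatorElement_def, mul_assoc, mul_assoc, ← mul_assoc (s * s)]
          exact mul_mem hp (conj_mem_of_mem_normalizer
            (hPn (mul_mem (mem_zpowers s) (mem_zpowers s))) (inv_mem hp))
        · have ht : (s * s)⁻¹ = s * s := inv_eq_of_mul_eq_one_left (by rw [← mul_assoc, hs4])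
          have ht' : s * s * (s * s) = 1 := by rw [← mul_assoc, hs4]
          rw [commutatorElement_inv, commutatorElement_def, commutatorElement_def, ht]
          generalize s * s = t at ht'
          simp [mul_assoc, ht']
      · obtain ⟨n, rfl⟩ := hu
        have : s * s = 1 := by
          rw [← h, ← (Commute.refl (s * s)).mul_zpow, ← mul_assoc, hs4, one_zpow]
        simp [this]
  have hc := Fpf.isMulCommutative_of_inverted (K := K.map (QuotientGroup.mk' (fittingOf K)))
    (s := QuotientGroup.mk' _ s) (by
      rintro _ ⟨k, hk, rfl⟩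
      obtain ⟨y, hy, h⟩ := Fpf.exists_conj_eq_mul hsK hfpf hk
      have h1 : (QuotientGroup.mk' (fittingOf K)) ⁅y, s * s⁆ = 1 :=
        (QuotientGroup.eq_one_iff _).mpr (hT (commutator_mem_commutator hy (mem_zpowers _)))
      rw [show k = y * s * y⁻¹ * s⁻¹ by rw [h]; simp]
      rw [map_commutatorElement, commutatorElement_eq_one_iff_mul_comm] at h1
      simp only [map_mul, map_inv] at h1 ⊢
      generalize QuotientGroup.mk' (fittingOf K) y = a at h1
      generalize QuotientGroup.mk' (fittingOf K) s = b at h1
      calc _ = b * a * b⁻¹ * a⁻¹ * (a * (b * b) * a⁻¹ * (b * b)⁻¹) := by group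
        _ = _ := by rw [h1]; group)
  rw [commutator_le]
  intro a ha b hb
  rw [← QuotientGroup.eq_one_iff, ← QuotientGroup.mk'_apply, map_commutatorElement,
    commutatorElement_eq_one_iff_mul_comm]
  exact setLike_mul_comm (mem_map_of_mem _ ha) (mem_map_of_mem _ hb)


/-- Let G be a finite solvable group with an automorphism σ satisfying σ⁴ = 1 and fixing only the identity. Then the derived subgroup G' is nilpotent. -/
theorem result {G : Type*} [Group G] [Finite G] (hG : Group.IsSolvable G) (σ : MulAut G) (hσ : σ ^ 4 = 1) (hfpf : ∀ g : G, σ g = g → g = 1) : Group.IsNilpotent (commutator G) := by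
  have hP : IsPGroup 2 (zpowers σ) := ClassSize.isPGroup_zpowers_of_pow_eq_one (k := 2) hσ
  have h1 := hP.card_modEq_card_fixedPoints G
  have h2 : Nat.card (MulAction.fixedPoints (zpowers σ) G) = 1 :=
    Nat.card_eq_one_iff_exists.2 ⟨⟨1, fun b => map_one b.1⟩,
      fun y => Subtype.ext (hfpf y (y.2 ⟨σ, mem_zpowers σ⟩))⟩
  rw [h2] at h1
  have h3 := ambient (K := Act.L (zpowers σ).subtype ⊤)
    (s := SemidirectProduct.inr ⟨σ, mem_zpowers σ⟩) (Act.isSolvable_L.mpr inferInstance)
    (by rw [← map_pow, ← map_one SemidirectProduct.inr]; exact congrArg _ (Subtype.ext hσ))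
    (by
      rw [Act.L_inf_centralizer_inr, Act.L_eq_bot_iff, eq_bot_iff]
      exact fun x hx => hfpf x (Act.mem_fix_zpowers.mp hx.2))
    (by
      rw [Act.card_L_top, Nat.coprime_two_right, Nat.odd_iff]
      exact h1)
  rw [Act.commutator_L_L] at h3
  exact Act.isNilpotent_L.mp (isNilpotent_of_le h3 inferInstance)

end Cfsg.Agent.S3794
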