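import Cfsg.Statements.S3796
import Cfsg.Agent.Solv.FitWard

set_option autoImplicit false
open Cfsg

namespace Cfsg.Agent.S3796

/-- Ward's Theorem: let G be a finite solvable group and A an elementary abelian group of automorphisms of G of order p² (p a prime) with no non-identity common fixed point. Then G has Fitting height at most 2: G has Fitting height at most m when there is a chain of normal subgroups 1 = F₀ ≤ F₁ ≤ ⋯ ≤ F_m = G with each F_{i+1}/F_i nilpotent. -/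
theorem result {G : Type*} [Group G] [Finite G] (hG : Group.IsSolvable G) {p : ℕ} (hp : p.Prime) (A : Subgroup (MulAut G)) (hA : Cfsg.IsElementaryAbelian p A) (hcard : Nat.card A = p ^ 2) (hfpf : ∀ g : G, (∀ a ∈ A, a g = g) → g = 1) : ∃ F : Fin (2 + 1) → Subgroup G, F 0 = ⊥ ∧ F (Fin.last 2) = ⊤ ∧ Monotone F ∧ (∀ i, (F i).Normal) ∧ ∀ i : Fin 2, ∃ k : ℕ, (F i.succ).lowerCentralSeries k ≤ F i.castSucc := by
  have := Fact.mk hp
  have hP : IsPGroup p A := IsPGroup.of_card hcard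
  refine Cfsg.Lib.Solv.FH.hasFitLen_iff.2 (Cfsg.Lib.Solv.FH.iter_two_eq_bot_of_action hG A.subtype
    hp hp (by rw [hcard, pow_two]) (fun hc => ?_) ?_ fun g hg => hfpf g fun a ha => hg ⟨a, ha⟩)
  · have h1 := IsCyclic.exponent_eq_card (α := A)
    have h2 : Monoid.exponent A ∣ p := Monoid.exponent_dvd_of_forall_pow_eq_one fun a =>
      Subtype.ext (hA.2 a a.2)
    rw [h1, hcard] at h2
    have := Nat.le_of_dvd hp.pos h2
    have := hp.one_lt
    nlinarith
  · rw [hcard]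
    refine Nat.Coprime.pow_left _ ((Nat.Prime.coprime_iff_not_dvd hp).2 fun hd => ?_)
    refine Cfsg.Lib.Solv.inf_centralizer_ne_bot_of_dvd_card (Q := Cfsg.Lib.Solv.Act.R A.subtype ⊤)
      (L := Cfsg.Lib.Solv.Act.L A.subtype ⊤) (Cfsg.Lib.Solv.Act.isPGroup_R.2 (hP.to_subgroup ⊤))
      (Cfsg.Lib.Solv.Act.R_le_normalizer_L_top _) (by rwa [Cfsg.Lib.Solv.Act.card_L_top]) ?_
    rw [Cfsg.Lib.Solv.Act.L_top_inf_centralizer_R, Cfsg.Lib.Solv.Act.L_eq_bot_iff, eq_bot_iff]
    exact fun x hx => Subgroup.mem_bot.2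
      (hfpf x fun a ha => Cfsg.Lib.Solv.Act.mem_fix_top.1 hx ⟨a, ha⟩)

end Cfsg.Agent.S3796
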