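import Cfsg.Statements.S3798
import Cfsg.Agent.Solv.TransOrderP
import Cfsg.Agent.S1443

set_option autoImplicit false
open Cfsg

namespace Cfsg.Agent.S3798

/-- The Gaschütz–Yen Theorem: let G be a finite p-soluble group, p an odd prime dividing its order, such that the automorphism group of G permutes the subgroups of G of order p transitively. Then G has p-length at most 1. -/
theorem result {G : Type*} [Group G] [Finite G] {p : ℕ} [Fact p.Prime] (hp : p ≠ 2) (hdvd : p ∣ Nat.card G) (hG : Cfsg.IsPSolvable p G) (htrans : ∀ U V : Subgroup G, Nat.card U = p → Nat.card V = p → ∃ a : MulAut G, U.map a.toMonoidHom = V) : Cfsg.PLengthLE p 1 G := by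
  open Subgroup Cfsg.Lib.Solv in
  have h0 : OrderPInsep p G := fun K hK x hx hxp y hyp => by
    obtain ⟨a, ha⟩ := htrans (zpowers x) (zpowers y) (by rwa [Nat.card_zpowers])
      (by rwa [Nat.card_zpowers])
    obtain ⟨z, hz, rfl⟩ : y ∈ (zpowers x).map a.toMonoidHom := ha ▸ mem_zpowers y
    exact characteristic_iff_le_comap.1 hK a (zpowers_le.2 hx hz)
  open Subgroup Cfsg.Lib.Solv in
  have hC := (hG.quotient (pPrimeCore p G)).centralizer_pCore_le (pPrimeCore_quotient_pPrimeCore p G)
  open Subgroup Cfsg.Lib.Solv in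
  obtain ⟨Q, h1, h2, h3⟩ := exists_complement_pCore_frattini (G ⧸ pPrimeCore p G) p
  open Subgroup Cfsg.Lib.Solv in
  refine pLengthLE_one_of_index_coprime ((h0.quotient.index_coprime_or hC h1 h2 h3).elim id
    fun h => ?_)
  open Subgroup Cfsg.Lib.Solv in
  have h4 : Q = ⊥ := by
    have h5 := (Cfsg.Agent.S1443.centralizes_of_centralizes_order_p p hp _ Q (pCore_isPGroup p _)
      le_normalizer_of_normal h1 fun x _ hx q hq =>
        mem_centralizer_singleton_iff.2 (h x hx q hq)).trans hC
    rw [← inf_eq_right.2 h5]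
    exact inf_eq_bot_of_isPGroup_of_coprime (pCore_isPGroup p _) h1
  open Subgroup Cfsg.Lib.Solv in
  rw [h4, Subgroup.map_bot] at h2
  open Subgroup Cfsg.Lib.Solv in
  have h5 := (((hG.quotient (pPrimeCore p G)).quotient (pCore p _)).subgroup ⊤).eq_bot_of_cores
    (pCore_quotient_pCore p _) h2.symm
  open Subgroup Cfsg.Lib.Solv in
  rw [index, ← card_top, h5, card_bot]
  exact Nat.coprime_one_left p

end Cfsg.Agent.S3798
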