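import Cfsg.Statements.S3799
import Cfsg.Agent.Solv.Heisenberg

set_option autoImplicit false
open Cfsg

namespace Cfsg.Agent.S3799

open Cfsg.Lib.Solv Cfsg.Lib.Solv.PG Subgroup

/-- For every odd prime p and every n ≥ 1 there is an extraspecial p-group of order p^(1+2n) and exponent p; concretely, the general linear group of degree n + 2 over the field with p elements contains such a subgroup. -/
theorem result (p : ℕ) [Fact p.Prime] (hp : p ≠ 2) (n : ℕ) (hn : 1 ≤ n) : ∃ E : Subgroup (Matrix.GeneralLinearGroup (Fin (n + 2)) (ZMod p)), Cfsg.IsExtraspecial p ↥E ∧ Nat.card E = p ^ (1 + 2 * n) ∧ ∀ x ∈ E, x ^ p = 1 := by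
  have : Nonempty (Fin n) := ⟨⟨0, hn⟩⟩
  let e : Option (Option (Fin n)) ≃ Fin (n + 2) := Fintype.equivFinOfCardEq (by simp)
  let f : Heis (Fin n) (ZMod p) →* Matrix.GeneralLinearGroup (Fin (n + 2)) (ZMod p) :=
    ((Matrix.reindexAlgEquiv (ZMod p) (ZMod p) e).toMulEquiv.toMonoidHom.comp Heis.matHom).toHomUnits
  have hf : Function.Injective f := fun x y h => Heis.matHom_injective
    ((Matrix.reindexAlgEquiv (ZMod p) (ZMod p) e).injective (congrArg Units.val h))
  refine ⟨f.range, isExtraspecial_of_mulEquiv (MonoidHom.ofInjective hf) (Heis.isExtraspecial p),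
    ?_, ?_⟩
  · rw [← Nat.card_congr (MonoidHom.ofInjective hf).toEquiv, Heis.card_eq, Nat.card_zmod,
      Fintype.card_fin]
  · rintro _ ⟨x, rfl⟩
    rw [← map_pow, Heis.pow_prime_eq_one hp, map_one]

end Cfsg.Agent.S3799
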