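import Cfsg.Statements.S3950
import Cfsg.Agent.S3959
import Mathlib.Data.ZMod.QuotientRing

set_option autoImplicit false
open Cfsg

namespace Cfsg.Agent.S3950

open Cfsg.Lib.Solv
open scoped commutatorElement

/-- A finite abelian group has trivial Schur multiplier if and only if it is cyclic. -/
theorem result {G : Type*} [CommGroup G] [Finite G] : Cfsg.HasCyclicSchurMultiplier G 1 ↔ IsCyclic G := by
  classical
  refine ⟨fun h => ?_, fun _ => hasCyclicSchurMultiplier_one_of_isCyclic G⟩
  obtain ⟨ι, _, n, hn, ⟨e⟩⟩ := CommGroup.equiv_prod_multiplicative_zmod_of_finite G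
  by_cases hc : Pairwise (Function.onFun Nat.Coprime n)
  · have e2 := (ZMod.prodEquivPi n hc).toAddEquiv.toMultiplicative.trans
      (MulEquiv.piMultiplicative _)
    exact isCyclic_of_surjective (e2.trans e.symm) (e2.trans e.symm).surjective
  exfalso
  simp only [Pairwise, not_forall] at hc
  obtain ⟨i, j, hij, hc⟩ := hc
  set d := Nat.gcd (n i) (n j) with hd
  have hd1 : Fact (1 < d) := ⟨by
    have := Nat.gcd_pos_of_pos_left (n j) (zero_lt_one.trans (hn i))
    have h2 : d ≠ 1 := hc
    omega⟩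
  let β : G →* G →* Multiplicative (ZMod d) :=
    MonoidHom.mk' (fun x => MonoidHom.mk' (fun y => Multiplicative.ofAdd
      (ZMod.castHom (Nat.gcd_dvd_left _ _) (ZMod d) (e x i).toAdd *
        ZMod.castHom (Nat.gcd_dvd_right _ _) (ZMod d) (e y j).toAdd))
      (by intro a b; simp only [map_mul, Pi.mul_apply, toAdd_mul, map_add, mul_add, ofAdd_add]))
      (by
        intro a b; ext1 y
        simp only [map_mul, Pi.mul_apply, toAdd_mul, map_add, add_mul, ofAdd_add,
          MonoidHom.mk'_apply, MonoidHom.mul_apply])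
  let D : Subgroup (S3959.Tw β) :=
    { carrier := {x | x.a = x.b}
      mul_mem' := fun {x y} (hx : x.a = x.b) (hy : y.a = y.b) =>
        show x.a * y.a = x.b * y.b by rw [hx, hy]
      one_mem' := rfl
      inv_mem' := fun {x} (hx : x.a = x.b) => show x.a⁻¹ = x.b⁻¹ by rw [hx] }
  let σ : D →* G := MonoidHom.mk' (fun x => x.1.a) (fun _ _ => rfl)
  have h3 := ker_inf_commutator_eq_bot_of_trivial h σ (fun g => ⟨⟨⟨g, g, 1⟩, rfl⟩, rfl⟩) (by
    intro x hx
    have ha : x.1.a = 1 := hx
    have hb : x.1.b = 1 := (show x.1.a = x.1.b from x.2) ▸ ha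
    rw [Subgroup.mem_center_iff]
    intro y
    apply Subtype.ext
    refine S3959.Tw.ext (mul_comm _ _) (mul_comm _ _) ?_
    simp only [Subgroup.coe_mul, S3959.Tw.mul_t, ha, hb, map_one, MonoidHom.one_apply, mul_one]
    exact mul_comm _ _)
  let x : G := e.symm (Pi.mulSingle i (Multiplicative.ofAdd 1))
  let y : G := e.symm (Pi.mulSingle j (Multiplicative.ofAdd 1))
  let x' : D := ⟨⟨x, x, 1⟩, rfl⟩
  let y' : D := ⟨⟨y, y, 1⟩, rfl⟩
  have h4 : ⁅x', y'⁆ ∈ σ.ker ⊓ commutator D := Subgroup.mem_inf.2 ⟨by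
    rw [MonoidHom.mem_ker, map_commutatorElement,
      commutatorElement_eq_one_iff_mul_comm]
    exact mul_comm _ _, Subgroup.commutator_mem_commutator trivial trivial⟩
  rw [h3, Subgroup.mem_bot, commutatorElement_eq_one_iff_mul_comm] at h4
  have h5 : (1 : Multiplicative (ZMod d)) * 1 * β y x = 1 * 1 * β x y :=
    congrArg (fun z : D => z.1.t) h4
  simp only [β, x, y, Pi.mulSingle_eq_of_ne hij, MonoidHom.mk'_apply, MulEquiv.apply_symm_apply,
    Pi.mulSingle_eq_same, toAdd_ofAdd, map_one, toAdd_one, map_zero, zero_mul, one_mul] at h5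
  exact zero_ne_one (Multiplicative.ofAdd.injective h5)

end Cfsg.Agent.S3950
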