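import Cfsg.Statements.S3951
import Cfsg.Agent.S3959

set_option autoImplicit false
open Cfsg

namespace Cfsg.Agent.S3951

open Cfsg.Lib.Solv

/-- For positive integers `m` and `n` with `n` dividing `m`, the Schur multiplier of the abelian group `ZMod m × ZMod n` (written multiplicatively) is cyclic of order `n`. In particular the elementary abelian group of order `p ^ 2` has multiplier of order `p`. -/
theorem result (m n : ℕ) [NeZero m] [NeZero n] (hnm : n ∣ m) : Cfsg.HasCyclicSchurMultiplier (Multiplicative (ZMod m × ZMod n)) n := by
  have h1 := hasCyclicSchurMultiplier_one_of_isCyclic (Multiplicative (ZMod m))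
  have h2 := hasCyclicSchurMultiplier_one_of_isCyclic (Multiplicative (ZMod n))
  have h := S3959.result h1 h2
  let b : Multiplicative (ZMod m) →* Multiplicative (ZMod n) →* Multiplicative (ZMod n) :=
    MonoidHom.mk' (fun x => MonoidHom.mk' (fun y => Multiplicative.ofAdd
      (ZMod.castHom hnm (ZMod n) x.toAdd * y.toAdd)) (by intro a b; simp [mul_add])) (by
        intro a b; refine MonoidHom.ext fun y => ?_
        simp only [toAdd_mul, map_add, add_mul, ofAdd_add, MonoidHom.mk'_apply,
          MonoidHom.mul_apply]
        rfl)
  obtain ⟨f, hf⟩ := S3959.exists_tens_lift b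
  let g := S3959.tensHom (Multiplicative (ZMod m)) (Multiplicative (ZMod n))
    (Multiplicative.ofAdd 1)
  have hg : Function.Bijective g := by
    constructor
    · refine Function.LeftInverse.injective (g := f) fun y => ?_
      rw [hf]
      simp only [b, MonoidHom.mk'_apply, toAdd_ofAdd, map_one, one_mul, ofAdd_toAdd]
    · intro t
      induction t using S3959.tens_induction with
      | one => exact ⟨1, map_one _⟩
      | mul s t hs ht =>
        obtain ⟨x, rfl⟩ := hs
        obtain ⟨y, rfl⟩ := ht
        exact ⟨x * y, map_mul _ _ _⟩
      | base x y =>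
        refine ⟨y ^ x.toAdd.val, ?_⟩
        rw [map_pow, ← MonoidHom.pow_apply, ← map_pow, ← ofAdd_nsmul]
        simp
  have : Unique (Multiplicative (ZMod 1)) := inferInstanceAs (Unique (Fin 1))
  refine hasSchurMultiplier_congr_right (hasSchurMultiplier_congr_left h
    (MulEquiv.prodMultiplicative _ _).symm) ?_
  exact MulEquiv.uniqueProd.trans (MulEquiv.uniqueProd.trans (MulEquiv.ofBijective g hg).symm)

end Cfsg.Agent.S3951
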