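import Cfsg.Statements.S3952
import Cfsg.Agent.Solv.Schur2
import Cfsg.Agent.Char.Kernel
import Cfsg.Agent.Char.CharCenter
import Cfsg.Agent.Char.Det

set_option autoImplicit false
open Cfsg

namespace Cfsg.Agent.S3952

open Cfsg.Lib in
theorem key {S : Type*} [Group S] [Finite S] (Z : Subgroup S) (hZ : Z ≤ Subgroup.center S) {p e : ℕ}
    [hp : Fact p.Prime] {z : S} (hz : z ∈ Z) (hc : z ∈ commutator S) (ho : orderOf z = p ^ e) :
    (p ^ e) ^ 2 ≤ Z.index := by
  cases e with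
  | zero => exact (by simp : (p ^ 0) ^ 2 = 1) ▸ Nat.pos_of_ne_zero Z.index_ne_zero_of_finite
  | succ e =>
  have h1 : z ^ p ^ e ≠ 1 := by
    intro h
    have := orderOf_dvd_of_pow_eq_one h
    rw [ho, Nat.pow_dvd_pow_iff_le_right hp.out.one_lt] at this
    omega
  obtain ⟨χ, hχ, hne⟩ := Char.exists_irr_apply_ne h1
  obtain ⟨lam, hl1, hl2, -⟩ := hχ.exists_monoidHom_of_le_center hZ
  obtain ⟨d, hd0, hd⟩ := hχ.exists_nat_degree_pos
  have hdet := Char.detChar_of_forall_mul_eq hχ.isCharacter hd (hl2 ⟨z, hz⟩)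
  have hdet1 : Char.detHom χ z = 1 := Abelianization.commutator_subset_ker _ hc
  have hpow : lam ⟨z, hz⟩ ^ d = 1 := by
    apply Units.ext
    rw [Units.val_pow_eq_pow_val, ← hdet, ← Char.coe_detHom]
    exact congrArg Units.val hdet1
  have hord : orderOf (lam ⟨z, hz⟩) = p ^ (e + 1) := by
    apply orderOf_eq_prime_pow
    · intro h
      apply hne
      have := hl1 (⟨z, hz⟩ ^ p ^ e)
      rw [map_pow, h] at this
      simpa using this
    · rw [← map_pow, ← ho]
      have : (⟨z, hz⟩ : Z) ^ orderOf z = 1 := Subtype.ext (by simp)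
      rw [this, map_one]
  have hdvd : p ^ (e + 1) ∣ d := hord ▸ orderOf_dvd_of_pow_eq_one hpow
  have := hχ.nat_degree_sq_le_index (hZ.trans hχ.center_le_charCenter) hd
  exact le_trans (Nat.pow_le_pow_left (Nat.le_of_dvd hd0 hdvd) 2) this

open Cfsg.Lib in
theorem key2 {Γ Q : Type*} [Group Γ] [Finite Γ] [Group Q] [Finite Q] (σ : Γ →* Q) (hσ : IsStemExtension σ)
    {p e : ℕ} [hp : Fact p.Prime] {z : Γ} (hz : z ∈ σ.ker) (ho : orderOf z = p ^ e) :
    (p ^ e) ^ 2 ∣ Nat.card Q := by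
  have hP : IsPGroup p (Subgroup.zpowers z) := IsPGroup.of_card (n := e) (by rw [Nat.card_zpowers, ho])
  obtain ⟨S, hS⟩ := hP.exists_le_sylow
  have hzS : z ∈ (S : Subgroup Γ) := hS (Subgroup.mem_zpowers z)
  have h1 := Solv.pow_index_mem_commutator_of_central (S : Subgroup Γ) (hσ.2.1 hz) (hσ.2.2 hz)
  have hco : ((S : Subgroup Γ).index).Coprime (orderOf z) := by
    rw [ho]
    exact ((Nat.Prime.coprime_iff_not_dvd hp.out).2 S.not_dvd_index).symm.pow_right e
  have h2 : z ∈ ⁅(S : Subgroup Γ), (S : Subgroup Γ)⁆ := by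
    obtain ⟨m, hm⟩ := exists_pow_eq_self_of_coprime hco
    rw [← hm]
    exact Subgroup.pow_mem _ h1 m
  have h3 : (⟨z, hzS⟩ : (S : Subgroup Γ)) ∈ commutator (S : Subgroup Γ) := by
    rw [← Subgroup.map_subtype_commutator] at h2
    obtain ⟨y, hy, hyz⟩ := h2
    have : y = ⟨z, hzS⟩ := Subtype.ext hyz
    exact this ▸ hy
  have hZ := Solv.ker_comp_subtype_le_center σ hσ.2.1 (S : Subgroup Γ)
  have h4 := key (p := p) (e := e) _ hZ (z := ⟨z, hzS⟩) hz h3 (by rw [Subgroup.orderOf_mk, ho])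
  obtain ⟨k, hk⟩ := S.isPGroup'.index (σ.comp (S : Subgroup Γ).subtype).ker
  have h5 : (σ.comp (S : Subgroup Γ).subtype).ker.index ∣ Nat.card Q := by
    rw [Subgroup.index_ker]
    exact Subgroup.card_subgroup_dvd_card _
  rw [hk, ← pow_mul, Nat.pow_le_pow_iff_right hp.out.one_lt] at h4
  rw [← pow_mul]
  exact (pow_dvd_pow p h4).trans (hk ▸ h5)


/-- If `A` is the Schur multiplier of the finite group `Q`, then the square of the exponent of `A` divides the order of `Q`. -/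
theorem result {Q : Type*} [Group Q] [Finite Q] {A : Type*} [CommGroup A] (hA : Cfsg.HasSchurMultiplier Q A) : Monoid.exponent A ^ 2 ∣ Nat.card Q := by
  obtain ⟨⟨Γ, _, _, σ, hσ, ⟨e⟩⟩, -⟩ := hA
  have : Finite A := Finite.of_equiv _ e.toEquiv
  have h0 : Monoid.exponent A ≠ 0 := Monoid.exponent_ne_zero_of_finite
  rw [← Nat.factorization_prime_le_iff_dvd (pow_ne_zero _ h0) Nat.card_pos.ne']
  intro p hp
  have : Fact p.Prime := ⟨hp⟩
  obtain ⟨a, ha⟩ := hp.exists_orderOf_eq_pow_factorization_exponent A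
  have h := key2 σ hσ (p := p) (e.symm a).2
    (by rw [Subgroup.orderOf_coe, MulEquiv.orderOf_eq, ha])
  rw [← pow_mul, hp.pow_dvd_iff_le_factorization Nat.card_pos.ne'] at h
  rw [Nat.factorization_pow]
  simpa [mul_comm] using h

end Cfsg.Agent.S3952
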