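import Cfsg.Statements.S3953
import Cfsg.Agent.Solv.Schur3

set_option autoImplicit false
open Cfsg

namespace Cfsg.Agent.S3953

/-- Let `P` be a Sylow `p`-subgroup of the finite group `G`, let `A` be the Schur multiplier of `G` and `B` that of `P`. Then the `p`-primary component of `A` is isomorphic to a direct factor of `B`: there are subgroups `C` and `D` of `B` meeting trivially and generating `B`, with `C` isomorphic to the `p`-primary component of `A`. -/
theorem result {G : Type*} [Group G] [Finite G] (p : ℕ) [Fact p.Prime] (P : Sylow p G) {A B : Type*} [CommGroup A] [CommGroup B] (hA : Cfsg.HasSchurMultiplier G A) (hB : Cfsg.HasSchurMultiplier P B) : ∃ C D : Subgroup B, C ⊓ D = ⊥ ∧ C ⊔ D = ⊤ ∧ Nonempty (CommGroup.primaryComponent A p ≃* C) := by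
  obtain ⟨ι, ρ, h⟩ := Lib.Solv.exists_multiplier_transfer (P : Subgroup G) hA hB
  have := Lib.Solv.finite_of_hasSchurMultiplier hA
  obtain ⟨k, hk⟩ := P.isPGroup'.exists_card_eq
  have hBp : ∀ b : B, b ^ p ^ k = 1 := fun b => by
    rw [← hk]; exact Lib.Solv.pow_card_eq_one_of_hasSchurMultiplier hB b
  have hco : ((P : Subgroup G).index).Coprime p :=
    ((Nat.Prime.coprime_iff_not_dvd Fact.out).2 P.not_dvd_index).symm
  have hinj : ∀ a : CommGroup.primaryComponent A p, a ^ (P : Subgroup G).index = 1 → a = 1 := by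
    intro a ha
    obtain ⟨n, hn⟩ := CommGroup.primaryComponent.isPGroup (G := A) (p := p) a
    have h1 := orderOf_dvd_of_pow_eq_one ha
    have h2 := orderOf_dvd_of_pow_eq_one hn
    exact orderOf_eq_one_iff.1 (Nat.eq_one_of_dvd_coprimes (hco.pow_right n) h1 h2)
  let ι' : CommGroup.primaryComponent A p →* B := ι.comp (Subgroup.subtype _)
  have hι' : ∀ a, ρ (ι' a) = 1 → a = 1 := fun a ha => hinj a (Subtype.ext ((h a).symm.trans ha))
  refine ⟨ι'.range, ρ.ker, ?_, ?_, ⟨MonoidHom.ofInjective ?_⟩⟩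
  · rw [eq_bot_iff]
    rintro _ ⟨⟨a, rfl⟩, ha⟩
    rw [hι' a ha, map_one]; exact Subgroup.one_mem _
  · rw [eq_top_iff]
    intro b _
    have hb : ρ b ∈ CommGroup.primaryComponent A p := by
      exact ⟨k, by rw [← map_pow, hBp, map_one]⟩
    have hsurj : Function.Surjective (powMonoidHom (P : Subgroup G).index :
        CommGroup.primaryComponent A p →* _) :=
      Finite.surjective_of_injective ((injective_iff_map_eq_one _).2 hinj)
    obtain ⟨a, ha⟩ := hsurj ⟨ρ b, hb⟩
    have h1 : ρ (ι' a) = ρ b := (h a).trans (congrArg Subtype.val ha)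
    have h2 : b = ι' a * ((ι' a)⁻¹ * b) := by group
    rw [h2]
    refine Subgroup.mul_mem_sup ⟨a, rfl⟩ ?_
    rw [MonoidHom.mem_ker, map_mul, map_inv, h1, inv_mul_cancel]
  · exact (injective_iff_map_eq_one _).2 fun a ha => hι' a (by rw [ha, map_one])

end Cfsg.Agent.S3953
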