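import Cfsg.Statements.S3954
import Cfsg.Agent.Solv.Schur2

set_option autoImplicit false
open Cfsg

namespace Cfsg.Agent.S3954

open Cfsg.Lib.Solv

/-- Let `U` be a subgroup of index `m` in the finite group `G`, let `A` be the Schur multiplier of `G` and `B` that of `U`. Then the subgroup of `m`-th powers of `A` is isomorphic to a subgroup of `B`. -/
theorem result {G : Type*} [Group G] [Finite G] (U : Subgroup G) {A B : Type*} [CommGroup A] [CommGroup B] (hA : Cfsg.HasSchurMultiplier G A) (hB : Cfsg.HasSchurMultiplier U B) : ∃ C : Subgroup B, Nonempty ((powMonoidHom U.index : A →* A).range ≃* C) := by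
  have := finite_of_hasSchurMultiplier hB
  obtain ⟨⟨Γ, _, _, σ, hσ, ⟨e⟩⟩, -⟩ := hA
  obtain ⟨ρ, hρ⟩ := exists_surjective_comap σ hσ.1 hσ.2.1 U hB
  have := isMulCommutative_of_le_center
    (inf_le_left.trans hσ.2.1 : σ.ker ⊓ ⁅U.comap σ, U.comap σ⁆ ≤ _)
  let _ : CommGroup (σ.ker ⊓ ⁅U.comap σ, U.comap σ⁆ : Subgroup Γ) :=
    { (inferInstance : Group (σ.ker ⊓ ⁅U.comap σ, U.comap σ⁆ : Subgroup Γ)) with
      mul_comm := mul_comm' }
  obtain ⟨ι, hι⟩ := exists_injective_of_surjective_commGroup ρ hρ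
  let j : (powMonoidHom U.index : A →* A).range →* (σ.ker ⊓ ⁅U.comap σ, U.comap σ⁆ : Subgroup Γ) :=
    ((σ.ker.subtype.comp e.symm.toMonoidHom).comp (Subgroup.subtype _)).codRestrict _ (by
      rintro ⟨_, a, rfl⟩
      refine ⟨(e.symm _).2, ?_⟩
      have h1 := pow_index_mem_commutator_of_central (U.comap σ) (hσ.2.1 (e.symm a).2)
        (hσ.2.2 (e.symm a).2)
      rw [Subgroup.index_comap_of_surjective _ hσ.1] at h1
      simpa using h1)
  have hj : Function.Injective j := by
    intro x y h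
    have h1 : ((j x : Γ)) = j y := congrArg Subtype.val h
    exact Subtype.ext (e.symm.injective (Subtype.ext h1))
  exact ⟨(ι.comp j).range, ⟨MonoidHom.ofInjective (hι.comp hj)⟩⟩

end Cfsg.Agent.S3954
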