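import Cfsg.Statements.S3955
import Cfsg.Agent.Solv.Schur2
import Mathlib.LinearAlgebra.Matrix.GeneralLinearGroup.Basic

set_option autoImplicit false
open Cfsg

namespace Cfsg.Agent.S3955

open Cfsg.Lib.Solv

theorem units_complex_rootable (k : ℕ) (hk : k ≠ 0) (d : ℂˣ) : ∃ e : ℂˣ, e ^ k = d := by
  obtain ⟨z, hz⟩ := IsAlgClosed.exists_pow_nat_eq (d : ℂ) (Nat.pos_of_ne_zero hk)
  have hz0 : z ≠ 0 := by rintro rfl; rw [zero_pow hk] at hz; exact d.ne_zero hz.symm
  exact ⟨Units.mk0 z hz0, Units.ext (by simpa using hz)⟩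

theorem center_GL_rootable (n : ℕ) (k : ℕ) (hk : k ≠ 0) (d : Subgroup.center (GL (Fin n) ℂ)) :
    ∃ e, e ^ k = d := by
  obtain ⟨d, hd⟩ := d
  have hd' := hd
  rw [Matrix.GeneralLinearGroup.center_eq_range_scalar] at hd'
  obtain ⟨c, rfl⟩ := hd'
  obtain ⟨e, rfl⟩ := units_complex_rootable k hk c
  refine ⟨⟨Matrix.GeneralLinearGroup.scalar (Fin n) e, ?_⟩, Subtype.ext (by simp)⟩
  rw [Matrix.GeneralLinearGroup.center_eq_range_scalar]
  exact ⟨e, rfl⟩

/-- Let `Q` be a finite group with Schur multiplier `A`, and let `σ : Γ →* Q` be a finite stem extension whose kernel is isomorphic to `A` (a Schur covering group of `Q`). Then every homomorphism `γ` from `Q` to the quotient of `GL n ℂ` by its centre lifts along `σ`: there is a homomorphism `ρ : Γ →* GL n ℂ` which, followed by the quotient map, equals `γ ∘ σ`. -/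
theorem result {Q : Type*} [Group Q] [Finite Q] {A : Type*} [CommGroup A] (hA : Cfsg.HasSchurMultiplier Q A) {Γ : Type*} [Group Γ] [Finite Γ] (σ : Γ →* Q) (hσ : Cfsg.IsStemExtension σ) (hk : Nonempty (σ.ker ≃* A)) (n : ℕ) (γ : Q →* (GL (Fin n) ℂ ⧸ Subgroup.center (GL (Fin n) ℂ))) : ∃ ρ : Γ →* GL (Fin n) ℂ, (QuotientGroup.mk' (Subgroup.center (GL (Fin n) ℂ))).comp ρ = γ.comp σ := by
  refine exists_lift_cover_of_rootable hA σ hσ hk _ (by rw [QuotientGroup.ker_mk']) ?_ γ
    (fun q => QuotientGroup.mk'_surjective _ _)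
  rw [QuotientGroup.ker_mk']
  exact center_GL_rootable n

end Cfsg.Agent.S3955
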