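import Cfsg.Statements.S3956
import Cfsg.Agent.S3955

set_option autoImplicit false
universe u v
open Cfsg

namespace Cfsg.Agent.S3956

open Cfsg.Lib.Solv

/-- The monomial representation of a central extension induced from a character of the kernel. -/
theorem exists_GL_rep {Γ Q : Type*} [Group Γ] [Group Q] [Finite Q] (σ : Γ →* Q)
    (hs : Function.Surjective σ) (hσ : σ.ker ≤ Subgroup.center Γ) (l : σ.ker →* ℂˣ) :
    ∃ n : ℕ, 0 < n ∧ ∃ ρ : Γ →* GL (Fin n) ℂ,
      ∀ z : σ.ker, ρ z = Matrix.GeneralLinearGroup.scalar (Fin n) (l z) := by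
  classical
  have := Fintype.ofFinite Q
  choose s hs' using hs
  let c : Γ → Q → σ.ker := fun g q => ⟨(s (σ g * q))⁻¹ * g * s q, by
    simp [MonoidHom.mem_ker, hs']⟩
  have hc : ∀ g h q, c (g * h) q = c g (σ h * q) * c h q := fun g h q => by
    apply Subtype.ext
    simp [c, mul_assoc]
  let m : Γ →* Matrix Q Q ℂ :=
    { toFun := fun g => Matrix.of fun q q' => if q = σ g * q' then (l (c g q') : ℂ) else 0
      map_one' := by
        ext q q'
        have : c 1 q' = 1 := Subtype.ext (by simp [c])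
        simp [this, Matrix.one_apply]
      map_mul' := fun g h => by
        ext q q''
        simp only [Matrix.of_apply, Matrix.mul_apply, mul_ite, mul_zero, Finset.sum_ite_eq',
          Finset.mem_univ, if_true, hc, map_mul, Units.val_mul, mul_assoc, ite_mul, zero_mul] }
  have hm : ∀ z : σ.ker, m z = Matrix.scalar Q (l z : ℂ) := fun z => by
    ext q q'
    have h1 : σ z = 1 := z.2
    have h2 : c z q' = z := Subtype.ext (by
      simp only [c, h1, one_mul, mul_assoc]
      rw [← Subgroup.mem_center_iff.1 (hσ z.2) (s q'), inv_mul_cancel_left])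
    simp [m, h1, h2, Matrix.diagonal_apply]
  refine ⟨Fintype.card Q, Fintype.card_pos, MonoidHom.toHomUnits
    (((Matrix.reindexAlgEquiv ℂ ℂ (Fintype.equivFin Q)) :
      Matrix Q Q ℂ →* Matrix (Fin (Fintype.card Q)) (Fin (Fintype.card Q)) ℂ).comp m), ?_⟩
  intro z
  apply Units.ext
  ext i j
  simp [hm, Matrix.diagonal_apply]

theorem hopf_injective {Q : Type*} [Group Q] [Finite Q] {Γ : Type*} [Group Γ] (σ : Γ →* Q)
    (hlift : ∀ (n : ℕ) (γ : Q →* (GL (Fin n) ℂ ⧸ Subgroup.center (GL (Fin n) ℂ))),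
      ∃ ρ : Γ →* GL (Fin n) ℂ,
        (QuotientGroup.mk' (Subgroup.center (GL (Fin n) ℂ))).comp ρ = γ.comp σ)
    (φ : HopfE (freePres Q) →* Γ) (hφ : σ.comp φ = hopfπ (freePres Q)) :
    ∀ x ∈ hopfM (freePres Q), φ x = 1 → x = 1 := by
  intro x hx h1
  by_contra hne
  have hπ := hopfπ_surjective (freePres_surjective Q)
  have hc := hopfπ_ker_le_center (freePres Q)
  have := hasEnoughRootsOfUnity_complex (hopfM (freePres Q))
  obtain ⟨l₀, hl₀⟩ := CommGroup.exists_apply_ne_one_of_hasEnoughRootsOfUnity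
    (hopfM (freePres Q)) ℂ (a := ⟨x, hx⟩) (fun h => hne (congrArg Subtype.val h))
  have := isMulCommutative_of_le_center hc
  let _ : CommGroup (hopfπ (freePres Q)).ker :=
    { (inferInstance : Group (hopfπ (freePres Q)).ker) with mul_comm := mul_comm' }
  obtain ⟨l, hl⟩ := exists_extension_of_rootable (D := ℂˣ) S3955.units_complex_rootable
    (Subgroup.inclusion (inf_le_left : hopfM (freePres Q) ≤ (hopfπ (freePres Q)).ker))
    (Subgroup.inclusion_injective _) l₀
  obtain ⟨n, hn, ρ₀, hρ₀⟩ := exists_GL_rep _ hπ hc l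
  obtain ⟨γ, hγ⟩ := exists_comp_eq_of_ker_le _ hπ
    ((QuotientGroup.mk' (Subgroup.center (GL (Fin n) ℂ))).comp ρ₀) (by
      intro z hz
      rw [MonoidHom.mem_ker, MonoidHom.comp_apply, hρ₀ ⟨z, hz⟩, QuotientGroup.mk'_apply,
        QuotientGroup.eq_one_iff, Matrix.GeneralLinearGroup.center_eq_range_scalar]
      exact ⟨_, rfl⟩)
  obtain ⟨ρ, hρ⟩ := hlift n γ
  have h2 := eq_on_commutator_of_central (QuotientGroup.mk' (Subgroup.center (GL (Fin n) ℂ)))
    (by rw [QuotientGroup.ker_mk']) ρ₀ (ρ.comp φ)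
    (by rw [← hγ, ← MonoidHom.comp_assoc, hρ, MonoidHom.comp_assoc, hφ]) hx.2
  rw [MonoidHom.comp_apply, h1, map_one, hρ₀ ⟨x, hx.1⟩] at h2
  apply hl₀
  rw [← hl]
  have h3 := congrArg (fun g : GL (Fin n) ℂ => (g : Matrix (Fin n) (Fin n) ℂ) ⟨0, hn⟩ ⟨0, hn⟩) h2
  have h4 : l ⟨x, hx.1⟩ = 1 := by simpa using h3
  exact h4

/-- Let `σ : Γ →* Q` be a finite stem extension of the finite group `Q` such that every homomorphism from `Q` to the quotient of `GL n ℂ` by its centre, for every `n`, lifts along `σ` to a homomorphism `Γ →* GL n ℂ`. Then `σ` is a Schur covering group of `Q`: for every finite stem extension `τ : Δ →* Q` with `Δ` in the same universe as `Q`, the kernel of `τ` is a homomorphic image of the kernel of `σ`. -/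
theorem result {Q : Type u} [Group Q] [Finite Q] {Γ : Type v} [Group Γ] [Finite Γ] (σ : Γ →* Q) (hσ : Cfsg.IsStemExtension σ) (hlift : ∀ (n : ℕ) (γ : Q →* (GL (Fin n) ℂ ⧸ Subgroup.center (GL (Fin n) ℂ))), ∃ ρ : Γ →* GL (Fin n) ℂ, (QuotientGroup.mk' (Subgroup.center (GL (Fin n) ℂ))).comp ρ = γ.comp σ) (Δ : Type u) [Group Δ] [Finite Δ] (τ : Δ →* Q) (hτ : Cfsg.IsStemExtension τ) : ∃ π : σ.ker →* τ.ker, Function.Surjective π := by
  obtain ⟨φ, hφ⟩ := exists_hopf_lift' (freePres Q) σ hσ.1 hσ.2.1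
  exact exists_surjective_ker_of_hopf_injective σ hσ φ hφ (hopf_injective σ hlift φ hφ) τ hτ

end Cfsg.Agent.S3956
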