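import Cfsg.Statements.S3960
import Cfsg.Agent.Solv.Schur2

set_option autoImplicit false
universe u
open Cfsg

namespace Cfsg.Agent.S3960

open Cfsg.Lib.Solv

/-- A finite perfect group `Q` has a universal central extension: a finite perfect group `G` in the universe of `Q` and a surjective homomorphism `π : G →* Q` with central kernel such that for every group `X` in that universe and every surjective homomorphism `ξ : X →* Q` with central kernel there is exactly one homomorphism `η : G →* X` with `ξ ∘ η = π`. -/
theorem result {Q : Type u} [Group Q] [Finite Q] (hQ : Group.IsPerfect Q) : ∃ (G : Type u) (_ : Group G) (_ : Finite G) (π : G →* Q), Group.IsPerfect G ∧ Function.Surjective π ∧ π.ker ≤ Subgroup.center G ∧ ∀ (X : Type u) [Group X] (ξ : X →* Q), Function.Surjective ξ → ξ.ker ≤ Subgroup.center X → ∃! η : G →* X, ξ.comp η = π := by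
  have hπ := freePres_surjective Q
  have hs := hopfπ_surjective hπ
  have hc := hopfπ_ker_le_center (freePres Q)
  have hp := isPerfect_commutator_of_central hQ _ hs hc
  refine ⟨commutator (HopfE (freePres Q)), inferInstance, inferInstance,
    (hopfπ (freePres Q)).comp (commutator _).subtype, hp,
    comp_subtype_commutator_surjective hQ _ hs, ker_comp_subtype_le_center _ hc _, ?_⟩
  intro X _ ξ hξ hξc
  obtain ⟨φ, hφ⟩ := exists_hopf_lift' (freePres Q) ξ hξ hξc
  refine ⟨φ.comp (commutator _).subtype, by simp only [← MonoidHom.comp_assoc, hφ], ?_⟩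
  intro η hη
  exact lift_unique_of_isPerfect hp ξ hξc _ _ (by rw [hη, ← MonoidHom.comp_assoc, hφ])

end Cfsg.Agent.S3960
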