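import Cfsg.Statements.S3961
import Cfsg.Agent.Solv.Schur2
import Cfsg.Agent.S3962

set_option autoImplicit false
universe u v
open Cfsg

namespace Cfsg.Agent.S3961

open Cfsg.Lib.Solv
open scoped commutatorElement

/-- Let `π : G →* Q` be a surjective homomorphism with central kernel from a finite perfect group `G` (a perfect cover of `Q`). Then `π` is universal, in the sense that every surjective homomorphism `ξ : X →* Q` with central kernel from a group `X` in the universe of `G` admits a homomorphism `η : G →* X` with `ξ ∘ η = π`, if and only if `G` has trivial Schur multiplier. -/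
theorem result {G : Type u} {Q : Type v} [Group G] [Group Q] [Finite G] (hG : Group.IsPerfect G) (π : G →* Q) (hπ : Function.Surjective π) (hker : π.ker ≤ Subgroup.center G) : (∀ (X : Type u) [Group X] (ξ : X →* Q), Function.Surjective ξ → ξ.ker ≤ Subgroup.center X → ∃ η : G →* X, ξ.comp η = π) ↔ Cfsg.HasCyclicSchurMultiplier G 1 := by
  constructor
  · intro h
    rw [hasCyclicSchurMultiplier_one_iff]
    intro Δ _ _ τ hτ
    have hΔ := isPerfect_of_stem hG hτ
    have hc : (π.comp τ).ker ≤ Subgroup.center Δ := by
      intro x hx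
      have h1 : τ x ∈ Subgroup.center G := hker hx
      have h2 : ∀ y : Δ, ⁅x, y⁆ ∈ Subgroup.center Δ := fun y => hτ.2.1 (by
        rw [MonoidHom.mem_ker, map_commutatorElement, commutatorElement_eq_one_iff_mul_comm]
        exact (Subgroup.mem_center_iff.1 h1 _).symm)
      exact Cfsg.Agent.S3962.mem_center_of_isPerfect hΔ h2
    obtain ⟨η, hη⟩ := h Δ (π.comp τ) (hπ.comp hτ.1) hc
    have h1 : τ.comp η = MonoidHom.id G :=
      lift_unique_of_isPerfect hG π hker _ _ (by rw [← MonoidHom.comp_assoc, hη]; rfl)
    have hs := surjective_of_stem τ hτ η (by rw [h1]; exact Function.surjective_id)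
    rw [eq_bot_iff]
    intro x hx
    obtain ⟨g, rfl⟩ := hs x
    have h2 : g = 1 := (DFunLike.congr_fun h1 g).symm.trans hx
    rw [h2, map_one]; exact Subgroup.one_mem _
  · intro h X _ ξ hξ hc
    exact exists_lift_of_trivial hG h π ξ (fun g => hξ (π g)) hc

end Cfsg.Agent.S3961
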