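import Cfsg.Statements.S3964
import Cfsg.Agent.S3967

set_option autoImplicit false
open Cfsg

namespace Cfsg.Agent.S3964

open DihedralGroup in
theorem dihedral (n : ℕ) [NeZero n] :
    HasCyclicSchurMultiplier (DihedralGroup n) (Nat.gcd n 2) := by
  obtain ⟨k, rfl⟩ : ∃ k, n = k + 1 := Nat.exists_eq_succ_of_ne_zero (NeZero.ne n)
  have h : Subgroup.closure {(r 1 : DihedralGroup (k + 1)), sr 0} = ⊤ := by
    have h1 : ∀ i, r i ∈ Subgroup.closure {(r 1 : DihedralGroup (k + 1)), sr 0} := fun i => by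
      have := Subgroup.pow_mem _ (Subgroup.subset_closure (k := {(r 1 : DihedralGroup (k + 1)), sr 0})
        (Or.inl rfl)) i.val
      rwa [r_one_pow, ZMod.natCast_zmod_val] at this
    rw [eq_top_iff]
    rintro (i | i) -
    · exact h1 i
    · have := Subgroup.mul_mem _ (Subgroup.subset_closure
        (k := {(r 1 : DihedralGroup (k + 1)), sr 0}) (Or.inr rfl)) (h1 i)
      rwa [sr_mul_r, zero_add] at this
  have := S3967.of_generators h (k + 1) 2 (2 * k + 1) 0 k.succ_pos two_pos (2 * k).succ_pos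
    ((Nat.modEq_iff_dvd' (Nat.one_le_pow _ _ (2 * k).succ_pos)).2 ⟨4 * k, by
      rw [Nat.sub_eq_iff_eq_add (Nat.one_le_pow _ _ (2 * k).succ_pos), Nat.succ_eq_add_one]
      ring⟩).symm
    r_one_pow_n (by simp [sq]) (by
      rw [r_one_pow, inv_sr, sr_mul_r, sr_mul_sr]
      congr 1
      have := ZMod.natCast_self (k + 1)
      push_cast at this ⊢
      linear_combination (-2 : ZMod (k + 1)) * this) (by rw [nat_card, mul_comm])
  have e1 : ∑ i ∈ Finset.range 2, (2 * k + 1) ^ i = (k + 1) * 2 := by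
    simp [Finset.sum_range_succ]; ring
  have e2 : Nat.gcd (k + 1) (2 * k) = Nat.gcd (k + 1) 2 := by
    apply Nat.dvd_antisymm
    · refine Nat.dvd_gcd (Nat.gcd_dvd_left _ _) ?_
      have h1 := (Nat.gcd_dvd_left (k + 1) (2 * k)).mul_left 2
      rw [mul_add] at h1
      exact (Nat.dvd_add_right (Nat.gcd_dvd_right _ _)).1 h1
    · exact Nat.dvd_gcd (Nat.gcd_dvd_left _ _) ((Nat.gcd_dvd_right _ _).mul_right _)
  rwa [e1, Nat.gcd_mul_right_right, Nat.mul_div_cancel _ k.succ_pos, Nat.gcd_zero_left,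
    Nat.add_sub_cancel, e2] at this


/-- For odd `n` the dihedral group of order `2 n` has trivial Schur multiplier. -/
theorem result (n : ℕ) (hn : Odd n) : Cfsg.HasCyclicSchurMultiplier (DihedralGroup n) 1 := by
  have : NeZero n := ⟨hn.pos.ne'⟩
  have := dihedral n
  rwa [(Nat.coprime_two_right.2 hn).gcd_eq_one] at this

end Cfsg.Agent.S3964
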