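import Cfsg.Statements.S3970
import Cfsg.Agent.Trans.PNilpMore
import Cfsg.Agent.Trans.SylowIn

set_option autoImplicit false
open Cfsg

namespace Cfsg.Agent.S3970

open Cfsg.Lib.Trans Cfsg.Lib.Solv Subgroup

universe u

theorem aux (n : ℕ) : ∀ {G : Type u} [Group G] [Finite G], Nat.card G = n →
    (∀ p : ℕ, p.Prime → p ∣ Nat.card G → (∃ q : ℕ, q.Prime ∧ q ∣ Nat.card G ∧ p < q) →
      ∀ P : Sylow p G, IsMulCommutative (P : Subgroup G) ∧ Group.rank (P : Subgroup G) ≤ 2) →
    ¬ 12 ∣ Nat.card G → Group.IsSolvable G := by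
  induction n using Nat.strong_induction_on with
  | _ n ih =>
  intro G _ _ hn h h12
  by_cases h1 : Nat.card G = 1
  · have := (Nat.card_eq_one_iff_unique.mp h1).1
    infer_instance
  have hp := Nat.minFac_prime h1
  set p := (Nat.card G).minFac with hpd
  haveI := Fact.mk hp
  obtain ⟨P⟩ := (inferInstance : Nonempty (Sylow p G))
  have h2 : HasNormalPComplement p G := by
    by_cases hq : ∃ q : ℕ, q.Prime ∧ q ∣ Nat.card G ∧ p < q
    · obtain ⟨hc, hr⟩ := h p hp (Nat.minFac_dvd _) hq P
      by_cases hcyc : IsCyclic P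
      · exact hasNormalPComplement_of_isCyclic_of_coprime P hcyc 
          (Nat.coprime_of_lt_minFac (by have := hp.two_le; omega) (by have := hp.two_le; omega))
      apply hasNormalPComplement_of_abelian_sylow P hc
      intro g hg hgc
      refine mem_centralizer_of_not_dvd_pow_sub_one P.isPGroup' hg hgc
        (index_frattini_eq_pow_rank P.isPGroup') fun q hq hqg j hj1 hj2 hd => ?_
      have hqG := hqg.trans (orderOf_dvd_natCard g)
      have hpq : p < q := lt_of_le_of_ne (Nat.minFac_le_of_dvd hq.two_le hqG) (by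
        rintro rfl
        exact coprime_iff_not_dvd'.mp hgc hqg)
      have h3 : q ∣ (p + 1) * (p - 1) := by
        rw [← Nat.sq_sub_sq p 1, one_pow]
        have : j ≤ 2 := hj2.trans hr
        interval_cases j
        · exact hd.trans (by simpa using Nat.sub_one_dvd_pow_sub_one p 2)
        · exact hd
      have h4 : q = p + 1 := by
        rcases hq.dvd_mul.mp h3 with h4 | h4
        · exact le_antisymm (Nat.le_of_dvd (by omega) h4) hpq
        · have := Nat.le_of_dvd (by have := hp.two_le; omega) h4
          omega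
      have h5 : p = 2 := by
        rcases hp.eq_two_or_odd' with h5 | h5
        · exact h5
        · have := hq.eq_two_or_odd'.resolve_right (by rw [h4]; exact Nat.not_odd_iff_even.mpr h5.add_one)
          have := hp.two_le
          omega
      have h6 : p ^ 2 ∣ Nat.card G := (sq_dvd_index_frattini_of_not_isCyclic P.isPGroup' hcyc).trans
        ((index_dvd_card _).trans (card_subgroup_dvd_card _))
      rw [h4] at hqG
      rw [h5] at h6 hqG
      exact h12 (Nat.Coprime.mul_dvd_of_dvd_of_dvd (m := 2 ^ 2) (n := 2 + 1) (by norm_num) h6 hqG)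
    · apply hasNormalPComplement_of_isPGroup
      rw [isPGroup_iff_isPiNum]
      intro q hq1 hq2
      exact le_antisymm (not_lt.mp fun hlt => hq ⟨q, hq1, hq2, hlt⟩)
        (Nat.minFac_le_of_dvd hq1.two_le hq2)
  set K := pResidual p G
  have hK : ¬ p ∣ Nat.card K := hasNormalPComplement_iff_not_dvd.mp h2
  have hKd := card_subgroup_dvd_card K
  have h3 : Group.IsSolvable K := by
    refine ih _ ?_ rfl (fun r hr hrK ⟨q, hq1, hq2, hq3⟩ R => ?_) fun hd => h12 (hd.trans hKd)
    · rw [← hn]
      exact lt_of_le_of_ne (card_le_card_group K) fun e => hK (e ▸ Nat.minFac_dvd _)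
    haveI := Fact.mk hr
    obtain ⟨k, hk⟩ := exists_index_pResidual_eq (p := p) (G := G)
    obtain ⟨S, hS⟩ := ((isSylowIn_map_subtype R).trans le_top (by
      rw [relIndex_top_right, hk]
      intro hd
      exact hK ((Nat.prime_dvd_prime_iff_eq hr hp).mp (hr.dvd_of_dvd_pow hd) ▸ hrK))).exists_sylow_eq
    obtain ⟨h4, h5⟩ := h r hr (hrK.trans hKd) ⟨q, hq1, hq2.trans hKd, hq3⟩ S
    rw [hS] at h4
    let e := (R : Subgroup K).equivMapOfInjective K.subtype K.subtype_injective
    refine ⟨⟨⟨fun a b => e.injective (by rw [map_mul, map_mul, mul_comm'])⟩⟩, ?_⟩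
    rw [Group.rank_congr (e.trans (MulEquiv.subgroupCongr hS.symm))]
    exact h5
  have h4 : Group.IsSolvable (G ⧸ K) := Coprime.isSolvable_of_isPGroup isPGroup_quotient_pResidual
  exact Group.isSolvable_of_ker_le_range K.subtype (QuotientGroup.mk' K) (by simp)


/-- Let `G` be a finite group such that for every prime `p` dividing its order, other than the largest such prime, the Sylow `p`-subgroups are abelian and generated by at most two elements, and suppose `12` does not divide the order of `G`. Then `G` is solvable. In particular a group of cube-free order not divisible by `12` is solvable. -/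
theorem result {G : Type*} [Group G] [Finite G] (h : ∀ p : ℕ, p.Prime → p ∣ Nat.card G → (∃ q : ℕ, q.Prime ∧ q ∣ Nat.card G ∧ p < q) → ∀ P : Sylow p G, IsMulCommutative (P : Subgroup G) ∧ Group.rank (P : Subgroup G) ≤ 2) (h12 : ¬ 12 ∣ Nat.card G) : Group.IsSolvable G := by
  exact aux _ rfl h h12

end Cfsg.Agent.S3970
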