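import Cfsg.Statements.S3971
import Cfsg.Agent.Trans.PNilpMore

set_option autoImplicit false
open Cfsg

namespace Cfsg.Agent.S3971

open Cfsg.Lib.Trans Cfsg.Lib.Solv Subgroup


/-- Let `G` be a finite group of order `2 ^ a * n` with `n` odd and not divisible by `3`, and suppose `G` has an element of order `2 ^ (a - 1)` (so a Sylow `2`-subgroup has a cyclic subgroup of index at most `2`). Then `G` has a normal subgroup of order `n`. -/
theorem result {G : Type*} [Group G] [Finite G] (a n : ℕ) (hG : Nat.card G = 2 ^ a * n) (hn : Odd n) (h3 : ¬ 3 ∣ n) (hx : ∃ x : G, orderOf x = 2 ^ (a - 1)) : ∃ N : Subgroup G, N.Normal ∧ Nat.card N = n := by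
  obtain ⟨x, hx⟩ := hx
  obtain ⟨P, hP⟩ := (IsPGroup.of_card (p := 2) (G := zpowers x)
    (by rw [Nat.card_zpowers, hx])).exists_le_sylow
  have hn2 : ¬ 2 ∣ n := hn.not_two_dvd_nat
  have hPc : Nat.card P = 2 ^ a := by
    rw [P.card_eq_multiplicity, hG, Nat.factorization_mul (by positivity) (by rintro rfl; simp at hn2),
      Finsupp.add_apply, Nat.factorization_eq_zero_of_not_dvd hn2, Nat.prime_two.factorization_pow]
    simp
  have hi : (zpowers x).relIndex P ∣ 2 := by
    have h1 := PG.relIndex_mul_card hP
    rw [Nat.card_zpowers, hx] at h1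
    change _ = Nat.card P at h1
    rw [hPc] at h1
    rcases a with _ | a
    · simp at h1; simp [h1]
    · rw [Nat.add_sub_cancel, pow_succ'] at h1
      exact (Nat.eq_of_mul_eq_mul_right (by positivity) h1).dvd
  have hN : ((zpowers x).subgroupOf P).Normal := by
    rcases (Nat.dvd_prime Nat.prime_two).mp hi with h | h
    · rw [index_eq_one.mp h]; infer_instance
    · exact normal_of_index_eq_two h
  have h1 := hasNormalPComplement_of_isMetacyclic P ⟨_, hN,
    isCyclic_of_surjective _ (subgroupOfEquivOfLe hP).symm.surjective,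
    isCyclic_of_card_dvd_prime (p := 2) hi⟩ (fun q hq h1 h2 => by
      have h4 := (Nat.prime_dvd_prime_iff_eq hq Nat.prime_three).mp h2
      subst h4
      rw [hG] at h1
      exact h3 ((Nat.Coprime.pow_right a (by norm_num)).dvd_of_dvd_mul_left h1))
  refine ⟨pResidual 2 G, inferInstance, ?_⟩
  have h2 := ((hasNormalPComplement_iff_isComplement' P).mp h1).card_mul_card
  change _ * Nat.card P = _ at h2
  rw [hPc, hG, mul_comm] at h2
  exact Nat.eq_of_mul_eq_mul_left (by positivity) h2

end Cfsg.Agent.S3971
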