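import Cfsg.Statements.S3973
import Cfsg.Agent.Solv.Schur2
import Mathlib.LinearAlgebra.Dimension.RankNullity
import Mathlib.LinearAlgebra.Dimension.Localization
import Mathlib.GroupTheory.FreeGroup.GeneratorEquiv

set_option autoImplicit false
open Cfsg

namespace Cfsg.Agent.S3973

open Cfsg.Lib.Solv

theorem rank_le_finrank {A K : Type*} [CommGroup A] [Group.FG A] [AddCommGroup K]
    [Module.Free ℤ K] [Module.Finite ℤ K] (h : K →+ Additive A) (hh : Function.Surjective h) :
    Group.rank A ≤ Module.finrank ℤ K := by
  classical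
  let b := Module.finBasis ℤ K
  have h1 : Subgroup.closure ((Finset.univ.image fun i => (h (b i)).toMul : Finset A) : Set A) = ⊤ := by
    rw [eq_top_iff]
    intro a _
    obtain ⟨k, hk⟩ := hh (Additive.ofMul a)
    have h2 : a = ∏ i, (h (b i)).toMul ^ (b.repr k i) := by
      apply Additive.ofMul.injective
      rw [← hk, ← b.sum_repr k, map_sum]
      simp [ofMul_prod]
    rw [h2]
    exact Subgroup.prod_mem _ fun i _ => Subgroup.zpow_mem _ (Subgroup.subset_closure (by simp)) _
  refine (Group.rank_le h1).trans (Finset.card_image_le.trans ?_)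
  simp

/-- If a finite group is presented by `n` generators and a finite set of `r` relators, then its Schur multiplier can be generated by `r - n` elements. In particular a finite group with a presentation having as many relators as generators has trivial Schur multiplier. -/
theorem result (n : ℕ) (rels : Finset (FreeGroup (Fin n))) [Finite (PresentedGroup (rels : Set (FreeGroup (Fin n))))] {A : Type*} [CommGroup A] [Finite A] (hA : Cfsg.HasSchurMultiplier (PresentedGroup (rels : Set (FreeGroup (Fin n)))) A) : Group.rank A ≤ rels.card - n := by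
  classical
  set π := PresentedGroup.mk (rels : Set (FreeGroup (Fin n))) with hπdef
  have hπ : Function.Surjective π := PresentedGroup.mk_surjective _
  obtain ⟨e⟩ := (hasSchurMultiplier_iff_hopfM hπ).1 hA
  have hc := hopfπ_ker_le_center π
  have := isMulCommutative_of_le_center hc
  let _ : CommGroup (hopfπ π).ker :=
    { (inferInstance : Group (hopfπ π).ker) with mul_comm := mul_comm' }
  let v : rels → Additive (hopfπ π).ker := fun r => Additive.ofMul ⟨((r : FreeGroup (Fin n)) : HopfE π),
    PresentedGroup.one_of_mem r.2⟩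
  let g : (rels → ℤ) →ₗ[ℤ] Additive (hopfπ π).ker := Fintype.linearCombination ℤ v
  have hg : Function.Surjective g := by
    let T : Subgroup (HopfE π) :=
      (AddSubgroup.toSubgroup' (LinearMap.range g).toAddSubgroup).map (hopfπ π).ker.subtype
    have hT : T.Normal := normal_of_le_center ((Subgroup.map_subtype_le _).trans hc)
    have h1 : Subgroup.normalClosure (rels : Set (FreeGroup (Fin n))) ≤
        T.comap (QuotientGroup.mk' _) := by
      apply Subgroup.normalClosure_le_normal
      intro r hr
      refine ⟨(v ⟨r, hr⟩).toMul, ⟨Pi.single ⟨r, hr⟩ 1, ?_⟩, rfl⟩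
      simp only [g, Fintype.linearCombination_apply_single, one_smul]
      rfl
    intro y
    obtain ⟨x, hx⟩ := QuotientGroup.mk_surjective (y.toMul : HopfE π)
    have h2 : π x = 1 := by
      have := y.toMul.2
      rw [← hx] at this; exact this
    obtain ⟨z, ⟨w, hw⟩, hz⟩ := h1 (PresentedGroup.mk_eq_one_iff.1 h2)
    refine ⟨w, hw.trans ?_⟩
    exact congrArg Additive.ofMul (Subtype.ext (hz.trans hx))
  have := free_additive_abelianization_freeGroup (Fin n)
  have := finite_additive_abelianization_freeGroup (Fin n)
  let a : Additive (hopfπ π).ker →ₗ[ℤ] Additive (Abelianization (FreeGroup (Fin n))) :=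
    (MonoidHom.toAdditive ((hopfAb π).comp (hopfπ π).ker.subtype)).toIntLinearMap
  have hrank : Module.finrank ℤ (Additive (Abelianization (FreeGroup (Fin n)))) = n := by
    change Module.finrank ℤ (FreeAbelianGroup (Fin n)) = n
    rw [Module.finrank_eq_card_basis (FreeAbelianGroup.basis (Fin n)), Fintype.card_fin]
  have hge : n ≤ Module.finrank ℤ (LinearMap.range (a ∘ₗ g)) := by
    set N := Nat.card (PresentedGroup (rels : Set (FreeGroup (Fin n)))) with hN
    have hN0 : (N : ℤ) ≠ 0 := by exact_mod_cast Nat.card_pos.ne'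
    let j : Additive (Abelianization (FreeGroup (Fin n))) →ₗ[ℤ] LinearMap.range (a ∘ₗ g) :=
      LinearMap.codRestrict _ ((N : ℤ) • LinearMap.id) (by
        intro y
        obtain ⟨x, hx⟩ := hopfAb_surjective π y.toMul
        have h1 : x ^ N ∈ (hopfπ π).ker := by
          rw [MonoidHom.mem_ker, map_pow, pow_card_eq_one']
        obtain ⟨w, hw⟩ := hg (Additive.ofMul ⟨_, h1⟩)
        refine ⟨w, ?_⟩
        rw [LinearMap.comp_apply, hw]
        change Additive.ofMul (hopfAb π (x ^ N)) = (N : ℤ) • y
        rw [map_pow, hx, natCast_zsmul]; rfl)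
    refine hrank.symm.le.trans ?_
    apply LinearMap.finrank_le_finrank_of_injective (f := j)
    intro x y h
    have h1 : (N : ℤ) • x = (N : ℤ) • y := congrArg Subtype.val h
    exact smul_right_injective _ hN0 h1
  have hnull := Submodule.finrank_quotient_add_finrank (LinearMap.ker (a ∘ₗ g))
  rw [(a ∘ₗ g).quotKerEquivRange.finrank_eq, Module.finrank_fintype_fun_eq_card, Fintype.card_coe] at hnull
  have hmem : ∀ w : LinearMap.ker (a ∘ₗ g), ((g w).toMul : HopfE π) ∈ hopfM π := fun w =>
    ⟨(g w).toMul.2, by rw [← hopfAb_ker]; exact w.2⟩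
  let h : LinearMap.ker (a ∘ₗ g) →+ Additive A := AddMonoidHom.mk'
    (fun w => Additive.ofMul (e ⟨_, hmem w⟩)) (by
      intro w w'
      rw [← ofMul_mul, ← map_mul]
      congr 2
      apply Subtype.ext
      simp)
  have hh : Function.Surjective h := by
    intro y
    obtain ⟨m, hm⟩ := e.surjective y.toMul
    obtain ⟨w, hw⟩ := hg (Additive.ofMul ⟨m, m.2.1⟩)
    have hw' : w ∈ LinearMap.ker (a ∘ₗ g) := by
      rw [LinearMap.mem_ker, LinearMap.comp_apply, hw]
      have : (m : HopfE π) ∈ (hopfAb π).ker := by rw [hopfAb_ker]; exact m.2.2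
      exact this
    refine ⟨⟨w, hw'⟩, ?_⟩
    change Additive.ofMul (e _) = y
    rw [← ofMul_toMul y, ← hm]
    congr 2
    apply Subtype.ext
    simp [hw]
  have := rank_le_finrank h hh
  omega

end Cfsg.Agent.S3973
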