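import Cfsg.Statements.S3974
import Cfsg.Agent.Solv.Schur2
import Mathlib.GroupTheory.Abelianization.Finite

set_option autoImplicit false
universe u v
open Cfsg

namespace Cfsg.Agent.S3974

open Cfsg.Lib.Solv

theorem exists_extension_of_coprime {E B D : Type*} [Group E] [CommGroup B] [CommGroup D]
    (a : E →* B) (K : Subgroup E) (g : K →* D) (hg : ∀ k : K, a k = 1 → g k = 1) (n : ℕ)
    (hn : ∀ x : E, a x ^ n ∈ K.map a) (hcop : n.Coprime (Nat.card D)) :
    ∃ χ : E →* D, ∀ k : K, χ k = g k := by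
  obtain ⟨g', hg'⟩ := exists_comp_eq_of_ker_le (a.subgroupMap K) (a.subgroupMap_surjective K) g
    (fun k hk => hg k (congrArg Subtype.val hk))
  let j : E →* K.map a := ((powMonoidHom n).comp a).codRestrict _ hn
  let e : D ≃* D := MulEquiv.ofBijective (powMonoidHom n) (powCoprime hcop.symm).bijective
  refine ⟨e.symm.toMonoidHom.comp (g'.comp j), fun k => ?_⟩
  apply e.injective
  have h1 : j k = (a.subgroupMap K k) ^ n := Subtype.ext rfl
  simp only [MonoidHom.comp_apply, MulEquiv.coe_toMonoidHom, MulEquiv.apply_symm_apply, h1, map_pow]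
  rw [← hg']; rfl

theorem exists_hom_not_pow {L M : Type*} [CommGroup L] [CommGroup M] [Module.Free ℤ (Additive L)]
    [Finite M] {p : ℕ} (hp : p.Prime) (hM : p ∣ Nat.card M) (l : L) (hl : ∀ l', l' ^ p ≠ l) :
    ∃ δ : L →* M, ∀ m, m ^ p ≠ δ l := by
  have := Fact.mk hp
  let b := Module.Free.chooseBasis ℤ (Additive L)
  obtain ⟨i, hi⟩ : ∃ i, ¬ (p : ℤ) ∣ b.repr (Additive.ofMul l) i := by
    by_contra! h
    apply hl (b.repr.symm ((b.repr (Additive.ofMul l)).mapRange (· / (p : ℤ)) (by simp))).toMul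
    apply Additive.ofMul.injective
    apply b.repr.injective
    rw [ofMul_pow, ofMul_toMul, map_nsmul, LinearEquiv.apply_symm_apply]
    ext j
    simp [Int.mul_ediv_cancel' (h j)]
  obtain ⟨m₀, hm₀⟩ : ∃ m₀ : M, ∀ m, m ^ p ≠ m₀ := by
    by_contra! h
    have h1 : Function.Injective (powMonoidHom p : M →* M) :=
      Finite.injective_iff_surjective.2 h
    obtain ⟨x, hx⟩ := exists_prime_orderOf_dvd_card' p hM
    have h2 : x = 1 := (injective_iff_map_eq_one _).1 h1 x (by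
      rw [powMonoidHom_apply, ← hx, pow_orderOf_eq_one])
    rw [h2, orderOf_one] at hx
    exact hp.one_lt.ne hx
  let δ : L →* M := MonoidHom.mk' (fun y => m₀ ^ (b.repr (Additive.ofMul y) i)) (by
    intro x y; simp [zpow_add])
  refine ⟨δ, fun m hm => ?_⟩
  change m ^ p = m₀ ^ (b.repr (Additive.ofMul l) i) at hm
  obtain ⟨u, v, huv⟩ := ((Nat.prime_iff_prime_int.1 hp).coprime_iff_not_dvd).2 hi
  apply hm₀ (m₀ ^ u * m ^ v)
  rw [mul_pow, ← zpow_natCast, ← zpow_natCast, ← zpow_mul, ← zpow_mul, mul_comm v, zpow_mul m,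
    zpow_natCast m, hm, ← zpow_mul, ← zpow_add, mul_comm _ v, huv, zpow_one]

theorem mem_map_hopfAb_iff {F Q : Type*} [Group F] [Group Q] {π : F →* Q}
    (hπ : Function.Surjective π) {S : Subgroup (HopfE π)} (hk : (hopfπ π).ker ≤ S ⊔ hopfM π)
    {x : HopfE π} (hS : S ≤ (hopfπ π).ker := by assumption) :
    hopfAb π x ∈ S.map (hopfAb π) ↔ Abelianization.of (hopfπ π x) = 1 := by
  rw [← MonoidHom.mem_ker, Abelianization.ker_of]
  constructor
  · rintro ⟨s, hs, hsx⟩
    have h1 : s⁻¹ * x ∈ commutator _ := by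
      rw [← hopfAb_ker, MonoidHom.mem_ker, map_mul, map_inv, hsx, inv_mul_cancel]
    have h2 := map_mem_commutator (hopfπ π) h1
    rwa [map_mul, map_inv, MonoidHom.mem_ker.1 (hS hs), inv_one, one_mul] at h2
  · intro h
    have h1 : (commutator (HopfE π)).map (hopfπ π) = commutator Q := by
      rw [commutator_def, commutator_def, Subgroup.map_commutator,
        Subgroup.map_top_of_surjective _ (hopfπ_surjective hπ)]
    obtain ⟨c, hc, hcx⟩ := h1.ge h
    have h2 : c⁻¹ * x ∈ (hopfπ π).ker := by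
      rw [MonoidHom.mem_ker, map_mul, map_inv, hcx, inv_mul_cancel]
    have := normal_of_le_center (hS.trans (hopfπ_ker_le_center π))
    obtain ⟨s, hs, m, hm, hsm⟩ :=
      (mem_sup_of_le_normalizer (Subgroup.le_normalizer_of_normal)).1 (hk h2)
    refine ⟨s, hs, ?_⟩
    have h3 : hopfAb π c = 1 := by rw [← MonoidHom.mem_ker, hopfAb_ker]; exact hc
    have h4 : hopfAb π m = 1 := by rw [← MonoidHom.mem_ker, hopfAb_ker]; exact hm.2
    have h5 := congrArg (hopfAb π) hsm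
    rwa [map_mul, map_mul, map_inv, h3, h4, mul_one, inv_one, one_mul] at h5

/-- Let `Q` be a finite group with Schur multiplier `A`. Any two Schur covering groups of `Q` (finite stem extensions `σ₁ : Γ₁ →* Q`, `σ₂ : Γ₂ →* Q` with kernels isomorphic to `A`, `Γ₁, Γ₂` in the universe of `Q`) are isomorphic over `Q` — there is a group isomorphism `e : Γ₁ ≃* Γ₂` with `σ₂ ∘ e = σ₁` — if and only if the order of the commutator quotient of `Q` is coprime to the order of `A`. In particular a finite perfect group has a unique Schur covering group up to isomorphism over it. -/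
theorem result {Q : Type u} [Group Q] [Finite Q] {A : Type v} [CommGroup A] (hA : Cfsg.HasSchurMultiplier Q A) : (∀ (Γ₁ Γ₂ : Type u) [Group Γ₁] [Finite Γ₁] [Group Γ₂] [Finite Γ₂] (σ₁ : Γ₁ →* Q) (σ₂ : Γ₂ →* Q), Cfsg.IsStemExtension σ₁ → Cfsg.IsStemExtension σ₂ → Nonempty (σ₁.ker ≃* A) → Nonempty (σ₂.ker ≃* A) → ∃ e : Γ₁ ≃* Γ₂, σ₂.comp e.toMonoidHom = σ₁) ↔ Nat.Coprime (Nat.card (Abelianization Q)) (Nat.card A) := by
  have hπ := freePres_surjective Q
  have hs := hopfπ_surjective hπ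
  have hc := hopfπ_ker_le_center (freePres Q)
  have := finite_of_hasSchurMultiplier hA
  constructor
  · intro h
    apply Nat.coprime_of_dvd
    intro p hp hpQ hpA
    have := Fact.mk hp
    obtain ⟨eA⟩ := (hasSchurMultiplier_iff_hopfM hπ).1 hA
    obtain ⟨S, hS, hSM, hk⟩ := exists_hopf_complement (freePres Q) _ le_rfl le_sup_left
    obtain ⟨q, hq⟩ := exists_prime_orderOf_dvd_card' (G := Abelianization Q) p hpQ
    obtain ⟨q, rfl⟩ : ∃ q' : Q, Abelianization.of q' = q := QuotientGroup.mk_surjective q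
    obtain ⟨x, rfl⟩ := hs q
    have hx1 : hopfAb _ (x ^ p) ∈ S.map (hopfAb (freePres Q)) := by
      rw [mem_map_hopfAb_iff hπ hk, map_pow, map_pow, ← hq, pow_orderOf_eq_one]
    have hx2 : hopfAb _ x ∉ S.map (hopfAb (freePres Q)) := by
      rw [mem_map_hopfAb_iff hπ hk]
      intro h1
      rw [h1, orderOf_one] at hq
      exact hp.one_lt.ne hq
    have := free_additive_abelianization_freeGroup Q
    have := finite_additive_abelianization_freeGroup Q
    have := (free_additive_of_injective (S.map (hopfAb (freePres Q))).subtype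
      (Subgroup.subtype_injective _)).1
    obtain ⟨δ, hδ⟩ := exists_hom_not_pow (M := hopfM (freePres Q)) hp
      (by rwa [Nat.card_congr eA.toEquiv]) (⟨_, hx1⟩ : S.map (hopfAb (freePres Q))) (by
        intro l hl
        apply hx2
        have h1 : (l : Abelianization (FreeGroup Q)) ^ p = hopfAb _ x ^ p := by
          rw [← map_pow]; exact congrArg Subtype.val hl
        have h2 : (p : ℤ) • Additive.ofMul (l : Abelianization (FreeGroup Q)) =
            (p : ℤ) • Additive.ofMul (hopfAb _ x) := by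
          rw [natCast_zsmul, natCast_zsmul]; exact congrArg Additive.ofMul h1
        have h3 := smul_right_injective _ (by exact_mod_cast hp.ne_zero : (p : ℤ) ≠ 0) h2
        rw [← Additive.ofMul.injective h3]; exact l.2)
    let τ : S →* HopfE (freePres Q) := MonoidHom.mk'
      (fun s => (s : HopfE (freePres Q)) * δ ((hopfAb (freePres Q)).subgroupMap S s)) (by
        intro a b
        have := Subgroup.mem_center_iff.1
          (hopfM_le_center _ (δ ((hopfAb (freePres Q)).subgroupMap S a)).2) b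
        rw [map_mul, map_mul, Subgroup.coe_mul, Subgroup.coe_mul, mul_assoc, mul_assoc,
          ← mul_assoc (b : HopfE (freePres Q)), this, mul_assoc])
    have hτ : ∀ s : S, τ s = (s : HopfE (freePres Q)) * δ ((hopfAb (freePres Q)).subgroupMap S s) :=
      fun _ => rfl
    have hS2 : τ.range ≤ (hopfπ (freePres Q)).ker := by
      rintro _ ⟨s, rfl⟩
      exact Subgroup.mul_mem _ (hS s.2) (δ _).2.1
    have hSM2 : τ.range ⊓ hopfM (freePres Q) = ⊥ := by
      rw [eq_bot_iff]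
      rintro _ ⟨⟨s, rfl⟩, hm⟩
      have h1 : (s : HopfE (freePres Q)) ∈ S ⊓ hopfM (freePres Q) :=
        ⟨s.2, by simpa [hτ] using Subgroup.mul_mem _ hm (Subgroup.inv_mem _
          (δ ((hopfAb (freePres Q)).subgroupMap S s)).2)⟩
      rw [hSM] at h1
      have h2 : s = 1 := Subtype.ext h1
      rw [h2, map_one]; exact Subgroup.one_mem _
    have hk2 : (hopfπ (freePres Q)).ker ≤ τ.range ⊔ hopfM (freePres Q) := by
      refine hk.trans (sup_le ?_ le_sup_right)
      intro s hs'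
      have := Subgroup.mul_mem_sup (MonoidHom.mem_range.2 ⟨⟨s, hs'⟩, rfl⟩ : τ ⟨s, hs'⟩ ∈ τ.range)
        (Subgroup.inv_mem _ (δ ((hopfAb (freePres Q)).subgroupMap S ⟨s, hs'⟩)).2)
      simpa [hτ] using this
    have := normal_of_le_center (hS.trans hc)
    have := normal_of_le_center (hS2.trans hc)
    obtain ⟨a1, a2, ⟨a3⟩⟩ := hopf_quotient_stem hπ S hS hSM hk
    obtain ⟨b1, b2, ⟨b3⟩⟩ := hopf_quotient_stem hπ τ.range hS2 hSM2 hk2
    obtain ⟨e, he⟩ := h _ _ _ _ a1 b1 ⟨a3.trans eA⟩ ⟨b3.trans eA⟩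
    obtain ⟨s, hs', hsx⟩ := hx1
    set φ₂ := QuotientGroup.mk' τ.range with hφ₂
    set ψ := e.toMonoidHom.comp (QuotientGroup.mk' S) with hψ
    have hφ₂' : (QuotientGroup.lift τ.range (hopfπ _) hS2).comp φ₂ = hopfπ _ := by ext; rfl
    have hψ' : (QuotientGroup.lift τ.range (hopfπ _) hS2).comp ψ = hopfπ _ := by
      rw [hψ, ← MonoidHom.comp_assoc, he]; ext; rfl
    have hcm : s⁻¹ * x ^ p ∈ commutator _ := by
      rw [← hopfAb_ker, MonoidHom.mem_ker, map_mul, map_inv, hsx, inv_mul_cancel]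
    have h1 := eq_on_commutator_of_central _ b1.2.1 ψ φ₂ (hψ'.trans hφ₂'.symm) hcm
    have h2 : ψ s = 1 := by
      rw [hψ, MonoidHom.comp_apply, QuotientGroup.mk'_apply, (QuotientGroup.eq_one_iff s).2 hs',
        map_one]
    have h3 : (φ₂ x)⁻¹ * ψ x ∈ (QuotientGroup.lift τ.range (hopfπ _) hS2).ker := by
      rw [MonoidHom.mem_ker, map_mul, map_inv, ← MonoidHom.comp_apply, ← MonoidHom.comp_apply,
        hφ₂', hψ', inv_mul_cancel]
    have h4 := map_hopfM_eq hπ _ b1.2.1 φ₂ hφ₂'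
    rw [inf_eq_left.2 b1.2.2] at h4
    obtain ⟨m, hm, hmx⟩ := h4.ge h3
    have h5 : ψ x = φ₂ (x * m) := by rw [map_mul, hmx, mul_inv_cancel_left]
    have h6 : Commute x m := Subgroup.mem_center_iff.1 (hopfM_le_center _ hm) x
    rw [map_mul, map_inv, h2, inv_one, one_mul, map_pow, h5, ← map_pow, h6.mul_pow] at h1
    have h7 : (s⁻¹ * x ^ p)⁻¹ * (x ^ p * m ^ p) ∈ τ.range := QuotientGroup.eq.1 h1.symm
    have h8 : (s⁻¹ * x ^ p)⁻¹ * (x ^ p * m ^ p) = s * m ^ p := by
      rw [mul_inv_rev, inv_inv, Subgroup.mem_center_iff.1 (hc (hS hs')) (x ^ p)⁻¹]; group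
    rw [h8] at h7
    have h9 : (τ ⟨s, hs'⟩)⁻¹ * (s * m ^ p) ∈ τ.range ⊓ hopfM (freePres Q) := by
      refine ⟨Subgroup.mul_mem _ (Subgroup.inv_mem _ ⟨_, rfl⟩) h7, ?_⟩
      rw [hτ, mul_inv_rev, mul_assoc, inv_mul_cancel_left]
      exact Subgroup.mul_mem _ (Subgroup.inv_mem _ (δ _).2) (Subgroup.pow_mem _ hm _)
    rw [hSM2, Subgroup.mem_bot, hτ, mul_inv_rev, mul_assoc, inv_mul_cancel_left,
      inv_mul_eq_one] at h9
    apply hδ ⟨m, hm⟩
    apply Subtype.ext
    rw [Subgroup.coe_pow, ← h9]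
    congr 2
    exact Subtype.ext hsx
  · intro hcop Γ₁ Γ₂ _ _ _ _ σ₁ σ₂ h₁ h₂ hk₁ hk₂
    obtain ⟨φ₁, hφ₁⟩ := exists_hopf_lift' (freePres Q) σ₁ h₁.1 h₁.2.1
    obtain ⟨φ₂, hφ₂⟩ := exists_hopf_lift' (freePres Q) σ₂ h₂.1 h₂.2.1
    have hφ₁s := surjective_of_stem σ₁ h₁ φ₁ (hφ₁ ▸ hs)
    have hK : φ₁.ker ≤ (hopfπ (freePres Q)).ker := fun x hx => by
      rw [MonoidHom.mem_ker, ← hφ₁, MonoidHom.comp_apply, MonoidHom.mem_ker.1 hx, map_one]
    have hm := map_hopfM_eq hπ σ₁ h₁.2.1 φ₁ hφ₁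
    rw [inf_eq_left.2 h₁.2.2] at hm
    have hk : (hopfπ (freePres Q)).ker ≤ φ₁.ker ⊔ hopfM (freePres Q) := by
      intro x hx
      have h1 : φ₁ x ∈ σ₁.ker := by
        rw [MonoidHom.mem_ker, ← MonoidHom.comp_apply, hφ₁]; exact hx
      obtain ⟨m, hm', hmx⟩ := hm.ge h1
      have h2 : x * m⁻¹ ∈ φ₁.ker := by
        rw [MonoidHom.mem_ker, map_mul, map_inv, hmx, mul_inv_cancel]
      simpa using Subgroup.mul_mem_sup h2 hm'
    have := isMulCommutative_of_le_center h₂.2.1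
    let _ : CommGroup σ₂.ker := { (inferInstance : Group σ₂.ker) with mul_comm := mul_comm' }
    let g : φ₁.ker →* σ₂.ker := (φ₂.comp φ₁.ker.subtype).codRestrict σ₂.ker (fun k => by
      change σ₂ (φ₂ k) = 1
      rw [← MonoidHom.comp_apply, hφ₂]; exact hK k.2)
    obtain ⟨χ, hχ⟩ := exists_extension_of_coprime (hopfAb (freePres Q)) φ₁.ker g (by
      intro k hk1
      have h1 : (k : HopfE (freePres Q)) = 1 :=
        hopf_lift_eq_one_of_cover hA hπ σ₁ h₁ hk₁ φ₁ hφ₁ ⟨hK k.2, hopfAb_ker (freePres Q) ▸ hk1⟩ k.2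
      have h2 : k = 1 := Subtype.ext h1
      rw [h2, map_one]) (Nat.card (Abelianization Q)) (by
        intro x
        rw [← map_pow, mem_map_hopfAb_iff hπ hk, map_pow, map_pow, pow_card_eq_one'])
      (by rwa [Nat.card_congr hk₂.some.toEquiv])
    let ψ' : HopfE (freePres Q) →* Γ₂ := MonoidHom.mk' (fun x => φ₂ x * ((χ x : Γ₂))⁻¹) (by
      intro x y
      have hc := Subgroup.mem_center_iff.1 (Subgroup.inv_mem _ (h₂.2.1 (χ x).2))
      rw [map_mul, map_mul, mul_comm (χ x), Subgroup.coe_mul, mul_inv_rev, mul_assoc, mul_assoc,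
        ← mul_assoc (φ₂ y), hc (φ₂ y), mul_assoc])
    obtain ⟨ρ, hρ⟩ := exists_comp_eq_of_ker_le φ₁ hφ₁s ψ' (by
      intro k hk1
      change φ₂ k * ((χ k : Γ₂))⁻¹ = 1
      rw [hχ ⟨k, hk1⟩]
      exact mul_inv_cancel _)
    have hρσ : σ₂.comp ρ = σ₁ := by
      ext x
      obtain ⟨e, rfl⟩ := hφ₁s x
      have h1 : ρ (φ₁ e) = φ₂ e * ((χ e : Γ₂))⁻¹ := DFunLike.congr_fun hρ e
      have h2 : σ₂ (χ e) = 1 := (χ e).2
      have h3 : σ₂ (φ₂ e) = hopfπ _ e := DFunLike.congr_fun hφ₂ e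
      have h4 : σ₁ (φ₁ e) = hopfπ _ e := DFunLike.congr_fun hφ₁ e
      simp only [MonoidHom.comp_apply, h1, map_mul, map_inv, h2, h3, h4, inv_one, mul_one]
    have hρs := surjective_of_stem σ₂ h₂ ρ (hρσ ▸ h₁.1)
    have hcard : Nat.card Γ₁ = Nat.card Γ₂ := by
      rw [← Subgroup.card_mul_index σ₁.ker, ← Subgroup.card_mul_index σ₂.ker,
        Subgroup.index_ker, Subgroup.index_ker, MonoidHom.range_eq_top.2 h₁.1,
        MonoidHom.range_eq_top.2 h₂.1, Nat.card_congr hk₁.some.toEquiv,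
        Nat.card_congr hk₂.some.toEquiv]
    exact ⟨MulEquiv.ofBijective ρ (hρs.bijective_of_nat_card_le hcard.le), hρσ⟩

end Cfsg.Agent.S3974
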