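import Cfsg.Statements.S3977
import Cfsg.Agent.Solv.FrattiniP
import Cfsg.Agent.Solv.Conj
import Cfsg.Agent.S0016
import Cfsg.Agent.Solv.CyclicP

set_option autoImplicit false
open Cfsg

namespace Cfsg.Agent.S3977

open Cfsg.Lib.Solv

/-- Let `p` be a prime and `G` a group of order `p ^ m` which has exactly one subgroup of order `p ^ s`, where `1 ≤ s < m`, and where `s ≥ 2` if `p = 2`. Then `G` is cyclic. (For `p = 2` and `s = 1` the generalized quaternion groups also occur; that case is the classical criterion for a unique involution.) -/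
theorem result {G : Type*} [Group G] [Finite G] (p m s : ℕ) (hp : p.Prime) (hG : Nat.card G = p ^ m) (hs : 1 ≤ s) (hsm : s < m) (h2 : p ≠ 2 ∨ 2 ≤ s) (huniq : ∀ H K : Subgroup G, Nat.card H = p ^ s → Nat.card K = p ^ s → H = K) : IsCyclic G := by
  have := Fact.mk hp
  have hP : IsPGroup p G := IsPGroup.of_card hG
  obtain ⟨H, hH⟩ := Sylow.exists_subgroup_card_pow_prime p (G := G) (n := s)
    (hG ▸ pow_dvd_pow p hsm.le)
  -- every subgroup of order at most `p ^ s` lies in `H`
  have hle : ∀ (K : Subgroup G) (k : ℕ), Nat.card K = p ^ k → k ≤ s → K ≤ H := by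
    intro K k hK hk
    obtain ⟨L, hL1, hL2⟩ := Sylow.exists_subgroup_card_pow_prime_le p (hG ▸ pow_dvd_pow p hsm.le)
      K hK hk
    rw [← huniq L H hL1 hH]
    exact hL2
  -- `H` is cyclic
  have hHc : IsCyclic H := by
    obtain ⟨K, hK⟩ := Sylow.exists_subgroup_card_pow_prime p (G := G) (n := s + 1)
      (hG ▸ pow_dvd_pow p hsm)
    have hKp : IsPGroup p K := hP.to_subgroup K
    have hKc : IsCyclic K := by
      apply isCyclic_of_isCoatom_unique
      have key : ∀ M : Subgroup K, IsCoatom M → M.map K.subtype = H := by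
        intro M hM
        apply huniq _ _ _ hH
        rw [card_map_subtype]
        have h1 := M.card_mul_index
        rw [index_eq_of_isCoatom_of_isPGroup hKp hM, hK, pow_succ] at h1
        exact Nat.eq_of_mul_eq_mul_right hp.pos h1
      intro M N hM hN
      exact Subgroup.map_injective K.subtype_injective ((key M hM).trans (key N hN).symm)
    obtain ⟨L, hL⟩ := Sylow.exists_subgroup_card_pow_prime p (G := K) (n := s)
      (hK ▸ pow_dvd_pow p (Nat.le_succ s))
    have h1 : L.map K.subtype = H := huniq _ _ (by rw [card_map_subtype, hL]) hH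
    rw [← h1]
    exact isCyclic_of_surjective _ (K.subtype.subgroupMap_surjective L)
  have hu : ∀ A B : Subgroup G, Nat.card A = p → Nat.card B = p → A = B := by
    intro A B hA hB
    have hAH := hle A 1 (by rw [hA, pow_one]) hs
    have hBH := hle B 1 (by rw [hB, pow_one]) hs
    exact PG.eq_of_card_eq_of_isCyclic hAH hBH (hA.trans hB.symm)
  rcases Cfsg.Agent.S0016.result p hP hu with h | ⟨rfl, n, ⟨e⟩⟩
  · exact h
  · have hs2 : 2 ≤ s := h2.resolve_left (fun h => h rfl)
    have : NeZero (2 ^ n) := ⟨by positivity⟩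
    have hcard : 2 ^ m = 4 * 2 ^ n := by
      rw [← hG, Nat.card_congr e.toEquiv, Nat.card_eq_fintype_card, QuaternionGroup.card]
    have hm : m = n + 2 := by
      apply Nat.pow_right_injective (le_refl 2)
      simp only
      rw [hcard]; ring
    have hx : orderOf (e.symm (QuaternionGroup.xa 0)) = 2 ^ 2 := by
      rw [MulEquiv.orderOf_eq, QuaternionGroup.orderOf_xa]; rfl
    have ha : orderOf (e.symm (QuaternionGroup.a 1)) = 2 ^ (n + 1) := by
      rw [MulEquiv.orderOf_eq, QuaternionGroup.orderOf_a_one]; ring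
    have h1 := hle (Subgroup.zpowers (e.symm (QuaternionGroup.xa 0))) 2
      (by rw [Nat.card_zpowers, hx]) hs2
    obtain ⟨L, hL⟩ := Sylow.exists_subgroup_card_pow_prime 2
      (G := Subgroup.zpowers (e.symm (QuaternionGroup.a 1))) (n := s)
      (by rw [Nat.card_zpowers, ha]; exact pow_dvd_pow 2 (by omega))
    have h3 : L.map (Subgroup.subtype _) = H := huniq _ _ (by rw [card_map_subtype, hL]) hH
    have h4 := (h1.trans h3.ge).trans (Subgroup.map_subtype_le L) (Subgroup.mem_zpowers _)
    obtain ⟨k, hk⟩ := PG.exists_pow_eq_of_mem_zpowers h4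
    rw [← map_pow, e.symm.injective.eq_iff, QuaternionGroup.a_one_pow] at hk
    cases hk

end Cfsg.Agent.S3977
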