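import Cfsg.Statements.S3978
import Cfsg.Agent.S3956

set_option autoImplicit false
open Cfsg

namespace Cfsg.Agent.S3978

open Cfsg.Lib.Solv

/-- A finite group `Q` has trivial Schur multiplier if and only if, for every `n`, every homomorphism from `Q` to the projective general linear group (the quotient of `GL n ℂ` by its centre) lifts to a homomorphism into `GL n ℂ`. -/
theorem result {Q : Type*} [Group Q] [Finite Q] : Cfsg.HasCyclicSchurMultiplier Q 1 ↔ ∀ (n : ℕ) (γ : Q →* (GL (Fin n) ℂ ⧸ Subgroup.center (GL (Fin n) ℂ))), ∃ ρ : Q →* GL (Fin n) ℂ, (QuotientGroup.mk' (Subgroup.center (GL (Fin n) ℂ))).comp ρ = γ := by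
  constructor
  · intro h n γ
    have : Unique (Multiplicative (ZMod 1)) := inferInstanceAs (Unique (Fin 1))
    have : Unique (MonoidHom.id Q).ker := by rw [MonoidHom.ker_id]; infer_instance
    exact S3955.result h _ (isStemExtension_id Q) ⟨MulEquiv.ofUnique⟩ n γ
  · intro h
    rw [hasCyclicSchurMultiplier_one_iff_hopfM (freePres_surjective Q),
      Subgroup.eq_bot_iff_forall]
    intro x hx
    exact S3956.hopf_injective (MonoidHom.id Q) h (hopfπ _) rfl x hx hx.1

end Cfsg.Agent.S3978
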