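import Cfsg.Statements.S3980
import Cfsg.Agent.S3959

set_option autoImplicit false
universe u v w
open Cfsg

namespace Cfsg.Agent.S3980

/-- Let `Q₁` and `Q₂` be finite groups whose commutator quotients have coprime orders, with Schur multipliers `A` and `B`. Then the Schur multiplier of `Q₁ × Q₂` is isomorphic to `A × B`. -/
theorem result {Q₁ : Type u} {Q₂ : Type v} [Group Q₁] [Group Q₂] [Finite Q₁] [Finite Q₂] {A B : Type w} [CommGroup A] [CommGroup B] (hA : Cfsg.HasSchurMultiplier Q₁ A) (hB : Cfsg.HasSchurMultiplier Q₂ B) (hcop : Nat.Coprime (Nat.card (Abelianization Q₁)) (Nat.card (Abelianization Q₂))) : Cfsg.HasSchurMultiplier (Q₁ × Q₂) (A × B) := by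
  have h := S3959.result hA hB
  have hs : ∀ t : S3959.Tens Q₁ Q₂, t = 1 := by
    intro t
    induction t using S3959.tens_induction with
    | one => rfl
    | mul s t hs ht => rw [hs, ht, one_mul]
    | base x y =>
      have h1 : S3959.tensHom Q₁ Q₂ x y ^ Nat.card (Abelianization Q₁) = 1 := by
        rw [← MonoidHom.pow_apply, ← map_pow]
        change Multiplicative.ofAdd (Additive.ofMul (Abelianization.of (x ^ _)) ⊗ₜ[ℤ] _) = 1
        rw [map_pow, pow_card_eq_one']
        simp
      have h2 : S3959.tensHom Q₁ Q₂ x y ^ Nat.card (Abelianization Q₂) = 1 := by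
        rw [← map_pow]
        change Multiplicative.ofAdd (_ ⊗ₜ[ℤ] Additive.ofMul (Abelianization.of (y ^ _))) = 1
        rw [map_pow, pow_card_eq_one']
        simp
      exact (pow_gcd_eq_one.2 ⟨h1, h2⟩ ▸ by rw [hcop.gcd_eq_one, pow_one])
  have : Unique (S3959.Tens Q₁ Q₂) := ⟨⟨1⟩, hs⟩
  exact Cfsg.Lib.Solv.hasSchurMultiplier_congr_right h
    (MulEquiv.prodCongr (MulEquiv.refl A) MulEquiv.prodUnique)

end Cfsg.Agent.S3980
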