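import Cfsg.Statements.S3994
import Cfsg.Agent.Solv.FrobCount

set_option autoImplicit false
open Cfsg

namespace Cfsg.Agent.S3994

open Cfsg.Lib.Solv

/-- Let G be a finite group and n a positive integer. The number of elements of G whose order is divisible by n is either 0 or divisible by the largest divisor of the order of G that is coprime to n. -/
theorem result {G : Type*} [Group G] [Finite G] (n : ℕ) (hn : 0 < n) :
    Nat.card {g : G // n ∣ orderOf g} = 0 ∨
      (Nat.card G / Nat.gcd (Nat.card G) (n ^ Nat.card G)) ∣ Nat.card {g : G // n ∣ orderOf g} := by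
  right
  rw [Nat.dvd_iff_prime_pow_dvd_dvd]
  intro p k hp hk
  rcases Nat.eq_zero_or_pos k with rfl | hk0
  · simp
  have := Fact.mk hp
  have hg := Nat.gcd_dvd_left (Nat.card G) (n ^ Nat.card G)
  have hpn : ¬ p ∣ n := by
    intro hpn
    have h1 : p ^ (Nat.card G).factorization p ∣ Nat.gcd (Nat.card G) (n ^ Nat.card G) :=
      Nat.dvd_gcd (Nat.ordProj_dvd _ _) ((pow_dvd_pow p (Nat.factorization_lt p
        Nat.card_pos.ne').le).trans (pow_dvd_pow_of_dvd hpn _))
    have h2 := Nat.mul_dvd_mul h1 ((dvd_pow_self p hk0.ne').trans hk)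
    rw [Nat.mul_div_cancel' hg, ← pow_succ] at h2
    exact Nat.pow_succ_factorization_not_dvd Nat.card_pos.ne' hp h2
  have h1 : p ^ k ∣ Nat.card G := hk.trans (Nat.div_dvd_of_dvd hg)
  have h2 := Frob.gcd_dvd_cnt_pow (⊤ : Subgroup G) (p ^ k) (fun x => n ∣ orderOf x)
    fun x h _ hx => by
      rwa [show h * x * h⁻¹ = MulAut.conj h x from rfl, MulEquiv.orderOf_eq]
  rw [Subgroup.card_top, Nat.gcd_eq_left h1] at h2
  refine h2.trans (dvd_of_eq (Count.cnt_congr fun x => ?_))
  refine ⟨fun h => h.trans (orderOf_pow_dvd _), fun h => ?_⟩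
  have h3 : orderOf x ∣ p ^ k * orderOf (x ^ p ^ k) := by
    rw [orderOf_dvd_iff_pow_eq_one, pow_mul, pow_orderOf_eq_one]
  exact (((Nat.Prime.coprime_iff_not_dvd hp).mpr hpn).symm.pow_right k).dvd_of_dvd_mul_left
    (h.trans h3)

end Cfsg.Agent.S3994
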