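import Cfsg.Statements.S3995
import Cfsg.Agent.Solv.UniqueInvol
import Cfsg.Agent.Solv.Quaternion
import Cfsg.Agent.Solv.FrobCount
import Cfsg.Agent.Solv.Miller

set_option autoImplicit false
open Cfsg

namespace Cfsg.Agent.S3995

open Cfsg Cfsg.Lib.Solv

theorem sum_divisors_mul {m n : ℕ} (h : m.Coprime n) (f : ℕ → ℕ) :
    ∑ d ∈ (m * n).divisors, f d = ∑ a ∈ m.divisors, ∑ b ∈ n.divisors, f (a * b) := by
  rw [Nat.divisors_mul, Finset.mul_def, Finset.sum_image h.mul_injOn_divisors, Finset.sum_product]

theorem card_pow_eq_sum {G : Type*} [Group G] [Finite G] {d : ℕ} (hd : d ≠ 0) :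
    Nat.card {x : G // x ^ d = 1} = ∑ m ∈ d.divisors, Nat.card {g : G // orderOf g = m} := by
  classical
  haveI := Fintype.ofFinite G
  simp only [Nat.card_eq_fintype_card, Fintype.card_subtype]
  exact (sum_card_orderOf_eq_card_pow_eq_one hd).symm

theorem isPGroup_of_forall_prime {G : Type*} [Group G] [Finite G] {p : ℕ} [Fact p.Prime]
    (h : ∀ q : ℕ, q.Prime → q ∣ Nat.card G → q = p) : IsPGroup p G :=
  IsPGroup.iff_card.2 ⟨_, Nat.eq_prime_pow_of_unique_prime_dvd Nat.card_pos.ne'
    (fun hq hd => h _ hq hd)⟩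

theorem exponent_eq_of_no_sq {G : Type*} [Group G] [Finite G] [Nontrivial G] {p : ℕ}
    [hp : Fact p.Prime] (hP : IsPGroup p G) (h : ∀ x : G, orderOf x ≠ p ^ 2) :
    Monoid.exponent G = p := by
  refine (Monoid.exponent_eq_prime_iff hp.out).2 (fun x hx => ?_)
  obtain ⟨k, hk⟩ := IsPGroup.iff_orderOf.1 hP x
  rcases k with _ | _ | k
  · exact absurd (orderOf_eq_one_iff.1 hk) hx
  · simpa using hk
  · have := PG.orderOf_pow_prime_pow hp.out hk (k := k) (by omega)
    rw [show k + 1 + 1 - k = 2 by omega] at this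
    exact absurd this (h _)


/-- Let G be a finite group such that the numbers of elements of each order that occurs in G (the numbers #{g : o(g) = m}, m ranging over the element orders of G) take exactly two values, 1 and some n ≠ 1. Then either G is a p-group of exponent p and order at least 3 for some prime p, or G is the quaternion group of order 8, or G is cyclic of order 4, or G ≅ Z₂ × P for a p-group P of exponent p with p an odd prime. -/
theorem result {G : Type*} [Group G] [Finite G] (n : ℕ) (hn : n ≠ 1) (h : ((fun m : ℕ => Nat.card {g : G // orderOf g = m}) '' Set.range (orderOf : G → ℕ)) = {1, n}) :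
    (∃ p : ℕ, p.Prime ∧ IsPGroup p G ∧ 3 ≤ Nat.card G ∧ Monoid.exponent G = p) ∨
      Nonempty (G ≃* QuaternionGroup 2) ∨ (IsCyclic G ∧ Nat.card G = 4) ∨
      (∃ (p : ℕ) (P : Type) (_ : Group P) (_ : Finite P), p.Prime ∧ p ≠ 2 ∧ IsPGroup p P ∧ Monoid.exponent P = p ∧
        Nonempty (G ≃* Multiplicative (ZMod 2) × P)) := by
  classical
  set s : ℕ → ℕ := fun m => Nat.card {g : G // orderOf g = m} with hs
  have hval : ∀ x : G, s (orderOf x) = 1 ∨ s (orderOf x) = n := fun x => by
    have : s (orderOf x) ∈ s '' Set.range (orderOf : G → ℕ) := ⟨_, ⟨x, rfl⟩, rfl⟩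
    rw [h] at this
    simpa using this
  have hex : ∃ x : G, s (orderOf x) = n := by
    have : n ∈ s '' Set.range (orderOf : G → ℕ) := by rw [h]; simp
    obtain ⟨_, ⟨x, rfl⟩, hx⟩ := this
    exact ⟨x, hx⟩
  have htot : ∀ m, m.totient ∣ s m := fun m =>
    Dvd.intro_left _ (Count.cnt_orderOf_eq (G := G) m).symm
  have hs1 : s 1 = 1 := Count.cnt_eq_one (P := fun g : G => orderOf g = 1) (a := 1) orderOf_one
    (fun x hx => orderOf_eq_one_iff.1 hx)
  have hval3 : ∀ x : G, 3 ≤ orderOf x → s (orderOf x) = n := fun x hx => by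
    refine (hval x).resolve_left (fun h1 => ?_)
    have h2 := htot (orderOf x)
    rw [h1, Nat.dvd_one, Nat.totient_eq_one_iff] at h2
    omega
  have hval0 : ∀ m, 3 ≤ m → s m = 0 ∨ s m = n := fun m hm => by
    by_cases h1 : ∃ x : G, orderOf x = m
    · obtain ⟨x, rfl⟩ := h1
      exact Or.inr (hval3 x hm)
    · push Not at h1
      exact Or.inl (Count.cnt_eq_zero h1)
  have hfrob : ∀ d, d ∣ Nat.card G → d ∣ ∑ m ∈ d.divisors, s m := fun d hd => by
    have hd0 : d ≠ 0 := by rintro rfl; exact Nat.card_pos.ne' (zero_dvd_iff.1 hd)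
    rw [← card_pow_eq_sum hd0]
    exact Frob.dvd_card_pow_eq_one hd
  have hprime : ∀ p : ℕ, p.Prime → p ∣ Nat.card G → p ∣ s p + 1 := fun p hp hd => by
    have := hfrob p hd
    rwa [hp.sum_divisors, hs1] at this
  have hcauchy : ∀ p : ℕ, p.Prime → p ∣ Nat.card G → ∃ x : G, orderOf x = p := fun p hp hd => by
    haveI := Fact.mk hp
    exact exists_prime_orderOf_dvd_card' p hd
  have hodd : ∀ p : ℕ, p.Prime → p ∣ Nat.card G → p ≠ 2 → s p = n := fun p hp hd h2 => by
    obtain ⟨x, rfl⟩ := hcauchy p hp hd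
    exact hval3 x (by have := hp.two_le; omega)
  -- no elements of order `p ^ 2`
  have hA : ∀ p : ℕ, p.Prime → s p = n → ∀ x : G, orderOf x ≠ p ^ 2 := by
    intro p hp hsp x hx
    have hd : p ^ 2 ∣ Nat.card G := hx ▸ orderOf_dvd_natCard x
    have h1 := hprime p hp ((dvd_pow_self p two_ne_zero).trans hd)
    have h2 := (dvd_pow_self p two_ne_zero).trans (hfrob _ hd)
    have h3 : s (p ^ 2) = n := by
      rw [← hx]; refine hval3 x ?_
      rw [hx]; have := hp.two_le; nlinarith
    rw [Nat.sum_divisors_prime_pow hp] at h2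
    simp only [Finset.sum_range_succ, Finset.range_one, Finset.sum_singleton, pow_zero, pow_one,
      hs1, hsp, h3] at h2
    rw [hsp] at h1
    have h4 : p ∣ 2 * (n + 1) := h1.mul_left 2
    have h5 : 2 * (n + 1) = (1 + n + n) + 1 := by ring
    rw [h5] at h4
    exact hp.one_lt.ne' (Nat.dvd_one.1 ((Nat.dvd_add_right h2).1 h4))
  -- only one prime
  have hB : ∀ p q : ℕ, p.Prime → q.Prime → p ∣ Nat.card G → q ∣ Nat.card G → s p = n → s q = n →
      p = q := by
    intro p q hp hq hpd hqd hsp hsq
    by_contra hpq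
    have hcop : p.Coprime q := (Nat.coprime_primes hp hq).2 hpq
    have h1 := hfrob _ (hcop.mul_dvd_of_dvd_of_dvd hpd hqd)
    rw [sum_divisors_mul hcop, hp.sum_divisors, hq.sum_divisors, hq.sum_divisors] at h1
    simp only [mul_one, one_mul, hs1, hsp, hsq] at h1
    have h2 : p * q ∣ n + 1 :=
      hcop.mul_dvd_of_dvd_of_dvd (hsp ▸ hprime p hp hpd) (hsq ▸ hprime q hq hqd)
    have h6 : 5 ≤ p * q := by
      have := hp.two_le; have := hq.two_le
      rcases Nat.lt_or_gt_of_ne hpq with h | h <;> nlinarith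
    rcases hval0 (p * q) (by omega) with h3 | h3 <;> rw [h3] at h1
    · have h4 : p * q ∣ 2 * (n + 1) := h2.mul_left 2
      have h5 : 2 * (n + 1) = (0 + n + (n + 1)) + 1 := by ring
      rw [h5] at h4
      have := Nat.le_of_dvd one_pos ((Nat.dvd_add_right h1).1 h4)
      omega
    · have h4 : p * q ∣ 3 * (n + 1) := h2.mul_left 3
      have h5 : 3 * (n + 1) = (n + n + (n + 1)) + 2 := by ring
      rw [h5] at h4
      have := Nat.le_of_dvd two_pos ((Nat.dvd_add_right h1).1 h4)
      omega
  by_cases h2 : s 2 = 1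
  swap
  · left
    have hall : ∀ p : ℕ, p.Prime → p ∣ Nat.card G → s p = n := fun p hp hd => by
      by_cases hp2 : p = 2
      · subst hp2
        obtain ⟨x, hx⟩ := hcauchy 2 hp hd
        exact ((hx ▸ hval x :) : s 2 = 1 ∨ s 2 = n).resolve_left h2
      · exact hodd p hp hd hp2
    obtain ⟨x, hx⟩ := hex
    have hx1 : x ≠ 1 := by
      rintro rfl
      rw [orderOf_one, hs1] at hx
      exact hn hx.symm
    haveI : Nontrivial G := ⟨⟨x, 1, hx1⟩⟩
    have hc1 : Nat.card G ≠ 1 := Finite.one_lt_card.ne'
    have hp := Nat.minFac_prime hc1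
    set p := (Nat.card G).minFac
    haveI := Fact.mk hp
    have hP : IsPGroup p G := isPGroup_of_forall_prime (fun q hq hd =>
      hB q p hq hp hd (Nat.minFac_dvd _) (hall q hq hd) (hall p hp (Nat.minFac_dvd _)))
    refine ⟨p, hp, hP, ?_, exponent_eq_of_no_sq hP (hA p hp (hall p hp (Nat.minFac_dvd _)))⟩
    by_contra h3
    have h4 : Nat.card G = 2 := by have := Finite.one_lt_card (α := G); omega
    apply h2
    obtain ⟨y, hy⟩ := hcauchy 2 Nat.prime_two h4.symm.dvd
    refine Count.cnt_eq_one (P := fun g : G => orderOf g = 2) (a := y) hy (fun z hz => ?_)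
    obtain ⟨w, -, hw⟩ := (Nat.card_eq_two_iff' (1 : G)).1 h4
    rw [hw z (by rintro rfl; simp at hz), hw y (by rintro rfl; simp at hy)]
  · right
    obtain ⟨⟨z, hz⟩, hzu⟩ := Nat.card_eq_one_iff_exists.1 h2
    have huniq : ∀ x : G, orderOf x = 2 → x = z := fun x hx => congrArg Subtype.val (hzu ⟨x, hx⟩)
    have hzc : z ∈ Subgroup.center G := Subgroup.mem_center_iff.2 (fun g => by
      have := huniq (g * z * g⁻¹) (by rw [← hz]; exact (MulAut.conj g).orderOf_eq z)
      exact mul_inv_eq_iff_eq_mul.1 this)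
    have h4 : 4 ∣ Nat.card G → s 4 = n ∧ 4 ∣ n + 2 := fun hd => by
      have h5 := hfrob 4 hd
      rw [show (4 : ℕ).divisors = {1, 2, 4} from by decide] at h5
      simp only [Finset.mem_insert, Finset.mem_singleton, Finset.sum_insert, Finset.sum_singleton,
        hs1, h2, OfNat.one_ne_ofNat, or_self, not_false_eq_true, Nat.reduceEqDiff] at h5
      rcases hval0 4 (by norm_num) with h6 | h6 <;> rw [h6] at h5
      · omega
      · exact ⟨h6, by omega⟩
    by_cases hodd' : ∃ p : ℕ, p.Prime ∧ p ∣ Nat.card G ∧ p ≠ 2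
    · right; right
      obtain ⟨p, hp, hpd, hp2⟩ := hodd'
      haveI := Fact.mk hp
      have hsp := hodd p hp hpd hp2
      have hcop : Nat.Coprime 2 p := (Nat.coprime_primes Nat.prime_two hp).2 hp2.symm
      have hp3 : 3 ≤ p := by have := hp.two_le; omega
      have hn4 : ¬ 4 ∣ Nat.card G := fun hd => by
        have hcop4 : Nat.Coprime 4 p := hcop.pow_left 2
        obtain ⟨h5, -⟩ := h4 hd
        obtain ⟨x, hx⟩ := hcauchy p hp hpd
        have h6 : s (2 * p) = n := by
          have : orderOf (z * x) = 2 * p := by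
            rw [Commute.orderOf_mul_eq_mul_orderOf_of_coprime
              (Subgroup.mem_center_iff.1 hzc x).symm (by rw [hz, hx]; exact hcop), hz, hx]
          rw [← this]; exact hval3 _ (by omega)
        have h7 := (dvd_mul_left p 4).trans (hfrob _ (hcop4.mul_dvd_of_dvd_of_dvd hd hpd))
        rw [sum_divisors_mul hcop4, show (4 : ℕ).divisors = {1, 2, 4} from by decide] at h7
        simp only [Finset.mem_insert, Finset.mem_singleton, Finset.sum_insert, Finset.sum_singleton,
          hp.sum_divisors, mul_one, one_mul,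
          hs1, h2, h5, h6, hsp, OfNat.one_ne_ofNat, or_self, not_false_eq_true, Nat.reduceEqDiff] at h7
        have h8 := hsp ▸ hprime p hp hpd
        rcases hval0 (4 * p) (by omega) with h9 | h9 <;> rw [h9] at h7
        · have h10 : p ∣ 3 * (n + 1) := h8.mul_left 3
          have h11 : 3 * (n + 1) = (n + 1 + (n + 1 + (0 + n))) + 1 := by ring
          rw [h11] at h10
          have := Nat.le_of_dvd one_pos ((Nat.dvd_add_right h7).1 h10)
          omega
        · have h10 : p ∣ 4 * (n + 1) := h8.mul_left 4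
          have h11 : 4 * (n + 1) = (n + 1 + (n + 1 + (n + n))) + 2 := by ring
          rw [h11] at h10
          have := Nat.le_of_dvd two_pos ((Nat.dvd_add_right h7).1 h10)
          omega
      set Z := Subgroup.zpowers z
      have hZc : Z ≤ Subgroup.center G := Subgroup.zpowers_le.2 hzc
      haveI : Z.Normal := ⟨fun a ha g => by
        rw [Subgroup.mem_center_iff.1 (hZc ha) g]; simpa using ha⟩
      have hZ : Nat.card Z = 2 := by rw [Nat.card_zpowers, hz]
      have hZi : ¬ 2 ∣ Z.index := fun hd => hn4 (by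
        rw [← Z.card_mul_index, hZ]; exact Nat.mul_dvd_mul_left 2 hd)
      obtain ⟨K, hK⟩ := Subgroup.exists_right_complement'_of_coprime (N := Z)
        (by rw [hZ]; exact (Nat.Prime.coprime_iff_not_dvd Nat.prime_two).2 hZi)
      have hKc : Nat.card K = Z.index := hK.symm.index_eq_card.symm
      have hKP : IsPGroup p K := isPGroup_of_forall_prime (fun q hq hd => by
        have hd' := hd.trans K.card_subgroup_dvd_card
        refine hB q p hq hp hd' hpd (hodd q hq hd' ?_) hsp
        rintro rfl
        exact hZi (hKc ▸ hd))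
      haveI : Nontrivial K := by
        rw [← Finite.one_lt_card_iff_nontrivial]
        by_contra h5
        have h6 : Nat.card K = 1 := by have := Nat.card_pos (α := K); omega
        have h7 := hK.card_mul_card
        rw [hZ, h6] at h7
        rw [← h7] at hpd
        have := Nat.le_of_dvd (by norm_num) hpd
        omega
      have hexp : Monoid.exponent K = p := exponent_eq_of_no_sq hKP (fun x hx =>
        hA p hp hsp x (by rwa [Subgroup.orderOf_coe]))
      let f : Z × K →* G := MonoidHom.noncommCoprod Z.subtype K.subtype (fun a b =>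
        (Subgroup.mem_center_iff.1 (hZc a.2) b).symm)
      let e := (MulEquiv.ofBijective f hK).symm
      let e1 : Shrink.{0} K ≃* K := Shrink.mulEquiv
      let e2 : Multiplicative (ZMod 2) ≃* Z := mulEquivOfPrimeCardEq (p := 2) (by simp) hZ
      exact ⟨p, Shrink.{0} K, inferInstance, Finite.of_equiv _ e1.symm.toEquiv, hp, hp2,
        hKP.of_equiv e1.symm, by rw [Monoid.exponent_eq_of_mulEquiv e1, hexp],
        ⟨e.trans (e2.symm.prodCongr e1.symm)⟩⟩
    · push Not at hodd'
      haveI : Fact (Nat.Prime 2) := ⟨Nat.prime_two⟩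
      have hP : IsPGroup 2 G := isPGroup_of_forall_prime hodd'
      have hd4 : 4 ∣ Nat.card G := by
        obtain ⟨x, hx⟩ := hex
        obtain ⟨k, hk⟩ := IsPGroup.iff_orderOf.1 hP x
        refine Dvd.dvd.trans ?_ (orderOf_dvd_natCard x)
        rw [hk] at hx ⊢
        rcases k with _ | _ | k
        · exact absurd (hx.symm.trans hs1) hn
        · exact absurd (hx.symm.trans h2) hn
        · exact Dvd.intro (2 ^ k) (by ring)
      obtain ⟨-, h5⟩ := h4 hd4
      have h8 : ∀ (x : G) (k : ℕ), orderOf x = 2 ^ k → k ≤ 2 := by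
        intro x k hk
        by_contra h6
        have h7 := PG.orderOf_pow_prime_pow Nat.prime_two hk (k := k - 3) (by omega)
        rw [show k - (k - 3) = 3 by omega] at h7
        have h9 := hval3 (x ^ 2 ^ (k - 3)) (by rw [h7]; norm_num)
        have h10 := htot (2 ^ 3)
        rw [h7] at h9
        rw [h9, show Nat.totient (2 ^ 3) = 4 from by decide] at h10
        omega
      rcases PG.isCyclic_or_exists_gens_of_unique_involution hP
        (fun x y hx hy => (huniq x hx).trans (huniq y hy).symm) with h1 |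
        ⟨a, x, k, hk, ha, hx, htop, hc, h9, h10⟩
      · right; left
        refine ⟨h1, ?_⟩
        obtain ⟨g, hg⟩ := IsCyclic.exists_ofOrder_eq_natCard (α := G)
        obtain ⟨k, hk⟩ := IsPGroup.iff_orderOf.1 hP g
        have h11 := h8 g k hk
        rw [← hg, hk] at hd4 ⊢
        interval_cases k
        · exact absurd hd4 (by decide)
        · exact absurd hd4 (by decide)
        · rfl
      · left
        obtain rfl : k = 2 := le_antisymm (h8 a k ha) hk
        exact PG.nonempty_mulEquiv_quaternionGroup (n := 2) (s := x) (r := a) ha h10 h9 hx htop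

end Cfsg.Agent.S3995
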