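import Cfsg.Statements.S3998
import Cfsg.Agent.S0531
import Cfsg.Agent.S0532
import Cfsg.Agent.Solv.Supersolvable

set_option autoImplicit false
open Cfsg

namespace Cfsg.Agent.S3998

universe u v

/-- number of elements all of whose order's primes are at least `n` -/
noncomputable def cnt (G : Type*) [Group G] (n : ℕ) : ℕ :=
  Nat.card {x : G // ∀ q : ℕ, q.Prime → q ∣ orderOf x → n ≤ q}

theorem cnt_zero (G : Type*) [Group G] : cnt G 0 = Nat.card G :=
  Nat.card_congr (Equiv.subtypeUnivEquiv (fun _ _ _ _ => Nat.zero_le _))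

theorem cnt_big (G : Type*) [Group G] [Finite G] (n : ℕ)
    (h : ∀ q : ℕ, q.Prime → q ∣ Nat.card G → q < n) : cnt G n = 1 := by
  unfold cnt
  rw [Nat.card_eq_one_iff_unique]
  have key : ∀ x : G, (∀ q : ℕ, q.Prime → q ∣ orderOf x → n ≤ q) → x = 1 := by
    intro x hx
    by_contra hne
    have h1 : orderOf x ≠ 1 := fun h => hne (orderOf_eq_one_iff.mp h)
    have := hx _ (Nat.minFac_prime h1) (Nat.minFac_dvd _)
    have h2 := h _ (Nat.minFac_prime h1) ((Nat.minFac_dvd _).trans (orderOf_dvd_natCard x))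
    omega
  refine ⟨⟨fun a b => Subtype.ext ((key a.1 a.2).trans (key b.1 b.2).symm)⟩, ⟨⟨1, ?_⟩⟩⟩
  intro q hq hd
  rw [orderOf_one] at hd
  exact absurd (Nat.dvd_one.mp hd) hq.ne_one

theorem cnt_quot {G : Type*} [Group G] [Finite G] {p : ℕ} (hp : p.Prime) (P : Subgroup G) [P.Normal]
    (hP : IsPGroup p P) (n : ℕ) (hn : n ≤ p) : cnt G n = Nat.card P * cnt (G ⧸ P) n := by
  haveI := Fact.mk hp
  unfold cnt
  have e := QuotientGroup.preimageMkEquivSubgroupProdSet P
    {y : G ⧸ P | ∀ q : ℕ, q.Prime → q ∣ orderOf y → n ≤ q}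
  rw [← Nat.card_prod]
  refine Nat.card_congr (Equiv.trans (Equiv.subtypeEquivRight ?_) e)
  intro x
  simp only [Set.mem_preimage, Set.mem_setOf_eq]
  constructor
  · intro h q hq hd
    exact h q hq (hd.trans (orderOf_map_dvd (QuotientGroup.mk' P) x))
  · intro h q hq hd
    have h1 : x ^ orderOf (x : G ⧸ P) ∈ P := by
      rw [← QuotientGroup.eq_one_iff, QuotientGroup.mk_pow, pow_orderOf_eq_one]
    obtain ⟨k, hk⟩ := hP ⟨_, h1⟩
    have h2 : x ^ (orderOf (x : G ⧸ P) * p ^ k) = 1 := by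
      rw [pow_mul]; exact congrArg Subtype.val hk
    have h3 := hd.trans (orderOf_dvd_of_pow_eq_one h2)
    rcases (Nat.Prime.dvd_mul hq).mp h3 with h4 | h4
    · exact h q hq h4
    · rw [(Nat.prime_dvd_prime_iff_eq hq hp).mp (hq.dvd_of_dvd_pow h4)]; exact hn

theorem mem_cnt_of_mem {G : Type*} [Group G] [Finite G] {p : ℕ} (hp : p.Prime) (P : Subgroup G)
    (hP : IsPGroup p P) (x : G) (hx : x ∈ P) : ∀ q : ℕ, q.Prime → q ∣ orderOf x → p ≤ q := by
  intro q hq hd
  obtain ⟨k, hk⟩ := hP ⟨_, hx⟩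
  have h2 : x ^ (p ^ k) = 1 := congrArg Subtype.val hk
  have h3 := hd.trans (orderOf_dvd_of_pow_eq_one h2)
  rw [(Nat.prime_dvd_prime_iff_eq hq hp).mp (hq.dvd_of_dvd_pow h3)]

theorem hquot {p N : ℕ} [Fact p.Prime] (hmax' : ∀ q : ℕ, q.Prime → q ∣ N → q ≤ p)
    {K : Type*} [Group K] [Finite K] (R : Sylow p K) [(R : Subgroup K).Normal]
    (hK : Nat.card K = N) (q : ℕ) (hq : q.Prime) (hd : q ∣ Nat.card (K ⧸ (R : Subgroup K))) :
    q < p := by
  have h2 : q ≤ p := hmax' q hq (hK ▸ hd.trans (Subgroup.card_quotient_dvd_card _))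
  rcases h2.lt_or_eq with h3 | h3
  · exact h3
  · exact absurd (h3 ▸ hd) R.not_dvd_index

theorem main (N : ℕ) : ∀ (G : Type u) (H : Type v) [Group G] [Finite G] [Group H] [Finite H],
    Nat.card G = N → Cfsg.IsSupersolvable G → (∀ n, cnt G n = cnt H n) → Group.IsSolvable H := by
  induction N using Nat.strong_induction_on with
  | _ N ih =>
  intro G H _ _ _ _ hN hG hc
  have hcard : Nat.card G = Nat.card H := by rw [← cnt_zero, ← cnt_zero, hc]
  by_cases h1 : N = 1
  · have : Subsingleton H := (Nat.card_eq_one_iff_unique.mp (by rw [← hcard, hN, h1])).1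
    exact Group.isSolvable_of_comm (fun a b => Subsingleton.elim _ _)
  have hN0 : N ≠ 0 := by rw [← hN]; exact Nat.card_pos.ne'
  have hne : N.primeFactors.Nonempty := Nat.nonempty_primeFactors.mpr (by omega)
  obtain ⟨p, hpm, hmax⟩ := N.primeFactors.exists_max_image id hne
  have hp : p.Prime := Nat.prime_of_mem_primeFactors hpm
  have hpd : p ∣ N := Nat.dvd_of_mem_primeFactors hpm
  have hmax' : ∀ q : ℕ, q.Prime → q ∣ N → q ≤ p := fun q hq hd =>
    hmax q (Nat.mem_primeFactors.mpr ⟨hq, hd, hN0⟩)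
  haveI := Fact.mk hp
  obtain ⟨P⟩ : Nonempty (Sylow p G) := inferInstance
  obtain ⟨Q⟩ : Nonempty (Sylow p H) := inferInstance
  have hPn : (P : Subgroup G).Normal :=
    Cfsg.Agent.S0532.result (fun K => Cfsg.Agent.S0531.result
      (Cfsg.Lib.Solv.isSupersolvable_subgroup hG K)) p (hN ▸ hpd) (hN ▸ hmax') P
  have hPQ : Nat.card (P : Subgroup G) = Nat.card (Q : Subgroup H) := by
    rw [P.card_eq_multiplicity, Q.card_eq_multiplicity, hcard]
  have hcP : cnt G p = Nat.card (P : Subgroup G) := by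
    rw [cnt_quot hp P P.isPGroup' p le_rfl, cnt_big _ _ (hquot hmax' P hN), mul_one]
  have hQ : ∀ x : H, (∀ q : ℕ, q.Prime → q ∣ orderOf x → p ≤ q) → x ∈ (Q : Subgroup H) := by
    have hsub : ((Q : Subgroup H) : Set H) ⊆ {x | ∀ q : ℕ, q.Prime → q ∣ orderOf x → p ≤ q} :=
      fun x hx => mem_cnt_of_mem hp _ Q.isPGroup' x hx
    have heq := Set.eq_of_subset_of_ncard_le hsub (by
      rw [← Nat.card_coe_set_eq, ← Nat.card_coe_set_eq]
      exact le_of_eq ((hc p).symm.trans (hcP.trans hPQ)))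
    intro x hx
    have : x ∈ ((Q : Subgroup H) : Set H) := heq ▸ hx
    exact this
  have hQn : (Q : Subgroup H).Normal := ⟨fun x hx g => hQ _ (by
    have : orderOf (g * x * g⁻¹) = orderOf x := by
      rw [← MulAut.conj_apply]; exact MulEquiv.orderOf_eq _ _
    rw [this]
    exact mem_cnt_of_mem hp _ Q.isPGroup' x hx)⟩
  have hP1 : 1 < Nat.card (P : Subgroup G) := by
    rw [P.card_eq_multiplicity]
    exact Nat.one_lt_pow (Nat.Prime.factorization_pos_of_dvd hp (hN ▸ hN0) (hN ▸ hpd)).ne' hp.one_lt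
  have hlt : Nat.card (G ⧸ (P : Subgroup G)) < N := by
    have := Subgroup.card_eq_card_quotient_mul_card_subgroup (P : Subgroup G)
    have h0 : 0 < Nat.card (G ⧸ (P : Subgroup G)) := Nat.card_pos
    rw [← hN, this]
    nlinarith
  have hs : Group.IsSolvable (H ⧸ (Q : Subgroup H)) := by
    refine ih _ hlt (G ⧸ (P : Subgroup G)) (H ⧸ (Q : Subgroup H)) rfl
      (Cfsg.Lib.Solv.isSupersolvable_quotient hG _) ?_
    intro n
    by_cases hn : n ≤ p
    · have h2 := hc n
      rw [cnt_quot hp P P.isPGroup' n hn, cnt_quot hp (Q : Subgroup H) Q.isPGroup' n hn, hPQ] at h2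
      exact Nat.eq_of_mul_eq_mul_left Nat.card_pos h2
    · rw [cnt_big _ _ (fun q hq hd => (hquot hmax' P hN q hq hd).trans (by omega)),
        cnt_big _ _ (fun q hq hd => (hquot hmax' Q (hcard ▸ hN) q hq hd).trans (by omega))]
  haveI : Group.IsNilpotent (Q : Subgroup H) := Q.isPGroup'.isNilpotent
  exact (Group.isSolvable_iff_subgroup_quotient (Q : Subgroup H)).mpr
    ⟨IsNilpotent.to_isSolvable, hs⟩


/-- Let G and H be finite groups with the same order type (for every m the same number of elements of order m). If G is supersolvable then H is solvable. -/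
theorem result {G H : Type*} [Group G] [Finite G] [Group H] [Finite H] (hT : (∀ m : ℕ, Nat.card {g : G // orderOf g = m} = Nat.card {h : H // orderOf h = m})) (hG : Cfsg.IsSupersolvable G) :
    Group.IsSolvable H := by
  have e : ∀ m : ℕ, {g : G // orderOf g = m} ≃ {h : H // orderOf h = m} := fun m =>
    Classical.choice (Finite.card_eq.mp (hT m))
  refine main _ G H rfl hG (fun n => Nat.card_congr ((Equiv.ofFiberEquiv e).subtypeEquiv ?_))
  intro x
  rw [Equiv.ofFiberEquiv_map e x]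

end Cfsg.Agent.S3998
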