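import Cfsg.Statements.S4001
import Cfsg.Agent.Solv.TwoFrob

set_option autoImplicit false
open Cfsg

namespace Cfsg.Agent.S4001

open Cfsg.Lib.Solv Cfsg.Lib.Solv.TwoFrob Cfsg.Lib.Perm Subgroup

theorem of_cyclic {G : Type*} [Group G] [Finite G] (C : Subgroup G) [IsCyclic C] {p q : ℕ}
    (hp : p.Prime) (hq : q.Prime) (hpq : p ≠ q) (h1 : p ∣ Nat.card C) (h2 : q ∣ Nat.card C) :
    ∃ g : G, orderOf g = p * q := by
  obtain ⟨c, hc⟩ := IsCyclic.exists_ofOrder_eq_natCard (α := C)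
  obtain ⟨k, hk⟩ := GK.exists_orderOf_eq_of_dvd (x := (c : G)) (n := p * q) (by
    rw [orderOf_coe, hc]
    exact ((Nat.coprime_primes hp hq).2 hpq).mul_dvd_of_dvd_of_dvd h1 h2)
  exact ⟨_, hk⟩

theorem exists_mem {G : Type*} [Group G] [Finite G] (C : Subgroup G) {p : ℕ}
    (hp : p.Prime) (h1 : p ∣ Nat.card C) : ∃ g ∈ C, orderOf g = p := by
  have := Fact.mk hp
  obtain ⟨c, hc⟩ := exists_prime_orderOf_dvd_card' p h1
  exact ⟨c, c.2, by rw [orderOf_coe, hc]⟩

/-- Let G be a 2-Frobenius group: it has normal subgroups H < K with K a Frobenius group with kernel H and G/H a Frobenius group with kernel K/H. Then G is solvable; K/H has odd order coprime to the order of H and to the order of G/K (it is the image of an odd-order Hall subgroup); G/K is cyclic; and the prime graph of G has exactly two connected components, both complete: for distinct primes p, q dividing the order of G, G has an element of order pq exactly when p and q either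 both divide the order of K/H or both do not. -/
theorem result {G : Type*} [Group G] [Finite G] (H K : Subgroup G) [H.Normal] [K.Normal] (hlt : H < K)
    (hK : ∃ C : Subgroup ↥K, Cfsg.IsFrobeniusComplement C ∧ Cfsg.frobeniusKernel C = (H.subgroupOf K : Set ↥K))
    (hGH : ∃ C : Subgroup (G ⧸ H), Cfsg.IsFrobeniusComplement C ∧ Cfsg.frobeniusKernel C = (K.map (QuotientGroup.mk' H) : Set (G ⧸ H))) :
    Group.IsSolvable G ∧ Odd (Nat.card (↥K ⧸ H.subgroupOf K)) ∧
      Nat.Coprime (Nat.card (↥K ⧸ H.subgroupOf K)) (Nat.card ↥H * Nat.card (G ⧸ K)) ∧ IsCyclic (G ⧸ K) ∧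
      ∀ p q : ℕ, p.Prime → q.Prime → p ≠ q → p ∣ Nat.card G → q ∣ Nat.card G →
        ((∃ g : G, orderOf g = p * q) ↔ (p ∣ Nat.card (↥K ⧸ H.subgroupOf K) ↔ q ∣ Nat.card (↥K ⧸ H.subgroupOf K))) := by
  obtain ⟨C, D, h, rfl⟩ := exists_TF_of_twoFrobenius hlt hK hGH
  obtain ⟨C₁, h3, h4⟩ := hGH
  obtain ⟨-, -, -, -, b4⟩ := Fpf.of_coe_eq h3 h4
  have e1 : Nat.card (↥(H ⊔ C) ⧸ H.subgroupOf (H ⊔ C)) = Nat.card C := h.relIndex_H
  have e2 : Nat.card (G ⧸ (H ⊔ C)) = Nat.card D := h.index_K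
  have c1 : (Nat.card C).Coprime (Nat.card H) := Fpf.coprime_card (h.CH C) h.fH
  have c2 : (Nat.card C).Coprime (Nat.card D) := (Fpf.coprime_card h.norm h.fC).symm
  have := h.cycD
  have := h.odd_cyclic.2
  rw [e1, e2]
  have mixed : ∀ p q : ℕ, p.Prime → q.Prime → (∃ g : G, orderOf g = p * q) → p ∣ Nat.card C →
      p ≠ q → q ∣ Nat.card C := by
    rintro p q hp hq ⟨g, hg⟩ hpC hpq
    obtain ⟨i, hi⟩ := GK.exists_orderOf_eq_of_dvd (x := g) (n := p) (hg ▸ Dvd.intro q rfl)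
    obtain ⟨j, hj⟩ := GK.exists_orderOf_eq_of_dvd (x := g) (n := q) (hg ▸ Dvd.intro_left p rfl)
    have hxK : g ^ i ∈ H ⊔ C := mem_of_coprime_orderOf_index_of_normal (by
      rw [hi, h.index_K]; exact c2.coprime_dvd_left hpC)
    have hxH : g ^ i ∉ H := fun hm => hp.one_lt.ne'
      ((c1.coprime_dvd_left hpC).eq_one_of_dvd (hi ▸ H.orderOf_dvd_natCard hm))
    have hc : g ^ j * g ^ i = g ^ i * g ^ j := by rw [← pow_add, ← pow_add, add_comm]
    have hyH : g ^ j ∉ H := fun hm => by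
      have := Fpf.eq_one_of_commute (h.fH' hxK hxH) hm hc
      rw [this, orderOf_one] at hj
      exact hq.one_lt.ne hj
    have hyK : g ^ j ∈ H ⊔ C := by
      by_contra hm
      refine hxH ((QuotientGroup.eq_one_iff _).1 (Fpf.eq_one_of_commute (b4 (g ^ j : G) fun h5 => hm ?_)
        (mem_map_of_mem (QuotientGroup.mk' H) hxK) ?_))
      · rwa [← QuotientGroup.mk'_apply, ← mem_comap, comap_map_eq, QuotientGroup.ker_mk',
          sup_eq_left.2 le_sup_left] at h5
      · rw [← QuotientGroup.mk_mul, ← hc, QuotientGroup.mk_mul]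
    by_contra hqC
    refine hyH (mem_of_coprime_orderOf_index_of_normal (H := H.subgroupOf (H ⊔ C))
      (x := ⟨_, hyK⟩) ?_)
    rw [← orderOf_coe, hj]
    exact (hq.coprime_iff_not_dvd.2 hqC).coprime_dvd_right (dvd_of_eq h.relIndex_H)
  refine ⟨h.solvable, h.odd_cyclic.1, c1.mul_right c2,
    isCyclic_of_surjective _ h.isComplement'_K.symm.QuotientMulEquiv.symm.surjective, ?_⟩
  intro p q hp hq hpq hpG hqG
  refine ⟨fun hg => ⟨fun h1 => mixed p q hp hq hg h1 hpq,
    fun h1 => mixed q p hq hp (by rwa [mul_comm]) h1 hpq.symm⟩, fun hiff => ?_⟩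
  by_cases hpC : p ∣ Nat.card C
  · exact of_cyclic C hp hq hpq hpC (hiff.1 hpC)
  have hqC : ¬ q ∣ Nat.card C := fun h1 => hpC (hiff.2 h1)
  rw [h.card_eq] at hpG hqG
  have HD : ∀ p q : ℕ, p.Prime → q.Prime → p ≠ q → p ∣ Nat.card H → q ∣ Nat.card D →
      ∃ g : G, orderOf g = p * q := fun p q hp hq hpq h1 h2 => by
    obtain ⟨y, hy, hyq⟩ := exists_mem D hq h2
    obtain ⟨v, -, hv, hc⟩ := h.exists_commute hp h1 hy
    exact GK.exists_orderOf_mul_of_commute hp hq hpq (hv ▸ dvd_rfl) (hyq ▸ dvd_rfl) hc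
  rcases (hp.dvd_mul.1 hpG).imp_left fun h1 => (hp.dvd_mul.1 h1).resolve_right hpC with h1 | h1 <;>
    rcases (hq.dvd_mul.1 hqG).imp_left fun h1 => (hq.dvd_mul.1 h1).resolve_right hqC with h2 | h2
  · obtain ⟨x, hx, hxp⟩ := exists_mem H hp h1
    obtain ⟨y, hy, hyq⟩ := exists_mem H hq h2
    exact GK.exists_orderOf_mul_of_commute hp hq hpq (hxp ▸ dvd_rfl) (hyq ▸ dvd_rfl)
      (commute_of_mem_of_coprime_of_isNilpotent h.nilH hx hy
        (by rw [hxp, hyq]; exact (Nat.coprime_primes hp hq).2 hpq))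
  · exact HD p q hp hq hpq h1 h2
  · rw [mul_comm]; exact HD q p hq hp hpq.symm h2 h1
  · exact of_cyclic D hp hq hpq h1 h2

end Cfsg.Agent.S4001
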