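import Cfsg.Statements.S4003
import Cfsg.Agent.Solv.FrobCount
import Cfsg.Agent.Solv.Miller

set_option autoImplicit false
open Cfsg

namespace Cfsg.Agent.S4003

open Cfsg.Lib.Solv Cfsg.Lib.Solv.Count Subgroup

/-- Let G be a finite group, p an odd prime dividing the order of G whose Sylow p-subgroups are not cyclic, and n = p^s·m with s > 1 and m coprime to p. Then the number of elements of G of order n is a multiple of p^s. -/
theorem result {G : Type*} [Group G] [Finite G] (p : ℕ) [Fact p.Prime] (hodd : p ≠ 2) (hpG : p ∣ Nat.card G)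
    (P : Sylow p G) (hP : ¬ IsCyclic ↥(P : Subgroup G)) (s m : ℕ) (hs : 1 < s) (hm : Nat.Coprime p m) :
    p ^ s ∣ Nat.card {g : G // orderOf g = p ^ s * m} := by
  have hp : p.Prime := Fact.out
  have hcop : (p ^ s).Coprime m := hm.pow_left s
  have hm0 : m ≠ 0 := by
    rintro rfl
    exact hp.one_lt.ne' (by simpa using hm)
  refine Frob.dvd_cnt_of_rel (fun g : G => orderOf g = p ^ s * m)
    (fun g g' => orderOf g = orderOf g' ∧ IsConj (g ^ p ^ s) (g' ^ p ^ s))
    ⟨fun _ => ⟨rfl, IsConj.refl _⟩, fun h => ⟨h.1.symm, h.2.symm⟩,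
      fun h h' => ⟨h.1.trans h'.1, h.2.trans h'.2⟩⟩ (fun x y hx h => h.1 ▸ hx) ?_
  intro g hg
  set u := g ^ p ^ s with hu
  have huo : orderOf u = m := by
    rw [hu, orderOf_pow_of_dvd (pow_ne_zero _ hp.ne_zero) (hg ▸ dvd_mul_right _ _), hg,
      Nat.mul_div_cancel_left _ (pow_pos hp.pos s)]
  have h1 := cnt_mul_eq_cnt_mul (fun x : G => orderOf g = orderOf x ∧ IsConj u (x ^ p ^ s))
    (fun y : G => IsConj u y) (fun x y => x ^ p ^ s = y) (c := 1)
    (d := cnt (fun y : centralizer ({u} : Set G) => orderOf y = p ^ s))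
    (fun x hx => cnt_eq_one (a := x ^ p ^ s) ⟨hx.2, rfl⟩ fun y hy => hy.2.symm) ?_
  · rw [mul_one] at h1
    rw [h1, cnt_def (fun y : G => IsConj u y), Frob.card_isConj]
    by_cases hpi : p ∣ (centralizer ({u} : Set G)).index
    · obtain ⟨t, rfl⟩ : ∃ t, s = t + 1 := ⟨s - 1, by omega⟩
      rw [cnt_orderOf_eq, Nat.totient_prime_pow_succ hp, pow_succ']
      exact Nat.mul_dvd_mul hpi (((dvd_mul_right _ _)).mul_left _)
    · refine Dvd.dvd.mul_left ?_ _
      obtain ⟨Q⟩ : Nonempty (Sylow p (centralizer ({u} : Set G))) := inferInstance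
      refine pow_dvd_cnt_orderOf hodd Q (fun hQ => hP ?_) hs
      have hc : Nat.card ((Q : Subgroup (centralizer ({u} : Set G))).map (Subgroup.subtype _)) =
          p ^ (Nat.card G).factorization p := by
        rw [card_map_of_injective (subtype_injective _), Q.card_eq_multiplicity,
          ← (centralizer ({u} : Set G)).card_mul_index,
          Nat.factorization_mul Nat.card_pos.ne' index_ne_zero_of_finite, Finsupp.add_apply,
          Nat.factorization_eq_zero_of_not_dvd hpi, add_zero]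
      have e := Sylow.equiv (Sylow.ofCard _ hc) P
      exact isCyclic_of_surjective (e.toMonoidHom.comp
        ((Q : Subgroup (centralizer ({u} : Set G))).equivMapOfInjective _
          (subtype_injective _)).toMonoidHom) (e.surjective.comp (MulEquiv.surjective _))
  · intro y hy
    obtain ⟨c, rfl⟩ := isConj_iff.mp hy
    have h2 : cnt (fun x : G => (orderOf g = orderOf x ∧ IsConj u (x ^ p ^ s)) ∧
        x ^ p ^ s = c * u * c⁻¹) = cnt (fun x : G => orderOf x = p ^ s * m ∧ x ^ p ^ s = u) := by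
      symm
      refine cnt_congr_equiv (MulAut.conj c).toEquiv fun x => ?_
      have h3 : orderOf (c * x * c⁻¹) = orderOf x := (MulAut.conj c).orderOf_eq x
      change _ ↔ (orderOf g = orderOf (c * x * c⁻¹) ∧ IsConj u ((c * x * c⁻¹) ^ p ^ s)) ∧
        (c * x * c⁻¹) ^ p ^ s = c * u * c⁻¹
      rw [h3, conj_pow, hg, mul_left_inj, mul_right_inj]
      constructor
      · rintro ⟨h4, h5⟩
        exact ⟨⟨h4.symm, h5 ▸ hy⟩, h5⟩
      · rintro ⟨⟨h4, -⟩, h5⟩
        exact ⟨h4.symm, h5⟩
    rw [h2]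
    have hb := Nat.gcd_eq_gcd_ab (p ^ s) m
    rw [hcop.gcd_eq_one] at hb
    set a := Nat.gcdA (p ^ s) m
    set b := Nat.gcdB (p ^ s) m
    refine Nat.card_congr (Equiv.ofBijective (fun x => ⟨⟨x.1 ^ m, ?_⟩, ?_⟩) ⟨?_, ?_⟩)
    · rw [mem_centralizer_singleton_iff]
      have := (Commute.pow_pow_self x.1 m (p ^ s)).eq
      rwa [x.2.2] at this
    · beta_reduce
      rw [orderOf_mk, orderOf_pow_of_dvd hm0 (by rw [x.2.1]; exact dvd_mul_left _ _), x.2.1,
        Nat.mul_div_cancel _ (Nat.pos_of_ne_zero hm0)]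
    · rintro ⟨x, hx1, hx2⟩ ⟨x', hx1', hx2'⟩ h
      have h3 : x ^ m = x' ^ m := congrArg (fun z => z.1.1) h
      have h4 : ∀ z : G, z = (z ^ p ^ s) ^ a * (z ^ m) ^ b := fun z => by
        rw [← zpow_natCast, ← zpow_natCast z m, ← zpow_mul, ← zpow_mul, ← zpow_add, ← hb]
        simp
      apply Subtype.ext
      change x = x'
      rw [h4 x, h4 x', hx2, hx2', h3]
    · rintro ⟨⟨y, hyC⟩, hy1⟩
      beta_reduce at hy1
      rw [orderOf_mk] at hy1
      have hc : Commute y u := mem_centralizer_singleton_iff.mp hyC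
      have hc' : Commute (y ^ b) (u ^ a) := hc.zpow_zpow b a
      have hy2 : y ^ p ^ s = 1 := hy1 ▸ pow_orderOf_eq_one y
      have hu2 : u ^ m = 1 := huo ▸ pow_orderOf_eq_one u
      have e1 : (y ^ b * u ^ a) ^ m = y := by
        rw [hc'.mul_pow, ← zpow_natCast (u ^ a), ← zpow_mul, mul_comm a, zpow_mul, zpow_natCast, hu2,
          one_zpow, mul_one, ← zpow_natCast, ← zpow_mul,
          show b * (m : ℤ) = 1 - ((p ^ s : ℕ) : ℤ) * a by linear_combination -hb, zpow_sub, zpow_mul,
          zpow_natCast, hy2]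
        simp
      have e2 : (y ^ b * u ^ a) ^ p ^ s = u := by
        rw [hc'.mul_pow, ← zpow_natCast (y ^ b), ← zpow_mul, mul_comm b, zpow_mul, zpow_natCast, hy2,
          one_zpow, one_mul, ← zpow_natCast, ← zpow_mul,
          show a * ((p ^ s : ℕ) : ℤ) = 1 - (m : ℤ) * b by linear_combination -hb, zpow_sub, zpow_mul,
          zpow_natCast, hu2]
        simp
      refine ⟨⟨y ^ b * u ^ a, ?_, e2⟩, Subtype.ext (Subtype.ext e1)⟩
      apply Nat.dvd_antisymm
      · rw [orderOf_dvd_iff_pow_eq_one, pow_mul, e2, hu2]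
      · refine hcop.mul_dvd_of_dvd_of_dvd ?_ ?_
        · rw [← hy1]
          conv_lhs => rw [← e1]
          exact orderOf_pow_dvd _
        · rw [← huo]
          conv_lhs => rw [← e2]
          exact orderOf_pow_dvd _

end Cfsg.Agent.S4003
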