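import Cfsg.Statements.S4004
import Cfsg.Agent.Solv.TwoFrob
import Cfsg.Agent.Solv.FrobCount
import Cfsg.Agent.Char.Burnside
import Mathlib.Data.Finset.NatDivisors

set_option autoImplicit false
open Cfsg

namespace Cfsg.Agent.S4004

open Cfsg.Lib.Solv Cfsg.Lib.Solv.TwoFrob Cfsg.Lib.Perm Subgroup

theorem sum_mul {p m : ℕ} (hp : p.Prime) (hc : p.Coprime m) (f : ℕ → ℕ) :
    ∑ d ∈ (p * m).divisors, f d = ∑ d ∈ m.divisors, (f (p * d) + f d) := by
  rw [Nat.divisors_mul, Finset.mul_def, Finset.sum_image hc.mul_injOn_divisors, Finset.sum_product,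
    hp.sum_divisors, Finset.sum_add_distrib]
  simp only [one_mul]

structure Cnt (N : ℕ) (s : ℕ → ℕ) : Prop where
  odd : Odd N
  one : s 1 = 1
  frob : ∀ n, n ∣ N → n ∣ ∑ d ∈ n.divisors, s d
  two : ∀ p m, p.Prime → 1 < m → p.Coprime m → ¬ p ∣ s m → 2 * s p ≤ s (p * m)
  val : ∀ a b c, 1 < a → 1 < b → 1 < c → s a ≠ 0 → s b ≠ 0 → s a ≠ s b →
    s c = 0 ∨ s c = s a ∨ s c = s b

namespace Cnt

variable {N : ℕ} {s : ℕ → ℕ} (h : Cnt N s) {p q r : ℕ}
include h

theorem cast {n : ℕ} (hn : n ∣ N) (hp : p ∣ n) : ((∑ d ∈ n.divisors, s d : ℕ) : ZMod p) = 0 :=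
  (ZMod.natCast_eq_zero_iff _ _).2 (hp.trans (h.frob n hn))

omit h in
theorem one_ne (hp : p.Prime) : (1 : ZMod p) ≠ 0 :=
  have := Fact.mk hp
  one_ne_zero

theorem two_ne (hp : p.Prime) (hpN : p ∣ N) : (2 : ZMod p) ≠ 0 := fun h2 => by
  have h3 := (Nat.prime_dvd_prime_iff_eq hp Nat.prime_two).1
    ((ZMod.natCast_eq_zero_iff 2 p).1 (by exact_mod_cast h2))
  subst h3
  exact Nat.not_even_iff_odd.2 h.odd (even_iff_two_dvd.2 hpN)

theorem f1 (hp : p.Prime) (hpN : p ∣ N) : (s p : ZMod p) = -1 := by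
  have := h.cast hpN dvd_rfl
  rw [hp.sum_divisors, h.one] at this
  push_cast at this
  linear_combination this

theorem ne (hp : p.Prime) (hpN : p ∣ N) : s p ≠ 0 := fun h0 => by
  have := h.f1 hp hpN
  rw [h0] at this
  exact one_ne hp (by push_cast at this; linear_combination this)

theorem two' (hp : p.Prime) {m : ℕ} (hm : 1 < m) (hc : p.Coprime m)
    (h1 : (s m : ZMod p) = 1 ∨ (s m : ZMod p) = -1) : 2 * s p ≤ s (p * m) :=
  h.two p m hp hm hc fun hd => one_ne hp (by
    have := (ZMod.natCast_eq_zero_iff _ _).2 hd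
    rcases h1 with h1 | h1
    · linear_combination this - h1
    · linear_combination h1 - this)

theorem f2 (hp : p.Prime) (hq : q.Prime) (hpq : p ≠ q) (hpN : p ∣ N) (hqN : q ∣ N) :
    (s (p * q) : ZMod p) = -s q := by
  have hc := (Nat.coprime_primes hp hq).2 hpq
  have := h.cast (hc.mul_dvd_of_dvd_of_dvd hpN hqN) (Dvd.intro q rfl)
  rw [sum_mul hp hc, hq.sum_divisors, h.one, mul_one] at this
  push_cast at this
  linear_combination this - h.f1 hp hpN

theorem same (hp : p.Prime) (hq : q.Prime) (hpq : p ≠ q) (hpN : p ∣ N) (hqN : q ∣ N)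
    (he : s p = s q) : 2 * s p ≤ s (p * q) ∧ (s (p * q) : ZMod p) = 1 :=
  ⟨h.two' hp hq.one_lt ((Nat.coprime_primes hp hq).2 hpq) (Or.inr (he ▸ h.f1 hp hpN)), by
    rw [h.f2 hp hq hpq hpN hqN, ← he, h.f1 hp hpN, neg_neg]⟩

theorem big (hp : p.Prime) (hq : q.Prime) (hpq : p ≠ q) (hpN : p ∣ N) (hqN : q ∣ N)
    (he : s p = s q) {c : ℕ} (hc : 1 < c) : s c = 0 ∨ s c = s p ∨ s c = s (p * q) := by
  have h1 := (h.same hp hq hpq hpN hqN he).1
  have h2 := h.ne hp hpN
  exact h.val p (p * q) c hp.one_lt (one_lt_mul'' hp.one_lt hq.one_lt) hc h2 (by omega) (by omega)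

theorem all (hp : p.Prime) (hq : q.Prime) (hr : r.Prime) (hpq : p ≠ q) (hpr : p ≠ r) (hpN : p ∣ N)
    (hqN : q ∣ N) (hrN : r ∣ N) (he : s p = s q) : s r = s p := by
  obtain ⟨h1, h2⟩ := h.same hp hq hpq hpN hqN he
  have h3 := h.ne hp hpN
  rcases h.big hp hq hpq hpN hqN he hr.one_lt with h4 | h4 | h4
  · exact absurd h4 (h.ne hr hrN)
  · exact h4
  have h5 := h.two' hp hr.one_lt ((Nat.coprime_primes hp hr).2 hpr) (Or.inl (h4 ▸ h2))
  have h6 := h.f2 hp hr hpr hpN hrN
  rcases h.big hp hq hpq hpN hqN he (one_lt_mul'' hp.one_lt hr.one_lt) with h7 | h7 | h7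
  · omega
  · omega
  · rw [h7, h4, h2] at h6
    exact absurd (by linear_combination h6) (h.two_ne hp hpN)

theorem three (hp : p.Prime) (hq : q.Prime) (hr : r.Prime) (hpq : p ≠ q) (hpr : p ≠ r) (hqr : q ≠ r)
    (hpN : p ∣ N) (hqN : q ∣ N) (hrN : r ∣ N) : False := by
  obtain ⟨he, he'⟩ : s p = s q ∧ s p = s r := by
    by_cases he : s p = s q
    · exact ⟨he, (h.all hp hq hr hpq hpr hpN hqN hrN he).symm⟩
    rcases h.val p q r hp.one_lt hq.one_lt hr.one_lt (h.ne hp hpN) (h.ne hq hqN) he with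
      h1 | h1 | h1
    · exact absurd h1 (h.ne hr hrN)
    · exact absurd (h.all hp hr hq hpr hpq hpN hrN hqN h1.symm).symm he
    · exact absurd (h.all hq hr hp hqr hpq.symm hqN hrN hpN h1.symm) he
  have h1 := h.ne hp hpN
  have h2 := (h.same hp hq hpq hpN hqN he).2
  have h3 := (h.same hp hr hpr hpN hrN he').2
  have h4 := (h.same hq hr hqr hqN hrN (he.symm.trans he')).1
  have hqr1 := one_lt_mul'' hq.one_lt hr.one_lt
  have h5 : s (q * r) = s (p * q) := by
    rcases h.big hp hq hpq hpN hqN he hqr1 with h7 | h7 | h7 <;> omega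
  have hc' := (Nat.coprime_primes hq hr).2 hqr
  have hc : p.Coprime (q * r) :=
    ((Nat.coprime_primes hp hq).2 hpq).mul_right ((Nat.coprime_primes hp hr).2 hpr)
  have h6 := h.two' hp hqr1 hc (Or.inl (h5 ▸ h2))
  have h7 : s (p * (q * r)) = s (p * q) := by
    rcases h.big hp hq hpq hpN hqN he (one_lt_mul'' hp.one_lt hqr1) with h7 | h7 | h7 <;> omega
  have h8 := h.cast (hc.mul_dvd_of_dvd_of_dvd hpN (hc'.mul_dvd_of_dvd_of_dvd hqN hrN))
    (Dvd.intro _ rfl)
  rw [sum_mul hp hc, sum_mul hq hc', hr.sum_divisors, h.one, mul_one, mul_one, h7, h5, ← he,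
    ← he'] at h8
  push_cast at h8
  exact h.two_ne hp hpN (by linear_combination h8 - 3 * h2 - h3 - 3 * h.f1 hp hpN)

theorem sq (hp : p.Prime) (hq : q.Prime) (hpq : p ≠ q) (hpN : p ^ 2 ∣ N) (hqN : q ∣ N) :
    s (p ^ 2) = 0 := by
  by_contra h0
  have hpN' : p ∣ N := (dvd_pow_self p two_ne_zero).trans hpN
  have h1 := h.f1 hp hpN'
  have h2 := h.cast hpN (dvd_pow_self p two_ne_zero)
  rw [Nat.sum_divisors_prime_pow hp] at h2
  simp only [Finset.sum_range_succ, Finset.sum_range_zero, pow_zero, pow_one, h.one] at h2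
  push_cast at h2
  have h3 : (s (p ^ 2) : ZMod p) = 0 := by linear_combination h2 - h1
  have hp2 := one_lt_pow₀ hp.one_lt two_ne_zero
  have hv := fun c hc => h.val p (p ^ 2) c hp.one_lt hp2 hc (h.ne hp hpN') h0 fun he =>
    one_ne hp (by rw [he] at h1; linear_combination h1 - h3)
  have h4 : (s (p * q) : ZMod p) ≠ 1 := fun h4 => by
    rcases hv _ (one_lt_mul'' hp.one_lt hq.one_lt) with h5 | h5 | h5 <;> rw [h5] at h4
    · exact one_ne hp (by push_cast at h4; exact h4.symm)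
    · exact h.two_ne hp hpN' (by linear_combination h1 - h4)
    · exact one_ne hp (by linear_combination h3 - h4)
  rcases hv q hq.one_lt with h5 | h5 | h5
  · exact h.ne hq hqN h5
  · exact h4 (h.same hp hq hpq hpN' hqN h5.symm).2
  have hc : q.Coprime (p ^ 2) := ((Nat.coprime_primes hq hp).2 hpq.symm).pow_right 2
  have h6 := h.two' hq hp2 hc (Or.inr (h5 ▸ h.f1 hq hqN))
  have h7 : s (q * p ^ 2) = s p := by
    rcases hv _ (one_lt_mul'' hq.one_lt hp2) with h7 | h7 | h7 <;> omega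
  have h8 := h.cast (hc.mul_dvd_of_dvd_of_dvd hqN hpN)
    ((dvd_pow_self p two_ne_zero).trans (Dvd.intro_left _ rfl))
  rw [sum_mul hq hc, Nat.sum_divisors_prime_pow hp] at h8
  simp only [Finset.sum_range_succ, Finset.sum_range_zero, pow_zero, pow_one, h.one, mul_one, h7,
    h5, mul_comm q p] at h8
  push_cast at h8
  exact h4 (by linear_combination h8 - 2 * h3 - 2 * h1)

theorem diff (hp : p.Prime) (hq : q.Prime) (hpq : p ≠ q) (hpN : p ∣ N) (hqN : q ∣ N) :
    s (p * q) ≠ s p := fun he => by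
  have h1 := h.f2 hp hq hpq hpN hqN
  rw [he, h.f1 hp hpN, neg_inj] at h1
  have := h.two' hp hq.one_lt ((Nat.coprime_primes hp hq).2 hpq) (Or.inl h1.symm)
  have := h.ne hp hpN
  omega

end Cnt

variable {G : Type*} [Group G] [Finite G]

theorem card_pow_eq_one {n : ℕ} (hn : n ≠ 0) : Nat.card {x : G // x ^ n = 1} =
    ∑ d ∈ n.divisors, Nat.card {g : G // orderOf g = d} := by
  classical
  have := Fintype.ofFinite G
  simp only [Nat.card_eq_fintype_card, Fintype.card_subtype]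
  exact (sum_card_orderOf_eq_card_pow_eq_one hn).symm

omit [Finite G] in
theorem ne_inv (hodd : Odd (Nat.card G)) {y : G} (hy : y ≠ 1) : y ≠ y⁻¹ := fun h =>
  hy (orderOf_eq_one_iff.1 (Nat.eq_one_of_dvd_coprimes (Nat.coprime_two_right.2 hodd)
    (orderOf_dvd_natCard y) (orderOf_dvd_of_pow_eq_one (by
      rw [pow_two, ← eq_inv_iff_mul_eq_one]; exact h))))

omit [Finite G] in
theorem exists_commute {p m : ℕ} (hp : p.Prime) (h : ¬ p ∣ Nat.card {g : G // orderOf g = m})
    {x : G} (hx : orderOf x = p) : ∃ y : G, orderOf y = m ∧ Commute x y := by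
  have := Fact.mk hp
  let _ : MulAction (zpowers x) {g : G // orderOf g = m} :=
    { smul := fun a y => ⟨MulAut.conj (a : G) y, by rw [MulEquiv.orderOf_eq, y.2]⟩
      one_smul := fun y => Subtype.ext (show MulAut.conj (1 : G) y = y by simp)
      mul_smul := fun a b y => Subtype.ext (show MulAut.conj (a * b : G) y =
        MulAut.conj (a : G) (MulAut.conj (b : G) y) by rw [map_mul, MulAut.mul_apply]) }
  obtain ⟨y, hy⟩ := (IsPGroup.of_card (p := p) (G := zpowers x) (n := 1)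
    (by rw [Nat.card_zpowers, hx, pow_one])).nonempty_fixed_point_of_prime_not_dvd_card _ h
  exact ⟨y, y.2, mul_inv_eq_iff_eq_mul.1 (congrArg Subtype.val (hy ⟨x, mem_zpowers x⟩))⟩

theorem cnt (hodd : Odd (Nat.card G)) (h : ((fun m : ℕ => Nat.card {g : G // orderOf g = m}) ''
    Set.range (orderOf : G → ℕ)).ncard = 3) :
    Cnt (Nat.card G) fun m => Nat.card {g : G // orderOf g = m} where
  odd := hodd
  one := Nat.card_eq_one_iff_exists.2 ⟨⟨1, orderOf_one⟩, fun y =>
    Subtype.ext (orderOf_eq_one_iff.1 y.2)⟩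
  frob n hn := card_pow_eq_one (G := G) (ne_zero_of_dvd_ne_zero Nat.card_pos.ne' hn) ▸
    Frob.dvd_card_pow_eq_one hn
  two p m hp hm hc hd := by
    choose y hy hxy using fun x : {g : G // orderOf g = p} => exists_commute hp hd x.2
    have key : ∀ (x : {g : G // orderOf g = p}) (b : Bool), ∃ w : G, orderOf w = m ∧
        Commute x.1 w ∧ (w = y x ↔ b = true) ∧ (w = y x ∨ w = (y x)⁻¹) := fun x b => by
      cases b
      · refine ⟨(y x)⁻¹, by rw [orderOf_inv, hy], (hxy x).inv_right, ?_, Or.inr rfl⟩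
        simpa using (ne_inv hodd fun h1 => hm.ne (by rw [← hy x, h1, orderOf_one])).symm
      · exact ⟨y x, hy x, hxy x, by simp, Or.inl rfl⟩
    choose w hw hxw hb hor using key
    rw [mul_comm, ← Nat.card_eq_fintype_card.trans Fintype.card_bool, ← Nat.card_prod]
    refine Nat.card_le_card_of_injective (fun z => ⟨z.1.1 * w z.1 z.2, by
      rw [(hxw _ _).orderOf_mul_eq_mul_orderOf_of_coprime (by rwa [z.1.2, hw]), z.1.2, hw]⟩) ?_
    rintro ⟨x, b⟩ ⟨x', b'⟩ he
    have he : x.1 * w x b = x'.1 * w x' b' := congrArg Subtype.val he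
    have hxx : x = x' := by
      have h1 := congrArg (· ^ m) he
      simp only [(hxw _ _).mul_pow] at h1
      rw [← hw x b, pow_orderOf_eq_one, hw, ← hw x' b', pow_orderOf_eq_one, hw, mul_one,
        mul_one] at h1
      obtain ⟨k, hk⟩ := Nat.exists_mul_mod_eq_one_of_coprime hc.symm hp.one_lt
      have h2 : ∀ z : {g : G // orderOf g = p}, (z.1 ^ m) ^ k = z.1 := fun z => by
        rw [← pow_mul, ← pow_mod_orderOf, z.2, hk.2, pow_one]
      exact Subtype.ext (by rw [← h2 x, h1, h2])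
    subst hxx
    have h3 := hb x b
    rw [mul_left_cancel he, hb] at h3
    rw [Bool.eq_iff_iff.2 h3]
  val a b c ha hb hc h1 h2 hab := by
    by_contra hcon
    push Not at hcon
    have hmem : ∀ m : ℕ, Nat.card {g : G // orderOf g = m} ≠ 0 → Nat.card {g : G // orderOf g = m} ∈
        (fun m : ℕ => Nat.card {g : G // orderOf g = m}) '' Set.range (orderOf : G → ℕ) :=
      fun m hm => by
        obtain ⟨⟨g, hg⟩⟩ := (Nat.card_ne_zero.1 hm).1
        exact ⟨m, ⟨g, hg⟩, rfl⟩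
    have hne : ∀ m : ℕ, 1 < m → Nat.card {g : G // orderOf g = m} ≠ 1 := fun m hm h => by
      obtain ⟨⟨g, hg⟩, h⟩ := Nat.card_eq_one_iff_exists.1 h
      exact ne_inv (y := g) hodd (fun h1 => hm.ne (by rw [← hg, h1, orderOf_one]))
        (congrArg Subtype.val (h ⟨g⁻¹, by rw [orderOf_inv, hg]⟩)).symm
    have h0 : Nat.card {g : G // orderOf g = 1} = 1 := Nat.card_eq_one_iff_exists.2
      ⟨⟨1, orderOf_one⟩, fun y => Subtype.ext (orderOf_eq_one_iff.1 y.2)⟩
    obtain ⟨u, v, w, -, -, -, h⟩ := Set.ncard_eq_three.1 h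
    have e0 := hmem 1 (by omega)
    have e1 := hmem a h1
    have e2 := hmem b h2
    have e3 := hmem c hcon.1
    have := hne a ha
    have := hne b hb
    have := hne c hc
    simp only [h, Set.mem_insert_iff, Set.mem_singleton_iff] at e0 e1 e2 e3
    omega

/-- Let G be a finite group of odd order in which the numbers of elements of each order that occurs (the numbers #{g : o(g) = m}, m ranging over the element orders of G) take exactly three different values. Then the order of G has at most two prime divisors; and if it has exactly two, then every Sylow subgroup of G for a prime dividing its order has prime exponent, G is a Frobenius group, and some Frobenius complement of G has prime order. -/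
theorem result {G : Type*} [Group G] [Finite G] (hodd : Odd (Nat.card G)) (h : (((fun m : ℕ => Nat.card {g : G // orderOf g = m}) '' Set.range (orderOf : G → ℕ))).ncard = 3) :
    (Nat.card G).primeFactors.card ≤ 2 ∧
      ((Nat.card G).primeFactors.card = 2 →
        (∀ (p : ℕ) [Fact p.Prime] (P : Sylow p G), p ∣ Nat.card G → Monoid.exponent ↥(P : Subgroup G) = p) ∧
        ∃ C : Subgroup G, Cfsg.IsFrobeniusComplement C ∧ (Nat.card ↥C).Prime) := by
  have hc := cnt hodd h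
  have hN : Nat.card G ≠ 0 := Nat.card_pos.ne'
  refine ⟨?_, fun h2 => ?_⟩
  · by_contra h3
    obtain ⟨p, hp, q, hq, r, hr, hpq, hpr, hqr⟩ := Finset.two_lt_card.1 (not_le.1 h3)
    exact hc.three (Nat.prime_of_mem_primeFactors hp) (Nat.prime_of_mem_primeFactors hq)
      (Nat.prime_of_mem_primeFactors hr) hpq hpr hqr (Nat.dvd_of_mem_primeFactors hp)
      (Nat.dvd_of_mem_primeFactors hq) (Nat.dvd_of_mem_primeFactors hr)
  have other : ∀ p : ℕ, p.Prime → p ∣ Nat.card G → ∃ q : ℕ, q.Prime ∧ q ∣ Nat.card G ∧ p ≠ q ∧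
      ∀ r : ℕ, r.Prime → r ∣ Nat.card G → r = p ∨ r = q := fun p hp hpG => by
    obtain ⟨a, b, hab, h2⟩ := Finset.card_eq_two.1 h2
    have hm : ∀ r : ℕ, r.Prime ∧ r ∣ Nat.card G ↔ r = a ∨ r = b := fun r => by
      simpa [hN] using (Finset.ext_iff.1 h2 r)
    rcases (hm p).1 ⟨hp, hpG⟩ with rfl | rfl
    · exact ⟨b, ((hm b).2 (Or.inr rfl)).1, ((hm b).2 (Or.inr rfl)).2, hab,
        fun r hr h => (hm r).1 ⟨hr, h⟩⟩
    · exact ⟨a, ((hm a).2 (Or.inl rfl)).1, ((hm a).2 (Or.inl rfl)).2, hab.symm,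
        fun r hr h => ((hm r).1 ⟨hr, h⟩).symm⟩
  have nosq : ∀ p : ℕ, p.Prime → ¬ ∃ g : G, orderOf g = p * p := by
    rintro p hp ⟨g, hg⟩
    have h1 : p ^ 2 ∣ Nat.card G := by rw [pow_two, ← hg]; exact orderOf_dvd_natCard g
    obtain ⟨q, hq, hqG, hpq, -⟩ := other p hp ((dvd_pow_self p two_ne_zero).trans h1)
    exact Nat.card_ne_zero.2 ⟨⟨⟨g, by rw [hg, pow_two]⟩⟩, inferInstance⟩ (hc.sq hp hq hpq h1 hqG)
  have hpow : ∀ (p k : ℕ) (x : G), p.Prime → x ^ p ^ k = 1 → x ^ p = 1 := fun p k x hp hx => by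
    obtain ⟨j, -, hj⟩ := (Nat.dvd_prime_pow hp).1 (orderOf_dvd_of_pow_eq_one hx)
    rw [← orderOf_dvd_iff_pow_eq_one, hj]
    match j with
    | 0 => exact one_dvd p
    | 1 => rw [pow_one]
    | j + 2 =>
      obtain ⟨i, hi⟩ := GK.exists_orderOf_eq_of_dvd (x := x) (n := p * p)
        (by rw [hj, pow_add, pow_two]; exact Dvd.intro_left _ rfl)
      exact absurd ⟨_, hi⟩ (nosq p hp)
  have hdvd : ∀ p : ℕ, p.Prime → p ^ (Nat.card G).factorization p ∣ Nat.card {x : G // x ^ p = 1} :=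
    fun p hp => by
    have := Frob.dvd_card_pow_eq_one (G := G) (Nat.ordProj_dvd (Nat.card G) p)
    by_cases h0 : (Nat.card G).factorization p = 0
    · rw [h0, pow_zero]; exact one_dvd _
    rwa [Nat.card_congr (Equiv.subtypeEquivRight fun x => ⟨hpow p _ x hp, fun hx => by
      rw [← orderOf_dvd_iff_pow_eq_one] at hx ⊢
      exact hx.trans (dvd_pow_self p h0)⟩)] at this
  have nopq : ∀ p q : ℕ, p.Prime → q.Prime → ¬ ∃ g : G, orderOf g = p * q := by
    rintro p q hp hq ⟨g, hg⟩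
    by_cases hpq : p = q
    · exact nosq p hp ⟨g, by rw [hg, hpq]⟩
    have hpG : p ∣ Nat.card G := (Dvd.intro _ hg.symm).trans (orderOf_dvd_natCard g)
    have hqG : q ∣ Nat.card G := (Dvd.intro_left _ hg.symm).trans (orderOf_dvd_natCard g)
    by_cases he : Nat.card {g : G // orderOf g = p} = Nat.card {g : G // orderOf g = q}
    · have h3 : Nat.card {x : G // x ^ q = 1} = Nat.card {x : G // x ^ p = 1} := by
        rw [card_pow_eq_one hp.ne_zero, card_pow_eq_one hq.ne_zero, hp.sum_divisors,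
          hq.sum_divisors, he]
      have h4 : Nat.card G ∣ Nat.card {x : G // x ^ p = 1} := by
        refine (Nat.dvd_iff_prime_pow_dvd_dvd _ _).2 fun r k hr hk => ?_
        rcases Nat.eq_zero_or_pos k with rfl | hk0
        · rw [pow_zero]; exact one_dvd _
        have h5 := (pow_dvd_pow r ((hr.pow_dvd_iff_le_factorization hN).1 hk)).trans (hdvd r hr)
        obtain ⟨q', -, -, -, h6⟩ := other p hp hpG
        rcases h6 r hr ((dvd_pow_self r hk0.ne').trans hk) with rfl | rfl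
        · exact h5
        · rwa [← h3, (h6 q hq hqG).resolve_left (Ne.symm hpq)]
      refine (Finite.card_subtype_lt (p := fun x : G => x ^ p = 1) (x := g) fun h5 => ?_).not_ge
        (Nat.le_of_dvd (Nat.card_pos_iff.2 ⟨⟨⟨1, one_pow p⟩⟩, inferInstance⟩) h4)
      rw [← orderOf_dvd_iff_pow_eq_one, hg] at h5
      exact (Nat.le_of_dvd hp.pos h5).not_gt (lt_mul_of_one_lt_right hp.pos hq.one_lt)
    · rcases hc.val p q (p * q) hp.one_lt hq.one_lt (one_lt_mul'' hp.one_lt hq.one_lt)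
        (hc.ne hp hpG) (hc.ne hq hqG) he with h3 | h3 | h3
      · exact Nat.card_ne_zero.2 ⟨⟨⟨g, hg⟩⟩, inferInstance⟩ h3
      · exact hc.diff hp hq hpq hpG hqG h3
      · exact hc.diff hq hp (Ne.symm hpq) hqG hpG (mul_comm p q ▸ h3)
  have hprime : ∀ g : G, g ≠ 1 → (orderOf g).Prime := fun g hg => by
    by_contra hn
    obtain ⟨a, ha, b, hb⟩ := Nat.exists_prime_and_dvd (mt orderOf_eq_one_iff.1 hg)
    obtain ⟨c, hc, hcb⟩ := Nat.exists_prime_and_dvd (n := b) (by
      rintro rfl; exact hn (by rwa [hb, mul_one]))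
    obtain ⟨i, hi⟩ := GK.exists_orderOf_eq_of_dvd (x := g) (n := a * c)
      (hb ▸ mul_dvd_mul_left a hcb)
    exact nopq a c ha hc ⟨_, hi⟩
  refine ⟨fun p hp P hpG => ?_, ?_⟩
  · refine (hp.1.eq_one_or_self_of_dvd _ (Monoid.exponent_dvd_of_forall_pow_eq_one fun x => ?_)
      ).resolve_left fun h1 => ?_
    · obtain ⟨k, hk⟩ := P.isPGroup' x
      exact Subtype.ext (hpow p k x hp.1 (congrArg Subtype.val hk))
    · exact P.ne_bot_of_dvd_card hpG (eq_bot_iff_forall _ |>.2 fun x hx => congrArg Subtype.val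
        (Monoid.exp_eq_one_iff.1 h1 |>.elim ⟨x, hx⟩ 1))
  obtain ⟨a, ha⟩ := Finset.card_pos.1 (h2 ▸ two_pos)
  obtain ⟨b, hb, hbG, -, hab⟩ := other a (Nat.prime_of_mem_primeFactors ha)
    (Nat.dvd_of_mem_primeFactors ha)
  have := Cfsg.Lib.Char.isSolvable_of_prime_dvd_card (Nat.prime_of_mem_primeFactors ha) hb G hab
  have : Nontrivial G := Finite.one_lt_card_iff_nontrivial.1
    (hb.one_lt.trans_le (Nat.le_of_dvd Nat.card_pos hbG))
  obtain ⟨p, N, hp, hmin, -, -, hNp⟩ := exists_isMinNormal_elementary G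
  have := Fact.mk hp
  have hpG : p ∣ Nat.card G := ((hNp.card_eq_or_dvd).resolve_left
    (by simpa using hmin.ne_bot)).trans (card_subgroup_dvd_card N)
  obtain ⟨q, hq, hqG, hpq, hall⟩ := other p hp hpG
  have := Fact.mk hq
  have h0 : piCore {p} G ≠ ⊥ := fun h0 => hmin.ne_bot (piCore_eq_bot_iff.1 h0 N hmin.normal
    (isPGroup_iff_isPiNum.1 hNp))
  obtain ⟨C, hC, hCπ, fH, hcase⟩ := PSep.structure (π := {p}) (G := G)
    (fun a _ b _ ha hb => nopq a b ha hb) h0 fun h => hpq (h q hq hqG).symm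
  rcases hcase with ht | ⟨D, hD, hDπ⟩
  · refine ⟨C, (Fpf.frobenius_of_fpf ht h0 hC fH).1, ?_⟩
    have hcyc : IsCyclic C := Fpf.isCyclic_of_odd_prime (Fpf.le_normalizer_of_normal' _ C) h0 fH
      (p := q) (by rintro rfl; exact Nat.not_even_iff_odd.2 hodd (even_iff_two_dvd.2 hqG)) le_rfl
      (isPGroup_iff_isPiNum.2 fun r hr h =>
        (hall r hr (h.trans (card_subgroup_dvd_card C))).resolve_left (hCπ r hr h))
    obtain ⟨c, hc⟩ := IsCyclic.exists_ofOrder_eq_natCard (α := C)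
    rw [← hc, ← orderOf_coe]
    refine hprime c fun h1 => hC (card_eq_one.1 ?_)
    rw [← hc, ← orderOf_coe, h1, orderOf_one]
  · obtain ⟨y, hy, hy1⟩ := (D.bot_or_exists_ne_one).resolve_left hD.Dne
    obtain ⟨v, hv, hvy⟩ := hD.exists_pow_ne_one hy hy1
    have hK : v * y ∉ piCore {p} G ⊔ C := fun hm => hy1 (mem_bot.1 (hD.K_inf_D.le
      ⟨(_root_.mul_mem_cancel_left (mem_sup_left hv)).1 hm, hy⟩))
    have h3 := hprime (v * y) fun h => hK (h ▸ one_mem _)
    have := hD.normalK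
    refine absurd ?_ hvy
    rw [hDπ.orderOf_of_mem hy _ (hprime y hy1) dvd_rfl, ← hDπ _ h3 ?_, pow_orderOf_eq_one]
    by_contra h4
    exact hK (mem_of_coprime_orderOf_index_of_normal
      (hD.index_K ▸ h3.coprime_iff_not_dvd.2 h4))

end Cfsg.Agent.S4004
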