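import Cfsg.Statements.S4005
import Cfsg.Agent.Solv.SmallOrders

set_option autoImplicit false
open Cfsg

namespace Cfsg.Agent.S4005

open Cfsg.Lib.Solv Cfsg.Lib.Solv.TwoFrob Cfsg.Lib.Solv.SmallOrd Subgroup

/-- A finite group whose set of element orders is exactly {1, 2, 3} has either a normal elementary abelian 3-subgroup of index 2 or a normal elementary abelian 2-subgroup of index 3. -/
theorem result {G : Type*} [Group G] [Finite G] (h : Set.range (orderOf : G → ℕ) = {k : ℕ | 1 ≤ k ∧ k ≤ 3}) :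
    (∃ N : Subgroup G, N.Normal ∧ Cfsg.IsElementaryAbelian 3 N ∧ N.index = 2) ∨
      (∃ N : Subgroup G, N.Normal ∧ Cfsg.IsElementaryAbelian 2 N ∧ N.index = 3) := by
  have h3 : ∀ g : G, orderOf g ≤ 3 := fun g =>
    (show orderOf g ∈ {k : ℕ | 1 ≤ k ∧ k ≤ 3} from h ▸ ⟨g, rfl⟩).2
  have h4 : ∀ g : G, orderOf g ≤ 4 := fun g => (h3 g).trans (by norm_num)
  have hsq : ∀ g : G, orderOf g ≠ 3 → g ^ 2 = 1 := fun g hg => by
    rw [← orderOf_dvd_iff_pow_eq_one]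
    have := h3 g
    rcases orderOf_cases h4 g with h | h | h | h <;> rw [h] at hg this ⊢ <;> omega
  have := Fact.mk Nat.prime_two
  have hsq' : ∀ N : Subgroup G, IsPGroup 2 N → ∀ g ∈ N, g ^ 2 = 1 := fun N hN g hg => hsq g fun h =>
    absurd ((isPGroup_iff_isPiNum.1 hN).orderOf_of_mem hg 3 Nat.prime_three h.symm.dvd) (by norm_num)
  obtain ⟨N, hN, ⟨h1, h2, -⟩ | ⟨-, C, D, hT, -, hD⟩ | ⟨h1, C, hC, hC0, hC2, hc⟩⟩ := cases h4
    (show 2 ∈ Set.range (orderOf : G → ℕ) from h ▸ ⟨by norm_num, by norm_num⟩)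
    (show 3 ∈ Set.range (orderOf : G → ℕ) from h ▸ ⟨by norm_num, by norm_num⟩)
  · refine Or.inr ⟨N, hN, ⟨Fpf.isMulCommutative_of_inverted (s := 1) fun k hk => ?_, hsq' N h1⟩, h2⟩
    rw [one_mul, inv_one, mul_one, eq_inv_iff_mul_eq_one, ← pow_two, hsq' N h1 k hk]
  · obtain ⟨y, hy, hy1⟩ := (D.bot_or_exists_ne_one).resolve_left hT.Dne
    obtain ⟨v, hv, hvy⟩ := hT.exists_pow_ne_one hy hy1
    have hy2 : orderOf y = 2 := orderOf_eq_prime
      (orderOf_dvd_iff_pow_eq_one.1 (hD ▸ D.orderOf_dvd_natCard hy)) hy1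
    refine absurd (hy2 ▸ hsq _ (orderOf_ne_three hT hD fun hm => hy1 ?_)) hvy
    exact mem_bot.1 (hT.K_inf_D.le ⟨(_root_.mul_mem_cancel_left (mem_sup_left hv)).1 hm, hy⟩)
  · refine Or.inl ⟨N, hN, h1, ?_⟩
    rw [hC.symm.index_eq_card]
    rcases hc with hc | ⟨n, ⟨e⟩⟩
    · obtain ⟨c, hc⟩ := IsCyclic.exists_ofOrder_eq_natCard (α := C)
      refine (Nat.prime_two.eq_one_or_self_of_dvd _ ?_).resolve_left (by simpa using hC0)
      rw [← hc, orderOf_dvd_iff_pow_eq_one]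
      exact Subtype.ext (hsq' C hC2 c c.2)
    · have := h3 (e.symm (QuaternionGroup.xa 0) : C)
      rw [orderOf_coe, MulEquiv.orderOf_eq, QuaternionGroup.orderOf_xa] at this
      omega

end Cfsg.Agent.S4005
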