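import Cfsg.Statements.S4006
import Cfsg.Agent.Solv.SmallOrders

set_option autoImplicit false
open Cfsg

namespace Cfsg.Agent.S4006

open Cfsg.Lib.Solv Cfsg.Lib.Solv.TwoFrob Cfsg.Lib.Solv.SmallOrd Subgroup

theorem dihedral_s3 : Nonempty (Equiv.Perm (Fin 3) ≃* DihedralGroup 3) :=
  PG.nonempty_mulEquiv_dihedralGroup (G := Equiv.Perm (Fin 3)) (n := 3)
    (r := finRotate 3) (s := Equiv.swap 0 1) (orderOf_eq_prime (by decide) (by decide))
    (by decide) (by decide) (fun h => absurd (orderOf_dvd_of_mem_zpowers h) (by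
      rw [orderOf_eq_prime (p := 2) (by decide) (by decide),
        orderOf_eq_prime (p := 3) (by decide) (by decide)]; decide)) (by
      rw [eq_top_iff]
      rintro x -
      obtain ⟨i, j, rfl⟩ : ∃ (i : Fin 3) (j : Fin 2),
        x = finRotate 3 ^ (i : ℕ) * Equiv.swap 0 1 ^ (j : ℕ) := by revert x; decide
      exact mul_mem (mem_sup_left (pow_mem (mem_zpowers _) _))
        (mem_sup_right (pow_mem (mem_zpowers _) _)))

theorem exists_gen {G : Type*} [Group G] [Finite G] {C : Subgroup G} {p : ℕ} (hp : p.Prime)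
    (h : Nat.card C = p) : ∃ c : G, c ≠ 1 ∧ c ^ p = 1 ∧ zpowers c = C := by
  have := Fact.mk hp
  obtain ⟨c, hc⟩ := exists_prime_orderOf_dvd_card' p h.symm.dvd
  have hc' : orderOf (c : G) = p := by rw [orderOf_coe, hc]
  refine ⟨c, fun h1 => ?_, hc' ▸ pow_orderOf_eq_one _, eq_of_le_of_card_ge (zpowers_le.2 c.2) ?_⟩
  · rw [h1, orderOf_one] at hc'; exact hp.one_lt.ne hc'
  · rw [Nat.card_zpowers, hc', h]

/-- A finite group whose set of element orders is exactly {1, 2, 3, 4} has a normal subgroup N such that either N is a 2-group of exponent 4 and nilpotency class at most 2 with G/N of order 3, or N is an elementary abelian 2-group with G/N isomorphic to the symmetric group of degree 3, or N is an elementary abelian 3-group with G/N cyclic of order 4 or quaternion of order 8. -/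
theorem result {G : Type*} [Group G] [Finite G] (h : Set.range (orderOf : G → ℕ) = {k : ℕ | 1 ≤ k ∧ k ≤ 4}) :
    ∃ (N : Subgroup G) (_ : N.Normal),
      (IsPGroup 2 ↥N ∧ Monoid.exponent ↥N = 4 ∧ Group.nilpotencyClass ↥N ≤ 2 ∧ N.index = 3) ∨
      (Cfsg.IsElementaryAbelian 2 N ∧ Nonempty (G ⧸ N ≃* Equiv.Perm (Fin 3))) ∨
      (Cfsg.IsElementaryAbelian 3 N ∧ ((IsCyclic (G ⧸ N) ∧ N.index = 4) ∨ Nonempty (G ⧸ N ≃* QuaternionGroup 2))) := by
  have h4 : ∀ g : G, orderOf g ≤ 4 := fun g =>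
    (show orderOf g ∈ {k : ℕ | 1 ≤ k ∧ k ≤ 4} from h ▸ ⟨g, rfl⟩).2
  obtain ⟨g, hg⟩ : 4 ∈ Set.range (orderOf : G → ℕ) := h ▸ ⟨by norm_num, by norm_num⟩
  have := Fact.mk Nat.prime_two
  have := Fact.mk Nat.prime_three
  obtain ⟨N, hN, ⟨h1, h2, ρ, hρ, fρ⟩ | ⟨h1, C, D, hT, hC, hD⟩ | ⟨h1, C, hC, hC0, hC2, hc⟩⟩ :=
    cases h4 (show 2 ∈ Set.range (orderOf : G → ℕ) from h ▸ ⟨by norm_num, by norm_num⟩)
    (show 3 ∈ Set.range (orderOf : G → ℕ) from h ▸ ⟨by norm_num, by norm_num⟩)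
  · refine ⟨N, hN, Or.inl ⟨h1, Nat.dvd_antisymm (Monoid.exponent_dvd_of_forall_pow_eq_one
      fun x => Subtype.ext (pow_four h4 fun h => ?_)) ?_, ?_, h2⟩⟩
    · exact absurd ((isPGroup_iff_isPiNum.1 h1).orderOf_of_mem x.2 3 Nat.prime_three h.symm.dvd)
        (by norm_num)
    · have hgN : g ∈ N := mem_of_coprime_orderOf_index_of_normal (by rw [hg, h2]; norm_num)
      rw [← hg, ← orderOf_mk _ hgN]
      exact Monoid.order_dvd_exponent _
    · have := h1.isNilpotent
      rw [← Subgroup.upperCentralSeries_eq_top_iff_nilpotencyClass_le, eq_top_iff]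
      intro x _
      rw [Subgroup.mem_upperCentralSeries_succ_iff, Subgroup.upperCentralSeries_one]
      exact (fpf3 h1 hρ fρ).cls x
  · obtain ⟨ρ, hρ1, hρ, rfl⟩ := exists_gen Nat.prime_three hC
    obtain ⟨t, ht1, ht, rfl⟩ := exists_gen Nat.prime_two hD
    rw [pow_two] at ht
    have hinv : t * ρ * t⁻¹ = ρ⁻¹ := Fpf.conj_eq_inv_of_involution (hT.norm (mem_zpowers t))
      (hT.fC t (mem_zpowers t) ht1) ht (mem_zpowers ρ)
    have hti : t⁻¹ = t := inv_eq_of_mul_eq_one_right ht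
    have hρt : ρ * t * ρ = t := by
      rw [mul_assoc, mul_inv_eq_iff_eq_mul.1 hinv, mul_inv_cancel_left]
    have key : ∀ k ∈ N ⊔ zpowers ρ, k * t * (k * t) * (k * t * (k * t)) = 1 := fun k hk => by
      have := pow_four h4 (orderOf_ne_three hT hD (g := k * t) fun hm => ht1
        (mem_bot.1 (hT.K_inf_D.le ⟨(_root_.mul_mem_cancel_left hk).1 hm, mem_zpowers t⟩)))
      rw [← this]; simp only [pow_succ, pow_zero, one_mul, mul_assoc]
    obtain ⟨e1, e2⟩ := elem_of_s3 (τ := MulAut.conjNormal t)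
      (fpf3 h1 hρ (hT.fH ρ (mem_zpowers ρ) hρ1))
      (fun x => Subtype.ext (by
        simp only [MulAut.conjNormal_apply]
        calc _ = ρ * t * ρ * x * (ρ * t * ρ)⁻¹ := by group
          _ = _ := by rw [hρt]))
      (fun x => Subtype.ext (by
        simpa only [coe_mul, MulAut.conjNormal_apply, hti, mul_assoc, coe_one] using
          key x (mem_sup_left x.2)))
      (fun x => Subtype.ext (by
        have e : t * ρ⁻¹ = ρ * t := by rw [eq_comm, eq_mul_inv_iff_mul_eq, hρt]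
        simpa only [coe_mul, MulAut.conjNormal_apply, hti, mul_assoc, coe_one, e] using
          key (x * ρ) (mul_mem_sup x.2 (mem_zpowers ρ))))
    have hne : ∀ x ∈ zpowers ρ ⊔ zpowers t, (x : G ⧸ N) = 1 → x = 1 := fun x hx h1 =>
      mem_bot.1 (hT.inf_eq_bot.le ⟨(QuotientGroup.eq_one_iff x).1 h1, hx⟩)
    have o1 : orderOf (ρ : G ⧸ N) = 3 := orderOf_eq_prime
      (by rw [← QuotientGroup.mk_pow, hρ, QuotientGroup.mk_one])
      fun h => hρ1 (hne ρ (mem_sup_left (mem_zpowers ρ)) h)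
    have o2 : orderOf (t : G ⧸ N) = 2 := orderOf_eq_prime
      (by rw [← QuotientGroup.mk_pow, pow_two, ht, QuotientGroup.mk_one])
      fun h => ht1 (hne t (mem_sup_right (mem_zpowers t)) h)
    obtain ⟨e⟩ := PG.nonempty_mulEquiv_dihedralGroup (s := (t : G ⧸ N)) o1
      (by rw [← QuotientGroup.mk_mul, ht, QuotientGroup.mk_one])
      (by rw [← QuotientGroup.mk_inv, ← QuotientGroup.mk_mul, ← QuotientGroup.mk_mul, hinv,
        QuotientGroup.mk_inv])
      (fun h => absurd (orderOf_dvd_of_mem_zpowers h) (by rw [o1, o2]; norm_num))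
      (by
        have := congrArg (map (QuotientGroup.mk' N)) hT.sup
        rwa [Subgroup.map_sup, Subgroup.map_sup, QuotientGroup.map_mk'_self, bot_sup_eq,
          MonoidHom.map_zpowers, MonoidHom.map_zpowers,
          map_top_of_surjective _ (QuotientGroup.mk'_surjective N)] at this)
    obtain ⟨e'⟩ := dihedral_s3
    exact ⟨N, hN, Or.inr (Or.inl ⟨⟨⟨⟨e1⟩⟩, fun x hx =>
      (pow_two x).trans (congrArg Subtype.val (e2 ⟨x, hx⟩))⟩, ⟨e.trans e'.symm⟩⟩)⟩
  · refine ⟨N, hN, Or.inr (Or.inr ⟨h1, ?_⟩)⟩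
    have e := hC.symm.QuotientMulEquiv
    have cyc : IsCyclic C → IsCyclic (G ⧸ N) ∧ N.index = 4 := fun hc => by
      refine ⟨isCyclic_of_surjective _ e.symm.surjective, ?_⟩
      obtain ⟨c, hc⟩ := IsCyclic.exists_ofOrder_eq_natCard (α := C)
      have h5 := h4 c
      rw [orderOf_coe, hc, ← hC.symm.index_eq_card] at h5
      have h6 : orderOf (g : G ⧸ N) = 2 ^ (1 + 1) := orderOf_eq_prime_pow (fun h => by
        have := h1.2 _ ((QuotientGroup.eq_one_iff (g ^ 2)).1 h)
        rw [← pow_mul, ← orderOf_dvd_iff_pow_eq_one, hg] at this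
        omega) (by rw [← QuotientGroup.mk_pow, show 2 ^ (1 + 1) = 4 from rfl, ← hg,
          pow_orderOf_eq_one, QuotientGroup.mk_one])
      exact le_antisymm h5 (Nat.le_of_dvd Nat.card_pos (h6.symm.dvd.trans (orderOf_dvd_natCard (g : G ⧸ N))))
    rcases hc with hc | ⟨n, ⟨f⟩⟩
    · exact Or.inl (cyc hc)
    · have h5 := h4 (f.symm (QuaternionGroup.a 1) : C)
      rw [orderOf_coe, MulEquiv.orderOf_eq, QuaternionGroup.orderOf_a_one] at h5
      obtain rfl | rfl : n = 0 ∨ n = 1 := by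
        have := (Nat.pow_le_pow_iff_right (a := 2) (n := n) (m := 1) one_lt_two).1 (by omega)
        omega
      · have : IsCyclic (QuaternionGroup (2 ^ 0)) := QuaternionGroup.quaternionGroup_one_isCyclic
        exact Or.inl (cyc (isCyclic_of_surjective _ f.symm.surjective))
      · exact Or.inr ⟨e.trans f⟩

end Cfsg.Agent.S4006
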