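import Cfsg.Statements.S4197
import Cfsg.Agent.KP2.Red
import Cfsg.Agent.KP2.Alt
import Cfsg.Agent.KP2.Prim

set_option autoImplicit false
open Cfsg

namespace Cfsg.Agent.S4197

/-- A permutation group of degree n, that is a subgroup S of the symmetric group on a finite set with n elements, has at most 2^(n−1) conjugacy classes. (For n = 0 both sides equal 1 with truncated subtraction.) -/
theorem result {α : Type*} [Fintype α] [DecidableEq α] (S : Subgroup (Equiv.Perm α)) : Nat.card (ConjClasses S) ≤ 2 ^ (Fintype.card α - 1) := by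
  rcases isEmpty_or_nonempty α with h | h
  · have : Subsingleton (ConjClasses S) :=
      (ConjClasses.mk_surjective (α := S)).subsingleton
    exact (Finite.card_le_one_iff_subsingleton.2 this).trans Nat.one_le_two_pow
  · have key := Cfsg.Lib.KP2.red (fun Ω _ _ _ S hS => by
      by_cases h4 : Fintype.card Ω ≤ 4 ∨ alternatingGroup Ω ≤ S
      · exact Cfsg.Lib.KP2.alt S h4
      · rw [not_or] at h4
        exact Cfsg.Lib.KP2.prim S hS (by omega) h4.2) α S
    obtain ⟨n, hn⟩ : ∃ n, Fintype.card α = n + 1 :=
      Nat.exists_eq_succ_of_ne_zero Fintype.card_ne_zero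
    rw [hn, pow_succ] at key
    rw [hn, Nat.add_sub_cancel]
    omega

end Cfsg.Agent.S4197
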