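import Cfsg.Statements.S4203
import Cfsg.Agent.Char.Burnside
import Cfsg.Agent.Solv.SylowNumber
import Cfsg.Agent.Solv.SupersolvableFinite

set_option autoImplicit false
open Cfsg Cfsg.Lib.Solv

namespace Cfsg.Agent.S4203

/-- A finite group in which every maximal subgroup has index a prime or the square of a prime is solvable. -/
theorem result {G : Type*} [Group G] [Finite G] (h : ∀ M : Subgroup G, IsCoatom M → ∃ p : ℕ, p.Prime ∧ (M.index = p ∨ M.index = p ^ 2)) : Group.IsSolvable G := by
  revert h
  refine card_induction (P := fun G _ _ => (∀ M : Subgroup G, IsCoatom M →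
    ∃ p : ℕ, p.Prime ∧ (M.index = p ∨ M.index = p ^ 2)) → Group.IsSolvable G) ?_ G
  intro G _ _ ih h
  rcases subsingleton_or_nontrivial G with h0 | h0
  · infer_instance
  obtain ⟨N, hN⟩ := exists_isMinNormal G
  have := hN.normal
  rw [Group.isSolvable_iff_subgroup_quotient N]
  refine ⟨?_, ih (G ⧸ N) (card_quotient_lt hN.ne_bot) fun M hM => ?_⟩
  swap
  · have := h _ (isCoatom_comap_of_surjective' (QuotientGroup.mk'_surjective N) hM)
    rwa [Subgroup.index_comap_of_surjective _ (QuotientGroup.mk'_surjective N)] at this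
  have hne : (Nat.card N).primeFactors.Nonempty := by
    rw [Nat.nonempty_primeFactors]
    exact (Subgroup.one_lt_card_iff_ne_bot N).2 hN.ne_bot
  set p := (Nat.card N).primeFactors.max' hne with hpdef
  have hpm : p ∈ (Nat.card N).primeFactors := Finset.max'_mem _ _
  have hp : p.Prime := Nat.prime_of_mem_primeFactors hpm
  have hmax : ∀ q : ℕ, q.Prime → q ∣ Nat.card N → q ≤ p := fun q hq hd =>
    Finset.le_max' _ _ (Nat.mem_primeFactors.2 ⟨hq, hd, Nat.card_pos.ne'⟩)
  have := Fact.mk hp
  obtain ⟨Q⟩ : Nonempty (Sylow p N) := inferInstance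
  rcases eq_top_or_exists_le_coatom
    (Subgroup.normalizer (((Q : Subgroup N).map N.subtype : Subgroup G) : Set G)) with h1 | ⟨M, hM, h1⟩
  · have h2 := Subgroup.normalizer_eq_top_iff.1 h1
    have h3 := hN.eq_of_le (M := (Q : Subgroup N).map N.subtype) (by
      rw [Ne, Subgroup.map_eq_bot_iff_of_injective _ N.subtype_injective]
      exact Q.ne_bot_of_dvd_card (Nat.dvd_of_mem_primeFactors hpm)) (Subgroup.map_subtype_le _)
    have h4 : IsPGroup p N := h3 ▸ Q.isPGroup'.map _
    have := h4.isNilpotent
    infer_instance
  · have h2 : M ⊔ N = ⊤ := top_le_iff.1 (Sylow.normalizer_sup_eq_top Q ▸ sup_le_sup_right h1 N)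
    have h3 := index_eq_relIndex_of_sup_eq_top h2
    have h4 : Subgroup.normalizer ((Q : Subgroup N) : Set N) ≤ M.subgroupOf N := fun x hx =>
      h1 (Subgroup.le_normalizer_map N.subtype ⟨x, hx, rfl⟩)
    have h5 := card_sylow_modEq_one p N
    have h6 := card_sylow_modEq_one p (M.subgroupOf N)
    rw [card_sylow_subgroup_of_le Q (Subgroup.le_normalizer.trans h4)] at h6
    rw [Q.card_eq_index_normalizer] at h5
    have h7 := Subgroup.relIndex_mul_index h4
    have h8 : M.index ≡ 1 [MOD p] := by
      have h9 := h6.mul_right (M.subgroupOf N).index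
      rw [h7, one_mul] at h9
      rw [h3]
      exact h9.symm.trans h5
    obtain ⟨q, hq, hidx⟩ := h M hM
    have hqN : q ∣ Nat.card N := by
      refine Dvd.dvd.trans ?_ (h3 ▸ Subgroup.relIndex_dvd_card M N)
      rcases hidx with h9 | h9 <;> rw [h9]
      exact dvd_pow_self q two_ne_zero
    have hqp := hmax q hq hqN
    have hq2 := hq.two_le
    have hp3 : p ≤ 3 := by
      rcases hidx with h9 | h9
      · rw [h9] at h8
        have := Nat.le_of_dvd (by omega) ((Nat.modEq_iff_dvd' (by omega)).1 h8.symm)
        omega
      · rw [h9] at h8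
        have h10 := (Nat.modEq_iff_dvd' (Nat.one_le_pow _ _ (by omega))).1 h8.symm
        have h11 : q ^ 2 - 1 = (q + 1) * (q - 1) := by
          have := Nat.sq_sub_sq q 1
          rwa [one_pow] at this
        rw [h11] at h10
        rcases (Nat.Prime.dvd_mul hp).1 h10 with h12 | h12
        · have h13 := Nat.le_of_dvd (by omega) h12
          have h14 : p ≠ q := by
            rintro h15
            rw [h15] at h12
            exact hq.one_lt.ne' (Nat.dvd_one.1 ((Nat.dvd_add_right dvd_rfl).1 h12))
          have h15 : p = q + 1 := by omega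
          rcases hq.eq_two_or_odd' with h16 | h16
          · omega
          · have h17 : Even p := by rw [h15]; exact h16.add_one
            rw [hp.even_iff] at h17
            omega
        · have := Nat.le_of_dvd (by omega) h12
          omega
    refine Cfsg.Lib.Char.isSolvable_of_prime_dvd_card Nat.prime_two Nat.prime_three N
      fun r hr hd => ?_
    have := hmax r hr hd
    have := hr.two_le
    omega

end Cfsg.Agent.S4203
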