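import Cfsg.Statements.S4213
import Cfsg.Agent.Solv.FrobCount
import Cfsg.Agent.Solv.MinNormal

set_option autoImplicit false
open Cfsg

namespace Cfsg.Agent.S4213

open Cfsg.Lib.Solv Subgroup

universe u in
theorem aux (N : ℕ) : ∀ (G : Type u) [Group G] [Finite G] [Group.IsSolvable G], Nat.card G = N →
    ∀ n : ℕ, n ∣ Nat.card G → Nat.card {x : G // x ^ n = 1} = n →
      ∃ H : Subgroup G, H.Normal ∧ (H : Set G) = {x : G | x ^ n = 1} := by
  induction N using Nat.strong_induction_on with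
  | _ N ih =>
  intro G _ _ _ hN n hn hcount
  rcases subsingleton_or_nontrivial G with hG | hG
  · exact ⟨⊤, inferInstance, by ext x; simp [Subsingleton.elim x 1]⟩
  -- it suffices to find a subgroup of order `n`
  suffices h : ∃ L : Subgroup G, n ≤ Nat.card L ∧ ∀ x ∈ L, x ^ n = 1 by
    obtain ⟨L, hL, hL'⟩ := h
    have h1 : (L : Set G) = {x : G | x ^ n = 1} :=
      Set.eq_of_subset_of_ncard_le hL' (hcount.le.trans hL)
    refine ⟨L, ⟨fun x hx g => ?_⟩, h1⟩
    have : g * x * g⁻¹ ∈ {x : G | x ^ n = 1} := by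
      rw [Set.mem_ofPred_eq, conj_pow, hL' x hx, mul_one, mul_inv_cancel]
    rwa [← h1] at this
  obtain ⟨p, K, hp, hK, -, hKp, hKP⟩ := exists_isMinNormal_elementary G
  have hKn := hK.normal
  have := Fact.mk hp
  obtain ⟨i, hi⟩ := IsPGroup.iff_card.mp hKP
  have hi0 : i ≠ 0 := by
    rintro rfl
    exact hK.ne_bot (card_eq_one.mp hi)
  have hlt : Nat.card (G ⧸ K) < N := by
    rw [← hN, K.card_eq_card_quotient_mul_card_subgroup, hi]
    exact lt_mul_of_one_lt_right Nat.card_pos (Nat.one_lt_pow hi0 hp.one_lt)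
  have hn0 : n ≠ 0 := by
    rintro rfl
    exact Nat.card_pos.ne' (Nat.eq_zero_of_zero_dvd hn)
  have hpos : ∀ u : ℕ, 0 < Nat.card {x : G ⧸ K // x ^ u = 1} := fun u => by
    have : Nonempty {x : G ⧸ K // x ^ u = 1} := ⟨⟨1, one_pow u⟩⟩
    exact Nat.card_pos
  have hcomap : ∀ H : Subgroup (G ⧸ K), Nat.card (H.comap (QuotientGroup.mk' K)) =
      p ^ i * Nat.card H := fun H => hi ▸ QuotientGroup.card_preimage_mk K (H : Set (G ⧸ K))
  by_cases hpn : p ∣ n
  · obtain ⟨j, m, hm, rfl⟩ := Nat.exists_eq_pow_mul_and_not_dvd hn0 p hp.ne_one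
    have hcop : (m).Coprime (p ^ i) := ((Nat.Prime.coprime_iff_not_dvd hp).mpr hm).symm.pow_right i
    have hj0 : j ≠ 0 := by
      rintro rfl
      exact hm (by simpa using hpn)
    have hu : p ^ (j - i) * m ∣ Nat.card (G ⧸ K) := by
      rw [K.card_eq_card_quotient_mul_card_subgroup, hi] at hn
      by_cases hij : i ≤ j
      · refine Nat.dvd_of_mul_dvd_mul_right (pow_pos hp.pos i) ?_
        rwa [mul_right_comm, ← pow_add, Nat.sub_add_cancel hij]
      · rw [Nat.sub_eq_zero_of_le (not_le.mp hij).le, pow_zero, one_mul]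
        exact hcop.dvd_of_dvd_mul_right ((Dvd.intro_left _ rfl).trans hn)
    have hlift : ∀ x : G, (x : G ⧸ K) ^ (p ^ (j - i) * m) = 1 → x ^ (p ^ j * m) = 1 := by
      intro x hx
      rw [← QuotientGroup.mk_pow, QuotientGroup.eq_one_iff] at hx
      have h1 := hKp _ hx
      rw [← pow_mul] at h1
      rw [← orderOf_dvd_iff_pow_eq_one] at h1 ⊢
      refine h1.trans ?_
      rw [mul_right_comm, ← pow_succ]
      exact Nat.mul_dvd_mul_right (pow_dvd_pow p (by omega)) m
    have h1 : p ^ i * Nat.card {x : G ⧸ K // x ^ (p ^ (j - i) * m) = 1} ≤ p ^ j * m := by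
      have h2 := QuotientGroup.card_preimage_mk K {x : G ⧸ K | x ^ (p ^ (j - i) * m) = 1}
      rw [hi] at h2
      refine h2.symm.le.trans (le_of_le_of_eq ?_ hcount)
      exact Set.ncard_le_ncard (s := QuotientGroup.mk ⁻¹' {x : G ⧸ K | x ^ (p ^ (j - i) * m) = 1})
        (t := {x : G | x ^ (p ^ j * m) = 1}) hlift
    have h2 := Nat.le_of_dvd (hpos _) (Frob.dvd_card_pow_eq_one hu)
    have h3 : p ^ j * m ≤ p ^ i * (p ^ (j - i) * m) := by
      rw [← mul_assoc, ← pow_add]
      exact Nat.mul_le_mul_right _ (Nat.pow_le_pow_right hp.pos (by omega))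
    obtain ⟨H, -, hH⟩ := ih _ hlt (G ⧸ K) rfl _ hu
      (le_antisymm (Nat.le_of_mul_le_mul_left (h1.trans h3) (pow_pos hp.pos i)) h2)
    refine ⟨H.comap (QuotientGroup.mk' K), ?_, fun x hx => hlift x ?_⟩
    · rw [hcomap]
      refine h3.trans (Nat.mul_le_mul_left _ (h2.trans (le_of_eq ?_)))
      exact (congrArg (fun s : Set (G ⧸ K) => Nat.card s) hH).symm
    · have : (x : G ⧸ K) ∈ (H : Set (G ⧸ K)) := hx
      rwa [hH] at this
  · have hcop : n.Coprime (p ^ i) := ((Nat.Prime.coprime_iff_not_dvd hp).mpr hpn).symm.pow_right i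
    have hu : n ∣ Nat.card (G ⧸ K) := by
      rw [K.card_eq_card_quotient_mul_card_subgroup, hi] at hn
      exact hcop.dvd_of_dvd_mul_right hn
    have h1 : Nat.card {x : G ⧸ K // x ^ n = 1} ≤ n := by
      refine le_of_le_of_eq (Nat.card_le_card_of_surjective
        (fun x : {x : G // x ^ n = 1} => (⟨(x.1 : G ⧸ K), ?_⟩ : {x : G ⧸ K // x ^ n = 1})) ?_) hcount
      · rw [← QuotientGroup.mk_pow, x.2, QuotientGroup.mk_one]
      · rintro ⟨y, hy⟩
        obtain ⟨x, rfl⟩ := QuotientGroup.mk_surjective y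
        obtain ⟨r, hr1, hr2⟩ := Nat.chineseRemainder
          ((Nat.Prime.coprime_iff_not_dvd hp).mpr hpn) 0 1
        refine ⟨⟨x ^ r, ?_⟩, Subtype.ext ?_⟩
        · rw [← QuotientGroup.mk_pow, QuotientGroup.eq_one_iff] at hy
          obtain ⟨c, rfl⟩ := Nat.modEq_zero_iff_dvd.mp hr1
          rw [← pow_mul, mul_comm, pow_mul, pow_mul, hKp _ hy, one_pow]
        · change ((x ^ r : G) : G ⧸ K) = x
          rw [QuotientGroup.mk_pow, pow_eq_pow_of_modEq hr2 hy, pow_one]
    have h2 := Nat.le_of_dvd (hpos _) (Frob.dvd_card_pow_eq_one hu)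
    obtain ⟨H, -, hH⟩ := ih _ hlt (G ⧸ K) rfl _ hu (le_antisymm h1 h2)
    have hHc : Nat.card H = n :=
      (congrArg (fun s : Set (G ⧸ K) => Nat.card s) hH).trans (le_antisymm h1 h2)
    set U := H.comap (QuotientGroup.mk' K)
    have hKU : K ≤ U := QuotientGroup.le_comap_mk' _ _
    have hc : Nat.card (K.subgroupOf U) = p ^ i := by
      rw [Nat.card_congr (subgroupOfEquivOfLe hKU).toEquiv, hi]
    have hidx : (K.subgroupOf U).index = n := by
      have := (K.subgroupOf U).card_mul_index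
      rw [hc, hcomap, hHc] at this
      exact Nat.eq_of_mul_eq_mul_left (pow_pos hp.pos i) this
    obtain ⟨L, hL⟩ := exists_right_complement'_of_coprime (N := K.subgroupOf U)
      (by rw [hc, hidx]; exact hcop.symm)
    have hLc : Nat.card (L.map U.subtype) = n := by
      rw [card_map_of_injective U.subtype_injective, ← hL.symm.index_eq_card, hidx]
    refine ⟨L.map U.subtype, hLc.ge, fun x hx => ?_⟩
    rw [← hLc]
    exact congrArg Subtype.val (pow_card_eq_one' (G := L.map U.subtype) (x := ⟨x, hx⟩))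

/-- If `G` is a finite solvable group and `n` divides the order of `G` and exactly `n` elements `x` of `G` satisfy `x^n = 1`, then these elements form a normal subgroup. -/
theorem result {G : Type*} [Group G] [Finite G] [Group.IsSolvable G] (n : ℕ) (hn : n ∣ Nat.card G) (hcount : Nat.card {x : G // x ^ n = 1} = n) : ∃ H : Subgroup G, H.Normal ∧ (H : Set G) = {x : G | x ^ n = 1} := by
  exact aux (Nat.card G) G rfl n hn hcount

end Cfsg.Agent.S4213
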