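import Cfsg.Statements.S4214
import Cfsg.Agent.Solv.Hall
import Cfsg.Agent.Solv.CardModEq
import Cfsg.Agent.Solv.Subnormalizer
import Cfsg.Agent.Solv.Conj

set_option autoImplicit false
open Cfsg

namespace Cfsg.Agent.S4214

open Cfsg Cfsg.Lib.Solv
open scoped Pointwise commutatorElement

theorem exists_normal_sup_pgroup {G : Type*} [Group G] [Finite G] (H : Subgroup G)
    [Group.IsSolvable H] (hH : H ≠ ⊥) :
    ∃ (q : ℕ) (D Q : Subgroup G), q.Prime ∧ q ∣ Nat.card H ∧ D < H ∧
      H ≤ Subgroup.normalizer (D : Set G) ∧ IsPGroup q Q ∧ D ⊔ Q = H := by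
  haveI := (Subgroup.nontrivial_iff_ne_bot H).2 hH
  have h1 : commutator H ≠ ⊤ := (Group.IsSolvable.commutator_lt_top_of_nontrivial H).ne
  obtain ⟨M, hM, hle⟩ := (eq_top_or_exists_le_coatom (commutator H)).resolve_left h1
  haveI : M.Normal := ⟨fun a ha g => by
    have : g * a * g⁻¹ = ⁅g, a⁆ * a := by simp [commutatorElement_def]
    rw [this]
    exact M.mul_mem (hle (Subgroup.commutator_mem_commutator trivial trivial)) ha⟩
  have hi : M.index ≠ 1 := fun h => hM.1 (Subgroup.index_eq_one.1 h)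
  have hq := Nat.minFac_prime hi
  haveI := Fact.mk hq
  obtain ⟨P⟩ := (inferInstance : Nonempty (Sylow M.index.minFac H))
  have hP : ¬ (P : Subgroup H) ≤ M := fun h =>
    P.not_dvd_index ((Nat.minFac_dvd _).trans (Subgroup.index_dvd_of_le h))
  have hsup : M ⊔ (P : Subgroup H) = ⊤ := hM.2 _ (left_lt_sup.2 hP)
  refine ⟨M.index.minFac, M.map H.subtype, (P : Subgroup H).map H.subtype, hq,
    (Nat.minFac_dvd _).trans M.index_dvd_card, ?_, ?_, P.isPGroup'.map _, ?_⟩
  · refine lt_of_le_of_ne (Subgroup.map_subtype_le M) (fun h => hM.1 ?_)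
    apply Subgroup.map_injective H.subtype_injective
    rw [h, ← MonoidHom.range_eq_map, Subgroup.range_subtype]
  · rw [← Subgroup.normal_subgroupOf_iff_le_normalizer (Subgroup.map_subtype_le M)]
    have : (M.map H.subtype).subgroupOf H = M := Subgroup.comap_map_eq_self_of_injective
      H.subtype_injective M
    rw [this]; infer_instance
  · rw [← Subgroup.map_sup, hsup, ← MonoidHom.range_eq_map, Subgroup.range_subtype]

theorem relIndex_centralizer_mem {G : Type*} [Group G] [Finite G] [Group.IsSolvable G] {p : ℕ}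
    (hp : p.Prime) (N : Subgroup G) [N.Normal] (hN : IsPGroup p N) (m : ℕ) (hpm : ¬ p ∣ m)
    (H : Subgroup G) (hH : Nat.card H ∣ m) :
    (N ⊓ Subgroup.centralizer (H : Set G)).relIndex N ∈ Submonoid.closure
      {x : ℕ | (∃ e, x = p ^ e) ∧ x ∣ Nat.card N ∧ ∃ q : ℕ, q.Prime ∧ q ∣ m ∧ x ≡ 1 [MOD q]} := by
  haveI := Fact.mk hp
  induction H using WellFoundedLT.induction with
  | ind H ih =>
  by_cases h0 : H = ⊥
  · subst h0
    have : N ⊓ Subgroup.centralizer ((⊥ : Subgroup G) : Set G) = N := by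
      refine inf_eq_left.2 (fun x _ => Subgroup.mem_centralizer_iff.2 (fun y hy => ?_))
      rw [SetLike.mem_coe, Subgroup.mem_bot] at hy
      simp [hy]
    rw [this, Subgroup.relIndex_self]
    exact one_mem _
  obtain ⟨q, D, Q, hq, hqH, hDH, hHD, hQ, hsup⟩ := exists_normal_sup_pgroup H h0
  haveI := Fact.mk hq
  have h1 := ih D hDH ((Subgroup.card_dvd_of_le hDH.le).trans hH)
  set M := N ⊓ Subgroup.centralizer (D : Set G) with hM
  have hle : N ⊓ Subgroup.centralizer (H : Set G) ≤ M :=
    inf_le_inf_left _ (Subgroup.centralizer_le (SetLike.coe_subset_coe.2 hDH.le))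
  rw [← Subgroup.relIndex_mul_relIndex _ M N hle inf_le_left]
  refine mul_mem (Submonoid.subset_closure ?_) h1
  have hQH : Q ≤ H := hsup ▸ le_sup_right
  have hQM : Q ≤ Subgroup.normalizer (M : Set G) :=
    le_normalizer_inf (by rw [Subgroup.normalizer_eq_top]; exact le_top)
      (le_normalizer_centralizer (hQH.trans hHD))
  have hc := card_modEq_card_inf_centralizer hQ hQM
  have heq : M ⊓ Subgroup.centralizer (Q : Set G) = N ⊓ Subgroup.centralizer (H : Set G) := by
    refine le_antisymm ?_ (le_inf hle (inf_le_right.trans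
      (Subgroup.centralizer_le (SetLike.coe_subset_coe.2 hQH))))
    rintro x ⟨⟨hx1, hx2⟩, hx3⟩
    refine ⟨hx1, ?_⟩
    have : H ≤ Subgroup.centralizer {x} := by
      rw [← hsup]
      refine sup_le (fun y hy => ?_) (fun y hy => ?_)
      · exact Subgroup.mem_centralizer_singleton_iff.2 (hx2 y hy)
      · exact Subgroup.mem_centralizer_singleton_iff.2 (hx3 y hy)
    exact fun y hy => Subgroup.mem_centralizer_singleton_iff.1 (this hy)
  rw [heq, ← relIndex_mul_card_of_le hle] at hc
  have hdvd : (N ⊓ Subgroup.centralizer (H : Set G)).relIndex M ∣ Nat.card N :=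
    (Dvd.intro _ (relIndex_mul_card_of_le hle)).trans (Subgroup.card_dvd_of_le inf_le_left)
  obtain ⟨k, hk⟩ := IsPGroup.iff_card.1 hN
  refine ⟨?_, hdvd, q, hq, hqH.trans hH, ?_⟩
  · rw [hk] at hdvd
    obtain ⟨e, -, he⟩ := (Nat.dvd_prime_pow hp).1 hdvd
    exact ⟨e, he⟩
  · have hcop : Nat.Coprime q (Nat.card (N ⊓ Subgroup.centralizer (H : Set G) : Subgroup G)) := by
      refine Nat.Coprime.coprime_dvd_right (Subgroup.card_dvd_of_le inf_le_left) ?_
      rw [hk]
      refine Nat.Coprime.pow_right _ ((Nat.coprime_primes hq hp).2 ?_)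
      rintro rfl
      exact hpm (hqH.trans hH)
    exact Nat.ModEq.cancel_right_of_coprime hcop (by rwa [one_mul])

/-- the admissible factors -/
def Good (G : Type*) [Group G] (m : ℕ) : Set ℕ :=
  {x | (∃ q e : ℕ, q.Prime ∧ x = q ^ e) ∧ (∃ K L : Subgroup G, K.Normal ∧ L.Normal ∧ K < L ∧
    (∀ M : Subgroup G, M.Normal → K ≤ M → M ≤ L → M = K ∨ M = L) ∧ x ∣ K.relIndex L) ∧
    (∃ q : ℕ, q.Prime ∧ q ∣ m ∧ x ≡ 1 [MOD q])}

theorem good_quot {G : Type*} [Group G] (N : Subgroup G) [N.Normal] {m m' : ℕ} (h : m' ∣ m) :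
    Good (G ⧸ N) m' ⊆ Good G m := by
  rintro x ⟨h1, ⟨K, L, hK, hL, hKL, hmax, hd⟩, q, hq, hqm, hx⟩
  have hs := QuotientGroup.mk'_surjective N
  refine ⟨h1, ⟨K.comap (QuotientGroup.mk' N), L.comap (QuotientGroup.mk' N), inferInstance,
    inferInstance, (Subgroup.comap_lt_comap_of_surjective hs).2 hKL, fun M hM h1 h2 => ?_, ?_⟩,
    q, hq, hqm.trans h, hx⟩
  · have hker : (QuotientGroup.mk' N).ker ≤ M := (Subgroup.ker_le_comap _ K).trans h1
    have hM' := Subgroup.comap_map_eq_self hker
    rcases hmax (M.map (QuotientGroup.mk' N)) (hM.map _ hs)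
      (by rw [← Subgroup.map_comap_eq_self_of_surjective hs K]; exact Subgroup.map_mono h1)
      (Subgroup.map_le_iff_le_comap.2 h2) with h3 | h3
    · left; rw [← h3, hM']
    · right; rw [← h3, hM']
  · rw [Subgroup.relIndex_comap, Subgroup.map_comap_eq_self_of_surjective hs]
    exact hd

universe u

theorem index_normalizer_mem (G : Type u) [Group G] [Finite G] [Group.IsSolvable G] :
    ∀ H : Subgroup G, (Nat.card H).Coprime H.index →
      (Subgroup.normalizer (H : Set G)).index ∈ Submonoid.closure (Good G (Nat.card H)) := by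
  refine solvable_induction (P := fun G _ _ _ => ∀ H : Subgroup G, (Nat.card H).Coprime H.index →
      (Subgroup.normalizer (H : Set G)).index ∈ Submonoid.closure (Good G (Nat.card H))) ?_ ?_ G
  · intro G _ _ _ _ H _
    rw [Subsingleton.elim (Subgroup.normalizer (H : Set G)) ⊤, Subgroup.index_top]
    exact one_mem _
  intro G _ _ _ p N _ hp hN hcomm _ hpN ih H hH
  haveI := Fact.mk hp
  have hs := QuotientGroup.mk'_surjective N
  have hd1 : Nat.card (H.map (QuotientGroup.mk' N)) ∣ Nat.card H := Subgroup.card_map_dvd _ _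
  have hd2 : (H.map (QuotientGroup.mk' N)).index ∣ H.index := Subgroup.index_map_dvd _ hs
  have h1 := ih (G ⧸ N) (card_quotient_lt hN.ne_bot) (H.map (QuotientGroup.mk' N))
    ((hH.coprime_dvd_left hd1).coprime_dvd_right hd2)
  have h2 := Submonoid.closure_mono (good_quot N hd1) h1
  rw [← Subgroup.index_comap_of_surjective _ hs, Subgroup.comap_normalizer_eq_of_surjective _ hs,
    Subgroup.comap_map_eq, QuotientGroup.ker_mk'] at h2
  have hle : Subgroup.normalizer (H : Set G) ≤ Subgroup.normalizer ((H ⊔ N : Subgroup G) : Set G) :=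
    le_normalizer_sup le_rfl (by rw [Subgroup.normalizer_eq_top (H := N)]; exact le_top)
  rw [← Subgroup.relIndex_mul_index hle]
  refine mul_mem ?_ h2
  obtain ⟨k, hk⟩ := IsPGroup.iff_card.1 hpN
  by_cases hpH : p ∣ Nat.card H
  · have hNH : N ≤ H := by
      have h3 : H.relIndex (H ⊔ N) ∣ H.index := Subgroup.relIndex_dvd_index_of_le le_sup_left
      have h4 : H.relIndex (H ⊔ N) ∣ p ^ k := by
        have h5 := card_sup_mul_card_inf_of_normal H N
        rw [← relIndex_mul_card_of_le (le_sup_left : H ≤ H ⊔ N), hk, mul_comm _ (Nat.card H),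
          mul_assoc] at h5
        exact Dvd.intro _ (Nat.eq_of_mul_eq_mul_left Nat.card_pos h5)
      have h6 : H.relIndex (H ⊔ N) = 1 :=
        Nat.eq_one_of_dvd_coprimes (((hH.coprime_dvd_left hpH).pow_left k)) h4 h3
      exact le_sup_right.trans (Subgroup.relIndex_eq_one.1 h6)
    rw [sup_eq_left.2 hNH, Subgroup.relIndex_self]
    exact one_mem _
  · have hcop : (Nat.card H).Coprime (Nat.card N) := by
      rw [hk]; exact (((Nat.Prime.coprime_iff_not_dvd hp).2 hpH).symm).pow_right k
    have hHN : H ≤ Subgroup.normalizer (N : Set G) := by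
      rw [Subgroup.normalizer_eq_top]; exact le_top
    have hsup : Subgroup.normalizer ((H ⊔ N : Subgroup G) : Set G) =
        Subgroup.normalizer (H : Set G) ⊔ N := by
      refine le_antisymm (fun g hg => ?_) (sup_le hle (le_sup_right.trans Subgroup.le_normalizer))
      obtain ⟨x, hx, hx2⟩ := schur_zassenhaus_conj_ambient N H (MulAut.conj g • H) hHN hcop
        (Or.inl inferInstance) (by
          rw [sup_comm]
          conv_rhs => rw [← conj_smul_eq_of_mem_normalizer hg]
          exact Subgroup.pointwise_smul_le_pointwise_smul_iff.2 le_sup_left)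
        (SZ.card_conj_smul g H)
      have h7 : x⁻¹ * g ∈ Subgroup.normalizer (H : Set G) := by
        rw [mem_normalizer_iff_conj_smul_eq, conj_mul_smul, ← hx2, conj_inv_smul_conj_smul]
      have : g = x * (x⁻¹ * g) := by group
      rw [this]
      exact mul_mem (Subgroup.mem_sup_right hx) (Subgroup.mem_sup_left h7)
    have hinf : Subgroup.normalizer (H : Set G) ⊓ N = N ⊓ Subgroup.centralizer (H : Set G) := by
      refine le_antisymm ?_ (le_inf (inf_le_right.trans (Subgroup.centralizer_le_normalizer _))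
        inf_le_left)
      rintro x ⟨hx1, hx2⟩
      refine ⟨hx2, fun y hy => ?_⟩
      have hdis : Disjoint H N := Subgroup.disjoint_of_coprime_natCard hcop
      have : x * y * x⁻¹ * y⁻¹ = 1 := Subgroup.disjoint_def.1 hdis
        (mul_mem ((Subgroup.mem_normalizer_iff.1 hx1 y).1 hy) (inv_mem hy)) (by
          have := mul_mem hx2 (‹N.Normal›.conj_mem _ (inv_mem hx2) y)
          simpa [mul_assoc] using this)
      calc y * x = (x * y * x⁻¹ * y⁻¹)⁻¹ * (x * y) := by group
        _ = x * y := by rw [this]; group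
    have hrel : (Subgroup.normalizer (H : Set G)).relIndex (Subgroup.normalizer (H : Set G) ⊔ N) =
        (N ⊓ Subgroup.centralizer (H : Set G)).relIndex N := by
      have h5 := card_sup_mul_card_inf_of_normal (Subgroup.normalizer (H : Set G)) N
      rw [← relIndex_mul_card_of_le (le_sup_left : Subgroup.normalizer (H : Set G) ≤ _ ⊔ N),
        hinf, ← relIndex_mul_card_of_le (inf_le_left : N ⊓ Subgroup.centralizer (H : Set G) ≤ N),
        mul_comm _ (Nat.card (Subgroup.normalizer (H : Set G))), mul_assoc] at h5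
      exact Nat.eq_of_mul_eq_mul_right Nat.card_pos (Nat.eq_of_mul_eq_mul_left Nat.card_pos h5)
    rw [hsup, hrel]
    refine Submonoid.closure_mono ?_ (relIndex_centralizer_mem hp N hpN _ hpH H dvd_rfl)
    rintro x ⟨⟨e, he⟩, hx2, hx3⟩
    refine ⟨⟨p, e, hp, he⟩, ⟨⊥, N, inferInstance, inferInstance, bot_lt_iff_ne_bot.2 hN.ne_bot,
      fun M hM _ h => hN.min M hM h, by rwa [Subgroup.relIndex_bot_left]⟩, hx3⟩


/-- Let `G` be a finite solvable group of order `mn` with `gcd(m, n) = 1`. Then the number of subgroups of order `m` is a product of natural numbers each of which is a power of a prime, divides the order of some chief factor of `G` (a quotient `L/K` of normal subgroups `K < L` of `G` with no normal subgroup of `G` strictly between them), and is congruent to `1` modulo some prime divisor of `m`. -/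
theorem result {G : Type*} [Group G] [Finite G] [Group.IsSolvable G] (m n : ℕ) (hG : Nat.card G = m * n) (hmn : Nat.Coprime m n) : ∃ (k : ℕ) (f : Fin k → ℕ), Nat.card {H : Subgroup G // Nat.card H = m} = ∏ i, f i ∧ ∀ i, (∃ q e : ℕ, q.Prime ∧ f i = q ^ e) ∧ (∃ K L : Subgroup G, K.Normal ∧ L.Normal ∧ K < L ∧ (∀ M : Subgroup G, M.Normal → K ≤ M → M ≤ L → M = K ∨ M = L) ∧ f i ∣ K.relIndex L) ∧ (∃ q : ℕ, q.Prime ∧ q ∣ m ∧ f i ≡ 1 [MOD q]) := by
  classical
  have hm0 : m ≠ 0 := by
    rintro rfl
    exact Nat.card_pos.ne' (hG.trans (zero_mul n))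
  have hhall : ∀ K : Subgroup G, Nat.card K = m → IsPiHall {q | q ∣ m} K := by
    intro K hK
    have hi : K.index = n := by
      have := K.card_mul_index
      rw [hK, hG] at this
      exact Nat.eq_of_mul_eq_mul_left (Nat.pos_of_ne_zero hm0) this
    refine isPiHall_iff.2 ⟨fun q hq hd => by rw [hK] at hd; exact hd, fun q hq hd hqm => ?_⟩
    rw [hi] at hd
    exact hq.one_lt.ne' (Nat.eq_one_of_dvd_coprimes hmn hqm hd)
  obtain ⟨H, hH⟩ := exists_isPiHall {q | q ∣ m} G
  have hHm : Nat.card H = m := by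
    have h1 := H.card_mul_index
    rw [hG] at h1
    obtain ⟨h2, h3⟩ := isPiHall_iff.1 hH
    have c1 : (Nat.card H).Coprime n := Nat.coprime_of_dvd (fun q hq h4 h5 =>
      hq.one_lt.ne' (Nat.eq_one_of_dvd_coprimes hmn (h2 q hq h4) h5))
    have c2 : m.Coprime H.index := Nat.coprime_of_dvd (fun q hq h4 h5 => h3 q hq h5 h4)
    exact Nat.dvd_antisymm (c1.dvd_of_dvd_mul_right (h1 ▸ dvd_mul_right _ _))
      (c2.dvd_of_dvd_mul_right (h1 ▸ dvd_mul_right _ _))
  have hcount : Nat.card {H : Subgroup G // Nat.card H = m} =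
      (Subgroup.normalizer (H : Set G)).index := by
    have h1 := Subn.cnt_conj_mul H ⊤
    have h2 : Count.cnt (fun x : G => H ≤ MulAut.conj x • (⊤ : Subgroup G)) = Nat.card G := by
      unfold Count.cnt
      exact Nat.card_congr (Equiv.subtypeUnivEquiv (fun x => by
        beta_reduce
        rw [conj_smul_top]; exact le_top))
    have h3 : Count.cnt (fun K : Subgroup G => K ≤ ⊤ ∧ ∃ g : G, K = MulAut.conj g • H) =
        Nat.card {H : Subgroup G // Nat.card H = m} := by
      unfold Count.cnt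
      refine Nat.card_congr (Equiv.subtypeEquivRight (fun K => ⟨?_, fun hK => ⟨le_top, ?_⟩⟩))
      · rintro ⟨-, g, rfl⟩
        rw [SZ.card_conj_smul, hHm]
      · obtain ⟨g, hg⟩ := isPiHall_conj_eq hH (hhall K hK)
        exact ⟨g, hg.symm⟩
    rw [h2, h3, ← (Subgroup.normalizer (H : Set G)).index_mul_card] at h1
    exact Nat.eq_of_mul_eq_mul_right Nat.card_pos h1
  have hi : H.index = n := by
    have := H.card_mul_index
    rw [hHm, hG] at this
    exact Nat.eq_of_mul_eq_mul_left (Nat.pos_of_ne_zero hm0) this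
  have hmem := index_normalizer_mem G H (by rw [hHm, hi]; exact hmn)
  rw [hHm, ← hcount] at hmem
  obtain ⟨l, hl, hprod⟩ := Submonoid.exists_list_of_mem_closure hmem
  refine ⟨l.length, fun i => l.get i, ?_, fun i => hl _ (List.get_mem l i)⟩
  rw [← hprod, ← List.prod_ofFn, List.ofFn_get]

end Cfsg.Agent.S4214
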