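import Cfsg.Statements.S4217
import Cfsg.Agent.Solv.Gaschutz

set_option autoImplicit false
open Cfsg

namespace Cfsg.Agent.S4217

open Cfsg.Lib.Solv Cfsg.Lib.Solv.Gaschutz
open scoped IsMulCommutative

theorem exists_cores {G : Type*} [Group G] [Finite G] (K U : Subgroup G) [K.Normal]
    [IsMulCommutative K] (hKU : K ≤ U) (A : Subgroup G) (hAK : A ⊓ K = ⊥) (hKA : K ⊔ A = U) :
    ∃ D : G → K, (∀ g h : G, D (g * h) = MulAut.conjNormal g (D h) * D g) ∧
      ∀ k : K, D k = k ^ U.index := by
  classical
  obtain ⟨d, h1, h2⟩ := exists_cross K A hAK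
  letI : Fintype (G ⧸ U) := Fintype.ofFinite _
  let c : G → G ⧸ U → G := fun g q => (g • q).out⁻¹ * g * q.out
  have hc : ∀ g q, c g q ∈ K ⊔ A := by
    intro g q
    rw [hKA]
    change (g • q).out⁻¹ * g * q.out ∈ U
    rw [mul_assoc, ← QuotientGroup.eq, QuotientGroup.out_eq', ← smul_eq_mul,
      MulAction.Quotient.coe_smul_out]
  let D : G → K := fun g => ∏ q : G ⧸ U, MulAut.conjNormal (g • q).out (d (c g q))
  refine ⟨D, ?_, ?_⟩
  · intro g h
    have e1 : D g = ∏ q : G ⧸ U, MulAut.conjNormal (g • h • q).out (d (c g (h • q))) :=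
      (Fintype.prod_equiv (MulAction.toPerm h) _ _ fun q => rfl).symm
    rw [e1]
    simp only [D, map_prod, ← Finset.prod_mul_distrib]
    refine Finset.prod_congr rfl fun q _ => ?_
    have e2 : c (g * h) q = c g (h • q) * c h q := by
      simp only [c, mul_smul]; group
    rw [e2, cross_mul h1 h2 (hc _ _) (hc _ _), map_mul, mul_smul]
    congr 1
    apply Subtype.ext
    simp only [MulAut.conjNormal_apply, c]
    group
  · intro k
    rw [Subgroup.index_eq_card, Nat.card_eq_fintype_card, ← Finset.card_univ, ← Finset.prod_const]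
    refine Finset.prod_congr rfl fun q _ => ?_
    have hk' : q.out⁻¹ * k * q.out ∈ K := by
      have := (inferInstance : K.Normal).conj_mem k k.2 q.out⁻¹
      simpa using this
    have e1 : (k : G) • q = q := by
      conv_lhs => rw [← QuotientGroup.out_eq' q]
      conv_rhs => rw [← QuotientGroup.out_eq' q]
      rw [MulAction.Quotient.smul_mk, eq_comm, QuotientGroup.eq, smul_eq_mul, ← mul_assoc]
      exact hKU hk'
    have e2 : d (c k q) = ⟨q.out⁻¹ * k * q.out, hk'⟩ := by
      apply h2
      simp only [c, e1, inv_mul_cancel]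
      exact A.one_mem
    rw [e2, e1]
    apply Subtype.ext
    simp only [MulAut.conjNormal_apply]
    group

/-- Let `A` be an abelian normal subgroup of the finite group `G`. Then `A` has a complement in `G` if and only if, for every prime `p` dividing the index of `A`, there are a Sylow `p`-subgroup `S` of `G/A` and a subgroup `K` of `G` with `K ∩ A = 1` and `KA` equal to the preimage of `S` (that is, `A` has a complement in the preimage of a Sylow `p`-subgroup of `G/A`). -/
theorem result {G : Type*} [Group G] [Finite G] (A : Subgroup G) [A.Normal] (hA : IsMulCommutative A) : (∃ K : Subgroup G, K.IsComplement' A) ↔ ∀ p : ℕ, p.Prime → p ∣ A.index → ∃ (S : Sylow p (G ⧸ A)) (K : Subgroup G), K ⊓ A = ⊥ ∧ K ⊔ A = (S : Subgroup (G ⧸ A)).comap (QuotientGroup.mk' A) := by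
  constructor
  · rintro ⟨K, hK⟩ p hp -
    have := Fact.mk hp
    obtain ⟨S⟩ : Nonempty (Sylow p (G ⧸ A)) := inferInstance
    have hAS : A ≤ (S : Subgroup (G ⧸ A)).comap (QuotientGroup.mk' A) :=
      QuotientGroup.le_comap_mk' _ _
    refine ⟨S, K ⊓ (S : Subgroup (G ⧸ A)).comap (QuotientGroup.mk' A), ?_, ?_⟩
    · rw [inf_right_comm, hK.disjoint.eq_bot, bot_inf_eq]
    · apply le_antisymm (sup_le inf_le_right hAS)
      intro g hg
      obtain ⟨⟨k, a⟩, rfl⟩ := hK.2 g
      exact Subgroup.mul_mem_sup ⟨k.2, (Subgroup.mul_mem_cancel_right _ (hAS a.2)).mp hg⟩ a.2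
  · intro h
    let I : AddSubgroup ℤ :=
      { carrier := {m | ∃ D : G → A, (∀ g h : G, D (g * h) = MulAut.conjNormal g (D h) * D g) ∧
          ∀ k : A, D k = k ^ m}
        zero_mem' := ⟨fun _ => 1, by simp, by simp⟩
        add_mem' := by
          rintro a b ⟨D, h1, h2⟩ ⟨E, h3, h4⟩
          refine ⟨fun g => D g * E g, fun g h => ?_, fun k => by simp only [h2, h4, zpow_add]⟩
          simp only [h1, h3, map_mul]
          exact mul_mul_mul_comm _ _ _ _
        neg_mem' := by
          rintro a ⟨D, h1, h2⟩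
          refine ⟨fun g => (D g)⁻¹, fun g h => ?_, fun k => by simp only [h2, zpow_neg]⟩
          simp only [h1, map_inv, mul_inv] }
    have hI : ∀ U B : Subgroup G, B ⊓ A = ⊥ → B ⊔ A = U → (U.index : ℤ) ∈ I := by
      intro U B h1 h2
      obtain ⟨D, h3, h4⟩ := exists_cores A U (h2 ▸ le_sup_right) B h1 (by rw [sup_comm, h2])
      exact ⟨D, h3, fun k => by rw [h4, zpow_natCast]⟩
    obtain ⟨a, ha⟩ := Int.subgroup_cyclic I
    have hdvd : ∀ m ∈ I, a ∣ m := by
      intro m hm
      rw [ha, AddSubgroup.mem_closure_singleton] at hm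
      obtain ⟨n, rfl⟩ := hm
      exact Dvd.intro_left n rfl
    have h1 : a.natAbs = 1 := by
      rw [Nat.eq_one_iff_not_exists_prime_dvd]
      intro p hp hpa
      have := Fact.mk hp
      have h2 : p ∣ A.index :=
        hpa.trans (Int.natAbs_dvd_natAbs.mpr (hdvd _ (hI A ⊥ (bot_inf_eq _) (bot_sup_eq _))))
      obtain ⟨S, K, h3, h4⟩ := h p hp h2
      have h5 := hpa.trans (Int.natAbs_dvd_natAbs.mpr (hdvd _ (hI _ K h3 h4)))
      rw [Int.natAbs_natCast, Subgroup.index_comap_of_surjective _ (QuotientGroup.mk'_surjective A)]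
        at h5
      exact S.not_dvd_index h5
    have h2 : (1 : ℤ) ∈ I := by
      have h3 : a ∈ I := ha ▸ AddSubgroup.subset_closure rfl
      rcases Int.natAbs_eq_iff.mp h1 with h | h
      · rwa [h] at h3
      · have := I.neg_mem h3
        rwa [h, neg_neg] at this
    obtain ⟨D, hD, hDK⟩ := h2
    simp only [zpow_one] at hDK
    have hD1 : D 1 = 1 := hDK 1
    let H : Subgroup G :=
      { carrier := {g | D g = 1}
        mul_mem' := by
          intro a b ha hb
          simp only [Set.mem_ofPred_eq] at ha hb ⊢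
          rw [hD, ha, hb, map_one, one_mul]
        one_mem' := hD1
        inv_mem' := by
          intro a ha
          simp only [Set.mem_ofPred_eq] at ha ⊢
          have := hD a⁻¹ a
          rw [inv_mul_cancel, hD1, ha, map_one, one_mul] at this
          exact this.symm }
    refine ⟨H, (SZ.isComplement'_of_sup_of_disjoint ?_ ?_).symm⟩
    · rw [eq_top_iff]
      intro g _
      have : (((D g)⁻¹ : A) : G) * g ∈ H := by
        change D (_ * g) = 1
        rw [hD, hDK, conjNormal_of_mem (D g)⁻¹.2, mul_inv_cancel]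
      have e : g = (D g : G) * ((((D g)⁻¹ : A) : G) * g) := by simp
      rw [e]
      exact Subgroup.mul_mem_sup (D g).2 this
    · rw [Subgroup.disjoint_def]
      intro x hxK hxH
      have : D (⟨x, hxK⟩ : A) = 1 := hxH
      rw [hDK] at this
      exact congrArg Subtype.val this

end Cfsg.Agent.S4217
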