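import Cfsg.Statements.S4218
import Cfsg.Agent.Solv.FrattiniRep

set_option autoImplicit false
open Cfsg Cfsg.Lib.Solv

namespace Cfsg.Agent.S4218

/-- Let `G` be a finite `p`-solvable group, `N₀ = O_{p'}(G)`, `P₁ = O_{p',p}(G)`, and let `F ≤ P₁` be the preimage of the Frattini subgroup of `P₁/N₀`. Then an element `g` of `G` induces the identity on `P₁/F` by conjugation (that is, `g x g⁻¹ x⁻¹ ∈ F` for all `x ∈ P₁`) if and only if `g ∈ P₁`: the group `G/P₁` acts faithfully on `P₁/F`. -/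
theorem result {G : Type*} [Group G] [Finite G] {p : ℕ} [Fact p.Prime] (hG : Cfsg.IsPSolvable p G) (g : G) : (∀ x ∈ Cfsg.pPrimePCore p G, g * x * g⁻¹ * x⁻¹ ∈ ((frattini (↥(Cfsg.pPrimePCore p G) ⧸ (Cfsg.pPrimeCore p G).subgroupOf (Cfsg.pPrimePCore p G))).comap (QuotientGroup.mk' ((Cfsg.pPrimeCore p G).subgroupOf (Cfsg.pPrimePCore p G)))).map (Cfsg.pPrimePCore p G).subtype) ↔ g ∈ Cfsg.pPrimePCore p G := by
  let f := QuotientGroup.mk' (pPrimeCore p G)
  let φ : pPrimePCore p G →* pCore p (G ⧸ pPrimeCore p G) :=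
    (f.comp (pPrimePCore p G).subtype).codRestrict _ fun x => x.2
  have hφ : ∀ x, φ x = 1 ↔ x ∈ (pPrimeCore p G).subgroupOf (pPrimePCore p G) := fun x => by
    rw [Subtype.ext_iff]
    exact QuotientGroup.eq_one_iff _
  let ψ := QuotientGroup.lift ((pPrimeCore p G).subgroupOf (pPrimePCore p G)) φ
    fun x hx => (hφ x).2 hx
  have hinj : Function.Injective ψ := by
    rw [injective_iff_map_eq_one]
    intro x hx
    obtain ⟨x, rfl⟩ := QuotientGroup.mk_surjective x
    exact (QuotientGroup.eq_one_iff _).2 ((hφ x).1 hx)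
  have hsurj : Function.Surjective ψ := by
    rintro ⟨y, hy⟩
    obtain ⟨x, rfl⟩ := QuotientGroup.mk_surjective y
    exact ⟨QuotientGroup.mk ⟨x, hy⟩, rfl⟩
  have hfr := map_frattini_of_surjective_of_isPGroup
    ((pCore_isPGroup p _).of_injective ψ hinj) hsurj
  have key : ∀ y : pPrimePCore p G, (y : G) ∈ ((frattini (↥(Cfsg.pPrimePCore p G) ⧸ (Cfsg.pPrimeCore p G).subgroupOf (Cfsg.pPrimePCore p G))).comap (QuotientGroup.mk' ((Cfsg.pPrimeCore p G).subgroupOf (Cfsg.pPrimePCore p G)))).map (Cfsg.pPrimePCore p G).subtype ↔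
      f y ∈ (frattini (pCore p (G ⧸ pPrimeCore p G))).map (pCore p (G ⧸ pPrimeCore p G)).subtype := by
    intro y
    rw [← Subgroup.coe_subtype, Subgroup.mem_map_iff_mem (Subgroup.subtype_injective _),
      Subgroup.mem_comap, ← Subgroup.mem_map_iff_mem hinj, hfr,
      ← Subgroup.mem_map_iff_mem (Subgroup.subtype_injective _)]
    rfl
  have h := mem_pCore_iff_commutator_mem_frattini (g := f g)
    ((hG.quotient (pPrimeCore p G)).centralizer_pCore_le (pPrimeCore_quotient_pPrimeCore p G))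
  have hmem : ∀ x ∈ pPrimePCore p G, g * x * g⁻¹ * x⁻¹ ∈ pPrimePCore p G := fun x hx =>
    Subgroup.mul_mem _ ((pPrimePCore_normal p G).conj_mem x hx g) (Subgroup.inv_mem _ hx)
  refine Iff.trans ⟨fun H a ha => ?_, fun H x hx => ?_⟩ h.symm
  · obtain ⟨x, rfl⟩ := QuotientGroup.mk_surjective a
    exact (key ⟨_, hmem x ha⟩).1 (H x ha)
  · exact (key ⟨_, hmem x hx⟩).2 (H (f x) hx)

end Cfsg.Agent.S4218
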