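import Cfsg.Statements.S4219
import Cfsg.Agent.S3760

set_option autoImplicit false
open Cfsg

namespace Cfsg.Agent.S4219

/-- Let a finite group `G` act `t`-fold transitively on a finite set, let `H` be the stabilizer of `t` distinct points and `P` a Sylow `p`-subgroup of `H`. Then the normalizer of `P` in `G` is `t`-fold transitive on the fixed points of `P`: any `t` distinct fixed points of `P` can be carried to any other `t` distinct fixed points of `P` by an element normalizing `P`. -/
theorem result {G : Type*} [Group G] [Finite G] {α : Type*} [Fintype α] [MulAction G α] {t : ℕ} (hG : MulAction.IsMultiplyPretransitive G α t) (x : Fin t ↪ α) {p : ℕ} [Fact p.Prime] (P : Sylow p (MulAction.stabilizer G x)) (a b : Fin t ↪ α) (ha : ∀ i, a i ∈ MulAction.fixedPoints ((P : Subgroup (MulAction.stabilizer G x)).map (MulAction.stabilizer G x).subtype) α) (hb : ∀ i, b i ∈ MulAction.fixedPoints ((P : Subgroup (MulAction.stabilizer G x)).map (MulAction.stabilizer G x).subtype) α) : ∃ g ∈ Subgroup.normalizer ((((P : Subgroup (MulAction.stabilizer G x)).map (MulAction.stabilizer G x).subtype)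 : Subgroup G) : Set G), g • a = b := by
  refine (Cfsg.Agent.S3760.result (X := Fin t ↪ α) (fun a b => hG.exists_smul_eq a b) x _
    (Subgroup.map_subtype_le _)).mpr ?_ a b ?_ ?_
  · intro g hg
    clear ha hb
    generalize MulAction.stabilizer G x = H at P hg ⊢
    set K := (P : Subgroup H).map H.subtype
    have hc : Nat.card ((K.map (MulAut.conj g).toMonoidHom).subgroupOf H) =
        p ^ (Nat.card H).factorization p := by
      rw [Nat.card_congr (Subgroup.subgroupOfEquivOfLe hg).toEquiv,
        Subgroup.card_map_of_injective (MulAut.conj g).injective,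
        Subgroup.card_map_of_injective H.subtype_injective, P.card_eq_multiplicity]
    obtain ⟨h, hh⟩ := MulAction.exists_smul_eq H P (Sylow.ofCard _ hc)
    refine ⟨h, h.2, ?_⟩
    have h1 := congrArg (fun Q : Sylow p H => (Q : Subgroup H).map H.subtype) hh
    simp only [Sylow.coe_ofCard, Subgroup.subgroupOf_map_subtype, inf_eq_left.mpr hg] at h1
    rw [← h1, Sylow.coe_subgroup_smul, Subgroup.map_map]
    exact Subgroup.map_map _ _ _
  · rintro k hk
    ext i
    exact ha i ⟨k, hk⟩
  · rintro k hk
    ext i
    exact hb i ⟨k, hk⟩

end Cfsg.Agent.S4219
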