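import Cfsg.Statements.S4227
import Cfsg.Agent.Solv.HallHigmanA
import Cfsg.Agent.Char.Burnside

set_option autoImplicit false
open Cfsg Cfsg.Lib.Solv

namespace Cfsg.Agent.S4227

/-- A finite group in which every element has order dividing `6` has `2`-length at most `1` and `3`-length at most `1`. -/
theorem result {G : Type*} [Group G] [Finite G] (h : ∀ x : G, x ^ 6 = 1) : Cfsg.PLengthLE 2 1 G ∧ Cfsg.PLengthLE 3 1 G := by
  have hprime : ∀ r : ℕ, r.Prime → r ∣ Nat.card G → r = 2 ∨ r = 3 := by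
    intro r hr hd
    have := Fact.mk hr
    obtain ⟨x, hx⟩ := exists_prime_orderOf_dvd_card' r hd
    have h6 : r ∣ 2 * 3 := hx ▸ orderOf_dvd_of_pow_eq_one (h x)
    exact (hr.dvd_mul.1 h6).imp (Nat.prime_dvd_prime_iff_eq hr Nat.prime_two).1
      (Nat.prime_dvd_prime_iff_eq hr Nat.prime_three).1
  have hsol := Cfsg.Lib.Char.isSolvable_of_prime_dvd_card Nat.prime_two Nat.prime_three G hprime
  have hexp : ∀ (p q : ℕ) [Fact p.Prime], p.Coprime q → p * q = 6 → ∀ P : Sylow p G,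
      ∀ x ∈ (P : Subgroup G), x ^ p = 1 := by
    intro p q _ hpq h6 P x hx
    obtain ⟨k, hk⟩ := P.isPGroup' ⟨x, hx⟩
    have h1 : orderOf x ∣ p ^ k := orderOf_dvd_of_pow_eq_one (congrArg Subtype.val hk)
    have h2 : orderOf x ∣ p * q := orderOf_dvd_of_pow_eq_one (h6 ▸ h x)
    exact orderOf_dvd_iff_pow_eq_one.1
      (((hpq.pow_left k).coprime_dvd_left h1).dvd_of_dvd_mul_right h2)
  have hcomm : ∀ S : Sylow 2 G, IsMulCommutative S := fun S => ⟨⟨fun a b => by
    have h1 : ∀ x : S, x * x = 1 := fun x =>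
      Subtype.ext (by simpa [pow_two] using hexp 2 3 (by norm_num) rfl S x x.2)
    have h2 : ∀ x : S, x⁻¹ = x := fun x => inv_eq_of_mul_eq_one_right (h1 x)
    rw [← h2 (a * b), mul_inv_rev, h2, h2]⟩⟩
  have : Fact (Nat.Prime 3) := ⟨Nat.prime_three⟩
  have := hcomm default
  exact ⟨HH.pLengthLE_one_of_isMulCommutative (IsPSolvable.of_isSolvable 2 G) default,
    HH.pLengthLE_of_sylowExp 1 G (IsPSolvable.of_isSolvable 3 G)
      (HH.nonExc_of_sylow_two (by norm_num) hcomm)
      fun P x hx => by rw [pow_one]; exact hexp 3 2 (by norm_num) rfl P x hx⟩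

end Cfsg.Agent.S4227
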