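import Cfsg.Statements.S4276
import Cfsg.Agent.Solv.TwoTransAut

set_option autoImplicit false
open Cfsg

namespace Cfsg.Agent.S4276

/-- Let G be a doubly transitive group of permutations of a finite set Ω of size n, let o ∈ Ω, and let α be an automorphism of G of odd order. Suppose that the image under α of the stabilizer of o has an orbit on Ω whose length k is coprime to n. Then α is induced by conjugation by a permutation of Ω normalizing G, and k = 1 or k = n − 1. -/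
theorem result {Ω : Type*} [Fintype Ω] (G : Subgroup (Equiv.Perm Ω)) (h2 : MulAction.IsMultiplyPretransitive G Ω 2) (o : Ω) (α : MulAut G) (hα : Odd (orderOf α)) (ω : Ω) (hk : (Nat.card (MulAction.orbit ((MulAction.stabilizer G o).map α.toMonoidHom) ω)).Coprime (Fintype.card Ω)) : (∃ σ : Equiv.Perm Ω, σ ∈ Subgroup.normalizer (G : Set (Equiv.Perm Ω)) ∧ ∀ g : G, ((α g : G) : Equiv.Perm Ω) = σ * (g : Equiv.Perm Ω) * σ⁻¹) ∧ (Nat.card (MulAction.orbit ((MulAction.stabilizer G o).map α.toMonoidHom) ω) = 1 ∨ Nat.card (MulAction.orbit ((MulAction.stabilizer G o).map α.toMonoidHom) ω) = Fintype.card Ω - 1) := by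
  classical
  have h3 := Lib.Solv.TTA.exists_pair h2
  obtain ⟨σ, hσ⟩ := Lib.Solv.TTA.exists_perm h3 o hα ω hk
  have h4 : ∀ g : G, ((α g : G) : Equiv.Perm Ω) = σ * (g : Equiv.Perm Ω) * σ⁻¹ := fun g =>
    eq_mul_inv_of_mul_eq (Equiv.ext (hσ g))
  refine ⟨⟨σ, Subgroup.mem_normalizer_iff.2 fun h => ⟨fun hh => h4 ⟨h, hh⟩ ▸ (α ⟨h, hh⟩).2,
    fun hh => ?_⟩, h4⟩, ?_⟩
  · have := h4 (α.symm ⟨_, hh⟩)
    rw [MulEquiv.apply_symm_apply, mul_left_inj, mul_right_inj] at this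
    exact this ▸ (α.symm ⟨_, hh⟩).2
  obtain ⟨ω, rfl⟩ := σ.surjective ω
  by_cases hω : ω = o
  · refine Or.inl (Nat.card_eq_one_iff_exists.2 ⟨⟨_, MulAction.mem_orbit_self _⟩, ?_⟩)
    rintro ⟨_, ⟨_, g, hg, rfl⟩, rfl⟩
    exact Subtype.ext ((hσ g ω).trans (congrArg σ (hω ▸ hg)))
  · right
    rw [← Set.card_ne_eq (σ o), ← Nat.card_eq_fintype_card]
    refine Nat.card_congr (Equiv.setCongr (Set.ext fun y => ⟨?_, fun hy => ?_⟩))
    · rintro ⟨⟨_, g, hg, rfl⟩, rfl⟩ h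
      exact hω (MulAction.injective g ((σ.injective ((hσ g ω).symm.trans h)).trans hg.symm))
    · obtain ⟨y, rfl⟩ := σ.surjective y
      obtain ⟨g, h1, h2⟩ := h3 o ω o y (Ne.symm hω) fun h => hy (h ▸ rfl)
      exact ⟨⟨_, g, h1, rfl⟩, (hσ g ω).trans (congrArg σ h2)⟩

end Cfsg.Agent.S4276
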