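import Cfsg.Statements.S4277
import Cfsg.Agent.Solv.TwoTransAut
import Cfsg.Agent.Perm.Neumann
import Cfsg.Agent.Block.PrincBurn

set_option autoImplicit false
open Cfsg

namespace Cfsg.Agent.S4277

open Subgroup

/-- A case of the Schreier conjecture: if a finite simple group G has a subgroup of prime index, then the outer automorphism group of G is solvable. -/
theorem result {G : Type*} [Group G] [Finite G] [IsSimpleGroup G] (H : Subgroup G) (hH : H.index.Prime) : Group.IsSolvable (Cfsg.Out G) := by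
  classical
  by_cases hs : Group.IsSolvable G
  · have : IsMulCommutative G := ⟨⟨IsSimpleGroup.comm_iff_isSolvable.2 hs⟩⟩
    have : IsCyclic G := isCyclic_of_prime_card (hp := ⟨Group.is_simple_iff_prime_card.1 ‹_›⟩) rfl
    have : Group.IsSolvable (MulAut G) := Group.isSolvable_of_comm fun a b =>
      (IsCyclic.mulAutMulEquiv G).injective (by rw [map_mul, map_mul, mul_comm])
    infer_instance
  obtain ⟨p, hp⟩ : ∃ p, H.index = p := ⟨_, rfl⟩
  have := Fact.mk (hp ▸ hH)
  have hp' : p.Prime := Fact.out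
  have := Fintype.ofFinite (G ⧸ H)
  have hf : Function.Injective (MulAction.toPermHom G (G ⧸ H)) := by
    rw [← MonoidHom.ker_eq_bot_iff, ← normalCore_eq_ker]
    refine (Normal.eq_bot_or_eq_top inferInstance).resolve_right fun h => hp'.one_lt.ne' ?_
    rw [← hp, index_eq_one, eq_top_iff, ← h]
    exact H.normalCore_le
  have : FaithfulSMul G (G ⧸ H) := ⟨fun h => hf (Equiv.ext h)⟩
  have hH : (Nat.card H).Coprime p := by
    have h := card_dvd_of_injective _ hf
    rw [← H.index_mul_card, Nat.card_perm, ← index_eq_card, hp,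
      ← Nat.mul_factorial_pred hp'.ne_zero] at h
    exact (hp'.coprime_iff_not_dvd.2 fun h1 => by
      have := hp'.dvd_factorial.1 (h1.trans (Nat.dvd_of_mul_dvd_mul_left hp'.pos h))
      have := hp'.pos
      omega).symm
  obtain ⟨x, hx⟩ := exists_prime_orderOf_dvd_card' (G := G) p (hp ▸ H.index_dvd_card)
  have hc : (zpowers x).IsComplement' H := isComplement'_of_coprime
    (by rw [Nat.card_zpowers, hx, ← hp, index_mul_card]) (by rw [Nat.card_zpowers, hx]; exact hH.symm)
  have hP : IsPGroup p (zpowers x) := .of_card (n := 1) (by rw [Nat.card_zpowers, hx, pow_one])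
  have h1 : ∀ a : Out G, ∃ α : MulAut G, (α : Out G) = a ∧ α x ∈ zpowers x := fun a => by
    obtain ⟨α, rfl⟩ := QuotientGroup.mk_surjective a
    obtain ⟨g, hg⟩ := Lib.Block.Princ.exists_conj_mem_sylow (hP.toSylow (by
      rw [hc.symm.index_eq_card]; exact hp'.coprime_iff_not_dvd.1 hH.symm)) (z := α x)
      ⟨1, by rw [α.orderOf_eq, hx, pow_one]⟩
    refine ⟨MulAut.conj g * α, ?_, hg⟩
    rw [QuotientGroup.mk_mul, (QuotientGroup.eq_one_iff (N := Inn G) _).2 ⟨g, rfl⟩, one_mul]
  have h2 : commutator (Out G) ≤ (MulAction.stabilizer (MulAut G) x).map (QuotientGroup.mk' _) := by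
    refine commutator_le.2 fun a _ b _ => ?_
    obtain ⟨α, hα, i, hi⟩ := h1 a⁻¹
    obtain ⟨β, hβ, j, hj⟩ := h1 b⁻¹
    refine ⟨(β * α)⁻¹ * (α * β), ?_, by simp [hα, hβ, commutatorElement_def, mul_assoc]⟩
    change (β * α)⁻¹ • α (β x) = x
    rw [inv_smul_eq_iff]
    change α (β x) = β (α x)
    simp only at hi hj
    rw [← hi, ← hj, map_zpow, map_zpow, ← hi, ← hj, ← zpow_mul, ← zpow_mul, mul_comm]
  have h3 : IsPGroup 2 ((MulAction.stabilizer (MulAut G) x).map (QuotientGroup.mk' (Inn G))) := by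
    rintro ⟨_, α, hα, rfl⟩
    obtain ⟨k, m, hm, hk⟩ := Nat.exists_eq_two_pow_mul_odd (orderOf_pos α).ne'
    refine ⟨k, Subtype.ext ((map_pow _ _ _).symm.trans ((QuotientGroup.eq_one_iff _).2 ?_))⟩
    have h4 : (α ^ 2 ^ k) x = x := pow_mem hα _
    obtain ⟨σ, hσ⟩ := Lib.Solv.TTA.exists_perm (Lib.Solv.TTA.exists_pair
      (Lib.Perm.Neumann.two_trans hp' hp inferInstance hs)) ((1 : G) : G ⧸ H) (α := α ^ 2 ^ k)
      (hm.of_dvd_nat (orderOf_dvd_of_pow_eq_one (by rw [← pow_mul, ← hk, pow_orderOf_eq_one])))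
      ((1 : G) : G ⧸ H) (by
        rw [← Nat.card_eq_fintype_card, ← index_eq_card, hp, MulAction.stabilizer_quotient]
        exact hH.coprime_dvd_left ((Nat.card_congr (MulAction.orbitEquivQuotientStabilizer _ _)).dvd.trans
          ((index_dvd_card _).trans (card_map_dvd _ _))))
    generalize α ^ 2 ^ k = β at h4 hσ
    have h5 : ∀ y : G ⧸ H, ∃ i : ℤ, y = x ^ i • ((1 : G) : G ⧸ H) := fun y => by
      obtain ⟨g, rfl⟩ := QuotientGroup.mk_surjective y
      obtain ⟨⟨⟨_, i, rfl⟩, h⟩, rfl, -⟩ := hc.existsUnique g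
      exact ⟨i, by simp⟩
    obtain ⟨i, hi⟩ := h5 (σ ((1 : G) : G ⧸ H))
    have h6 : ∀ y, σ y = x ^ i • y := fun y => by
      obtain ⟨j, rfl⟩ := h5 y
      rw [← hσ, map_zpow, h4, hi, smul_smul, smul_smul, zpow_mul_comm]
    refine ⟨x ^ i, MulEquiv.ext fun g => eq_of_smul_eq_smul (α := G ⧸ H) fun y => ?_⟩
    obtain ⟨y, rfl⟩ := σ.surjective y
    rw [hσ, h6, h6, MulAut.conj_apply, smul_smul, smul_smul, inv_mul_cancel_right]
  have := (h3.to_le h2).isNilpotent
  exact Group.isSolvable_of_ker_le_range (commutator _).subtype Abelianization.of (by simp)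

end Cfsg.Agent.S4277
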