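import Cfsg.Statements.S4282
import Cfsg.Agent.Solv.HallHigmanCrit

set_option autoImplicit false
open Cfsg Cfsg.Lib.Solv

namespace Cfsg.Agent.S4282

/-- A critical case behind the Hall–Higman theorem. Let p ≠ q be primes and G a finite group generated by a normal q-subgroup Q and a cyclic p-subgroup generated by x, such that the centralizer of every non-identity element of that cyclic subgroup is its product with the centre of G. Let K be an algebraically closed field of characteristic p and ρ a faithful representation of G on a nonzero finite-dimensional K-space whose restriction to Q is irreducible. If s is the least exponent with (ρ(x) − 1)^s = 0, then |⟨x⟩| − 1 ≤ s ≤ |⟨x⟩|; and if s = |⟨x⟩| − 1 then |⟨x⟩| − 1 is a power of q and Q is non-abelian. -/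
theorem result {G : Type*} [Group G] [Finite G] (p q : ℕ) [Fact p.Prime] [Fact q.Prime] (hpq : p ≠ q) (Q : Subgroup G) [Q.Normal] (hQ : IsPGroup q Q) (x : G) (hx : IsPGroup p (Subgroup.zpowers x)) (hgen : Q ⊔ Subgroup.zpowers x = ⊤) (hC : ∀ y ∈ Subgroup.zpowers x, y ≠ 1 → Subgroup.centralizer ({y} : Set G) = Subgroup.zpowers x ⊔ Subgroup.center G) {K : Type*} [Field K] [IsAlgClosed K] [CharP K p] {V : Type*} [AddCommGroup V] [Module K V] [FiniteDimensional K V] [Nontrivial V] (ρ : Representation K G V) (hfaith : Function.Injective ρ) (hirr : ∀ W : Submodule K V, (∀ g ∈ Q, Submodule.map (ρ g) W ≤ W) → W = ⊥ ∨ W = ⊤) (s : ℕ) (hs : (ρ x - 1) ^ s = 0) (hmin : ∀ k < s, (ρ x - 1) ^ k ≠ 0) : Nat.card (Subgroup.zpowers x) - 1 ≤ s ∧ s ≤ Nat.card (Subgroup.zpowers x) ∧ (s = Nat.card (Subgroup.zpowers x) - 1 → (∃ b : ℕ, Nat.card (Subgroup.zpowers x) - 1 = q ^ b) ∧ ¬ IsMulCommutative Q) := by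
  have hp : p.Prime := Fact.out
  have hq : q.Prime := Fact.out
  obtain ⟨n, hn⟩ := IsPGroup.iff_card.1 hx
  rw [hn]
  rw [Nat.card_zpowers] at hn
  have hN := pow_pos hp.pos n
  have hxN : x ^ p ^ n = 1 := hn ▸ pow_orderOf_eq_one x
  have hun : ρ x ^ p ^ n = 1 := by rw [← map_pow, hxN, map_one]
  have hs0 : s ≠ 0 := by
    rintro rfl
    rw [pow_zero] at hs
    exact one_ne_zero hs
  have hsN : s ≤ p ^ n := by
    by_contra! h
    exact hmin _ h (by rw [HH.sub_one_pow_char_pow K p, hun, sub_self])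
  rcases hsN.eq_or_lt with h | h
  · exact ⟨by omega, hsN, fun h' => by omega⟩
  have hu1 : ρ x ≠ 1 := by
    intro h1
    rw [hfaith (h1.trans ρ.map_one.symm), orderOf_one] at hn
    omega
  let σ : Q →* Module.End K V := MonoidHom.comp ρ Q.subtype
  have hσ : HH.Irr σ := fun U hU => hirr U fun g hg => by
    rintro _ ⟨w, hw, rfl⟩
    exact hU ⟨g, hg⟩ w hw
  obtain ⟨a, ha⟩ := IsPGroup.iff_card.1 hQ
  have hQK : (Nat.card Q : K) ≠ 0 := by
    rw [ha, Ne, CharP.cast_eq_zero_iff K p]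
    exact fun h => hpq ((Nat.prime_dvd_prime_iff_eq hp hq).1 (hp.dvd_of_dvd_pow h))
  have hfree : ∀ g : Q, (∃ c : K, σ g = c • 1) ∨
      ∀ i, 0 < i → i < p ^ n → ((MulAut.conjNormal x : MulAut Q) ^ i) g ≠ g := by
    intro g
    rw [or_iff_not_imp_right]
    intro hg
    push Not at hg
    obtain ⟨i, hi0, hi, hg⟩ := hg
    rw [← map_pow] at hg
    have hg' : x ^ i * g * (x ^ i)⁻¹ = g := congrArg Subtype.val hg
    have hmem : (g : G) ∈ Subgroup.zpowers x ⊔ Subgroup.center G := by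
      rw [← hC (x ^ i) (Subgroup.npow_mem_zpowers x i) (pow_ne_one_of_lt_orderOf hi0.ne' (hn ▸ hi)),
        Subgroup.mem_centralizer_singleton_iff]
      exact (mul_inv_eq_iff_eq_mul.1 hg').symm
    obtain ⟨y, hy, z, hz, hyz⟩ := Subgroup.mem_sup_of_normal_right.1 hmem
    have hyN : y ^ p ^ n = 1 := by
      obtain ⟨k, rfl⟩ := hy
      rw [← zpow_natCast, ← zpow_mul, mul_comm, zpow_mul, zpow_natCast, hxN, one_zpow]
    have hgN : (g : G) ^ p ^ n ∈ Subgroup.center G := by
      rw [← hyz, (Commute.mul_pow (Subgroup.mem_center_iff.1 hz y)), hyN, one_mul]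
      exact Subgroup.pow_mem _ hz _
    obtain ⟨b, hb⟩ := IsPGroup.iff_orderOf.1 hQ g
    obtain ⟨m, hm⟩ := exists_pow_eq_self_of_coprime (x := (g : G)) (n := p ^ n) (by
      rw [Subgroup.orderOf_coe, hb]
      exact Nat.Coprime.pow _ _ ((Nat.coprime_primes hp hq).2 hpq))
    have hgZ : (g : G) ∈ Subgroup.center G := hm ▸ Subgroup.pow_mem _ hgN m
    refine hσ.exists_scalar fun k => ?_
    rw [← map_mul, ← map_mul]
    exact congrArg σ (Subtype.ext (Subgroup.mem_center_iff.1 hgZ k).symm)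
  obtain ⟨h1, h2⟩ := HH.critical p hQK hσ (α := MulAut.conjNormal x) (u := ρ x) (n := n)
    (fun g => by
      change ρ x * ρ g = ρ (x * g * x⁻¹) * ρ x
      rw [← map_mul, ← map_mul, inv_mul_cancel_right])
    (by rw [← map_pow, hxN, map_one]) hun hfree hu1 hs h
  obtain ⟨m, hm⟩ := HH.Irr.finrank_eq_pow Q hQ V σ hσ
  refine ⟨by omega, hsN, fun _ => ⟨⟨m, by omega⟩, fun hc => hu1 ?_⟩⟩
  rw [hσ.finrank_eq_one_of_comm fun a b => hc.is_comm.comm a b] at h2
  rwa [← h2, pow_one, sub_eq_zero] at hs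

end Cfsg.Agent.S4282
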