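import Cfsg.Statements.S4283
import Cfsg.Agent.Solv.FrobeniusGroup
import Cfsg.Agent.Solv.NilpotentHall

set_option autoImplicit false
open Cfsg

namespace Cfsg.Agent.S4283

/-- Let G be a finite group with centre Z and let K, H be abelian subgroups of G containing Z such that G/Z is a Frobenius group with complement H/Z and kernel K/Z. Then the conjugacy class sizes of G are exactly 1, [G : K] and [G : H], and these two indices are coprime. (This is the converse half of the characterization of finite groups whose conjugacy class sizes are exactly 1, m and n with m and n coprime.) -/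
theorem result {G : Type*} [Group G] [Finite G] (K H : Subgroup G) (hZK : Subgroup.center G ≤ K) (hZH : Subgroup.center G ≤ H) (hK : IsMulCommutative K) (hH : IsMulCommutative H) (hFrob : Cfsg.IsFrobeniusComplement (H.map (QuotientGroup.mk' (Subgroup.center G)))) (hker : Cfsg.frobeniusKernel (H.map (QuotientGroup.mk' (Subgroup.center G))) = (K.map (QuotientGroup.mk' (Subgroup.center G)) : Set (G ⧸ Subgroup.center G))) : Set.range (fun x : G => (Subgroup.centralizer ({x} : Set G)).index) = ({1, K.index, H.index} : Set ℕ) ∧ K.index.Coprime H.index := by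
  open Cfsg.Lib.Solv in
  obtain ⟨hn, hK0, hc, -, hout⟩ := Fpf.of_coe_eq hFrob hker
  have hm := isMalnormal_of_isFrobeniusComplement hFrob
  have hcomap : ∀ L : Subgroup G, Subgroup.center G ≤ L → ∀ x : G,
      QuotientGroup.mk' (Subgroup.center G) x ∈ L.map (QuotientGroup.mk' (Subgroup.center G)) →
      x ∈ L := by
    intro L hL x hx
    have : x ∈ (L.map (QuotientGroup.mk' (Subgroup.center G))).comap
      (QuotientGroup.mk' (Subgroup.center G)) := hx
    rwa [Subgroup.comap_map_eq, QuotientGroup.ker_mk', sup_eq_left.2 hL] at this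
  have hle : ∀ L : Subgroup G, IsMulCommutative L → ∀ x ∈ L, L ≤ Subgroup.centralizer {x} :=
    fun L hL x hx y hy => Subgroup.mem_centralizer_singleton_iff.2
      (congrArg Subtype.val (hL.is_comm.comm ⟨y, hy⟩ ⟨x, hx⟩))
  have hCK : ∀ x ∈ K, x ∉ Subgroup.center G → Subgroup.centralizer {x} = K := by
    intro x hx hxZ
    refine le_antisymm (fun y hy => hcomap K hZK y ?_) (hle K hK x hx)
    refine Fpf.centralizer_le_iff.2 hout _ (Subgroup.mem_map_of_mem _ hx)
      (fun e => hxZ ((QuotientGroup.eq_one_iff x).1 e)) ?_
    rw [Subgroup.mem_centralizer_singleton_iff] at hy ⊢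
    rw [← map_mul, hy, map_mul]
  have hCH : ∀ x ∈ H, x ∉ Subgroup.center G → Subgroup.centralizer {x} = H := by
    intro x hx hxZ
    refine le_antisymm (fun y hy => hcomap H hZH y ?_) (hle H hH x hx)
    refine hm.centralizer_le (Subgroup.mem_map_of_mem _ hx)
      (fun e => hxZ ((QuotientGroup.eq_one_iff x).1 e)) ?_
    rw [Subgroup.mem_centralizer_singleton_iff] at hy ⊢
    rw [← map_mul, hy, map_mul]
  have hex : ∀ L : Subgroup G, L.map (QuotientGroup.mk' (Subgroup.center G)) ≠ ⊥ →
      ∃ x ∈ L, x ∉ Subgroup.center G := by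
    intro L hL
    rw [Ne, Subgroup.map_eq_bot_iff, QuotientGroup.ker_mk'] at hL
    exact SetLike.not_le_iff_exists.1 hL
  constructor
  · ext n
    simp only [Set.mem_range, Set.mem_insert_iff, Set.mem_singleton_iff]
    constructor
    · rintro ⟨x, rfl⟩
      by_cases hxZ : x ∈ Subgroup.center G
      · left
        rw [Subgroup.index_eq_one, eq_top_iff]
        exact fun y _ => Subgroup.mem_centralizer_singleton_iff.2 (Subgroup.mem_center_iff.1 hxZ y)
      by_cases hxK : x ∈ K
      · exact Or.inr (Or.inl (by rw [hCK x hxK hxZ]))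
      right; right
      have h1 : QuotientGroup.mk' (Subgroup.center G) x ∉
          frobeniusKernel (H.map (QuotientGroup.mk' (Subgroup.center G))) := by
        rw [hker]
        exact fun h => hxK (hcomap K hZK x h)
      obtain ⟨-, g, hg⟩ := notMem_frobeniusKernel_iff.1 h1
      obtain ⟨g, rfl⟩ := QuotientGroup.mk'_surjective _ g
      rw [← map_inv, ← map_mul, ← map_mul] at hg
      have h2 := hCH _ (hcomap H hZH _ hg) fun h => hxZ (by
        have := Subgroup.Normal.conj_mem inferInstance _ h g
        convert this using 1; group)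
      rw [← h2, ← index_conj_smul g⁻¹, conj_smul_centralizer_singleton, inv_inv]
    · rintro (rfl | rfl | rfl)
      · exact ⟨1, by rw [Subgroup.index_eq_one, eq_top_iff]; exact fun y _ =>
          Subgroup.mem_centralizer_singleton_iff.2 (by simp)⟩
      · obtain ⟨x, hx, hxZ⟩ := hex K hK0
        exact ⟨x, by rw [hCK x hx hxZ]⟩
      · obtain ⟨x, hx, hxZ⟩ := hex H hFrob.1
        exact ⟨x, by rw [hCH x hx hxZ]⟩
  · rw [← Subgroup.index_map_eq K (QuotientGroup.mk'_surjective (Subgroup.center G))
      (by rwa [QuotientGroup.ker_mk']), ← Subgroup.index_map_eq H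
      (QuotientGroup.mk'_surjective (Subgroup.center G)) (by rwa [QuotientGroup.ker_mk']),
      hc.symm.index_eq_card]
    exact hm.coprime_card_index

end Cfsg.Agent.S4283
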