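import Cfsg.Statements.S4300
-- import your own Cfsg.Agent.* helpers here

set_option autoImplicit false
open Cfsg

namespace Cfsg.Agent.S4300

/-- Let G act faithfully and primitively on a set X, and suppose the stabilizer of some point is a simple group. Then either G is simple, or G has a normal subgroup, neither trivial nor the whole group, that acts regularly on X (transitively with trivial point stabilizers). -/
theorem result {G : Type*} [Group G] {X : Type*} [MulAction G X] [FaithfulSMul G X]
    (hprim : MulAction.IsPreprimitive G X) (x : X) (hsimple : IsSimpleGroup (MulAction.stabilizer G x)) :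
    IsSimpleGroup G ∨ ∃ N : Subgroup G, N.Normal ∧ N ≠ ⊥ ∧ N ≠ ⊤ ∧
      MulAction.IsPretransitive N X ∧ ∀ y : X, MulAction.stabilizer N y = ⊥ := by
  by_cases hG : IsSimpleGroup G
  · exact Or.inl hG
  right
  have hnt : Nontrivial G := (MulAction.stabilizer G x).subtype_injective.nontrivial
  obtain ⟨N, hN, hb, ht⟩ : ∃ N : Subgroup G, N.Normal ∧ N ≠ ⊥ ∧ N ≠ ⊤ := by
    by_contra hcon
    push Not at hcon
    exact hG ⟨fun N hN => or_iff_not_imp_left.mpr (hcon N hN)⟩
  have htr : MulAction.IsPretransitive N X := by
    apply MulAction.IsQuasiPreprimitive.isPretransitive_of_normal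
    intro hfix
    apply hb
    rw [eq_bot_iff]
    intro n hn
    rw [Subgroup.mem_bot]
    refine FaithfulSMul.eq_of_smul_eq_smul (α := X) fun y => ?_
    have : y ∈ MulAction.fixedPoints N X := hfix ▸ Set.mem_univ y
    rw [one_smul]
    exact this ⟨n, hn⟩
  refine ⟨N, hN, hb, ht, htr, fun y => ?_⟩
  rcases hsimple.eq_bot_or_eq_top_of_normal (N.subgroupOf (MulAction.stabilizer G x)) inferInstance
    with h | h
  · rw [eq_bot_iff]
    intro n hn
    obtain ⟨g, rfl⟩ := hprim.exists_smul_eq x y
    have h1 : g⁻¹ * n * g ∈ MulAction.stabilizer G x := by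
      rw [MulAction.mem_stabilizer_iff, mul_smul, mul_smul, inv_smul_eq_iff]
      exact hn
    have h2 : (⟨_, h1⟩ : MulAction.stabilizer G x) ∈ N.subgroupOf (MulAction.stabilizer G x) :=
      hN.conj_mem' n n.2 g
    rw [h, Subgroup.mem_bot] at h2
    have h3 : g⁻¹ * n * g = 1 := congrArg Subtype.val h2
    rw [Subgroup.mem_bot]
    apply Subtype.ext
    rw [mul_assoc, inv_mul_eq_one, right_eq_mul] at h3
    exact h3
  · exfalso
    apply ht
    rw [eq_top_iff]
    intro g _
    obtain ⟨n, hn⟩ := htr.exists_smul_eq x (g • x)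
    have h1 : (n : G)⁻¹ * g ∈ MulAction.stabilizer G x := by
      rw [MulAction.mem_stabilizer_iff, mul_smul, inv_smul_eq_iff]
      exact hn.symm
    have := N.mul_mem n.2 (Subgroup.subgroupOf_eq_top.mp h h1)
    simpa using this

end Cfsg.Agent.S4300
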