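import Cfsg.Statements.S4301
-- import your own Cfsg.Agent.* helpers here

set_option autoImplicit false
open Cfsg

namespace Cfsg.Agent.S4301

/-- One-point extension of a multiply transitive group. Let X be a set and G a group of permutations of Option X (the set X with one extra point ∗ = none) all of whose elements fix ∗, such that G is k-transitive on the points of X for some k ≥ 2, X having at least k points. Suppose a permutation h of Option X and an element g of G satisfy: h interchanges ∗ with a point x of X and fixes a point y of X; g interchanges x and y; (g h)³ and h² lie in G; and for every f in G fixing x, the product h f h lies in G and fixes x. Then an element of the group generated by G and h fixes ∗ exactly when it lies in G, and that group acts (k+1)-transitively on Option X. -/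
theorem result {X : Type*} (G : Subgroup (Equiv.Perm (Option X))) (hfix : ∀ f ∈ G, f none = none)
    (k : ℕ) (hk : 2 ≤ k) (hkX : Nonempty (Fin k ↪ X))
    (htrans : ∀ a b : Fin k ↪ X, ∃ f ∈ G, ∀ i, f (some (a i)) = some (b i))
    (h g : Equiv.Perm (Option X)) (hg : g ∈ G) (x y : X)
    (h1 : h none = some x) (h2 : h (some x) = none) (h3 : h (some y) = some y)
    (h4 : g (some x) = some y) (h5 : g (some y) = some x)
    (h6 : (g * h) ^ 3 ∈ G) (h7 : h ^ 2 ∈ G)
    (h8 : ∀ f ∈ G, f (some x) = some x → h * f * h ∈ G ∧ (h * f * h) (some x) = some x) :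
    (∀ f ∈ Subgroup.closure ((G : Set (Equiv.Perm (Option X))) ∪ {h}), f none = none ↔ f ∈ G) ∧
      MulAction.IsMultiplyPretransitive (Subgroup.closure ((G : Set (Equiv.Perm (Option X))) ∪ {h})) (Option X) (k + 1) := by
  classical
  obtain ⟨e₀⟩ := hkX
  have hxy : x ≠ y := by
    rintro rfl
    rw [h2] at h3
    exact absurd h3 (by simp)
  let i0 : Fin k := ⟨0, by omega⟩
  let i1 : Fin k := ⟨1, by omega⟩
  have hi : e₀ i0 ≠ e₀ i1 := e₀.injective.ne (by simp [i0, i1])
  have hemb : ∀ a b : X, a ≠ b → ∃ e : Fin k ↪ X, e i0 = a ∧ e i1 = b := by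
    intro a b hab
    let σ := Equiv.swap (e₀ i0) a
    have hσ : σ (e₀ i1) ≠ a := fun h => hi (σ.injective (by rw [h, Equiv.swap_apply_left]))
    refine ⟨e₀.trans (σ.trans (Equiv.swap (σ (e₀ i1)) b)).toEmbedding, ?_, by simp⟩
    change Equiv.swap (σ (e₀ i1)) b (σ (e₀ i0)) = a
    rw [Equiv.swap_apply_left, Equiv.swap_apply_of_ne_of_ne hσ.symm hab]
  have h2t : ∀ a b c d : X, a ≠ b → c ≠ d → ∃ f ∈ G, f (some a) = some c ∧ f (some b) = some d := by
    intro a b c d hab hcd
    obtain ⟨e, rfl, rfl⟩ := hemb a b hab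
    obtain ⟨e', rfl, rfl⟩ := hemb c d hcd
    obtain ⟨f, hf, hf'⟩ := htrans e e'
    exact ⟨f, hf, hf' _, hf' _⟩
  have hsome : ∀ f ∈ G, ∀ a : X, ∃ b : X, f (some a) = some b := by
    intro f hf a
    cases hfa : f (some a) with
    | none => exact absurd (f.injective (hfa.trans (hfix f hf).symm)) (by simp)
    | some b => exact ⟨b, rfl⟩
  let S : Equiv.Perm (Option X) → Prop := fun f => f ∈ G ∨ ∃ a ∈ G, ∃ b ∈ G, f = a * h * b
  have hSG : ∀ a ∈ G, ∀ f, S f → S (a * f) := by
    rintro a ha f (hf | ⟨c, hc, d, hd, rfl⟩)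
    · exact Or.inl (G.mul_mem ha hf)
    · exact Or.inr ⟨a * c, G.mul_mem ha hc, d, hd, by group⟩
  have hSG' : ∀ a ∈ G, ∀ f, S f → S (f * a) := by
    rintro a ha f (hf | ⟨c, hc, d, hd, rfl⟩)
    · exact Or.inl (G.mul_mem hf ha)
    · exact Or.inr ⟨c, hc, d * a, G.mul_mem hd ha, by group⟩
  have hhgh : S (h * g * h) := Or.inr ⟨g⁻¹ * (g * h) ^ 3 * (h ^ 2)⁻¹,
    G.mul_mem (G.mul_mem (G.inv_mem hg) h6) (G.inv_mem h7), g⁻¹, G.inv_mem hg, by
      simp only [pow_succ, pow_zero]; group⟩
  have hhah : ∀ a ∈ G, S (h * a * h) := by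
    intro a ha
    by_cases hax : a (some x) = some x
    · exact Or.inl (h8 a ha hax).1
    · obtain ⟨z, hz⟩ := hsome a ha x
      have hxz : x ≠ z := fun h => hax (h ▸ hz)
      obtain ⟨f, hf, hf1, hf2⟩ := h2t x y x z hxy hxz
      have hf' : g⁻¹ * f⁻¹ * a ∈ G := G.mul_mem (G.mul_mem (G.inv_mem hg) (G.inv_mem hf)) ha
      have hf'x : (g⁻¹ * f⁻¹ * a) (some x) = some x := by
        rw [Equiv.Perm.mul_apply, Equiv.Perm.mul_apply, hz, ← hf2, Equiv.Perm.inv_eq_iff_eq,
          Equiv.Perm.inv_eq_iff_eq, h4]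
      have e : h * a * h = (h * f * h * (h ^ 2)⁻¹) * (h * g * h) *
          ((h ^ 2)⁻¹ * (h * (g⁻¹ * f⁻¹ * a) * h)) := by
        simp only [pow_succ, pow_zero]; group
      rw [e]
      exact hSG' _ (G.mul_mem (G.inv_mem h7) (h8 _ hf' hf'x).1) _
        (hSG _ (G.mul_mem (h8 f hf hf1).1 (G.inv_mem h7)) _ hhgh)
  have hSh : ∀ f, S f → S (h * f) := by
    rintro f (hf | ⟨c, hc, d, hd, rfl⟩)
    · exact Or.inr ⟨1, G.one_mem, f, hf, by group⟩
    · have := hSG' d hd _ (hhah c hc)
      simpa only [mul_assoc] using this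
  have hS : ∀ f ∈ Subgroup.closure ((G : Set (Equiv.Perm (Option X))) ∪ {h}), S f := by
    intro f hf
    induction hf using Subgroup.closure_induction_left with
    | one => exact Or.inl G.one_mem
    | mul_left a ha f _ ih =>
      rcases ha with ha | rfl
      · exact hSG a ha f ih
      · exact hSh f ih
    | inv_mul_cancel a ha f _ ih =>
      rcases ha with ha | rfl
      · exact hSG _ (G.inv_mem ha) f ih
      · have := hSG _ (G.inv_mem h7) _ (hSh f ih)
        rwa [show (a ^ 2)⁻¹ * (a * f) = a⁻¹ * f by simp only [pow_succ, pow_zero]; group] at this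
  have hGH : G ≤ Subgroup.closure ((G : Set (Equiv.Perm (Option X))) ∪ {h}) :=
    fun f hf => Subgroup.subset_closure (Or.inl hf)
  have hhH : h ∈ Subgroup.closure ((G : Set (Equiv.Perm (Option X))) ∪ {h}) :=
    Subgroup.subset_closure (Or.inr rfl)
  refine ⟨fun f hf => ⟨fun hf0 => ?_, hfix f⟩, ?_⟩
  · rcases hS f hf with hf | ⟨c, hc, d, hd, rfl⟩
    · exact hf
    · rw [Equiv.Perm.mul_apply, Equiv.Perm.mul_apply, hfix d hd, h1] at hf0
      obtain ⟨z, hz⟩ := hsome c hc x
      exact absurd (hz.symm.trans hf0) (by simp)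
  · have key : ∀ a : Fin (k + 1) ↪ Option X,
        ∃ f ∈ Subgroup.closure ((G : Set (Equiv.Perm (Option X))) ∪ {h}), ∃ e : Fin k ↪ X,
          f (a 0) = none ∧ ∀ i, f (a i.succ) = some (e i) := by
      intro a
      obtain ⟨f, hf, hf0⟩ : ∃ f ∈ Subgroup.closure ((G : Set (Equiv.Perm (Option X))) ∪ {h}),
          f (a 0) = none := by
        cases ha : a 0 with
        | none => exact ⟨1, one_mem _, rfl⟩
        | some z =>
          obtain ⟨w, hw⟩ : ∃ w, z ≠ w := by
            by_cases hz : z = x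
            · exact ⟨y, hz ▸ hxy⟩
            · exact ⟨x, hz⟩
          obtain ⟨f, hf, hf1, -⟩ := h2t z w x y hw hxy
          exact ⟨h * f, mul_mem hhH (hGH hf), by rw [Equiv.Perm.mul_apply, hf1, h2]⟩
      have hne : ∀ i : Fin k, ∃ z, f (a i.succ) = some z := by
        intro i
        cases hfa : f (a i.succ) with
        | none => exact absurd (a.injective (f.injective (hfa.trans hf0.symm))) (Fin.succ_ne_zero i)
        | some b => exact ⟨b, rfl⟩
      choose e he using hne
      refine ⟨f, hf, ⟨e, fun i j hij => ?_⟩, hf0, he⟩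
      exact Fin.succ_injective _ (a.injective (f.injective (by rw [he, he, hij])))
    refine ⟨fun a b => ?_⟩
    obtain ⟨f, hf, e, hf0, hfe⟩ := key a
    obtain ⟨f', hf', e', hf0', hfe'⟩ := key b
    obtain ⟨c, hc, hce⟩ := htrans e e'
    refine ⟨⟨f'⁻¹ * c * f, mul_mem (mul_mem (inv_mem hf') (hGH hc)) hf⟩, ?_⟩
    ext1 i
    change f'⁻¹ (c (f (a i))) = b i
    rw [Equiv.Perm.inv_eq_iff_eq]
    induction i using Fin.cases with
    | zero => rw [hf0, hf0', hfix c hc]
    | succ i => rw [hfe, hfe', hce]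

end Cfsg.Agent.S4301
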