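import Cfsg.Statements.S4302
import Cfsg.Agent.Trans.FFApply
import Cfsg.Agent.Trans.ZJ
import Cfsg.Agent.S0617
import Cfsg.Agent.S0250
import Cfsg.Agent.Perm.DirectPower
import Cfsg.Agent.FT.BG1.Coprime
import Cfsg.Agent.Solv.Fitting

set_option autoImplicit false
open Cfsg

namespace Cfsg.Agent.S4302

open Cfsg.Lib.Solv Cfsg.Lib.Trans.TJ Subgroup
open scoped Pointwise commutatorElement

section FFpart
variable {G : Type*} [Group G] [Finite G] {V H O : Subgroup G}

theorem lt_of_not_le (h : FF 2 V H O) {A B : Subgroup G} (hAH : A ≤ H) (hP : IsPGroup 2 A)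
    (hab : IsElementaryAbelian 0 A) (hBA : B ≤ A)
    (hQ : ¬ A ≤ centralizer ((O ⊓ centralizer (B : Set G) : Subgroup G) : Set G)) :
    V ⊓ centralizer (A : Set G) < V ⊓ centralizer (B : Set G) := by
  refine lt_of_le_of_ne (inf_le_inf_left _ (centralizer_anti hBA)) fun he => hQ ?_
  set K := O ⊓ centralizer (B : Set G) with hK
  have hAK : A ≤ normalizer (K : Set G) :=
    le_normalizer_inf_centralizer (hAH.trans h.O_norm) (ea_le_normalizer_of_le hab le_rfl hBA)
  have hQK : ⁅K, A⁆ ≤ K := commutator_le_left_of_le_normalizer hAK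
  have hKV : K ≤ normalizer (V : Set G) := (inf_le_left.trans h.O_le).trans h.le_norm
  have h1 : ⁅K, A⁆ ≤ centralizer ((V ⊓ centralizer (B : Set G) : Subgroup G) : Set G) := by
    refine Coprime.commutator_le_centralizer_of_le_centralizer
      (le_normalizer_inf_centralizer hKV (inf_le_right.trans (centralizer_le_normalizer _))) ?_
    rw [← he]
    exact le_centralizer_iff.1 inf_le_right
  have h2 := Cfsg.Agent.S0028.result 2 B ⁅K, A⁆ V (hP.to_le hBA)
    (h.O_cop.coprime_dvd_left (card_dvd_of_le (hQK.trans inf_le_left))) (ea_isPGroup h.ea)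
    (le_centralizer_iff.1 (hQK.trans inf_le_right)) ((hBA.trans hAH).trans h.le_norm)
    (hQK.trans hKV) (le_centralizer_iff.1 h1)
  rw [← commutator_eq_bot_iff_le_centralizer']
  exact h.eq_bot_of_le ((hQK.trans inf_le_left).trans h.O_le) h2

theorem exists_index_two (h : FF 2 V H O) {A : Subgroup G} (hAH : A ≤ H) (hP : IsPGroup 2 A)
    (hab : IsElementaryAbelian 0 A) (hne : A ≠ ⊥) :
    ∃ A1 ≤ A, A1.relIndex A = 2 ∧ (∀ a ∈ A, a ^ 2 ∈ A1) ∧
      V ⊓ centralizer (A : Set G) < V ⊓ centralizer (A1 : Set G) := by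
  by_contra hcon
  have : IsMulCommutative A := PG.isMulCommutative_of_forall fun x hx y hy => ea_comm hab hx hy
  have hO : O ≤ centralizer (A : Set G) := by
    refine Coprime.le_of_forall_cocyclic (hAH.trans h.O_norm)
      (coprime_card_of_isPGroup hP h.O_cop) ?_
    rintro B hBA ⟨c, hc, hBc⟩
    by_contra hQ
    have hlt := lt_of_not_le h hAH hP hab hBA (fun h' => hQ (le_centralizer_iff.1 h'))
    set U := V ⊓ centralizer (B : Set G) with hU
    have hAU : A ≤ normalizer (U : Set G) :=
      le_normalizer_inf_centralizer (hAH.trans h.le_norm) (ea_le_normalizer_of_le hab le_rfl hBA)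
    have hUp : IsPGroup 2 U := (ea_isPGroup h.ea).to_le inf_le_left
    have hS : IsPGroup 2 (U ⊔ A : Subgroup G) := IsPGroup.to_sup_of_normal_left' hUp hP hAU
    obtain ⟨u, hu, hu', hus⟩ := PG.exists_not_mem_commutator_mem (S := U ⊔ A) (N := U)
      (H := centralizer (A : Set G)) hS.isNilpotent le_sup_left (sup_le le_normalizer hAU)
      (fun h' => hlt.not_ge (le_inf inf_le_left h'))
    set W := centralizer (A : Set G) ⊓ U with hW
    have hWV : W ≤ V := inf_le_right.trans inf_le_left
    have hWe : IsElementaryAbelian 2 W := ea_mono h.ea hWV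
    have hAu : ⁅A, zpowers u⁆ ≤ W := by
      refine commutator_zpowers_right_le
        (ea_le_normalizer_of_le h.ea (zpowers_le.2 hu.1) hWV (mem_zpowers u)) fun a ha => ?_
      rw [← commutatorElement_inv]
      exact W.inv_mem (hus a (mem_sup_right ha))
    set A1 := A ⊓ centralizer ((zpowers u : Subgroup G) : Set G) with hA1
    have hsq : ∀ a ∈ A, a ^ 2 ∈ A1 := fun a ha =>
      mem_inf.2 ⟨A.pow_mem ha 2, pow_mem_centralizer_of_quadratic hWe
        (fun v hv => hAu (commutator_mem_commutator ha hv))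
        (le_centralizer_iff.1 (inf_le_left : W ≤ _) ha)⟩
    have hBA1 : B ≤ A1 := le_inf hBA (le_centralizer_iff.1 ((zpowers_le.2 hu).trans inf_le_right))
    have hcA1 : c ∉ A1 := fun hc1 => hu' (by
      have : A ≤ A1 := by
        conv_lhs => rw [← hBc]
        exact sup_le hBA1 (zpowers_le.2 hc1)
      exact le_centralizer_iff.1 (this.trans inf_le_right) (mem_zpowers u))
    refine hcon ⟨A1, inf_le_left, ?_, hsq, ?_⟩
    · refine relIndex_eq_two_iff_exists_notMem_and.2 ⟨c, hc, hcA1, fun b hb => ?_⟩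
      rw [← hBc, mem_sup_of_le_normalizer
        (ea_le_normalizer_of_le hab (zpowers_le.2 hc) hBA)] at hb
      obtain ⟨b0, hb0, _, ⟨k, rfl⟩, rfl⟩ := hb
      rcases Int.even_or_odd' k with ⟨m, rfl | rfl⟩
      · right
        refine A1.mul_mem (hBA1 hb0) ?_
        have := A1.zpow_mem (hsq c hc) m
        rwa [← zpow_natCast, ← zpow_mul] at this
      · left
        rw [mul_assoc]
        refine A1.mul_mem (hBA1 hb0) ?_
        have := A1.zpow_mem (hsq c hc) (m + 1)
        rw [← zpow_natCast, ← zpow_mul] at this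
        convert this using 1
        simp only []
        rw [← zpow_add_one]; congr 1; push_cast; ring
    · refine lt_of_le_of_ne (inf_le_inf_left _ (centralizer_anti inf_le_left)) fun he => hu' ?_
      have : u ∈ V ⊓ centralizer (A1 : Set G) :=
        mem_inf.2 ⟨hu.1, le_centralizer_iff.1 (inf_le_right : A1 ≤ _) (mem_zpowers u)⟩
      rw [← he] at this
      exact this.2
  exact hne (h.eq_bot_of_le_centralizer hP hAH (le_centralizer_iff.1 hO))

theorem card_Q (h : FF 2 V H O) {S : Subgroup G} (hSH : S ≤ H) (hS : Transv 2 V S) :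
    Nat.card (⁅O, S⁆ : Subgroup G) = 3 := by
  obtain ⟨e⟩ := h.E_equiv hSH hS
  have h1 : Nat.card (⁅O, S⁆ : Subgroup G) ∣ 6 := by
    have := card_dvd_of_le (le_sup_left : ⁅O, S⁆ ≤ ⁅O, S⁆ ⊔ S)
    rwa [Nat.card_congr e.toEquiv, card_SL2] at this
  have h2 := h.two_lt_card_Q hSH hS
  have h3 := h.O_cop.coprime_dvd_left (card_dvd_of_le (h.comm_le_O hSH))
  have h4 := Nat.le_of_dvd (by norm_num) h1
  generalize Nat.card (⁅O, S⁆ : Subgroup G) = n at *
  interval_cases n <;> first | rfl | (exfalso; revert h1 h3; decide)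

theorem best_two (h : FF 2 V H O) {A : Subgroup G} (hAH : A ≤ H) (hP : IsPGroup 2 A)
    (hA : IsBestOffenderOn 0 V A) : IsBestOffenderOn 2 V A := by
  induction A using WellFoundedLT.induction with
  | ind A ih =>
  refine ⟨hA.1, hA.2.1, fun a ha => ?_⟩
  by_cases hne : A = ⊥
  · subst hne
    rw [mem_bot.1 ha, one_pow]; exact one_mem _
  have hab : IsElementaryAbelian 0 A := by
    refine ea_iff.2 ⟨fun a ha b hb => ?_, fun a _ => pow_zero a⟩
    rw [← commutatorElement_eq_one_iff_mul_comm, ← mem_bot, ← h.faithful]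
    refine mem_inf.2 ⟨hAH ?_, hA.2.1 (commutator_mem_commutator ha hb)⟩
    exact commutator_le_left_of_le_normalizer le_normalizer (commutator_mem_commutator ha hb)
  obtain ⟨A1, hle, hi, hsq, hlt⟩ := exists_index_two h hAH hP hab hne
  have h1 := PG.prime_mul_card_le_of_lt ((ea_isPGroup h.ea).to_le inf_le_left) hlt
  have h2 : Nat.card A = Nat.card A1 * 2 := by rw [← hi, card_mul_relIndex_of_le hle]
  have h3 : Nat.card A * Nat.card ↥(V ⊓ centralizer (A : Set G)) ≤
      Nat.card A1 * Nat.card ↥(V ⊓ centralizer (A1 : Set G)) := by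
    rw [h2, mul_assoc]; exact Nat.mul_le_mul_left _ h1
  have h4 := ih A1 (FF.lt_of_relIndex hle hi) (hle.trans hAH) (hP.to_le hle)
    (bestOffender_of_le hA hle h3)
  have h5 := h.le_sSup_transv (hle.trans hAH) h4
  set Z := zpowers (a ^ 2) with hZ
  have hZA : Z ≤ A := zpowers_le.2 (A.pow_mem ha 2)
  have h6 : ⁅O, A1⁆ ≤ centralizer (Z : Set G) := by
    refine (commutator_mono le_rfl h5).trans ?_
    rw [sSup_eq_iSup']
    refine commutator_iSup_right_le (fun S => ?_) (fun S => ?_)
    · exact (ea_le_centralizer_of_le hab (S.2.1.trans hle) hZA).trans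
        ((centralizer_le_normalizer _).trans (normalizer_le_normalizer_centralizer _))
    · have hSH := (S.2.1.trans hle).trans hAH
      rw [le_centralizer_iff]
      refine zpowers_le.2 ?_
      have : Fact (Nat.Prime 3) := ⟨by norm_num⟩
      exact pow_pred_mem_centralizer (p := 3) (card_Q h hSH S.2.2)
        (le_normalizer_commutator (hAH.trans h.O_norm)
          (ea_le_normalizer_of_le hab le_rfl (S.2.1.trans hle)) ha)
  have h7 : ⁅O, Z⁆ = ⊥ := by
    refine Coprime.commutator_eq_bot_of_commutator_commutator_eq_bot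
      ((hZA.trans hAH).trans h.O_norm) (coprime_card_of_isPGroup (hP.to_le hZA) h.O_cop) ?_
    rw [commutator_eq_bot_iff_le_centralizer]
    exact (commutator_mono le_rfl (zpowers_le.2 (hsq a ha))).trans h6
  have h8 := h.eq_bot_of_le_centralizer (hP.to_le hZA) (hZA.trans hAH)
    (commutator_eq_bot_iff_le_centralizer'.1 h7)
  rw [zpowers_eq_bot.1 h8]; exact one_mem _

end FFpart

theorem equiv_pi {G : Type*} [Group G] [Finite G] {H : Subgroup G} {ι : Type*} [Finite ι]
    (E : ι → Subgroup G) (hn : ∀ i, H ≤ normalizer (E i : Set G)) (hi : iSupIndep E)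
    (hs : ⨆ i, E i = H) (hH : H ≠ ⊥) {Y : Type*} [Group Y] (he : ∀ i, Nonempty (E i ≃* Y)) :
    ∃ n : ℕ, 1 ≤ n ∧ Nonempty (H ≃* (Fin n → Y)) := by
  obtain ⟨n, ⟨e⟩⟩ := Finite.exists_equiv_fin ι
  have hle : ∀ i, E i ≤ H := fun i => hs ▸ le_iSup E i
  refine ⟨n, ?_, ?_⟩
  · by_contra h0
    obtain rfl : n = 0 := by omega
    refine hH ?_
    rw [← hs, iSup_eq_bot]
    exact fun i => (e i).elim0
  · obtain ⟨f⟩ := Cfsg.Lib.Perm.nonempty_mulEquiv_pi_of_iSupIndep
      (V := fun i => (E i).subgroupOf H) (fun i => normal_subgroupOf_of_le_normalizer (hn i))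
      (fun i => by
        have h1 : (⨆ j, ⨆ _ : j ≠ i, (E j).subgroupOf H) ≤ (⨆ j, ⨆ _ : j ≠ i, E j).subgroupOf H :=
          iSup₂_le fun j hj => subgroupOf_mono _ (le_iSup₂_of_le j hj le_rfl)
        refine Disjoint.mono_right h1 ?_
        rw [disjoint_iff, eq_bot_iff]
        intro x hx
        have : (x : G) ∈ E i ⊓ ⨆ j, ⨆ _ : j ≠ i, E j := hx
        rw [disjoint_iff.1 (hi i), mem_bot] at this
        exact Subtype.ext this)
      (by
        apply map_injective H.subtype_injective
        rw [Subgroup.map_iSup, ← MonoidHom.range_eq_map, range_subtype, ← hs]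
        exact iSup_congr fun i => map_subgroupOf_eq_of_le (le_iSup E i))
    exact ⟨(f.trans (MulEquiv.piCongrRight fun i =>
      (subgroupOfEquivOfLe (hle i)).trans (he i).some)).trans (MulEquiv.arrowCongr e (MulEquiv.refl Y))⟩

section Main
variable {X : Type*} [Group X] [Finite X]

theorem normalCore_centralizer (Z : Subgroup X) :
    (centralizer (Z : Set X)).normalCore = centralizer (normalClosure (Z : Set X) : Set X) := by
  apply le_antisymm
  · rw [le_centralizer_iff]
    exact normalClosure_le_normal (le_centralizer_iff.1 (normalCore_le _))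
  · exact normal_le_normalCore.2 (centralizer_anti le_normalClosure)

theorem closure_gen (T : Sylow 2 X) :
    normalClosure (((T : Subgroup X) ⊓ centralizer ((T : Subgroup X) : Set X) : Subgroup X) : Set X) ≤
      ⨆ S : Sylow 2 X, normalClosure (((T : Subgroup X) ⊓ centralizer ((T : Subgroup X) : Set X) :
        Subgroup X) : Set X) ⊓ centralizer ((S : Subgroup X) : Set X) := by
  rw [normalClosure, closure_le]
  intro x hx
  obtain ⟨z, hz, hzx⟩ := Group.mem_conjugatesOfSet_iff.1 hx
  obtain ⟨g, rfl⟩ := isConj_iff.1 hzx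
  refine mem_iSup_of_mem (g • T) (mem_inf.2 ⟨subset_closure hx, ?_⟩)
  rw [Cfsg.Lib.Solv.coe_sylow_smul, ← conj_smul_centralizer]
  exact smul_mem_pointwise_smul _ (MulAut.conj g) _ hz.2

theorem centralizer_omega {V : Subgroup X} [V.Normal] (hV : IsPGroup 2 V)
    (hab : IsElementaryAbelian 0 V)
    (hgen : V ≤ ⨆ S : Sylow 2 X, V ⊓ centralizer ((S : Subgroup X) : Set X)) :
    centralizer (omegaOne 2 V : Set X) = centralizer (V : Set X) := by
  refine le_antisymm (le_centralizer_of_isPGroup_map hgen ?_) (centralizer_anti (omegaOne_le _))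
  rintro ⟨_, d, hd, rfl⟩
  obtain ⟨k, m, hm, hkm⟩ := Nat.exists_eq_two_pow_mul_odd (orderOf_pos d).ne'
  refine ⟨k, Subtype.ext ?_⟩
  have hc : (Nat.card V).Coprime (Nat.card (zpowers (d ^ 2 ^ k))) := by
    refine coprime_card_of_isPGroup hV ?_
    rw [Nat.card_zpowers]
    refine Nat.Coprime.coprime_dvd_left ?_ (Nat.coprime_two_right.2 hm)
    rw [orderOf_dvd_iff_pow_eq_one, ← pow_mul, ← hkm, pow_orderOf_eq_one]
  have := Cfsg.Lib.FT.coprime_abelian_faithful_omegaOne Nat.prime_two (A := zpowers (d ^ 2 ^ k))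
    (Cfsg.Lib.FT.pgroup_iff.2 hV) (by rw [normalizer_eq_top]; exact le_top) hc
    (PG.isMulCommutative_of_forall fun x hx y hy => ea_comm hab hx hy)
    (zpowers_le.2 (pow_mem hd _))
  change (QuotientGroup.mk' (centralizer (V : Set X)) d) ^ 2 ^ k = 1
  rw [← map_pow, QuotientGroup.mk'_apply, QuotientGroup.eq_one_iff]
  exact this (mem_zpowers _)

theorem main [Group.IsSolvable X] (T : Sylow 2 X) {W : Subgroup X} [W.Normal]
    (hW : IsElementaryAbelian 2 W) (h0 : pCore 2 (act W ⊤) = ⊥)
    (hY : ¬ normalClosure (thompsonSubgroupOf 0 (T : Subgroup X) : Set X) ≤ centralizer (W : Set X)) :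
    ∃ n : ℕ, 1 ≤ n ∧ Nonempty (act W (normalClosure (thompsonSubgroupOf 0 (T : Subgroup X) : Set X)) ≃*
      (Fin n → Equiv.Perm (Fin 3))) := by
  set Y := normalClosure (thompsonSubgroupOf 0 (T : Subgroup X) : Set X) with hYdef
  have hN : ∀ A : Subgroup X, A ≤ normalizer (W : Set X) := fun A => by
    rw [normalizer_eq_top]; exact le_top
  have h1 : pCore 2 (act W Y) = ⊥ := by
    rw [← Subgroup.map_eq_bot_iff_of_injective _ (subtype_injective _)]
    exact eq_bot_of_subnormalIn (SubnormalIn.step (map_subtype_le _) (le_normalizer_map_subtype _)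
      (SubnormalIn.of_le_normalizer (act_mono le_top) (act_le_normalizer_act
        (by rw [normalizer_eq_top])))) (isPGroup_map_pCore 2 _) h0
  have hS1 := (isPSolvable_act (hN Y) (IsPSolvable.of_isSolvable 2 Y)).centralizer_pPrimeCore_le h1
  have h := FF.of_pPrimeCore (ea_emb hW) act_le_normalizer_emb_self act_inf_centralizer hS1
  have hW0 : IsElementaryAbelian 0 W := ea_iff.2 ⟨fun a ha b hb => ea_comm hW ha hb, fun a _ => pow_zero a⟩
  have hS3 : act W Y = ⨆ A : {A : Subgroup (Hol W) // A ≤ act W Y ∧ IsBestOffenderOn 2 (emb W W) A},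
      (A : Subgroup (Hol W)) := by
    refine le_antisymm ((le_pre_iff (hN Y)).1 ?_) (iSup_le fun A => A.2.1)
    rw [hYdef, normalClosure, closure_le]
    intro x hx
    obtain ⟨z, hz, hzx⟩ := Group.mem_conjugatesOfSet_iff.1 hx
    obtain ⟨g, rfl⟩ := isConj_iff.1 hzx
    have hz' : g * z * g⁻¹ ∈ thompsonSubgroupOf 0 ((g • T : Sylow 2 X) : Subgroup X) := by
      rw [Cfsg.Lib.Solv.coe_sylow_smul, ← conj_smul_J]
      exact smul_mem_pointwise_smul _ (MulAut.conj g) _ hz
    have hJY : thompsonSubgroupOf 0 ((g • T : Sylow 2 X) : Subgroup X) ≤ Y := by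
      rw [Cfsg.Lib.Solv.coe_sylow_smul, ← conj_smul_J, conj_smul_le_iff]
      exact fun x hx => normalClosure_normal.conj_mem x (subset_normalClosure hx) g
    refine J_le_iff.2 (fun A hA => (le_pre_iff (hN A)).2 ?_) hz'
    have hAY := act_mono (V := W) (hA.le_J.trans hJY)
    have hAp : IsPGroup 2 (act W A) := by
      rw [← range_actHom (hN A)]
      exact ((g • T).isPGroup'.to_le hA.le).of_surjective _ (actHom (hN A)).rangeRestrict_surjective
    exact le_iSup_of_le ⟨act W A, hAY, best_two h hAY hAp (bestOffender_act (hN A)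
      (hA.bestOffender hW0 ((ea_isPGroup hW).le_sylow_of_normal _)))⟩ le_rfl
  have hne : act W Y ≠ ⊥ := fun h0 => hY ((act_eq_bot_iff (hN Y)).1 h0)
  obtain ⟨-, h2, h3, h4, -⟩ := Cfsg.Agent.S0617.result (emb W W) (act W Y) (ea_emb hW)
    act_le_normalizer_emb_self act_inf_centralizer hS1 hS3 hne
  obtain ⟨e⟩ := Cfsg.Agent.S0250.result (F := ZMod 2) (ZMod.card 2)
  exact equiv_pi _ (fun i => (h2 i).1) h3 h4 hne fun i => ⟨(h2 i).2.1.some.trans e⟩

end Main

/-- Let `X` be a finite solvable group whose Fitting subgroup is a 2-group (equivalently `F(X) = O₂(X)`), `T` a Sylow 2-subgroup of `X`, `J(T)` the subgroup generated by the abelian subgroups of `T` of largest order, `C` the largest normal subgroup of `X` centralizing the centre `Z(T)`, and `Y` the normal closure of `J(T)` in `X`. Then `X = C · Y · N_X(J(T))`, and either `Y ≤ C`, or `CY/C` is isomorphic to a direct product of at least one copy of the symmetric group of degree 3. -/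
theorem result {X : Type*} [Group X] [Finite X]
    [Group.IsSolvable X] (hF : Cfsg.fittingSubgroup X = Cfsg.pCore 2 X) (T : Sylow 2 X) :
    ((Subgroup.centralizer (((T : Subgroup X) ⊓ Subgroup.centralizer ((T : Subgroup X) : Set X) : Subgroup X) : Set X)).normalCore
        ⊔ Subgroup.normalClosure (Cfsg.thompsonSubgroupAOf (T : Subgroup X) : Set X)
        ⊔ Subgroup.normalizer (Cfsg.thompsonSubgroupAOf (T : Subgroup X) : Set X) = ⊤) ∧
    (Subgroup.normalClosure (Cfsg.thompsonSubgroupAOf (T : Subgroup X) : Set X)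
        ≤ (Subgroup.centralizer (((T : Subgroup X) ⊓ Subgroup.centralizer ((T : Subgroup X) : Set X) : Subgroup X) : Set X)).normalCore
      ∨ ∃ n : ℕ, 1 ≤ n ∧
        Nonempty (↥(Subgroup.normalClosure (Cfsg.thompsonSubgroupAOf (T : Subgroup X) : Set X)) ⧸
            ((Subgroup.centralizer (((T : Subgroup X) ⊓ Subgroup.centralizer ((T : Subgroup X) : Set X) : Subgroup X) : Set X)).normalCore).subgroupOf
              (Subgroup.normalClosure (Cfsg.thompsonSubgroupAOf (T : Subgroup X) : Set X))
          ≃* (Fin n → Equiv.Perm (Fin 3)))) := by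
  rw [← Cfsg.Lib.Trans.thompsonSubgroupOf_zero]
  constructor
  · rw [eq_top_iff]
    intro g _
    set N := normalClosure (thompsonSubgroupOf 0 (T : Subgroup X) : Set X) with hN
    obtain ⟨c, hc, n, hn, rfl⟩ := (Cfsg.Lib.Trans.isSylowIn_inf_of_normal T N).frattini (g := g)
      (by rw [normalizer_eq_top]; trivial)
    refine mul_mem (mem_sup_left (mem_sup_right hc)) (mem_sup_right ?_)
    rw [← J_eq_of_le (le_inf (J_le _) (le_normalClosure : _ ≤ N)) inf_le_left]
    exact normalizer_le_normalizer_J _ hn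
  set Z := (T : Subgroup X) ⊓ centralizer ((T : Subgroup X) : Set X) with hZ
  set V := normalClosure (Z : Set X) with hV
  have hc : centralizer (pCore 2 X : Set X) ≤ pCore 2 X := hF ▸ centralizer_fitting_le X
  have hZ0 : V ≤ pCore 2 X ⊓ centralizer (pCore 2 X : Set X) := by
    refine normalClosure_le_normal ?_
    have := (inf_le_right : Z ≤ _).trans (centralizer_anti (pCore_le_sylow T))
    exact le_inf (this.trans hc) this
  have hVp : IsPGroup 2 V := (pCore_isPGroup 2 X).to_le (hZ0.trans inf_le_left)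
  have hab : IsElementaryAbelian 0 V :=
    ea_iff.2 ⟨fun a ha b hb => (hZ0 hb).2 a (hZ0 ha).1, fun a _ => pow_zero a⟩
  have hgen := closure_gen T
  have hCW := centralizer_omega hVp hab hgen
  have hC : (centralizer (Z : Set X)).normalCore = centralizer (omegaOne 2 V : Set X) := by
    rw [normalCore_centralizer, hCW]
  have h0 : pCore 2 (act (omegaOne 2 V) ⊤) = ⊥ := by
    have := pCore_act_eq_bot (p := 2) (V := omegaOne 2 V) (MonoidHom.id X)
      (by rw [normalizer_eq_top]; exact le_top) (centralizer (V : Set X)) hCW.symm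
      (pCore_quotient_centralizer_eq_bot hgen)
    rwa [MonoidHom.range_eq_top.2 Function.surjective_id] at this
  by_cases hY : normalClosure (thompsonSubgroupOf 0 (T : Subgroup X) : Set X) ≤
      centralizer (omegaOne 2 V : Set X)
  · left; rwa [hC]
  right
  obtain ⟨n, hn, ⟨e⟩⟩ := main T (ea_omegaOne (ea_le_centralizer hab)) h0 hY
  refine ⟨n, hn, ⟨MulEquiv.trans ?_ e⟩⟩
  have hN : normalClosure (thompsonSubgroupOf 0 (T : Subgroup X) : Set X) ≤
      normalizer (omegaOne 2 V : Set X) := by rw [normalizer_eq_top]; exact le_top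
  refine (QuotientGroup.quotientMulEquivOfEq ?_).trans
    ((QuotientGroup.quotientKerEquivRange (actHom hN)).trans (MulEquiv.subgroupCongr (range_actHom hN)))
  rw [ker_actHom, hC]

end Cfsg.Agent.S4302
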