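import Cfsg.Statements.S4304
import Cfsg.Agent.Solv.SylowNumber
import Cfsg.Agent.Solv.Cores
import Mathlib.GroupTheory.Transfer

set_option autoImplicit false
open Cfsg

namespace Cfsg.Agent.S4304


open Subgroup MulAction Cfsg.Lib.Solv

universe u

instance : Fact (Nat.Prime 7) := ⟨by norm_num⟩

variable {G : Type u} [Group G] [Finite G]

theorem relIndex_centralizer_dvd {r : ℕ} (hr : r.Prime) (P : Subgroup G) (hP : Nat.card P = r) :
    (centralizer (P : Set G)).relIndex (normalizer (P : Set G)) ∣ r - 1 := by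
  haveI := Fact.mk hr
  have key := card_dvd_of_injective _ (QuotientGroup.kerLift_injective P.normalizerMonoidHom)
  rw [normalizerMonoidHom_ker, ← index, ← relIndex, (isCyclic_of_prime_card hP).card_mulAut, hP,
    Nat.totient_prime hr] at key
  exact key

theorem exists_normal_index {r : ℕ} (hr : r.Prime) (h1 : r ∣ Nat.card G)
    (h2 : ¬ r ^ 2 ∣ Nat.card G) (h3 : (Nat.card G).Coprime (r - 1)) :
    ∃ N : Subgroup G, N.Normal ∧ N.index = r := by
  haveI := Fact.mk hr
  obtain ⟨S⟩ : Nonempty (Sylow r G) := inferInstance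
  have hS : Nat.card (S : Subgroup G) = r := by
    rw [S.card_eq_multiplicity]
    have h4 := (hr.pow_dvd_iff_le_factorization Nat.card_pos.ne').not.mp h2
    have h5 := (hr.pow_dvd_iff_le_factorization (k := 1) (Nat.card_pos (α := G)).ne').mp
      (by simpa using h1)
    have : (Nat.card G).factorization r = 1 := by omega
    rw [this, pow_one]
  have h4 : normalizer ((S : Subgroup G) : Set G) ≤ centralizer ((S : Subgroup G) : Set G) :=
    relIndex_eq_one.mp (Nat.eq_one_of_dvd_coprimes h3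
      ((relIndex_dvd_card _ _).trans (card_subgroup_dvd_card _))
      (relIndex_centralizer_dvd hr _ hS))
  exact ⟨_, inferInstance,
    (MonoidHom.ker_transferSylow_isComplement' S h4).symm.index_eq_card.trans hS⟩

theorem card_sylow_normal_eq (N : Subgroup G) [N.Normal] (h : ¬ 7 ∣ N.index) :
    Nat.card (Sylow 7 N) = Nat.card (Sylow 7 G) := by
  obtain ⟨P⟩ : Nonempty (Sylow 7 G) := inferInstance
  have hP : (P : Subgroup G) ≤ N := by
    apply le_of_coprime_card_index
    rw [P.card_eq_multiplicity]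
    exact Nat.Coprime.pow_left _ ((Nat.Prime.coprime_iff_not_dvd (by norm_num)).mpr h)
  rw [card_sylow_subgroup_of_le P hP, ← relIndex_sup_of_le_normalizer le_normalizer_of_normal,
    show normalizer ((P : Subgroup G) : Set G) ⊔ N = ⊤ from P.normalizer_sup_eq_top' hP,
    relIndex_top_right, P.card_eq_index_normalizer]
  rfl

theorem card_inf (h : Nat.card (Sylow 7 G) = 15) {P Q : Sylow 7 G} (hPQ : P ≠ Q) :
    Nat.card ((P : Subgroup G) ⊓ Q : Subgroup G) * 7 = (7 : ℕ) ^ (Nat.card G).factorization 7 := by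
  have h1 : (normalizer ((Q : Subgroup G) : Set G)).relIndex P ≤ 15 := by
    rw [← h, Q.card_eq_index_normalizer, ← relIndex_top_right]
    exact relIndex_le_of_le_right le_top (by rw [relIndex_top_right]; exact index_ne_zero_of_finite)
  rw [← inf_relIndex_left, show (P : Subgroup G) ⊓ normalizer ((Q : Subgroup G) : Set G) =
    (P : Subgroup G) ⊓ Q from P.isPGroup'.inf_normalizer_sylow Q] at h1
  obtain ⟨k, hk⟩ := P.isPGroup'.index (((P : Subgroup G) ⊓ Q).subgroupOf P)
  have hk' : ((P : Subgroup G) ⊓ Q).relIndex P = 7 ^ k := hk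
  have hk0 : k ≠ 0 := by
    rintro rfl
    rw [pow_zero, relIndex_eq_one, le_inf_iff] at hk'
    exact hPQ (Sylow.ext (P.is_maximal' Q.isPGroup' hk'.2)).symm
  have hk1 : k = 1 := by
    by_contra hne
    have : 7 ^ 2 ≤ 7 ^ k := Nat.pow_le_pow_right (by norm_num) (by omega)
    omega
  rw [hk1, pow_one] at hk'
  rw [← P.card_eq_multiplicity, ← card_mul_index (((P : Subgroup G) ⊓ Q).subgroupOf P),
    Nat.card_congr (subgroupOfEquivOfLe inf_le_left).toEquiv]
  exact congrArg _ hk'.symm

theorem line_eq (h : Nat.card (Sylow 7 G) = 15) {P Q T U : Sylow 7 G} (hPQ : P ≠ Q) (hTU : T ≠ U)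
    (hT : (P : Subgroup G) ⊓ Q ≤ T) (hU : (P : Subgroup G) ⊓ Q ≤ U) :
    (P : Subgroup G) ⊓ Q = (T : Subgroup G) ⊓ U := by
  apply eq_of_le_of_card_ge (le_inf hT hU)
  have h1 := card_inf h hPQ
  have h2 := card_inf h hTU
  omega

theorem card_sylow_eq_seven (h : Nat.card (Sylow 7 G) = 15)
    (hf : ∀ g : G, (∀ R : Sylow 7 G, g • R = R) → g = 1) :
    (7 : ℕ) ^ (Nat.card G).factorization 7 = 7 := by
  classical
  by_contra hne
  have hline : ∀ P Q : Sylow 7 G, P ≠ Q →
      {R : Sylow 7 G | (P : Subgroup G) ⊓ Q ≤ R}.ncard = 8 := by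
    intro P Q hPQ
    have hD : IsPGroup 7 ((P : Subgroup G) ⊓ Q : Subgroup G) := P.isPGroup'.to_inf_left
    have h1 := hD.card_modEq_card_fixedPoints (Sylow 7 G)
    have h2 : fixedPoints ((P : Subgroup G) ⊓ Q : Subgroup G) (Sylow 7 G) =
        {R : Sylow 7 G | (P : Subgroup G) ⊓ Q ≤ R} :=
      Set.ext fun R => hD.sylow_mem_fixedPoints_iff
    rw [h2, h, Nat.card_coe_set_eq] at h1
    have h3 : {R : Sylow 7 G | (P : Subgroup G) ⊓ Q ≤ R}.ncard ≤ 15 :=
      h ▸ Set.ncard_le_card _
    have h4 : 2 ≤ {R : Sylow 7 G | (P : Subgroup G) ⊓ Q ≤ R}.ncard := by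
      rw [← Set.ncard_pair hPQ]
      refine Set.ncard_le_ncard ?_ (Set.toFinite _)
      rintro R (rfl | rfl)
      · exact (inf_le_left : (R : Subgroup G) ⊓ Q ≤ R)
      · exact (inf_le_right : (P : Subgroup G) ⊓ R ≤ R)
    have h5 : {R : Sylow 7 G | (P : Subgroup G) ⊓ Q ≤ R}.ncard ≠ 15 := by
      intro h5
      rw [← h, ← Set.eq_univ_iff_ncard] at h5
      have h6 : (P : Subgroup G) ⊓ Q = ⊥ := by
        rw [eq_bot_iff]
        intro g hg
        refine hf g fun R => Sylow.smul_eq_iff_mem_normalizer.mpr (le_normalizer ?_)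
        exact (h5 ▸ Set.mem_univ R : R ∈ {R : Sylow 7 G | (P : Subgroup G) ⊓ Q ≤ R}) hg
      have h7 := card_inf h hPQ
      rw [h6, card_bot] at h7
      omega
    unfold Nat.ModEq at h1
    omega
  haveI : Nontrivial (Sylow 7 G) := Finite.one_lt_card_iff_nontrivial.mp (by omega)
  obtain ⟨P, Q, hPQ⟩ := exists_pair_ne (Sylow 7 G)
  obtain ⟨R, hR⟩ : ∃ R : Sylow 7 G, ¬ (P : Subgroup G) ⊓ Q ≤ R := by
    by_contra hc
    push Not at hc
    have := hline P Q hPQ
    rw [Set.eq_univ_of_forall (s := {R : Sylow 7 G | (P : Subgroup G) ⊓ Q ≤ R}) hc,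
      Set.ncard_univ] at this
    omega
  have hPR : P ≠ R := by rintro rfl; exact hR inf_le_left
  have hQR : Q ≠ R := by rintro rfl; exact hR inf_le_right
  have hint : {T : Sylow 7 G | (P : Subgroup G) ⊓ Q ≤ T} ∩
      {T : Sylow 7 G | (P : Subgroup G) ⊓ R ≤ T} = {P} := by
    refine Set.eq_singleton_iff_unique_mem.mpr ⟨⟨(inf_le_left : (P : Subgroup G) ⊓ Q ≤ P),
      (inf_le_left : (P : Subgroup G) ⊓ R ≤ P)⟩, ?_⟩
    rintro T ⟨h1, h2⟩
    by_contra hT
    have h3 := line_eq h hPQ hT h1 inf_le_left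
    have h4 := line_eq h hPR hT h2 inf_le_left
    exact hR (by rw [h3, ← h4]; exact inf_le_right)
  have hun := Set.ncard_union_add_ncard_inter {T : Sylow 7 G | (P : Subgroup G) ⊓ Q ≤ T}
    {T : Sylow 7 G | (P : Subgroup G) ⊓ R ≤ T}
  rw [hint, hline P Q hPQ, hline P R hPR, Set.ncard_singleton] at hun
  have hun' : {T : Sylow 7 G | (P : Subgroup G) ⊓ Q ≤ T} ∪
      {T : Sylow 7 G | (P : Subgroup G) ⊓ R ≤ T} = Set.univ := by
    rw [Set.eq_univ_iff_ncard, h]; omega
  have hsub : {T : Sylow 7 G | (Q : Subgroup G) ⊓ R ≤ T} ⊆ {Q, R} := by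
    intro T hT
    by_contra hc
    simp only [Set.mem_insert_iff, Set.mem_singleton_iff, not_or] at hc
    rcases (hun' ▸ Set.mem_univ T : T ∈ {T : Sylow 7 G | (P : Subgroup G) ⊓ Q ≤ T} ∪
      {T : Sylow 7 G | (P : Subgroup G) ⊓ R ≤ T}) with h1 | h1
    · have h3 := line_eq h hPQ hc.1 h1 inf_le_right
      have h4 := line_eq h hQR hc.1 hT inf_le_left
      exact hR (by rw [h3, ← h4]; exact inf_le_right)
    · have h3 := line_eq h hPR hc.2 h1 inf_le_right
      have h4 := line_eq h hQR hc.2 hT inf_le_right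
      have h5 : Q ∈ ({P} : Set (Sylow 7 G)) := by
        rw [← hint]
        exact ⟨(inf_le_right : (P : Subgroup G) ⊓ Q ≤ Q), show (P : Subgroup G) ⊓ R ≤ Q by rw [h3, ← h4]; exact inf_le_left⟩
      exact hPQ h5.symm
  have := Set.ncard_le_ncard hsub (Set.toFinite _)
  rw [hline Q R hQR, Set.ncard_pair hQR] at this
  omega

theorem card_fixedBy_mod (P : Sylow 7 G) {c : G}
    (hc : c ∈ centralizer ((P : Subgroup G) : Set G)) :
    Nat.card (fixedBy (Sylow 7 G) c) ≡ 1 [MOD 7] := by
  let S : SubMulAction (P : Subgroup G) (Sylow 7 G) :=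
    { carrier := fixedBy (Sylow 7 G) c
      smul_mem' := fun u R hR => by
        show c • ((u : G) • R) = (u : G) • R
        rw [← mul_smul, ← hc u u.2, mul_smul, show c • R = R from hR] }
  have h1 := P.isPGroup'.card_modEq_card_fixedPoints S
  have h2 : Nat.card (fixedPoints (P : Subgroup G) S) = 1 := by
    have hP : P ∈ S := Sylow.smul_eq_iff_mem_normalizer.mpr (centralizer_le_normalizer _ hc)
    rw [Nat.card_eq_one_iff_exists]
    refine ⟨⟨⟨P, hP⟩, fun u => Subtype.ext
      (Sylow.smul_eq_iff_mem_normalizer.mpr (le_normalizer u.2))⟩, ?_⟩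
    rintro ⟨⟨R, hR⟩, h3⟩
    have h4 : R ∈ fixedPoints (P : Subgroup G) (Sylow 7 G) := fun u => congrArg Subtype.val (h3 u)
    rw [P.isPGroup'.sylow_mem_fixedPoints_iff] at h4
    obtain rfl : R = P := Sylow.ext (P.is_maximal' R.isPGroup' h4)
    rfl
  rw [h2] at h1
  exact h1

theorem main (n : ℕ) : ∀ (G : Type u) [Group G] [Finite G], Nat.card G = n →
    Nat.card (Sylow 7 G) ≠ 15 := by
  classical
  induction n using Nat.strong_induction_on with
  | _ n ih =>
  intro G _ _ hn h
  obtain ⟨P⟩ : Nonempty (Sylow 7 G) := inferInstance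
  have hf : ∀ g : G, (∀ R : Sylow 7 G, g • R = R) → g = 1 := by
    have hK : (toPermHom G (Sylow 7 G)).ker = ⊥ := by
      by_contra hK
      refine ih _ ?_ (G ⧸ (toPermHom G (Sylow 7 G)).ker) rfl ?_
      · rw [← hn, card_eq_card_quotient_mul_card_subgroup (toPermHom G (Sylow 7 G)).ker]
        exact lt_mul_of_one_lt_right Nat.card_pos (one_lt_card_iff_ne_bot _ |>.mpr hK)
      · rw [card_sylow_quotient_of_le_normalizer P, h]
        intro g hg
        exact Sylow.smul_eq_iff_mem_normalizer.mp (DFunLike.congr_fun (MonoidHom.mem_ker.mp hg) P)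
    intro g hg
    have : g ∈ (toPermHom G (Sylow 7 G)).ker := MonoidHom.mem_ker.mpr (Equiv.ext hg)
    rwa [hK] at this
  have hN : ∀ N : Subgroup G, N.Normal → ¬ 7 ∣ N.index → N.index = 1 := by
    intro N _ hN
    by_contra hne
    refine ih _ ?_ N rfl ((card_sylow_normal_eq N hN).trans h)
    rw [← hn, ← N.card_mul_index]
    have := N.index_ne_zero_of_finite
    exact lt_mul_of_one_lt_right Nat.card_pos (by omega)
  have h7 := card_sylow_eq_seven h hf
  have hP : Nat.card (P : Subgroup G) = 7 := P.card_eq_multiplicity.trans h7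
  have hC : ∀ r : ℕ, r.Prime → r ∣ Nat.card (centralizer ((P : Subgroup G) : Set G)) → r = 7 := by
    intro r hr hd
    haveI := Fact.mk hr
    by_contra hr7
    obtain ⟨c, hc⟩ := exists_prime_orderOf_dvd_card' r hd
    rw [← Subgroup.orderOf_coe] at hc
    have h1 := card_fixedBy_mod P c.2
    have hz : IsPGroup r (zpowers (c : G)) := IsPGroup.of_card (n := 1)
      (by rw [Nat.card_zpowers, hc, pow_one])
    have h2 := hz.card_modEq_card_fixedPoints (Sylow 7 G)
    have h3 : fixedPoints (zpowers (c : G)) (Sylow 7 G) = fixedBy (Sylow 7 G) (c : G) := by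
      ext R
      rw [Subgroup.sylow_mem_fixedPoints_iff, zpowers_le, mem_fixedBy,
        Sylow.smul_eq_iff_mem_normalizer]
    rw [h3, h] at h2
    have h4 : Nat.card (fixedBy (Sylow 7 G) (c : G)) ≤ 15 := h ▸ Finite.card_subtype_le _
    have h5 : Nat.card (fixedBy (Sylow 7 G) (c : G)) ≠ 15 := by
      intro h5
      rw [← h, Nat.card_coe_set_eq, ← Set.eq_univ_iff_ncard] at h5
      have := hf c fun R => (h5 ▸ Set.mem_univ R : R ∈ fixedBy (Sylow 7 G) (c : G))
      rw [this, orderOf_one] at hc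
      exact hr.ne_one hc.symm
    have h6 : Nat.card (fixedBy (Sylow 7 G) (c : G)) = 1 ∨
        Nat.card (fixedBy (Sylow 7 G) (c : G)) = 8 := by
      unfold Nat.ModEq at h1; omega
    rcases h6 with h6 | h6
    · rw [h6] at h2
      have h8 : r ∣ 2 * 7 := (Nat.modEq_iff_dvd' (by norm_num)).mp h2.symm
      rcases (Nat.Prime.dvd_mul hr).mp h8 with h9 | h9
      · have h10 : r = 2 := (Nat.prime_dvd_prime_iff_eq hr Nat.prime_two).mp h9
        subst h10
        haveI := Fintype.ofFinite (Sylow 7 G)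
        have h11 : (toPermHom G (Sylow 7 G) c) ^ 2 = 1 := by
          rw [← map_pow, ← hc, pow_orderOf_eq_one, map_one]
        have h12 := Equiv.Perm.sign_of_pow_two_eq_one h11
        have h13 : Fintype.card (Function.fixedPoints (toPermHom G (Sylow 7 G) c)) = 1 := by
          rw [← Nat.card_eq_fintype_card, ← h6]; rfl
        rw [h13, ← Nat.card_eq_fintype_card, h] at h12
        have h14 := hN (Equiv.Perm.sign.comp (toPermHom G (Sylow 7 G))).ker inferInstance (by
          intro hd
          rw [index_ker] at hd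
          have := hd.trans (card_subgroup_dvd_card _)
          rw [Nat.card_eq_fintype_card, Fintype.card_units_int] at this
          omega)
        have h15 : (c : G) ∈ (Equiv.Perm.sign.comp (toPermHom G (Sylow 7 G))).ker := by
          rw [index_eq_one.mp h14]; trivial
        rw [MonoidHom.mem_ker, MonoidHom.comp_apply, h12] at h15
        exact absurd h15 (by decide)
      · exact hr7 ((Nat.prime_dvd_prime_iff_eq hr (by norm_num)).mp h9)
    · rw [h6] at h2
      have h8 : r ∣ 7 := (Nat.modEq_iff_dvd' (by norm_num)).mp h2.symm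
      exact hr7 ((Nat.prime_dvd_prime_iff_eq hr (by norm_num)).mp h8)
  have hC7 : Nat.card (centralizer ((P : Subgroup G) : Set G)) ∣ 7 := by
    have h1 := Nat.eq_prime_pow_of_unique_prime_dvd Nat.card_pos.ne' (fun {d} => hC d)
    refine Dvd.dvd.trans ?_ h7.dvd
    rw [h1]
    apply pow_dvd_pow
    rw [← Nat.Prime.pow_dvd_iff_le_factorization (by norm_num) Nat.card_pos.ne', ← h1]
    exact card_subgroup_dvd_card _
  have hG : Nat.card G ∣ 630 := by
    have h1 := relIndex_centralizer_dvd (by norm_num) _ hP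
    have h2 := card_mul_index ((centralizer ((P : Subgroup G) : Set G)).subgroupOf
      (normalizer ((P : Subgroup G) : Set G)))
    rw [Nat.card_congr (subgroupOfEquivOfLe (centralizer_le_normalizer _)).toEquiv] at h2
    rw [← card_mul_index (normalizer ((P : Subgroup G) : Set G)), ← h2,
      show (normalizer ((P : Subgroup G) : Set G)).index = 15 from
        P.card_eq_index_normalizer.symm.trans h]
    exact mul_dvd_mul_right (mul_dvd_mul hC7 h1) 15
  have h15 : 15 ∣ Nat.card G := by
    rw [← h, P.card_eq_index_normalizer]; exact index_dvd_card _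
  by_cases h2 : 2 ∣ Nat.card G
  · obtain ⟨N, hN1, hN2⟩ := exists_normal_index Nat.prime_two h2
      (fun h4 => absurd (h4.trans hG) (by norm_num)) (by simp)
    have := hN N hN1 (by omega)
    omega
  · obtain ⟨N, hN1, hN2⟩ := exists_normal_index Nat.prime_five (Dvd.dvd.trans (by norm_num) h15)
      (fun h4 => absurd (h4.trans hG) (by norm_num))
      (Nat.Coprime.pow_right 2 ((Nat.Prime.coprime_iff_not_dvd Nat.prime_two).mpr h2).symm)
    have := hN N hN1 (by omega)
    omega


/-- No finite group has exactly 15 Sylow 7-subgroups. -/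
theorem result {G : Type*} [Group G] [Finite G] : Nat.card (Sylow 7 G) ≠ 15 := by
  exact main _ G rfl

end Cfsg.Agent.S4304
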