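import Cfsg.Statements.S4306
import Cfsg.Agent.Solv.FitWard

set_option autoImplicit false
open Cfsg

namespace Cfsg.Agent.S4306

/-- Let `A` be a non-abelian group of order `pq` with `p, q` distinct primes, acting by automorphisms on a finite solvable group `G` of order prime to `pq`, so that only the identity of `G` is fixed by all of `A`. Then `G` has Fitting height at most 2: there is a normal nilpotent subgroup `F` of `G` with `G/F` nilpotent. -/
theorem result {G A : Type*} [Group G] [Finite G]
    [Group.IsSolvable G] [Group A] [Finite A] [MulDistribMulAction A G] (p q : ℕ) (hp : p.Prime) (hq : q.Prime) (hpq : p ≠ q)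
    (hA : Nat.card A = p * q) (hAna : ¬ IsMulCommutative A) (hcop : (Nat.card G).Coprime (p * q))
    (hfpf : ∀ g : G, (∀ a : A, a • g = g) → g = 1) :
    ∃ F : Subgroup G, ∃ hF : F.Normal, Group.IsNilpotent ↥F ∧ Group.IsNilpotent (G ⧸ F) := by
  have h := Cfsg.Lib.Solv.FH.iter_two_eq_bot_of_action inferInstance
    (MulDistribMulAction.toMulAut A G) hp hq hA (fun hc => hAna inferInstance)
    (by rw [hA]; exact hcop.symm) hfpf
  refine ⟨Cfsg.Lib.Solv.FH.nilRes ⊤, inferInstance, Cfsg.Lib.Solv.FH.nilRes_eq_bot_iff.1 h, ?_⟩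
  have := (Cfsg.Lib.Solv.FH.nilRes_le_iff (K := ⊤) (N := Cfsg.Lib.Solv.FH.nilRes (⊤ : Subgroup G))).1
    le_rfl
  rw [Subgroup.map_top_of_surjective _ (QuotientGroup.mk'_surjective _)] at this
  exact Group.isNilpotent_top.1 this

end Cfsg.Agent.S4306
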