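import Cfsg.Statements.S4309
import Cfsg.Agent.Solv.HallBasic

set_option autoImplicit false
open Cfsg

namespace Cfsg.Agent.S4309

open Cfsg.Lib.Solv

/-- Let `π` be a set of primes, `G` a finite group with a Hall `π`-subgroup `H` (every prime divisor of the order of `H` lies in `π` and no prime of `π` divides its index), and `A` a normal subgroup of `G`. Then `H ∩ A` is a Hall `π`-subgroup of `A` and the image of `H` in `G/A` is a Hall `π`-subgroup of `G/A`. -/
theorem result {G : Type*} [Group G] [Finite G] (π : Set ℕ)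
    (H A : Subgroup G) [A.Normal] (hH : Cfsg.IsPiHall π H) :
    Cfsg.IsPiHall π ((H ⊓ A).subgroupOf A) ∧ Cfsg.IsPiHall π (H.map (QuotientGroup.mk' A)) := by
  exact ⟨(isPiHallOf_iff_subgroupOf.1 (isPiHallOf_inf_of_normal hH A)).2,
    isPiHall_map (QuotientGroup.mk'_surjective A) hH⟩

end Cfsg.Agent.S4309
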