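import Cfsg.Statements.S4314
import Cfsg.Agent.Solv.BHM
import Cfsg.Agent.Solv.TwoClassSizes

set_option autoImplicit false
open Cfsg

namespace Cfsg.Agent.S4314

open Cfsg.Lib.Solv Cfsg.Lib.Solv.ClassSize
open scoped commutatorElement

theorem coatom_of_prime {G : Type*} [Group G] {H : Subgroup G} (h : H.index.Prime) : IsCoatom H := by
  refine ⟨fun e => h.one_lt.ne' (by rw [e, Subgroup.index_top]), fun K hK => ?_⟩
  have h1 := Subgroup.relIndex_mul_index hK.le
  rcases (Nat.dvd_prime h).1 (Dvd.intro_left _ h1) with h2 | h2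
  · exact Subgroup.index_eq_one.1 h2
  · rw [h2] at h1
    exact absurd (Subgroup.relIndex_eq_one.1 ((Nat.mul_eq_right h.ne_zero).1 h1)) hK.not_ge

theorem commutator_mem_of_prime {G : Type*} [Group G] {H : Subgroup G} [H.Normal]
    (h : H.index.Prime) (a b : G) : ⁅a, b⁆ ∈ H := by
  have := Fact.mk h
  have : IsCyclic (G ⧸ H) := isCyclic_of_prime_card (p := H.index) rfl
  rw [← QuotientGroup.eq_one_iff, ← QuotientGroup.mk'_apply, map_commutatorElement,
    commutatorElement_eq_one_iff_mul_comm]
  exact (IsCyclic.commGroup (α := G ⧸ H)).mul_comm _ _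

/-- Let `G` be a finite group every conjugacy class of which has size 1 or a prime. Then either `G` is nilpotent of class at most 2, or `G/Z(G)` is a non-abelian group of order `pq` for distinct primes `p, q` (a Frobenius group of order `pq`). -/
theorem result {G : Type*} [Group G] [Finite G]
    (h : ∀ x : G, (Subgroup.centralizer ({x} : Set G)).index = 1 ∨ ((Subgroup.centralizer ({x} : Set G)).index).Prime) :
    Subgroup.upperCentralSeries G 2 = ⊤ ∨
      ∃ p q : ℕ, p.Prime ∧ q.Prime ∧ p ≠ q ∧ Nat.card (G ⧸ Subgroup.center G) = p * q ∧ ¬ IsMulCommutative (G ⧸ Subgroup.center G) := by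
  obtain ⟨y, hy⟩ := exists_max_index G
  by_cases h2 : ∀ x : G, (Subgroup.centralizer ({x} : Set G)).index = 1 ∨
      (Subgroup.centralizer ({x} : Set G)).index = (Subgroup.centralizer ({y} : Set G)).index
  · left
    have hc : ∀ a b : G, ⁅a, b⁆ ∈ Subgroup.center G := by
      intro a b
      rw [Subgroup.mem_center_iff]
      intro x
      rcases h x with h1 | h1
      · exact (Subgroup.mem_center_iff.1 (index_cent_eq_one_iff.1 h1) _).symm
      have := Fact.mk h1
      obtain ⟨R⟩ : Nonempty (Sylow (Subgroup.centralizer ({x} : Set G)).index G) := inferInstance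
      have hnil : Group.IsNilpotent G := by
        have := isNilpotent_of_two_sizes (N := ⊤) (fun y _ => h2 y) R (fun hle =>
          not_dvd_index_of_sylow_le R (hle.trans (center_le_cent x)) dvd_rfl) le_top
        exact Group.nilpotent_of_mulEquiv Subgroup.topEquiv
      have : (Subgroup.centralizer ({x} : Set G)).Normal :=
        Subgroup.NormalizerCondition.normal_of_coatom _ normalizerCondition_of_isNilpotent (coatom_of_prime h1)
      exact (mem_cent.1 (commutator_mem_of_prime h1 a b)).symm
    rw [eq_top_iff]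
    intro a _
    rw [Subgroup.mem_upperCentralSeries_succ_iff]
    intro b
    rw [Subgroup.upperCentralSeries_one]
    exact hc a b
  · right
    simp only [not_forall, not_or] at h2
    obtain ⟨x, hx1, hxy⟩ := h2
    have hq := (h x).resolve_left hx1
    have hp : (Subgroup.centralizer ({y} : Set G)).index.Prime := (h y).resolve_left fun e => by
      have := hy x
      have := hq.one_lt
      omega
    have hxZ : x ∉ Subgroup.center G := fun hZ => hx1 (index_cent_eq_one_iff.2 hZ)
    have hpi : ∀ {r s : ℕ}, r.Prime → r ≠ s → IsPiNum ({s} : Set ℕ)ᶜ r := fun hr hrs t ht htr e =>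
      hrs (((Nat.prime_dvd_prime_iff_eq ht hr).1 htr).symm.trans e)
    have hpi' : ∀ {r : ℕ}, r.Prime → IsPiNum ({r} : Set ℕ) r := fun hr t ht htr =>
      (Nat.prime_dvd_prime_iff_eq ht hr).1 htr
    obtain ⟨M, hM, hMc, hZ, hxM, hyM, h1, h2, h3, -, -⟩ :=
      exists_of_disconnected (π := {(Subgroup.centralizer ({y} : Set G)).index}) (fun z => by
        rcases h z with h1 | h1
        · exact .inl (h1 ▸ IsPiNum.one _)
        · by_cases e : (Subgroup.centralizer ({z} : Set G)).index =
            (Subgroup.centralizer ({y} : Set G)).index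
          · exact .inl (e ▸ hpi' h1)
          · exact .inr (hpi h1 e)) hy (hpi' hp) hxZ (hpi hq hxy)
    have hfpf := fpf_quotient_center hZ h1 h2 fun d hd hdZ => (h3 d hd hdZ).le
    have hMi := h3 x hxM hxZ
    refine ⟨_, _, hp, hq, Ne.symm hxy, ?_, fun hc => hxZ ?_⟩
    · rw [← Subgroup.index_eq_card, ← Subgroup.relIndex_mul_index hZ, hMi]
      congr 1
      have h4 : M ⊓ Subgroup.centralizer ({y} : Set G) = Subgroup.center G := by
        refine le_antisymm (fun d hd => ?_) (le_inf hZ (center_le_cent y))
        by_contra hdZ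
        exact hyM ((h3 d hd.1 hdZ).le (mem_cent_comm.1 hd.2))
      have h5 : M ⊔ Subgroup.centralizer ({y} : Set G) = ⊤ :=
        (coatom_of_prime (hMi ▸ hq)).2 _ (left_lt_sup.2 fun hle => hyM (hle (self_mem_cent y)))
      rw [← h4, Subgroup.inf_relIndex_left, relIndex_eq_of_forall_mul (B := ⊤) le_top,
        Subgroup.relIndex_top_right]
      intro b _
      obtain ⟨d, hd, e, he, rfl⟩ := Subgroup.mem_sup_of_normal_left.1 (h5.ge (Subgroup.mem_top b))
      exact ⟨d, hd, e, he, rfl⟩
    · have h4 := hfpf (y : G ⧸ Subgroup.center G) fun hm => hyM (by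
        rwa [← QuotientGroup.mk'_apply, ← Subgroup.mem_comap,
          Subgroup.comap_map_eq_self (by rwa [QuotientGroup.ker_mk'])] at hm)
      rw [← QuotientGroup.eq_one_iff, ← Subgroup.mem_bot, ← h4]
      exact ⟨Subgroup.mem_map_of_mem _ hxM, mem_cent.2 (hc.is_comm.comm _ _)⟩

end Cfsg.Agent.S4314
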