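import Cfsg.Statements.S4316
import Cfsg.Agent.Solv.CoprimeIndex
import Cfsg.Agent.Solv.ActionTransport
import Mathlib.GroupTheory.Schreier
import Mathlib.GroupTheory.Transfer

set_option autoImplicit false
universe u
open Cfsg

namespace Cfsg.Agent.S4316

open Cfsg.Lib Cfsg.Lib.Solv Subgroup
open scoped commutatorElement

/-- A group generated by `s` elements of order dividing `e` with centre of index at most `N`. -/
theorem card_le_of_center {W : Type*} [Group W] [Finite W] (S : Set W) (hS : closure S = ⊤)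
    {s e N : ℕ} (hs : Nat.card S ≤ s) (he : 0 < e) (hSe : ∀ y ∈ S, y ^ e = 1)
    (hN : (center W).index ≤ N) : Nat.card W ≤ N * (N * e) ^ (N * s) := by
  set n := (center W).index with hn
  have hn0 : 0 < n := Nat.pos_of_ne_zero index_ne_zero_of_finite
  have hexp : ∀ w : W, (w ^ n) ^ e = 1 := by
    intro w
    have hw : w ∈ closure S := hS ▸ mem_top w
    have : (MonoidHom.transferCenterPow W w) ^ e = 1 := by
      induction hw using closure_induction with
      | mem y hy =>
        rw [← map_pow, hSe y hy, map_one]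
      | one => simp
      | mul x y _ _ hx hy =>
        have hc : Commute (MonoidHom.transferCenterPow W x) (MonoidHom.transferCenterPow W y) :=
          Subtype.ext (mem_center_iff.1 (MonoidHom.transferCenterPow W y).2 _)
        rw [map_mul, hc.mul_pow, hx, hy, one_mul]
      | inv x _ hx => rw [map_inv, inv_pow, hx, inv_one]
    exact congrArg Subtype.val this
  have hZ : Nat.card (center W) ∣ (n * e) ^ Group.rank (center W) := by
    let _ : CommGroup (center W) := { (inferInstance : Group (center W)) with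
      mul_comm := fun a b => Subtype.ext (mem_center_iff.1 b.2 a) }
    exact card_dvd_exponent_pow_rank' (center W) fun z => Subtype.ext (by
      rw [pow_mul]; exact hexp z)
  have hr : Group.rank (center W) ≤ n * s := by
    refine (rank_le_index_mul_rank (center W)).trans (Nat.mul_le_mul_left _ ?_)
    have h1 := rank_closure_finite_le_nat_card S
    have h2 : Group.rank (closure S) = Group.rank W := by
      apply Group.rank_congr
      exact (MulEquiv.subgroupCongr hS).trans topEquiv
    omega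
  have hne : 0 < n * e := Nat.mul_pos hn0 he
  have h3 : Nat.card (center W) ≤ (N * e) ^ (N * s) :=
    calc Nat.card (center W) ≤ (n * e) ^ Group.rank (center W) := Nat.le_of_dvd (pow_pos hne _) hZ
      _ ≤ (n * e) ^ (N * s) := Nat.pow_le_pow_right hne (hr.trans (Nat.mul_le_mul_right _ hN))
      _ ≤ (N * e) ^ (N * s) := Nat.pow_le_pow_left (Nat.mul_le_mul_right _ hN) _
  rw [← (center W).index_mul_card]
  exact Nat.mul_le_mul hN h3

variable {G : Type*} [Group G] [Finite G]

theorem relIndex_centralizer_le {C : Subgroup G} {y : G} (hy : y ∈ C) :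
    (centralizer ({y} : Set G)).relIndex C ≤ Nat.card (⁅C, C⁆ : Subgroup G) := by
  let f : C ⧸ (centralizer ({y} : Set G)).subgroupOf C → (⁅C, C⁆ : Subgroup G) :=
    fun x => ⟨⁅(x.out : G), y⁆, commutator_mem_commutator x.out.2 hy⟩
  refine Nat.card_le_card_of_injective f fun a b hab => ?_
  have h1 : ⁅((a.out : C) : G), y⁆ = ⁅((b.out : C) : G), y⁆ := congrArg Subtype.val hab
  rw [← a.out_eq, ← b.out_eq]
  apply QuotientGroup.eq.2
  rw [mem_subgroupOf, mem_centralizer_singleton_iff]
  simp only [commutatorElement_def, mul_left_inj] at h1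
  simp only [Subgroup.coe_mul, Subgroup.coe_inv]
  calc ((a.out : C) : G)⁻¹ * (b.out : C) * y
      = ((a.out : C) : G)⁻¹ * ((b.out : C) * y * ((b.out : C) : G)⁻¹) * (b.out : C) := by group
    _ = y * (((a.out : C) : G)⁻¹ * (b.out : C)) := by rw [← h1]; group

theorem main {q m : ℕ} (hq : q.Prime) {A K : Subgroup G} [IsMulCommutative A]
    (hA : Nat.card A = q ^ 3) (hAq : ∀ a ∈ A, a ^ q = 1) (hAK : A ≤ normalizer (K : Set G))
    (hcop : (Nat.card A).Coprime (Nat.card K))
    (hm : ∀ a ∈ A, a ≠ 1 → Nat.card (⁅K ⊓ centralizer ({a} : Set G), K ⊓ centralizer ({a} : Set G)⁆ :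
      Subgroup G) ≤ m) :
    Nat.card (⁅K, K⁆ : Subgroup G) ≤ (m ^ q ^ 3) ^ (q ^ 3 * m) *
      ((m ^ q ^ 3) ^ (q ^ 3 * m) * m.factorial) ^ ((m ^ q ^ 3) ^ (q ^ 3 * m) * (q ^ 3 * m)) := by
  classical
  have := Fact.mk hq
  have hq1 := hq.one_lt
  have hA1 : A ≠ ⊥ := by
    rw [← one_lt_card_iff_ne_bot, hA]; exact Nat.one_lt_pow (by norm_num) hq1
  obtain ⟨a0, ha0, ha01⟩ := (bot_or_exists_ne_one A).resolve_left hA1
  have hm0 : 0 < m := lt_of_lt_of_le Nat.card_pos (hm a0 ha0 ha01)
  let C : G → Subgroup G := fun a => K ⊓ centralizer ({a} : Set G)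
  have hcardB : ∀ B : Subgroup G, B ≤ A → B.relIndex A = q → Nat.card B = q ^ 2 := by
    intro B hBA hB
    have h1 := (B.subgroupOf A).card_mul_index
    rw [Coprime.card_subgroupOf hBA, hA] at h1
    change Nat.card B * B.relIndex A = _ at h1
    rw [hB, pow_succ] at h1
    exact Nat.eq_of_mul_eq_mul_right hq.pos h1
  have hmeet : ∀ B B' : Subgroup G, B ≤ A → B.relIndex A = q → B' ≤ A → B'.relIndex A = q →
      ∃ a ∈ B, a ∈ B' ∧ a ≠ 1 := by
    intro B B' hBA hB hBA' hB'
    by_contra hcon
    push Not at hcon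
    have h0 : B ⊓ B' = ⊥ := by
      rw [eq_bot_iff]; intro x hx; exact hcon x hx.1 hx.2
    have h1 := relIndex_inf_le (H := B) (K := B') (L := A)
    rw [h0, relIndex_bot_left, hA, hB, hB'] at h1
    have : q ^ 2 < q ^ 3 := Nat.pow_lt_pow_right hq1 (by norm_num)
    rw [sq] at this
    omega
  have hCle : ∀ {B : Subgroup G} {a : G}, a ∈ B → K ⊓ centralizer (B : Set G) ≤ C a :=
    fun {B a} ha => inf_le_inf_left K (centralizer_le (Set.singleton_subset_iff.2 ha))
  let S : Set G := {y | (∃ a ∈ A, a ≠ 1 ∧ y ∈ ⁅C a, C a⁆) ∧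
    ∃ B : Subgroup G, B ≤ A ∧ B.relIndex A = q ∧ y ∈ centralizer (B : Set G)}
  have hDK : ∀ a, ⁅C a, C a⁆ ≤ K := fun a =>
    (commutator_le_self (C a)).trans inf_le_left
  have hSK : ∀ y ∈ S, y ∈ K := by
    rintro y ⟨⟨a, -, -, hy⟩, -⟩; exact hDK a hy
  set W := closure S with hW
  have hWK : W ≤ K := (closure_le K).2 hSK
  have hDW : ∀ a ∈ A, a ≠ 1 → ⁅C a, C a⁆ ≤ W := by
    intro a ha ha1
    have hN : A ≤ normalizer ((⁅C a, C a⁆ : Subgroup G) : Set G) := by
      intro b hb
      have h1 := Coprime.mem_normalizer_iff_conj_smul.1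
        (Coprime.le_normalizer_inf_centralizer_singleton hAK ha hb)
      rw [Coprime.mem_normalizer_iff_conj_smul]
      change Subgroup.map (MulAut.conj b).toMonoidHom (C a) = C a at h1
      change Subgroup.map (MulAut.conj b).toMonoidHom _ = _
      rw [map_commutator, h1]
    refine Coprime.le_of_forall_hyperplane hAq hA1 hN
      (hcop.coprime_dvd_right (card_dvd_of_le (hDK a))) fun B hBA hB y hy => ?_
    exact subset_closure ⟨⟨a, ha, ha1, hy.1⟩, B, hBA, hB, hy.2⟩
  have hcomm : ∀ B B' : Subgroup G, B ≤ A → B.relIndex A = q → B' ≤ A → B'.relIndex A = q →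
      ∀ x ∈ K ⊓ centralizer (B : Set G), ∀ y ∈ K ⊓ centralizer (B' : Set G), ⁅x, y⁆ ∈ W := by
    intro B B' hBA hB hBA' hB' x hx y hy
    obtain ⟨a, ha, ha', ha1⟩ := hmeet B B' hBA hB hBA' hB'
    exact hDW a (hBA ha) ha1 (commutator_mem_commutator (hCle ha hx) (hCle ha' hy))
  have hKW : K ≤ normalizer (W : Set G) := by
    refine Coprime.le_of_forall_hyperplane hAq hA1 hAK hcop fun B hBA hB g hg => ?_
    apply mem_normalizer_fintype
    intro w hw
    have : W ≤ W.comap (MulAut.conj g).toMonoidHom := by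
      refine (closure_le _).2 fun y hy => ?_
      obtain ⟨-, B', hBA', hB', hyB⟩ := id hy
      show g * y * g⁻¹ ∈ W
      have e : g * y * g⁻¹ = ⁅g, y⁆ * y := by rw [commutatorElement_def]; group
      rw [e]
      exact W.mul_mem (hcomm B B' hBA hB hBA' hB' g hg y ⟨hSK y hy, hyB⟩) (subset_closure hy)
    exact this hw
  let H : G → Subgroup G := fun x =>
    { carrier := {g | g ∈ K ∧ ⁅x, g⁆ ∈ W}
      one_mem' := ⟨K.one_mem, by simp⟩
      mul_mem' := by
        rintro g h ⟨hg, hg'⟩ ⟨hh, hh'⟩
        refine ⟨K.mul_mem hg hh, ?_⟩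
        have e : ⁅x, g * h⁆ = ⁅x, g⁆ * (g * ⁅x, h⁆ * g⁻¹) := by
          simp only [commutatorElement_def]; group
        rw [e]
        exact W.mul_mem hg' (Coprime.conj_mem hKW hg hh')
      inv_mem' := by
        rintro g ⟨hg, hg'⟩
        refine ⟨K.inv_mem hg, ?_⟩
        have e : ⁅x, g⁻¹⁆ = g⁻¹ * ⁅x, g⁆⁻¹ * g := by
          simp only [commutatorElement_def]; group
        rw [e]
        exact Coprime.conj_mem' hKW hg (W.inv_mem hg') }
  have hKK : ⁅K, K⁆ ≤ W := by
    rw [commutator_le]
    intro g hg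
    have : K ≤ H g := by
      refine Coprime.le_of_forall_hyperplane hAq hA1 hAK hcop fun B hBA hB x hx => ⟨hx.1, ?_⟩
      have h2 : K ≤ H x :=
        Coprime.le_of_forall_hyperplane hAq hA1 hAK hcop fun B' hBA' hB' y hy =>
          ⟨hy.1, hcomm B B' hBA hB hBA' hB' x hx y hy⟩
      rw [← commutatorElement_inv]
      exact W.inv_mem (h2 hg).2
    exact fun h hh => (this hh).2
  -- the size of the generating set
  have hScard : Nat.card S ≤ q ^ 3 * m := by
    have hsub : S ⊆ ⋃ a ∈ (A : Set G) \ {1}, ((⁅C a, C a⁆ : Subgroup G) : Set G) := by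
      rintro y ⟨⟨a, ha, ha1, hy⟩, -⟩
      exact Set.mem_biUnion (⟨ha, ha1⟩ : a ∈ (A : Set G) \ {1}) hy
    have hfin : ((A : Set G) \ {1}).Finite := Set.toFinite _
    rw [Nat.card_coe_set_eq]
    refine (Set.ncard_le_ncard hsub (Set.toFinite _)).trans ?_
    refine (hfin.ncard_biUnion_le _).trans ?_
    rw [finsum_mem_eq_finite_toFinset_sum _ hfin]
    refine (Finset.sum_le_card_nsmul _ _ m fun a ha => ?_).trans ?_
    · rw [Set.Finite.mem_toFinset] at ha
      rw [← Nat.card_coe_set_eq]
      exact hm a ha.1 ha.2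
    · rw [smul_eq_mul, ← Set.ncard_eq_toFinset_card _ hfin, ← hA]
      refine Nat.mul_le_mul_right _ ?_
      rw [← SetLike.coe_sort_coe, Nat.card_coe_set_eq]
      exact Set.ncard_le_ncard Set.sdiff_subset (Set.toFinite _)
  have hidx : ∀ y ∈ S, (centralizer ({y} : Set G)).relIndex K ≤ m ^ q ^ 3 := by
    intro y hy
    obtain ⟨-, B, hBA, hB, hyB⟩ := id hy
    have : IsMulCommutative B := ⟨⟨fun a b => Subtype.ext (congrArg Subtype.val
      (IsMulCommutative.is_comm.comm (⟨a, hBA a.2⟩ : A) ⟨b, hBA b.2⟩) :)⟩⟩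
    have hBc := hcardB B hBA hB
    have hnc : ¬ IsCyclic B := by
      intro hc
      have h1 : Monoid.exponent B ∣ q :=
        Monoid.exponent_dvd_of_forall_pow_eq_one fun b => Subtype.ext (hAq b (hBA b.2))
      rw [IsCyclic.exponent_eq_card, hBc] at h1
      have h2 := Nat.le_of_dvd hq.pos h1
      nlinarith
    have hfin : ((B : Set G) \ {1}).Finite := Set.toFinite _
    have hBL : B ≤ normalizer ((K ⊓ centralizer ({y} : Set G) : Subgroup G) : Set G) := by
      intro b hb
      apply mem_normalizer_fintype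
      rintro x ⟨hx, hxy⟩
      refine ⟨Coprime.conj_mem (hBA.trans hAK) hb hx, ?_⟩
      have hb' : b ∈ centralizer ({y} : Set G) := mem_centralizer_singleton_iff.2 (hyB b hb)
      exact Subgroup.mul_mem _ (Subgroup.mul_mem _ hb' hxy) (Subgroup.inv_mem _ hb')
    have h1 := Coprime.relIndex_dvd_prod hnc hfin.toFinset (fun a => by
      rw [Set.Finite.mem_toFinset]; rfl) (hBA.trans hAK) hBL
      (hcop.coprime_dvd_left (card_dvd_of_le hBA)) inf_le_left
    rw [inf_relIndex_left] at h1
    refine (Nat.le_of_dvd (Finset.prod_pos fun a _ =>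
      Nat.pos_of_ne_zero index_ne_zero_of_finite) h1).trans ?_
    refine (Finset.prod_le_pow_card _ _ m fun a ha => ?_).trans ?_
    · rw [Set.Finite.mem_toFinset] at ha
      have h2 : (K ⊓ centralizer ({y} : Set G)).relIndex (C a) =
          (centralizer ({y} : Set G)).relIndex (C a) := by
        rw [← inf_relIndex_right, ← inf_relIndex_right (centralizer ({y} : Set G))]
        congr 1
        apply le_antisymm (inf_le_inf_right _ inf_le_right)
        exact le_inf (le_inf (inf_le_right.trans inf_le_left) inf_le_left) inf_le_right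
      exact h2.le.trans
        ((relIndex_centralizer_le (hCle ha.1 ⟨hSK y hy, hyB⟩)).trans (hm a (hBA ha.1) ha.2))
    · refine Nat.pow_le_pow_right hm0 ?_
      rw [← Set.ncard_eq_toFinset_card _ hfin, ← hA]
      refine le_trans ?_ (card_le_of_le hBA)
      rw [← SetLike.coe_sort_coe, Nat.card_coe_set_eq]
      exact Set.ncard_le_ncard Set.sdiff_subset (Set.toFinite _)
  refine (card_le_of_le hKK).trans (card_le_of_center (W.subtype ⁻¹' S) ?_ ?_ m.factorial_pos ?_ ?_)
  · exact closure_preimage_eq_top S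
  · refine le_trans ?_ hScard
    exact Nat.card_le_card_of_injective (fun y => (⟨y.1.1, y.2⟩ : S)) fun a b hab =>
      Subtype.ext (Subtype.ext (congrArg (fun t : S => (t : G)) hab))
  · rintro y ⟨⟨a, ha, ha1, hy⟩, -⟩
    apply Subtype.ext
    apply orderOf_dvd_iff_pow_eq_one.1
    refine (Subgroup.orderOf_dvd_natCard _ hy).trans (Nat.dvd_factorial Nat.card_pos (hm a ha ha1))
  · have := Fintype.ofFinite S
    have h1 : (⨅ y : S, centralizer ({(y : G)} : Set G)).subgroupOf W ≤ center W := by
      intro w hw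
      rw [mem_subgroupOf, mem_iInf] at hw
      rw [mem_center_iff]
      intro g
      have : W ≤ centralizer ({(w : G)} : Set G) := (closure_le _).2 fun y hy =>
        mem_centralizer_singleton_iff.2 (mem_centralizer_singleton_iff.1 (hw ⟨y, hy⟩)).symm
      exact Subtype.ext (mem_centralizer_singleton_iff.1 (this g.2))
    refine (index_antitone h1).trans ((relIndex_iInf_le _).trans ?_)
    refine (Finset.prod_le_pow_card _ _ (m ^ q ^ 3) fun y _ => ?_).trans ?_
    · exact (relIndex_le_of_le_right hWK index_ne_zero_of_finite).trans (hidx y y.2)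
    · refine Nat.pow_le_pow_right (pow_pos hm0 _) ?_
      rw [Finset.card_univ, ← Nat.card_eq_fintype_card]
      exact hScard

/-- There is a function `f` of two natural-number arguments with the following property. Let `q` be a prime and `A` an elementary abelian group of order `q³` acting by automorphisms on a finite group `G` of order prime to `q`, and suppose that for every non-identity `a ∈ A` the derived subgroup of the fixed-point subgroup `C_G(a)` has order at most `m`. Then the derived subgroup of `G` has order at most `f(q, m)`. -/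
theorem result :
    ∃ f : ℕ → ℕ → ℕ, ∀ (q m : ℕ) (A G : Type u) [Group A] [Finite A] [Group G] [Finite G] [MulDistribMulAction A G],
      q.Prime → Nat.card A = q ^ 3 → (∀ a b : A, a * b = b * a) → (∀ a : A, a ^ q = 1) → ¬ q ∣ Nat.card G →
      (∀ a : A, a ≠ 1 → Nat.card ↥(commutator ↥(FixedPoints.subgroup (Subgroup.zpowers a) G)) ≤ m) →
      Nat.card ↥(commutator G) ≤ f q m := by
  refine ⟨fun q m => (m ^ q ^ 3) ^ (q ^ 3 * m) *
      ((m ^ q ^ 3) ^ (q ^ 3 * m) * m.factorial) ^ ((m ^ q ^ 3) ^ (q ^ 3 * m) * (q ^ 3 * m)), ?_⟩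
  intro q m A G _ _ _ _ _ hq hA hcomm hexp hqG hm
  let φ : A →* MulAut G := MulDistribMulAction.toMulAut A G
  have : IsMulCommutative (Act.R φ ⊤) := ⟨⟨by
    rintro ⟨_, a, -, rfl⟩ ⟨_, b, -, rfl⟩
    apply Subtype.ext
    simp only [Subgroup.coe_mul, ← map_mul, hcomm a b]⟩⟩
  have h := main (m := m) hq (A := Act.R φ ⊤) (K := Act.L φ ⊤) (by rw [Act.card_R_top, hA])
    (by rintro _ ⟨a, -, rfl⟩; rw [← map_pow, hexp, map_one]) (Act.R_le_normalizer_L_top ⊤)
    (by
      rw [Act.card_R_top, Act.card_L_top, hA]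
      exact Nat.Coprime.pow_left 3 ((Nat.Prime.coprime_iff_not_dvd hq).2 hqG))
    (by
      rintro _ ⟨a, -, rfl⟩ ha1
      rw [Act.L_inf_centralizer_inr, Act.commutator_L_L, Act.card_L]
      have e : (⊤ : Subgroup G) ⊓ Act.fix φ (zpowers a) = FixedPoints.subgroup (zpowers a) G := by
        ext x
        rw [top_inf_eq, Act.mem_fix, FixedPoints.mem_subgroup]
        exact ⟨fun h b => h b b.2, fun h b hb => h ⟨b, hb⟩⟩
      rw [e, ← Subgroup.map_subtype_commutator, card_map_of_injective (Subgroup.subtype_injective _)]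
      exact hm a fun h1 => ha1 (by rw [h1, map_one]))
  rwa [Act.commutator_L_L, Act.card_L] at h

end Cfsg.Agent.S4316
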