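import Cfsg.Statements.S4320
import Mathlib

set_option autoImplicit false
open Cfsg

namespace Cfsg.Agent.S4320

section
variable {G A : Type*} [Group G] [Finite G] [CommGroup A] [Fintype A] (π : G →* A)
  (hπ : Function.Surjective π) (hker : π.ker ≤ commutator G)

/-- the augmentation -/
noncomputable def aug (A : Type*) [CommGroup A] : MonoidAlgebra ℤ A →ₐ[ℤ] ℤ :=
  MonoidAlgebra.lift ℤ ℤ A 1

theorem aug_of (a : A) : aug A (MonoidAlgebra.of ℤ A a) = 1 := by
  simp [aug]

include hπ hker

theorem exists_annihilator {M : Type*} [AddCommGroup M] [Module (MonoidAlgebra ℤ A) M]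
    (d : G → M) (hd : ∀ g h, d (g * h) = d g + MonoidAlgebra.of ℤ A (π g) • d h) :
    ∃ δ : MonoidAlgebra ℤ A, (aug A δ).natAbs = Nat.card A ∧ ∀ g, δ • d g = 0 := by
  classical
  haveI := Fintype.ofFinite G
  let I : Ideal (MonoidAlgebra ℤ A) := RingHom.ker (aug A)
  let S := I • Submodule.span (MonoidAlgebra ℤ A) (Set.range d)
  let θ : G →* Multiplicative (M ⧸ S) := MonoidHom.mk' (fun g => Multiplicative.ofAdd (S.mkQ (d g)))
    (fun g h => by
      rw [← ofAdd_add, ← map_add, hd]
      congr 1
      refine (Submodule.Quotient.eq S).2 ?_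
      have : d g + MonoidAlgebra.of ℤ A (π g) • d h - (d g + d h) =
        (MonoidAlgebra.of ℤ A (π g) - 1) • d h := by rw [sub_smul, one_smul]; abel
      rw [this]
      exact Submodule.smul_mem_smul (by rw [RingHom.mem_ker, map_sub, aug_of, map_one, sub_self])
        (Submodule.subset_span ⟨h, rfl⟩))
  let θ' : A →* Multiplicative (M ⧸ S) :=
    π.liftOfSurjective hπ ⟨θ, hker.trans (Abelianization.commutator_subset_ker θ)⟩
  have hθ' : ∀ g, θ' (π g) = θ g := fun g =>
    MonoidHom.liftOfRightInverse_comp_apply π _ _ _ g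
  let ψ : (G → ℤ) →ₗ[ℤ] Additive A := Fintype.linearCombination ℤ (fun g => Additive.ofMul (π g))
  have hψ : Function.Surjective ψ := by
    intro a
    obtain ⟨g, hg⟩ := hπ a.toMul
    exact ⟨Pi.single g 1, by simp [ψ, Fintype.linearCombination_apply_single, hg]⟩
  have hcard : Nat.card ((G → ℤ) ⧸ LinearMap.ker ψ) = Nat.card A :=
    Nat.card_congr (ψ.quotKerEquivOfSurjective hψ).toEquiv
  haveI : Finite ((G → ℤ) ⧸ LinearMap.ker ψ) :=
    Nat.finite_of_card_ne_zero (hcard ▸ Nat.card_pos.ne')
  let e : (G → ℤ) ≃ₗ[ℤ] LinearMap.ker ψ := LinearEquiv.ofFinrankEq _ _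
    ((Submodule.finiteQuotient_iff _).1 inferInstance).symm
  have hdet := Submodule.natAbs_det_equiv (LinearMap.ker ψ) e
  rw [hcard, ← LinearMap.det_toMatrix', ← Matrix.det_transpose] at hdet
  have hrel : ∀ v : G → ℤ, ψ v = 0 → ∃ a : G → MonoidAlgebra ℤ A, (∀ g, aug A (a g) = v g) ∧
      ∑ g, a g • d g = 0 := by
    intro v hv
    have h1 : ∑ g, v g • d g ∈ S := by
      rw [← Submodule.Quotient.mk_eq_zero, ← Submodule.mkQ_apply, map_sum]
      have h2 := congrArg (MonoidHom.toAdditiveLeft θ') hv
      rw [map_zero, Fintype.linearCombination_apply, map_sum] at h2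
      rw [← h2]
      refine Finset.sum_congr rfl (fun g _ => ?_)
      rw [map_zsmul, map_zsmul]
      congr 1
      change _ = Multiplicative.toAdd (θ' (π g))
      rw [hθ']; rfl
    obtain ⟨a, ha, h2⟩ := (Submodule.mem_ideal_smul_span_iff_exists_sum I d _).1 h1
    rw [Finsupp.sum_fintype _ (fun i (c : MonoidAlgebra ℤ A) => c • d i)
      (fun i => zero_smul _ _)] at h2
    refine ⟨fun g => (v g : MonoidAlgebra ℤ A) - a g, fun g => ?_, ?_⟩
    · rw [map_sub, RingHom.mem_ker.1 (ha g), map_intCast, sub_zero, Int.cast_id]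
    · simp only [sub_smul, Finset.sum_sub_distrib, h2, Int.cast_smul_eq_zsmul, sub_self]
  choose μ hμ1 hμ2 using fun j : G => hrel (e (Pi.single j 1)) (e (Pi.single j 1)).2
  let μ' : Matrix G G (MonoidAlgebra ℤ A) := Matrix.of μ
  refine ⟨μ'.det, ?_, fun i => ?_⟩
  · rw [← hdet, AlgHom.map_det]
    congr 2
    ext j g
    simp [μ', hμ1]
  · have h1 : ∑ j, μ'.adjugate i j • ∑ g, μ j g • d g = 0 := by simp [hμ2]
    simp only [Finset.smul_sum, smul_smul] at h1
    rw [Finset.sum_comm] at h1
    simp only [← Finset.sum_smul] at h1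
    have h2 : ∀ g, ∑ j, μ'.adjugate i j * μ j g = if i = g then μ'.det else 0 := by
      intro g
      have := congrFun (congrFun (Matrix.adjugate_mul μ') i) g
      rw [Matrix.mul_apply] at this
      rw [Matrix.smul_apply, Matrix.one_apply] at this
      simp only [smul_eq_mul, mul_ite, mul_one, mul_zero] at this
      exact this
    simpa [h2] using h1

theorem norm_smul_eq_zero {M : Type*} [AddCommGroup M] [Module (MonoidAlgebra ℤ A) M]
    (d : G → M) (hd : ∀ g h, d (g * h) = d g + MonoidAlgebra.of ℤ A (π g) • d h) (g : G) :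
    (∑ a : A, MonoidAlgebra.of ℤ A a) • d g = 0 := by
  classical
  obtain ⟨δ, h1, h2⟩ := exists_annihilator π hπ hker (M := M × MonoidAlgebra ℤ A)
    (fun g => (d g, MonoidAlgebra.of ℤ A (π g) - 1)) (fun g h => by
      refine Prod.ext (hd g h) ?_
      simp only [map_mul, Prod.smul_mk, Prod.mk_add_mk, smul_eq_mul]
      ring)
  have h3 : ∀ a : A, δ.coeff a = δ.coeff 1 := by
    intro a
    obtain ⟨g, rfl⟩ := hπ a
    have h3 : δ * (MonoidAlgebra.of ℤ A (π g) - 1) = 0 := congrArg Prod.snd (h2 g)
    rw [mul_sub, mul_one, sub_eq_zero, mul_comm] at h3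
    have h4 := congrArg (fun t => t.coeff (π g)) h3
    simp only [MonoidAlgebra.of_apply, MonoidAlgebra.coeff_single_mul_apply, one_mul,
      inv_mul_cancel] at h4
    exact h4.symm
  have h4 : δ = δ.coeff 1 • ∑ a : A, MonoidAlgebra.of ℤ A a := by
    ext a
    rw [h3 a]
    simp [MonoidAlgebra.coeff_sum, Finsupp.single_apply, -zsmul_eq_mul]
  have h5 : (δ.coeff 1).natAbs = 1 := by
    rw [h4, map_zsmul, map_sum] at h1
    simp only [aug_of, Finset.sum_const, Finset.card_univ, smul_eq_mul, nsmul_eq_mul, mul_one,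
      Int.natAbs_mul, Int.natAbs_natCast, Nat.card_eq_fintype_card] at h1
    exact Nat.eq_of_mul_eq_mul_right Fintype.card_pos (h1.trans (one_mul _).symm)
  have h6 : δ • d g = 0 := congrArg Prod.fst (h2 g)
  rw [h4, smul_assoc] at h6
  rcases Int.natAbs_eq_iff.1 h5 with h | h <;> rw [h] at h6 <;> simpa using h6

end


/-- The Principal Ideal Theorem of class field theory in its group-theoretic form: for every finite group `G`, the transfer homomorphism from `G` into the abelianization `G'/G''` of its derived subgroup `G'` is the trivial homomorphism. -/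
theorem result {G : Type*} [Group G] [Finite G] :
    MonoidHom.transfer (Abelianization.of : ↥(commutator G) →* Abelianization ↥(commutator G)) =
      (1 : G →* Abelianization ↥(commutator G)) := by
  classical
  haveI : Fintype (G ⧸ commutator G) := (commutator G).fintypeQuotientOfFiniteIndex
  letI : Fintype (Abelianization G) := ‹Fintype (G ⧸ commutator G)›
  let T : (commutator G).LeftTransversal := default
  let s : G ⧸ commutator G → G := fun q => T.2.leftQuotientEquiv q
  have hs : ∀ q, (s q : G ⧸ commutator G) = q := fun q => T.2.leftQuotientEquiv.symm_apply_apply q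
  let B := Additive (Abelianization (commutator G))
  let ρ : Representation ℤ (Abelianization G) (Abelianization G → B) :=
    { toFun := fun a => LinearMap.funLeft ℤ B (fun x => a⁻¹ * x)
      map_one' := by ext; simp
      map_mul' := fun a b => by ext; simp [mul_assoc] }
  have hmem : ∀ (g : G) (q : G ⧸ commutator G), (s q)⁻¹ * (g * s (g⁻¹ • q)) ∈ commutator G := by
    intro g q
    rw [← QuotientGroup.eq, hs, ← smul_eq_mul, ← MulAction.Quotient.smul_mk, hs, smul_inv_smul]
  let d0 : G → Abelianization G → B := fun g q =>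
    Additive.ofMul (Abelianization.of ⟨_, hmem g q⟩)
  have hsm : ∀ (g : G) (q : Abelianization G),
      (g⁻¹ • (show G ⧸ commutator G from q)) = ((Abelianization.of g)⁻¹ * q : Abelianization G) := by
    rintro g ⟨x⟩; rfl
  have hd := norm_smul_eq_zero (M := ρ.asModule) (Abelianization.of (G := G))
    (fun a => Quotient.inductionOn' a (fun g => ⟨g, rfl⟩)) (Abelianization.ker_of G).le
    (fun g => ρ.asModuleEquiv.symm (d0 g)) (fun g h => by
      rw [← Representation.asModuleEquiv_symm_map_rho, ← map_add]
      congr 1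
      funext q
      change d0 (g * h) q = d0 g q + d0 h ((Abelianization.of g)⁻¹ * q)
      simp only [d0]
      rw [← ofMul_mul, ← map_mul]
      congr 2
      apply Subtype.ext
      change _ = (s q)⁻¹ * (g * s (g⁻¹ • (show G ⧸ commutator G from q))) *
        ((s ((Abelianization.of g)⁻¹ * q : Abelianization G))⁻¹ *
          (h * s (h⁻¹ • (show G ⧸ commutator G from ((Abelianization.of g)⁻¹ * q : Abelianization G)))))
      rw [← hsm, smul_smul, ← mul_inv_rev]
      group)
  ext g
  have h1 := congrArg (fun m => ρ.asModuleEquiv m 1) (hd g)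
  simp only [Finset.sum_smul, map_sum, ← Representation.asModuleEquiv_symm_map_rho,
    LinearEquiv.apply_symm_apply, map_zero, Finset.sum_apply, Pi.zero_apply] at h1
  have h2 : ∑ a : Abelianization G, d0 g a = 0 := by
    rw [← h1]
    exact (Fintype.sum_equiv (Equiv.inv _) _ _ (fun a => by simp [ρ])).symm
  rw [MonoidHom.transfer_def _ T, MonoidHom.one_apply]
  apply Additive.ofMul.injective
  rw [ofMul_one, ← h2, Subgroup.leftTransversals.diff, ofMul_prod]
  refine Finset.sum_congr (by congr!) (fun q _ => ?_)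
  simp only [d0]
  congr 3
  rw [Subgroup.smul_apply_eq_smul_apply_inv_smul]
  rfl

end Cfsg.Agent.S4320
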