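import Cfsg.Statements.S4321
import Cfsg.Agent.Solv.SylowDirect
import Cfsg.Agent.Solv.PGroupBasic

set_option autoImplicit false
open Cfsg

namespace Cfsg.Agent.S4321

open Subgroup Cfsg.Lib.Solv Cfsg.Lib.Solv.ClassSize
open scoped commutatorElement Pointwise

local notation:max "𝐂[" x "]" => Subgroup.centralizer ({x} : Set _)

section

variable {G : Type*} [Group G] [Finite G]

/-- Kazarin's trick. -/
theorem kaz {p : ℕ} (hp : p.Prime) {y z : G} (hz : z ^ p = 1)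
    (hco : 𝐂[y].index.Coprime 𝐂[z].index) (hc : 𝐂[y * z].index ∣ 𝐂[y].index)
    (hb : z ∉ center G) : p ∣ 𝐂[y].index ∧ ∀ g : G, Commute (g * z * g⁻¹) z := by
  classical
  set C : Set G := {w | IsConj y w} with hC
  have h1 : ∀ g : G, (fun w => w * (g * z * g⁻¹)) '' C = {w | IsConj (y * z) w} := fun g => by
    refine Set.eq_of_subset_of_ncard_le ?_ ?_
    · rintro _ ⟨w, hw, rfl⟩
      obtain ⟨h, rfl⟩ := isConj_iff.1 hw
      obtain ⟨a, ha, b, hb, e⟩ := forall_mul_of_coprime_index hco.symm (g⁻¹ * h)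
      refine isConj_iff.2 ⟨g * a, ?_⟩
      have e1 : h = g * a * b := by rw [mul_assoc, ← e]; group
      have e2 := mem_cent_iff_conj.1 ha
      have e3 := mem_cent_iff_conj.1 hb
      calc g * a * (y * z) * (g * a)⁻¹
          = g * a * (b * y * b⁻¹) * (g * a)⁻¹ * (g * (a * z * a⁻¹) * g⁻¹) := by rw [e3]; group
        _ = _ := by rw [e2, e1]; group
    · rw [Set.ncard_image_of_injective _ (mul_left_injective _), hC, ncard_setOf_isConj,
        ncard_setOf_isConj]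
      exact Nat.le_of_dvd (Nat.pos_of_ne_zero index_ne_zero_of_finite) hc
  let S : Subgroup G :=
    { carrier := {n | ∀ w, w ∈ C ↔ w * n ∈ C}
      one_mem' := fun w => by rw [mul_one]
      mul_mem' := fun {a b} ha hb w => by rw [← mul_assoc, ← hb, ← ha]
      inv_mem' := fun {a} ha w => by rw [ha (w * a⁻¹), inv_mul_cancel_right] }
  have hconj : ∀ g w : G, g * w * g⁻¹ ∈ C ↔ w ∈ C := fun g w =>
    ⟨fun h => IsConj.trans h (isConj_iff.2 ⟨g⁻¹, by group⟩),
      fun h => IsConj.trans h (isConj_iff.2 ⟨g, rfl⟩)⟩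
  have hS : S.Normal := ⟨fun n hn g w => by
    rw [← hconj g⁻¹ w, hn, ← hconj g]
    have : g * (g⁻¹ * w * g⁻¹⁻¹ * n) * g⁻¹ = w * (g * n * g⁻¹) := by group
    rw [this]⟩
  have h2 : ∀ g : G, g * z * g⁻¹ * z⁻¹ ∈ S := fun g w => by
    have e := (h1 g).trans (h1 1).symm
    simp only [one_mul, inv_one, mul_one] at e
    constructor
    · intro hw
      obtain ⟨v, hv, e'⟩ : w * (g * z * g⁻¹) ∈ (fun w => w * z) '' C := e ▸ ⟨w, hw, rfl⟩
      have : w * (g * z * g⁻¹ * z⁻¹) = v := by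
        rw [← mul_assoc, ← e']; group
      rwa [this]
    · intro hw
      obtain ⟨v, hv, e'⟩ : w * (g * z * g⁻¹ * z⁻¹) * z ∈ (fun w => w * (g * z * g⁻¹)) '' C :=
        e ▸ ⟨_, hw, rfl⟩
      have : v = w := by
        apply mul_right_cancel (b := g * z * g⁻¹)
        rw [show v * (g * z * g⁻¹) = _ from e']; group
      rwa [← this]
  have h3 : Nat.card S ∣ 𝐂[y].index := by
    rw [← ncard_setOf_isConj, ← hC]
    have e : C = QuotientGroup.mk ⁻¹' ((QuotientGroup.mk : G → G ⧸ S) '' C) := by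
      ext w
      refine ⟨fun h => ⟨w, h, rfl⟩, ?_⟩
      rintro ⟨v, hv, e⟩
      have := (QuotientGroup.eq.1 e) v
      rw [mul_inv_cancel_left] at this
      exact this.1 hv
    rw [e, ← Nat.card_coe_set_eq, QuotientGroup.card_preimage_mk]
    exact dvd_mul_right _ _
  have h4 : S ≤ 𝐂[z] := le_cent_of_coprime (hco.coprime_dvd_left h3)
  have h5 : ∀ g : G, Commute (g * z * g⁻¹) z := fun g => by
    have := (mem_cent_iff_commute.1 (h4 (h2 g))).mul_left (Commute.refl z)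
    rwa [inv_mul_cancel_right] at this
  refine ⟨?_, h5⟩
  obtain ⟨g, hg⟩ : ∃ g : G, g * z * g⁻¹ * z⁻¹ ≠ 1 := by
    by_contra! H
    exact hb (mem_center_iff.2 fun g => by
      rw [← mul_inv_eq_iff_eq_mul, ← mul_inv_eq_one]; exact H g)
  have : Fact p.Prime := ⟨hp⟩
  have h6 : orderOf (g * z * g⁻¹ * z⁻¹) = p := orderOf_eq_prime (by
    rw [(h5 g).inv_right.mul_pow, conj_pow, inv_pow, hz]; simp) hg
  exact (h6 ▸ S.orderOf_dvd_natCard (h2 g)).trans h3

theorem normal_case {p : ℕ} [hp : Fact p.Prime] (hZ : ¬ p ∣ Nat.card (center G)) (P : Sylow p G)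
    [hP : (P : Subgroup G).Normal]
    (h : ∀ x ∈ (P : Subgroup G), ¬ (P : Subgroup G) ≤ 𝐂[x] → ∀ g : G,
      ∃ a ∈ (P : Subgroup G), g * x * g⁻¹ = a * x * a⁻¹) {y : G} (hy : y ∈ (P : Subgroup G)) :
    (P : Subgroup G) ≤ 𝐂[y] := by
  have key : ∀ (q k : ℕ) (g : G), q.Prime → q ≠ p → orderOf g = q ^ k →
      ∀ u ∈ (P : Subgroup G), ∀ v ∈ (P : Subgroup G), Commute g ⁅u, v⁆ := by
    intro q k g hq hqp hg
    have : Fact q.Prime := ⟨hq⟩
    have h1 : (𝐂[g] ⊔ centralizer ((P : Subgroup G) : Set G) ⊓ P).subgroupOf P = ⊤ := by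
      refine eq_top_of_forall_exists_conj_mem fun x => ?_
      by_cases hx : (P : Subgroup G) ≤ 𝐂[(x : G)]
      · exact ⟨1, by
          rw [mem_subgroupOf]
          simpa using mem_sup_right (show (x : G) ∈ centralizer ((P : Subgroup G) : Set G) ⊓ P from
            ⟨le_cent_iff.1 hx, x.2⟩)⟩
      · have hQ : IsPGroup q (zpowers g) := isPGroup_zpowers_of_pow_eq_one (k := k) (by
          rw [← hg, pow_orderOf_eq_one])
        let act : MulAction (zpowers g) {w : G | IsConj (x : G) w} :=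
          { smul := fun c w => ⟨c * w * (c : G)⁻¹, IsConj.trans w.2 (isConj_iff.2 ⟨c, rfl⟩)⟩
            one_smul := fun w => Subtype.ext (by
              show ((1 : zpowers g) : G) * w * ((1 : zpowers g) : G)⁻¹ = w
              simp)
            mul_smul := fun c d w => Subtype.ext (by
              show ((c * d : zpowers g) : G) * w * ((c * d : zpowers g) : G)⁻¹ =
                c * (d * w * (d : G)⁻¹) * (c : G)⁻¹
              simp [mul_assoc]) }
        have h2 : ¬ q ∣ Nat.card {w : G | IsConj (x : G) w} := by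
          rw [Nat.card_coe_set_eq, ncard_setOf_isConj]
          have h3 : 𝐂[(x : G)].relIndex P = 𝐂[(x : G)].relIndex ⊤ :=
            relIndex_eq_of_forall_mul le_top fun b _ => by
              obtain ⟨a, ha, e⟩ := h x x.2 hx b
              refine ⟨a, ha, a⁻¹ * b, mem_cent_iff_conj.2 ?_, by group⟩
              calc a⁻¹ * b * x * (a⁻¹ * b)⁻¹ = a⁻¹ * (b * x * b⁻¹) * a := by group
                _ = x := by rw [e]; group
          rw [← relIndex_top_right, ← h3]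
          obtain ⟨n, hn⟩ := IsPGroup.iff_card.1 P.2
          intro hd
          have := hd.trans (relIndex_dvd_card _ _)
          rw [hn] at this
          exact hqp ((Nat.prime_dvd_prime_iff_eq hq hp.out).1 (hq.dvd_of_dvd_pow this))
        obtain ⟨w, hw⟩ := hQ.nonempty_fixed_point_of_prime_not_dvd_card _ h2
        have h4 : g * w * g⁻¹ = w := congrArg Subtype.val (hw ⟨g, mem_zpowers g⟩)
        obtain ⟨b, hb⟩ := isConj_iff.1 w.2
        obtain ⟨a, ha, e⟩ := h x x.2 hx b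
        refine ⟨⟨a, ha⟩, ?_⟩
        rw [mem_subgroupOf]
        refine mem_sup_left ?_
        show a * x * a⁻¹ ∈ _
        rw [← e, hb, mem_cent_comm, mem_cent_iff_conj]
        exact h4
    have hN : (centralizer ((P : Subgroup G) : Set G) ⊓ P).Normal := inferInstance
    have h5 : ∀ u ∈ (P : Subgroup G), ∃ c ∈ 𝐂[g], c ∈ (P : Subgroup G) ∧
        ∃ ζ ∈ centralizer ((P : Subgroup G) : Set G), u = c * ζ := fun u hu => by
      have : u ∈ 𝐂[g] ⊔ centralizer ((P : Subgroup G) : Set G) ⊓ P := by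
        have : (⟨u, hu⟩ : P) ∈ (𝐂[g] ⊔ centralizer ((P : Subgroup G) : Set G) ⊓ P).subgroupOf P :=
          h1 ▸ mem_top _
        exact this
      rw [← SetLike.mem_coe, mul_normal] at this
      obtain ⟨c, hc, ζ, hζ, e⟩ := this
      refine ⟨c, hc, ?_, ζ, hζ.1, e.symm⟩
      have : c = u * ζ⁻¹ := by rw [← e]; simp
      rw [this]; exact mul_mem hu (inv_mem hζ.2)
    intro u hu v hv
    obtain ⟨c, hc, hcP, ζ, hζ, rfl⟩ := h5 u hu
    obtain ⟨d, hd, hdP, η, hη, e⟩ := h5 v hv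
    have e1 : ⁅c * ζ, v⁆ = ⁅c, v⁆ := by
      have := hζ v hv
      simp only [commutatorElement_def, mul_inv_rev]
      calc c * ζ * v * (ζ⁻¹ * c⁻¹) * v⁻¹ = c * (ζ * v) * ζ⁻¹ * c⁻¹ * v⁻¹ := by group
        _ = _ := by rw [← this]; group
    have e2 : ⁅c, d * η⁆ = ⁅c, d⁆ := by
      have := hη c⁻¹ (inv_mem hcP)
      simp only [commutatorElement_def, mul_inv_rev]
      calc c * (d * η) * c⁻¹ * (η⁻¹ * d⁻¹) = c * d * (η * c⁻¹) * η⁻¹ * d⁻¹ := by group
        _ = _ := by rw [← this]; group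
    rw [e1, e, e2]
    refine (mem_cent_iff_commute.1 ?_).symm
    rw [commutatorElement_def]
    exact mul_mem (mul_mem (mul_mem hc hd) (inv_mem hc)) (inv_mem hd)
  by_contra hne
  have hnil : Group.IsNilpotent P := P.2.isNilpotent
  have h6 : commutator P ≠ ⊥ := fun e => hne fun u hu => by
    have : ⁅(⟨u, hu⟩ : P), ⟨y, hy⟩⁆ ∈ commutator P :=
      commutator_mem_commutator (mem_top _) (mem_top _)
    rw [e, mem_bot, commutatorElement_eq_one_iff_mul_comm] at this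
    exact mem_cent.2 (congrArg Subtype.val this)
  obtain ⟨w, hw, hw1⟩ := (PG.inf_center_ne_bot _ h6 |> (bot_or_exists_ne_one _).resolve_left)
  have h7 : 𝐂[(w : G)].index = 1 := by
    obtain ⟨k, hk⟩ := exists_index_eq_pow_of_forall_mem (p := p) (K := 𝐂[(w : G)])
      fun q hq hqp g k hg => by
        have : commutator P ≤ 𝐂[g].subgroupOf P := by
          rw [commutator_def, commutator_le]
          intro u _ v _
          exact mem_cent_iff_commute.2 (key q k g hq hqp hg u u.2 v v.2).symm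
        exact mem_cent_comm.1 (this hw.1)
    have h8 : ¬ p ∣ 𝐂[(w : G)].index := not_dvd_index_of_sylow_le P fun u hu =>
      mem_cent.2 (congrArg Subtype.val (mem_center_iff.1 hw.2 ⟨u, hu⟩))
    rw [hk] at h8 ⊢
    rcases k with _ | k
    · rfl
    · exact absurd (dvd_pow_self p k.succ_ne_zero) h8
  obtain ⟨k, hk⟩ := exists_orderOf_eq_pow_of_mem P.2 w.2
  have h9 := (center G).orderOf_dvd_natCard (index_cent_eq_one_iff.1 h7)
  rw [hk] at h9
  rcases k with _ | k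
  · exact hw1 (Subtype.ext (orderOf_eq_one_iff.1 hk))
  · exact hZ ((dvd_pow_self p k.succ_ne_zero).trans h9)

theorem core {p : ℕ} [hp : Fact p.Prime] (hZ : ¬ p ∣ Nat.card (center G)) {y z : G}
    (hz : orderOf z = p) (hb : ¬ p ∣ 𝐂[z].index) (P : Sylow p G) (hP : (P : Subgroup G) ≤ 𝐂[z])
    (hy : y ∈ (P : Subgroup G)) (ha : p ∣ 𝐂[y].index) (hV : ∀ g : G, Commute (g * z * g⁻¹) z)
    (hE : ∀ g : G, p ∣ orderOf g → p ∣ 𝐂[g].index → 𝐂[g].index.Coprime 𝐂[z].index) : False := by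
  have hz1 : 𝐂[z].index ≠ 1 := fun e =>
    hZ (hz ▸ (center G).orderOf_dvd_natCard (index_cent_eq_one_iff.1 e))
  obtain ⟨hN, L, hL, hLP, hLC⟩ := sylow_direct_of_not_dvd_index (P.subtype hP) fun x hx hd => by
    have hc : Commute (x : G) z := mem_cent_iff_commute.1 x.2
    have hco : (orderOf (x : G)).Coprime (orderOf z) := by rwa [hz, orderOf_coe]
    have e := cent_mul_of_coprime hc hco
    have e1 : 𝐂[(x : G) * z].index = 𝐂[x].index * 𝐂[z].index := by
      rw [e, index_cent_subtype, ← inf_relIndex_right, relIndex_mul_index inf_le_right]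
    have := hE (x * z) (by rw [hc.orderOf_mul_eq_mul_orderOf_of_coprime hco, hz]; simp)
      (e1 ▸ hd.mul_right _)
    rw [e1] at this
    exact hz1 (Nat.eq_one_of_dvd_coprimes this (dvd_mul_left _ _) dvd_rfl)
  have hmem : ∀ x ∈ 𝐂[z], (∃ k, orderOf x = p ^ k) → x ∈ (P : Subgroup G) := fun x hx ⟨k, hk⟩ =>
    mem_sylow_of_normal (P.subtype hP) (x := ⟨x, hx⟩) (k := k) (by rw [← hk, ← orderOf_coe])
  have hdec : ∀ h ∈ 𝐂[z], ∃ c ∈ centralizer ((P : Subgroup G) : Set G), ∃ a ∈ (P : Subgroup G),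
      h = a * c := fun h hh => by
    obtain ⟨⟨a, c⟩, e⟩ := hLP.symm.2 ⟨h, hh⟩
    refine ⟨c, fun u hu => ?_, a, a.2, (congrArg Subtype.val e).symm⟩
    exact congrArg Subtype.val (hLC c.2 ⟨u, hP hu⟩ hu)
  set K := 𝐂[z].normalCore with hK
  have hord : ∀ x ∈ (P : Subgroup G), x ≠ 1 → p ∣ orderOf x := fun x hx h1 => by
    obtain ⟨k, hk⟩ := exists_orderOf_eq_pow_of_mem P.2 hx
    rcases k with _ | k
    · exact absurd (orderOf_eq_one_iff.1 hk) h1
    · rw [hk]; exact dvd_pow_self p k.succ_ne_zero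
  have hP0 : ∀ (P' : Sylow p G), ∀ w ∈ (P : Subgroup G), w ∈ K → w ∈ (P' : Subgroup G) := by
    intro P' w hw hwK
    obtain ⟨g, rfl⟩ := MulAction.exists_smul_eq G P P'
    rw [Sylow.coe_subgroup_smul, mem_pointwise_smul_iff_inv_smul_mem, ← map_inv,
      MulAut.smul_def, MulAut.conj_apply]
    refine hmem _ (hwK g⁻¹) ?_
    obtain ⟨k, hk⟩ := exists_orderOf_eq_pow_of_mem P.2 hw
    exact ⟨k, by rw [← hk, ← MulAut.conj_apply, MulEquiv.orderOf_eq]⟩
  have h1 : ∀ x ∈ (P : Subgroup G), x ∉ K → ¬ p ∣ 𝐂[x].index := fun x hx hxK hd => by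
    have hco := hE x (hord x hx fun e => hxK (e ▸ one_mem K)) hd
    refine hxK fun g => ?_
    obtain ⟨a, ha, b, hb, rfl⟩ := forall_mul_of_coprime_index hco.symm g
    have : a * b * x * (a * b)⁻¹ = a * x * a⁻¹ := by
      conv_rhs => rw [← mem_cent_iff_conj.1 hb]
      group
    rw [this]
    exact mul_mem (mul_mem ha (hP hx)) (inv_mem ha)
  have hyK : y ∈ K := by
    by_contra h
    exact h1 y hy h ha
  refine not_dvd_index_of_sylow_le P ?_ ha
  by_cases hPK : (P : Subgroup G) ≤ K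
  · have hPn : (P : Subgroup G).Normal := ⟨fun w hw g => by
      have := hP0 (g⁻¹ • P) w hw (hPK hw)
      rwa [Sylow.coe_subgroup_smul, mem_pointwise_smul_iff_inv_smul_mem, ← map_inv, inv_inv,
        MulAut.smul_def, MulAut.conj_apply] at this⟩
    refine normal_case hZ P (fun x hx hne g => ?_) hy
    have hd : p ∣ 𝐂[x].index := by
      by_contra hd
      obtain ⟨P', hP'⟩ := exists_sylow_le_of_not_dvd_index hd
      exact hne fun w hw => hP' (hP0 P' w hw (hPK hw))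
    have hco := hE x (hord x hx fun e => hne (by
      rw [e]; exact fun w _ => mem_cent.2 (by simp))) hd
    obtain ⟨h, hh, b, hb, rfl⟩ := forall_mul_of_coprime_index hco.symm g
    obtain ⟨c, hc, a, ha, rfl⟩ := hdec h hh
    refine ⟨a, ha, ?_⟩
    calc a * c * b * x * (a * c * b)⁻¹ = a * (c * (b * x * b⁻¹)) * c⁻¹ * a⁻¹ := by group
      _ = _ := by rw [mem_cent_iff_conj.1 hb, ← hc x hx]; group
  · have h2 : ∀ x ∈ (P : Subgroup G), x ∉ K → x ∈ 𝐂[y] := fun x hx hxK => by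
      obtain ⟨P', hP'⟩ := exists_sylow_le_of_not_dvd_index (h1 x hx hxK)
      exact mem_cent_comm.1 (hP' (hP0 P' y hy hyK))
    obtain ⟨x₀, hx₀, hx₀K⟩ := SetLike.not_le_iff_exists.1 hPK
    intro w hw
    by_cases hwK : w ∈ K
    · have := mul_mem (h2 _ (mul_mem hw hx₀) fun h => hx₀K ((K.mul_mem_cancel_left hwK).1 h))
        (inv_mem (h2 _ hx₀ hx₀K))
      rwa [mul_inv_cancel_right] at this
    · exact h2 w hw hwK

theorem exists_pow_prime {p : ℕ} (hp : p.Prime) {x : G} (h : p ∣ orderOf x) :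
    ∃ y ∈ zpowers x, orderOf y = p := by
  rw [← Nat.card_zpowers] at h
  exact exists_mem_orderOf_eq_prime hp h

theorem aux {p : ℕ} [hp : Fact p.Prime] (hZ : ¬ p ∣ Nat.card (center G)) {y z : G}
    (hy : orderOf y = p) (hz : orderOf z = p) (hb : ¬ p ∣ 𝐂[z].index)
    (hco : 𝐂[y].index.Coprime 𝐂[z].index)
    (hE : ∀ g : G, p ∣ orderOf g →
      𝐂[g].index.Coprime 𝐂[y].index ∨ 𝐂[g].index.Coprime 𝐂[z].index) : False := by
  obtain ⟨P, hP⟩ := exists_sylow_le_of_not_dvd_index hb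
  obtain ⟨y', hy', hyP⟩ : ∃ y', IsConj y y' ∧ y' ∈ (P : Subgroup G) := by
    obtain ⟨Q, hQ⟩ := exists_sylow_mem_of_pow_eq_one (p := p) (k := 1) (x := y) (by
      rw [pow_one, ← hy, pow_orderOf_eq_one])
    obtain ⟨g, rfl⟩ := MulAction.exists_smul_eq G Q P
    exact ⟨g * y * g⁻¹, isConj_iff.2 ⟨g, rfl⟩, smul_mem_pointwise_smul _ (MulAut.conj g) _ hQ⟩
  rw [index_cent_of_isConj hy'] at hco hE
  replace hy : orderOf y' = p := by
    obtain ⟨g, rfl⟩ := isConj_iff.1 hy'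
    rw [← hy, ← MulAut.conj_apply, MulEquiv.orderOf_eq]
  have hc : Commute y' z := mem_cent_iff_commute.1 (hP hyP)
  have hn : ∀ w : G, orderOf w = p → w ∉ center G := fun w hw e =>
    hZ (hw ▸ (center G).orderOf_dvd_natCard e)
  have h1 : y' * z ≠ 1 := fun e => by
    rw [eq_inv_of_mul_eq_one_left e, cent_inv] at hco
    exact hn z hz (index_cent_eq_one_iff.1 (Nat.eq_one_of_dvd_coprimes hco dvd_rfl dvd_rfl))
  have yp : y' ^ p = 1 := by rw [← hy, pow_orderOf_eq_one]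
  have zp : z ^ p = 1 := by rw [← hz, pow_orderOf_eq_one]
  have h2 : orderOf (y' * z) = p := orderOf_eq_prime (by rw [hc.mul_pow, yp, zp, one_mul]) h1
  have h3 : 𝐂[y' * z].index ∣ 𝐂[y'].index * 𝐂[z].index := by
    rw [← index_inf_of_coprime hco]
    exact index_dvd_of_le (inf_cent_le_cent_mul _ _)
  rcases hE (y' * z) (h2 ▸ dvd_rfl) with h | h
  · exact hb (kaz hp.out yp hco.symm (by rw [← hc.eq]; exact h.dvd_of_dvd_mul_left h3)
      (hn _ hy)).1
  · obtain ⟨h4, h5⟩ := kaz hp.out zp hco (h.dvd_of_dvd_mul_right h3) (hn _ hz)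
    refine core hZ hz hb P hP hyP h4 h5 fun g hg hd => (hE g hg).resolve_left fun h6 => ?_
    exact hp.out.one_lt.ne' (Nat.eq_one_of_dvd_coprimes h6 hd h4)

theorem main {p : ℕ} [hp : Fact p.Prime] (hZ : ¬ p ∣ Nat.card (center G)) {x x' : G}
    (hx : p ∣ orderOf x) (hx' : p ∣ orderOf x') :
    ∃ t u : ℕ, t.Prime ∧ u.Prime ∧ t ∣ 𝐂[x].index ∧ u ∣ 𝐂[x'].index ∧
      (t = u ∨ ∃ g : G, p ∣ orderOf g ∧ t * u ∣ 𝐂[g].index) := by
  by_contra! H
  obtain ⟨y, hy, hyp⟩ := exists_pow_prime hp.out hx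
  obtain ⟨z, hz, hzp⟩ := exists_pow_prime hp.out hx'
  have a1 := index_cent_dvd_of_mem_zpowers hy
  have a2 := index_cent_dvd_of_mem_zpowers hz
  have hco : 𝐂[y].index.Coprime 𝐂[z].index := Nat.coprime_of_dvd fun t ht h1 h2 =>
    (H t t ht ht (h1.trans a1) (h2.trans a2)).1 rfl
  have hE : ∀ g : G, p ∣ orderOf g →
      𝐂[g].index.Coprime 𝐂[y].index ∨ 𝐂[g].index.Coprime 𝐂[z].index := fun g hg => by
    by_contra! h
    obtain ⟨t, ht, h1, h2⟩ := Nat.Prime.not_coprime_iff_dvd.1 h.1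
    obtain ⟨u, hu, h3, h4⟩ := Nat.Prime.not_coprime_iff_dvd.1 h.2
    obtain ⟨h5, h6⟩ := H t u ht hu (h2.trans a1) (h4.trans a2)
    exact h6 g hg (((Nat.coprime_primes ht hu).2 h5).mul_dvd_of_dvd_of_dvd h1 h3)
  by_cases hb : p ∣ 𝐂[z].index
  · exact aux hZ hzp hyp (fun h => hp.out.one_lt.ne' (Nat.eq_one_of_dvd_coprimes hco h hb))
      hco.symm fun g hg => (hE g hg).symm
  · exact aux hZ hyp hzp hb hco hE

end

/-- Let `G` be a finite group and `p` a prime not dividing the order of the centre of `G`. Consider the primes dividing the size of some conjugacy class of a `p`-singular element (an element of order divisible by `p`), two of them adjacent when their product divides such a class size. Then any two distinct such primes are joined by a path with at most 3 edges (the graph is connected of diameter at most 3). -/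
theorem result {G : Type*} [Group G] [Finite G] (p : ℕ) [Fact p.Prime]
    (hZ : ¬ p ∣ Nat.card ↥(Subgroup.center G)) (r s : ℕ) (hr : (r.Prime ∧ ∃ x : G, p ∣ orderOf x ∧ r ∣ (Subgroup.centralizer ({x} : Set G)).index)) (hs : (s.Prime ∧ ∃ x : G, p ∣ orderOf x ∧ s ∣ (Subgroup.centralizer ({x} : Set G)).index)) (hrs : r ≠ s) :
    (∃ x : G, p ∣ orderOf x ∧ r * s ∣ (Subgroup.centralizer ({x} : Set G)).index) ∨ (∃ t : ℕ, (t.Prime ∧ ∃ x : G, p ∣ orderOf x ∧ t ∣ (Subgroup.centralizer ({x} : Set G)).index) ∧ t ≠ r ∧ t ≠ s ∧ (∃ x : G, p ∣ orderOf x ∧ r * t ∣ (Subgroup.centralizer ({x} : Set G)).index) ∧ (∃ x : G, p ∣ orderOf x ∧ t * s ∣ (Subgroup.centralizer ({x} : Set G)).index)) ∨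
      (∃ t u : ℕ, (t.Prime ∧ ∃ x : G, p ∣ orderOf x ∧ t ∣ (Subgroup.centralizer ({x} : Set G)).index) ∧ (u.Prime ∧ ∃ x : G, p ∣ orderOf x ∧ u ∣ (Subgroup.centralizer ({x} : Set G)).index) ∧ t ≠ r ∧ u ≠ s ∧ t ≠ u ∧ (∃ x : G, p ∣ orderOf x ∧ r * t ∣ (Subgroup.centralizer ({x} : Set G)).index) ∧ (∃ x : G, p ∣ orderOf x ∧ t * u ∣ (Subgroup.centralizer ({x} : Set G)).index) ∧ (∃ x : G, p ∣ orderOf x ∧ u * s ∣ (Subgroup.centralizer ({x} : Set G)).index)) := by
  obtain ⟨hrp, x, hx, hrx⟩ := hr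
  obtain ⟨hsp, x', hx', hsx⟩ := hs
  have mu : ∀ {a b n : ℕ}, a.Prime → b.Prime → a ≠ b → a ∣ n → b ∣ n → a * b ∣ n :=
    fun ha hb h h1 h2 => ((Nat.coprime_primes ha hb).2 h).mul_dvd_of_dvd_of_dvd h1 h2
  obtain ⟨t, u, ht, hu, h1, h2, h3⟩ := main hZ hx hx'
  by_cases htu : t = u
  · subst htu
    by_cases e1 : t = r
    · subst e1
      exact Or.inl ⟨x', hx', mu ht hsp hrs h2 hsx⟩
    by_cases e2 : t = s
    · subst e2
      exact Or.inl ⟨x, hx, mu hrp ht hrs hrx h1⟩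
    exact Or.inr (Or.inl ⟨t, ⟨ht, x, hx, h1⟩, e1, e2, ⟨x, hx, mu hrp ht (Ne.symm e1) hrx h1⟩,
      x', hx', mu ht hsp e2 h2 hsx⟩)
  obtain ⟨g, hg, h4⟩ := h3.resolve_left htu
  by_cases e1 : t = r
  · subst e1
    by_cases e2 : u = s
    · subst e2
      exact Or.inl ⟨g, hg, h4⟩
    exact Or.inr (Or.inl ⟨u, ⟨hu, x', hx', h2⟩, Ne.symm htu, e2, ⟨g, hg, h4⟩,
      x', hx', mu hu hsp e2 h2 hsx⟩)
  by_cases e2 : u = s
  · subst e2
    exact Or.inr (Or.inl ⟨t, ⟨ht, x, hx, h1⟩, e1, htu, ⟨x, hx, mu hrp ht (Ne.symm e1) hrx h1⟩,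
      g, hg, h4⟩)
  exact Or.inr (Or.inr ⟨t, u, ⟨ht, x, hx, h1⟩, ⟨hu, x', hx', h2⟩, e1, e2, htu,
    ⟨x, hx, mu hrp ht (Ne.symm e1) hrx h1⟩, ⟨g, hg, h4⟩, x', hx', mu hu hsp e2 h2 hsx⟩)

end Cfsg.Agent.S4321
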