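import Cfsg.Statements.S4323
import Cfsg.Agent.Solv.AbCentMain
import Cfsg.Agent.Solv.ActionTransport

set_option autoImplicit false
open Cfsg

namespace Cfsg.Agent.S4323

open Cfsg.Lib.Solv Subgroup in
/-- Let `q` be a prime and `A` a non-cyclic group of order `q²` acting by automorphisms on a finite group `G` of order prime to `q`, such that the fixed-point subgroup `C_G(a)` is abelian for every non-identity `a ∈ A`. Then `G` is solvable. -/
theorem result {A G : Type*} [Group A] [Finite A]
    [Group G] [Finite G] [MulDistribMulAction A G] (q : ℕ) (hq : q.Prime) (hA : Nat.card A = q ^ 2) (hnc : ¬ IsCyclic A)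
    (hcop : ¬ q ∣ Nat.card G) (h : ∀ a : A, a ≠ 1 → IsMulCommutative ↥(FixedPoints.subgroup (Subgroup.zpowers a) G)) :
    Group.IsSolvable G := by
  have : Fact q.Prime := ⟨hq⟩
  let φ : A →* MulAut G := MulDistribMulAction.toMulAut A G
  have h1 := AbCent.Ctx.solvable (r := q) (A := Act.R φ ⊤) (G := Act.L φ ⊤)
    ⟨by rw [Act.card_R_top, hA], fun e => hnc (isCyclic_of_surjective (topEquiv (G := A))
      topEquiv.surjective (hH := Act.isCyclic_R.1 e)), Act.R_le_normalizer_L_top ⊤,
      by rwa [Act.card_L_top], by
      rintro _ ⟨a, -, rfl⟩ ha1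
      have e : (⊤ : Subgroup G) ⊓ Act.fix φ (zpowers a) = FixedPoints.subgroup (zpowers a) G := by
        ext x
        rw [top_inf_eq, Act.mem_fix, FixedPoints.mem_subgroup]
        exact ⟨fun h b => h b b.2, fun h b hb => h ⟨b, hb⟩⟩
      have := h a fun h1 => ha1 (by rw [h1, map_one])
      rw [Act.L_inf_centralizer_inr, e]
      infer_instance⟩
  have := Act.isSolvable_L.1 h1
  exact Group.isSolvable_of_surjective (f := (topEquiv (G := G)).toMonoidHom) topEquiv.surjective

end Cfsg.Agent.S4323
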