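import Cfsg.Statements.S4421
-- import your own Cfsg.Agent.* helpers here

set_option autoImplicit false
open Cfsg

namespace Cfsg.Agent.S4421

/-- A factorization of a normalizer from two-step control of fusion. Let `G` be a finite group and `A ≤ S ≤ H` subgroups of `G` such that: (i) `S` controls the `G`-fusion of `A` in the sense that every `G`-conjugate of `A` lying in `S` is an `S`-conjugate of `A`; (ii) `H` controls the `G`-fusion of `S` in the same sense; (iii) every conjugate of `S` by an element of the normalizer of `A` lies in `H`. Then `N_G(A) = N_H(A) · (N_G(S) ∩ N_G(A))`: every element of the normalizer of `A` is a product of an element of `H` normalizing `A` and an element normalizing both `S` and `A`. -/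
theorem result {G : Type*} [Group G] [Finite G] (A S H : Subgroup G)
    (hAS : A ≤ S) (hSH : S ≤ H)
    (h1 : ∀ g : G, A.map (MulAut.conj g).toMonoidHom ≤ S → ∃ s ∈ S, A.map (MulAut.conj g).toMonoidHom = A.map (MulAut.conj s).toMonoidHom)
    (h2 : ∀ g : G, S.map (MulAut.conj g).toMonoidHom ≤ H → ∃ y ∈ H, S.map (MulAut.conj g).toMonoidHom = S.map (MulAut.conj y).toMonoidHom)
    (h3 : ∀ x ∈ Subgroup.normalizer (A : Set G), S.map (MulAut.conj x).toMonoidHom ≤ H) :
    ∀ x ∈ Subgroup.normalizer (A : Set G), ∃ y ∈ H ⊓ Subgroup.normalizer (A : Set G),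
      ∃ z ∈ Subgroup.normalizer (S : Set G) ⊓ Subgroup.normalizer (A : Set G), x = y * z := by
  have hmem : ∀ (K : Subgroup G) (g y : G), y ∈ K.map (MulAut.conj g).toMonoidHom ↔ g⁻¹ * y * g ∈ K := by
    intro K g y
    constructor
    · rintro ⟨k, hk, rfl⟩
      simpa [mul_assoc] using hk
    · intro h
      exact ⟨_, h, by simp [mul_assoc]⟩
  intro x hx
  obtain ⟨y, hy, hxy⟩ := h2 x (h3 x hx)
  have hxy' : ∀ u, x⁻¹ * u * x ∈ S ↔ y⁻¹ * u * y ∈ S := fun u => by rw [← hmem, hxy, hmem]
  have hx' := Subgroup.mem_normalizer_iff''.mp hx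
  obtain ⟨s, hs, hys⟩ := h1 y⁻¹ (fun u hu => by
    rw [hmem, inv_inv] at hu
    have := (hxy' _).mp (hAS ((hx' _).mp hu))
    simpa [mul_assoc] using this)
  have hys' : ∀ u, y * u * y⁻¹ ∈ A ↔ s⁻¹ * u * s ∈ A := fun u => by
    rw [← hmem, ← hys, hmem, inv_inv]
  have hN : y * s ∈ Subgroup.normalizer (A : Set G) := by
    rw [Subgroup.mem_normalizer_iff]
    intro u
    have := hys' (s * u * s⁻¹)
    simpa [mul_assoc] using this.symm
  refine ⟨y * s, ⟨H.mul_mem hy (hSH hs), hN⟩, (y * s)⁻¹ * x, Subgroup.mem_inf.mpr ⟨?_, mul_mem (inv_mem hN) hx⟩, by group⟩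
  rw [mul_inv_rev, mul_assoc]
  refine mul_mem (Subgroup.le_normalizer (S.inv_mem hs)) ?_
  rw [Subgroup.mem_normalizer_iff]
  intro u
  have := hxy' (x * u * x⁻¹)
  simpa [mul_assoc] using this

end Cfsg.Agent.S4421
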