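import Cfsg.Statements.S4422
-- import your own Cfsg.Agent.* helpers here

set_option autoImplicit false
open Cfsg

namespace Cfsg.Agent.S4422

/-- Primitive divisors of `q^e - 1` are congruent to 1 modulo `e`. Let `q ≥ 2` and `e ≥ 1` be natural numbers and let `m` be a divisor of `q^e - 1` that is coprime to `q^i - 1` for every `1 ≤ i < e` (so `m` divides the primitive part of `q^e - 1`, the largest such divisor). Then `m ≡ 1 (mod e)`. -/
theorem result (q e m : ℕ) (hq : 2 ≤ q) (he : 1 ≤ e)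
    (hm : m ∣ q ^ e - 1) (hcop : ∀ i : ℕ, 1 ≤ i → i < e → Nat.Coprime m (q ^ i - 1)) :
    m % e = 1 % e := by
  have hpos : 0 < q ^ e - 1 := Nat.sub_pos_of_lt (Nat.one_lt_pow (by omega) (by omega))
  have hm0 : m ≠ 0 := by
    rintro rfl
    exact hpos.ne' (Nat.eq_zero_of_zero_dvd hm)
  have key : ∀ r : ℕ, r.Prime → r ∣ m → r ≡ 1 [MOD e] := by
    intro r hr hrm
    have := Fact.mk hr
    have hcast : ∀ i : ℕ, (q : ZMod r) ^ i = 1 ↔ r ∣ q ^ i - 1 := by
      intro i
      rw [← Nat.modEq_iff_dvd' (Nat.one_le_pow _ _ (by omega)), ← ZMod.natCast_eq_natCast_iff,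
        Nat.cast_pow, Nat.cast_one, eq_comm]
    have h1 : (q : ZMod r) ^ e = 1 := (hcast e).mpr (hrm.trans hm)
    have h2 : orderOf (q : ZMod r) = e := by
      rw [orderOf_eq_iff (by omega)]
      refine ⟨h1, fun i hi hi0 h => ?_⟩
      have := Nat.dvd_gcd hrm ((hcast i).mp h)
      rw [hcop i hi0 hi] at this
      exact hr.one_lt.ne' (Nat.dvd_one.mp this)
    have h3 : (q : ZMod r) ≠ 0 := by
      intro h
      rw [h, zero_pow (by omega)] at h1
      exact zero_ne_one h1
    have h4 := ZMod.orderOf_dvd_card_sub_one h3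
    rw [h2] at h4
    exact ((Nat.modEq_iff_dvd' hr.one_lt.le).mpr h4).symm
  clear hm hcop
  induction m using Nat.recOnMul with
  | zero => exact absurd rfl hm0
  | one => rfl
  | prime r hr => exact key r hr dvd_rfl
  | mul a b iha ihb =>
    have h1 : a ≡ 1 [MOD e] := iha (left_ne_zero_of_mul hm0) fun r hr h => key r hr (h.mul_right b)
    have h2 : b ≡ 1 [MOD e] := ihb (right_ne_zero_of_mul hm0) fun r hr h => key r hr (h.mul_left a)
    exact h1.mul h2

end Cfsg.Agent.S4422
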