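import Cfsg.Statements.S4423
import Cfsg.Agent.S3430

set_option autoImplicit false
open Cfsg

namespace Cfsg.Agent.S4423

open Cfsg.Lib.Class Finset Cfsg.Agent.S3430

theorem two_pow_le_cyc_sq' {n q : ℕ} (hn : 2 < n) (hq : 2 ≤ q) :
    2 ^ n.totient ≤ cyc n q ^ 2 := by
  rcases Nat.even_or_odd n with he | ho
  · exact two_pow_le_cyc_sq hn he hq
  rcases eq_or_lt_of_le hq with rfl | hq3
  swap
  · have h1 := sub_one_pow_totient_lt_cyc (n := n) (a := q) (by omega) (by omega)
    have h2 : 2 ^ n.totient ≤ (q - 1) ^ n.totient := Nat.pow_le_pow_left (by omega) _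
    exact (h2.trans h1.le).trans (Nat.le_self_pow two_ne_zero _)
  obtain ⟨r, hr, hrm⟩ := Nat.exists_prime_and_dvd (n := n) (by omega)
  have hr3 : 3 ≤ r := by
    have := hr.two_le
    have : r ≠ 2 := by
      rintro rfl
      exact absurd (even_iff_two_dvd.2 hrm) (Nat.not_even_iff_odd.2 ho)
    omega
  obtain ⟨k, hk⟩ : r ∣ n := hrm
  rw [mul_comm] at hk
  have hk0 : 0 < k := Nat.pos_of_mul_pos_right (by rw [← hk]; omega)
  rw [hk]
  by_cases hrk : r ∣ k
  · exact two_pow_le_of_sq_dvd hr hk0 hrk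
  have h3 := cyc_mul_prime_of_not_dvd hr hrk 2
  have h2 : 2 ^ 2 ≤ 2 ^ r := Nat.pow_le_pow_right (by omega) hr.two_le
  have h4 := sub_one_pow_totient_le_cyc (a := 2 ^ r) hk0 (by omega)
  have h5 := cyc_le_add_one_pow_totient k (a := 2) (by omega)
  rw [mul_comm k r, Nat.totient_mul_of_prime_of_not_dvd hr hrk, pow_mul, mul_comm r k]
  have h6 : (9 * 2 ^ (r - 1)) ^ k.totient ≤ ((2 ^ r - 1) ^ k.totient) ^ 2 := by
    rw [← pow_mul, mul_comm k.totient, pow_mul]
    exact Nat.pow_le_pow_left (nine_mul_le hr3) _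
  have h7 : ((2 ^ r - 1) ^ k.totient) ^ 2 ≤ (cyc (k * r) 2 * 3 ^ k.totient) ^ 2 :=
    Nat.pow_le_pow_left (h4.trans (h3 ▸ Nat.mul_le_mul_left _ h5)) 2
  have h8 : (3 ^ k.totient) ^ 2 = 9 ^ k.totient := by
    rw [← pow_mul, mul_comm, pow_mul]
    rfl
  have h9 := h6.trans h7
  rw [mul_pow, mul_pow, h8, mul_comm] at h9
  exact Nat.le_of_mul_le_mul_right h9 (by positivity)

theorem poly_lt_two_pow' {t : ℕ} (h : 37 ≤ t) : ((t + 1) * (6 * t ^ 2)) ^ 2 < 2 ^ t := by
  induction t, h using Nat.le_induction with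
  | base => decide
  | succ n hn ih =>
    have h1 : 10 * ((n + 1 + 1) * (6 * (n + 1) ^ 2)) ≤ 14 * ((n + 1) * (6 * n ^ 2)) := by
      obtain ⟨s, rfl⟩ : ∃ s, n = s + 37 := ⟨n - 37, by omega⟩
      nlinarith [Nat.zero_le (s ^ 3), Nat.zero_le (s ^ 2)]
    have h2 := Nat.pow_le_pow_left h1 2
    rw [mul_pow 10, mul_pow 14] at h2
    rw [pow_succ 2 n]
    omega

theorem cnt_big' : ∀ j < 2400, Nat.ble 37 (cnt (j + 200) 100) = true := by
  decide +kernel

/-- The finite check. -/
def Q (n q : ℕ) : Prop := 2 < n → 2 ≤ q → cycF q 8 n / Nat.gcd (cycF q 8 n) n ≤ 3 * n →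
    (q, n) ∈ [(2, 6), (2, 4), (2, 10), (2, 12), (2, 18), (3, 4), (3, 6), (5, 6), (2, 3), (2, 8),
      (2, 20), (4, 3), (4, 6)]

instance decQ (n q : ℕ) : Decidable (Q n q) := by unfold Q; infer_instance

theorem check' : ∀ n < 200, ∀ q < 20, Q n q := by
  decide +kernel

theorem le_of_dvd_mul {q e m A : ℕ} (h : q ^ e - 1 ∣ A * (∏ i ∈ Ico 1 e, (q ^ i - 1)) ^ 2)
    (hA : 0 < A) (hm : m ∣ q ^ e - 1) (hc : ∀ i : ℕ, 1 ≤ i → i < e → Nat.Coprime m (q ^ i - 1)) :
    m ≤ A := by
  refine Nat.le_of_dvd hA (Nat.Coprime.dvd_of_dvd_mul_right ?_ (hm.trans h))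
  refine Nat.Coprime.pow_right _ (Nat.Coprime.prod_right fun i hi => ?_)
  rw [mem_Ico] at hi
  exact hc i hi.1 hi.2

/-- Size of the primitive part of `q^e - 1`. For a prime power `q` and `e ≥ 3`, call a divisor of `q^e - 1` primitive when it is coprime to `q^i - 1` for every `1 ≤ i < e`; the primitive part is the largest primitive divisor. Apart from thirteen exceptional pairs, the primitive part is at least `3e + 1`: there is a primitive divisor `m ≥ 3e + 1` unless `(q, e)` is `(2, 6)` (where every primitive divisor is 1), one of `(2,4), (2,10), (2,12), (2,18), (3,4), (3,6), (5,6)` (where the primitive part is exactly `e + 1`), or one of `(2,3), (2,8), (2,20), (4,3), (4,6)` (where it is exactly `2e + 1`). The statement asserts the existence of a primitive divisor `m ≥ 3e + 1` outside the thirteen pairs, and that every primitive divisor is at most `2e + 1` for the thirteen pairs. -/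
theorem result (q e : ℕ) (hq : IsPrimePow q) (he : 3 ≤ e) :
    ((q, e) ∉ [(2, 6), (2, 4), (2, 10), (2, 12), (2, 18), (3, 4), (3, 6), (5, 6), (2, 3), (2, 8), (2, 20), (4, 3), (4, 6)] →
      ∃ m : ℕ, m ∣ q ^ e - 1 ∧ (∀ i : ℕ, 1 ≤ i → i < e → Nat.Coprime m (q ^ i - 1)) ∧ 3 * e + 1 ≤ m) ∧
    ((q, e) ∈ [(2, 6), (2, 4), (2, 10), (2, 12), (2, 18), (3, 4), (3, 6), (5, 6), (2, 3), (2, 8), (2, 20), (4, 3), (4, 6)] →
      ∀ m : ℕ, m ∣ q ^ e - 1 → (∀ i : ℕ, 1 ≤ i → i < e → Nat.Coprime m (q ^ i - 1)) → m ≤ 2 * e + 1) := by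
  have hq2 : 2 ≤ q := hq.two_le
  constructor
  · intro hex
    set n := e with hn
    have hn2 : 2 < n := by omega
    have hpos := cyc_pos n (a := q) (by omega)
    have hg : Nat.gcd (cyc n q) n ∣ cyc n q := Nat.gcd_dvd_left _ _
    have hmul : cyc n q / Nat.gcd (cyc n q) n * Nat.gcd (cyc n q) n = cyc n q :=
      Nat.div_mul_cancel hg
    refine ⟨cyc n q / Nat.gcd (cyc n q) n, (Nat.div_dvd_of_dvd hg).trans
      (cyc_dvd_pow_sub_one n (by omega)), fun i hi hin => ?_, ?_⟩
    · refine Nat.coprime_of_dvd fun s hs h1 h2 => ?_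
      have h3 : s ∣ cyc n q := h1.trans (Nat.div_dvd_of_dvd hg)
      rcases prime_dvd_cyc hs (by omega) (by omega) h3 with h4 | ⟨k, m, hk, h4, -, -⟩
      · exact ((orderOf_eq_iff_primitive (by omega) (by omega)).1 h4).2 i (by omega) hin h2
      · have h5 : s ∣ n := by rw [h4]; exact (dvd_pow_self s hk.ne').mul_right _
        refine not_sq_dvd_cyc hs hn2 h5 (a := q) (by omega) ?_
        rw [← hmul, pow_two]
        exact Nat.mul_dvd_mul h1 (Nat.dvd_gcd h3 h5)
    · by_contra hlt
      have hle0 : cyc n q / Nat.gcd (cyc n q) n ≤ 3 * n := by omega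
      obtain ⟨r, hr, hrn, hrmax⟩ : ∃ r : ℕ, r.Prime ∧ r ∣ n ∧
          ∀ s : ℕ, s.Prime → s ∣ n → s ≤ r := by
        obtain ⟨r, hr, h⟩ := n.primeFactors.exists_max_image id
          (Nat.nonempty_primeFactors.2 (by omega))
        exact ⟨r, Nat.prime_of_mem_primeFactors hr, Nat.dvd_of_mem_primeFactors hr,
          fun s hs hs' => h s (Nat.mem_primeFactors.2 ⟨hs, hs', by omega⟩)⟩
      have hgr : Nat.gcd (cyc n q) n ∣ r := by
        refine dvd_of_forall_prime_of_not_sq_dvd (fun s hs h => ?_) fun s hs h => ?_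
        · exact not_sq_dvd_cyc hs hn2 (((dvd_pow_self s two_ne_zero).trans h).trans
            (Nat.gcd_dvd_right _ _)) (a := q) (by omega) (h.trans hg)
        · have h5 : s ∣ n := h.trans (Nat.gcd_dvd_right _ _)
          rcases prime_dvd_cyc hs (by omega) (by omega) (h.trans hg) with h4 | ⟨k, m, hk, h4, -, hm⟩
          · have h6 := orderOf_dvd_prime_sub_one hs (a := q) (by omega)
            rw [h4] at h6
            have := Nat.le_of_dvd (by have := hs.two_le; omega) h6
            have := Nat.le_of_dvd (by omega) h5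
            have := hs.two_le
            omega
          · rw [le_antisymm (hrmax s hs h5) (prime_le_of_dvd_pow_mul hs hr hm (h4 ▸ hrn))]
      have hle' : cyc n q ≤ r * (3 * n) := by
        rw [← hmul, mul_comm]
        exact Nat.mul_le_mul (Nat.le_of_dvd hr.pos hgr) hle0
      have h5 := two_pow_le_cyc_sq' hn2 hq2
      have h6 := sub_one_le_totient_of_prime_dvd hr (by omega) hrn
      have h7 := (le_totient_sq n).2
      have h8 : n.totient < 37 := by
        by_contra h
        have h9 := poly_lt_two_pow' (not_lt.1 h)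
        have h10 : r * (3 * n) ≤ (n.totient + 1) * (6 * n.totient ^ 2) :=
          Nat.mul_le_mul (by omega) (by omega)
        have := Nat.pow_le_pow_left (hle'.trans h10) 2
        omega
      have h9 : n < 200 := by
        by_contra h
        have h12 : n.totient ^ 2 ≤ 36 ^ 2 := Nat.pow_le_pow_left (by omega) 2
        have h10 := Nat.le_of_ble_eq_true (cnt_big' (n - 200) (by omega))
        have h11 := cnt_le_totient (n := n) (m := 100) (by omega)
        rw [show n - 200 + 200 = n by omega] at h10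
        omega
      have hrle : r ≤ n := Nat.le_of_dvd (by omega) hrn
      have h10 : q < 20 := by
        by_contra h
        have h11 := sub_one_pow_totient_lt_cyc (n := n) (a := q) (by omega) (by omega)
        have h12 : 19 ^ n.totient ≤ (q - 1) ^ n.totient := Nat.pow_le_pow_left (by omega) _
        have h13 : r * (3 * n) ≤ n * (3 * n) := Nat.mul_le_mul_right _ hrle
        by_cases h14 : 6 < n
        · have h15 : 19 ^ 4 ≤ 19 ^ n.totient :=
            Nat.pow_le_pow_right (by omega) (totient_four n h14)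
          have h16 : n * (3 * n) ≤ 200 * 600 := Nat.mul_le_mul (by omega) (by omega)
          omega
        · have h15 : 2 ≤ n.totient := by
            have : n = 3 ∨ n = 4 ∨ n = 5 ∨ n = 6 := by omega
            rcases this with h | h | h | h <;> rw [h] <;> decide
          have h16 : 19 ^ 2 ≤ 19 ^ n.totient := Nat.pow_le_pow_right (by omega) h15
          have h17 : n * (3 * n) ≤ 6 * 18 := Nat.mul_le_mul (by omega) (by omega)
          omega
      exact hex (check' n h9 q h10 hn2 hq2 (by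
        rw [cycF_eq (by omega) 8 n (by omega) (by omega)]
        exact hle0))
  · intro hex m hm hc
    simp only [List.mem_cons, Prod.mk.injEq, List.not_mem_nil, or_false] at hex
    rcases hex with ⟨rfl, rfl⟩ | ⟨rfl, rfl⟩ | ⟨rfl, rfl⟩ | ⟨rfl, rfl⟩ | ⟨rfl, rfl⟩ | ⟨rfl, rfl⟩ |
      ⟨rfl, rfl⟩ | ⟨rfl, rfl⟩ | ⟨rfl, rfl⟩ | ⟨rfl, rfl⟩ | ⟨rfl, rfl⟩ | ⟨rfl, rfl⟩ | ⟨rfl, rfl⟩
    · exact (le_of_dvd_mul (A := 1) (by decide +kernel) (by omega) hm hc).trans (by omega)
    · exact (le_of_dvd_mul (A := 5) (by decide +kernel) (by omega) hm hc).trans (by omega)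
    · exact (le_of_dvd_mul (A := 11) (by decide +kernel) (by omega) hm hc).trans (by omega)
    · exact (le_of_dvd_mul (A := 13) (by decide +kernel) (by omega) hm hc).trans (by omega)
    · exact (le_of_dvd_mul (A := 19) (by decide +kernel) (by omega) hm hc).trans (by omega)
    · exact (le_of_dvd_mul (A := 5) (by decide +kernel) (by omega) hm hc).trans (by omega)
    · exact (le_of_dvd_mul (A := 7) (by decide +kernel) (by omega) hm hc).trans (by omega)
    · exact (le_of_dvd_mul (A := 7) (by decide +kernel) (by omega) hm hc).trans (by omega)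
    · exact (le_of_dvd_mul (A := 7) (by decide +kernel) (by omega) hm hc).trans (by omega)
    · exact (le_of_dvd_mul (A := 17) (by decide +kernel) (by omega) hm hc).trans (by omega)
    · exact (le_of_dvd_mul (A := 41) (by decide +kernel) (by omega) hm hc).trans (by omega)
    · exact (le_of_dvd_mul (A := 7) (by decide +kernel) (by omega) hm hc).trans (by omega)
    · exact (le_of_dvd_mul (A := 13) (by decide +kernel) (by omega) hm hc).trans (by omega)

end Cfsg.Agent.S4423
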