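import Cfsg.Statements.S4425
import Cfsg.Agent.Block.RSpan
import Cfsg.Agent.Block.PrincBasic

set_option autoImplicit false
open Cfsg

namespace Cfsg.Agent.S4425

open Cfsg.Lib.Char Cfsg.Lib.Block.Loc Cfsg.Lib.Block.Ht

/-- Let χ be an irreducible character of the finite group G, p a prime, p^a the p-part of the order of G and p^b the p-part of the degree χ(1). Let χ̃ be the class function equal to p^a · χ on p-regular elements and zero on p-singular elements. Then p^(−b) · χ̃ is a generalized character of G, while p^(−(b+1)) · χ̃ is not. -/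
theorem result {G : Type*} [Group G] [Finite G] (p : ℕ) [Fact p.Prime] (χ : Cfsg.IrrCharacter G) : Cfsg.IsGeneralizedCharacter G (fun x : G => if p ∣ orderOf x then (0 : ℂ) else ((p ^ ((Nat.card G).factorization p - (Cfsg.charDegree (χ : G → ℂ)).factorization p) : ℕ) : ℂ) * (χ : G → ℂ) x) ∧ ¬ Cfsg.IsGeneralizedCharacter G (fun x : G => if p ∣ orderOf x then (0 : ℂ) else ((p ^ (Nat.card G).factorization p : ℕ) : ℂ) / ((p ^ ((Cfsg.charDegree (χ : G → ℂ)).factorization p + 1) : ℕ) : ℂ) * (χ : G → ℂ) x) := by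
  have := Fintype.ofFinite G
  have hp : p.Prime := Fact.out
  have hp0 : (p : ℂ) ≠ 0 := by exact_mod_cast hp.ne_zero
  obtain ⟨M, hM⟩ := Cfsg.Lib.Block.Princ.exists_isPModular hp
  have hle := factorization_charDegree_le p χ.2
  set a := (Nat.card G).factorization p with ha
  set b := (charDegree (χ : G → ℂ)).factorization p with hb
  rw [tilde_eq, tilde_eq]
  constructor
  · refine isGeneralizedCharacter_iff_classInner.2
      ⟨(isClassFunction_reg p χ.2.isClassFunction).smul _, fun ψ hψ => ?_⟩
    obtain ⟨n, hn, hc⟩ := exists_int_cc_mul (p := p) hp hψ.isGeneralizedCharacter χ.2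
    have hr := ring_cc_char hM hψ.isCharacter χ.2
    rw [classInner_smul_left, classInner_reg_symm p hψ.isCharacter.apply_inv
      χ.2.isCharacter.apply_inv] at hn
    have hd : ((p : ℤ) ^ b) ∣ n := by
      by_cases hn0 : n = 0
      · rw [hn0]; exact dvd_zero _
      · rw [hc, ring_intCast_div_iff hM hn0 (charDegree_ne_zero χ.2)] at hr
        exact (padicValInt_dvd_iff b n).2 (Or.inr hr)
    obtain ⟨m, rfl⟩ := hd
    refine ⟨m, ?_⟩
    rw [classInner_smul_left]
    refine mul_left_cancel₀ (pow_ne_zero b hp0) ?_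
    rw [← mul_assoc]
    push_cast at hn ⊢
    rw [← pow_add, Nat.add_sub_cancel' hle, hn]
  · intro h
    obtain ⟨P⟩ : Nonempty (Sylow p G) := inferInstance
    have hP := isCharacter_indFun_one (P : Subgroup G)
    obtain ⟨n, hn⟩ := h.exists_int_classInner hP.isGeneralizedCharacter
    have h1 := cc_indFun_sylow_one P χ.2.apply_one_ne_zero
    rw [cc_eq p _ χ.2.isCharacter.apply_inv, classInner_reg_symm p hP.apply_inv
      χ.2.isCharacter.apply_inv, div_eq_one_iff_eq χ.2.apply_one_ne_zero] at h1
    rw [classInner_smul_left, div_mul_eq_mul_div] at hn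
    push_cast at hn
    rw [h1, ← cast_charDegree_irr, div_eq_iff (pow_ne_zero _ hp0)] at hn
    have h2 : ((charDegree (χ : G → ℂ) : ℕ) : ℤ) = n * (p : ℤ) ^ (b + 1) := by exact_mod_cast hn
    have h3 : p ^ (b + 1) ∣ charDegree (χ : G → ℂ) := by
      rw [← Int.natCast_dvd_natCast, h2]
      push_cast
      exact dvd_mul_left _ _
    rw [hp.pow_dvd_iff_le_factorization (charDegree_ne_zero χ.2)] at h3
    omega

end Cfsg.Agent.S4425
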