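import Cfsg.Statements.S4427
import Cfsg.Agent.Block.PimBasis
import Cfsg.Agent.Block.PrincBasic

set_option autoImplicit false
open Cfsg

namespace Cfsg.Agent.S4427

open Cfsg.Lib.Char Cfsg.Lib.Block Cfsg.Lib.Block.Pim
open scoped ComplexConjugate

/-- The principal indecomposable character is a constituent of every permutation character on the
cosets of a `p'`-subgroup. -/
theorem exists_Phi {G : Type*} [Group G] [Fintype G] {p : ℕ} (hp : p.Prime) :
    ∃ (Φ : G → ℂ) (d : IrrCharacter G → ℕ), IsCharacter G Φ ∧ (∀ g, p ∣ orderOf g → Φ g = 0) ∧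
      classInner Φ (fun _ => 1) = 1 ∧ (∀ χ : IrrCharacter G, classInner Φ χ = d χ) ∧
      ∀ H : Subgroup G, ¬ p ∣ Nat.card H → ∀ (χ : IrrCharacter G) (m : ℕ),
        classInner (indFun H fun _ => 1) χ = m → d χ ≤ m := by
  classical
  obtain ⟨M, hM⟩ := Princ.exists_isPModular hp
  set B := principalBlock M G with hBdef
  have hB : IsPBlock M B := Princ.isPBlock_principalBlock
  have h1B : Princ.triv G ∈ B := Princ.triv_mem_principalBlock hM
  have hsum : ∀ (n : PIM M B → ℕ) (χ : IrrCharacter G),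
      classInner (∑ Φ : PIM M B, (n Φ : ℂ) • (Φ : G → ℂ)) χ = ((∑ Φ, n Φ * dec χ Φ : ℕ) : ℂ) := by
    intro n χ
    rw [classInner_sum_left]
    push_cast
    refine Finset.sum_congr rfl fun Φ _ => ?_
    rw [classInner_smul_left, dec_cast]
  obtain ⟨s, hs, hreg⟩ := exists_sdim hM hB
  have h1 : ∑ Φ : PIM M B, s Φ * dec (Princ.triv G) Φ = 1 := by
    have h := hsum s (Princ.triv G)
    rw [← hreg, classInner_sum_irrFin (fun χ : IrrCharacter G => (χ : G → ℂ) 1) h1B,
      Princ.triv_apply] at h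
    exact_mod_cast h.symm
  obtain ⟨Φ₁, hΦ₁⟩ : ∃ Φ : PIM M B, dec (Princ.triv G) Φ ≠ 0 := by
    by_contra h
    push Not at h
    simp [h] at h1
  have hsplit := Finset.add_sum_erase Finset.univ
    (fun Φ : PIM M B => s Φ * dec (Princ.triv G) Φ) (Finset.mem_univ Φ₁)
  rw [h1] at hsplit
  have hpos : 1 ≤ s Φ₁ * dec (Princ.triv G) Φ₁ := Nat.mul_pos (hs _) (Nat.pos_of_ne_zero hΦ₁)
  have hd1 : dec (Princ.triv G) Φ₁ = 1 := by
    have : s Φ₁ * dec (Princ.triv G) Φ₁ = 1 := by omega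
    exact Nat.eq_one_of_mul_eq_one_left this
  have hd0 : ∀ Φ : PIM M B, Φ ≠ Φ₁ → dec (Princ.triv G) Φ = 0 := by
    intro Φ hΦ
    have h0 : ∑ Φ ∈ Finset.univ.erase Φ₁, s Φ * dec (Princ.triv G) Φ = 0 := by omega
    rw [Finset.sum_eq_zero_iff] at h0
    have := h0 Φ (Finset.mem_erase.mpr ⟨hΦ, Finset.mem_univ _⟩)
    exact (Nat.mul_eq_zero.mp this).resolve_left (hs Φ).ne'
  refine ⟨Φ₁, fun χ => dec χ Φ₁, PIM.isCharacter Φ₁, fun g hg => PIM.apply_eq_zero hM Φ₁ hg, ?_,
    fun χ => (dec_cast χ Φ₁).symm, fun H hH χ m hm => ?_⟩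
  · have := dec_cast (Princ.triv G) Φ₁
    rw [hd1, Princ.coe_triv] at this
    rw [← this, Nat.cast_one]
  · obtain ⟨e, hO, he, h⟩ := exists_pc_eq_ind hM hH (1 : H →* ℂˣ)
    have hi : IsIdempotentElem (redG M e) := by
      rw [IsIdempotentElem, ← redG_mul hO hO, he.eq]
    obtain ⟨n, hn⟩ := exists_nat_coeff (B := B) (hi.mul_of_commute
      (commute_of_mem_center (eB_mem_center B) _).symm (eB_mul_self hM hB))
      (by rw [mul_assoc, eB_mul_self hM hB])
    rw [pim_mul_eB hM hB hi, pim_redG hO he, h] at hn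
    simp only [MonoidHom.one_apply, Units.val_one] at hn
    have : Fintype H := Fintype.ofFinite H
    have hn1 : n Φ₁ = 1 := by
      have h2 := hsum n (Princ.triv G)
      rw [← hn, classInner_blockPart_of_mem _ h1B,
        classInner_indFun_left H _ (Princ.triv G).2.isClassFunction] at h2
      simp only [Princ.triv_apply, classInner_one_one] at h2
      rw [Finset.sum_eq_single Φ₁ (fun Φ _ hΦ => by rw [hd0 Φ hΦ, mul_zero]) (by simp), hd1,
        mul_one] at h2
      exact_mod_cast h2.symm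
    by_cases hχ : χ ∈ B
    · have h2 := hsum n χ
      rw [← hn, classInner_blockPart_of_mem _ hχ, hm] at h2
      have h3 : m = ∑ Φ, n Φ * dec χ Φ := by exact_mod_cast h2
      rw [h3]
      calc dec χ Φ₁ = n Φ₁ * dec χ Φ₁ := by rw [hn1, one_mul]
        _ ≤ _ := Finset.single_le_sum (f := fun Φ => n Φ * dec χ Φ) (fun _ _ => Nat.zero_le _)
          (Finset.mem_univ Φ₁)
    · exact (dec_eq_zero hM hB hχ Φ₁).le.trans (Nat.zero_le _)

theorem classInner_ind_ind {G : Type*} [Group G] [Fintype G] (Q R : Subgroup G)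
    (h : (Nat.card Q).Coprime (Nat.card R)) :
    classInner (indFun Q fun _ => 1) (indFun R fun _ => 1) =
      (Nat.card G : ℂ)⁻¹ * (Q.index * R.index) := by
  classical
  unfold classInner
  congr 1
  rw [Finset.sum_eq_single 1 ?_ (by simp)]
  · rw [indFun_one, indFun_one]
    simp
  · intro g _ hg
    by_cases hQ : ∀ x : G, x * g * x⁻¹ ∉ Q
    · rw [indFun_eq_zero_of_not_conj Q _ hQ, zero_mul]
    · by_cases hR : ∀ x : G, x * g * x⁻¹ ∉ R
      · rw [indFun_eq_zero_of_not_conj R _ hR, map_zero, mul_zero]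
      · push Not at hQ hR
        obtain ⟨x, hx⟩ := hQ
        obtain ⟨y, hy⟩ := hR
        have ho : ∀ x : G, orderOf (x * g * x⁻¹) = orderOf g := fun x =>
          (SemiconjBy.orderOf_eq x (SemiconjBy.conj_mk x g)).symm
        have h1 := Subgroup.orderOf_dvd_natCard Q hx
        have h2 := Subgroup.orderOf_dvd_natCard R hy
        rw [ho] at h1 h2
        exact absurd (orderOf_eq_one_iff.mp (Nat.eq_one_of_dvd_coprimes h h1 h2)) hg

theorem exists_subgroup_card {G : Type*} [Group G] [Finite G] {q b : ℕ} (hq : q.Prime)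
    (h : q ^ b ∣ Nat.card G) : ∃ Q : Subgroup G, Nat.card Q = q ^ b := by
  have := Fact.mk hq
  exact Sylow.exists_subgroup_card_pow_prime q h

/-- Let G be a finite group of order p^a · q^b · r^c with p, q, r distinct primes, and suppose that G has exactly q^b · r^c elements of order not divisible by p. Then G has a normal p-complement: a normal subgroup of order q^b · r^c. -/
theorem result {G : Type*} [Group G] [Finite G] (p q r a b c : ℕ) (hp : p.Prime) (hq : q.Prime) (hr : r.Prime) (hpq : p ≠ q) (hpr : p ≠ r) (hqr : q ≠ r) (hG : Nat.card G = p ^ a * q ^ b * r ^ c) (hcount : Nat.card {g : G // ¬ p ∣ orderOf g} = q ^ b * r ^ c) : ∃ N : Subgroup G, N.Normal ∧ Nat.card N = q ^ b * r ^ c := by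
  classical
  have : Fintype G := Fintype.ofFinite G
  obtain ⟨Q, hQ⟩ := exists_subgroup_card (G := G) (b := b) hq ⟨p ^ a * r ^ c, by rw [hG]; ring⟩
  obtain ⟨R, hR⟩ := exists_subgroup_card (G := G) (b := c) hr ⟨p ^ a * q ^ b, by rw [hG]; ring⟩
  have hqb : q ^ b ≠ 0 := pow_ne_zero _ hq.ne_zero
  have hrc : r ^ c ≠ 0 := pow_ne_zero _ hr.ne_zero
  have hpa : p ^ a ≠ 0 := pow_ne_zero _ hp.ne_zero
  have hQi : Q.index = p ^ a * r ^ c := by
    have h := Q.card_mul_index
    rw [hQ, hG] at h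
    exact Nat.eq_of_mul_eq_mul_left (Nat.pos_of_ne_zero hqb) (by rw [h]; ring)
  have hRi : R.index = p ^ a * q ^ b := by
    have h := R.card_mul_index
    rw [hR, hG] at h
    exact Nat.eq_of_mul_eq_mul_left (Nat.pos_of_ne_zero hrc) (by rw [h]; ring)
  have hpQ : ¬ p ∣ Nat.card Q := by
    rw [hQ]
    exact fun h => hpq ((Nat.prime_dvd_prime_iff_eq hp hq).mp (hp.dvd_of_dvd_pow h))
  have hpR : ¬ p ∣ Nat.card R := by
    rw [hR]
    exact fun h => hpr ((Nat.prime_dvd_prime_iff_eq hp hr).mp (hp.dvd_of_dvd_pow h))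
  have hQR : classInner (indFun Q fun _ => 1) (indFun R fun _ => 1) = ((p ^ a : ℕ) : ℂ) := by
    rw [classInner_ind_ind Q R (by
      rw [hQ, hR]; exact Nat.Coprime.pow _ _ ((Nat.coprime_primes hq hr).mpr hqr)), hQi, hRi, hG]
    have h1 : ((q ^ b : ℕ) : ℂ) ≠ 0 := by exact_mod_cast hqb
    have h2 : ((r ^ c : ℕ) : ℂ) ≠ 0 := by exact_mod_cast hrc
    have h3 : ((p ^ a : ℕ) : ℂ) ≠ 0 := by exact_mod_cast hpa
    simp only [Nat.cast_mul]
    field_simp
  obtain ⟨Φ, d, hΦ, hΦ0, hΦ1, hd, hle⟩ := exists_Phi (G := G) hp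
  have hchar : ∀ H : Subgroup G, IsCharacter G (indFun H fun _ => 1) := fun H =>
    isCharacter_indFun_one H
  choose mQ hmQ using fun χ : IrrCharacter G => (hchar Q).exists_nat_classInner χ.2.isCharacter
  choose mR hmR using fun χ : IrrCharacter G => (hchar R).exists_nat_classInner χ.2.isCharacter
  have hQR' : ∑ χ, mQ χ * mR χ = p ^ a := by
    rw [(hchar Q).isClassFunction.classInner_eq_sum_irr] at hQR
    have : ((∑ χ, mQ χ * mR χ : ℕ) : ℂ) = ((p ^ a : ℕ) : ℂ) := by
      rw [← hQR]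
      push_cast
      refine Finset.sum_congr rfl fun χ _ => ?_
      rw [χ.2.isCharacter.isGeneralizedCharacter.classInner_comm
        (hchar R).isGeneralizedCharacter, hmQ, hmR]
    exact_mod_cast this
  have hΦΦ : classInner Φ Φ = ((∑ χ, d χ * d χ : ℕ) : ℂ) := by
    rw [hΦ.isClassFunction.classInner_eq_sum_irr]
    push_cast
    refine Finset.sum_congr rfl fun χ _ => ?_
    rw [χ.2.isCharacter.isGeneralizedCharacter.classInner_comm hΦ.isGeneralizedCharacter, hd]
  have hdd : ∑ χ, d χ * d χ ≤ p ^ a := by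
    rw [← hQR']
    exact Finset.sum_le_sum fun χ _ =>
      Nat.mul_le_mul (hle Q hpQ χ _ (hmQ χ)) (hle R hpR χ _ (hmR χ))
  set k := ∑ χ, d χ * d χ with hk
  have hG0 : (Nat.card G : ℂ) ≠ 0 := by exact_mod_cast Nat.card_pos.ne'
  let S : Finset G := Finset.univ.filter fun g => ¬ p ∣ orderOf g
  have hS : S.card = q ^ b * r ^ c := by
    rw [← hcount, Nat.card_eq_fintype_card, Fintype.card_subtype]
  have hsum1 : ∑ g ∈ S, (Φ g).re = Nat.card G := by
    rw [classInner_one_right, inv_mul_eq_one₀ hG0] at hΦ1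
    have h1 : ∑ g ∈ S, Φ g = ∑ g, Φ g := Finset.sum_subset (Finset.subset_univ _) fun g _ hg =>
      hΦ0 g (by simpa [S] using hg)
    rw [← Complex.re_sum, h1, ← hΦ1, Complex.natCast_re]
  have hsum2 : ∑ g ∈ S, Complex.normSq (Φ g) = Nat.card G * k := by
    unfold classInner at hΦΦ
    rw [inv_mul_eq_iff_eq_mul₀ hG0] at hΦΦ
    have h1 : ∑ g ∈ S, Φ g * conj (Φ g) = ∑ g, Φ g * conj (Φ g) :=
      Finset.sum_subset (Finset.subset_univ _) fun g _ hg => by
        rw [hΦ0 g (by simpa [S] using hg), zero_mul]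
    rw [← h1] at hΦΦ
    simp only [Complex.mul_conj] at hΦΦ
    exact_mod_cast hΦΦ
  have hsum3 : ∑ g ∈ S, Complex.normSq (Φ g - ((p ^ a : ℕ) : ℂ)) ≤ 0 := by
    have h1 : ∀ g, Complex.normSq (Φ g - ((p ^ a : ℕ) : ℂ)) =
        Complex.normSq (Φ g) + ((p ^ a : ℕ) : ℝ) ^ 2 - 2 * ((p ^ a : ℕ) : ℝ) * (Φ g).re := by
      intro g
      rw [Complex.normSq_sub, Complex.normSq_natCast, Complex.conj_natCast, Complex.mul_re,
        Complex.natCast_re, Complex.natCast_im]
      ring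
    simp only [h1]
    rw [Finset.sum_sub_distrib, Finset.sum_add_distrib, hsum2, ← Finset.mul_sum, hsum1,
      Finset.sum_const, hS, nsmul_eq_mul, hG]
    have h2 : (k : ℝ) ≤ ((p ^ a : ℕ) : ℝ) := by exact_mod_cast hdd
    have h3 : (0 : ℝ) ≤ ((p ^ a * q ^ b * r ^ c : ℕ) : ℝ) := Nat.cast_nonneg _
    have h4 := mul_le_mul_of_nonneg_left h2 h3
    rw [Nat.cast_mul, Nat.cast_mul] at h4 ⊢
    rw [Nat.cast_mul]
    nlinarith
  have hval : ∀ g ∈ S, Φ g = ((p ^ a : ℕ) : ℂ) := by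
    intro g hg
    have h0 := (Finset.sum_eq_zero_iff_of_nonneg fun g _ => Complex.normSq_nonneg _).mp
      (le_antisymm hsum3 (Finset.sum_nonneg fun g _ => Complex.normSq_nonneg _)) g hg
    exact sub_eq_zero.mp (Complex.normSq_eq_zero.mp h0)
  have h1S : (1 : G) ∈ S := by simpa [S] using hp.one_lt.ne'
  obtain ⟨K, hKn, hK, -⟩ := Princ.exists_ker hΦ
  refine ⟨K, hKn, ?_⟩
  rw [← hcount]
  refine Nat.card_congr (Equiv.subtypeEquivRight fun g => ?_)
  rw [hK, hval 1 h1S]
  constructor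
  · intro h hg
    rw [hΦ0 g hg] at h
    exact hpa (by exact_mod_cast h.symm)
  · intro h
    exact hval g (by simpa [S] using h)

end Cfsg.Agent.S4427
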