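import Cfsg.Statements.S4436
import Cfsg.Agent.Block.FongReynolds
import Cfsg.Agent.Block.Induce
import Cfsg.Agent.S0908

set_option autoImplicit false
open Cfsg Cfsg.Lib.Char Cfsg.Lib.Block

namespace Cfsg.Agent.S4436

/-- Let N be a normal subgroup of the finite group G, b a block of N (relative to a maximal ideal M of the algebraic integers containing p), T the stabilizer of b in G, N ≤ T, and B′ a block of T covering b (some member of B′ has a constituent in b on restriction to N) that induces the block B of G. Then every defect group of B′ is a defect group of B, and for every ψ ∈ B′ the induced character ψ^G is an irreducible character of G lying in B with the same height as ψ. -/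
theorem result {G : Type*} [Group G] [Fintype G] (p : ℕ) [Fact p.Prime] (M : Ideal Cfsg.AlgInt) (hM : Cfsg.IsPModular p M) (N : Subgroup G) [hN : N.Normal] [Fintype N] (b : Set (Cfsg.IrrCharacter N)) (hb : Cfsg.IsPBlock M b) (T : Subgroup G) [Fintype T] (hT : ∀ g : G, g ∈ T ↔ ∀ θ ∈ b, ∀ θ' : Cfsg.IrrCharacter N, (∀ n : N, (θ' : N → ℂ) n = (θ : N → ℂ) ⟨g * n * g⁻¹, hN.conj_mem n n.2 g⟩) → θ' ∈ b) (hNT : N ≤ T) (B' : Set (Cfsg.IrrCharacter T)) (hB' : Cfsg.IsPBlock M B') (hcov : (∃ ψ ∈ B', ∃ θ ∈ b, Cfsg.classInner (fun n : N => (ψ : T → ℂ) ⟨(n : G), hNT n.2⟩) (θ : N → ℂ) ≠ 0)) (B : Set (Cfsg.IrrCharacter G)) (hind : Cfsg.IsInducedBlock M T B' B) : (∀ D : Subgroup T, Cfsg.IsDefectGroup p M B' D → Cfsg.IsDefectGroup p M B (D.map T.subtype)) ∧ ∀ ψ ∈ B', ∃ χ ∈ B, (χ : G → ℂ) = Cfsg.indFun T (ψ : T → ℂ) ∧ Cfsg.blockHeight p B (χ : G → ℂ) = Cfsg.blockHeight p B' (ψ : T → ℂ) := by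
  have hT' : T = stabB b := Subgroup.ext fun g => (hT g).trans mem_stabB_iff_form₁.symm
  have hFR := isFR_stabB hM hb hNT hT'
  have hb' : IsPBlock M (subB hNT b) := isPBlock_trB_of _ hb
  have hA := ((covers_subB_iff hNT).2 hcov).subset_overSet hM hB' hb'
  refine ⟨fun D hD => ?_, fun ψ hψ => ?_⟩
  · obtain ⟨E, hE, hle⟩ := exists_defect_ge_of_isInducedBlock hM hind hD
    have h1 := Cfsg.Agent.S0908.result p M hM B hind.2.1 E hE
    have h2 := Cfsg.Agent.S0908.result p M hM B' hB' D hD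
    rw [hFR.blockDefect_eq hM hA hind, ← h2,
      ← Subgroup.card_map_of_injective (K := D) T.subtype_injective] at h1
    rwa [Subgroup.eq_of_le_of_card_ge hle h1.le]
  · rw [hFR.eq_indSet hM hA hind]
    exact ⟨⟨_, hFR.isIrrCharacter_indFun (hA hψ)⟩, ⟨ψ, hψ, rfl⟩, rfl,
      hFR.blockHeight_indFun hM.1 hA hψ⟩

end Cfsg.Agent.S4436
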