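import Cfsg.Statements.S4437
import Cfsg.Agent.Block.CoverDefect

set_option autoImplicit false
open Cfsg Cfsg.Lib.Char Cfsg.Lib.Block Cfsg.Lib.Block.Pair

namespace Cfsg.Agent.S4437

/-- Let P be a p-subgroup of the finite group G, H = P·C_G(P), and b a block of H (relative to a maximal ideal M of the algebraic integers containing p) having P as a defect group; let B be the block of G induced by b. Let T be the stabilizer of b in N_G(P): the elements g of N_G(P) such that the g-conjugate of every member of b is again a member of b. Then B has defect group P if and only if p does not divide the index of H in T. -/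
theorem result {G : Type*} [Group G] [Fintype G] (p : ℕ) [Fact p.Prime] (M : Ideal Cfsg.AlgInt) (hM : Cfsg.IsPModular p M) (P : Subgroup G) (hP : IsPGroup p P) (H : Subgroup G) [Fintype H] (hH : H = P ⊔ Subgroup.centralizer (P : Set G)) (b : Set (Cfsg.IrrCharacter H)) (hb : Cfsg.IsPBlock M b) (hbP : Cfsg.IsDefectGroup p M b (P.subgroupOf H)) (B : Set (Cfsg.IrrCharacter G)) (hind : Cfsg.IsInducedBlock M H b B) (T : Subgroup G) (hT : ∀ g : G, g ∈ T ↔ (g ∈ Subgroup.normalizer (P : Set G) ∧ ∀ θ ∈ b, ∀ θ' : Cfsg.IrrCharacter H, (∀ h h' : H, (h' : G) = g * h * g⁻¹ → (θ' : H → ℂ) h' = (θ : H → ℂ) h) → θ' ∈ b)) : Cfsg.IsDefectGroup p M B P ↔ ¬ p ∣ H.relIndex T := by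
  haveI := charP_kM hM
  have hp : p.Prime := Fact.out
  have hB : IsPBlock M B := hind.2.1
  have hPH : P ≤ H := hH ▸ le_sup_left
  have hCH : Subgroup.centralizer (P : Set G) ≤ H := hH ▸ le_sup_right
  have hHN : H ≤ Subgroup.normalizer (P : Set G) :=
    hH ▸ sup_le Subgroup.le_normalizer (Subgroup.centralizer_le_normalizer _)
  have hNH : Subgroup.normalizer (P : Set G) ≤ Subgroup.normalizer (H : Set G) :=
    fun x hx => hH ▸ mem_normalizer_sup hx (normalizer_le_normalizer_centralizer P hx)
  have hT' : T = Subgroup.normalizer (P : Set G) ⊓ stab (hat M H b) := by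
    ext g
    rw [hT, Subgroup.mem_inf]
    refine and_congr_right fun hg => ?_
    have h1 := stabilizesBlock_iff hM hb (g := g)
    rw [and_iff_right (hNH hg)] at h1
    rw [← h1, StabilizesBlock, and_iff_right (hNH hg)]
    have hgH := map_conj_eq_self_iff.2 (hNH hg)
    refine forall₂_congr fun θ _ => ⟨fun h => ⟨irrComap (conjIso g hgH) θ, h _ ?_, ?_⟩, ?_⟩
    · exact (eq_irrComap_conjIso_iff g hgH θ _).2 rfl
    · exact (eq_irrComap_conjIso_iff g hgH θ _).2 rfl
    · rintro ⟨θ₁, h₁, h₂⟩ θ' h'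
      rwa [← (eq_irrComap_conjIso_iff g hgH θ _).1 h', (eq_irrComap_conjIso_iff g hgH θ _).1 h₂]
  have he := isPrim_hat hM hb
  have heP := (isDefectGroup_subgroupOf_iff hM hb hPH).1 hbP
  have hsupp := hat_suppOn_centralizer hM hP hPH hHN hb
  have hHT : H ≤ T := hT' ▸ le_inf hHN he.le_stab
  have hTN : T ≤ Subgroup.normalizer (P : Set G) := hT' ▸ inf_le_left
  have hTs : T ≤ stab (hat M H b) := hT' ▸ inf_le_right
  have hmul := (isInducedBlock_iff_br_mul_eq hM hP hPH hCH hHN hb hB).1 hind
  have hBp := isPrim_eB hM hB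
  rw [isDefectGroup_iff_isDefect hM hB]
  constructor
  · intro hBP
    obtain ⟨D, hD⟩ := (he.of_le_stab hHT hTs).exists_isDefect p hHT (hTN.trans hNH)
    have hPD : P ≤ D := hD.le_of_normal (hPH.trans hHT) hP (hD.le.trans hTN) hsupp
    have h1 : br D (br P (eB M B)) ≠ 0 :=
      br_ne_zero_of_mul_eq hD.isPGroup
        ((le_inf (le_top.trans hBp.le_stab) (hD.le.trans hTN)).trans
          (stab_inf_normalizer_le_stab_br P _))
        (hD.le.trans hTs) hmul hD.br_ne_zero
    rw [br_br_of_le hPD] at h1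
    have h2 : D = P := hBP.eq_of_le le_top hD.isPGroup h1 hPD
    have h3 := hD.not_dvd_relIndex hHT (hTN.trans hNH) he hTs
    rwa [h2, sup_eq_left.2 hPH] at h3
  · intro hnd
    by_contra hnot
    have hf : IsPrim (⊤ ⊓ Subgroup.centralizer (P : Set G)) (⊤ ⊓ Subgroup.centralizer (P : Set G))
        (hat M H b) := by
      rw [top_inf_eq]
      refine ⟨⟨hsupp, hCH.trans he.le_stab⟩, he.idem, he.ne_zero, fun c hc hi => ?_⟩
      refine he.prim c ⟨hc.1.mono hCH, ?_⟩ hi
      rw [hH]
      exact sup_le (le_stab_of_suppOn_centralizer hc.1) hc.2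
    obtain ⟨R, hPR, hRN, hRp, hRs, hbr⟩ := hBp.exists_gt le_rfl top_le_normalizer_top le_top hP hf
      (by rw [hmul]; exact he.ne_zero) hnot
    have hRT : R ≤ T := hT' ▸ le_inf (hRN.trans inf_le_right) hRs
    have hRH : R ≤ H := by
      have h1 : H.relIndex R ∣ H.relIndex T := by
        rw [← relIndex_sup_of_le_normalizer (hRT.trans (hTN.trans hNH))]
        exact Dvd.intro _ (Subgroup.relIndex_mul_relIndex H (H ⊔ R) T le_sup_left
          (sup_le hHT hRT))
      obtain ⟨k, hk⟩ := hRp.index (H.subgroupOf R)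
      rcases k with _ | k
      · exact Subgroup.relIndex_eq_one.1 (by simpa using hk)
      · refine absurd (Dvd.dvd.trans ?_ h1) hnd
        change p ∣ (H.subgroupOf R).index
        rw [hk]
        exact dvd_pow_self p (Nat.succ_ne_zero k)
    exact hPR.ne' (heP.eq_of_le hRH hRp hbr hPR.le)

end Cfsg.Agent.S4437
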