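import Cfsg.Statements.S4439
import Cfsg.Agent.Block.FongRed

set_option autoImplicit false
open Cfsg

namespace Cfsg.Agent.S4439

open Cfsg.Lib.Block Cfsg.Lib.Char Cfsg.Lib.Solv Subgroup

theorem index_center_congr {G H : Type*} [Group G] [Group H] [Finite G] (e : G ≃* H) :
    (center G).index = (center H).index := by
  have := Finite.of_equiv G e.toEquiv
  refine Nat.eq_of_mul_eq_mul_right (Nat.card_pos (α := center G)) ?_
  rw [index_mul_card, Nat.card_congr (centerCongr e).toEquiv, index_mul_card,
    Nat.card_congr e.toEquiv]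

/-- Let G be a finite p-solvable group and B a p-block of G with defect group P (relative to a maximal ideal M of the algebraic integers containing p). Then the height of every irreducible character in B is at most the exponent of p in the index of the centre of P in P. -/
theorem result {G : Type*} [Group G] [Finite G] (p : ℕ) [Fact p.Prime] (M : Ideal Cfsg.AlgInt) (hM : Cfsg.IsPModular p M) (hsolv : Cfsg.IsPSolvable p G) (B : Set (Cfsg.IrrCharacter G)) (hB : Cfsg.IsPBlock M B) (P : Subgroup G) (hP : Cfsg.IsDefectGroup p M B P) (χ : Cfsg.IrrCharacter G) (hχ : χ ∈ B) : Cfsg.blockHeight p B (χ : G → ℂ) ≤ ((Subgroup.center P).index).factorization p := by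
  refine fong_induction hM (Q := fun G _ _ B => ∀ P : Subgroup G, IsDefectGroup p M B P →
    ∀ χ ∈ B, blockHeight p B (χ : G → ℂ) ≤ (center P).index.factorization p) ?_ ?_ G hsolv hB
    P hP χ hχ
  · intro G _ _ hG θ hθ P hP χ hχ
    have hG' := isPConstrained_of_isPSolvable hG
    exact (Nat.sub_le _ _).trans (factorization_degree_le_of_invariant hG' hθ
      (mem_overSet_singleton.mp hχ) (((fong_block hM hG' hθ).2.1 P).mp hP))
  · intro G _ _ _ T A B' B _ hFR hA hind ih P hP χ hχ
    have := Fintype.ofFinite G
    obtain ⟨D, hD⟩ := exists_isDefectGroup hM hind.1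
    have hD' := defect_map_of_blockDefect_le hM hind (hFR.blockDefect_eq hM hA hind).le hD
    obtain ⟨x, rfl⟩ := defect_exists_conj hM hind.2.1 hP hD'
    have hB := hFR.eq_indSet hM hA hind
    obtain ⟨ψ, hψ, e⟩ : χ ∈ indSet T B' := hB ▸ hχ
    rw [e, hB, hFR.blockHeight_indFun hM.1 hA hψ, ← index_center_congr
      ((D.equivMapOfInjective _ T.subtype_injective).trans
        ((D.map T.subtype).equivMapOfInjective _ (MulAut.conj x).injective))]
    exact ih D hD ψ hψ

end Cfsg.Agent.S4439
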