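import Cfsg.Statements.S4443
import Cfsg.Agent.Block.Robinson

set_option autoImplicit false
open Cfsg

namespace Cfsg.Agent.S4443

open Cfsg.Lib.Char Cfsg.Lib.Block Cfsg.Lib.Block.Loc Cfsg.Lib.Block.Ht Subgroup

open Classical in
theorem index_mul_card_pairs {G : Type*} [Group G] [Fintype G] (S : Subgroup G) (a b : G) :
    (S.index : ℂ) * (Nat.card {yz : G × G // IsConj a yz.1 ∧ IsConj b yz.2 ∧ yz.2 * yz.1⁻¹ ∈ S} : ℂ) =
      ((centralizer ({a} : Set G)).index : ℂ) *
        ∑ z, clInd b z * indFun S (fun _ => 1) (z * a⁻¹) := by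
  have hΨ : IsClassFunction G (fun g => ∑ u, clInd a u * clInd b (g * u)) := by
    intro g x
    beta_reduce
    rw [← Equiv.sum_comp (MulAut.conj x).toEquiv]
    refine Finset.sum_congr rfl fun u _ => ?_
    show clInd a (x * u * x⁻¹) * clInd b (x * g * x⁻¹ * (x * u * x⁻¹)) = _
    rw [isClassFunction_clInd a u x, ← isClassFunction_clInd b (g * u) x]
    congr 2
    group
  have hφ : IsClassFunction G (fun u => ∑ z, clInd b z * indFun S (fun _ => 1) (z * u⁻¹)) := by
    intro u x
    beta_reduce
    rw [← Equiv.sum_comp (MulAut.conj x).toEquiv]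
    refine Finset.sum_congr rfl fun z _ => ?_
    show clInd b (x * z * x⁻¹) * indFun S (fun _ => 1) (x * z * x⁻¹ * (x * u * x⁻¹)⁻¹) = _
    rw [isClassFunction_clInd b z x, ← indFun_isClassFunction S _ (z * u⁻¹) x]
    congr 2
    group
  have h1 := sum_indFun_mul S (fun _ => 1) hΨ
  rw [← sum_clInd_mul hφ a]
  have h2 : ∑ u, clInd a u * ∑ z, clInd b z * indFun S (fun _ => 1) (z * u⁻¹) =
      ∑ g, indFun S (fun _ => 1) g * ∑ u, clInd a u * clInd b (g * u) := by
    simp only [Finset.mul_sum]
    rw [Finset.sum_comm (f := fun g u => indFun S (fun _ => 1) g * (clInd a u * clInd b (g * u)))]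
    refine Finset.sum_congr rfl fun u _ => ?_
    rw [← Equiv.sum_comp (Equiv.mulRight u)]
    refine Finset.sum_congr rfl fun g _ => ?_
    simp only [Equiv.coe_mulRight, mul_inv_cancel_right]
    ring
  rw [h2, h1]
  congr 1
  simp only [one_mul]
  rw [← sum_extendByZero S (fun s : S => ∑ u, clInd a u * clInd b ((s : G) * u)),
    Nat.card_eq_fintype_card, Fintype.card_subtype, Finset.card_filter]
  push_cast
  rw [Fintype.sum_prod_type]
  have h3 : ∀ g : G, extendByZero S (fun s : S => ∑ u, clInd a u * clInd b ((s : G) * u)) g =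
      ∑ u, if g ∈ S then clInd a u * clInd b (g * u) else 0 := by
    intro g
    by_cases hg : g ∈ S
    · simp only [extendByZero_of_mem _ _ hg, if_pos hg]
    · simp only [extendByZero_of_notMem _ _ hg, if_neg hg, Finset.sum_const_zero]
  simp only [h3]
  rw [Finset.sum_comm (f := fun g u => if g ∈ S then clInd a u * clInd b (g * u) else 0)]
  refine Finset.sum_congr rfl fun u _ => ?_
  rw [← Equiv.sum_comp (Equiv.mulRight u)]
  refine Finset.sum_congr rfl fun g _ => ?_
  simp only [Equiv.coe_mulRight, mul_inv_cancel_right, clInd]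
  by_cases h1 : IsConj a u <;> by_cases h2 : IsConj b (g * u) <;> by_cases h3 : g ∈ S <;>
    simp only [h1, h2, h3, and_self, and_true, and_false, false_and, if_true, if_false, mul_one,
      mul_zero]

/-- Let D be a normal p-subgroup of the finite group G, of order p^d, let p^a be the p-part of the order of G, and fix a Sylow p-subgroup S and a maximal ideal M of the algebraic integers containing p. Index by a finite type ι (via an injective map K) exactly the conjugacy classes of p-regular elements x of G for which D is a Sylow p-subgroup of C_G(x). For classes K_i, K_j let ω(i, j) be the number of pairs (y, z) ∈ K_i × K_j with z y⁻¹ ∈ S; this number is divisible by p^(a−d). Then the number of p-blocks of G having D as a defect group equals the rank over ℤ/pℤ of the matrix with (i, j) entry ω(i, j)/p^(a−d) reduced modulo p. -/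
theorem result {G : Type*} [Group G] [Finite G] (p : ℕ) [Fact p.Prime] (M : Ideal Cfsg.AlgInt) (hM : Cfsg.IsPModular p M) (D : Subgroup G) [D.Normal] (hD : IsPGroup p D) (S : Sylow p G) {ι : Type*} [Fintype ι] [DecidableEq ι] (K : ι → ConjClasses G) (hKinj : Function.Injective K) (hK : ∀ C : ConjClasses G, (∃ i, K i = C) ↔ ∃ x ∈ C.carrier, ¬ p ∣ orderOf x ∧ ∃ Q : Sylow p (Subgroup.centralizer ({x} : Set G)), (Q : Subgroup (Subgroup.centralizer ({x} : Set G))).map (Subgroup.centralizer ({x} : Set G)).subtype = D) : Nat.card {B : Set (Cfsg.IrrCharacter G) // Cfsg.IsPBlock M B ∧ Cfsg.IsDefectGroup p M B D} = (Matrix.of fun i j : ι => ((Nat.card {yz : G × G // yz.1 ∈ (K i).carrier ∧ yz.2 ∈ (K j).carrier ∧ yz.2 * yz.1⁻¹ ∈ (S : Subgroup G)} / p ^ ((Nat.card G).factorization p - (Nat.card D).factorization p) : ℕ) : ZMod p)).rank := by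
  classical
  have := Fintype.ofFinite G
  have hp : p.Prime := Fact.out
  have hp0 : (p : ℂ) ≠ 0 := by exact_mod_cast hp.ne_zero
  have := charP_kM hM
  choose y hy1 hy2 hy3 using fun i => (hK (K i)).1 ⟨i, rfl⟩
  have hy1' : ∀ i x, x ∈ (K i).carrier ↔ IsConj (y i) x := fun i x => by
    rw [ConjClasses.mem_carrier_iff_mk_eq, ← ConjClasses.mem_carrier_iff_mk_eq.1 (hy1 i),
      ConjClasses.mk_eq_mk_iff_isConj, isConj_comm]
  have hR := rank_robinson hM (D := D) y
    (fun i j h => hKinj (by
      rw [← ConjClasses.mem_carrier_iff_mk_eq.1 (hy1 i),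
        ← ConjClasses.mem_carrier_iff_mk_eq.1 (hy1 j), ConjClasses.mk_eq_mk_iff_isConj]
      exact h))
    (fun i => ⟨hy2 i, hy3 i⟩)
    (fun x hx hS => by
      obtain ⟨i, hi⟩ := (hK (ConjClasses.mk x)).2
        ⟨x, ConjClasses.mem_carrier_iff_mk_eq.2 rfl, hx, hS⟩
      exact ⟨i, (hy1' i x).1 (ConjClasses.mem_carrier_iff_mk_eq.2 hi.symm)⟩)
  rw [← hR, ← rank_map_field (ZMod.castHom (dvd_refl p) (kM M))]
  have hidx : ∀ i, (centralizer ({y i} : Set G)).index ≠ 0 := fun i => index_ne_zero_of_finite
  rw [← Matrix.rank_mul_eq_right_of_isUnit_det (Matrix.diagonal fun i =>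
    redM M ((ordCompl[p] (centralizer ({y i} : Set G)).index : ℕ) : ℂ)) _ (by
      rw [Matrix.det_diagonal, isUnit_iff_ne_zero, Finset.prod_ne_zero_iff]
      intro i _
      rw [redM_natCast, Ne, CharP.cast_eq_zero_iff (kM M) p]
      exact Nat.not_dvd_ordCompl hp (hidx i))]
  congr 1
  ext i j
  rw [Matrix.diagonal_mul, Matrix.map_apply, Matrix.of_apply, Matrix.of_apply, map_natCast,
    ← redM_natCast]
  have hN : MemLocalRing M (∑ z, clInd (y j) z * pInd p (z * (y i)⁻¹)) :=
    ring_sum hM _ fun z _ => ring_mul hM (ring_clInd hM _ _) (ring_pInd hM _)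
  rw [← redM_mul (vM_le_one_of_memLocalRing hM (ring_natCast hM _))
    (vM_le_one_of_memLocalRing hM hN)]
  refine redM_eq_of_memLocalIdeal_sub hM ?_
  have h1 := index_mul_card_pairs (S : Subgroup G) (y i) (y j)
  simp only [hy1']
  set w := Nat.card {yz : G × G // IsConj (y i) yz.1 ∧ IsConj (y j) yz.2 ∧
    yz.2 * yz.1⁻¹ ∈ (S : Subgroup G)}
  set n := ∑ z, clInd (y j) z * indFun (S : Subgroup G) (fun _ => 1) (z * (y i)⁻¹) with hn
  have hnr : MemLocalRing M n := ring_sum hM _ fun z _ => ring_mul hM (ring_clInd hM _ _)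
    (ring_char hM (isCharacter_indFun_one _) _)
  have h2 : (centralizer ({y i} : Set G)).index.factorization p =
      (Nat.card G).factorization p - (Nat.card D).factorization p := by
    have h3 := factorization_index_add p (centralizer ({y i} : Set G))
    have h4 := IsSylowIn.card_eq (hy3 i)
    rw [h4, hp.factorization_pow, Finsupp.single_eq_same]
    omega
  set e := (Nat.card G).factorization p - (Nat.card D).factorization p
  set m := ordCompl[p] (centralizer ({y i} : Set G)).index
  have hSu : ¬ MemLocalIdeal M ((S : Subgroup G).index : ℂ) := by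
    rw [ideal_natCast_iff hM]; exact S.not_dvd_index
  have h5 : ((S : Subgroup G).index : ℂ) * ((w : ℂ) / ((p ^ e : ℕ) : ℂ)) = m * n := by
    have h8 : ((centralizer ({y i} : Set G)).index : ℂ) = (p : ℂ) ^ e * m := by
      rw [← h2]; exact natCast_eq_pow_mul_ordCompl p _
    rw [← mul_div_assoc, h1, h8]
    push_cast
    field_simp
  have h6 : p ^ e ∣ w := by
    by_cases hw : w = 0
    · rw [hw]; exact dvd_zero _
    · have h7 : MemLocalRing M ((w : ℂ) / ((p ^ e : ℕ) : ℂ)) := by
        rw [← ring_mul_unit_iff hM (ring_natCast hM _) hSu, h5]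
        exact ring_mul hM (ring_natCast hM _) hnr
      rw [ring_natCast_div_iff hM hw (pow_ne_zero _ hp.ne_zero), hp.factorization_pow,
        Finsupp.single_eq_same] at h7
      exact (hp.pow_dvd_iff_le_factorization hw).2 h7
  rw [Nat.cast_div h6 (by exact_mod_cast pow_ne_zero e hp.ne_zero),
    ← ideal_mul_unit_iff hM (ring_natCast hM _) hSu, mul_sub, h5, mul_left_comm, ← mul_sub]
  refine ideal_mul_left hM (ring_natCast hM _) (ideal_sub_comm hM ?_)
  rw [hn, Finset.mul_sum, ← Finset.sum_sub_distrib]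
  refine ideal_sum hM _ fun z _ => ?_
  rw [mul_left_comm, ← mul_sub]
  exact ideal_mul_left hM (ring_clInd hM _ _) (ideal_indFun_sylow_sub hM S _)

end Cfsg.Agent.S4443
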