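import Cfsg.Statements.S4444
import Cfsg.Agent.Char.Glauberman

set_option autoImplicit false
open Cfsg

namespace Cfsg.Agent.S4444

open Cfsg.Lib.Char

/-- The Glauberman correspondence for a p-group of operators. Inside a finite group Γ let S normalise G with the orders of G and S coprime, S a p-group, and let C = G ⊓ C(S) be the fixed points. Call an irreducible character χ of G S-invariant when χ(s g s⁻¹) = χ(g) for s ∈ S, g ∈ G. Then: (i) for every S-invariant χ there is exactly one irreducible character β of C whose multiplicity [χ_C, β] in the restriction of χ is not divisible by p; (ii) that multiplicity is ≡ 1 or ≡ −1 (mod p); (iii) distinct S-invariant χ give distinct β; (iv) every irreducible character of C arises in this way. So χ ↦ β is a bijection from the S-invariant irreducible characters of G onto the irreducible characters of C. -/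
theorem result {Γ : Type*} [Group Γ] [Fintype Γ] (G S : Subgroup Γ) [Fintype G] (hnorm : ∀ s ∈ S, ∀ g ∈ G, s * g * s⁻¹ ∈ G) (hcop : (Nat.card G).Coprime (Nat.card S)) (p : ℕ) (hp : p.Prime) (hS : IsPGroup p S) (C : Subgroup Γ) [Fintype C] (hC : C = G ⊓ Subgroup.centralizer (S : Set Γ)) (hCG : C ≤ G) : (∀ χ : Cfsg.IrrCharacter G, (∀ s ∈ S, ∀ g g' : G, (g' : Γ) = s * g * s⁻¹ → (χ : G → ℂ) g' = (χ : G → ℂ) g) → ∃! β : Cfsg.IrrCharacter C, ∃ m : ℕ, Cfsg.classInner (fun c : C => (χ : G → ℂ) ⟨c, hCG c.2⟩) (β : C → ℂ) = (m : ℂ) ∧ ¬ p ∣ m) ∧ (∀ χ : Cfsg.IrrCharacter G, (∀ s ∈ S, ∀ g g' : G, (g' : Γ) = s * g * s⁻¹ → (χ : G → ℂ) g' = (χ : G → ℂ) g) → ∀ β : Cfsg.IrrCharacter C, ∀ m : ℕ, Cfsg.classInner (fun c : C => (χ : G → ℂ) ⟨c, hCG c.2⟩) (β : C → ℂ) = (m : ℂ) → ¬ p ∣ m → ((m : ℤ) ≡ 1 [ZMOD p] ∨ (m : ℤ) ≡ -1 [ZMOD p])) ∧ (∀ χ χ' : Cfsg.IrrCharacter G, (∀ s ∈ S, ∀ g g'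 : G, (g' : Γ) = s * g * s⁻¹ → (χ : G → ℂ) g' = (χ : G → ℂ) g) → (∀ s ∈ S, ∀ g g' : G, (g' : Γ) = s * g * s⁻¹ → (χ' : G → ℂ) g' = (χ' : G → ℂ) g) → ∀ β : Cfsg.IrrCharacter C, ∀ m m' : ℕ, Cfsg.classInner (fun c : C => (χ : G → ℂ) ⟨c, hCG c.2⟩) (β : C → ℂ) = (m : ℂ) → ¬ p ∣ m → Cfsg.classInner (fun c : C => (χ' : G → ℂ) ⟨c, hCG c.2⟩) (β : C → ℂ) = (m' : ℂ) → ¬ p ∣ m' → χ = χ') ∧ (∀ β : Cfsg.IrrCharacter C, ∃ χ : Cfsg.IrrCharacter G, (∀ s ∈ S, ∀ g g' : G, (g' : Γ) = s * g * s⁻¹ → (χ : G → ℂ) g' = (χ : G → ℂ) g) ∧ ∃ m : ℕ, Cfsg.classInner (fun c : C => (χ : G → ℂ) ⟨c, hCG c.2⟩) (β : C → ℂ) = (m : ℂ) ∧ ¬ p ∣ m) := by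
  have : Fact p.Prime := ⟨hp⟩
  have hi := isFixedEmb_conjHom hnorm hC hCG
  obtain ⟨q, hq, hSq, hG, H⟩ := exists_prime_of_coprime hS hi hcop
  have : Fact q.Prime := ⟨hq⟩
  have key : ∀ (χ : IrrCharacter G) (β : IrrCharacter C) (m : ℕ),
      classInner (fun c : C => (χ : G → ℂ) ⟨c, hCG c.2⟩) (β : C → ℂ) = (m : ℂ) →
      resMult (Subgroup.inclusion hCG) χ.1 β.1 = m := fun χ β m h => resMult_eq_of_eq h
  have key2 : ∀ (χ : IrrCharacter G) (β : IrrCharacter C),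
      classInner (fun c : C => (χ : G → ℂ) ⟨c, hCG c.2⟩) (β : C → ℂ) =
      (resMult (Subgroup.inclusion hCG) χ.1 β.1 : ℂ) := fun χ β =>
    resMult_eq (Subgroup.inclusion hCG) χ.2.isCharacter β.2.isCharacter
  refine ⟨fun χ hχ => ?_, fun χ hχ β m hm hpm => ?_, fun χ χ' hχ hχ' β m m' hm hpm hm' hpm' => ?_,
    fun β => ?_⟩
  · rw [← isInv_conjHom_iff hnorm] at hχ
    obtain ⟨β, hβ, h⟩ := glauberman_exists (Subgroup.inclusion hCG) hG χ.2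
    refine ⟨⟨β, hβ⟩, ⟨_, key2 χ _, fun h' => h ((H _ _ χ.2 hβ).1.1 h')⟩, ?_⟩
    rintro γ ⟨m, hm, hpm⟩
    rw [← key χ γ m hm, (H _ _ χ.2 γ.2).1] at hpm
    exact Subtype.ext (glauberman_unique hSq hi hG χ.2 hχ γ.2 hβ hpm h)
  · rw [← isInv_conjHom_iff hnorm] at hχ
    rw [← key χ β m hm] at hpm ⊢
    rcases (H _ _ χ.2 β.2).2 with rfl | h
    · exact glauberman_pm_one hSq hi hG χ.2 hχ β.2 hpm
    · left
      rcases Nat.le_one_iff_eq_zero_or_eq_one.1 h with h | h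
      · simp [h] at hpm
      · simp [h]
  · rw [← isInv_conjHom_iff hnorm] at hχ hχ'
    rw [← key χ β m hm, (H _ _ χ.2 β.2).1] at hpm
    rw [← key χ' β m' hm', (H _ _ χ'.2 β.2).1] at hpm'
    exact Subtype.ext (glauberman_inj hSq hi hG χ.2 χ'.2 hχ hχ' β.2 hpm hpm')
  · obtain ⟨χ, h1, h2, h3⟩ := glauberman_surj hSq hi hG β.2
    exact ⟨⟨χ, h1⟩, (isInv_conjHom_iff hnorm _).1 h2, _, key2 _ β,
      fun h' => h3 ((H _ _ h1 β.2).1.1 h')⟩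

end Cfsg.Agent.S4444
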