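import Cfsg.Statements.S4445
import Cfsg.Agent.Char.GlaubermanSolv
import Cfsg.Agent.Solv.CoprimeBasic

set_option autoImplicit false
open Cfsg

namespace Cfsg.Agent.S4445

open Cfsg.Lib.Char

/-- Inside a finite group Γ let the solvable subgroup S normalise G with the orders of G and S coprime. Then the number of S-invariant irreducible characters of G (χ(s g s⁻¹) = χ(g) for all s ∈ S, g ∈ G) equals the number of conjugacy classes of G mapped to themselves by conjugation by every element of S. -/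
theorem result {Γ : Type*} [Group Γ] [Fintype Γ] (G S : Subgroup Γ) [Fintype G] (hnorm : ∀ s ∈ S, ∀ g ∈ G, s * g * s⁻¹ ∈ G) (hcop : (Nat.card G).Coprime (Nat.card S)) (hsolv : Group.IsSolvable S) : Nat.card {χ : Cfsg.IrrCharacter G // (∀ s ∈ S, ∀ g g' : G, (g' : Γ) = s * g * s⁻¹ → (χ : G → ℂ) g' = (χ : G → ℂ) g)} = Nat.card {K : ConjClasses G // ∀ s ∈ S, ∀ g g' : G, (g' : Γ) = s * g * s⁻¹ → ConjClasses.mk g = K → ConjClasses.mk g' = K} := by
  set C : Subgroup Γ := G ⊓ Subgroup.centralizer (S : Set Γ) with hC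
  have hCG : C ≤ G := inf_le_left
  have hi := isFixedEmb_conjHom hnorm hC hCG
  have h1 := card_isInv_eq_card_irr hcop hi
  simp only [isInv_conjHom_iff] at h1
  rw [h1, card_irr_eq_card_conjClasses]
  have hSG : S ≤ Subgroup.normalizer (G : Set Γ) := Subgroup.le_normalizer_iff.2 hnorm
  refine Nat.card_congr (Equiv.ofBijective
    (fun K => ⟨ConjClasses.map (Subgroup.inclusion hCG) K, ?_⟩) ⟨?_, ?_⟩)
  · obtain ⟨c, rfl⟩ := ConjClasses.mk_surjective K
    intro s hs g g' hg h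
    change ConjClasses.mk _ = ConjClasses.mk (Subgroup.inclusion hCG c) at h ⊢
    rw [ConjClasses.mk_eq_mk_iff_isConj, isConj_iff] at h ⊢
    obtain ⟨x, hx⟩ := h
    refine ⟨⟨s * x * s⁻¹, hnorm s hs x x.2⟩, Subtype.ext ?_⟩
    have h2 : (x : Γ) * g * (x : Γ)⁻¹ = c := congrArg Subtype.val hx
    have h3 : s * c * s⁻¹ = c := by
      rw [c.2.2 s hs, mul_inv_cancel_right]
    change s * x * s⁻¹ * g' * (s * x * s⁻¹)⁻¹ = c
    rw [hg, ← h3, ← h2]
    group
  · intro K L h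
    obtain ⟨c, rfl⟩ := ConjClasses.mk_surjective K
    obtain ⟨d, rfl⟩ := ConjClasses.mk_surjective L
    have h2 : ConjClasses.mk (Subgroup.inclusion hCG c) =
        ConjClasses.mk (Subgroup.inclusion hCG d) := congrArg Subtype.val h
    rw [ConjClasses.mk_eq_mk_iff_isConj, isConj_iff] at h2 ⊢
    obtain ⟨x, hx⟩ := h2
    have h3 : (x : Γ) * c * (x : Γ)⁻¹ = d := congrArg Subtype.val hx
    obtain ⟨y, hy, h4⟩ := Lib.Solv.Coprime.exists_centralizer_conj_elem hSG hcop.symm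
      (Or.inl hsolv) x.2 c.2.2 (h3 ▸ d.2.2)
    exact ⟨⟨y, hy⟩, Subtype.ext (h4.trans h3)⟩
  · rintro ⟨K, hK⟩
    obtain ⟨g, rfl⟩ := ConjClasses.mk_surjective K
    obtain ⟨k, hk, h⟩ := Lib.Solv.Coprime.exists_conj_mem_centralizer hSG hcop.symm
      (Or.inl hsolv) (x := (g : Γ)) (fun s hs => by
        have h2 := (hK s hs g ⟨_, hnorm s hs g g.2⟩ rfl rfl).symm
        rw [ConjClasses.mk_eq_mk_iff_isConj, isConj_iff] at h2
        obtain ⟨x, hx⟩ := h2
        exact ⟨x, x.2, congrArg Subtype.val hx⟩)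
    refine ⟨ConjClasses.mk ⟨k * g * k⁻¹, G.mul_mem (G.mul_mem hk g.2) (G.inv_mem hk), h⟩,
      Subtype.ext ?_⟩
    change ConjClasses.mk _ = ConjClasses.mk g
    rw [eq_comm, ConjClasses.mk_eq_mk_iff_isConj, isConj_iff]
    exact ⟨⟨k, hk⟩, rfl⟩

end Cfsg.Agent.S4445
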