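import Cfsg.Statements.S4446
import Cfsg.Agent.Char.GlaubermanCyc
import Cfsg.Agent.Solv.CoprimeBasic

set_option autoImplicit false
open Cfsg

namespace Cfsg.Agent.S4446

open Cfsg.Lib.Char

/-- Let the finite group Γ be generated by a normal subgroup G and a cyclic subgroup S of coprime orders, C = G ⊓ C(S), and let χ be an S-invariant irreducible character of G with canonical extension χ̂ to Γ (the extension whose determinantal order is coprime to the order of S). Then there are exactly one irreducible character β of C and one sign ε such that χ̂(c s) = ε β(c) for every c ∈ C and every generator s of S; this β is a constituent of the restriction of χ to C; distinct S-invariant χ give distinct β; and every irreducible character of C arises in this way. -/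
theorem result {Γ : Type*} [Group Γ] [Fintype Γ] (G S : Subgroup Γ) [Fintype G] (hnorm : ∀ s ∈ S, ∀ g ∈ G, s * g * s⁻¹ ∈ G) (hcop : (Nat.card G).Coprime (Nat.card S)) (htop : G ⊔ S = ⊤) (hcyc : IsCyclic S) (C : Subgroup Γ) [Fintype C] (hC : C = G ⊓ Subgroup.centralizer (S : Set Γ)) (hCG : C ≤ G) : (∀ (χ : Cfsg.IrrCharacter G) (χh : Cfsg.IrrCharacter Γ), (∀ s ∈ S, ∀ g g' : G, (g' : Γ) = s * g * s⁻¹ → (χ : G → ℂ) g' = (χ : G → ℂ) g) → (∀ g : G, (χh : Γ → ℂ) g = (χ : G → ℂ) g) → (Cfsg.detOrder (χh : Γ → ℂ)).Coprime (Nat.card S) → (∃! βε : Cfsg.IrrCharacter C × ℤ, (βε.2 = 1 ∨ βε.2 = -1) ∧ ∀ c : C, ∀ s : Γ, Subgroup.zpowers s = S → (χh : Γ → ℂ) ((c : Γ) * s) = (βε.2 : ℂ) * (βε.1 : C → ℂ) c) ∧ ∀ β : Cfsg.IrrCharacter C, ∀ ε : ℤ, (ε = 1 ∨ ε = -1) → (∀ c : C, ∀ s : Γ, Subgroup.zpowers s = S → (χh : Γ → ℂ) ((c : Γ) * s) = (ε : ℂ) * (β : C → ℂ) c) → Cfsg.classInner (fun c : C => (χ : G → ℂ)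 ⟨c, hCG c.2⟩) (β : C → ℂ) ≠ 0) ∧ (∀ (χ χ' : Cfsg.IrrCharacter G) (χh χh' : Cfsg.IrrCharacter Γ), (∀ s ∈ S, ∀ g g' : G, (g' : Γ) = s * g * s⁻¹ → (χ : G → ℂ) g' = (χ : G → ℂ) g) → (∀ s ∈ S, ∀ g g' : G, (g' : Γ) = s * g * s⁻¹ → (χ' : G → ℂ) g' = (χ' : G → ℂ) g) → (∀ g : G, (χh : Γ → ℂ) g = (χ : G → ℂ) g) → (∀ g : G, (χh' : Γ → ℂ) g = (χ' : G → ℂ) g) → (Cfsg.detOrder (χh : Γ → ℂ)).Coprime (Nat.card S) → (Cfsg.detOrder (χh' : Γ → ℂ)).Coprime (Nat.card S) → ∀ β : Cfsg.IrrCharacter C, ∀ ε ε' : ℤ, (ε = 1 ∨ ε = -1) → (ε' = 1 ∨ ε' = -1) → (∀ c : C, ∀ s : Γ, Subgroup.zpowers s = S → (χh : Γ → ℂ) ((c : Γ) * s) = (ε : ℂ) * (β : C → ℂ) c) → (∀ c : C, ∀ s : Γ, Subgroup.zpowers s = S → (χh' : Γ → ℂ) ((c : Γ) * s) = (ε' : ℂ) * (β : C → ℂ) c) → χ = χ') ∧ (∀ β : Cfsg.IrrCharacter C, ∃ (χ : Cfsg.IrrCharacter G) (χh : Cfsg.IrrCharacter Γ) (ε : ℤ), (∀ s ∈ S, ∀ g g' : G, (g' : Γ) = s * g * s⁻¹ → (χ : G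 → ℂ) g' = (χ : G → ℂ) g) ∧ (∀ g : G, (χh : Γ → ℂ) g = (χ : G → ℂ) g) ∧ (Cfsg.detOrder (χh : Γ → ℂ)).Coprime (Nat.card S) ∧ (ε = 1 ∨ ε = -1) ∧ ∀ c : C, ∀ s : Γ, Subgroup.zpowers s = S → (χh : Γ → ℂ) ((c : Γ) * s) = (ε : ℂ) * (β : C → ℂ) c) := by
  have hSG : S ≤ Subgroup.normalizer (G : Set Γ) := Subgroup.le_normalizer_iff.2 hnorm
  have hGn : G.Normal := Subgroup.normalizer_eq_top_iff.1
    (top_le_iff.1 (htop ▸ sup_le Subgroup.le_normalizer hSG))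
  have hidx : G.index = Nat.card S := by
    have h1 := Lib.Solv.Coprime.card_sup hSG (Subgroup.disjoint_of_coprime_natCard hcop)
    rw [htop, Subgroup.card_top, ← G.card_mul_index] at h1
    exact Nat.eq_of_mul_eq_mul_left Nat.card_pos h1
  rw [← hidx] at hcop ⊢
  obtain ⟨s₀, hs₀⟩ := (Subgroup.isCyclic_iff_exists_zpowers_eq_top S).1 hcyc
  have hord : ∀ s : Γ, Subgroup.zpowers s = S → orderOf s = G.index := fun s hs => by
    rw [hidx, ← hs, Nat.card_zpowers]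
  have hCs : ∀ s : Γ, Subgroup.zpowers s = S → ∀ x, x ∈ C ↔ x ∈ G ∧ x * s = s * x := by
    intro s hs x
    rw [hC, Subgroup.mem_inf, Subgroup.mem_centralizer_iff]
    refine and_congr_right fun _ => ⟨fun h => (h s (hs ▸ Subgroup.mem_zpowers s)).symm, ?_⟩
    rw [← hs]
    rintro h _ ⟨k, rfl⟩
    exact (Commute.zpow_right h k).eq.symm
  have main : ∀ (χ : IrrCharacter G) (χh : IrrCharacter Γ), (∀ g : G, χh.1 g = χ.1 g) →
      (detOrder χh.1).Coprime G.index → ∃ (β : IrrCharacter C) (ε : ℤ), (ε = 1 ∨ ε = -1) ∧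
        ∀ c : C, ∀ s : Γ, Subgroup.zpowers s = S → χh.1 (c * s) = ε * β.1 c := by
    intro χ χh he hd
    have hirr : IsIrrCharacter G fun n : G => χh.1 n := by simpa only [he] using χ.2
    obtain ⟨β, ε, hε, h⟩ := exists_sign_irr_coset hcop χh.2.isCharacter hirr hd
      (hord s₀ hs₀).dvd (hCs s₀ hs₀)
    refine ⟨β, ε, hε, fun c s hs => ?_⟩
    have h1 : s ∈ Subgroup.zpowers s₀ := by rw [hs₀, ← hs]; exact Subgroup.mem_zpowers s
    obtain ⟨m, rfl⟩ := (mem_powers_iff_mem_zpowers).2 h1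
    have h2 := hord _ hs
    rw [← hord s₀ hs₀, orderOf_pow, Nat.div_eq_self] at h2
    rw [← h c]
    exact canonical_ext_mul_pow hcop χh.2.isCharacter hirr hd (hord s₀ hs₀).dvd
      ((hCs s₀ hs₀ c).1 c.2).1 ((hCs s₀ hs₀ c).1 c.2).2
      (Nat.Coprime.symm (h2.resolve_left (orderOf_pos s₀).ne'))
  have inj : ∀ (χ χ' : IrrCharacter G) (χh χh' : IrrCharacter Γ), (∀ g : G, χh.1 g = χ.1 g) →
      (∀ g : G, χh'.1 g = χ'.1 g) → ∀ (β : IrrCharacter C) (ε ε' : ℤ), (ε = 1 ∨ ε = -1) →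
      (ε' = 1 ∨ ε' = -1) → (∀ c : C, χh.1 (c * s₀) = ε * β.1 c) →
      (∀ c : C, χh'.1 (c * s₀) = ε' * β.1 c) → χ = χ' := by
    intro χ χ' χh χh' he he' β ε ε' hε hε' h h'
    by_contra hne
    have h1 := classInner_coset_eq_zero (hord s₀ hs₀ ▸ hcop) (hCs s₀ hs₀) χh.2.isCharacter
      χh'.2.isCharacter (by
        simp only [he, he']
        exact χ.2.classInner_of_ne χ'.2 fun h => hne (Subtype.ext h))
    simp only [h, h'] at h1
    rw [classInner_sign_smul, β.2.classInner_self] at h1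
    rcases hε with rfl | rfl <;> rcases hε' with rfl | rfl <;> simp at h1
  refine ⟨fun χ χh _ he hd => ⟨?_, fun β ε hε h => ?_⟩,
    fun χ χ' χh χh' _ _ he he' _ _ β ε ε' hε hε' h h' =>
      inj χ χ' χh χh' he he' β ε ε' hε hε' (fun c => h c s₀ hs₀) (fun c => h' c s₀ hs₀), ?_⟩
  · obtain ⟨β, ε, hε, h⟩ := main χ χh he hd
    refine ⟨(β, ε), ⟨hε, h⟩, ?_⟩
    rintro ⟨γ, δ⟩ ⟨hδ, h'⟩
    obtain ⟨h1, h2⟩ := eq_of_sign_mul_eq hδ fun c => (h' c s₀ hs₀).symm.trans (h c s₀ hs₀)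
    exact Prod.ext h1 h2
  · have h1 := classInner_res_ne_zero_of_coset (fun x hx => ((hCs s₀ hs₀ x).1 hx).2)
      χh.2.isCharacter β.2.isCharacter (by
        simp only [fun c => h c s₀ hs₀]
        have h2 := classInner_sign_smul β.1 β.1 ε 1
        simp only [Int.cast_one, one_mul, mul_one] at h2
        rw [h2, β.2.classInner_self]
        rcases hε with rfl | rfl <;> simp)
    simpa only [← he] using h1
  · have : Group.IsSolvable S := by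
      let _ : CommGroup S := IsCyclic.commGroup
      infer_instance
    have hcard := card_isInv_eq_card_irr (hidx ▸ hcop) (isFixedEmb_conjHom hnorm hC hCG)
    have hext : ∀ χ : {χ : IrrCharacter G // IsInv (conjHom G S hnorm) χ.1},
        ∃ χh : IrrCharacter Γ, (∀ g : G, χh.1 g = χ.1.1 g) ∧ (detOrder χh.1).Coprime G.index := by
      intro χ
      obtain ⟨χh, h1, h2, h3, -⟩ := exists_canonical_ext_hall hcop χ.1.2 (fun g n => by
        obtain ⟨k, hk, a, ha, rfl⟩ := (Lib.Solv.Coprime.mem_sup_iff hSG).1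
          (htop ▸ Subgroup.mem_top g)
        rw [← χ.2 ⟨a, ha⟩ n, ← χ.1.2.isClassFunction (conjHom G S hnorm ⟨a, ha⟩ n) ⟨k, hk⟩]
        exact congrArg _ (Subtype.ext (by simp [mul_assoc])))
      exact ⟨⟨χh, h1⟩, h2, h3⟩
    choose χh h1 h2 using hext
    choose f ε hε hf using fun χ => main χ.1 (χh χ) (h1 χ) (h2 χ)
    have hb := (Nat.bijective_iff_injective_and_card f).2 ⟨fun χ χ' h => Subtype.ext
      (inj χ.1 χ'.1 (χh χ) (χh χ') (h1 χ) (h1 χ') (f χ) (ε χ) (ε χ') (hε χ) (hε χ')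
        (fun c => hf χ c s₀ hs₀) (fun c => h ▸ hf χ' c s₀ hs₀)), hcard⟩
    intro β
    obtain ⟨χ, rfl⟩ := hb.2 β
    exact ⟨χ.1, χh χ, ε χ, (isInv_conjHom_iff hnorm _).1 χ.2, h1 χ, h2 χ, hε χ, hf χ⟩

end Cfsg.Agent.S4446
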