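import Cfsg.Statements.S4447
import Cfsg.Agent.Char.InvOver

set_option autoImplicit false
open Cfsg

namespace Cfsg.Agent.S4447

open Cfsg.Lib.Char

/-- Inside a finite group Γ let S normalise G and also normalise a normal subgroup N of G, with the order of S coprime to the index of N in G and S or G/N solvable. Then for every S-invariant irreducible character χ of G, the restriction of χ to N has an S-invariant irreducible constituent. -/
theorem result {Γ : Type*} [Group Γ] [Fintype Γ] (G S N : Subgroup Γ) [Fintype G] [Fintype N] (hnorm : ∀ s ∈ S, ∀ g ∈ G, s * g * s⁻¹ ∈ G) (hNG : N ≤ G) [hNn : (N.subgroupOf G).Normal] (hNS : ∀ s ∈ S, ∀ n ∈ N, s * n * s⁻¹ ∈ N) (hcop : (N.relIndex G).Coprime (Nat.card S)) (hsolv : Group.IsSolvable S ∨ Group.IsSolvable (G ⧸ N.subgroupOf G)) (χ : Cfsg.IrrCharacter G) (hinv : (∀ s ∈ S, ∀ g g' : G, (g' : Γ) = s * g * s⁻¹ → (χ : G → ℂ) g' = (χ : G → ℂ) g)) : ∃ θ : Cfsg.IrrCharacter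 N, Cfsg.classInner (fun n : N => (χ : G → ℂ) ⟨n, hNG n.2⟩) (θ : N → ℂ) ≠ 0 ∧ (∀ s ∈ S, ∀ g g' : N, (g' : Γ) = s * g * s⁻¹ → (θ : N → ℂ) g' = (θ : N → ℂ) g) := by
  have := Fintype.ofFinite (N.subgroupOf G)
  obtain ⟨θ, hθ, hθi, h⟩ := exists_isInv_under (φ := conjHom G S hnorm)
    (N.subgroupOf G) (fun s g hg => hNS s s.2 g hg) ⊥
    (fun s hs => ⟨1, Subgroup.one_mem _, fun g => by simp [Subgroup.mem_bot.1 hs]⟩)
    (by rw [Subgroup.index_bot]; exact hcop.symm) (hsolv.imp_left fun h => by have := h; infer_instance) χ.2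
    ((isInv_conjHom_iff hnorm _).2 hinv)
  refine ⟨⟨_, hθ.of_subgroupOf hNG⟩, ?_, fun s hs g g' hg => ?_⟩
  · rwa [← classInner_res_subgroupOf hNG]
  · exact Eq.trans (congrArg θ (Subtype.ext (Subtype.ext hg))) (hθi ⟨s, hs⟩ ⟨⟨g, hNG g.2⟩, g.2⟩)

end Cfsg.Agent.S4447
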