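import Cfsg.Statements.S4451
import Cfsg.Agent.Char.Variance
import Cfsg.Agent.Char.DegBasic
import Cfsg.Agent.Solv.CoprimeBasic

set_option autoImplicit false
open Cfsg

namespace Cfsg.Agent.S4451

open Cfsg.Lib.Char

/-- Let the finite group Γ be generated by a normal subgroup G and a cyclic subgroup S of coprime orders such that every non-identity element of S has the same centraliser C = G ⊓ C(S) in G. Let χ be an S-invariant irreducible character of G, χ̂ its canonical extension to Γ (determinantal order coprime to the order of S), and β the irreducible character of C with χ̂(c s) = ε₀ β(c) for c ∈ C and generators s of S (ε₀ = ±1). Then there are a sign ε = ±1, which may differ from ε₀, and a linear character μ of S with μ² = 1, such that: (a) χ̂(c x) = ε β(c) μ(x) for all c ∈ C and all x ∈ S other than 1; (b) the restriction of χ to C equals |S|·ϑ + ε β for some character ϑ of C or ϑ = 0; (c) |S| divides χ(1) − ε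 β(1). -/
theorem result {Γ : Type*} [Group Γ] [Fintype Γ] (G S : Subgroup Γ) [Fintype G] (hnorm : ∀ s ∈ S, ∀ g ∈ G, s * g * s⁻¹ ∈ G) (hcop : (Nat.card G).Coprime (Nat.card S)) (htop : G ⊔ S = ⊤) (hcyc : IsCyclic S) (C : Subgroup Γ) [Fintype C] (hC : C = G ⊓ Subgroup.centralizer (S : Set Γ)) (hCG : C ≤ G) (hfpf : ∀ x ∈ S, x ≠ 1 → G ⊓ Subgroup.centralizer ({x} : Set Γ) = C) (χ : Cfsg.IrrCharacter G) (hinv : (∀ s ∈ S, ∀ g g' : G, (g' : Γ) = s * g * s⁻¹ → (χ : G → ℂ) g' = (χ : G → ℂ) g)) (χh : Cfsg.IrrCharacter Γ) (hext : (∀ g : G, (χh : Γ → ℂ) g = (χ : G → ℂ) g)) (hdet : (Cfsg.detOrder (χh : Γ → ℂ)).Coprime (Nat.card S)) (β : Cfsg.IrrCharacter C) (ε₀ : ℤ) (hε₀ : ε₀ = 1 ∨ ε₀ = -1) (hβ : ∀ c : C, ∀ s : Γ, Subgroup.zpowers s = S → (χh : Γ → ℂ) ((c : Γ) * s) = (ε₀ : ℂ) * (β : C → ℂ) c) : ∃ ε : ℤ, (ε = 1 ∨ ε = -1) ∧ (∃ μ : S → ℂ, Cfsg.IsCharacter S μ ∧ μ 1 = 1 ∧ (∀ x : S, μ x * μ x = 1) ∧ ∀ c : C, ∀ x : S, x ≠ 1 → (χh : Γ → ℂ)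 ((c : Γ) * x) = (ε : ℂ) * (β : C → ℂ) c * μ x) ∧ (∃ ϑ : C → ℂ, Cfsg.IsCharacter C ϑ ∧ (fun c : C => (χ : G → ℂ) ⟨c, hCG c.2⟩) = fun c => (Nat.card S : ℂ) * ϑ c + (ε : ℂ) * (β : C → ℂ) c) ∧ (Nat.card S : ℤ) ∣ (Cfsg.charDegree (χ : G → ℂ) : ℤ) - ε * (Cfsg.charDegree (β : C → ℂ) : ℤ) := by
  classical
  have hSG : S ≤ Subgroup.normalizer (G : Set Γ) := Subgroup.le_normalizer_iff.2 hnorm
  have hGn : G.Normal := Subgroup.normalizer_eq_top_iff.1
    (top_le_iff.1 (htop ▸ sup_le Subgroup.le_normalizer hSG))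
  have hidx : G.index = Nat.card S := by
    have h1 := Lib.Solv.Coprime.card_sup hSG (Subgroup.disjoint_of_coprime_natCard hcop)
    rw [htop, Subgroup.card_top, ← G.card_mul_index] at h1
    exact Nat.eq_of_mul_eq_mul_left Nat.card_pos h1
  have hcop' := hcop
  have hdet' := hdet
  rw [← hidx] at hcop' hdet'
  obtain ⟨s₀, hs₀⟩ := (Subgroup.isCyclic_iff_exists_zpowers_eq_top S).1 hcyc
  have hs₀S : s₀ ∈ S := hs₀ ▸ Subgroup.mem_zpowers s₀
  have hirr : IsIrrCharacter G fun n : G => χh.1 n := by simpa only [hext] using χ.2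
  have hcomm : ∀ (c : C) (x : S), (c : Γ) * x = x * c := by
    intro c x
    exact ((hC.le c.2).2 x x.2).symm
  -- (c) follows from (b)
  have hc : ∀ (ε : ℤ) (ϑ : C → ℂ), IsCharacter C ϑ →
      ((fun c : C => (χ : G → ℂ) ⟨c, hCG c.2⟩) =
        fun c => (Nat.card S : ℂ) * ϑ c + (ε : ℂ) * (β : C → ℂ) c) →
      (Nat.card S : ℤ) ∣ (charDegree (χ : G → ℂ) : ℤ) - ε * (charDegree (β : C → ℂ) : ℤ) := by
    intro ε ϑ hϑ h
    obtain ⟨d, hd⟩ := IsCharacter.exists_nat_degree hϑ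
    have h1 := congrFun h 1
    refine ⟨d, ?_⟩
    have h2 : (χ : G → ℂ) ⟨((1 : C) : Γ), hCG (1 : C).2⟩ = χ.1 1 := rfl
    simp only [h2, hd] at h1
    rw [← Deg.cast_deg χ.2.isCharacter, ← Deg.cast_deg β.2.isCharacter] at h1
    have h3 : (((charDegree (χ : G → ℂ) : ℤ) - ε * (charDegree (β : C → ℂ) : ℤ) : ℤ) : ℂ) =
        (((Nat.card S : ℤ) * d : ℤ) : ℂ) := by
      push_cast; rw [h1]; ring
    exact_mod_cast h3
  by_cases h1 : s₀ = 1
  · have hS : S = ⊥ := by rw [← hs₀, h1, Subgroup.zpowers_one_eq_bot]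
    have hb : (fun c : C => (χ : G → ℂ) ⟨c, hCG c.2⟩) =
        fun c => (Nat.card S : ℂ) * (0 : C → ℂ) c + (ε₀ : ℂ) * (β : C → ℂ) c := by
      funext c
      rw [← hext, ← hβ c s₀ hs₀, h1]; simp
    refine ⟨ε₀, hε₀, ⟨fun _ => 1, isCharacter_one, rfl, by simp, fun c x hx => ?_⟩,
      ⟨0, isCharacter_zero, hb⟩, hc _ _ isCharacter_zero hb⟩
    exact absurd (Subtype.ext (by simpa [hS] using x.2)) hx
  let a : IrrCharacter C → S → ℂ := fun γ x => classInner (fun c : C => χh.1 (c * x)) γ.1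
  have ha : ∀ γ, IsCharacter S (a γ) := fun γ =>
    isCharacter_classInner_mul C.subtype S.subtype hcomm χh.2.isCharacter γ.2.isCharacter
  have hx : ∀ x : S, x ≠ 1 → ∃ (γ : IrrCharacter C) (δ : ℤ), (δ = 1 ∨ δ = -1) ∧
      (∀ c : C, χh.1 (c * x) = δ * γ.1 c) ∧ ∀ η, a η x = if γ = η then (δ : ℂ) else 0 := by
    intro x hx
    obtain ⟨γ, δ, hδ, h⟩ := exists_sign_irr_coset (C := C) (s := x) hcop' χh.2.isCharacter hirr
      hdet' (by rw [hidx]; exact Subgroup.orderOf_dvd_natCard S x.2) (fun y => by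
        rw [← hfpf x x.2 (fun h => hx (Subtype.ext h)), Subgroup.mem_inf,
          Subgroup.mem_centralizer_singleton_iff])
    refine ⟨γ, δ, hδ, h, fun η => ?_⟩
    have h2 := classInner_sign_smul γ.1 η.1 δ 1
    simp only [Int.cast_one, one_mul, mul_one] at h2
    simp only [a, h, h2, classInner_irr]
    split_ifs <;> simp
  have hS : ∀ x y : S, x * y = y * x := by
    let _ : CommGroup S := IsCyclic.commGroup
    exact fun x y => mul_comm x y
  have hs₀1 : (⟨s₀, hs₀S⟩ : S) ≠ 1 := fun h => h1 (congrArg Subtype.val h)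
  obtain ⟨k, ε, μ, hε, hk, hμ⟩ := exists_eq_regular_add_sign hS (ha β).isGeneralizedCharacter
    (fun x hx1 => by
      obtain ⟨γ, δ, hδ, -, h⟩ := hx x hx1
      rw [h]
      split_ifs
      · rcases hδ with rfl | rfl <;> simp
      · simp) hs₀1 (by
      have h2 := classInner_sign_smul β.1 β.1 ε₀ 1
      simp only [Int.cast_one, one_mul, mul_one] at h2
      simp only [a, fun c => hβ c s₀ hs₀, h2, β.2.classInner_self]
      rcases hε₀ with rfl | rfl <;> simp)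
  have hε0 : (ε : ℂ) ≠ 0 := by rcases hε with rfl | rfl <;> simp
  have hε2 : (ε : ℂ) * ε = 1 := by rcases hε with rfl | rfl <;> simp
  have hx' : ∀ x : S, x ≠ 1 → (μ x : ℂ) * μ x = 1 ∧
      (∀ c : C, χh.1 (c * x) = ε * β.1 c * μ x) ∧ ∀ η, η ≠ β → a η x = 0 := by
    intro x hx1
    obtain ⟨γ, δ, hδ, h, h'⟩ := hx x hx1
    have h2 := h' β
    rw [hμ x hx1] at h2
    have h3 : γ = β := by
      by_contra hne
      rw [if_neg hne] at h2
      exact mul_ne_zero hε0 (μ x).ne_zero h2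
    subst h3
    rw [if_pos rfl] at h2
    refine ⟨?_, fun c => by rw [h, ← h2]; ring, fun η hη => by rw [h', if_neg (Ne.symm hη)]⟩
    have hδ2 : (δ : ℂ) * δ = 1 := by rcases hδ with rfl | rfl <;> simp
    rw [← h2] at hδ2
    linear_combination hδ2 - (μ x : ℂ) * μ x * hε2
  have hn0 : (Nat.card S : ℂ) ≠ 0 := card_ne_zero S
  let ϑ : C → ℂ := (Nat.card S : ℂ)⁻¹ • ((fun c : C => χh.1 c) - (ε : ℂ) • β.1)
  have hϑ : IsCharacter C ϑ := by
    have := Fintype.ofFinite S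
    refine isCharacter_iff_classInner.2 ⟨((χh.2.isClassFunction.res C).sub
      (β.2.isClassFunction.smul _)).smul _, fun η hη => ?_⟩
    have e1 : classInner (fun c : C => χh.1 c) η = a ⟨η, hη⟩ 1 := by simp [a]
    simp only [ϑ, classInner_smul_left, classInner_sub_left, e1]
    by_cases hβη : (⟨η, hη⟩ : IrrCharacter C) = β
    · rw [hβη, hk, show η = β.1 from congrArg Subtype.val hβη, β.2.classInner_self]
      obtain ⟨d, hd⟩ := IsCharacter.exists_nat_degree (ha β)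
      rw [hk] at hd
      have h2 : k * (Nat.card S : ℤ) + ε = d := by exact_mod_cast hd
      have h3 : 2 ≤ Nat.card S := by
        have : Nontrivial S := ⟨⟨_, _, hs₀1⟩⟩
        exact Finite.one_lt_card
      have h4 : 0 ≤ k := by
        by_contra hk0
        have : k ≤ -1 := by omega
        have h5 : (2 : ℤ) ≤ Nat.card S := by exact_mod_cast h3
        rcases hε with rfl | rfl <;> nlinarith
      refine ⟨k.toNat, ?_⟩
      have h6 : ((k.toNat : ℕ) : ℂ) = k := by exact_mod_cast Int.toNat_of_nonneg h4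
      rw [h6]; field_simp; ring
    · rw [β.2.classInner_of_ne hη (fun h => hβη (Subtype.ext h.symm))]
      obtain ⟨m, hm⟩ := IsCharacter.exists_nat_classInner (ha ⟨η, hη⟩) isCharacter_one
      refine ⟨m, ?_⟩
      rw [← hm, classInner_one_right, Finset.sum_eq_single (1 : S)
        (fun x _ hx1 => (hx' x hx1).2.2 _ hβη) (by simp)]
      simp
  have hb : (fun c : C => (χ : G → ℂ) ⟨c, hCG c.2⟩) =
      fun c => (Nat.card S : ℂ) * ϑ c + (ε : ℂ) * (β : C → ℂ) c := by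
    funext c
    rw [← hext]
    simp only [ϑ, Pi.smul_apply, Pi.sub_apply, smul_eq_mul]
    field_simp; ring
  refine ⟨ε, hε, ⟨fun x => μ x, (isIrrCharacter_monoidHom μ).isCharacter, by simp, fun x => ?_,
    fun c x hx1 => (hx' x hx1).2.1 c⟩, ⟨ϑ, hϑ, hb⟩, hc _ _ hϑ hb⟩
  by_cases hx1 : x = 1
  · simp [hx1]
  · exact (hx' x hx1).1

end Cfsg.Agent.S4451
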