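import Cfsg.Statements.S4452
import Cfsg.Agent.Char.InvOver
import Cfsg.Agent.Char.Extension
import Cfsg.Agent.Char.DegBasic
import Cfsg.Agent.Solv.SchurZassenhaus

set_option autoImplicit false
open Cfsg

namespace Cfsg.Agent.S4452

open Cfsg.Lib.Char

theorem count {G : Type*} [Group G] [Finite G] (K H : Subgroup G) [hK : K.Normal]
    (hKH : K ⊔ H = ⊤) (hcop : (Nat.card K).Coprime (Nat.card H)) :
    Nat.card {χ : IrrCharacter G // (charDegree χ.1).Coprime (Nat.card H)} =
      Nat.card {θ : IrrCharacter K // IsInv (conjHom K H fun s _ g hg => hK.conj_mem g hg s) θ.1} *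
        Nat.card (H →* ℂˣ) := by
  have := Fintype.ofFinite G
  have := Fintype.ofFinite K
  have hc : K.IsComplement' H := Lib.Solv.SZ.isComplement'_of_sup_of_disjoint hKH
    (Subgroup.disjoint_of_coprime_natCard hcop)
  have hidx : K.index = Nat.card H := hc.symm.index_eq_card
  rw [← Nat.card_congr (hc.symm.QuotientMulEquiv.monoidHomCongrLeftEquiv (N := ℂˣ)), ← Nat.card_prod]
  choose e he1 he2 using fun θ : {θ : IrrCharacter K //
      IsInv (conjHom K H fun s _ g hg => hK.conj_mem g hg s) θ.1} =>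
    exists_ext_of_coprime_card θ.1.2 (invariant_of_sup_eq_top hKH θ.1.2.isClassFunction θ.2)
      (hidx ▸ hcop)
  have h1 : ∀ (ν : G ⧸ K →* ℂˣ) (k : K), ν (QuotientGroup.mk' K k) = 1 := fun ν k => by
    rw [QuotientGroup.mk'_apply, (QuotientGroup.eq_one_iff _).2 k.2, map_one]
  symm
  refine Nat.card_congr (Equiv.ofBijective (fun x => ⟨⟨e x.1 * fun g =>
    (x.2.comp (QuotientGroup.mk' K) g : ℂ), (he1 x.1).mul_monoidHom _⟩, ?_⟩) ⟨?_, ?_⟩)
  · refine hcop.coprime_dvd_left (Dvd.dvd.trans (dvd_of_eq (Deg.deg_congr ?_))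
      (Deg.deg_dvd_card x.1.1.2))
    simpa using he2 x.1 1
  · rintro ⟨θ, ν⟩ ⟨θ', ν'⟩ h
    have h2 := congrFun (congrArg (fun x => x.1.1) h)
    obtain rfl : θ = θ' := Subtype.ext (Subtype.ext (funext fun k => by
      simpa only [Pi.mul_apply, MonoidHom.comp_apply, h1, he2, Units.val_one, mul_one] using h2 k))
    refine Prod.ext rfl (monoidHom_coe_injective ?_)
    exact (galData_subtype K (he1 θ).isCharacter (by simpa only [he2] using θ.1.2)).eq_of_mul_eq h2
  · rintro ⟨χ, hχ⟩
    have h2 := irr_res_of_coprime (N := K) χ.2 (Deg.apply_one_eq χ.2.isCharacter) (hidx ▸ hχ)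
    let θ : {θ : IrrCharacter K // IsInv (conjHom K H fun s _ g hg => hK.conj_mem g hg s) θ.1} :=
      ⟨⟨_, h2⟩, fun s g => χ.2.isClassFunction g s⟩
    obtain ⟨ν, h3, h4⟩ := exists_monoidHom_of_ext_ext h2 (he1 θ).isCharacter χ.2.isCharacter
      (he2 θ) fun _ => rfl
    exact ⟨(θ, QuotientGroup.lift K ν h3), Subtype.ext (Subtype.ext h4.symm)⟩

/-- Let the finite group G be the product of a normal subgroup K and a solvable subgroup H of coprime orders, and let N = N_G(H). Then the number of irreducible characters of G of degree coprime to the order of H equals the number of irreducible characters of N of degree coprime to the order of H. (The two sets are in fact in a canonical bijection; only the equality of their sizes is stated here.) -/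
theorem result {G : Type*} [Group G] [Finite G] (K H : Subgroup G) [K.Normal] (hKH : K ⊔ H = ⊤) (hcop : (Nat.card K).Coprime (Nat.card H)) (hsolv : Group.IsSolvable H) : Nat.card {χ : Cfsg.IrrCharacter G // (Cfsg.charDegree (χ : G → ℂ)).Coprime (Nat.card H)} = Nat.card {η : Cfsg.IrrCharacter (Subgroup.normalizer (H : Set G)) // (Cfsg.charDegree (η : Subgroup.normalizer (H : Set G) → ℂ)).Coprime (Nat.card H)} := by
  set N := Subgroup.normalizer (H : Set G)
  have hHN : H ≤ N := Subgroup.le_normalizer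
  have hcard : Nat.card (H.subgroupOf N) = Nat.card H :=
    Nat.card_congr (Subgroup.subgroupOfEquivOfLe hHN).toEquiv
  have hcop' : (Nat.card (K.subgroupOf N)).Coprime (Nat.card (H.subgroupOf N)) := by
    rw [hcard]
    exact hcop.coprime_dvd_left (Lib.Solv.SZ.card_subgroupOf_dvd K N)
  have h1 := count (K.subgroupOf N) (H.subgroupOf N) (by
    rw [eq_top_iff]
    intro n _
    obtain ⟨k, hk, h, hh, hn⟩ := Subgroup.mem_sup_of_normal_left.1 (hKH ▸ Subgroup.mem_top (n : G))
    have hkN : k ∈ N := by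
      rw [eq_mul_inv_of_mul_eq hn]
      exact N.mul_mem n.2 (N.inv_mem (hHN hh))
    rw [show n = ⟨k, hkN⟩ * ⟨h, hHN hh⟩ from Subtype.ext hn.symm]
    exact Subgroup.mul_mem_sup hk hh) hcop'
  have := Lib.Solv.SZ.isSolvable_subgroupOf H N hsolv
  let C := K ⊓ Subgroup.centralizer (H : Set G)
  have hCN : C ≤ N := inf_le_right.trans (Subgroup.centralizer_le_normalizer _)
  rw [card_isInv_eq_card_irr hcop' (i := (Subgroup.inclusion hCN).codRestrict (K.subgroupOf N)
    fun c => c.2.1) ⟨fun a b h => Subtype.ext (congrArg (fun x => x.1.1) h), fun g => ⟨by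
      rintro ⟨c, rfl⟩ s
      refine Subtype.ext (Subtype.ext ?_)
      change (s : G) * c * (s : G)⁻¹ = (c : G)
      rw [c.2.2 s s.2, mul_inv_cancel_right], fun h => ⟨⟨g, g.2, fun s hs => ?_⟩, rfl⟩⟩⟩,
    Nat.card_congr ((Subgroup.subgroupOfEquivOfLe hHN).monoidHomCongrLeftEquiv (N := ℂˣ)),
    hcard] at h1
  · rw [h1, count K H hKH hcop, card_isInv_eq_card_irr hcop (isFixedEmb_conjHom _ rfl inf_le_left)]
  · exact mul_inv_eq_iff_eq_mul.1 (congrArg (fun x => x.1.1) (h ⟨⟨s, hHN hs⟩, hs⟩))

end Cfsg.Agent.S4452
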