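import Cfsg.Statements.S4453
import Cfsg.Agent.Char.Isaacs

set_option autoImplicit false
open Cfsg

namespace Cfsg.Agent.S4453

open Cfsg.Lib.Char

/-- Inside a finite group Γ let S normalise the solvable subgroup G of odd order with the orders of G and S coprime, let C = G ⊓ C(S), and let L ≤ K be S-invariant normal subgroups of G with K/L abelian, G = KC and H = LC (so C ≤ H ≤ G). Then for each S-invariant irreducible character χ of G there is exactly one S-invariant irreducible character ψ of H whose multiplicity in the restriction of χ to H is odd, and χ ↦ ψ is a bijection from the S-invariant irreducible characters of G onto those of H (distinct χ give distinct ψ, and every S-invariant ψ arises). -/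
theorem result {Γ : Type*} [Group Γ] [Fintype Γ] (G S : Subgroup Γ) [Fintype G] (hnorm : ∀ s ∈ S, ∀ g ∈ G, s * g * s⁻¹ ∈ G) (hcop : (Nat.card G).Coprime (Nat.card S)) (hGsolv : Group.IsSolvable G) (hodd : Odd (Nat.card G)) (C : Subgroup Γ) [Fintype C] (hC : C = G ⊓ Subgroup.centralizer (S : Set Γ)) (hCG : C ≤ G) (K L H : Subgroup Γ) [Fintype H] (hLK : L ≤ K) (hKG : K ≤ G) (hKn : ∀ g ∈ G, ∀ k ∈ K, g * k * g⁻¹ ∈ K) (hLn : ∀ g ∈ G, ∀ l ∈ L, g * l * g⁻¹ ∈ L) (hKS : ∀ s ∈ S, ∀ k ∈ K, s * k * s⁻¹ ∈ K) (hLS : ∀ s ∈ S, ∀ l ∈ L, s * l * s⁻¹ ∈ L) (hab : ∀ a ∈ K, ∀ b ∈ K, a * b * a⁻¹ * b⁻¹ ∈ L) (hGKC : K ⊔ C = G) (hH : H = L ⊔ C) (hHG : H ≤ G) : (∀ χ : Cfsg.IrrCharacter G, (∀ s ∈ S, ∀ g g' : G, (g' : Γ) = s * g * s⁻¹ → (χ : G → ℂ) g' = (χ : G → ℂ) g) → ∃! ψ : Cfsg.IrrCharacter H, (∀ s ∈ S, ∀ g g' : H, (g' : Γ) = s * g * s⁻¹ → (ψ : H → ℂ) g'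 = (ψ : H → ℂ) g) ∧ ∃ m : ℕ, Cfsg.classInner (fun h : H => (χ : G → ℂ) ⟨h, hHG h.2⟩) (ψ : H → ℂ) = (m : ℂ) ∧ Odd m) ∧ (∀ χ χ' : Cfsg.IrrCharacter G, (∀ s ∈ S, ∀ g g' : G, (g' : Γ) = s * g * s⁻¹ → (χ : G → ℂ) g' = (χ : G → ℂ) g) → (∀ s ∈ S, ∀ g g' : G, (g' : Γ) = s * g * s⁻¹ → (χ' : G → ℂ) g' = (χ' : G → ℂ) g) → ∀ ψ : Cfsg.IrrCharacter H, (∀ s ∈ S, ∀ g g' : H, (g' : Γ) = s * g * s⁻¹ → (ψ : H → ℂ) g' = (ψ : H → ℂ) g) → ∀ m m' : ℕ, Cfsg.classInner (fun h : H => (χ : G → ℂ) ⟨h, hHG h.2⟩) (ψ : H → ℂ) = (m : ℂ) → Odd m → Cfsg.classInner (fun h : H => (χ' : G → ℂ) ⟨h, hHG h.2⟩) (ψ : H → ℂ) = (m' : ℂ) → Odd m' → χ = χ') ∧ (∀ ψ : Cfsg.IrrCharacter H, (∀ s ∈ S, ∀ g g' : H, (g' : Γ) = s * g * s⁻¹ → (ψ : H → ℂ) g' = (ψ : H → ℂ) g) → ∃ χ : Cfsg.IrrCharacter G, (∀ s ∈ S, ∀ g g' : G, (g' : Γ) = s * g * s⁻¹ → (χ : G → ℂ) g' = (χ : G → ℂ) g) ∧ ∃ m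 : ℕ, Cfsg.classInner (fun h : H => (χ : G → ℂ) ⟨h, hHG h.2⟩) (ψ : H → ℂ) = (m : ℂ) ∧ Odd m) := by
  have hCH : C ≤ H := hH ▸ le_sup_right
  have hLH : L ≤ H := hH ▸ le_sup_left
  have nK : G ≤ Subgroup.normalizer (K : Set Γ) := fun g hg =>
    Cfsg.Lib.Solv.mem_normalizer_of_conj_mem (hKn g hg)
  have nL : G ≤ Subgroup.normalizer (L : Set Γ) := fun g hg =>
    Cfsg.Lib.Solv.mem_normalizer_of_conj_mem (hLn g hg)
  have key : ∀ N : Subgroup Γ, (∀ g ∈ G, ∀ k ∈ N, g * k * g⁻¹ ∈ N) →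
      (∀ s ∈ S, ∀ k ∈ N, s * k * s⁻¹ ∈ N) → ∀ g ∈ N ⊔ C, ∀ s ∈ S, g⁻¹ * (s * g * s⁻¹) ∈ N := by
    intro N h1 h2 g hg s hs
    obtain ⟨n, hn, c, hc, rfl⟩ := (Cfsg.Lib.Solv.mem_sup_of_le_normalizer fun x hx =>
      Cfsg.Lib.Solv.mem_normalizer_of_conj_mem (h1 x (hCG hx))).1 hg
    have h3 : s * c = c * s := (hC.le hc).2 s hs
    have := h1 c⁻¹ (G.inv_mem (hCG hc)) _ (N.mul_mem (N.inv_mem hn) (h2 s hs n hn))
    have h4 : c * s⁻¹ = s⁻¹ * c := by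
      rw [mul_inv_eq_iff_eq_mul, mul_assoc, ← h3, inv_mul_cancel_left]
    convert this using 1
    simp only [mul_assoc, h4, mul_inv_rev, inv_inv]
  have sH : S ≤ Subgroup.normalizer (H : Set Γ) := fun s hs =>
    Cfsg.Lib.Solv.mem_normalizer_of_conj_mem fun g hg => by
      simpa using H.mul_mem hg (hLH (key L hLn hLS g (hH ▸ hg) s hs))
  have sL : S ≤ Subgroup.normalizer ((K ⊓ H : Subgroup Γ) : Set Γ) :=
    Cfsg.Lib.Solv.le_normalizer_inf (fun s hs =>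
      Cfsg.Lib.Solv.mem_normalizer_of_conj_mem (hKS s hs)) sH
  have h : IsaacsHyp G S K (K ⊓ H) H :=
    { cop := hcop
      solv := hGsolv
      odd := hodd
      LK := inf_le_left
      KG := hKG
      nK := nK
      nL := by
        rw [← hGKC]
        refine sup_le (fun k hk => Cfsg.Lib.Solv.mem_normalizer_of_conj_mem fun x hx =>
          ⟨hKn k (hKG hk) x hx.1, ?_⟩) (Cfsg.Lib.Solv.le_normalizer_inf (hCG.trans nK)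
            (hCH.trans Subgroup.le_normalizer))
        simpa using H.mul_mem (hLH (hab k hk x hx.1)) hx.2
      sL := sL
      ab := fun x hx y hy => ⟨hLK (hab x hx y hy), hLH (hab x hx y hy)⟩
      triv := fun g hg => key K hKn hKS g (hGKC ▸ hg)
      mem_H := fun g => ⟨fun hg => ⟨hHG hg, fun s hs =>
          ⟨hLK (key L hLn hLS g (hH ▸ hg) s hs), hLH (key L hLn hLS g (hH ▸ hg) s hs)⟩⟩,
        fun hg => by
          obtain ⟨u, hu, h1⟩ := Cfsg.Lib.Solv.Coprime.exists_mul_mem_centralizer sL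
            (hcop.symm.coprime_dvd_right (Subgroup.card_dvd_of_le (inf_le_right.trans hHG)))
            (Or.inr (Group.isSolvable_of_isSolvable_injective
              (Subgroup.inclusion_injective (inf_le_right.trans hHG)))) hg.2
          exact (H.mul_mem_cancel_right hu.2).1 (hCH (hC.ge ⟨G.mul_mem hg.1 (hHG hu.2), h1⟩))⟩
      red := fun g h1 h2 => ⟨h1, h2⟩ }
  have e : ∀ (χ : G → ℂ) (ψ : H → ℂ), (∃ m : ℕ, Cfsg.classInner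
      (fun h : H => χ ⟨h, hHG h.2⟩) ψ = (m : ℂ) ∧ Odd m) ↔ GCor 2 (Subgroup.inclusion hHG) χ ψ := by
    intro χ ψ
    rw [gcor_iff_classInner]
    exact exists_congr fun m => by
      rw [and_comm, ← Nat.not_even_iff_odd, even_iff_two_dvd]; rfl
  refine ⟨fun χ hχ => ?_, fun χ χ' hχ hχ' ψ hψ m m' h1 h2 h3 h4 => ?_, fun ψ hψ => ?_⟩
  · obtain ⟨ψ, ⟨h1, h2⟩, hu⟩ := h.relBij.right χ.1 ⟨χ.2, hχ⟩
    exact ⟨⟨ψ, h1.1⟩, ⟨h1.2, (e _ _).2 h2⟩, fun ψ' h3 =>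
      Subtype.ext (hu ψ'.1 ⟨⟨ψ'.2, h3.1⟩, (e _ _).1 h3.2⟩)⟩
  · exact Subtype.ext ((h.relBij.left ψ.1 ⟨ψ.2, hψ⟩).unique ⟨⟨χ.2, hχ⟩, (e _ _).1 ⟨m, h1, h2⟩⟩
      ⟨⟨χ'.2, hχ'⟩, (e _ _).1 ⟨m', h3, h4⟩⟩)
  · obtain ⟨χ, ⟨h1, h2⟩, -⟩ := h.relBij.left ψ.1 ⟨ψ.2, hψ⟩
    exact ⟨⟨χ, h1.1⟩, h1.2, (e _ _).2 h2⟩

end Cfsg.Agent.S4453
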