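import Cfsg.Statements.S4454
import Cfsg.Agent.Char.Variance
import Cfsg.Agent.Char.Gallagher
import Cfsg.Agent.Char.Extension
import Cfsg.Agent.Char.IndTransport

set_option autoImplicit false
open Cfsg

namespace Cfsg.Agent.S4454

open Cfsg.Lib.Char

open scoped ComplexConjugate Pointwise

theorem gallagher_char {G : Type*} [Group G] [Finite G] {N : Subgroup G} [N.Normal] [Fintype N]
    {χ ψ : G → ℂ} (hχ : IsCharacter G χ) (hχN : IsIrrCharacter N fun n : N => χ n)
    (hψ : IsCharacter G ψ) {e : ℂ} (he : (fun n : N => ψ n) = e • fun n : N => χ n) :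
    ∃ β : G ⧸ N → ℂ, IsCharacter (G ⧸ N) β ∧ ∀ g, ψ g = β (QuotientGroup.mk g) * χ g := by
  classical
  have := Fintype.ofFinite G
  obtain ⟨c, hc, hψc, -⟩ := IsCharacter.exists_nat_multiplicity hψ
  have key : ∀ η : IrrCharacter G, ∃ β : G ⧸ N → ℂ, IsCharacter (G ⧸ N) β ∧
      ∀ g, (c η : ℂ) * η.1 g = β (QuotientGroup.mk g) * χ g := by
    intro η
    by_cases h0 : c η = 0
    · exact ⟨0, isCharacter_zero, fun g => by simp [h0]⟩
    obtain ⟨φ, hφ, h1⟩ := exists_irr_under N η.2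
    have h2 : classInner (fun n : N => ψ n) φ ≠ 0 := by
      have h3 := IsCharacter.sub_of_classInner_ne_zero hψ η.2 (by rw [hc]; exact_mod_cast h0)
      obtain ⟨a, ha⟩ := IsCharacter.exists_nat_classInner (IsCharacter.res h3 N) hφ.isCharacter
      obtain ⟨b, hb⟩ := IsCharacter.exists_nat_classInner (η.2.isCharacter.res N) hφ.isCharacter
      have e1 : (fun n : N => ψ n) = (fun n : N => (ψ - η.1) n) + fun n : N => η.1 n := by
        funext n; simp
      rw [e1, classInner_add_left, ha, hb]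
      rw [hb] at h1
      have : b ≠ 0 := by exact_mod_cast h1
      exact_mod_cast (by omega : a + b ≠ 0)
    rw [he, classInner_smul_left] at h2
    have h4 := IsIrrCharacter.eq_of_classInner_ne_zero hχN hφ (right_ne_zero_of_mul h2)
    obtain ⟨β, hβ, h5⟩ := gallagher_quotient_exists hχ hχN η.2 (by rw [h4]; exact h1)
    exact ⟨(c η : ℂ) • β, hβ.isCharacter.natCast_smul _, fun g => by rw [h5]; simp [mul_assoc]⟩
  choose β hβ h using key
  refine ⟨∑ η, β η, isCharacter_sum _ fun η _ => hβ η, fun g => ?_⟩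
  rw [hψc, Finset.sum_apply, Finset.sum_apply, Finset.sum_mul]
  exact Finset.sum_congr rfl fun η _ => h η g

theorem sum_coset_eq_of_fpf {Γ : Type*} [Group Γ] [Finite Γ] {G N : Subgroup Γ} [hG : G.Normal]
    [hN : N.Normal] [Fintype G] [Fintype N] (hNG : N ≤ G) {y : Γ}
    (hy : ∀ g ∈ G, y * g * y⁻¹ * g⁻¹ ∈ N → g ∈ N) (F : Γ → ℂ)
    (hF : ∀ g x, F (g * x * g⁻¹) = F x) :
    (Nat.card N : ℂ) * ∑ g : G, F (g * y) = Nat.card G * ∑ n : N, F (n * y) := by
  let Φ : Γ → ℂ := fun g => ∑ n : N, F (n * g * y)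
  have h1 : ∀ g : G, Φ g = Φ 1 := by
    intro g
    let Gb := G.map (QuotientGroup.mk' N)
    have hGb : Gb.Normal := hG.map _ (QuotientGroup.mk'_surjective N)
    let f : Gb → Gb := fun h => ⟨h * (y * (h : Γ ⧸ N)⁻¹ * (y : Γ ⧸ N)⁻¹),
      Gb.mul_mem h.2 (hGb.conj_mem _ (Gb.inv_mem h.2) _)⟩
    have hf : Function.Injective f := by
      rintro ⟨_, h, hh, rfl⟩ ⟨_, k, hk, rfl⟩ he
      have he' := congrArg Subtype.val he
      simp only [f, QuotientGroup.mk'_apply] at he'
      apply Subtype.ext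
      simp only [QuotientGroup.mk'_apply]
      symm
      rw [QuotientGroup.eq]
      refine hy _ (G.mul_mem (G.inv_mem hk) hh) ?_
      rw [← QuotientGroup.eq_one_iff]
      simp only [QuotientGroup.mk_mul, QuotientGroup.mk_inv]
      have e : (h : Γ ⧸ N) * y * (h : Γ ⧸ N)⁻¹ = k * y * (k : Γ ⧸ N)⁻¹ := by
        have := congrArg (· * (y : Γ ⧸ N)) he'
        simpa [mul_assoc] using this
      have e2 : ((k : Γ ⧸ N)⁻¹ * h) * y = y * ((k : Γ ⧸ N)⁻¹ * h) := by
        calc ((k : Γ ⧸ N)⁻¹ * h) * y = (k : Γ ⧸ N)⁻¹ * ((h : Γ ⧸ N) * y * (h : Γ ⧸ N)⁻¹) * h := by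
              group
          _ = _ := by rw [e]; group
      rw [← e2]; group
    obtain ⟨⟨_, h, hh, rfl⟩, he⟩ := Finite.injective_iff_surjective.1 hf
      ⟨(g : Γ), g, g.2, rfl⟩
    have he' := congrArg Subtype.val he
    simp only [f, QuotientGroup.mk'_apply, ← QuotientGroup.mk_mul, ← QuotientGroup.mk_inv] at he'
    have hm : (g : Γ) * (h * (y * h⁻¹ * y⁻¹))⁻¹ ∈ N := by
      rw [← QuotientGroup.eq_one_iff, QuotientGroup.mk_mul, QuotientGroup.mk_inv, he',
        mul_inv_cancel]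
    simp only [Φ, mul_one]
    refine Fintype.sum_equiv ((Equiv.mulRight (⟨_, hm⟩ : N)).trans
      (MulAut.conjNormal h⁻¹).toEquiv) _ _ fun n => ?_
    rw [← hF h⁻¹]
    congr 1
    simp only [Equiv.trans_apply, Equiv.coe_mulRight, MulEquiv.toEquiv_eq_coe, EquivLike.coe_coe,
      MulAut.conjNormal_apply, Subgroup.coe_mul]
    group
  have h2 : ∑ g : G, Φ g = Nat.card N * ∑ g : G, F (g * y) := by
    simp only [Φ]
    rw [Finset.sum_comm, Nat.card_eq_fintype_card, ← Finset.card_univ, ← nsmul_eq_mul,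
      ← Finset.sum_const]
    refine Finset.sum_congr rfl fun n _ => ?_
    exact Fintype.sum_equiv (Equiv.mulLeft (⟨n, hNG n.2⟩ : G)) _ _ fun g => by simp
  rw [← h2, Finset.sum_congr rfl fun g _ => h1 g, Finset.sum_const, Finset.card_univ, nsmul_eq_mul,
    Nat.card_eq_fintype_card]
  simp [Φ]

/-- Let N ≤ G be normal subgroups of the finite group Γ with Γ/G cyclic and Γ/N a Frobenius group with kernel G/N: G ≠ Γ, N ≠ G, and no element of Γ outside G fixes a non-identity coset of N in G under conjugation. Let ϑ be an irreducible character of N invariant under conjugation by Γ and suppose ϑ is fully ramified in G: the character of G induced from ϑ equals e·χ for an irreducible character χ of G and a natural number e. Then the index of G in Γ divides e − 1 or e + 1. -/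
theorem result {Γ : Type*} [Group Γ] [Fintype Γ] (G N : Subgroup Γ) [hG : G.Normal] [hN : N.Normal] [Fintype G] [Fintype N] (hNG : N ≤ G) (hGlt : G ≠ ⊤) (hNlt : N ≠ G) (hcyc : IsCyclic (Γ ⧸ G)) (hfrob : ∀ x : Γ, x ∉ G → ∀ g : Γ, g ∈ G → x * g * x⁻¹ * g⁻¹ ∈ N → g ∈ N) (θ : Cfsg.IrrCharacter N) (hinv : ∀ (x : Γ) (n : N), (θ : N → ℂ) ⟨x * n * x⁻¹, hN.conj_mem n n.2 x⟩ = (θ : N → ℂ) n) (χ : Cfsg.IrrCharacter G) (e : ℕ) (hram : Cfsg.indFun (N.subgroupOf G) (fun n : N.subgroupOf G => (θ : N → ℂ) ⟨(n : G), n.2⟩) = fun g => (e : ℂ) * (χ : G → ℂ) g) : (G.index : ℤ) ∣ (e : ℤ) - 1 ∨ (G.index : ℤ) ∣ (e : ℤ) + 1 := by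
  classical
  have : Fintype (N.subgroupOf G) := Fintype.ofFinite _
  have hθG := θ.2.subgroupOf hNG
  have he0 : (e : ℂ) ≠ 0 := by
    intro h0
    have h1 := congrFun hram 1
    rw [indFun_one, h0, zero_mul] at h1
    exact mul_ne_zero (Nat.cast_ne_zero.2 Subgroup.index_ne_zero_of_finite) hθG.apply_one_ne_zero h1
  have hχinv : ∀ (x : Γ) (g : G), χ.1 ⟨x * g * x⁻¹, hG.conj_mem g g.2 x⟩ = χ.1 g := by
    intro x g
    apply mul_left_cancel₀ he0
    rw [← congrFun hram, ← congrFun hram]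
    symm
    exact indFun_mulEquiv (MulAut.conjNormal x) _ _ (fun y => by
      simp only [Subgroup.mem_subgroupOf, MulAut.conjNormal_apply]
      exact (hN.mem_comm_iff.trans (by simp)).symm) _ _
      (fun h => (hinv x ⟨_, h.2⟩).symm) g
  have hres : ∀ n : N, χ.1 ⟨n, hNG n.2⟩ = e * θ.1 n := by
    have h1 : classInner (fun n : N.subgroupOf G => χ.1 n)
        (fun n : N.subgroupOf G => θ.1 ⟨(n : G), n.2⟩) = e := by
      rw [← classInner_indFun_right _ _ χ.2.isClassFunction, hram]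
      have := classInner_smul_right (e : ℂ) χ.1 χ.1
      rw [χ.2.classInner_self, mul_one, Complex.conj_natCast] at this
      exact this
    have h2 := clifford_res_invariant χ.2 hθG (fun g n => hinv g ⟨_, n.2⟩) (h1 ▸ he0)
    rw [h1] at h2
    exact fun n => congrFun h2 ⟨⟨n, hNG n.2⟩, n.2⟩
  obtain ⟨χh, hχh, hχe⟩ := exists_ext_of_isCyclic hcyc χ.2 hχinv
  obtain ⟨q, hq⟩ := hcyc.exists_generator
  obtain ⟨x, rfl⟩ := QuotientGroup.mk_surjective q
  have hGT : ∀ g : Γ, ∃ k : ℤ, g * (x ^ k)⁻¹ ∈ G := by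
    intro g
    obtain ⟨k, hk⟩ := hq g
    refine ⟨k, ?_⟩
    rw [← QuotientGroup.eq_one_iff, QuotientGroup.mk_mul, QuotientGroup.mk_inv,
      QuotientGroup.mk_zpow, ← hk, mul_inv_cancel]
  have hx : x ∉ G := by
    intro hx
    refine hGlt (top_le_iff.1 fun g _ => ?_)
    obtain ⟨k, hk⟩ := hGT g
    simpa using G.mul_mem hk (G.zpow_mem hx k)
  let T := N ⊔ Subgroup.zpowers x
  have hNT : N ≤ T := le_sup_left
  have hxT : x ∈ T := Subgroup.mem_sup_right (Subgroup.mem_zpowers x)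
  have hT : ∀ y ∈ T, ∃ k : ℤ, y * (x ^ k)⁻¹ ∈ N := by
    intro y hy
    have : y ∈ (N : Set Γ) * (Subgroup.zpowers x : Set Γ) := by
      rw [← Subgroup.normal_mul]; exact hy
    obtain ⟨n, hn, _, ⟨k, rfl⟩, rfl⟩ := this
    exact ⟨k, by simpa using hn⟩
  have hTG : G ⊓ T = N := by
    refine le_antisymm (fun y hy => ?_) (le_inf hNG hNT)
    obtain ⟨k, hk⟩ := hT y hy.2
    have h1 : x ^ k ∈ G := by
      simpa using G.mul_mem (G.inv_mem (hNG hk)) hy.1
    have h2 := hfrob x hx _ h1 (by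
      rw [show x * x ^ k * x⁻¹ * (x ^ k)⁻¹ = 1 by group]; exact N.one_mem)
    simpa using N.mul_mem hk h2
  have hsup : G ⊔ T = ⊤ := by
    refine top_le_iff.1 fun g _ => ?_
    obtain ⟨k, hk⟩ := hGT g
    simpa using (G ⊔ T).mul_mem (Subgroup.mem_sup_left hk) (Subgroup.mem_sup_right (T.zpow_mem hxT k))
  have hcard : Nat.card (T ⧸ N.subgroupOf T) = G.index := by
    change N.relIndex T = _
    rw [← hTG, Subgroup.inf_relIndex_right, ← Subgroup.relIndex_sup_left, hsup,
      Subgroup.relIndex_top_right]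
  have hcycT : IsCyclic (T ⧸ N.subgroupOf T) := by
    refine ⟨⟨QuotientGroup.mk ⟨x, hxT⟩, fun z => ?_⟩⟩
    obtain ⟨y, rfl⟩ := QuotientGroup.mk_surjective z
    obtain ⟨k, hk⟩ := hT y y.2
    refine ⟨k, ?_⟩
    simp only [← QuotientGroup.mk_zpow]
    rw [QuotientGroup.eq, Subgroup.mem_subgroupOf]
    simpa using hN.mem_comm hk
  have : Fintype (N.subgroupOf T) := Fintype.ofFinite _
  have : Fintype T := Fintype.ofFinite _
  have hθT := θ.2.subgroupOf hNT
  obtain ⟨θh, hθh, hθe⟩ := exists_ext_of_isCyclic hcycT hθT (fun g n => hinv g ⟨_, n.2⟩)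
  have hθirr : IsIrrCharacter (N.subgroupOf T) fun n : N.subgroupOf T => θh n := by
    simpa only [hθe] using hθT
  obtain ⟨β, hβ, hβe⟩ := gallagher_char hθh.isCharacter hθirr (hχh.isCharacter.res T) (e := e) (by
    funext n
    simp only [Pi.smul_apply, smul_eq_mul, hθe]
    rw [← hres, ← hχe])
  have hβ1 : β 1 = e := by
    have h1 := hβe 1
    have h2 := hres 1
    have h3 := hθe 1
    have h4 := hχe 1
    have h5 : χh 1 = e * θh 1 := h4.trans (h2.trans (congrArg _ h3.symm))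
    have h6 : χh 1 = β 1 * θh 1 := h1
    exact mul_right_cancel₀ hθh.apply_one_ne_zero (h6.symm.trans h5)
  have hnorm : ∀ z, z ≠ 1 → ‖β z‖ = 1 := by
    intro z hz
    obtain ⟨y, rfl⟩ := QuotientGroup.mk_surjective z
    have hyG : (y : Γ) ∉ G := fun h => hz ((QuotientGroup.eq_one_iff _).2
      (Subgroup.mem_subgroupOf.2 (hTG ▸ ⟨h, y.2⟩)))
    have h1 := sum_coset_eq_of_fpf hNG (hfrob y hyG) (fun g => χh g * conj (χh g))
      (fun g x => by rw [hχh.isClassFunction.apply_conj])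
    have h2 := sum_coset_mul_conj_of_res_irr (N := G) hχh.isCharacter
      (by simpa only [hχe] using χ.2) (y : Γ)
    have h3 := sum_coset_mul_conj_of_res_irr hθh.isCharacter hθirr y
    have h4 : ∑ n : N, χh (n * y) * conj (χh (n * y)) =
        β y * conj (β y) * ∑ n : N.subgroupOf T, θh (n * y) * conj (θh (n * y)) := by
      rw [Finset.mul_sum]
      symm
      refine Fintype.sum_equiv (Subgroup.subgroupOfEquivOfLe hNT).toEquiv _ _ fun n => ?_
      have h5 := hβe (n * y)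
      have h6 : (QuotientGroup.mk ((n : T) * y) : T ⧸ N.subgroupOf T) = y := by
        rw [QuotientGroup.mk_mul, (QuotientGroup.eq_one_iff _).2 n.2, one_mul]
      rw [h6] at h5
      change _ = χh (((n : T) * y : T) : Γ) * conj (χh (((n : T) * y : T) : Γ))
      rw [h5, map_mul]; ring
    rw [h2, h4, h3, Nat.card_congr (Subgroup.subgroupOfEquivOfLe hNT).toEquiv] at h1
    have h5 : β y * conj (β y) = 1 := by
      have a1 := card_ne_zero N
      have a2 := card_ne_zero G
      apply mul_left_cancel₀ (mul_ne_zero a1 a2)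
      linear_combination -h1
    rw [Complex.mul_conj, Complex.normSq_eq_norm_sq] at h5
    have h6 : ‖β y‖ ^ 2 = 1 := by exact_mod_cast h5
    nlinarith [norm_nonneg (β y)]
  have hx1 : (QuotientGroup.mk ⟨x, hxT⟩ : T ⧸ N.subgroupOf T) ≠ 1 := fun h =>
    hx (hNG (Subgroup.mem_subgroupOf.1 ((QuotientGroup.eq_one_iff _).1 h)))
  obtain ⟨k, ε, -, hε, hk, -⟩ := exists_eq_regular_add_sign (by
      let _ : CommGroup (T ⧸ N.subgroupOf T) := IsCyclic.commGroup
      exact fun x y => mul_comm x y) hβ.isGeneralizedCharacter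
    (fun z hz => (hnorm z hz).le) hx1 (fun h => by simpa [h] using hnorm _ hx1)
  rw [hβ1, hcard] at hk
  have h7 : (e : ℤ) = k * G.index + ε := by exact_mod_cast hk
  rcases hε with rfl | rfl
  · exact Or.inl ⟨k, by rw [h7]; ring⟩
  · exact Or.inr ⟨k, by rw [h7]; ring⟩

end Cfsg.Agent.S4454
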