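import Cfsg.Statements.S4455
import Cfsg.Agent.Char.DegThompson

set_option autoImplicit false
open Cfsg

namespace Cfsg.Agent.S4455

open Cfsg.Lib.Char Cfsg.Lib.Char.Deg

/-- Fix a prime p and a finite group G. Let s be the sum of χ(1)² over the irreducible characters χ of G whose degree is not divisible by p and whose determinantal order o(χ) is not divisible by p. Then the order of O^p(G), the subgroup generated by the elements of order prime to p, is congruent to s modulo p. -/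
theorem result {G : Type*} [Group G] [Finite G] (p : ℕ) (hp : p.Prime) : (Nat.card (Cfsg.pResidual p G) : ℤ) ≡ (∑ᶠ χ ∈ {χ : Cfsg.IrrCharacter G | ¬ p ∣ Cfsg.charDegree (χ : G → ℂ) ∧ ¬ p ∣ Cfsg.detOrder (χ : G → ℂ)}, (Cfsg.charDegree (χ : G → ℂ) : ℤ) ^ 2) [ZMOD p] := by
  classical
  have := Fact.mk hp
  have := Fintype.ofFinite G
  set N := pResidual p G with hN
  have := Fintype.ofFinite N
  obtain ⟨P⟩ : Nonempty (Sylow p G) := inferInstance
  obtain ⟨k, hk⟩ : ∃ k, N.index = p ^ k := Lib.Trans.exists_index_pResidual_eq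
  have hcop : ∀ {m : ℕ}, ¬ p ∣ m → N.index.Coprime m := fun h =>
    hk ▸ Nat.Coprime.pow_left _ (hp.coprime_iff_not_dvd.2 h)
  have hinv : ∀ θ : IrrCharacter N, ↑P ≤ inertia N θ → inertia N θ = ⊤ := fun θ h =>
    top_le_iff.1 (Lib.Trans.pResidual_sup_sylow P ▸ sup_le (le_inertia θ.2.isClassFunction) h)
  have h1 := sum_inertia_modEq N P.isPGroup' (fun θ => charDegree θ ^ 2)
    (fun g _ θ => by simp only [deg_conjChar])
  rw [sum_deg_sq, ← Finset.sum_filter_add_sum_filter_not _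
    (fun θ : IrrCharacter N => p ∣ charDegree (θ : N → ℂ))] at h1
  have h2 := ((Nat.modEq_zero_iff_dvd.2 (Finset.dvd_sum fun θ hθ =>
    (Finset.mem_filter.1 hθ).2.trans (dvd_pow_self _ two_ne_zero))).symm.add_right _).trans h1
  rw [zero_add] at h2
  rw [finsum_mem_eq_finite_toFinset_sum _ (Set.toFinite _)]
  have h3 : ∑ χ ∈ (Set.toFinite {χ : IrrCharacter G | ¬ p ∣ charDegree (χ : G → ℂ) ∧
      ¬ p ∣ detOrder (χ : G → ℂ)}).toFinset, charDegree (χ : G → ℂ) ^ 2 =
      ∑ θ ∈ (Finset.univ.filter (fun θ : IrrCharacter N => ↑P ≤ inertia N θ)).filter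
        (fun θ : IrrCharacter N => ¬ p ∣ charDegree (θ : N → ℂ)), charDegree (θ : N → ℂ) ^ 2 := by
    have hres : ∀ χ : IrrCharacter G, ¬ p ∣ charDegree (χ : G → ℂ) →
        IsIrrCharacter N fun n : N => χ.1 n := fun χ h =>
      irr_res_of_coprime χ.2 (apply_one_eq χ.2.isCharacter) (hcop h).symm
    have hdet : ∀ θ : N → ℂ, ¬ p ∣ detOrder θ := fun θ h =>
      not_dvd_index_commutator_pResidual hp (h.trans (detOrder_dvd_index_commutator θ))
    refine Finset.sum_bij (fun χ hχ => ⟨fun n : N => χ.1 n,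
      hres χ ((Set.Finite.mem_toFinset _).1 hχ).1⟩) (fun χ hχ => ?_) (fun χ hχ ψ hψ h => ?_)
      (fun θ hθ => ?_) (fun χ hχ => by rw [deg_res])
    · refine Finset.mem_filter.2 ⟨Finset.mem_filter.2 ⟨Finset.mem_univ _, fun g _ => ?_⟩, ?_⟩
      · exact mem_inertia.2 (conjChar_res χ.2.isClassFunction g)
      · rw [deg_res]
        exact ((Set.Finite.mem_toFinset _).1 hχ).1
    · rw [Set.Finite.mem_toFinset] at hχ hψ
      obtain ⟨ξ, -, hξ⟩ := exists_canonical_ext (hres χ hχ.1)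
        (fun g n => χ.2.isClassFunction.apply_conj _ _) (apply_one_eq χ.2.isCharacter)
        (hcop (hp.not_dvd_mul (hdet _) hχ.1))
      exact Subtype.ext ((hξ χ χ.2 (fun n => rfl) (hcop hχ.2)).trans
        (hξ ψ ψ.2 (fun n => (congrFun (congrArg Subtype.val h) n).symm) (hcop hψ.2)).symm)
    · obtain ⟨h4, h5⟩ := Finset.mem_filter.1 hθ
      obtain ⟨ξ, ⟨hξ, h6, h7⟩, -⟩ := exists_canonical_ext θ.2
        (inertia_eq_top_iff.1 (hinv θ (Finset.mem_filter.1 h4).2)) (apply_one_eq θ.2.isCharacter)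
        (hcop (hp.not_dvd_mul (hdet _) h5))
      refine ⟨⟨ξ, hξ⟩, (Set.Finite.mem_toFinset _).2 ⟨?_, h7 ▸ hdet _⟩, Subtype.ext (funext h6)⟩
      rwa [show charDegree ξ = charDegree θ.1 from deg_congr (h6 1)]
  rw [← h3] at h2
  exact_mod_cast (Int.natCast_modEq_iff.2 h2.symm)

end Cfsg.Agent.S4455
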