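import Cfsg.Statements.S4457
import Cfsg.Agent.Char.DegTwo

set_option autoImplicit false
open Cfsg

namespace Cfsg.Agent.S4457

open Cfsg.Lib.Char Cfsg.Lib.Char.Deg Cfsg.Lib.Solv

/-- Let G be a finite group whose irreducible character degrees are exactly 1 and m (m ≠ 1). Then either G has an abelian normal subgroup of index m, or m is a power of a prime p and G is the direct product of a p-group and an abelian group: there are normal subgroups P and A with P a p-group, A abelian, P ⊓ A = 1 and P ⊔ A = G. -/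
theorem result {G : Type*} [Group G] [Finite G] (m : ℕ) (hcd : ∀ χ : Cfsg.IrrCharacter G, Cfsg.charDegree (χ : G → ℂ) = 1 ∨ Cfsg.charDegree (χ : G → ℂ) = m) (hm : ∃ χ : Cfsg.IrrCharacter G, Cfsg.charDegree (χ : G → ℂ) = m) (hm1 : m ≠ 1) : (∃ A : Subgroup G, A.Normal ∧ (∀ a ∈ A, ∀ b ∈ A, a * b = b * a) ∧ A.index = m) ∨ ∃ p e : ℕ, p.Prime ∧ m = p ^ e ∧ ∃ P A : Subgroup G, P.Normal ∧ A.Normal ∧ IsPGroup p P ∧ (∀ a ∈ A, ∀ b ∈ A, a * b = b * a) ∧ P ⊓ A = ⊥ ∧ P ⊔ A = ⊤ := by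
  obtain ⟨χ, hχ⟩ := hm
  have h1 : ∀ χ, IsIrrCharacter G χ → charDegree χ = 1 ∨ charDegree χ = m := fun χ h => hcd ⟨χ, h⟩
  rcases two_degrees h1 with ⟨T, h2, h3, h4⟩ | h2
  · exact Or.inl ⟨T, Subgroup.Normal.of_commutator_le G h2, h3, h4⟩
  obtain ⟨p, hp, hpm⟩ := Nat.exists_prime_and_dvd hm1
  have := Fact.mk hp
  obtain ⟨⟨e, he⟩, h3⟩ := two_degrees_of_isNilpotent h1 χ.2 hχ hpm
  exact Or.inr ⟨p, e, hp, he, pCore p G, pPrimeCore p G, inferInstance, inferInstance,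
    pCore_isPGroup p G, fun a _ b hb => Subgroup.mem_center_iff.1 (h3 hb) a,
    pCore_inf_pPrimeCore p G, pCore_sup_pPrimeCore_of_isNilpotent p⟩

end Cfsg.Agent.S4457
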