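import Cfsg.Statements.S4459
import Cfsg.Agent.Char.DegThree
import Cfsg.Agent.Solv.Fitting

set_option autoImplicit false
open Cfsg

namespace Cfsg.Agent.S4459

open Cfsg.Lib.Char Cfsg.Lib.Char.Deg Cfsg.Lib.Solv
open scoped commutatorElement

section

variable {G : Type*} [Group G] [Finite G] {A : Subgroup G} [hA : A.Normal] {p : ℕ}

theorem card_fixed (hab : ∀ a ∈ A, ∀ b ∈ A, a * b = b * a) (g : G) :
    Nat.card {θ : IrrCharacter A // g ∈ inertia A (θ : A → ℂ)} =
      Nat.card ((Subgroup.centralizer {g}).subgroupOf A) := by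
  have hc : ∀ a b : A, IsConj a b → a = b := fun a b h => by
    obtain ⟨c, rfl⟩ := isConj_iff.1 h
    rw [show c * a = a * c from Subtype.ext (hab c c.2 a a.2), mul_inv_cancel_right]
  refine Eq.trans ?_ ((card_fixed_irr_mulEquiv (MulAut.conjNormal g : A ≃* A)).trans ?_)
  · exact Nat.card_congr (Equiv.subtypeEquivRight fun θ => mem_inertia')
  · refine (Nat.card_congr (Equiv.subtypeEquiv (Equiv.ofBijective (ConjClasses.mk (α := A))
      ⟨fun a b h => hc a b (ConjClasses.mk_eq_mk_iff_isConj.1 h), ConjClasses.mk_surjective⟩)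
      fun a => ?_)).symm
    rw [Subgroup.mem_subgroupOf, Subgroup.mem_centralizer_singleton_iff]
    constructor
    · intro h b hb
      obtain rfl := hc _ _ (ConjClasses.mk_eq_mk_iff_isConj.1 hb)
      have : MulAut.conjNormal g b = b := Subtype.ext (by simp [← h])
      rw [this]
    · intro h
      have := congrArg Subtype.val (hc _ _ (h a rfl))
      simp only [MulAut.conjNormal_apply] at this
      exact (eq_mul_inv_iff_mul_eq.1 this)

theorem exists_large (hp : p.Prime) (hab : ∀ a ∈ A, ∀ b ∈ A, a * b = b * a) (hi : A.index = p ^ 2)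
    (h1 : ∀ θ, IsIrrCharacter A θ → (inertia A θ).index ≤ p)
    (h2 : ∀ g, g ∉ A → p ≤ (Subgroup.centralizer {g}).relIndex A)
    {X : Subgroup G} (hX : X.index = p) :
    ∃ y, y ∉ X ∧ (Subgroup.centralizer {y}).relIndex A < p ^ 2 := by
  classical
  have := Fintype.ofFinite G
  by_contra hcon
  push Not at hcon
  obtain ⟨q, rfl⟩ : ∃ q, p = q + 1 := Nat.exists_eq_succ_of_ne_zero hp.ne_zero
  have hq : 1 ≤ q := by have := hp.two_le; omega
  set a := Nat.card A with ha
  have ha0 : 0 < a := Nat.card_pos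
  have hG : Nat.card G = a * (q + 1) ^ 2 := by rw [← hi, Subgroup.card_mul_index]
  have hXc : Nat.card X = a * (q + 1) := by
    have := X.card_mul_index
    rw [hX, hG, sq, ← mul_assoc] at this
    exact Nat.eq_of_mul_eq_mul_right hp.pos this
  have hsum : ∑ g : G, Nat.card ((Subgroup.centralizer {g}).subgroupOf A) =
      ∑ θ : IrrCharacter A, Nat.card (inertia A (θ : A → ℂ)) := by
    simp only [← card_fixed hab, Nat.card_eq_fintype_card, Fintype.card_subtype,
      Finset.card_filter]
    exact Finset.sum_comm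
  have hlow : a * (a * (q + 1)) < ∑ θ : IrrCharacter A, Nat.card (inertia A (θ : A → ℂ)) := by
    have h3 : Fintype.card (IrrCharacter A) = a := by
      have := sum_deg_sq A
      rw [Finset.sum_congr rfl fun θ _ => by
        rw [deg_eq_one_of_comm θ.2 fun a b => Subtype.ext (hab a a.2 b b.2)]] at this
      simpa [ha] using this
    rw [show a * (a * (q + 1)) = ∑ θ : IrrCharacter A, a * (q + 1) by simp [h3]]
    refine Finset.sum_lt_sum (fun θ _ => ?_) ⟨⟨_, isIrrCharacter_one⟩, Finset.mem_univ _, ?_⟩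
    · have h4 := (inertia A (θ : A → ℂ)).card_mul_index
      refine Nat.le_of_mul_le_mul_right ?_ hp.pos
      rw [mul_assoc, ← sq, ← hG, ← h4]
      exact Nat.mul_le_mul_left _ (h1 _ θ.2)
    · rw [inertia_eq_top_iff.2 fun _ _ => rfl, Subgroup.card_top, hG]
      exact Nat.mul_lt_mul_of_pos_left (by nlinarith) ha0
  have hup : ∀ g : G, (q + 1) ^ 2 * Nat.card ((Subgroup.centralizer {g}).subgroupOf A) ≤
      a + (if g ∈ X then q * a else 0) + if g ∈ A then (q + 1) * q * a else 0 := by
    intro g
    have h3 : Nat.card ((Subgroup.centralizer {g}).subgroupOf A) *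
      (Subgroup.centralizer {g}).relIndex A = a := Subgroup.card_mul_index _
    have h4 : 1 ≤ (Subgroup.centralizer {g}).relIndex A :=
      Nat.pos_of_ne_zero Subgroup.index_ne_zero_of_finite
    by_cases hgX : g ∈ X
    · by_cases hgA : g ∈ A
      · rw [if_pos hgX, if_pos hgA]
        have := Nat.mul_le_mul_left (Nat.card ((Subgroup.centralizer {g}).subgroupOf A)) h4
        nlinarith
      · rw [if_pos hgX, if_neg hgA]
        have := Nat.mul_le_mul_left (Nat.card ((Subgroup.centralizer {g}).subgroupOf A)) (h2 g hgA)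
        nlinarith
    · have := Nat.mul_le_mul_left (Nat.card ((Subgroup.centralizer {g}).subgroupOf A)) (hcon g hgX)
      rw [if_neg hgX]
      nlinarith [Nat.zero_le (if g ∈ A then (q + 1) * q * a else 0)]
  have h5 := Finset.sum_le_sum fun g (_ : g ∈ Finset.univ) => hup g
  have h6 : ∀ (H : Subgroup G) (c : ℕ), ∑ g : G, (if g ∈ H then c else 0) = Nat.card H * c := by
    intro H c
    rw [← Finset.sum_filter, Finset.sum_const, Nat.card_eq_fintype_card, Fintype.card_subtype,
      smul_eq_mul]
  rw [← Finset.mul_sum, hsum, Finset.sum_add_distrib, Finset.sum_add_distrib, h6, h6, hXc, ← ha,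
    Finset.sum_const, Finset.card_univ, ← Nat.card_eq_fintype_card, hG, smul_eq_mul] at h5
  have h7 := (Nat.mul_lt_mul_of_pos_left hlow (pow_pos hp.pos 2)).trans_le h5
  obtain ⟨r, rfl⟩ : ∃ r, q = r + 1 := ⟨q - 1, by omega⟩
  have h8 : 0 ≤ a * a * (r + 2) * (r + 1) * r := Nat.zero_le _
  nlinarith

theorem index_center (hp : p.Prime) (hab : ∀ a ∈ A, ∀ b ∈ A, a * b = b * a) (hi : A.index = p ^ 2)
    (hG' : commutator G ≤ A) (h1 : ∀ θ, IsIrrCharacter A θ → (inertia A θ).index ≤ p)
    (h2 : ∀ g, g ∉ A → ¬ A ≤ Subgroup.centralizer {g})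
    (h3 : ∀ x, x ∉ A → ∃ X, A ≤ X ∧ x ∈ X ∧ X ≠ ⊤) {k : ℕ}
    (h4 : (Subgroup.center G).index = p ^ k) : (Subgroup.center G).index = p ^ 3 := by
  have hr : ∀ g, g ∉ A → ∃ j, (Subgroup.centralizer {g}).relIndex A = p ^ (j + 1) := by
    intro g hg
    obtain ⟨j, -, hj⟩ := (Nat.dvd_prime_pow hp).1 (h4 ▸ (Subgroup.relIndex_dvd_of_le_left A
      (Subgroup.center_le_centralizer {g})).trans (Subgroup.relIndex_dvd_index_of_normal _ A))
    cases j with
    | zero => exact absurd (Subgroup.relIndex_eq_one.1 hj) (h2 g hg)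
    | succ j => exact ⟨j, hj⟩
  have hidx : ∀ T : Subgroup G, A ≤ T → ∀ t ∈ T, t ∉ A → T ≠ ⊤ → T.index = p := by
    intro T hT t ht htA hne
    obtain ⟨j, hj2, hj⟩ := (Nat.dvd_prime_pow hp).1 (hi ▸ Subgroup.index_dvd_of_le hT)
    interval_cases j
    · exact absurd (Subgroup.index_eq_one.1 hj) hne
    · rw [hj, pow_one]
    · exact absurd (eq_of_le_of_index_le hT (by rw [hi, hj]) ▸ ht) htA
  have hbig : ∀ x, x ∉ A → ∃ X y, A ≤ X ∧ x ∈ X ∧ X.index = p ∧ y ∉ X ∧
      (Subgroup.centralizer {y}).relIndex A = p := by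
    intro x hx
    obtain ⟨X, hAX, hxX, hX⟩ := h3 x hx
    have hXi := hidx X hAX x hxX hx hX
    obtain ⟨y, hy, hlt⟩ := exists_large hp hab hi h1 (fun g hg => by
      obtain ⟨j, hj⟩ := hr g hg
      rw [hj]
      exact Nat.le_self_pow j.succ_ne_zero p) hXi
    obtain ⟨j, hj⟩ := hr y fun h => hy (hAX h)
    rw [hj] at hlt
    have := (Nat.pow_lt_pow_iff_right hp.one_lt).1 hlt
    exact ⟨X, y, hAX, hxX, hXi, hy, by rw [hj, show j = 0 by omega, zero_add, pow_one]⟩
  obtain ⟨x0, hx0⟩ : ∃ x, x ∉ A := by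
    by_contra hcon
    push Not at hcon
    rw [(Subgroup.eq_top_iff' A).2 hcon, Subgroup.index_top] at hi
    exact (Nat.one_lt_pow two_ne_zero hp.one_lt).ne hi
  obtain ⟨X0, x, hAX0, -, -, hx, hxr⟩ := hbig x0 hx0
  replace hx : x ∉ A := fun h => hx (hAX0 h)
  obtain ⟨X, y, hAX, hxX, hXi, hy, hyr⟩ := hbig x hx
  have hyA : y ∉ A := fun h => hy (hAX h)
  have hXt : X ≠ ⊤ := fun h => hy (h ▸ Subgroup.mem_top y)
  by_cases hC : (Subgroup.centralizer {x}).subgroupOf A = (Subgroup.centralizer {y}).subgroupOf A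
  · have hZ : Subgroup.center G = Subgroup.centralizer {x} ⊓ A := by
      refine le_antisymm (le_inf (Subgroup.center_le_centralizer _) fun z hz => ?_) fun b hb => ?_
      · by_contra hzA
        exact h2 z hzA fun a _ => Subgroup.mem_centralizer_singleton_iff.2
          (Subgroup.mem_center_iff.1 hz a)
      · have hb2 : b ∈ Subgroup.centralizer {y} := (SetLike.ext_iff.1 hC ⟨b, hb.2⟩).1 hb.1
        have hAb : A ≤ Subgroup.centralizer {b} := fun a ha =>
          Subgroup.mem_centralizer_singleton_iff.2 (hab a ha b hb.2)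
        have hxb : x ∈ Subgroup.centralizer {b} := Subgroup.mem_centralizer_singleton_iff.2
          (Subgroup.mem_centralizer_singleton_iff.1 hb.1).symm
        have hyb : y ∈ Subgroup.centralizer {b} := Subgroup.mem_centralizer_singleton_iff.2
          (Subgroup.mem_centralizer_singleton_iff.1 hb2).symm
        by_cases ht : Subgroup.centralizer {b} = ⊤
        · exact Subgroup.mem_center_iff.2 fun g =>
            Subgroup.mem_centralizer_singleton_iff.1 (ht ▸ Subgroup.mem_top g)
        have h5 := hidx (Subgroup.centralizer {b} ⊓ X) (le_inf hAb hAX) x ⟨hxb, hxX⟩ hx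
          (ne_top_of_le_ne_top hXt inf_le_right)
        have h6 := eq_of_le_of_index_le (inf_le_left : Subgroup.centralizer {b} ⊓ X ≤ _)
          (by rw [h5, hidx _ hAb x hxb hx ht])
        exact absurd (h6.ge hyb).2 hy
    rw [hZ, ← Subgroup.relIndex_mul_index (inf_le_right : _ ≤ A), Subgroup.inf_relIndex_right,
      hxr, hi]
    ring
  exfalso
  have hsup : (Subgroup.centralizer {x}).subgroupOf A ⊔ (Subgroup.centralizer {y}).subgroupOf A =
      ⊤ := (eq_or_eq_top_of_prime_index (hxr.symm ▸ hp :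
        ((Subgroup.centralizer {x}).relIndex A).Prime) le_sup_left).resolve_left fun h =>
      hC (eq_of_le_of_index_le (h ▸ le_sup_right) (hyr.trans hxr.symm).le).symm
  letI := dualAct A
  have hor : ∀ lam : A →* ℂˣ, x • lam = lam ∨ y • lam = lam := by
    intro lam
    rw [← MulAction.mem_stabilizer_iff, ← MulAction.mem_stabilizer_iff, or_iff_not_imp_left]
    intro hxT
    have hAT : A ≤ MulAction.stabilizer G lam := by
      rw [stabilizer_dualAct]
      exact le_inertia (isIrrCharacter_monoidHom lam).isClassFunction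
    have hTi : (MulAction.stabilizer G lam).index = p := by
      obtain ⟨t, ht, htA⟩ : ∃ t ∈ MulAction.stabilizer G lam, t ∉ A := by
        by_contra hcon
        push Not at hcon
        have h5 := h1 _ (isIrrCharacter_monoidHom lam)
        rw [← stabilizer_dualAct, le_antisymm hcon hAT, hi] at h5
        have := hp.two_le
        nlinarith
      exact hidx _ hAT t ht htA fun h => hxT (h ▸ Subgroup.mem_top x)
    have hTn : (MulAction.stabilizer G lam).Normal :=
      Subgroup.Normal.of_commutator_le _ (hG'.trans hAT)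
    have h5 := (eq_or_eq_top_of_prime_index (hTi ▸ hp) (le_sup_left :
      _ ≤ MulAction.stabilizer G lam ⊔ Subgroup.zpowers x)).resolve_left fun h =>
        hxT (h ▸ Subgroup.mem_sup_right (Subgroup.mem_zpowers x))
    obtain ⟨z, hz, t, ht, hzt⟩ := Subgroup.mem_sup_of_normal_right.1
      ((sup_comm _ _).trans h5 ▸ Subgroup.mem_top y)
    rw [MulAction.mem_stabilizer_iff] at ht ⊢
    refine MonoidHom.eq_of_eqOn_top fun b _ => ?_
    have h6 : (⊤ : Subgroup A) ≤ MonoidHom.eqLocus (y • lam) lam := by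
      rw [← hsup, sup_le_iff]
      constructor
      · intro b hb
        have hbz : z⁻¹ * b * z = b := by
          have : Subgroup.zpowers x ≤ Subgroup.centralizer {(b : G)} := by
            rw [Subgroup.zpowers_le, Subgroup.mem_centralizer_singleton_iff]
            exact (Subgroup.mem_centralizer_singleton_iff.1 hb).symm
          rw [mul_assoc, ← Subgroup.mem_centralizer_singleton_iff.1 (this hz), inv_mul_cancel_left]
        change (y • lam) b = lam b
        rw [← hzt, mul_smul, ht]
        exact congrArg lam (Subtype.ext (by simpa using hbz))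
      · intro b hb
        have hb' : (b : G) * y = y * b := Subgroup.mem_centralizer_singleton_iff.1 hb
        exact congrArg lam (Subtype.ext (by simp [mul_assoc, hb']))
    exact h6 (Subgroup.mem_top b)
  have hex : ∀ g, g ∉ A → ∃ lam : A →* ℂˣ, g • lam ≠ lam := by
    intro g hg
    by_contra hcon
    push Not at hcon
    exact h2 g hg fun a ha => Subgroup.mem_centralizer_singleton_iff.2
      (mem_centralizer_of_forall_mem_inertia hab (fun lam => by
        rw [← stabilizer_dualAct]; exact hcon lam) a ha).symm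
  obtain ⟨l1, hl1⟩ := hex x hx
  obtain ⟨l2, hl2⟩ := hex y hyA
  have hmul : ∀ (g : G) (l l' : A →* ℂˣ), g • (l * l') = g • l * g • l' := fun _ _ _ => rfl
  rcases hor (l1 * l2) with h | h
  · rw [hmul, (hor l2).resolve_right hl2] at h
    exact hl1 (mul_right_cancel h)
  · rw [hmul, (hor l1).resolve_left hl1] at h
    exact hl2 (mul_left_cancel h)

end

/-- Let G be a non-abelian finite group and p a prime. Then the irreducible character degrees of G are exactly 1 and p if and only if either G has an abelian normal subgroup of index p or the centre of G has index p³. -/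
theorem result {G : Type*} [Group G] [Finite G] (hG : ∃ a b : G, a * b ≠ b * a) (p : ℕ) (hp : p.Prime) : ((∀ χ : Cfsg.IrrCharacter G, Cfsg.charDegree (χ : G → ℂ) = 1 ∨ Cfsg.charDegree (χ : G → ℂ) = p) ∧ ∃ χ : Cfsg.IrrCharacter G, Cfsg.charDegree (χ : G → ℂ) = p) ↔ ((∃ A : Subgroup G, A.Normal ∧ (∀ a ∈ A, ∀ b ∈ A, a * b = b * a) ∧ A.index = p) ∨ (Subgroup.center G).index = p ^ 3) := by
  classical
  have := Fintype.ofFinite G
  have hG' : commutator G ≠ ⊥ := fun h => by
    obtain ⟨a, b, hab⟩ := hG
    exact hab (commutatorElement_eq_one_iff_mul_comm.1 (Subgroup.mem_bot.1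
      (h.le (Subgroup.commutator_mem_commutator (Subgroup.mem_top a) (Subgroup.mem_top b)))))
  constructor
  · rintro ⟨hcd, χ0, hχ0⟩
    replace hcd : ∀ χ, IsIrrCharacter G χ → charDegree χ = 1 ∨ charDegree χ = p :=
      fun χ h => hcd ⟨χ, h⟩
    have hle : ∀ χ, IsIrrCharacter G χ → charDegree χ ≤ p := fun χ h =>
      (hcd χ h).elim (fun h => h ▸ hp.one_le) fun h => h.le
    obtain ⟨T, h1, h2, h3⟩ | hnil := two_degrees hcd
    · exact Or.inl ⟨T, Subgroup.Normal.of_commutator_le _ h1, h2, h3⟩
    rw [or_iff_not_imp_left]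
    intro hno
    have := Fact.mk hp
    obtain ⟨k, hk⟩ := relIndex_sup_eq_pow (Subgroup.center G) (pCore_isPGroup p G)
    rw [eq_top_iff.2 ((pCore_sup_pPrimeCore_of_isNilpotent (G := G) p).ge.trans
      (sup_le_sup_left (two_degrees_of_isNilpotent hcd χ0.2 hχ0 dvd_rfl).2 _)),
      Subgroup.relIndex_top_right] at hk
    obtain ⟨β, hβ, hβ1, hβ2⟩ : ∃ β, IsIrrCharacter G β ∧ ⁅commutator G, ⊤⁆ ≤ charKer β ∧
        ¬ commutator G ≤ charKer β := by
      by_contra hcon
      push Not at hcon
      exact hG' (eq_bot_of_le_commutator_of_isNilpotent (N := ⊤) inferInstance le_top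
        (le_of_forall_le_charKer _ hcon))
    have hZ : commutator G ≤ charCenter β := fun z hz => hβ.mem_charCenter_iff_commutator.2
      fun x => hβ1 (Subgroup.commutator_mem_commutator hz (Subgroup.mem_top x))
    have hβp : charDegree β = p :=
      (hcd β hβ).resolve_left fun h => hβ2 ((commutator_le_charKer_iff hβ).2 h)
    have := hβ.charCenter_normal
    have hi : (charCenter β).index = p ^ 2 := by
      have h1 := hβ.degree_sq_eq_index_of_commutator_le hZ
      rw [re_apply_one hβ.isCharacter, hβp] at h1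
      exact_mod_cast h1.symm
    have hab := comm_of_forall_deg_eq_one (G := charCenter β) fun θ hθ => by
      by_contra h1
      obtain ⟨χ, hχ, h2⟩ := exists_irr_over hθ
      have h3 := deg_dvd_of_lies_over hχ hθ h2
      have h4 : charDegree χ = p := (hcd χ hχ).resolve_left fun h => h1 (Nat.dvd_one.1 (h ▸ h3))
      have h5 := ((Nat.dvd_prime hp).1 (h4 ▸ h3)).resolve_left h1
      have h6 := eq_of_classInner_ne_zero_of_deg_le (hχ.isCharacter.res _) hθ h2
        (by rw [deg_res, h4, h5])
      have h7 := hle _ (irr_mul_of_res_charCenter_irr hβ hχ.isCharacter le_rfl (h6 ▸ hθ))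
      rw [deg_mul hβ.isCharacter hχ.isCharacter, hβp, h4] at h7
      have := hp.two_le
      nlinarith
    have hab' : ∀ a ∈ charCenter β, ∀ b ∈ charCenter β, a * b = b * a := fun a ha b hb =>
      congrArg Subtype.val (hab ⟨a, ha⟩ ⟨b, hb⟩)
    have := hβ.charKer_normal
    have h3 : ∀ x, x ∉ charCenter β → ∃ X, charCenter β ≤ X ∧ x ∈ X ∧ X ≠ ⊤ := by
      intro x hx
      have h4 : ∀ g, g ∈ (Subgroup.centralizer {(x : G ⧸ charKer β)}).comap
          (QuotientGroup.mk' (charKer β)) ↔ ⁅g, x⁆ ∈ charKer β := fun g => by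
        rw [Subgroup.mem_comap, Subgroup.mem_centralizer_singleton_iff, ← QuotientGroup.eq_one_iff,
          ← commutatorElement_eq_one_iff_mul_comm]
        rfl
      refine ⟨_, fun z hz => (h4 z).2 (hβ.isClassFunction.commutatorElement_mem_charKer hz x),
        (h4 x).2 (by simp), fun h => hx (hβ.mem_charCenter_iff_commutator.2 fun g => ?_)⟩
      rw [← commutatorElement_inv]
      exact inv_mem ((h4 g).1 (h ▸ Subgroup.mem_top g))
    refine index_center hp hab' hi hZ (fun θ hθ => ?_) (fun g hg h => hno ?_) h3 hk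
    · obtain ⟨χ, hχ, h⟩ := exists_irr_deg_dvd hθ
      exact (Nat.le_of_dvd (deg_pos hχ) ((Dvd.intro _ rfl).trans h)).trans (hle χ hχ)
    · obtain ⟨X, h4, h5, h6⟩ := h3 g hg
      have h7 : charCenter β ≤ charCenter β ⊔ Subgroup.zpowers g := le_sup_left
      refine ⟨charCenter β ⊔ Subgroup.zpowers g,
        Subgroup.Normal.of_commutator_le _ (hZ.trans h7), fun a ha b hb => ?_, ?_⟩
      · obtain ⟨a, ha0, _, ⟨i, rfl⟩, rfl⟩ := Subgroup.mem_sup_of_normal_left.1 ha
        obtain ⟨b, hb0, _, ⟨j, rfl⟩, rfl⟩ := Subgroup.mem_sup_of_normal_left.1 hb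
        have ha' : Commute a g := Subgroup.mem_centralizer_singleton_iff.1 (h ha0)
        have hb' : Commute b g := Subgroup.mem_centralizer_singleton_iff.1 (h hb0)
        have hab2 : Commute a b := hab' a ha0 b hb0
        exact (hab2.mul_right (ha'.zpow_right j)).mul_left
          ((hb'.zpow_right i).symm.mul_right (Commute.zpow_zpow_self g i j))
      · obtain ⟨j, hj2, hj⟩ := (Nat.dvd_prime_pow hp).1 (hi ▸ Subgroup.index_dvd_of_le h7)
        interval_cases j
        · exact absurd (Subgroup.index_eq_one.1 hj) (ne_top_of_le_ne_top h6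
            (sup_le h4 (Subgroup.zpowers_le.2 h5)))
        · rw [hj, pow_one]
        · exact absurd (eq_of_le_of_index_le h7 (by rw [hi, hj]) ▸
            Subgroup.mem_sup_right (Subgroup.mem_zpowers g)) hg
  · intro h
    have hcd : ∀ χ, IsIrrCharacter G χ → charDegree χ = 1 ∨ charDegree χ = p := by
      intro χ hχ
      obtain ⟨A, hA, hab, hi⟩ | h := h
      · exact (Nat.dvd_prime hp).1 (hi ▸ ito hχ A hab)
      · obtain ⟨j, hj3, hj⟩ := (Nat.dvd_prime_pow hp).1 (h ▸ deg_dvd_index_center hχ)
        have h1 := deg_sq_le_index hχ hχ.center_le_charCenter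
        rw [h, hj, ← pow_mul, Nat.pow_le_pow_iff_right hp.one_lt] at h1
        have : j ≤ 1 := by omega
        interval_cases j
        · exact Or.inl hj
        · exact Or.inr (by rw [hj, pow_one])
    refine ⟨fun χ => hcd χ χ.2, ?_⟩
    by_contra hcon
    push Not at hcon
    obtain ⟨a, b, hab⟩ := hG
    exact hab (comm_of_forall_deg_eq_one (fun χ hχ => (hcd χ hχ).resolve_right (hcon ⟨χ, hχ⟩)) a b)

end Cfsg.Agent.S4459
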