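import Cfsg.Statements.S4460
import Cfsg.Agent.Char.DegThree

set_option autoImplicit false
open Cfsg

namespace Cfsg.Agent.S4460

open Cfsg.Lib.Char Cfsg.Lib.Char.Deg Cfsg.Lib.Solv

/-- A finite group with exactly three distinct irreducible character degrees is solvable of derived length at most 3: its third derived subgroup is trivial. -/
theorem result {G : Type*} [Group G] [Finite G] (hcd : Nat.card {n : ℕ // ∃ χ : Cfsg.IrrCharacter G, Cfsg.charDegree (χ : G → ℂ) = n} = 3) : derivedSeries G 3 = ⊥ := by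
  have h3 : Set.ncard {n : ℕ | ∃ χ : Cfsg.IrrCharacter G, Cfsg.charDegree (χ : G → ℂ) = n} = 3 := hcd
  obtain ⟨x, y, z, -, -, -, h⟩ := Set.ncard_eq_three.1 h3
  have h1 : ∀ χ, IsIrrCharacter G χ → charDegree χ = x ∨ charDegree χ = y ∨ charDegree χ = z :=
    fun χ hχ => by simpa using (Set.ext_iff.1 h (charDegree χ)).1 ⟨⟨χ, hχ⟩, rfl⟩
  have h2 := h1 _ isIrrCharacter_one
  rw [deg_const_one] at h2
  rcases h2 with rfl | rfl | rfl
  · exact three_degrees G y z h1
  · exact three_degrees G x z fun χ hχ => by have := h1 χ hχ; tauto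
  · exact three_degrees G x y fun χ hχ => by have := h1 χ hχ; tauto

end Cfsg.Agent.S4460
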