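import Cfsg.Statements.S4462
import Cfsg.Agent.Char.DegBroline

set_option autoImplicit false
open Cfsg

namespace Cfsg.Agent.S4462

open Cfsg.Lib.Char Cfsg.Lib.Char.Deg Cfsg.Lib.Solv

universe u

theorem ssubset {G : Type*} [Group G] [Finite G] (hs : Group.IsSolvable G)
    (h : fittingSubgroup G ≠ ⊤) :
    {d | ∃ χ : IrrCharacter (G ⧸ fittingSubgroup G), charDegree χ.1 = d} ⊂
      {d | ∃ χ : IrrCharacter G, charDegree χ.1 = d} := by
  refine ⟨fun d ⟨β, hβ⟩ => ⟨⟨_, β.2.inflate⟩, (deg_inflate _ _).trans hβ⟩, fun h1 => ?_⟩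
  obtain ⟨β, -, hβ⟩ := Finset.exists_max_image Finset.univ
    (fun β : IrrCharacter (G ⧸ fittingSubgroup G) => charDegree β.1) Finset.univ_nonempty
  have hχ := β.2.inflate
  obtain ⟨ψ, hψ, h2, -⟩ : ∃ ψ, IsIrrCharacter G ψ ∧ charDegree (fun g : G => β.1 g) < charDegree ψ ∧
      charKer ψ < charKer (fun g : G => β.1 g) := by
    have := hχ.charKer_normal
    rcases (le_charKer_comp_mk _ β.1).eq_or_lt with h2 | h2
    · exact exists_lt_of_eq_fitting hχ h2.symm rfl inferInstance h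
    · exact exists_lt_of_not_isNilpotent hχ (mt (le_fitting this) h2.not_ge)
  obtain ⟨γ, hγ⟩ := h1 ⟨⟨ψ, hψ⟩, rfl⟩
  rw [deg_inflate] at h2
  exact h2.not_ge (hγ ▸ hβ γ (Finset.mem_univ _))

theorem chain (n : ℕ) : ∀ (G : Type u) [Group G] [Finite G], Group.IsSolvable G →
    ({d | ∃ χ : IrrCharacter G, charDegree χ.1 = d}.ncard ≤ n ∨ Subsingleton G) →
    ∃ N : ℕ → Subgroup G, N 0 = ⊥ ∧ N n = ⊤ ∧ (∀ i, N i ≤ N (i + 1)) ∧ (∀ i, (N i).Normal) ∧
      ∀ i, ∃ k, (N (i + 1)).lowerCentralSeries k ≤ N i := by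
  induction n with
  | zero =>
    intro G _ _ _ h
    obtain h | h := h
    · have h1 := (Set.ncard_eq_zero (Set.finite_range _)).1 (Nat.le_zero.1 h)
      exact absurd h1 (Set.range_nonempty _).ne_empty
    · exact ⟨fun _ => ⊥, rfl, Subsingleton.elim _ _, fun _ => le_rfl, fun _ => inferInstance,
        fun _ => ⟨0, le_rfl⟩⟩
  | succ n ih =>
    intro G _ _ hs h
    obtain ⟨N, h0, h1, h2, h3, h4⟩ := ih (G ⧸ fittingSubgroup G) inferInstance (by
      by_cases h1 : fittingSubgroup G = ⊤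
      · exact Or.inr (QuotientGroup.subsingleton_iff.2 h1)
      obtain h | h := h
      · exact Or.inl (Nat.lt_succ_iff.1 ((Set.ncard_lt_ncard (ssubset hs h1)
          (Set.finite_range _)).trans_le h))
      · exact absurd (Subsingleton.elim _ _) h1)
    refine ⟨fun i => Nat.casesOn i ⊥ fun i => (N i).comap (QuotientGroup.mk' _), rfl,
      by simp [h1], ?_, ?_, ?_⟩
    · rintro (_ | i)
      exacts [bot_le, Subgroup.comap_mono (h2 i)]
    · rintro (_ | i)
      exacts [(inferInstance : (⊥ : Subgroup G).Normal), (h3 i).comap _]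
    · rintro (_ | i)
      · obtain ⟨k, hk⟩ := (Subgroup.isNilpotent_iff_lowerCentralSeries (fittingSubgroup G)).1
          inferInstance
        exact ⟨k, by simp [h0, hk]⟩
      · obtain ⟨k, hk⟩ := h4 i
        refine ⟨k, Subgroup.map_le_iff_le_comap.1 ?_⟩
        rw [Subgroup.map_lowerCentralSeries]
        exact (Subgroup.lowerCentralSeries_mono k (Subgroup.map_comap_le _ _)).trans hk

/-- Let G be a finite solvable group with exactly n distinct irreducible character degrees. Then G has normal subgroups 1 = N₀ ≤ N₁ ≤ ⋯ ≤ Nₙ = G with every quotient N_{i+1}/N_i nilpotent (the nilpotent length of G is at most n). -/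
theorem result {G : Type*} [Group G] [Finite G] (hsolv : Group.IsSolvable G) (n : ℕ) (hcd : Nat.card {d : ℕ // ∃ χ : Cfsg.IrrCharacter G, Cfsg.charDegree (χ : G → ℂ) = d} = n) : ∃ N : Fin (n + 1) → Subgroup G, N 0 = ⊥ ∧ N (Fin.last n) = ⊤ ∧ Monotone N ∧ (∀ i, (N i).Normal) ∧ ∀ i : Fin n, ∀ h : (N i.castSucc).subgroupOf (N i.succ) |>.Normal, Group.IsNilpotent (↥(N i.succ) ⧸ (N i.castSucc).subgroupOf (N i.succ)) := by
  obtain ⟨N, h0, h1, h2, h3, h4⟩ := chain n G hsolv (Or.inl hcd.le)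
  refine ⟨fun i => N i, h0, h1, fun i j h => monotone_nat_of_le_succ h2 h, fun i => h3 i,
    fun i h => ?_⟩
  obtain ⟨k, hk⟩ := h4 i
  refine Subgroup.nilpotent_iff_lowerCentralSeries.2 ⟨k, ?_⟩
  rw [← Subgroup.map_top_of_surjective _ (QuotientGroup.mk'_surjective _),
    ← Subgroup.map_lowerCentralSeries, map_mk'_eq_bot_iff]
  refine Subgroup.map_le_iff_le_comap.1 ?_
  rwa [Subgroup.top_subtype_lowerCentralSeries]

end Cfsg.Agent.S4462
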