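import Cfsg.Statements.S4464
import Cfsg.Agent.Char.DegIto

set_option autoImplicit false
open Cfsg

namespace Cfsg.Agent.S4464

open Cfsg.Lib.Char Cfsg.Lib.Char.Deg Cfsg.Lib.Solv

theorem deg_le_mul {G : Type*} [Group G] [Fintype G] {ψ : G → ℂ} (hψ : IsCharacter G ψ)
    (H : Subgroup G) [Fintype H] {b m : ℕ} (hm : classInner (fun h : H => ψ h) (fun _ => 1) = m)
    (h : ∀ χ, IsIrrCharacter G χ → classInner ψ χ ≠ 0 →
      classInner (fun h : H => χ h) (fun _ => 1) ≠ 0 ∧ charDegree χ ≤ b) :
    charDegree ψ ≤ b * m := by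
  obtain ⟨c, hc, hsum, -⟩ := hψ.exists_nat_multiplicity
  choose d hd using fun χ : IrrCharacter G =>
    (χ.2.isCharacter.res H).exists_nat_classInner isIrrCharacter_one.isCharacter
  have h1 : charDegree ψ = ∑ χ : IrrCharacter G, c χ * charDegree (χ : G → ℂ) := by
    refine deg_eq ?_
    conv_lhs => rw [hsum]
    push_cast
    rw [Finset.sum_apply]
    exact Finset.sum_congr rfl fun ψ _ => by rw [cast_deg_irr ψ.2]; rfl
  have h2 : m = ∑ χ : IrrCharacter G, c χ * d χ := by
    have h3 : (fun h : H => ψ h) = ∑ χ : IrrCharacter G, (c χ : ℂ) • fun h : H => χ.1 h :=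
      funext fun x => by conv_lhs => rw [hsum]
                         simp
    rw [h3, classInner_sum_left] at hm
    simp only [classInner_smul_left, hd] at hm
    exact_mod_cast hm.symm
  rw [h1, h2, Finset.mul_sum]
  refine Finset.sum_le_sum fun χ _ => ?_
  by_cases h0 : c χ = 0
  · simp [h0]
  obtain ⟨h3, h4⟩ := h χ χ.2 (by rw [hc]; exact_mod_cast h0)
  rw [hd, Nat.cast_ne_zero] at h3
  rw [mul_left_comm]
  exact Nat.mul_le_mul_left _ (h4.trans (Nat.le_mul_of_pos_right _ (Nat.pos_of_ne_zero h3)))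

theorem sum_fixedBy (P X : Type*) [Group P] [Fintype P] [Fintype X] [MulAction P X] :
    ∑ g : P, Nat.card (MulAction.fixedBy X g) = ∑ x : X, Nat.card (MulAction.stabilizer P x) := by
  classical
  simp only [Nat.card_eq_fintype_card, Fintype.card_subtype, Finset.card_filter]
  exact Finset.sum_comm

/-- Let p be a prime and G a finite group all of whose irreducible character degrees are less than p. Then G has a normal abelian Sylow p-subgroup. -/
theorem result {G : Type*} [Group G] [Finite G] (p : ℕ) (hp : p.Prime) (hb : ∀ χ : Cfsg.IrrCharacter G, Cfsg.charDegree (χ : G → ℂ) < p) : ∃ P : Subgroup G, P.Normal ∧ (∀ x ∈ P, ∀ y ∈ P, x * y = y * x) ∧ IsPGroup p P ∧ ¬ p ∣ P.index := by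
  classical
  have := Fact.mk hp
  have := Fintype.ofFinite G
  have := Fintype.ofFinite (Sylow p G)
  obtain ⟨P⟩ : Nonempty (Sylow p G) := inferInstance
  have := Fintype.ofFinite (P : Subgroup G)
  have := Fintype.ofFinite (MulAction.stabilizer G P)
  have hPN : ↑P ≤ MulAction.stabilizer G P := P.stabilizer_eq_normalizer ▸ Subgroup.le_normalizer
  have hπ := isCharacter_card_fixedBy G (Sylow p G)
  have hπ' := funext (card_fixedBy_eq_indFun (G := G) (Sylow p G) P)
  have hψ := hπ.sub_of_classInner_ne_zero isIrrCharacter_one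
    (by rw [hπ', classInner_indFun_one_one]; exact one_ne_zero)
  obtain ⟨m, hm⟩ := (hψ.res P).exists_nat_classInner isIrrCharacter_one.isCharacter
  obtain ⟨n, hn⟩ : ∃ n, Nat.card (Sylow p G) = n + 1 := ⟨_, (Nat.succ_pred Nat.card_pos.ne').symm⟩
  obtain ⟨q, rfl⟩ : ∃ q, p = q + 1 := ⟨_, (Nat.succ_pred hp.ne_zero).symm⟩
  have h1 := deg_le_mul hψ P (b := q) hm fun χ hχ h => ⟨by
    refine lies_over_trans hPN hχ.isCharacter isIrrCharacter_one isIrrCharacter_one.isCharacter ?_
      (by rw [classInner_one_one]; exact one_ne_zero)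
    rw [← classInner_indFun_irr_eq isIrrCharacter_one.isCharacter hχ.isCharacter, ← hπ']
    obtain ⟨a, ha⟩ := hψ.exists_nat_classInner hχ.isCharacter
    obtain ⟨b, hb⟩ := isIrrCharacter_one.isCharacter.exists_nat_classInner hχ.isCharacter
    rw [ha, Nat.cast_ne_zero] at h
    rw [classInner_sub_left, hb, sub_eq_iff_eq_add] at ha
    rw [ha]
    exact_mod_cast (by omega : a + b ≠ 0), Nat.lt_succ_iff.1 (hb ⟨χ, hχ⟩)⟩
  rw [deg_eq (n := n) (by simp [-Nat.card_eq_fintype_card, hn])] at h1
  have h2 : ∑ g : (P : Subgroup G), Nat.card (MulAction.fixedBy (Sylow (q + 1) G) g) =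
      (m + 1) * Nat.card (P : Subgroup G) := by
    have h3 := congrArg (fun x => (Nat.card (P : Subgroup G) : ℂ) * x) hm
    simp only [card_mul_classInner, Pi.sub_apply, map_one, mul_one, Finset.sum_sub_distrib,
      Finset.sum_const, Finset.card_univ, ← Nat.card_eq_fintype_card, nsmul_eq_mul] at h3
    have h4 : ((∑ g : (P : Subgroup G), Nat.card (MulAction.fixedBy (Sylow (q + 1) G) g) : ℕ) : ℂ) =
        ((m + 1) * Nat.card (P : Subgroup G) : ℕ) := by
      push_cast
      exact (sub_eq_iff_eq_add.1 h3).trans (by ring)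
    exact_mod_cast h4
  rw [sum_fixedBy, ← Finset.add_sum_erase _ _ (Finset.mem_univ P)] at h2
  have h3 : (q + 1) * ∑ Q ∈ Finset.univ.erase P, Nat.card (MulAction.stabilizer (P : Subgroup G) Q)
      ≤ n * Nat.card (P : Subgroup G) := by
    rw [Finset.mul_sum]
    refine (Finset.sum_le_card_nsmul _ _ (Nat.card (P : Subgroup G)) fun Q hQ => ?_).trans ?_
    · rw [← Subgroup.card_top (G := (P : Subgroup G))]
      refine PG.prime_mul_card_le_of_lt (PG.isPGroup_top P.isPGroup') (lt_top_iff_ne_top.2 fun h =>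
        (Finset.mem_erase.1 hQ).1 (Sylow.ext (P.is_maximal' Q.isPGroup'
          (P.isPGroup'.sylow_mem_fixedPoints_iff.1 fun g =>
            (Subgroup.eq_top_iff' (MulAction.stabilizer (P : Subgroup G) Q)).1 h g))))
    · rw [Finset.card_erase_of_mem (Finset.mem_univ P), Finset.card_univ,
        ← Nat.card_eq_fintype_card, hn]
      rfl
  have h4 := (MulAction.stabilizer (P : Subgroup G) P).card_le_card_group
  have h5 : (q + 1) * m ≤ n := Nat.le_of_mul_le_mul_right (c := Nat.card (P : Subgroup G))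
    (by nlinarith) Nat.card_pos
  have h6 : n = 0 := by nlinarith
  have : Subsingleton (Sylow (q + 1) G) := (Nat.card_eq_one_iff_unique.1 (by rw [hn, h6])).1
  have := P.normal_of_subsingleton
  exact ⟨P, this, comm_of_isPGroup_of_not_dvd _ P.isPGroup' fun χ hχ h =>
    (hb ⟨χ, hχ⟩).not_ge (Nat.le_of_dvd (deg_pos hχ) h), P.isPGroup', P.not_dvd_index⟩

end Cfsg.Agent.S4464
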