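import Cfsg.Statements.S4463
import Cfsg.Agent.Char.DegThree
import Cfsg.Agent.Char.DegBroline
import Cfsg.Agent.Char.OrbitCount
import Cfsg.Agent.Char.Ramified
import Cfsg.Agent.Char.Burnside
import Cfsg.Agent.S4464

set_option autoImplicit false
open Cfsg

namespace Cfsg.Agent.S4463

open Cfsg.Lib.Char Cfsg.Lib.Char.Deg Cfsg.Lib.Solv

universe u

/-- All irreducible degrees are at most `b`. -/
def Bd (G : Type*) [Group G] (b : ℕ) : Prop := ∀ χ, IsIrrCharacter G χ → charDegree χ ≤ b

/-- There is an abelian subgroup of index at most `c`. -/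
def Ab (G : Type*) [Group G] (c : ℕ) : Prop :=
  ∃ A : Subgroup G, (∀ x ∈ A, ∀ y ∈ A, x * y = y * x) ∧ A.index ≤ c

section

variable {G : Type*} [Group G] [Finite G] {b : ℕ}

theorem Ab.of_subgroup (H : Subgroup G) {c d : ℕ} (h : Ab H c) (hd : H.index * c ≤ d) : Ab G d := by
  obtain ⟨A, h1, h2⟩ := h
  refine ⟨A.map H.subtype, ?_, ?_⟩
  · rintro _ ⟨x, hx, rfl⟩ _ ⟨y, hy, rfl⟩
    rw [← map_mul, ← map_mul, h1 x hx y hy]
  · rw [Subgroup.index_map_subtype, mul_comm]
    exact (Nat.mul_le_mul_left _ h2).trans hd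

theorem Bd.subgroup (h : Bd G b) (H : Subgroup G) : Bd H b := by
  classical
  intro θ hθ
  have := Fintype.ofFinite G
  obtain ⟨χ, hχ, h1⟩ := exists_irr_over hθ
  exact (deg_le_of_lies_over hχ.isCharacter hθ h1).trans (h χ hχ)

theorem Bd.quotient (h : Bd G b) (N : Subgroup G) [N.Normal] : Bd (G ⧸ N) b := fun β hβ => by
  simpa only [deg_inflate] using h _ hβ.inflate

theorem Bd.res_eq (h : Bd G b) {H : Subgroup G} [Fintype H] {θ : H → ℂ} (hθ : IsIrrCharacter H θ)
    (hb : b ≤ charDegree θ) {χ : G → ℂ} (hχ : IsIrrCharacter G χ)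
    (h1 : classInner (fun x : H => χ x) θ ≠ 0) : (fun x : H => χ x) = θ :=
  eq_of_classInner_ne_zero_of_deg_le (hχ.isCharacter.res H) hθ h1
    (by rw [deg_res]; exact (h χ hχ).trans hb)

theorem Bd.exists_res_eq (h : Bd G b) {H : Subgroup G} {θ : H → ℂ} (hθ : IsIrrCharacter H θ)
    (hb : b ≤ charDegree θ) : ∃ χ, IsIrrCharacter G χ ∧ (fun x : H => χ x) = θ := by
  classical
  have := Fintype.ofFinite G
  obtain ⟨χ, hχ, h1⟩ := exists_irr_over hθ
  exact ⟨χ, hχ, h.res_eq hθ hb hχ h1⟩

theorem exists_index_eq_prime {K : Subgroup G} [K.Normal] {q k : ℕ} (hq : q.Prime)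
    (hk : K.index = q ^ (k + 1)) : ∃ U : Subgroup G, K ≤ U ∧ U.index = q := by
  have := Fact.mk hq
  obtain ⟨V, hV⟩ := Sylow.exists_subgroup_card_pow_prime (G := G ⧸ K) q (n := k)
    (by rw [← Subgroup.index_eq_card, hk]; exact pow_dvd_pow q k.le_succ)
  refine ⟨V.comap (QuotientGroup.mk' K), QuotientGroup.le_comap_mk' K V, ?_⟩
  rw [Subgroup.index_comap_of_surjective _ (QuotientGroup.mk'_surjective K)]
  have h := V.card_mul_index
  rw [hV, ← Subgroup.index_eq_card, hk, pow_succ] at h
  exact Nat.eq_of_mul_eq_mul_left (pow_pos hq.pos k) h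

theorem exists_small_class [Nontrivial G] (h : Bd G b) :
    ∃ x : G, x ≠ 1 ∧ (Subgroup.centralizer {x}).index ≤ b ^ 2 := by
  classical
  have := Fintype.ofFinite G
  by_contra hcon
  push Not at hcon
  have h1 := sum_card_centralizer G
  rw [← card_irr_eq_card_conjClasses, ← Finset.add_sum_erase _ _ (Finset.mem_univ (1 : G))] at h1
  have h2 := sum_deg_sq G
  rw [← Finset.add_sum_erase _ _ (Finset.mem_univ (⟨_, isIrrCharacter_one⟩ : IrrCharacter G))] at h2
  have h3 := Finset.sum_le_card_nsmul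
    (Finset.univ.erase (⟨_, isIrrCharacter_one⟩ : IrrCharacter G))
    (fun χ => charDegree (χ : G → ℂ) ^ 2) (b ^ 2) fun χ _ => Nat.pow_le_pow_left (h _ χ.2) 2
  have h4 : (∑ x ∈ Finset.univ.erase (1 : G), Nat.card (Subgroup.centralizer {x})) * b ^ 2 <
      ∑ x ∈ Finset.univ.erase (1 : G), Nat.card G := by
    rw [Finset.sum_mul]
    refine Finset.sum_lt_sum_of_nonempty ?_ fun x hx => ?_
    · obtain ⟨x, hx⟩ := exists_ne (1 : G)
      exact ⟨x, Finset.mem_erase.2 ⟨hx, Finset.mem_univ _⟩⟩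
    · rw [← (Subgroup.centralizer {x}).card_mul_index]
      exact Nat.mul_lt_mul_of_pos_left (hcon x (Finset.mem_erase.1 hx).1) Nat.card_pos
  have h5 : Subgroup.centralizer ({1} : Set G) = ⊤ := by
    rw [eq_top_iff]; intro g _; simp [Subgroup.mem_centralizer_iff]
  rw [h5, Subgroup.card_top] at h1
  rw [Finset.sum_const, Finset.card_erase_of_mem (Finset.mem_univ _), Finset.card_univ,
    ← Nat.card_eq_fintype_card, smul_eq_mul] at h4
  rw [Finset.card_erase_of_mem (Finset.mem_univ _), Finset.card_univ,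
    ← Nat.card_eq_fintype_card, smul_eq_mul] at h3
  simp only [deg_const_one] at h2
  obtain ⟨k, hk⟩ : ∃ k, Nat.card (IrrCharacter G) = k + 1 :=
    Nat.exists_eq_succ_of_ne_zero Nat.card_pos.ne'
  rw [hk] at h1 h3
  rw [Nat.add_sub_cancel] at h3
  have h6 : ∑ x ∈ Finset.univ.erase (1 : G), Nat.card (Subgroup.centralizer {x}) =
      k * Nat.card G := by linarith
  rw [h6, mul_right_comm] at h4
  have h7 := lt_of_mul_lt_mul_right h4 (Nat.zero_le _)
  omega

theorem five_le {G : Type u} [Group G] [Finite G] (hK : IsMaxNonab (⊥ : Subgroup G))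
    (hs : ¬ Group.IsSolvable G) (h : Bd G b) : 5 ≤ b := by
  by_contra hb
  refine hs (isSolvable_of_prime_dvd_card Nat.prime_two Nat.prime_three G fun r hr hd => ?_)
  by_contra h23
  have h5 : 5 ≤ r := hr.five_le_of_ne_two_of_ne_three (by tauto) (by tauto)
  obtain ⟨P, hP, hab, -, hi⟩ := S4464.result (G := G) r hr fun χ => by have := h _ χ.2; omega
  have hP0 : P ≠ ⊥ := by
    rintro rfl
    exact hi (by rwa [Subgroup.index_bot])
  have h1 := hK.max P hP (bot_lt_iff_ne_bot.2 hP0)
  refine hs ⟨⟨2, le_bot_iff.1 ?_⟩⟩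
  rw [derivedSeries_succ, derivedSeries_one, Subgroup.commutator_le]
  intro x hx y hy
  exact commutatorElement_eq_one_iff_mul_comm.2 (hab x (h1 hx) y (h1 hy))

theorem arith (hb : 5 ≤ b) : b ^ 2 * (b / 2).factorial ≤ b.factorial := by
  obtain ⟨c, rfl⟩ : ∃ c, b = c + 3 := ⟨b - 3, by omega⟩
  have h1 : ((c + 3) / 2).factorial ≤ c.factorial := Nat.factorial_le (by omega)
  rw [Nat.factorial_succ, Nat.factorial_succ, Nat.factorial_succ]
  have h2 : c + 3 ≤ (c + 2) * (c + 1) := by nlinarith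
  calc (c + 3) ^ 2 * ((c + 3) / 2).factorial ≤ (c + 3) * ((c + 2) * (c + 1)) * c.factorial := by
        rw [sq]; gcongr
    _ = _ := by ring

/-- If `G/K` is nonabelian then the degrees of `K` are at most half of the bound. -/
theorem Bd.half (h : Bd G b) {K : Subgroup G} [K.Normal] (hK : ¬ commutator G ≤ K) :
    Bd K (b / 2) := by
  classical
  have := Fintype.ofFinite G
  intro θ hθ
  obtain ⟨χ, hχ, h1⟩ := exists_irr_over hθ
  obtain ⟨k, h2, -⟩ := exists_deg_eq_mul_of_lies_over hχ hθ h1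
  have h3 := h χ hχ
  have h4 := deg_pos hχ
  rw [Nat.le_div_iff_mul_le two_pos]
  by_cases hk : k = 1
  · have h5 := eq_of_classInner_ne_zero_of_deg_le (hχ.isCharacter.res K) hθ h1
      (by rw [deg_res, h2, hk, one_mul])
    obtain ⟨β, hβ, h6, h7⟩ : ∃ β, IsIrrCharacter G β ∧ K ≤ charKer β ∧ charDegree β ≠ 1 := by
      by_contra hcon
      push Not at hcon
      exact hK (le_of_forall_le_charKer K fun β hβ h6 =>
        (commutator_le_charKer_iff hβ).2 (hcon β hβ h6))
    have h8 := h _ (gallagher_irr hχ.isCharacter (h5 ▸ hθ) hβ h6)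
    rw [deg_mul hβ.isCharacter hχ.isCharacter, h2, hk, one_mul] at h8
    have h9 := deg_pos hβ
    calc charDegree θ * 2 ≤ charDegree θ * charDegree β := Nat.mul_le_mul_left _ (by omega)
      _ ≤ b := by rwa [mul_comm]
  · have h5 : k ≠ 0 := by rintro rfl; omega
    calc charDegree θ * 2 ≤ charDegree θ * k := Nat.mul_le_mul_left _ (by omega)
      _ ≤ b := by rwa [mul_comm, ← h2]

theorem index_le_of_vanish {H : Subgroup G} {χ : G → ℂ} (hχ : IsIrrCharacter G χ)
    (h : ∀ g, g ∉ H → χ g = 0) : H.index ≤ charDegree χ ^ 2 := by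
  classical
  have := Fintype.ofFinite G
  have h1 := (classInner_res_self_eq_iff H χ).2 h
  rw [hχ.classInner_self, Complex.one_re, mul_one, classInner_self_eq, Complex.ofReal_re] at h1
  have h2 : ∑ x : H, ‖χ x‖ ^ 2 ≤ Nat.card H * (charDegree χ : ℝ) ^ 2 := by
    rw [Nat.card_eq_fintype_card, ← Finset.card_univ, ← nsmul_eq_mul]
    refine Finset.sum_le_card_nsmul _ _ _ fun x _ => pow_le_pow_left₀ (norm_nonneg _) ?_ 2
    rw [← re_apply_one hχ.isCharacter]
    exact hχ.isCharacter.norm_le_re _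
  have h3 : (0 : ℝ) < Nat.card H := by exact_mod_cast Nat.card_pos
  rw [inv_mul_eq_iff_eq_mul₀ h3.ne'] at h1
  rw [h1] at h2
  exact_mod_cast le_of_mul_le_mul_left h2 h3

end

theorem main (b : ℕ) : ∀ (G : Type u) [Group G] [Finite G], Bd G b → Ab G (b.factorial ^ 2) := by
  classical
  induction b using Nat.strong_induction_on with | _ b ih
  intro G _ _ h
  have := Fintype.ofFinite G
  have hb : 0 < b := (deg_pos isIrrCharacter_one).trans_le (h _ isIrrCharacter_one)
  have hfac : b ^ 2 * (b - 1).factorial ^ 2 = b.factorial ^ 2 := by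
    rw [← mul_pow, Nat.mul_factorial_pred hb.ne']
  have hstep : ∀ H : Subgroup G, H.index ≤ b ^ 2 →
      (∀ θ, IsIrrCharacter H θ → charDegree θ < b) → Ab G (b.factorial ^ 2) := fun H h1 h2 =>
    (ih (b - 1) (by omega) H fun θ hθ => by have := h2 θ hθ; omega).of_subgroup H
      (hfac ▸ Nat.mul_le_mul_right _ h1)
  by_cases hG : commutator G ≤ ⊥
  · refine ⟨⊤, fun x _ y _ => commutatorElement_eq_one_iff_mul_comm.1
      (hG (Subgroup.commutator_mem_commutator trivial trivial)), ?_⟩
    rw [Subgroup.index_top]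
    exact Nat.one_le_pow _ _ b.factorial_pos
  obtain ⟨K, -, hK⟩ := exists_isMaxNonab hG
  have := hK.normal
  by_cases hs : Group.IsSolvable (G ⧸ K)
  · obtain ⟨q, hq, ⟨-, β, hβ, hKβ, hβ1, hZ⟩ | hF⟩ := hK.dichotomy hs
    · have := hβ.charCenter_normal
      refine hstep (charCenter β) ?_ fun θ hθ => ?_
      · have h1 := hβ.degree_sq_eq_index_of_commutator_le hZ
        rw [re_apply_one hβ.isCharacter] at h1
        have h2 : charDegree β ^ 2 = (charCenter β).index := by exact_mod_cast h1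
        exact h2 ▸ Nat.pow_le_pow_left (h β hβ) 2
      · by_contra hlt
        obtain ⟨χ, hχ, h1⟩ := h.exists_res_eq hθ (not_lt.1 hlt)
        have h2 := h _ (irr_mul_of_res_charCenter_irr hβ hχ.isCharacter le_rfl (h1 ▸ hθ))
        rw [deg_mul hβ.isCharacter hχ.isCharacter, ← deg_res (charCenter β) χ, h1] at h2
        have h3 := deg_pos hβ
        have h4 : 2 * charDegree θ ≤ charDegree β * charDegree θ :=
          Nat.mul_le_mul_right _ (by omega)
        omega
    · set N := commutator G ⊔ K with hN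
      have hf : N.index ≤ b := by
        obtain ⟨χ, hχ, h1⟩ := hF.exists_deg_eq_index
        exact h1 ▸ h χ hχ
      by_cases hex : ∃ ψ, IsIrrCharacter N ψ ∧ b ≤ charDegree ψ
      swap
      · push Not at hex
        exact hstep N (hf.trans (Nat.le_self_pow two_ne_zero b)) hex
      have hvan : ∀ ψ, IsIrrCharacter N ψ → b ≤ charDegree ψ →
          ∀ k, k ∉ K.subgroupOf N → ψ k = 0 := by
        intro ψ hψ h1
        obtain ⟨χ, hχ, h2⟩ := h.exists_res_eq hψ h1
        refine (vanish_or_free_of_chief hF.lt.le hF.chief fun g n => ?_).resolve_right fun h3 => ?_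
        · rw [← h2]; exact hχ.isClassFunction.apply_conj _ _
        · obtain ⟨ξ, hξ, h4⟩ := hF.exists_deg_of_free hψ h3
          have h5 := h ξ hξ
          have h6 := hF.index_ne_one
          have h7 : N.index ≠ 0 := Subgroup.index_ne_zero_of_finite
          have h8 : 2 * charDegree ψ ≤ N.index * charDegree ψ :=
            Nat.mul_le_mul_right _ (by omega)
          omega
      obtain ⟨k, hk⟩ := hF.pow
      obtain ⟨k, rfl⟩ : ∃ j, k = j + 1 := Nat.exists_eq_succ_of_ne_zero fun h0 =>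
        hF.lt.not_ge (Subgroup.relIndex_eq_one.1 (by rw [hk, h0, pow_zero]))
      obtain ⟨U, hKU, hU⟩ := exists_index_eq_prime (G := N) (K := K.subgroupOf N) hq hk
      have hUn : U.Normal := Subgroup.Normal.of_commutator_le _
        ((commutator_le_subgroupOf hF.ab).trans hKU)
      have hred : ∀ ψ, IsIrrCharacter N ψ → b ≤ charDegree ψ →
          ¬ IsIrrCharacter U fun u : U => ψ u := by
        intro ψ hψ h1 h2
        have h3 := (vanish_iff_classInner_res_self hψ).1
          fun g hg => hvan ψ hψ h1 g fun h => hg (hKU h)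
        rw [h2.classInner_self, hU] at h3
        exact hq.one_lt.ne (by exact_mod_cast h3)
      have hqb : q ≤ b := by
        obtain ⟨ψ, hψ, h1⟩ := hex
        obtain ⟨θ, hθ, -, h2⟩ :=
          (res_irr_or_eq_indFun_of_prime_index (hU ▸ hq) hψ).resolve_left (hred ψ hψ h1)
        have h3 := h.subgroup N ψ hψ
        rw [h2, deg_indFun U hθ.isCharacter, hU] at h3
        exact (Nat.le_mul_of_pos_right _ (deg_pos hθ)).trans h3
      refine (((ih (b - 1) (by omega) U fun θ hθ => ?_).of_subgroup U le_rfl).of_subgroup N ?_)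
      · by_contra hlt
        obtain ⟨ψ, hψ, h1⟩ := (h.subgroup N).exists_res_eq hθ (by omega)
        exact hred ψ hψ (by rw [← deg_res U ψ, h1]; omega) (h1 ▸ hθ)
      · rw [← hfac, hU, ← mul_assoc, sq b]
        gcongr
  · have hb5 := five_le hK.quotient hs (h.quotient K)
    have hnt : Nontrivial (G ⧸ K) := not_subsingleton_iff_nontrivial.1 fun _ => hs inferInstance
    obtain ⟨x, hx, hxi⟩ := exists_small_class (h.quotient K)
    set H := (Subgroup.centralizer {x}).comap (QuotientGroup.mk' K) with hH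
    have hHi : H.index ≤ b ^ 2 := by
      rwa [hH, Subgroup.index_comap_of_surjective _ (QuotientGroup.mk'_surjective K)]
    by_cases hex : ∃ θ, IsIrrCharacter H θ ∧ b ≤ charDegree θ
    swap
    · push Not at hex
      exact hstep H hHi hex
    obtain ⟨θ, hθ, h1⟩ := hex
    obtain ⟨χ, hχ, h2⟩ := h.exists_res_eq hθ h1
    have hKH : K ≤ H := QuotientGroup.le_comap_mk' K _
    have hcore : H.normalCore ≤ K := by
      by_contra hcon
      have h3 := (hK.max _ inferInstance (lt_of_le_not_ge (Subgroup.normal_le_normalCore.2 hKH)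
        hcon)).trans H.normalCore_le
      have h4 : commutator (G ⧸ K) ≤ Subgroup.centralizer {x} := by
        have h6 : commutator (G ⧸ K) = (commutator G).map (QuotientGroup.mk' K) :=
          (map_commutator_eq G _).trans (by rw [QuotientGroup.range_mk']; rfl) |>.symm
        rw [h6, Subgroup.map_le_iff_le_comap]
        exact h3
      have h5 := hK.quotient.max (Subgroup.centralizer (commutator (G ⧸ K) : Set (G ⧸ K)))
        inferInstance (bot_lt_iff_ne_bot.2 fun h0 => hx (Subgroup.mem_bot.1 (h0 ▸ fun y hy =>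
          (h4 hy x rfl).symm)))
      refine hs ⟨⟨2, le_bot_iff.1 ?_⟩⟩
      rw [derivedSeries_succ, derivedSeries_one, Subgroup.commutator_le]
      intro y hy z hz
      exact commutatorElement_eq_one_iff_mul_comm.2 (h5 hz y hy)
    have h3 := index_le_of_vanish (H := K.subgroupOf H) hθ fun g hg => by
      by_contra h0
      refine hg (hcore (mem_normalCore_of_forall_res_eq hχ (fun ψ hψ h4 y hy => ?_) g.2 ?_))
      · rw [h2] at h4
        exact congrFun ((h.res_eq hθ h1 hψ h4).trans h2.symm) ⟨y, hy⟩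
      · rwa [← h2] at h0
    have h4 : K.index ≤ b ^ 2 * b ^ 2 := by
      rw [← Subgroup.relIndex_mul_index hKH]
      exact Nat.mul_le_mul (h3.trans (Nat.pow_le_pow_left (h.subgroup H θ hθ) 2)) hHi
    refine (ih (b / 2) (by omega) K (h.half hK.not_le)).of_subgroup K ?_
    calc K.index * (b / 2).factorial ^ 2 ≤ b ^ 2 * b ^ 2 * (b / 2).factorial ^ 2 := by gcongr
      _ = (b ^ 2 * (b / 2).factorial) ^ 2 := by ring
      _ ≤ _ := Nat.pow_le_pow_left (arith hb5) 2

/-- Let b be the largest irreducible character degree of the finite group G. Then G has an abelian subgroup of index at most (b!)². -/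
theorem result {G : Type*} [Group G] [Finite G] (b : ℕ) (hb : IsGreatest {d : ℕ | ∃ χ : Cfsg.IrrCharacter G, Cfsg.charDegree (χ : G → ℂ) = d} b) : ∃ A : Subgroup G, (∀ x ∈ A, ∀ y ∈ A, x * y = y * x) ∧ A.index ≤ (Nat.factorial b) ^ 2 := by
  exact main b G fun χ hχ => hb.2 ⟨⟨χ, hχ⟩, rfl⟩

end Cfsg.Agent.S4463
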