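import Cfsg.Statements.S4471
import Cfsg.Agent.Char.LinSylow
import Cfsg.Agent.Char.ClassMult
import Cfsg.Agent.Char.EigenChar
import Cfsg.Agent.Char.Jordan
import Cfsg.Agent.Char.JordanBound
import Cfsg.Agent.Char.DegBasic
import Mathlib.Analysis.SpecialFunctions.Trigonometric.Bounds
import Mathlib.Analysis.Real.Pi.Bounds

set_option autoImplicit false
open Cfsg

namespace Cfsg.Agent.S4471

open Cfsg.Lib.Char Cfsg.Lib.Solv Subgroup
open scoped commutatorElement

variable {G : Type*} [Group G] [Finite G] {χ : G → ℂ}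

theorem commute_conj (hχ : IsCharacter G χ) (hf : charKer χ = ⊥) {z : G} {p : ℕ} (hp : p ≠ 0)
    (hz : z ^ p = 1) {ζ a b : ℂ} (hζ : ζ ^ p = 1) (h1 : ‖ζ - 1‖ < 1)
    (h : ∀ k : ℕ, χ (z ^ k) = a * ζ ^ k + b) (g : G) : Commute z (g * z * g⁻¹) := by
  obtain ⟨E, _, _, _, ρ, hρ, rfl⟩ := exists_unitary_rep hχ
  have hinj := (charKer_rep_eq_bot_iff ρ).1 hf
  rcases subsingleton_or_nontrivial E with _ | _
  · exact hinj (Subsingleton.elim _ _)
  have key : ∀ (g : G) (c : ℂ), ∃ w, (w = ζ ∨ w = 1) ∧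
      ‖opRep ρ (g * z * g⁻¹) - algebraMap ℂ _ c‖ = ‖w - c‖ := fun g c => by
    obtain ⟨w, v, hv, h2, h3⟩ := exists_eigen_norm_sub_eq hρ (g * z * g⁻¹) c
    obtain ⟨j, rfl⟩ := exists_eq_of_eigen_of_char_pow ρ hp (by rw [conj_pow, hz]; simp) ![a, b]
      ![ζ, 1] (by simp [hζ]) (fun k => by
        rw [conj_pow, ρ.char_conj, h]; simp) hv h2
    exact ⟨_, by fin_cases j <;> simp, h3⟩
  refine commute_of_norm_lt hρ hinj (c := (ζ + 1) / 2) ?_ _ ?_
  · obtain ⟨w, hw, h2⟩ := key 1 ((ζ + 1) / 2)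
    rw [one_mul, inv_one, mul_one] at h2
    rw [h2]
    rcases hw with rfl | rfl
    · rw [show w - (w + 1) / 2 = (w - 1) / 2 by ring, norm_div, Complex.norm_two]; linarith
    · rw [show 1 - (ζ + 1) / 2 = -((ζ - 1) / 2) by ring, norm_neg, norm_div, Complex.norm_two]
      linarith
  · obtain ⟨w, hw, h2⟩ := key g 1
    rw [map_one] at h2
    rw [h2]
    rcases hw with rfl | rfl
    exacts [h1, by simp]

theorem exists_two_eigen (hχ : IsCharacter G χ) (hf : charKer χ = ⊥) {n p : ℕ} [hp : Fact p.Prime]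
    (hn : χ 1 = n) (hn2 : n < 2 * p) (hnp : n ≠ p) {P : Subgroup G} (hP : IsPGroup p P)
    (hab : commutator P ≠ ⊥) : ∃ (z : G) (a b : ℂ), z ^ p = 1 ∧ a ≠ 0 ∧ b ≠ 0 ∧
      ∀ k : ℕ, χ (z ^ k) = a * Complex.exp (2 * Real.pi * Complex.I / p) ^ k + b := by
  have := Fintype.ofFinite P
  obtain ⟨z, hz, hzc, ho⟩ := PG.exists_mem_center_orderOf_eq hP _ hab
  obtain ⟨ψ, hψ, h1, h2⟩ : ∃ ψ, IsIrrCharacter P ψ ∧ classInner (fun x : P => χ x) ψ ≠ 0 ∧
      z ∉ charKer ψ := by
    by_contra! h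
    have h1 := (hχ.res P).mem_charKer_iff_forall.2 h
    rw [hχ.charKer_res, hf, bot_subgroupOf, mem_bot] at h1
    exact hp.out.ne_one (by rw [← ho, h1, orderOf_one])
  have h3 := (hχ.res P).sub_of_classInner_ne_zero hψ h1
  obtain ⟨d, hd⟩ := hψ.isCharacter.exists_nat_degree
  obtain ⟨m, hm⟩ := h3.exists_nat_degree
  have h4 : n = m + d := by
    have := hm
    rw [Pi.sub_apply, coe_one, hn, hd, sub_eq_iff_eq_add] at this
    exact_mod_cast this
  obtain ⟨k, hk⟩ := hP.exists_card_eq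
  obtain ⟨j, -, rfl⟩ := (Nat.dvd_prime_pow hp.out).1 (hk ▸ irr_degree_dvd_card hψ hd)
  obtain ⟨j, rfl⟩ := Nat.exists_eq_succ_of_ne_zero (n := j) (by
    rintro rfl
    exact h2 (hψ.commutator_le_charKer_iff.2 (by simpa using hd) hz))
  have h5 : p ≤ p ^ (j + 1) := Nat.le_self_pow j.succ_ne_zero p
  have h6 : commutator P ≤ charKer _ := commutator_le.2 fun a _ b _ => h3.mem_charKer_iff.2
    (char_commutator_eq_of_degree_lt h3 (fun q hq h => by
      rw [(Nat.prime_dvd_prime_iff_eq hq hp.out).1 (hq.dvd_of_dvd_pow (hk ▸ h)), hm,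
        Complex.natCast_re, Nat.cast_lt]
      change p ≤ p ^ j.succ at h5
      omega) a b)
  have h7 : ∀ k : ℕ, ψ (z ^ k) = ψ 1 * (ψ z / ψ 1) ^ k := fun k => by
    induction k with
    | zero => simp
    | succ k ih => rw [pow_succ', irr_mul_center hψ hzc, ih]; ring
  have h8 : IsPrimitiveRoot (ψ z / ψ 1) p := by
    have h8 := h7 p
    rw [← ho, pow_orderOf_eq_one, ho, left_eq_mul₀ hψ.apply_one_ne_zero] at h8
    rw [← orderOf_eq_prime h8 fun h => h2 (hψ.mem_charKer_iff.2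
      ((div_eq_one_iff_eq hψ.apply_one_ne_zero).1 h))]
    exact IsPrimitiveRoot.orderOf _
  have := NeZero.mk hp.out.ne_zero
  obtain ⟨i, -, hi⟩ := h8.eq_pow_of_pow_eq_one (Complex.isPrimitiveRoot_exp p hp.out.ne_zero).pow_eq_one
  refine ⟨z ^ i, ψ 1, m, by rw [← pow_mul, mul_comm, pow_mul, ← coe_pow, ← ho, pow_orderOf_eq_one]; simp,
    hψ.apply_one_ne_zero, Nat.cast_ne_zero.2 ?_, fun k => ?_⟩
  · rintro rfl
    rcases j with _ | j
    · exact hnp (by simpa using h4)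
    · have : p * p ≤ p ^ (j + 1).succ := by
        rw [← sq]; exact Nat.pow_le_pow_right hp.out.pos (by omega)
      have := Nat.mul_le_mul_right p hp.out.two_le
      omega
  · rw [← hi, ← pow_mul, ← pow_mul, ← h7, ← hm, ← apply_of_mem_charKer (h6 (pow_mem hz (i * k)))]
    simp

theorem index_centralizer_dvd [Fintype G] (hχ : IsIrrCharacter G χ) (hf : charKer χ = ⊥)
    {A : Subgroup G} [A.Normal] (hA : A ≤ centralizer (A : Set G))
    [Fintype (centralizer (A : Set G))] {θ : centralizer (A : Set G) → ℂ}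
    (hθ : IsIrrCharacter _ θ) (h : classInner (fun x : centralizer (A : Set G) => χ x) θ ≠ 0) :
    (centralizer (A : Set G)).index ∣ (inertia _ θ).index.factorial := by
  refine (index_dvd_of_le fun g hg a ha => ?_).trans (index_normalCore_dvd_factorial _)
  have hb := Normal.conj_mem inferInstance a ha g
  have h1 : (⟨_, hA hb⟩ * (⟨a, hA ha⟩ : centralizer (A : Set G))⁻¹) ∈
      charKer fun x : centralizer (A : Set G) => χ x := by
    refine (hχ.isCharacter.res _).mem_charKer_iff_forall.2 fun φ hφ h2 => hφ.mem_charKer_iff.2 ?_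
    obtain ⟨x, rfl⟩ := mem_conjSet.1 (mem_conjSet_of_lies_over hχ hθ hφ h h2)
    have hc : ∀ b (hb : b ∈ A), (⟨b, hA hb⟩ : centralizer (A : Set G)) ∈ center _ := fun b hb =>
      mem_center_iff.2 fun y => Subtype.ext (y.2 b hb).symm
    rw [irr_mul_center hφ (hc _ hb), mem_inertia'.1 (mem_inertia_conjChar.2 (hg x)) ⟨a, hA ha⟩,
      ← irr_mul_center hφ (hc a ha), mul_inv_cancel]
  rw [hχ.isCharacter.charKer_res, hf, bot_subgroupOf, mem_bot, mul_inv_eq_one] at h1
  exact (mul_inv_eq_iff_eq_mul.1 (congrArg Subtype.val h1)).symm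

theorem main (hχ : IsIrrCharacter G χ) (hf : charKer χ = ⊥) {n p : ℕ} [hp : Fact p.Prime]
    (hn : χ 1 = n) (h7 : 7 ≤ p) (hn2 : n < 2 * p) (hnp : n ≠ p) {P : Subgroup G}
    (hP : IsPGroup p P) (hab : commutator P ≠ ⊥) : ¬ p ^ 2 ∣ (pCore p G).index := by
  have := Fintype.ofFinite G
  obtain ⟨z, a, b, h1, ha, hb, h2⟩ := exists_two_eigen hχ.isCharacter hf hn hn2 hnp hP hab
  have hζ := Complex.isPrimitiveRoot_exp p hp.out.ne_zero
  have h3 := commute_conj hχ.isCharacter hf hp.out.ne_zero h1 hζ.pow_eq_one (by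
    have h3 := Real.norm_exp_I_mul_ofReal_sub_one_le (x := 2 * Real.pi / p)
    rw [show Complex.I * ((2 * Real.pi / p : ℝ) : ℂ) = 2 * Real.pi * Complex.I / p by
      push_cast; ring] at h3
    refine h3.trans_lt ?_
    have h4 : (7 : ℝ) ≤ p := by exact_mod_cast h7
    rw [Real.norm_of_nonneg (by positivity), div_lt_one (by linarith)]
    linarith [Real.pi_lt_d2]) h2
  let A := normalClosure {z}
  have hA : A ≤ centralizer (A : Set G) := by
    have h4 : ∀ x ∈ Group.conjugatesOfSet {z}, ∀ y ∈ Group.conjugatesOfSet {z}, x * y = y * x := by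
      intro x hx y hy
      obtain ⟨_, hx1, hx2⟩ := Group.mem_conjugatesOfSet_iff.1 hx
      obtain ⟨_, hy1, hy2⟩ := Group.mem_conjugatesOfSet_iff.1 hy
      obtain ⟨g, rfl⟩ := isConj_iff.1 (hx1 ▸ hx2)
      obtain ⟨h, rfl⟩ := isConj_iff.1 (hy1 ▸ hy2)
      simpa [mul_assoc] using ((h3 (g⁻¹ * h)).map (MulAut.conj g)).eq
    exact le_centralizer_iff_isMulCommutative.2 (isMulCommutative_closure h4)
  set C := centralizer (A : Set G)
  have := Fintype.ofFinite C
  have hC : C ≠ ⊤ := fun h => by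
    have h4 : z ∈ center G := mem_center_iff.2 fun g =>
      (h.ge (mem_top g) z (subset_normalClosure rfl)).symm
    have e0 := h2 0
    have e1 := h2 1
    have e2 := h2 2
    rw [sq, irr_mul_center hχ h4, div_mul_eq_mul_div, div_eq_iff hχ.apply_one_ne_zero] at e2
    rw [pow_zero] at e0
    rw [pow_one] at e1
    rw [e0, e1] at e2
    exact mul_ne_zero (mul_ne_zero ha hb) (pow_ne_zero 2 (sub_ne_zero.2 (hζ.ne_one hp.out.one_lt)))
      (by linear_combination -e2)
  have key : ∀ θ, IsIrrCharacter C θ → classInner (fun x : C => χ x) θ ≠ 0 → ∃ t d : ℕ,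
      θ 1 = d ∧ 0 < d ∧ t * d ≤ n ∧ C.index ∣ t.factorial := fun θ hθ h => by
    obtain ⟨d, hd0, hd⟩ := hθ.exists_nat_degree_pos
    obtain ⟨e, he, -, h4⟩ := degree_dvd_of_lies_over hχ hθ h hn hd
    exact ⟨_, d, hd, hd0, by rw [h4, mul_assoc]; exact Nat.le_mul_of_pos_left _ he,
      index_centralizer_dvd hχ hf hA hθ h⟩
  have hres : (charKer fun x : C => χ x) = ⊥ := by
    rw [hχ.isCharacter.charKer_res, hf, bot_subgroupOf]
  have h4 : p ∣ C.index := by
    by_contra h4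
    have h5 := le_of_coprime_card_index (coprime_card_of_isPGroup hP
      (hp.out.coprime_iff_not_dvd.2 h4).symm)
    refine hab (eq_bot_iff.2 (commutator_le.2 fun x _ y _ => inclusion_injective h5 ?_))
    refine (hres.le ((hχ.isCharacter.res C).mem_charKer_iff_forall.2 fun θ hθ h => ?_)).trans
      (map_one _).symm
    obtain ⟨t, d, e1, -, e2, e3⟩ := key θ hθ h
    obtain ⟨k, hk⟩ := hP.exists_card_eq
    refine hθ.mem_charKer_iff.2 (char_commutator_eq_of_degree_lt (hθ.isCharacter.comp (inclusion h5))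
      (fun q hq h => ?_) x y)
    rw [(Nat.prime_dvd_prime_iff_eq hq hp.out).1 (hq.dvd_of_dvd_pow (hk ▸ h)), map_one, e1,
      Complex.natCast_re, Nat.cast_lt]
    have : 2 ≤ t := by
      by_contra! h6
      exact hC (index_eq_one.1 (Nat.dvd_one.1 (e3.trans (Nat.factorial_eq_one.2 (by omega)).dvd)))
    nlinarith
  have h5 : commutator C ≤ ⊥ := fun x hx => hres.le
    ((hχ.isCharacter.res C).mem_charKer_iff_forall.2 fun θ hθ h => by
      obtain ⟨t, d, e1, e0, e2, e3⟩ := key θ hθ h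
      have := hp.out.dvd_factorial.1 (h4.trans e3)
      refine hθ.commutator_le_charKer_iff.2 ?_ hx
      rw [e1, show d = 1 by nlinarith, Nat.cast_one])
  obtain ⟨Q⟩ : Nonempty (Sylow p C) := inferInstance
  have h6 := pCl_iff_not_dvd.1 ((pCl_iff_normal Q).2 (Normal.of_commutator_le _ (h5.trans bot_le)))
  obtain ⟨θ, hθ, h⟩ := exists_irr_under C hχ
  obtain ⟨t, d, -, e0, e2, e3⟩ := key θ hθ h
  intro h8
  have h9 := (h8.trans (index_dvd_of_le (map_pCore_le_of_normal C)))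
  rw [index_map_subtype] at h9
  have h10 := (((hp.out.coprime_iff_not_dvd.2 h6).pow_left 2).dvd_of_dvd_mul_left h9).trans
    (e3.trans (Nat.factorial_dvd_factorial (show t ≤ 2 * p - 1 by
      have := Nat.le_mul_of_pos_right t e0
      omega)))
  have h11 := (hp.out.pow_dvd_factorial_iff (b := 2) (Nat.log_lt_of_lt_pow (by omega) (by
    rw [sq]; have := Nat.mul_le_mul_right p hp.out.two_le; omega))).1 h10
  rw [Finset.sum_Ico_succ_top le_rfl, Finset.Ico_self, Finset.sum_empty, zero_add, pow_one,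
    Nat.le_div_iff_mul_le hp.out.pos] at h11
  omega

/-- Let p ≥ 7 be a prime and let the finite group G have a faithful irreducible character of degree n with n < 2p and n ≠ p. If the Sylow p-subgroups of G are non-abelian then p² does not divide the index of O_p(G) in G; consequently, in every case G/O_p(G) has abelian Sylow p-subgroups. -/
theorem result {G : Type*} [Group G] [Finite G] (χ : Cfsg.IrrCharacter G) (hfaith : ∀ g : G, (χ : G → ℂ) g = (χ : G → ℂ) 1 → g = 1) (n : ℕ) (hn : Cfsg.charDegree (χ : G → ℂ) = n) (p : ℕ) (hp : p.Prime) (h7 : 7 ≤ p) (hn2 : n < 2 * p) (hnp : n ≠ p) : ((∃ P : Sylow p G, ∃ x ∈ (P : Subgroup G), ∃ y ∈ (P : Subgroup G), x * y ≠ y * x) → ¬ p ^ 2 ∣ (Cfsg.pCore p G).index) ∧ ∀ Q : Sylow p (G ⧸ Cfsg.pCore p G), ∀ x ∈ (Q : Subgroup (G ⧸ Cfsg.pCore p G)), ∀ y ∈ (Q : Subgroup (G ⧸ Cfsg.pCore p G)), x * y = y * x := by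
  have := Fact.mk hp
  have h1 : (∃ P : Sylow p G, ∃ x ∈ (P : Subgroup G), ∃ y ∈ (P : Subgroup G), x * y ≠ y * x) →
      ¬ p ^ 2 ∣ (Cfsg.pCore p G).index := fun ⟨P, x, hx, y, hy, h⟩ =>
    main χ.2 (eq_bot_iff.2 fun g hg => hfaith g (apply_of_mem_charKer hg))
      (hn ▸ Deg.apply_one_eq χ.2.isCharacter) h7 hn2 hnp P.isPGroup' fun h1 => h
        (commutatorElement_eq_one_iff_mul_comm.1 (congrArg (fun a : (P : Subgroup G) => a.1)
          (mem_bot.1 (h1.le (commutator_mem_commutator (mem_top ⟨x, hx⟩) (mem_top ⟨y, hy⟩))))))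
  refine ⟨h1, fun Q => ?_⟩
  by_cases h : p ^ 2 ∣ (Cfsg.pCore p G).index
  · obtain ⟨P, rfl⟩ := Sylow.mapSurjective_surjective (QuotientGroup.mk'_surjective _) p Q
    rintro _ ⟨x, hx, rfl⟩ _ ⟨y, hy, rfl⟩
    rw [← map_mul, ← map_mul, not_not.1 fun h2 => h1 ⟨P, x, hx, y, hy, h2⟩ h]
  · have h2 : Nat.card (Q : Subgroup (G ⧸ pCore p G)) ∣ p := by
      rw [Q.card_eq_multiplicity]
      refine (pow_dvd_pow p ?_).trans (pow_one p).dvd
      rw [index, hp.pow_dvd_iff_le_factorization Nat.card_pos.ne'] at h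
      omega
    have := isCyclic_of_card_dvd_prime h2
    intro x hx y hy
    exact congrArg (fun a : (Q : Subgroup (G ⧸ pCore p G)) => a.1) (mul_comm' ⟨x, hx⟩ ⟨y, hy⟩)

end Cfsg.Agent.S4471
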