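import Cfsg.Statements.S4473
import Cfsg.Agent.Char.EigenChar
import Cfsg.Agent.Char.CharCenter
import Cfsg.Agent.Class.DicksonPGL

set_option autoImplicit false
open Cfsg

namespace Cfsg.Agent.S4473

open Cfsg.Lib.Char Cfsg.Lib.Class Matrix
open scoped MatrixGroups

/-- Let the finite group G have a faithful irreducible character χ of degree 2 that is primitive: χ is not induced from a character of any proper subgroup. Then the centre of G has index 12, 24 or 60. -/
theorem result {G : Type*} [Group G] [Fintype G] (χ : Cfsg.IrrCharacter G) (hfaith : ∀ g : G, (χ : G → ℂ) g = (χ : G → ℂ) 1 → g = 1) (h2 : Cfsg.charDegree (χ : G → ℂ) = 2) (hprim : ∀ H : Subgroup G, H ≠ ⊤ → ∀ θ : H → ℂ, Cfsg.IsCharacter H θ → (χ : G → ℂ) ≠ Cfsg.indFun H θ) : (Subgroup.center G).index = 12 ∨ (Subgroup.center G).index = 24 ∨ (Subgroup.center G).index = 60 := by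
  obtain ⟨χ, hχ⟩ := χ
  obtain ⟨n, ρ, hρ, rfl⟩ := id hχ
  simp only at hfaith h2 hprim
  have h1 : ρ.character 1 = 2 := by rw [Deg.apply_one_eq hχ.isCharacter, h2]; rfl
  obtain rfl : n = 2 := by
    have := h1
    rw [ρ.char_one, Module.finrank_fin_fun] at this
    exact_mod_cast this
  let φ : G →* GL (Fin 2) ℂ := GeneralLinearGroup.toLin.symm.toMonoidHom.comp ρ.asGroupHom
  have hφ : ∀ g v, φ g • v = ρ g v := fun g v => by
    change (GeneralLinearGroup.toLin (φ g)).1 v = _
    simp [φ, Representation.asGroupHom_apply]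
  let π : G →* PGL(2, ℂ) := ProjGenLinGroup.mk.comp φ
  have hπ : ∀ g v (hv : v ≠ 0), π g • Projectivization.mk ℂ v hv = Projectivization.mk ℂ v hv ↔
      ∃ c : ℂ, ρ g v = c • v := fun g v hv => by
    change ProjGenLinGroup.mk (φ g) • _ = _ ↔ _
    rw [Projectivization.PGL.mk_smul_mk, Projectivization.mk_eq_mk_iff']
    simp only [hφ, eq_comm]
  have hker : π.ker = Subgroup.center G := by
    rw [← hχ.charCenter_eq_center_of_faithful (by
      rw [eq_bot_iff]
      exact fun g hg => hfaith g (apply_of_mem_charKer hg))]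
    ext g
    rw [mem_charCenter_rep, MonoidHom.mem_ker]
    change ProjGenLinGroup.mk (φ g) = 1 ↔ _
    rw [ProjGenLinGroup.mk_eq_one, GeneralLinearGroup.mem_center_iff_val_mem_range_scalar]
    refine exists_congr fun c => ⟨fun h => LinearMap.ext fun v => ?_, fun h => ?_⟩
    · rw [← hφ, Units.smul_def, ← h]
      ext i
      simp [Matrix.smul_eq_mulVec, Matrix.mulVec_diagonal]
    · refine (Matrix.ext_iff_mulVec.2 fun v => ?_)
      have := hφ g v
      rw [h, Units.smul_def, Matrix.smul_eq_mulVec] at this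
      rw [this]
      ext i
      simp [Matrix.mulVec_diagonal]
  have hcard : Nat.card π.range = (Subgroup.center G).index := by
    rw [← hker, Subgroup.index_ker]
  let _ : MulAction G (P1 ℂ) := MulAction.compHom _ π
  have horb : ∀ x : P1 ℂ, ¬ (MulAction.orbit G x).ncard ≤ 2 := fun x hx => by
    induction x using Projectivization.ind with | _ v hv =>
    rw [← MulAction.index_stabilizer] at hx
    set T := MulAction.stabilizer G (Projectivization.mk ℂ v hv)
    obtain ⟨lam, hlam⟩ := exists_indFun_of_stable_line ρ T hv fun g hg => (hπ g v hv).1 hg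
    have hc := isCharacter_indFun (isIrrCharacter_monoidHom lam).isCharacter
    have h3 := hc.degree_le_of_classInner_ne_zero hχ hlam
    rw [h1, indFun_one] at h3
    have h4 : T.index = 2 := by
      refine le_antisymm hx ?_
      simpa using h3
    refine hprim T (fun h => by simp [h] at h4) _ (isIrrCharacter_monoidHom lam).isCharacter
      (hc.eq_of_classInner_ne_zero_of_degree hχ hlam ?_).symm
    rw [h1, indFun_one, h4]
    simp
  let L := (pgl2LineAction ℂ).comap π.range.subtype π.range.subtype_injective fun _ _ => rfl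
  have hU : ∀ x, L.U x = ⊥ := fun x => by
    rw [eq_bot_iff]
    rintro ⟨_, g, rfl⟩ hg
    refine (L.mem_U_iff.1 hg).resolve_right fun h => ?_
    obtain ⟨b, ε, -, hb, -⟩ := exists_eigenbasis_rep ρ g
      (Nat.cast_ne_zero.mpr (orderOf_pos g).ne') (pow_orderOf_eq_one g)
    have : Nontrivial (Fin (Module.finrank ℂ (Fin 2 → ℂ))) := by
      rw [Fin.nontrivial_iff_two_le]; simp
    obtain ⟨i, j, hij⟩ := exists_pair_ne (Fin (Module.finrank ℂ (Fin 2 → ℂ)))
    have h3 := (h.2 _ ((hπ g _ (b.ne_zero i)).2 ⟨_, hb i⟩)).trans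
      (h.2 _ ((hπ g _ (b.ne_zero j)).2 ⟨_, hb j⟩)).symm
    obtain ⟨c, hc⟩ := (Projectivization.mk_eq_mk_iff' ℂ _ _ _ _).1 h3
    simpa [hij.symm] using congrArg (b.repr · i) hc
  rw [← hcard]
  have : Finite π.range := Finite.of_surjective _ π.rangeRestrict_surjective
  rcases L.classification with ⟨x, h⟩ | ⟨x, y, -, h⟩ | ⟨-, h | h | h⟩ | h | ⟨x, h, -⟩
  · refine absurd ((Set.ncard_le_ncard (t := {x}) ?_).trans (by simp)) (horb x)
    rintro _ ⟨g, rfl⟩
    exact h ⟨π g, g, rfl⟩
  · refine absurd ((Set.ncard_le_ncard (t := {x, y}) ?_).trans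
      ((Set.ncard_insert_le _ _).trans (by simp))) (horb x)
    rintro _ ⟨g, rfl⟩
    exact (h ⟨π g, g, rfl⟩).imp And.left And.left
  · exact Or.inl h.1
  · exact Or.inr (Or.inl h.1)
  · exact Or.inr (Or.inr h.1)
  · exact Or.inr (Or.inr h.1)
  · simp [hU] at h

end Cfsg.Agent.S4473
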