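import Cfsg.Statements.S4476
import Cfsg.Agent.Char.FrobSchur
import Cfsg.Agent.Char.PermLemma

set_option autoImplicit false
open Cfsg

namespace Cfsg.Agent.S4476

/-- Let G be a finite group of even order g with exactly t involutions, and put α = (g − 1)/t (a rational number). Then (a) some non-identity element x of G has at most α² conjugates; and (b) some non-principal real-valued irreducible character of G has degree at most α. -/
theorem result {G : Type*} [Group G] [Fintype G] (heven : Even (Nat.card G)) (t : ℕ) (ht : Nat.card {x : G // orderOf x = 2} = t) : (∃ x : G, x ≠ 1 ∧ ((Subgroup.centralizer ({x} : Set G)).index : ℚ) ≤ (((Nat.card G : ℚ) - 1) / t) ^ 2) ∧ ∃ χ : Cfsg.IrrCharacter G, (χ : G → ℂ) ≠ (fun _ => 1) ∧ (∀ g : G, ((χ : G → ℂ) g).im = 0) ∧ (Cfsg.charDegree (χ : G → ℂ) : ℚ) ≤ ((Nat.card G : ℚ) - 1) / t := by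
  classical
  open Cfsg.Lib.Char in
  have hdeg : ∀ χ : IrrCharacter G, ((charDegree (χ : G → ℂ) : ℕ) : ℂ) = (χ : G → ℂ) 1 := by
    intro χ
    obtain ⟨n, -, hn⟩ := IsIrrCharacter.exists_nat_degree_pos χ.2
    simp [charDegree, hn]
  have hdpos : ∀ χ : IrrCharacter G, 0 < charDegree (χ : G → ℂ) := by
    intro χ
    refine Nat.pos_of_ne_zero fun h0 => IsIrrCharacter.apply_one_ne_zero χ.2 ?_
    rw [← hdeg, h0, Nat.cast_zero]
  set d : IrrCharacter G → ℚ := fun χ => (charDegree (χ : G → ℂ) : ℚ) with hd
  have hd0 : ∀ χ, 0 < d χ := fun χ => by simp only [hd]; exact_mod_cast hdpos χ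
  let one : IrrCharacter G := ⟨fun _ => 1, isIrrCharacter_one⟩
  have hdone : d one = 1 := by simp [hd, one, charDegree]
  have htpos : 0 < t := by
    have : Fact (Nat.Prime 2) := ⟨Nat.prime_two⟩
    obtain ⟨x, hx⟩ := exists_prime_orderOf_dvd_card' (G := G) 2 heven.two_dvd
    rw [← ht]
    have : Nonempty {x : G // orderOf x = 2} := ⟨⟨x, hx⟩⟩
    exact Nat.card_pos
  have ht0 : (0 : ℚ) < t := by exact_mod_cast htpos
  -- the square roots of one
  have hsq : Nat.card {s : G // s * s = 1} = t + 1 := by
    rw [← ht, Nat.card_eq_fintype_card, Nat.card_eq_fintype_card, Fintype.card_subtype,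
      Fintype.card_subtype]
    have : (Finset.univ.filter fun s : G => s * s = 1) =
        insert 1 (Finset.univ.filter fun s : G => orderOf s = 2) := by
      ext s
      simp only [Finset.mem_filter, Finset.mem_univ, true_and, Finset.mem_insert]
      constructor
      · intro h
        by_cases h1 : s = 1
        · exact Or.inl h1
        · exact Or.inr (orderOf_eq_prime (by rw [pow_two]; exact h) h1)
      · rintro (rfl | h)
        · simp
        · rw [← pow_two, ← h, pow_orderOf_eq_one]
    rw [this, Finset.card_insert_of_notMem (by simp)]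
  set R : Finset (IrrCharacter G) :=
    (Finset.univ.erase one).filter fun χ => ∀ g, ((χ : G → ℂ) g).im = 0 with hR
  choose ν hν hν' using fun χ : IrrCharacter G => IsIrrCharacter.exists_int_fsInd χ.2
  have h1 : ((t : ℚ) + 1) = ∑ χ, (ν χ : ℚ) * d χ := by
    have := card_sqrt_eq_sum_fsInd (1 : G)
    rw [hsq] at this
    simp_rw [hν', ← hdeg] at this
    simp only [hd]
    exact_mod_cast this
  have hνone : ν one = 1 := by
    have := hν' one
    rw [show fsInd (one : G → ℂ) = 1 from fsInd_one] at this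
    exact_mod_cast this.symm
  have h2 : (t : ℚ) ≤ ∑ χ ∈ R, d χ := by
    rw [← Finset.add_sum_erase _ _ (Finset.mem_univ one), hνone, hdone] at h1
    have h3 : (t : ℚ) = ∑ χ ∈ Finset.univ.erase one, (ν χ : ℚ) * d χ := by
      push_cast at h1; linarith
    rw [h3, hR, Finset.sum_filter]
    refine Finset.sum_le_sum fun χ _ => ?_
    split_ifs with hr
    · have := hd0 χ
      rcases hν χ with h | h | h <;> rw [h] <;> push_cast <;> linarith
    · push Not at hr
      have h4 := (IsIrrCharacter.fsInd_eq_zero_iff χ.2).2 hr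
      rw [hν'] at h4
      have h5 : ν χ = 0 := by exact_mod_cast h4
      simp [h5]
  have h3 : ∑ χ ∈ R, d χ ^ 2 ≤ (Nat.card G : ℚ) - 1 := by
    have h4 : ∑ χ, d χ ^ 2 = (Nat.card G : ℚ) := by
      have := sum_irr_degree_sq (G := G)
      simp_rw [← hdeg] at this
      simp only [hd]
      exact_mod_cast this
    rw [← Finset.add_sum_erase _ _ (Finset.mem_univ one), hdone] at h4
    have h5 : ∑ χ ∈ R, d χ ^ 2 ≤ ∑ χ ∈ Finset.univ.erase one, d χ ^ 2 :=
      Finset.sum_le_sum_of_subset_of_nonneg (Finset.filter_subset _ _) fun χ _ _ => sq_nonneg _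
    linarith
  have hRne : R.Nonempty := by
    rw [Finset.nonempty_iff_ne_empty]
    intro h0
    rw [h0, Finset.sum_empty] at h2
    linarith
  have hg1 : (0 : ℚ) < (Nat.card G : ℚ) - 1 := by
    refine lt_of_lt_of_le ?_ h3
    exact Finset.sum_pos (fun χ _ => pow_pos (hd0 χ) 2) hRne
  constructor
  · by_contra hcon
    push Not at hcon
    -- Cauchy–Schwarz
    have h4 : (t : ℚ) ^ 2 ≤ R.card * ((Nat.card G : ℚ) - 1) := by
      have := Finset.sum_mul_sq_le_sq_mul_sq R (fun _ => (1 : ℚ)) d
      simp only [one_mul, one_pow, Finset.sum_const, nsmul_eq_mul, mul_one] at this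
      calc (t : ℚ) ^ 2 ≤ (∑ χ ∈ R, d χ) ^ 2 := pow_le_pow_left₀ ht0.le h2 2
        _ ≤ R.card * ∑ χ ∈ R, d χ ^ 2 := this
        _ ≤ _ := mul_le_mul_of_nonneg_left h3 (Nat.cast_nonneg _)
    have h5 : (R.card : ℚ) + 1 ≤ Fintype.card (IrrCharacter G) := by
      have h6 : R.card ≤ (Finset.univ.erase one).card := Finset.card_filter_le _ _
      rw [Finset.card_erase_of_mem (Finset.mem_univ _), Finset.card_univ] at h6
      have h7 : 0 < Fintype.card (IrrCharacter G) := Fintype.card_pos
      have : R.card + 1 ≤ Fintype.card (IrrCharacter G) := by omega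
      exact_mod_cast this
    have h6 : ∑ x : G, (Nat.card (Subgroup.centralizer ({x} : Set G)) : ℚ) =
        Nat.card G * Fintype.card (IrrCharacter G) := by
      have := Fintype.ofFinite (ConjClasses G)
      have := sum_card_centralizer_mul (G := G) (fun _ => (1 : ℂ))
      simp only [mul_one, Finset.sum_const, Finset.card_univ, nsmul_eq_mul] at this
      rw [← Nat.card_eq_fintype_card (α := IrrCharacter G), card_irr_eq_card_conjClasses,
        Nat.card_eq_fintype_card (α := ConjClasses G)]
      exact_mod_cast this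
    rw [← Finset.add_sum_erase _ _ (Finset.mem_univ (1 : G))] at h6
    have h7 : Nat.card (Subgroup.centralizer ({1} : Set G)) = Nat.card G := by
      rw [show Subgroup.centralizer ({1} : Set G) = ⊤ from by
        rw [eq_top_iff]; intro x _; simp [Subgroup.mem_centralizer_iff], Subgroup.card_top]
    have hGne : (Finset.univ.erase (1 : G)).Nonempty := by
      rw [← Finset.card_pos, Finset.card_erase_of_mem (Finset.mem_univ _), Finset.card_univ,
        ← Nat.card_eq_fintype_card]
      have : (1 : ℚ) < Nat.card G := by linarith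
      have : 1 < Nat.card G := by exact_mod_cast this
      omega
    have h8 : ∑ x ∈ Finset.univ.erase (1 : G),
        (Nat.card (Subgroup.centralizer ({x} : Set G)) : ℚ) * (((Nat.card G : ℚ) - 1) / t) ^ 2 <
        ∑ _x ∈ Finset.univ.erase (1 : G), (Nat.card G : ℚ) := by
      refine Finset.sum_lt_sum_of_nonempty hGne fun x hx => ?_
      have h9 := hcon x (Finset.ne_of_mem_erase hx)
      have h10 := (Subgroup.centralizer ({x} : Set G)).card_mul_index
      have h11 : (0 : ℚ) < Nat.card (Subgroup.centralizer ({x} : Set G)) := by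
        exact_mod_cast Nat.card_pos
      have h12 : (Nat.card (Subgroup.centralizer ({x} : Set G)) : ℚ) *
          ((Subgroup.centralizer ({x} : Set G)).index : ℚ) = Nat.card G := by exact_mod_cast h10
      exact (mul_lt_mul_of_pos_left h9 h11).trans_eq h12
    rw [← Finset.sum_mul, Finset.sum_const, Finset.card_erase_of_mem (Finset.mem_univ _),
      Finset.card_univ, ← Nat.card_eq_fintype_card, nsmul_eq_mul,
      Nat.cast_sub (Nat.one_le_iff_ne_zero.2 Nat.card_pos.ne')] at h8
    rw [h7] at h6
    have h9 : ∑ x ∈ Finset.univ.erase (1 : G),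
        (Nat.card (Subgroup.centralizer ({x} : Set G)) : ℚ) ≥ Nat.card G * R.card := by
      have : (0 : ℚ) ≤ Nat.card G := Nat.cast_nonneg _
      nlinarith
    set S := ∑ x ∈ Finset.univ.erase (1 : G), (Nat.card (Subgroup.centralizer ({x} : Set G)) : ℚ)
    set n : ℚ := (Nat.card G : ℚ)
    rw [div_pow, ← mul_div_assoc, div_lt_iff₀ (by positivity)] at h8
    push_cast at h8
    have hn : 0 < n := by linarith
    have h10 : n * R.card * (n - 1) ^ 2 ≤ S * (n - 1) ^ 2 :=
      mul_le_mul_of_nonneg_right h9 (sq_nonneg _)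
    have h11 : (n - 1) * n * (t : ℚ) ^ 2 ≤ (n - 1) * n * (R.card * (n - 1)) :=
      mul_le_mul_of_nonneg_left h4 (by positivity)
    nlinarith
  · by_contra hcon
    push Not at hcon
    have h4 : ∑ χ ∈ R, ((Nat.card G : ℚ) - 1) / t * d χ < ∑ χ ∈ R, d χ ^ 2 := by
      refine Finset.sum_lt_sum_of_nonempty hRne fun χ hχ => ?_
      rw [hR, Finset.mem_filter] at hχ
      have h5 := hcon χ (fun h => Finset.ne_of_mem_erase hχ.1 (Subtype.ext h)) hχ.2
      rw [pow_two]
      exact mul_lt_mul_of_pos_right h5 (hd0 χ)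
    rw [← Finset.mul_sum] at h4
    have h5 : ((Nat.card G : ℚ) - 1) / t * t ≤ ((Nat.card G : ℚ) - 1) / t * ∑ χ ∈ R, d χ :=
      mul_le_mul_of_nonneg_left h2 (by positivity)
    rw [div_mul_cancel₀ _ ht0.ne'] at h5
    linarith

end Cfsg.Agent.S4476
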