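import Cfsg.Statements.S4478
import Cfsg.Agent.Char.FrobSchur
import Cfsg.Agent.Char.BrauerApps
import Cfsg.Agent.Char.Central

set_option autoImplicit false
open Cfsg

namespace Cfsg.Agent.S4478

/-- Let G be a finite group of even order and χ an irreducible character of G whose degree x is divisible by the full power of 2 dividing the order of G and, for every odd prime p such that G has an element of order 2p, by the full power of p dividing the order of G. Then all involutions of G are conjugate, the centralizer of every involution has order exactly x with x coprime to its index, and the Frobenius–Schur indicator of χ equals 1. -/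
theorem result {G : Type*} [Group G] [Fintype G] (heven : Even (Nat.card G)) (χ : Cfsg.IrrCharacter G) (h2 : 2 ^ (Nat.card G).factorization 2 ∣ Cfsg.charDegree (χ : G → ℂ)) (hp : ∀ p : ℕ, p.Prime → p ≠ 2 → (∃ g : G, orderOf g = 2 * p) → p ^ (Nat.card G).factorization p ∣ Cfsg.charDegree (χ : G → ℂ)) : (∀ s t : G, orderOf s = 2 → orderOf t = 2 → IsConj s t) ∧ (∀ s : G, orderOf s = 2 → Nat.card (Subgroup.centralizer ({s} : Set G)) = Cfsg.charDegree (χ : G → ℂ) ∧ (Nat.card (Subgroup.centralizer ({s} : Set G))).Coprime (Subgroup.centralizer ({s} : Set G)).index) ∧ (Nat.card G : ℂ)⁻¹ * ∑ g : G, (χ : G → ℂ) (g * g) = 1 := by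
  classical
  open Cfsg.Lib.Char in
  have hχ : IsIrrCharacter G (χ : G → ℂ) := χ.2
  obtain ⟨x, hx0, hx⟩ := hχ.exists_nat_degree_pos
  have hdeg : charDegree (χ : G → ℂ) = x := by simp [charDegree, hx]
  rw [hdeg] at h2 hp ⊢
  obtain ⟨t, ht⟩ := irr_degree_dvd_card hχ hx
  have hG0 : Nat.card G ≠ 0 := Nat.card_pos.ne'
  have hndvd : ∀ p : ℕ, p.Prime → p ^ (Nat.card G).factorization p ∣ x → ¬ p ∣ t := by
    intro p hpp h1 h3
    have h4 : p ^ ((Nat.card G).factorization p + 1) ∣ Nat.card G := by
      rw [pow_succ]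
      nth_rewrite 2 [ht]
      exact Nat.mul_dvd_mul h1 h3
    exact Nat.pow_succ_factorization_not_dvd hG0 hpp h4
  have hvan : ∀ p : ℕ, p.Prime → p ^ (Nat.card G).factorization p ∣ x → ∀ g : G, p ∣ orderOf g →
      (χ : G → ℂ) g = 0 := fun p hpp h1 g hg =>
    Brauer.irr_apply_eq_zero_of_defect_zero hχ hpp hx ht (hndvd p hpp h1) hg
  have hgood : ∀ s : G, orderOf s = 2 → ∀ g : G, Commute s g → ∀ p : ℕ, p.Prime →
      p ∣ orderOf g → p ^ (Nat.card G).factorization p ∣ x := by
    intro s hs g hsg p hpp hpg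
    by_cases hp2 : p = 2
    · subst hp2; exact h2
    · refine hp p hpp hp2 ⟨s * g ^ (orderOf g / p), ?_⟩
      have h3 : orderOf (g ^ (orderOf g / p)) = p :=
        orderOf_pow_orderOf_div (orderOf_pos g).ne' hpg
      rw [(hsg.pow_right _).orderOf_mul_eq_mul_orderOf_of_coprime, hs, h3]
      rw [hs, h3]
      exact (Nat.coprime_primes Nat.prime_two hpp).2 (Ne.symm hp2)
  have hvanC : ∀ s : G, orderOf s = 2 → ∀ g : G, Commute s g → g ≠ 1 → (χ : G → ℂ) g = 0 := by
    intro s hs g hsg hg1
    obtain ⟨p, hpp, hpg⟩ := Nat.exists_prime_and_dvd (mt orderOf_eq_one_iff.1 hg1)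
    exact hvan p hpp (hgood s hs g hsg p hpp hpg) g hpg
  -- the centralizer order divides the degree
  have hCdvd : ∀ s : G, orderOf s = 2 → Nat.card (Subgroup.centralizer ({s} : Set G)) ∣ x := by
    intro s hs
    set C := Subgroup.centralizer ({s} : Set G)
    have hres : IsCharacter C (fun c : C => (χ : G → ℂ) c) := hχ.isCharacter.comp C.subtype
    obtain ⟨m, hm⟩ := (isCharacter_iff_classInner.1 hres).2 _ isIrrCharacter_one
    have h3 := card_mul_classInner (fun c : C => (χ : G → ℂ) c) (fun _ => 1)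
    rw [hm, Finset.sum_eq_single (1 : C)] at h3
    · simp only [OneMemClass.coe_one, hx, map_one, mul_one] at h3
      exact ⟨m, by exact_mod_cast h3.symm⟩
    · intro c _ hc
      rw [hvanC s hs c (Subgroup.mem_centralizer_iff.1 c.2 s rfl) (fun h => hc (Subtype.ext h)),
        zero_mul]
    · simp
  have : Fact (Nat.Prime 2) := ⟨Nat.prime_two⟩
  obtain ⟨s₀, hs₀⟩ := exists_prime_orderOf_dvd_card' (G := G) 2 heven.two_dvd
  have hχ1 : (χ : G → ℂ) ≠ fun _ => 1 := fun h => by
    have := hvanC s₀ hs₀ s₀ (Commute.refl _) (fun h => by rw [h, orderOf_one] at hs₀; omega)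
    rw [h] at this
    exact one_ne_zero this
  have hsum0 : ∑ g : G, (χ : G → ℂ) g = 0 := by
    have h3 := card_mul_classInner (χ : G → ℂ) (fun _ => 1)
    have h4 : classInner (χ : G → ℂ) (fun _ => 1) = 0 := by
      by_contra h4
      exact hχ1 (hχ.eq_of_classInner_ne_zero isIrrCharacter_one h4)
    rw [h4, mul_zero] at h3
    simpa using h3.symm
  set I : Finset G := Finset.univ.filter fun s => orderOf s = 2 with hI
  set O : Finset G := Finset.univ.filter fun s => Odd (orderOf s) with hO
  have hsq : ∑ g : G, (χ : G → ℂ) (g * g) = I.card * x := by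
    have h3 : ∀ g : G, (χ : G → ℂ) (g * g) =
        (if Odd (orderOf g) then (χ : G → ℂ) (g * g) else 0) +
          (if orderOf g = 2 then (x : ℂ) else 0) := by
      intro g
      by_cases ho : Odd (orderOf g)
      · rw [if_pos ho, if_neg (fun h => by rw [h] at ho; exact absurd ho (by decide)), add_zero]
      · rw [if_neg ho, zero_add]
        split_ifs with h4
        · rw [← pow_two, ← h4, pow_orderOf_eq_one, hx]
        · have h5 : 2 ∣ orderOf g := (Nat.not_odd_iff_even.1 ho).two_dvd
          refine hvanC (g ^ (orderOf g / 2)) (orderOf_pow_orderOf_div (orderOf_pos g).ne' h5) _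
            (((Commute.refl g).mul_right (Commute.refl g)).pow_left _) fun h6 => h4 ?_
          refine Nat.dvd_antisymm (orderOf_dvd_of_pow_eq_one (by rw [pow_two]; exact h6)) h5
    rw [Finset.sum_congr rfl fun g _ => h3 g, Finset.sum_add_distrib, ← Finset.sum_filter,
      ← Finset.sum_filter, Finset.sum_const, nsmul_eq_mul, ← hI, ← hO]
    have h4 : ∑ g ∈ O, (χ : G → ℂ) (g * g) = ∑ g ∈ O, (χ : G → ℂ) g := by
      have hmaps : ∀ g ∈ O, g * g ∈ O := fun g hg => by
        rw [hO, Finset.mem_filter] at hg ⊢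
        refine ⟨Finset.mem_univ _, hg.2.of_dvd_nat ?_⟩
        rw [← pow_two]
        exact orderOf_pow_dvd 2
      have hsurj : ∀ g ∈ O, ∃ a, ∃ _ : a ∈ O, a * a = g := fun g hg => by
        rw [hO, Finset.mem_filter] at hg
        obtain ⟨k, hk⟩ := hg.2
        refine ⟨g ^ (k + 1), ?_, ?_⟩
        · rw [hO, Finset.mem_filter]
          exact ⟨Finset.mem_univ _, hg.2.of_dvd_nat (orderOf_pow_dvd _)⟩
        · rw [← pow_add, show k + 1 + (k + 1) = orderOf g + 1 by omega, pow_succ,
            pow_orderOf_eq_one, one_mul]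
      refine Finset.sum_bij (fun g _ => g * g) hmaps ?_ (fun g hg => hsurj g hg) fun _ _ => rfl
      exact fun a ha b hb hab => Finset.inj_on_of_surj_on_of_card_le (fun g _ => g * g) hmaps
        (fun g hg => hsurj g hg) le_rfl ha hb hab
    have h5 : ∑ g ∈ O, (χ : G → ℂ) g = 0 := by
      rw [← hsum0, hO, Finset.sum_filter]
      refine Finset.sum_congr rfl fun g _ => ?_
      split_ifs with h
      · rfl
      · exact (hvan 2 Nat.prime_two h2 g (Nat.not_odd_iff_even.1 h).two_dvd).symm
    rw [h4, h5, zero_add]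
  have hI0 : 0 < I.card := Finset.card_pos.2 ⟨s₀, by simp [hI, hs₀]⟩
  have hfs : fsInd (χ : G → ℂ) = 1 ∧ I.card * x = Nat.card G := by
    have h3 : (Nat.card G : ℂ) * fsInd (χ : G → ℂ) = I.card * x := by
      rw [fsInd_def, hsq, ← mul_assoc, mul_inv_cancel₀ (card_ne_zero G), one_mul]
    have h4 : 0 < I.card * x := Nat.mul_pos hI0 hx0
    rcases hχ.fsInd_eq with h | h | h <;> rw [h] at h3
    · rw [mul_zero] at h3
      have : I.card * x = 0 := by exact_mod_cast h3.symm
      omega
    · rw [mul_one] at h3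
      exact ⟨h, by exact_mod_cast h3.symm⟩
    · have : (Nat.card G : ℤ) * (-1) = I.card * x := by exact_mod_cast h3
      have h5 : (0 : ℤ) < I.card * x := by exact_mod_cast h4
      omega
  have hIt : I.card = t := by
    have := hfs.2
    rw [ht, mul_comm] at this
    exact Nat.eq_of_mul_eq_mul_left hx0 this
  have hmain : ∀ s : G, orderOf s = 2 → Nat.card (Subgroup.centralizer ({s} : Set G)) = x ∧
      (Subgroup.centralizer ({s} : Set G)).index = t ∧
      (Finset.univ.filter fun y => IsConj s y) = I := by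
    intro s hs
    have h3 := (Subgroup.centralizer ({s} : Set G)).card_mul_index
    have h4 := Nat.le_of_dvd hx0 (hCdvd s hs)
    have hsub : (Finset.univ.filter fun y => IsConj s y) ⊆ I := fun y hy => by
      rw [Finset.mem_filter] at hy
      obtain ⟨c, hc⟩ := hy.2
      rw [hI, Finset.mem_filter, ← SemiconjBy.orderOf_eq (c : G) hc]
      exact ⟨Finset.mem_univ _, hs⟩
    have h5 := Finset.card_le_card hsub
    have h6 : (Finset.univ.filter fun y => IsConj s y).card =
        (Subgroup.centralizer ({s} : Set G)).index := card_filter_isConj s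
    rw [h6, hIt] at h5
    rw [ht] at h3
    have ht0 : 0 < t := hIt ▸ hI0
    have h7 : (Subgroup.centralizer ({s} : Set G)).index = t := by
      refine le_antisymm h5 (not_lt.1 fun h8 => ?_)
      have := Nat.mul_lt_mul_of_le_of_lt h4 h8 hx0
      omega
    refine ⟨?_, h7, Finset.eq_of_subset_of_card_le hsub (by rw [h6, h7, hIt])⟩
    rw [h7] at h3
    exact Nat.eq_of_mul_eq_mul_right ht0 h3
  refine ⟨fun s u hs hu => ?_, fun s hs => ⟨(hmain s hs).1, ?_⟩, hfs.1⟩
  · have h3 : u ∈ I := by simp [hI, hu]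
    rw [← (hmain s hs).2.2, Finset.mem_filter] at h3
    exact h3.2
  · rw [(hmain s hs).2.1]
    refine Nat.coprime_of_dvd fun p hpp h3 h4 => ?_
    have : Fact p.Prime := ⟨hpp⟩
    obtain ⟨c, hc⟩ := exists_prime_orderOf_dvd_card' p h3
    refine hndvd p hpp (hgood s hs c (Subgroup.mem_centralizer_iff.1 c.2 s rfl) p hpp ?_) h4
    rw [Subgroup.orderOf_coe, hc]

end Cfsg.Agent.S4478
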