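import Cfsg.Statements.S4479
import Cfsg.Agent.Block.Klein

set_option autoImplicit false
open Cfsg

open Cfsg Cfsg.Lib.Char Cfsg.Lib.Block Cfsg.Lib.Block.Princ ComplexConjugate

namespace Cfsg.Agent.S4479

theorem sum_four {G : Type*} [Group G] [Finite G] {B : Set (IrrCharacter G)}
    {χ₁ χ₂ χ₃ : IrrCharacter G}
    (hB : B = {χ : Cfsg.IrrCharacter G | (χ : G → ℂ) = (fun _ => 1) ∨ χ = χ₁ ∨ χ = χ₂ ∨ χ = χ₃})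
    (hdist : (χ₁ : G → ℂ) ≠ (fun _ => 1) ∧ (χ₂ : G → ℂ) ≠ (fun _ => 1) ∧
      (χ₃ : G → ℂ) ≠ (fun _ => 1) ∧ χ₁ ≠ χ₂ ∧ χ₁ ≠ χ₃ ∧ χ₂ ≠ χ₃) (F : IrrCharacter G → ℂ) :
    ∑ χ ∈ irrFin B, F χ = F (triv G) + F χ₁ + F χ₂ + F χ₃ := by
  classical
  obtain ⟨h1, h2, h3, h12, h13, h23⟩ := hdist
  have e : irrFin B = {triv G, χ₁, χ₂, χ₃} := by
    ext χ
    rw [mem_irrFin, hB]
    simp [eq_triv_iff]
  rw [Ne, ← eq_triv_iff] at h1 h2 h3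
  rw [e, Finset.sum_insert (by simp [Ne.symm h1, Ne.symm h2, Ne.symm h3]),
    Finset.sum_insert (by simp [h12, h13]), Finset.sum_pair h23]
  ring

theorem key {G : Type*} [Group G] [Finite G] (M : Ideal Cfsg.AlgInt) (hM : Cfsg.IsPModular 2 M) (g₀ : ℕ) (hg₀ : Odd g₀) (hG : Nat.card G = 4 * g₀) (hnc : ¬ ∃ N : Subgroup G, N.Normal ∧ Nat.card N = g₀) (P : Sylow 2 G) (J : G) (hJ : J ∈ (P : Subgroup G)) (hJ2 : orderOf J = 2) (χ₁ χ₂ χ₃ : Cfsg.IrrCharacter G) (ε₁ ε₂ ε₃ : ℤ) (hB : Cfsg.principalBlock M G = {χ : Cfsg.IrrCharacter G | (χ : G → ℂ) = (fun _ => 1) ∨ χ = χ₁ ∨ χ = χ₂ ∨ χ = χ₃}) (hdist : (χ₁ : G → ℂ) ≠ (fun _ => 1) ∧ (χ₂ : G → ℂ) ≠ (fun _ => 1) ∧ (χ₃ : G → ℂ) ≠ (fun _ => 1) ∧ χ₁ ≠ χ₂ ∧ χ₁ ≠ χ₃ ∧ χ₂ ≠ χ₃) (hε : (ε₁ = 1 ∨ ε₁ = -1) ∧ (ε₂ = 1 ∨ ε₂ = -1) ∧ (ε₃ = 1 ∨ ε₃ = -1)) (hval : (χ₁ : G → ℂ) J = ε₁ ∧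 (χ₂ : G → ℂ) J = ε₂ ∧ (χ₃ : G → ℂ) J = ε₃) :
    1 + ε₁ * (charDegree (χ₁ : G → ℂ) : ℤ) + ε₂ * charDegree (χ₂ : G → ℂ) +
      ε₃ * charDegree (χ₃ : G → ℂ) = 0 ∧
    (Nat.card G : ℤ) * ((charDegree (χ₁ : G → ℂ) + ε₁) * (charDegree (χ₂ : G → ℂ) + ε₂) *
      (charDegree (χ₃ : G → ℂ) + ε₃)) *
      (Nat.card (Subgroup.centralizer ((P : Subgroup G) : Set G)) : ℤ) ^ 2 =
      8 * ((charDegree (χ₁ : G → ℂ) : ℤ) * charDegree (χ₂ : G → ℂ) * charDegree (χ₃ : G → ℂ)) *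
        (Nat.card (Subgroup.centralizer ({J} : Set G)) : ℤ) ^ 3 := by
  obtain ⟨hP, hexp, hone⟩ := klein_of_card hg₀ hG hnc P
  have h1 := sum_princ_mul_regular hM (y := (1 : G)) (z := J) (by simp) (by rw [hJ2])
  have h2 := klein_order hM P hP hexp hone hJ hJ2
  rw [sum_four hB hdist, hval.1, hval.2.1, hval.2.2] at h1 h2
  simp only [← irr_charDegree_cast, triv_apply, map_intCast, map_div₀, map_mul, map_natCast,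
    map_one] at h1 h2
  have p1 : (charDegree (χ₁ : G → ℂ) : ℂ) ≠ 0 := Nat.cast_ne_zero.2 (irr_charDegree_ne_zero _)
  have p2 : (charDegree (χ₂ : G → ℂ) : ℂ) ≠ 0 := Nat.cast_ne_zero.2 (irr_charDegree_ne_zero _)
  have p3 : (charDegree (χ₃ : G → ℂ) : ℂ) ≠ 0 := Nat.cast_ne_zero.2 (irr_charDegree_ne_zero _)
  have e1 : (ε₁ : ℂ) * ε₁ = 1 := by rcases hε.1 with h | h <;> rw [h] <;> norm_num
  have e2 : (ε₂ : ℂ) * ε₂ = 1 := by rcases hε.2.1 with h | h <;> rw [h] <;> norm_num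
  have e3 : (ε₃ : ℂ) * ε₃ = 1 := by rcases hε.2.2 with h | h <;> rw [h] <;> norm_num
  rw [e1, e2, e3] at h2
  generalize charDegree (χ₁ : G → ℂ) = x₁ at *
  generalize charDegree (χ₂ : G → ℂ) = x₂ at *
  generalize charDegree (χ₃ : G → ℂ) = x₃ at *
  have h3 : (1 : ℂ) + ε₁ * x₁ + ε₂ * x₂ + ε₃ * x₃ = 0 := by
    linear_combination h1
  refine ⟨by exact_mod_cast h3, ?_⟩
  have h4 : ((x₁ : ℂ) + ε₁) * (x₂ + ε₂) * (x₃ + ε₃) =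
      x₁ * x₂ * x₃ * (1 + 1 / x₁ * ε₁ + 1 / x₂ * ε₂ + 1 / x₃ * ε₃) := by
    field_simp
    linear_combination (ε₁ * ε₂ * ε₃ : ℂ) * h3 - (ε₂ * ε₃ * x₁ : ℂ) * e1 -
      (ε₁ * ε₃ * x₂ : ℂ) * e2 - (ε₁ * ε₂ * x₃ : ℂ) * e3
  have h5 : (Nat.card G : ℂ) * (((x₁ : ℂ) + ε₁) * (x₂ + ε₂) * (x₃ + ε₃)) *
      (Nat.card (Subgroup.centralizer ((P : Subgroup G) : Set G)) : ℂ) ^ 2 =
      8 * ((x₁ : ℂ) * x₂ * x₃) * (Nat.card (Subgroup.centralizer ({J} : Set G)) : ℂ) ^ 3 := by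
    rw [h4]
    linear_combination ((x₁ : ℂ) * x₂ * x₃) * h2
  exact_mod_cast h5

/-- An order formula from the principal 2-block. Let G be a finite group of order 4·g₀ with g₀ odd having no normal 2-complement (no normal subgroup of order g₀); let P be a Sylow 2-subgroup, J an involution of P, and fix a maximal ideal M of the algebraic integers containing 2. Suppose the principal 2-block consists of the principal character and three further distinct characters χ₁, χ₂, χ₃ of degrees x₁, x₂, x₃, with χ_i(J) = ε_i = ±1. Then, writing c(J) and c(P) for the orders of the centralizers of J and of P, the order of G equals 8·α·c(J)³/c(P)² with α = x₁x₂x₃ / ((x₁ + ε₁)(x₂ + ε₂)(x₃ + ε₃)). -/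
theorem result {G : Type*} [Group G] [Finite G] (M : Ideal Cfsg.AlgInt) (hM : Cfsg.IsPModular 2 M) (g₀ : ℕ) (hg₀ : Odd g₀) (hG : Nat.card G = 4 * g₀) (hnc : ¬ ∃ N : Subgroup G, N.Normal ∧ Nat.card N = g₀) (P : Sylow 2 G) (J : G) (hJ : J ∈ (P : Subgroup G)) (hJ2 : orderOf J = 2) (χ₁ χ₂ χ₃ : Cfsg.IrrCharacter G) (ε₁ ε₂ ε₃ : ℤ) (hB : Cfsg.principalBlock M G = {χ : Cfsg.IrrCharacter G | (χ : G → ℂ) = (fun _ => 1) ∨ χ = χ₁ ∨ χ = χ₂ ∨ χ = χ₃}) (hdist : (χ₁ : G → ℂ) ≠ (fun _ => 1) ∧ (χ₂ : G → ℂ) ≠ (fun _ => 1) ∧ (χ₃ : G → ℂ) ≠ (fun _ => 1) ∧ χ₁ ≠ χ₂ ∧ χ₁ ≠ χ₃ ∧ χ₂ ≠ χ₃) (hε : (ε₁ = 1 ∨ ε₁ = -1) ∧ (ε₂ = 1 ∨ ε₂ = -1) ∧ (ε₃ = 1 ∨ ε₃ = -1)) (hval : (χ₁ : G → ℂ) J = ε₁ ∧ (χ₂ : G → ℂ) J = ε₂ ∧ (χ₃ : G → ℂ) J = ε₃) : (Nat.card G : ℚ) = 8 * (((Cfsg.charDegree (χ₁ : G → ℂ) : ℚ) * Cfsg.charDegree (χ₂ : G → ℂ) * Cfsg.charDegree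 (χ₃ : G → ℂ)) / ((Cfsg.charDegree (χ₁ : G → ℂ) + ε₁) * (Cfsg.charDegree (χ₂ : G → ℂ) + ε₂) * (Cfsg.charDegree (χ₃ : G → ℂ) + ε₃))) * (Nat.card (Subgroup.centralizer ({J} : Set G)) : ℚ) ^ 3 / (Nat.card (Subgroup.centralizer ((P : Subgroup G) : Set G)) : ℚ) ^ 2 := by
  have h := (key M hM g₀ hg₀ hG hnc P J hJ hJ2 χ₁ χ₂ χ₃ ε₁ ε₂ ε₃ hB hdist hε hval).2
  have h' : (Nat.card G : ℚ) * ((charDegree (χ₁ : G → ℂ) + ε₁) * (charDegree (χ₂ : G → ℂ) + ε₂) *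
      (charDegree (χ₃ : G → ℂ) + ε₃)) *
      (Nat.card (Subgroup.centralizer ((P : Subgroup G) : Set G)) : ℚ) ^ 2 =
      8 * ((charDegree (χ₁ : G → ℂ) : ℚ) * charDegree (χ₂ : G → ℂ) * charDegree (χ₃ : G → ℂ)) *
        (Nat.card (Subgroup.centralizer ({J} : Set G)) : ℚ) ^ 3 := by exact_mod_cast h
  have p1 : (charDegree (χ₁ : G → ℂ) : ℚ) ≠ 0 := Nat.cast_ne_zero.2 (irr_charDegree_ne_zero _)
  have p2 : (charDegree (χ₂ : G → ℂ) : ℚ) ≠ 0 := Nat.cast_ne_zero.2 (irr_charDegree_ne_zero _)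
  have p3 : (charDegree (χ₃ : G → ℂ) : ℚ) ≠ 0 := Nat.cast_ne_zero.2 (irr_charDegree_ne_zero _)
  have p4 : (Nat.card (Subgroup.centralizer ({J} : Set G)) : ℚ) ≠ 0 :=
    Nat.cast_ne_zero.2 Nat.card_pos.ne'
  have p5 : (Nat.card (Subgroup.centralizer ((P : Subgroup G) : Set G)) : ℚ) ≠ 0 :=
    Nat.cast_ne_zero.2 Nat.card_pos.ne'
  have p6 : ((charDegree (χ₁ : G → ℂ) : ℚ) + ε₁) * (charDegree (χ₂ : G → ℂ) + ε₂) *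
      (charDegree (χ₃ : G → ℂ) + ε₃) ≠ 0 := by
    intro h0
    rw [h0, mul_zero, zero_mul] at h'
    exact absurd h'.symm (by positivity)
  rw [eq_div_iff (pow_ne_zero 2 p5), mul_div_assoc', div_mul_eq_mul_div, eq_div_iff p6]
  linear_combination h'

end Cfsg.Agent.S4479
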