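import Cfsg.Statements.S4480
import Cfsg.Agent.Block.Klein
import Cfsg.Agent.S4479

set_option autoImplicit false
open Cfsg

open Cfsg Cfsg.Lib.Char Cfsg.Lib.Block Cfsg.Lib.Block.Princ ComplexConjugate

namespace Cfsg.Agent.S4480

/-- Same setting as the Klein-four order formula: G of order 4·g₀ (g₀ odd) with no normal 2-complement, P a Sylow 2-subgroup, J an involution of P, M over 2, principal 2-block {1, χ₁, χ₂, χ₃} with χ_i(J) = ε_i = ±1. Suppose ε₁ε₂ε₃ = −1 and ε₃ = −1, and put q = x₃ = χ₃(1). Then there is a natural number m with 4·c(J) = m·c(P)·(q + 1), and the order of G equals (m³·c(P)/4)·(q³ − q)/2, that is 8·#G = m³·c(P)·(q³ − q). -/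
theorem result {G : Type*} [Group G] [Finite G] (M : Ideal Cfsg.AlgInt) (hM : Cfsg.IsPModular 2 M) (g₀ : ℕ) (hg₀ : Odd g₀) (hG : Nat.card G = 4 * g₀) (hnc : ¬ ∃ N : Subgroup G, N.Normal ∧ Nat.card N = g₀) (P : Sylow 2 G) (J : G) (hJ : J ∈ (P : Subgroup G)) (hJ2 : orderOf J = 2) (χ₁ χ₂ χ₃ : Cfsg.IrrCharacter G) (ε₁ ε₂ ε₃ : ℤ) (hB : Cfsg.principalBlock M G = {χ : Cfsg.IrrCharacter G | (χ : G → ℂ) = (fun _ => 1) ∨ χ = χ₁ ∨ χ = χ₂ ∨ χ = χ₃}) (hdist : (χ₁ : G → ℂ) ≠ (fun _ => 1) ∧ (χ₂ : G → ℂ) ≠ (fun _ => 1) ∧ (χ₃ : G → ℂ) ≠ (fun _ => 1) ∧ χ₁ ≠ χ₂ ∧ χ₁ ≠ χ₃ ∧ χ₂ ≠ χ₃) (hε : (ε₁ = 1 ∨ ε₁ = -1) ∧ (ε₂ = 1 ∨ ε₂ = -1) ∧ (ε₃ = 1 ∨ ε₃ = -1)) (hval : (χ₁ : G → ℂ) J = ε₁ ∧ (χ₂ : G → ℂ) J = ε₂ ∧ (χ₃ : G → ℂ) J = ε₃) (hprod : ε₁ * ε₂ * ε₃ = -1) (hε₃ : ε₃ = -1) : ∃ m : ℕ, 4 * Nat.card (Subgroup.centralizer ({J} : Set G)) = m * Nat.card (Subgroup.centralizer ((P : Subgroup G) : Set G)) * (Cfsg.charDegree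 (χ₃ : G → ℂ) + 1) ∧ 8 * Nat.card G = m ^ 3 * Nat.card (Subgroup.centralizer ((P : Subgroup G) : Set G)) * (Cfsg.charDegree (χ₃ : G → ℂ) ^ 3 - Cfsg.charDegree (χ₃ : G → ℂ)) := by
  have := Fintype.ofFinite G
  obtain ⟨h1, h2⟩ := S4479.key M hM g₀ hg₀ hG hnc P J hJ hJ2 χ₁ χ₂ χ₃ ε₁ ε₂ ε₃ hB hdist hε hval
  obtain ⟨hP, hexp, hone⟩ := klein_of_card hg₀ hG hnc P
  have p1 := irr_charDegree_pos χ₁
  have p2 := irr_charDegree_pos χ₂
  have p3 := irr_charDegree_pos χ₃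
  subst hε₃
  obtain ⟨rfl, rfl⟩ : ε₁ = 1 ∧ ε₂ = 1 := by
    rcases hε.1 with rfl | rfl <;> rcases hε.2.1 with rfl | rfl
    · exact ⟨rfl, rfl⟩
    · norm_num at hprod
    · norm_num at hprod
    · omega
  have hodd : ∀ χ : IrrCharacter G, (χ : G → ℂ) J = ((1 : ℤ) : ℂ) →
      Odd (charDegree (χ : G → ℂ)) := by
    intro χ hχ
    obtain ⟨n, hn, hn'⟩ := S0944.result χ J hJ2
    rw [hχ] at hn
    have : (1 : ℤ) = n := by exact_mod_cast hn
    subst this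
    rw [Nat.odd_iff]
    omega
  have hbar : ∀ χ ∈ principalBlock M G, (χ : G → ℂ) ≠ (fun _ => 1) →
      (χ : G → ℂ) J = ((1 : ℤ) : ℂ) → barI χ = χ₁ ∨ barI χ = χ₂ := by
    intro χ hχ hχ1 hχJ
    have h := barI_mem_principalBlock hM hχ
    rw [hB] at h
    rcases h with h | h | h | h
    · refine absurd (funext fun g => ?_) hχ1
      have := congrFun h g
      rw [barI_apply] at this
      rw [← Complex.conj_conj ((χ : G → ℂ) g), this, map_one]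
    · exact Or.inl h
    · exact Or.inr h
    · have := hval.2.2
      rw [← h, barI_apply, hχJ] at this
      norm_num at this
  have hx : charDegree (χ₁ : G → ℂ) = charDegree (χ₂ : G → ℂ) := by
    rcases hbar χ₁ (by rw [hB]; exact Or.inr (Or.inl rfl)) hdist.1 hval.1 with b1 | b1
    swap
    · rw [← b1, charDegree_barI]
    rcases hbar χ₂ (by rw [hB]; exact Or.inr (Or.inr (Or.inl rfl))) hdist.2.1 hval.2.1 with b2 | b2
    · rw [← b2, charDegree_barI]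
    exfalso
    have h := klein_fsInd hM P hexp hJ2
    rw [S4479.sum_four hB hdist, hval.1, hval.2.1, hval.2.2,
      χ₁.2.fsInd_eq_one_of_odd (barI_eq_self_iff.1 b1) (irr_charDegree_cast χ₁).symm
        (hodd _ hval.1),
      χ₂.2.fsInd_eq_one_of_odd (barI_eq_self_iff.1 b2) (irr_charDegree_cast χ₂).symm
        (hodd _ hval.2.1), coe_triv, fsInd_one] at h
    rcases χ₃.2.fsInd_eq with h3 | h3 | h3 <;> rw [h3] at h <;> norm_num at h
  obtain ⟨v, hv⟩ := hodd χ₁ hval.1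
  have hq : charDegree (χ₃ : G → ℂ) = 4 * v + 3 := by omega
  rw [← hx, hv, hq] at h2
  rw [hq]
  obtain ⟨β, hβ⟩ : Nat.card (Subgroup.centralizer ((P : Subgroup G) : Set G)) ∣
      Nat.card (Subgroup.centralizer ({J} : Set G)) :=
    Subgroup.card_dvd_of_le (Subgroup.centralizer_le (Set.singleton_subset_iff.2 hJ))
  have hI := (Subgroup.centralizer ({J} : Set G)).card_mul_index
  have hc : 0 < Nat.card (Subgroup.centralizer ((P : Subgroup G) : Set G)) := Nat.card_pos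
  have hβ0 : 0 < β := Nat.pos_of_ne_zero fun h => by
    rw [h, mul_zero] at hβ
    exact Nat.card_pos.ne' hβ
  rw [← hI, hβ] at h2 ⊢
  generalize Nat.card (Subgroup.centralizer ((P : Subgroup G) : Set G)) = c at *
  generalize (Subgroup.centralizer ({J} : Set G)).index = I at *
  have h3 : I * (v + 1) ^ 2 = (2 * v + 1) * (4 * v + 3) * β ^ 2 := by
    have h4 : (8 * (2 * v + 1) * c ^ 3 * β : ℤ) * (I * (v + 1) ^ 2) =
        (8 * (2 * v + 1) * c ^ 3 * β : ℤ) * ((2 * v + 1) * (4 * v + 3) * β ^ 2) := by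
      push_cast at h2
      linear_combination h2
    have h5 := mul_left_cancel₀ (by positivity) h4
    exact_mod_cast h5
  have hcop : Nat.Coprime ((v + 1) ^ 2) ((2 * v + 1) * (4 * v + 3)) := by
    refine Nat.Coprime.pow_left 2 (Nat.Coprime.mul_right ?_ ?_)
    · rw [show 2 * v + 1 = v + (v + 1) * 1 by ring, Nat.coprime_add_mul_left_right]
      simp
    · rw [show 4 * v + 3 = v + (v + 1) * 3 by ring, Nat.coprime_add_mul_left_right]
      simp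
  obtain ⟨m, rfl⟩ : v + 1 ∣ β := (Nat.pow_dvd_pow_iff two_ne_zero).1
    (hcop.dvd_of_dvd_mul_left ⟨I, by rw [← h3, mul_comm]⟩)
  refine ⟨m, by ring, ?_⟩
  have h6 : I = (2 * v + 1) * (4 * v + 3) * m ^ 2 :=
    Nat.eq_of_mul_eq_mul_right (m := (v + 1) ^ 2) (by positivity) (by rw [h3]; ring)
  rw [h6, show (4 * v + 3) ^ 3 - (4 * v + 3) = (4 * v + 3) * (4 * v + 2) * (4 * v + 4) from
    Nat.sub_eq_of_eq_add (by ring)]
  ring

end Cfsg.Agent.S4480
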