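import Cfsg.Statements.S4481
import Cfsg.Agent.Block.DihMk

set_option autoImplicit false
open Cfsg

open Cfsg.Lib.Block Cfsg.Lib.Block.Princ Cfsg.Lib.Block.Dih Cfsg.Lib.Rank2 Cfsg.Lib.Char

namespace Cfsg.Agent.S4481

/-- The principal 2-block of a group with dihedral Sylow 2-subgroups. Let G be a finite group whose Sylow 2-subgroup P is dihedral of order 2^n ≥ 8, let σ be an element of P of order 2^(n−1), ζ a primitive 2^(n−1)-th root of unity, and M a maximal ideal of the algebraic integers containing 2. Then the principal 2-block consists of exactly 3 + 2^(n−2) irreducible characters, which can be labelled 1, χ₁, χ₂, χ₃ and χ^(j) for 1 ≤ j ≤ 2^(n−2) − 1 (all distinct), with signs δ₁, δ₂, δ₃ such that for 0 < λ < 2^(n−1): χ₁(σ^λ) = δ₁, χ₂(σ^λ) = δ₂(−1)^(λ+1), χ₃(σ^λ) = δ₃(−1)^(λ+1) and χ^(j)(σ^λ) = δ₁(ζ^(jλ) + ζ^(−jλ));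 and for every element ρ of odd order and every j: 1 + δ₁χ₁(ρ) = −δ₂χ₂(ρ) − δ₃χ₃(ρ) = δ₁χ^(j)(ρ). -/
theorem result {G : Type*} [Group G] [Finite G] (M : Ideal Cfsg.AlgInt) (hM : Cfsg.IsPModular 2 M) (n : ℕ) (hn : 3 ≤ n) (P : Sylow 2 G) (hP : Nonempty ((P : Subgroup G) ≃* DihedralGroup (2 ^ (n - 1)))) (σ : G) (hσ : σ ∈ (P : Subgroup G)) (hσo : orderOf σ = 2 ^ (n - 1)) (ζ : ℂ) (hζ : IsPrimitiveRoot ζ (2 ^ (n - 1))) : Nat.card (Cfsg.principalBlock M G) = 3 + 2 ^ (n - 2) ∧ ∃ (χ₁ χ₂ χ₃ : Cfsg.IrrCharacter G) (χ' : Fin (2 ^ (n - 2) - 1) → Cfsg.IrrCharacter G) (δ₁ δ₂ δ₃ : ℤ), (δ₁ = 1 ∨ δ₁ = -1) ∧ (δ₂ = 1 ∨ δ₂ = -1) ∧ (δ₃ = 1 ∨ δ₃ = -1) ∧ Function.Injective χ' ∧ (χ₁ : G → ℂ) ≠ (fun _ => 1) ∧ (χ₂ : G → ℂ) ≠ (fun _ => 1) ∧ (χ₃ : G → ℂ) ≠ (fun _ => 1) ∧ χ₁ ≠ χ₂ ∧ χ₁ ≠ χ₃ ∧ χ₂ ≠ χ₃ ∧ (∀ j, χ' j ≠ χ₁ ∧ χ' j ≠ χ₂ ∧ χ' j ≠ χ₃ ∧ (χ' j :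 G → ℂ) ≠ (fun _ => 1)) ∧ Cfsg.principalBlock M G = {χ : Cfsg.IrrCharacter G | (χ : G → ℂ) = (fun _ => 1) ∨ χ = χ₁ ∨ χ = χ₂ ∨ χ = χ₃ ∨ ∃ j, χ = χ' j} ∧ (∀ l : ℕ, 0 < l → l < 2 ^ (n - 1) → (χ₁ : G → ℂ) (σ ^ l) = δ₁ ∧ (χ₂ : G → ℂ) (σ ^ l) = δ₂ * (-1) ^ (l + 1) ∧ (χ₃ : G → ℂ) (σ ^ l) = δ₃ * (-1) ^ (l + 1) ∧ ∀ j : Fin (2 ^ (n - 2) - 1), (χ' j : G → ℂ) (σ ^ l) = δ₁ * (ζ ^ (((j : ℕ) + 1) * l) + (ζ ^ (((j : ℕ) + 1) * l))⁻¹)) ∧ ∀ ρ : G, Odd (orderOf ρ) → ∀ j : Fin (2 ^ (n - 2) - 1), 1 + δ₁ * (χ₁ : G → ℂ) ρ = -δ₂ * (χ₂ : G → ℂ) ρ - δ₃ * (χ₃ : G → ℂ) ρ ∧ 1 + δ₁ * (χ₁ : G → ℂ) ρ = δ₁ * (χ' j : G → ℂ) ρ := by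
  classical
  obtain ⟨m, rfl⟩ : ∃ m, n = m + 3 := ⟨n - 3, by omega⟩
  obtain ⟨e⟩ := hP
  change orderOf σ = 2 ^ (m + 2) at hσo
  change IsPrimitiveRoot ζ (2 ^ (m + 2)) at hζ
  obtain ⟨Fr, b, hb, hζb⟩ := exists_frame_root (m := m) e hσ hσo hζ
  obtain ⟨K⟩ := nonempty_chars Fr hM
  have hN : 2 ^ (m + 2) = 2 * 2 ^ (m + 1) := by ring
  have hr : 2 ^ (m + 3 - 2) = 2 ^ (m + 1) := rfl
  have hne : ∀ a : ℕ, 0 < a → a < 2 ^ (m + 2) → (a : ZMod (2 ^ (m + 2))) ≠ 0 := fun a h0 h1 h =>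
    absurd (Nat.le_of_dvd h0 ((ZMod.natCast_eq_zero_iff _ _).1 h)) (by omega)
  let κ : Fin (2 ^ (m + 3 - 2) - 1) → {k : ZMod (2 ^ (m + 2)) // 2 * k ≠ 0} := fun j =>
    ⟨((j : ℕ) + 1 : ℕ), by
      have := hne (2 * (j + 1)) (by omega) (by have := j.2; omega)
      rwa [Nat.cast_mul] at this⟩
  have hinj : Function.Injective fun j => K.η (κ j) := fun i j h => by
    have hi := i.2
    have hj := j.2
    rcases (K.η_eq _ _).1 h with h1 | h1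
    · have h2 := (ZMod.natCast_eq_natCast_iff' _ _ _).1 h1
      rw [Nat.mod_eq_of_lt (by omega), Nat.mod_eq_of_lt (by omega)] at h2
      exact Fin.ext (by omega)
    · refine absurd ?_ (hne ((j + 1) + (i + 1)) (by omega) (by omega))
      rw [Nat.cast_add]
      exact eq_neg_iff_add_eq_zero.1 h1
  have hsurj : ∀ k, ∃ j, K.η k = K.η (κ j) := fun k => by
    have h1 : ∀ l : ZMod (2 ^ (m + 2)), l ≠ 0 → l.val < 2 ^ (m + 1) → ∃ j, (κ j).1 = l :=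
      fun l h0 h => by
        have : l.val ≠ 0 := by rwa [Ne, ZMod.val_eq_zero]
        refine ⟨⟨l.val - 1, by omega⟩, ?_⟩
        change ((l.val - 1 + 1 : ℕ) : ZMod (2 ^ (m + 2))) = l
        rw [Nat.sub_add_cancel (by omega), ZMod.natCast_zmod_val]
    have h0 : k.1 ≠ 0 := fun h => k.2 (by rw [h, mul_zero])
    rcases lt_trichotomy k.1.val (2 ^ (m + 1)) with h | h | h
    · obtain ⟨j, hj⟩ := h1 _ h0 h
      exact ⟨j, (K.η_eq _ _).2 (Or.inl hj)⟩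
    · refine absurd ?_ k.2
      rw [← ZMod.natCast_zmod_val k.1, h, Nat.cast_pow, Nat.cast_ofNat, two_mul_half]
    · obtain ⟨j, hj⟩ := h1 (-k.1) (neg_ne_zero.2 h0) (by
        rw [ZMod.neg_val, if_neg h0]
        have : 0 < 2 ^ (m + 1) := by positivity
        omega)
      exact ⟨j, (K.η_eq _ _).2 (Or.inr hj)⟩
  have hset : Cfsg.principalBlock M G = {χ : Cfsg.IrrCharacter G | (χ : G → ℂ) = (fun _ => 1) ∨
      χ = K.χ₁ ∨ χ = K.χ₂ ∨ χ = K.χ₃ ∨ ∃ j, χ = K.η (κ j)} := by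
    ext χ
    rw [K.mem, Set.mem_ofPred_eq, eq_triv_iff]
    refine or_congr_right (or_congr_right (or_congr_right (or_congr_right ⟨?_, ?_⟩)))
    · rintro ⟨k, rfl⟩
      exact hsurj k
    · rintro ⟨j, rfl⟩
      exact ⟨_, rfl⟩
  have hσl : ∀ l : ℕ, σ ^ l = X Fr (l * b) := fun l => by rw [← hb, X_pow]
  have hch : ∀ a : ℕ, ch ((a : ZMod (2 ^ (m + 2))) * (b : ZMod (2 ^ (m + 2)))) = ζ ^ a := fun a => by
    rw [← hζb, ← ch_nsmul, nsmul_eq_mul]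
  have hhalf : ζ ^ 2 ^ (m + 1) = -1 :=
    (hζ.pow (by positivity) (hN.trans (mul_comm _ _))).eq_neg_one_of_two_right
  refine ⟨?_, K.χ₁, K.χ₂, K.χ₃, fun j => K.η (κ j), K.δ₁, K.δ₂, K.δ₃, K.sign₁, K.sign₂, K.sign₃,
    hinj, mt eq_triv_iff.2 K.ne₁, mt eq_triv_iff.2 K.ne₂, mt eq_triv_iff.2 K.ne₃, K.ne₁₂, K.ne₁₃,
    K.ne₂₃, fun j => ⟨(K.η_ne _).2.1, (K.η_ne _).2.2.1, (K.η_ne _).2.2.2,
      mt eq_triv_iff.2 (K.η_ne _).1⟩, hset, fun l h0 hl => ?_, fun ρ hρ j => ?_⟩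
  · have h1 : Cfsg.principalBlock M G = ↑(insert (triv G) (insert K.χ₁ (insert K.χ₂ (insert K.χ₃
        (Finset.univ.image fun j => K.η (κ j))))) : Finset (IrrCharacter G)) := by
      rw [hset]
      ext χ
      simp [← eq_triv_iff, eq_comm]
    have hη := fun k => K.η_ne k
    rw [h1, Nat.card_coe_set_eq, Set.ncard_coe_finset,
      Finset.card_insert_of_notMem (by simp [K.ne₁.symm, K.ne₂.symm, K.ne₃.symm, (hη _).1]),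
      Finset.card_insert_of_notMem (by simp [K.ne₁₂, K.ne₁₃, (hη _).2.1]),
      Finset.card_insert_of_notMem (by simp [K.ne₂₃, (hη _).2.2.1]),
      Finset.card_insert_of_notMem (by simp [(hη _).2.2.2]),
      Finset.card_image_of_injective _ hinj, Finset.card_univ, Fintype.card_fin]
    have : 0 < 2 ^ (m + 3 - 2) := by positivity
    omega
  · have h1 : (l : ZMod (2 ^ (m + 2))) * b ≠ 0 := fun h =>
      hne l h0 hl ((Units.mul_left_eq_zero b).1 h)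
    have h2 : ch (2 ^ (m + 1) * ((l : ZMod (2 ^ (m + 2))) * (b : ZMod (2 ^ (m + 2))))) = (-1) ^ l := by
      rw [← hhalf, ← pow_mul, ← hch]
      push_cast
      rw [mul_assoc]
    rw [hσl, K.val₁ _ h1, K.val₂ _ h1, K.val₃ _ h1, h2]
    refine ⟨rfl, by ring, by ring, fun j => ?_⟩
    have h3 : ch ((κ j).1 * ((l : ZMod (2 ^ (m + 2))) * (b : ZMod (2 ^ (m + 2))))) = ζ ^ (((j : ℕ) + 1) * l) := by
      rw [← hch, Nat.cast_mul, mul_assoc]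
    rw [K.valη _ _ h1, neg_mul, ← h3, inv_eq_of_mul_eq_one_right (ch_mul_neg _)]
  · have h1 := K.odd_rel hM (y := ρ) (by rwa [← even_iff_two_dvd, Nat.not_even_iff_odd])
    exact ⟨h1.2, h1.1 _⟩

end Cfsg.Agent.S4481
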