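import Cfsg.Statements.S4482
import Cfsg.Agent.Block.DihMk

set_option autoImplicit false
open Cfsg

open Cfsg.Lib.Block Cfsg.Lib.Block.Princ Cfsg.Lib.Block.Dih Cfsg.Lib.Rank2 Cfsg.Lib.Char

namespace Cfsg.Agent.S4482

/-- An order formula for groups with dihedral Sylow 2-subgroups and one class of involutions. Let G be a finite group whose Sylow 2-subgroup P = ⟨σ, τ⟩ is dihedral of order 2^n ≥ 8 (σ of order 2^(n−1), τ an involution inverting σ), let J be the central involution σ^(2^(n−2)), and suppose J, τ and στ are conjugate in G. Fix M over 2 and let χ₁ be an irreducible character in the principal 2-block taking one constant value δ₁ = ±1 at every non-identity power of σ, with χ₁ ≠ 1. Then, with x₁ = χ₁(1) and c(·) denoting orders of centralizers, x₁ ≠ δ₁ and #G · (x₁ − δ₁)² = 2·x₁(x₁ + δ₁)·c(J)³·(1/c(J, τ) + 1/c(J, στ))², where c(J, y) is the order of the joint centralizer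 of J and y. -/
theorem result {G : Type*} [Group G] [Finite G] (M : Ideal Cfsg.AlgInt) (hM : Cfsg.IsPModular 2 M) (n : ℕ) (hn : 3 ≤ n) (P : Sylow 2 G) (σ τ : G) (hσ : σ ∈ (P : Subgroup G)) (hτ : τ ∈ (P : Subgroup G)) (hσo : orderOf σ = 2 ^ (n - 1)) (hτo : orderOf τ = 2) (hrel : τ * σ * τ⁻¹ = σ⁻¹) (hgen : Subgroup.closure ({σ, τ} : Set G) = (P : Subgroup G)) (hconj : IsConj (σ ^ (2 ^ (n - 2))) τ ∧ IsConj (σ ^ (2 ^ (n - 2))) (σ * τ)) (χ₁ : Cfsg.IrrCharacter G) (hχ₁ : χ₁ ∈ Cfsg.principalBlock M G) (h1 : (χ₁ : G → ℂ) ≠ (fun _ => 1)) (δ₁ : ℤ) (hδ₁ : δ₁ = 1 ∨ δ₁ = -1) (hval : ∀ l : ℕ, 0 < l → l < 2 ^ (n - 1) → (χ₁ : G → ℂ) (σ ^ l) = δ₁) : (Cfsg.charDegree (χ₁ : G → ℂ) : ℤ) ≠ δ₁ ∧ (Nat.card G : ℚ) * ((Cfsg.charDegree (χ₁ : G → ℂ) : ℚ) - δ₁) ^ 2 = 2 * (Cfsg.charDegree (χ₁ : G → ℂ) : ℚ) * ((Cfsg.charDegree (χ₁ : G → ℂ) : ℚ) + δ₁) * (Nat.card (Subgroup.centralizer ({σ ^ (2 ^ (n -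 2))} : Set G)) : ℚ) ^ 3 * (1 / (Nat.card (Subgroup.centralizer ({σ ^ (2 ^ (n - 2)), τ} : Set G)) : ℚ) + 1 / (Nat.card (Subgroup.centralizer ({σ ^ (2 ^ (n - 2)), σ * τ} : Set G)) : ℚ)) ^ 2 := by
  obtain ⟨m, rfl⟩ : ∃ m, n = m + 3 := ⟨n - 3, by omega⟩
  change orderOf σ = 2 ^ (m + 2) at hσo
  obtain ⟨Fr, hX, hY0, hY1⟩ := exists_frame (m := m) hσo
    (by rw [← sq, ← hτo, pow_orderOf_eq_one]) hrel hgen
  obtain ⟨K⟩ := nonempty_chars Fr hM
  have hJ : σ ^ 2 ^ (m + 3 - 2) = J Fr := by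
    rw [← hX, J]
    simp
  rw [hJ, ← hY1] at hconj ⊢
  rw [← hY0] at hconj
  have hone := isConj_J Fr hconj.1 hconj.2
  obtain ⟨rfl, rfl⟩ := K.eq_of_const hχ₁ (mt eq_triv_iff.1 h1) hδ₁ fun i hi => by
    rw [← ZMod.natCast_zmod_val i, hX]
    exact hval _ (ZMod.val_pos.2 hi) (ZMod.val_lt i)
  have h2 := K.y₁_ne_one hM hone
  have h3 := (K.order hM hone).1
  have hc : ∀ y : G, Subgroup.centralizer ({J Fr, y} : Set G) =
      Subgroup.centralizer {J Fr} ⊓ Subgroup.centralizer {y} := fun y => by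
    ext g
    simp [Subgroup.mem_centralizer_iff]
  rw [Chars.y₁] at h2 h3
  refine ⟨fun h => h2 (by rw [h]; rcases hδ₁ with h | h <;> rw [h] <;> rfl), ?_⟩
  have h4 := kY_mul_card Fr 0
  have h5 := kY_mul_card Fr 1
  rw [hY0] at h4
  rw [hc, hc, ← (Subgroup.centralizer ({J Fr} : Set G)).index_mul_card]
  have h6 : (Nat.card (Subgroup.centralizer {J Fr} ⊓ Subgroup.centralizer {τ} : Subgroup G) : ℚ)
    ≠ 0 := Nat.cast_ne_zero.2 Nat.card_pos.ne'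
  have h7 : (Nat.card (Subgroup.centralizer {J Fr} ⊓ Subgroup.centralizer {Y Fr 1} :
    Subgroup G) : ℚ) ≠ 0 := Nat.cast_ne_zero.2 Nat.card_pos.ne'
  have h8 := eq_div_of_mul_eq h6 ((Nat.cast_mul _ _).symm.trans (congrArg Nat.cast h4))
  have h9 := eq_div_of_mul_eq h7 ((Nat.cast_mul _ _).symm.trans (congrArg Nat.cast h5))
  have h10 := congrArg (Int.cast (R := ℚ)) h3
  push_cast at h10 ⊢
  rw [h8, h9] at h10
  rcases hδ₁ with h | h <;> rw [h] at h10 ⊢ <;> push_cast at h10 ⊢ <;>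
    linear_combination (Nat.card (Subgroup.centralizer ({J Fr} : Set G)) : ℚ) * h10

end Cfsg.Agent.S4482
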