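import Cfsg.Statements.S4483
import Cfsg.Agent.Block.RealBlock
import Cfsg.Agent.Block.BrauerFeit

set_option autoImplicit false
open Cfsg

namespace Cfsg.Agent.S4483

open Cfsg.Lib.Block

/-- Let G be a finite group of order 2^n·g₀ with g₀ odd, and M a maximal ideal of the algebraic integers containing 2. Every real-valued irreducible character of G of odd degree lies in the principal 2-block; consequently G has at most 2^(2n) real-valued irreducible characters of odd degree. -/
theorem result {G : Type*} [Group G] [Finite G] (M : Ideal Cfsg.AlgInt) (hM : Cfsg.IsPModular 2 M) : (∀ χ : Cfsg.IrrCharacter G, (∀ g : G, ((χ : G → ℂ) g).im = 0) → Odd (Cfsg.charDegree (χ : G → ℂ)) → χ ∈ Cfsg.principalBlock M G) ∧ Nat.card {χ : Cfsg.IrrCharacter G // (∀ g : G, ((χ : G → ℂ) g).im = 0) ∧ Odd (Cfsg.charDegree (χ : G → ℂ))} ≤ 2 ^ (2 * (Nat.card G).factorization 2) := by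
  have h1 : ∀ χ : Cfsg.IrrCharacter G, (∀ g : G, ((χ : G → ℂ) g).im = 0) →
      Odd (Cfsg.charDegree (χ : G → ℂ)) → χ ∈ Cfsg.principalBlock M G := fun χ hr hd =>
    mem_principalBlock_of_real_on_regular hM
      (fun g _ => by rw [← barI_apply_eq_inv, barI_eq_self_iff.2 hr]) hd.not_two_dvd_nat
  refine ⟨h1, ?_⟩
  have h2 : Nat.card {χ : Cfsg.IrrCharacter G // (∀ g : G, ((χ : G → ℂ) g).im = 0) ∧
      Odd (Cfsg.charDegree (χ : G → ℂ))} ≤ Nat.card (Cfsg.principalBlock M G) :=
    Nat.card_le_card_of_injective (fun χ => ⟨χ.1, h1 χ.1 χ.2.1 χ.2.2⟩)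
      fun a b h => Subtype.ext (congrArg Subtype.val h :)
  have h3 := four_mul_card_le hM (isPBlock_principalBlock (G := G))
  have h4 := Ht.blockDefect_add_minVal 2 (block_nonempty hM (isPBlock_principalBlock (G := G)))
  have h5 : 2 ^ (2 * blockDefect 2 (Cfsg.principalBlock M G))
      ≤ 2 ^ (2 * (Nat.card G).factorization 2) := Nat.pow_le_pow_right two_pos (by omega)
  have h6 : 1 ≤ 2 ^ (2 * (Nat.card G).factorization 2) := Nat.one_le_two_pow
  omega

end Cfsg.Agent.S4483
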