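import Cfsg.Statements.S4484
import Cfsg.Agent.Char.EigenChar
import Cfsg.Agent.Char.Burnside
import Cfsg.Agent.Char.Galois
import Cfsg.Agent.Block.Klein

set_option autoImplicit false
open Cfsg

namespace Cfsg.Agent.S4484

open Cfsg.Lib.Char Cfsg.Lib.Block
open scoped ComplexConjugate

theorem card_image_le {p : ℕ} {M : Ideal AlgInt} (hM : IsPModular p M) {n : ℕ} (hn : 0 < n)
    (ε : Fin n → ℂ) (hε : ∀ i, ε i ^ p = 1) {d : ℕ} (hd0 : 0 < d) (hdp : d < p)
    (hint : ∀ s : ℕ, ¬ p ∣ s → IsIntegral ℤ ((d : ℂ) * (∑ i, ε i ^ s) / n))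
    (h1 : vM M ((d : ℂ) * (∑ i, ε i) / n - d) < 1) : (Finset.univ.image ε).card ≤ d := by
  classical
  have hp := hM.1
  have hn0 : (n : ℂ) ≠ 0 := Nat.cast_ne_zero.2 hn.ne'
  have hp0 : (p : ℂ) ≠ 0 := Nat.cast_ne_zero.2 hp.ne_zero
  have hζ := Complex.isPrimitiveRoot_exp p hp.ne_zero
  set R := Polynomial.nthRootsFinset p (1 : ℂ) with hR
  have hRm : ∀ z, z ∈ R ↔ z ^ p = 1 := fun z => Polynomial.mem_nthRootsFinset hp.pos 1
  have hRc : R.card = p := hζ.card_nthRootsFinset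
  have hRs : ∑ z ∈ R, z = 0 := by
    have h2 : ∑ z ∈ R, Complex.exp (2 * Real.pi * Complex.I / p) * z = ∑ z ∈ R, z :=
      Finset.sum_bijective (fun z => Complex.exp (2 * Real.pi * Complex.I / p) * z)
        (mulLeft_bijective₀ _ (Complex.exp_ne_zero _))
        (fun z => by rw [hRm, hRm, mul_pow, hζ.pow_eq_one, one_mul]) fun _ _ => rfl
    rw [← Finset.mul_sum] at h2
    by_contra h0
    exact hζ.ne_one hp.one_lt ((mul_eq_right₀ h0).1 h2)
  let m : ℂ → ℕ := fun z => (Finset.univ.filter fun i => ε i = z).card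
  have hm : ∀ F : ℂ → ℂ, ∑ i, F (ε i) = ∑ z ∈ R, m z * F z := fun F => by
    rw [← Finset.sum_fiberwise_of_maps_to (s := Finset.univ) (t := R) (g := ε)
      fun i _ => (hRm _).2 (hε i)]
    refine Finset.sum_congr rfl fun z _ => ?_
    rw [Finset.sum_congr rfl (g := fun _ => F z) fun i hi => by rw [(Finset.mem_filter.1 hi).2],
      Finset.sum_const, nsmul_eq_mul]
  have hF : ∀ z ∈ R, ∑ s ∈ Finset.range p, (∑ i, ε i ^ s) * z⁻¹ ^ s = p * m z := fun z hz => by
    simpa using sum_sum_pow_mul_inv_pow hp.ne_zero (fun _ => 1) ε hε ((hRm z).1 hz)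
  obtain ⟨w, hw, hmin⟩ := R.exists_min_image m ⟨1, (hRm 1).2 (one_pow p)⟩
  have hlt : ∀ z ∈ R, ∀ s : ℕ, vM M (z⁻¹ ^ s - 1) < 1 := fun z hz s =>
    vM_sub_one_lt_of_pow_p_pow hM (k := 1) (by
      rw [pow_one, ← pow_mul, mul_comm, pow_mul, inv_pow, (hRm z).1 hz]; simp)
  have hi : ∀ z ∈ R, ∀ s : ℕ, IsIntegral ℤ (z⁻¹ ^ s) := fun z hz s =>
    (isIntegral_of_pow_eq_one hp.ne_zero (by rw [inv_pow, (hRm z).1 hz, inv_one])).pow s
  have hu : ∀ z ∈ R, ∃ u : ℤ, (d : ℤ) * (m z - m w) = n * u := fun z hz => by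
    have h2 : ∑ s ∈ Finset.range p, (d : ℂ) * (∑ i, ε i ^ s) / n * (z⁻¹ ^ s - w⁻¹ ^ s) =
        ((p * d * (m z - m w) / n : ℚ) : ℂ) := by
      have h3 : ∀ s : ℕ, (d : ℂ) * (∑ i, ε i ^ s) / n * (z⁻¹ ^ s - w⁻¹ ^ s) =
          d / n * ((∑ i, ε i ^ s) * z⁻¹ ^ s - (∑ i, ε i ^ s) * w⁻¹ ^ s) := fun s => by ring
      simp only [h3]
      rw [← Finset.mul_sum, Finset.sum_sub_distrib, hF z hz, hF w hw]
      push_cast
      ring
    have h3 : ∀ s ∈ Finset.range p, IsIntegral ℤ ((d : ℂ) * (∑ i, ε i ^ s) / n *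
        (z⁻¹ ^ s - w⁻¹ ^ s)) ∧ vM M ((d : ℂ) * (∑ i, ε i ^ s) / n * (z⁻¹ ^ s - w⁻¹ ^ s)) < 1 := by
      intro s hs
      rcases Nat.eq_zero_or_pos s with rfl | hs0
      · simp [isIntegral_zero]
      · have h4 := hint s (Nat.not_dvd_of_pos_of_lt hs0 (Finset.mem_range.1 hs))
        refine ⟨h4.mul ((hi z hz s).sub (hi w hw s)),
          vM_mul_lt_one_right (vM_le_one_of_isIntegral h4) ?_⟩
        simpa using vM_sub_lt_one (hlt z hz s) (hlt w hw s)
    obtain ⟨t, ht⟩ := exists_int_of_isIntegral_of_rat (IsIntegral.sum _ fun s hs => (h3 s hs).1) h2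
    have h4 := vM_sum_lt_one fun s hs => (h3 s hs).2
    rw [ht, vM_intCast_lt_one_iff hM] at h4
    obtain ⟨u, rfl⟩ := h4
    refine ⟨u, ?_⟩
    rw [ht] at h2
    push_cast at h2
    field_simp at h2
    exact_mod_cast h2.symm.trans (mul_comm _ _)
  choose! u hu using hu
  have hu0 : ∀ z ∈ R, 0 ≤ u z := fun z hz => by
    have h2 : (0 : ℤ) ≤ n * u z := by
      rw [← hu z hz]
      exact mul_nonneg (by positivity) (by have := hmin z hz; omega)
    exact nonneg_of_mul_nonneg_right h2 (by exact_mod_cast hn) 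
  have h2 : (n : ℤ) * ∑ z ∈ R, u z = d * (n - p * m w) := by
    have h3 : ∑ z ∈ R, (m z : ℤ) = n := by
      have := hm fun _ => 1
      simp only [Finset.sum_const, Finset.card_univ, Fintype.card_fin, nsmul_eq_mul, mul_one]
        at this
      exact_mod_cast this.symm
    rw [Finset.mul_sum, ← Finset.sum_congr rfl hu, ← Finset.mul_sum, Finset.sum_sub_distrib, h3,
      Finset.sum_const, hRc, nsmul_eq_mul]
  have h3 : (d : ℂ) * (∑ i, ε i) / n = ∑ z ∈ R, u z * z := by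
    rw [hm fun z => z, div_eq_iff hn0, Finset.sum_mul, Finset.mul_sum,
      ← sub_zero (∑ z ∈ R, _), ← mul_zero ((d : ℂ) * m w), ← hRs, Finset.mul_sum,
      ← Finset.sum_sub_distrib]
    refine Finset.sum_congr rfl fun z hz => ?_
    have : (d : ℂ) * (m z - m w) = n * u z := by exact_mod_cast hu z hz
    linear_combination z * this
  have h4 : (p : ℤ) ∣ d - ∑ z ∈ R, u z := by
    rw [← vM_intCast_lt_one_iff hM]
    have h5 := vM_sub_lt_one (vM_sum_lt_one (s := R) (f := fun z => (u z : ℂ) * (z - 1))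
      fun z hz => vM_mul_lt_one_right (vM_intCast_le_one _)
        (vM_sub_one_lt_of_pow_p_pow hM (k := 1) (by rw [pow_one, (hRm z).1 hz]))) h1
    rw [h3] at h5
    convert h5 using 2
    simp only [mul_sub, mul_one, Finset.sum_sub_distrib]
    push_cast
    ring
  have h5 : 0 ≤ ∑ z ∈ R, u z := Finset.sum_nonneg hu0
  have h6 : ∑ z ∈ R, u z ≤ d := by
    refine le_of_mul_le_mul_left ?_ (show (0 : ℤ) < n by exact_mod_cast hn)
    rw [h2, mul_sub, mul_comm]
    exact sub_le_self _ (by positivity)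
  have h7 : ∑ z ∈ R, u z = d := by
    have := Int.eq_zero_of_dvd_of_nonneg_of_lt (by omega) (by omega) h4
    omega
  have h8 : m w = 0 := by
    rw [h7, mul_sub, mul_comm, eq_comm, sub_eq_self] at h2
    simpa [hd0.ne', hp.ne_zero] using h2
  have h9 : Finset.univ.image ε ⊆ R := fun z hz => by
    obtain ⟨i, -, rfl⟩ := Finset.mem_image.1 hz
    exact (hRm _).2 (hε i)
  have h10 := Finset.card_nsmul_le_sum (Finset.univ.image ε) u 1 fun z hz => by
    have h11 := hu z (h9 hz)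
    obtain ⟨i, -, rfl⟩ := Finset.mem_image.1 hz
    have h12 : 0 < m (ε i) := Finset.card_pos.2 ⟨i, by simp⟩
    rw [h8] at h11
    exact (pos_iff_pos_of_mul_pos (a := (n : ℤ)) (by rw [← h11]; simp [hd0, h12])).1
      (by exact_mod_cast hn)
  have h11 := Finset.sum_le_sum_of_subset_of_nonneg h9 fun z hz _ => hu0 z hz
  simp only [nsmul_eq_mul, mul_one] at h10
  exact_mod_cast (h10.trans h11).trans h7.le

/-- The arc of length `π / 3` containing the argument of a complex number. -/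
noncomputable def box (z : ℂ) : Finset.Ioc (-3 : ℤ) 3 :=
  ⟨⌈3 * z.arg / Real.pi⌉, by
    have h1 := Complex.neg_pi_lt_arg z
    have h2 := Complex.arg_le_pi z
    have h3 := Real.pi_pos
    rw [Finset.mem_Ioc, Int.lt_ceil, Int.ceil_le, lt_div_iff₀ h3, div_le_iff₀ h3]
    push_cast
    constructor <;> linarith⟩

theorem norm_sub_lt_of_box_eq {z w : ℂ} (hz : ‖z‖ = 1) (hw : ‖w‖ = 1) (h : box z = box w) :
    ‖w - z‖ < 1 := by
  have h0 := Real.pi_pos
  have h1 : ⌈3 * z.arg / Real.pi⌉ = ⌈3 * w.arg / Real.pi⌉ := congrArg Subtype.val h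
  have h2 : |w.arg - z.arg| < Real.pi / 3 := by
    have h3 := Int.abs_sub_lt_one_of_floor_eq_floor (a := -(3 * z.arg / Real.pi))
      (b := -(3 * w.arg / Real.pi)) (by rw [Int.floor_neg, Int.floor_neg, h1])
    have h4 : -(3 * z.arg / Real.pi) - -(3 * w.arg / Real.pi) = (w.arg - z.arg) * (3 / Real.pi) := by
      ring
    rw [h4, abs_mul, abs_of_pos (by positivity : 0 < 3 / Real.pi), ← lt_div_iff₀ (by positivity)]
      at h3
    simpa using h3
  have h4 : 1 / 2 < Real.cos (w.arg - z.arg) := by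
    rw [← Real.cos_pi_div_three, ← Real.cos_abs (w.arg - z.arg)]
    exact Real.cos_lt_cos_of_nonneg_of_le_pi (abs_nonneg _) (by linarith) h2
  have h5 : ‖w - z‖ ^ 2 < 1 ^ 2 := by
    have hz0 : z ≠ 0 := norm_ne_zero_iff.mp (by rw [hz]; simp)
    have hw0 : w ≠ 0 := norm_ne_zero_iff.mp (by rw [hw]; simp)
    rw [Real.cos_sub, Complex.cos_arg hz0, Complex.cos_arg hw0, Complex.sin_arg, Complex.sin_arg,
      hz, hw] at h4
    have h6 := Complex.sq_norm z
    have h7 := Complex.sq_norm w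
    rw [Complex.sq_norm]
    simp only [Complex.normSq_apply, hz, hw, Complex.sub_re, Complex.sub_im, div_one] at *
    nlinarith
  exact lt_of_pow_lt_pow_left₀ 2 (by norm_num) h5

theorem exists_pow_close {p : ℕ} (hp : 0 < p) (J : Finset ℂ) (hJ : ∀ z ∈ J, ‖z‖ = 1) {μ : ℂ}
    (hμ : μ ∈ J) (h : 6 ^ (J.card - 1) < p) :
    ∃ s : ℕ, 0 < s ∧ s < p ∧ ∀ z ∈ J, ‖z ^ s - μ ^ s‖ < 1 := by
  classical
  have hμ0 : μ ≠ 0 := norm_ne_zero_iff.mp (by rw [hJ μ hμ]; simp)
  obtain ⟨s, s', hlt, he⟩ : ∃ s s' : Fin p, s < s' ∧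
      (fun z : J.erase μ => box ((z / μ) ^ (s : ℕ))) = fun z : J.erase μ =>
        box ((z / μ) ^ (s' : ℕ)) := by
    obtain ⟨s, s', hne, he⟩ := Fintype.exists_ne_map_eq_of_card_lt
      (fun (s : Fin p) (z : J.erase μ) => box ((z / μ) ^ (s : ℕ)))
      (by simpa [Finset.card_erase_of_mem hμ] using h)
    rcases lt_or_gt_of_ne hne with h | h
    exacts [⟨s, s', h, he⟩, ⟨s', s, h, he.symm⟩]
  refine ⟨s' - s, by omega, by omega, fun z hz => ?_⟩
  by_cases hzμ : z = μ
  · simp [hzμ]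
  have hn : ∀ k : ℕ, ‖(z / μ) ^ k‖ = 1 := fun k => by simp [hJ z hz, hJ μ hμ]
  have h1 := norm_sub_lt_of_box_eq (hn _) (hn _) (congrFun he ⟨z, Finset.mem_erase.2 ⟨hzμ, hz⟩⟩)
  obtain ⟨t, ht⟩ := Nat.exists_eq_add_of_le (show (s : ℕ) ≤ s' from hlt.le)
  rw [ht] at h1 ⊢
  have h2 : (z / μ) ^ (s + t : ℕ) - (z / μ) ^ (s : ℕ) =
      (z / μ) ^ (s : ℕ) * (μ ^ t)⁻¹ * (z ^ t - μ ^ t) := by
    rw [pow_add, div_pow z μ t]
    field_simp
  rw [h2, norm_mul, norm_mul, hn, norm_inv, norm_pow, hJ μ hμ] at h1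
  simpa using h1

/-- A refinement of Burnside's result on simple groups of order divisible by only two primes. Let G be a finite simple group of order p^a · q^b · g₀ with p, q distinct primes, a > 0, g₀ coprime to p and q, and the order of G different from p. Then g₀ − 1 > log p / log 6, that is 6^(g₀ − 1) > p. -/
theorem result {G : Type*} [Group G] [Finite G] [IsSimpleGroup G] (p q a b g₀ : ℕ) (hp : p.Prime) (hq : q.Prime) (hpq : p ≠ q) (ha : 0 < a) (hg : Nat.card G = p ^ a * q ^ b * g₀) (hcop : ¬ p ∣ g₀) (hcoq : ¬ q ∣ g₀) (hne : Nat.card G ≠ p) : p < 6 ^ (g₀ - 1) := by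
  classical
  by_contra hcon
  rw [not_lt] at hcon
  have := Fact.mk hp
  have := Fintype.ofFinite G
  have hpG : p ∣ Nat.card G := hg ▸ ((dvd_pow_self p ha.ne').mul_right _).mul_right _
  have hna : ¬ ∀ a b : G, a * b = b * a := fun h =>
    hne ((Nat.prime_dvd_prime_iff_eq hp (prime_card_of_simple_of_comm h)).1 hpG).symm
  have hg0 : 0 < g₀ := Nat.pos_of_ne_zero (by rintro rfl; exact hcop (dvd_zero p))
  have hgp : g₀ < p := by
    have h1 : g₀ - 1 < 6 ^ (g₀ - 1) := Nat.lt_pow_self (by norm_num)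
    exact lt_of_le_of_ne (by omega) (by rintro rfl; exact hcop dvd_rfl)
  obtain ⟨P⟩ : Nonempty (Sylow p G) := inferInstance
  have hP : Nontrivial P := (Subgroup.nontrivial_iff_ne_bot _).2 (P.ne_bot_of_dvd_card hpG)
  obtain ⟨y, hy⟩ := exists_prime_orderOf_dvd_card' (G := Subgroup.center P) p (by
    have := P.isPGroup'.center_nontrivial
    exact ((P.isPGroup'.to_subgroup _).card_eq_or_dvd).resolve_left Finite.one_lt_card.ne')
  set x : G := ((y : P) : G) with hx
  have hox : orderOf x = p := by rw [hx, Subgroup.orderOf_coe, Subgroup.orderOf_coe, hy]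
  have hxp : x ^ p = 1 := by rw [← hox, pow_orderOf_eq_one]
  have hK : ∀ s : ℕ, (Subgroup.centralizer ({x ^ s} : Set G)).index ∣ q ^ b * g₀ := fun s => by
    have h1 : (P : Subgroup G) ≤ Subgroup.centralizer {x ^ s} := fun g hgP =>
      Subgroup.mem_centralizer_singleton_iff.2 (Commute.pow_right
        (congrArg Subtype.val (Subgroup.mem_center_iff.1 y.2 ⟨g, hgP⟩)) s)
    refine (Subgroup.index_dvd_of_le h1).trans (Nat.Coprime.dvd_of_dvd_mul_left
      (m := p ^ a) (((Nat.Prime.coprime_iff_not_dvd hp).2 P.not_dvd_index).symm.pow_right a) ?_)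
    rw [← mul_assoc, ← hg]
    exact Subgroup.index_dvd_card _
  obtain ⟨M, hM⟩ := Princ.exists_isPModular hp
  obtain ⟨χ, hχB, hχ1, hχq⟩ : ∃ χ ∈ principalBlock M G, χ.1 ≠ (fun _ => 1) ∧
      ¬ q ∣ charDegree χ.1 := by
    by_contra h
    push Not at h
    obtain ⟨Mq, hMq⟩ := Princ.exists_isPModular hq
    have h1 := Princ.sum_princ_mul_regular hM (y := (1 : G)) (z := x) (by simpa using hp.ne_one)
      (by rw [hox])
    rw [← Finset.add_sum_erase _ _ (mem_irrFin.2 (one_mem_principalBlock hM))] at h1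
    have h2 := vM_sum_lt_one (M := Mq)
      (s := (irrFin (principalBlock M G)).erase ⟨fun _ => 1, isIrrCharacter_one⟩)
      (f := fun χ => χ.1 1 * conj (χ.1 x)) fun χ hχ => vM_mul_lt_one_left (by
        rw [Deg.apply_one_eq χ.2.isCharacter, vM_natCast_lt_one_iff hMq]
        exact h χ (mem_irrFin.1 (Finset.mem_of_mem_erase hχ))
          fun h3 => Finset.ne_of_mem_erase hχ (Subtype.ext h3))
        (vM_le_one_of_isIntegral (IsCharacter_isIntegral χ.2.conj.isCharacter x))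
    rw [eq_neg_of_add_eq_zero_right h1] at h2
    simp at h2
  obtain ⟨E, _, _, _, ρ, hρ, hρχ⟩ := exists_unitary_rep χ.2.isCharacter
  have hirr : ρ.IsIrreducible := (isIrreducible_iff_isIrrCharacter ρ).2 (hρχ ▸ χ.2)
  have h1 : χ.1 1 = Module.finrank ℂ E := by rw [← hρχ, ρ.char_one]
  have hn : charDegree χ.1 = Module.finrank ℂ E := (Deg.deg_eq_iff χ.2.isCharacter).2 h1
  have hn0 : 0 < Module.finrank ℂ E := hn ▸ Deg.deg_pos χ.2
  obtain ⟨e, ε, hε, he, hepow, -⟩ := exists_eigenbasis_rep ρ x (Nat.cast_ne_zero.2 hp.ne_zero) hxp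
  have htr : ∀ s : ℕ, χ.1 (x ^ s) = ∑ i, ε i ^ s := fun s => by
    rw [← hρχ, Representation.character, trace_eq_sum_of_eigenbasis e _ (hepow s)]
  have hcard := card_image_le hM hn0 ε hε hg0 hgp (fun s _ => by
    rw [← htr, ← h1]
    have h2 := irr_isIntegral_index_mul_div χ.2 (x ^ s)
    have h3 := IsCharacter_isIntegral χ.2.isCharacter (x ^ s)
    set k := (Subgroup.centralizer ({x ^ s} : Set G)).index
    have h4 : Nat.gcd k (charDegree χ.1) ∣ g₀ :=
      Nat.Coprime.dvd_of_dvd_mul_left ((((Nat.Prime.coprime_iff_not_dvd hq).2 hχq).symm.pow_right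
        b).coprime_dvd_left (Nat.gcd_dvd_right _ _)) ((Nat.gcd_dvd_left _ _).trans (hK s))
    obtain ⟨c, hc⟩ := h4
    have h5 : (g₀ : ℂ) = (k * Nat.gcdA k (charDegree χ.1) +
        χ.1 1 * Nat.gcdB k (charDegree χ.1)) * c := by
      rw [Deg.apply_one_eq χ.2.isCharacter, hc]
      exact_mod_cast congrArg (fun t : ℤ => ((t * c : ℤ) : ℂ)) (Nat.gcd_eq_gcd_ab k (charDegree χ.1))
    have h6 : g₀ * χ.1 (x ^ s) / χ.1 1 = (c : ℤ) * (Nat.gcdA k (charDegree χ.1) *
        (k * χ.1 (x ^ s) / χ.1 1) + Nat.gcdB k (charDegree χ.1) * χ.1 (x ^ s)) := by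
      rw [h5]
      have := χ.2.apply_one_ne_zero
      push_cast
      field_simp
    rw [h6]
    exact isIntegral_algebraMap.mul ((isIntegral_algebraMap.mul h2).add
      (isIntegral_algebraMap.mul h3))) (by
    have h2 := vM_lt_one_of_memLocalIdeal hM (hχB x)
    have h3 : vM M ((Subgroup.centralizer ({x} : Set G)).index : ℂ) = 1 := by
      rw [vM_natCast_eq_one_iff hM]
      intro h
      have h4 := hK 1
      rw [pow_one] at h4
      exact ((Nat.Prime.dvd_mul hp).1 (h.trans h4)).elim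
        (fun h => hpq ((Nat.prime_dvd_prime_iff_eq hp hq).1 (hp.dvd_of_dvd_pow h))) hcop
    have h4 : centralChar (fun _ : G => (1 : ℂ)) x - centralChar χ.1 x =
        (Subgroup.centralizer ({x} : Set G)).index * (1 - χ.1 x / χ.1 1) := by
      simp only [centralChar]
      ring
    rw [h4, map_mul, h3, one_mul, ← Valuation.map_neg] at h2
    have h5 := htr 1
    simp only [pow_one] at h5
    rw [← h5, ← h1]
    convert vM_mul_lt_one_right (vM_natCast_le_one g₀) h2 using 2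
    ring)
  obtain ⟨s, hs0, hsp, hs⟩ := exists_pow_close hp.pos (Finset.univ.image ε) (fun z hz => by
      obtain ⟨i, -, rfl⟩ := Finset.mem_image.1 hz
      exact norm_eq_one_of_pow_eq_one' hp.ne_zero (hε i))
    (Finset.mem_image_of_mem ε (Finset.mem_univ ⟨0, hn0⟩)) (by
      refine lt_of_le_of_ne ((Nat.pow_le_pow_right (by norm_num) (by omega)).trans hcon) fun h => ?_
      rw [← h] at hp
      have h2 := hp.eq_one_of_pow
      rw [h2] at hp
      norm_num at hp)
  have hxs : x ^ s ≠ 1 := fun h =>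
    Nat.not_dvd_of_pos_of_lt hs0 hsp (hox ▸ orderOf_dvd_of_pow_eq_one h)
  have h2 := eq_smul_of_norm_sub_lt hρ (x := x ^ s)
    ((Subgroup.normalClosure_normal.eq_bot_or_eq_top).resolve_left fun h =>
      hxs (Subgroup.mem_bot.1 (h ▸ Subgroup.subset_normalClosure rfl)))
    (e.ne_zero ⟨0, hn0⟩) (hepow s _) fun z v hv hz => by
      obtain ⟨i, rfl⟩ := exists_eq_of_eigen_of_eigenbasis e (hepow s) hv hz
      exact hs _ (Finset.mem_image_of_mem ε (Finset.mem_univ i))
  refine hna (comm_of_simple_of_norm_eq χ.2 hχ1 hxs ?_)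
  rw [h1, ← hρχ, Complex.norm_natCast, norm_char_eq_iff]
  exact ⟨_, LinearMap.ext h2⟩

end Cfsg.Agent.S4484
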