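import Cfsg.Statements.S4489
import Cfsg.Agent.Char.Schur
import Cfsg.Agent.Char.DegBasic

set_option autoImplicit false
open Cfsg

namespace Cfsg.Agent.S4489

open Cfsg.Lib.Char

/-- Let P be a finite p-group of order p^a with a > 0, and χ a faithful irreducible character of P of degree f whose field of values ℚ(χ) has degree (p − 1)·p^t over ℚ. Then a ≤ (f − 1)/(p − 1) + (t + 1)·f; in integer form, (p − 1)·a ≤ (f − 1) + (p − 1)(t + 1)·f. -/
theorem result {P : Type*} [Group P] [Finite P] (p a : ℕ) (hp : p.Prime) (ha : 0 < a) (hP : Nat.card P = p ^ a) (χ : Cfsg.IrrCharacter P) (hfaith : ∀ g : P, (χ : P → ℂ) g = (χ : P → ℂ) 1 → g = 1) (f t : ℕ) (hf : Cfsg.charDegree (χ : P → ℂ) = f) (hfield : Module.finrank ℚ (IntermediateField.adjoin ℚ (Set.range (χ : P → ℂ))) = (p - 1) * p ^ t) : (p - 1) * a ≤ (f - 1) + (p - 1) * (t + 1) * f := by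
  have := Fact.mk hp
  have hk : charKer (χ : P → ℂ) = ⊥ := eq_bot_iff.2 fun g hg => hfaith g (apply_of_mem_charKer hg)
  obtain ⟨s, t', h1, h2, h3⟩ := pgroup_irr_bound _ P rfl (IsPGroup.of_card hP) χ χ.2 (fun h => by
    rw [h, charKer_one] at hk
    have h2 := Subgroup.card_top (G := P)
    rw [hk, Subgroup.card_bot, hP] at h2
    exact absurd h2 (Nat.one_lt_pow ha.ne' hp.one_lt).ne)
  rw [← finrank_adjoin_eq_index fun x => (χ.2.isGeneralizedCharacter.isIntegral x).tower_top,
    hfield] at h2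
  obtain rfl : t = t' := Nat.pow_right_injective hp.two_le
    (Nat.eq_of_mul_eq_mul_left (Nat.sub_pos_of_lt hp.one_lt) h2)
  obtain rfl : f = p ^ s := by
    rw [Deg.apply_one_eq χ.2.isCharacter, hf] at h1
    exact_mod_cast h1
  rw [hk, Subgroup.index_bot, hP, Nat.pow_le_pow_iff_right hp.one_lt] at h3
  rw [← geom_sum_mul_of_one_le hp.one_le, mul_comm _ (p - 1), mul_assoc, ← mul_add]
  exact Nat.mul_le_mul_left _ h3

end Cfsg.Agent.S4489
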