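import Cfsg.Statements.S4491
import Cfsg.Agent.Block.RSpan

set_option autoImplicit false
open Cfsg

namespace Cfsg.Agent.S4491

open Cfsg.Lib.Char Cfsg.Lib.Block.Loc Cfsg.Lib.Block.Ht

/-- Let B be a p-block of defect d of the finite group G (relative to a maximal ideal M of the algebraic integers containing p), and let p^a be the p-part of the order of G. Then the exact power of p dividing the sum of the squares of the degrees of the irreducible characters in B is p^(2a − d). -/
theorem result {G : Type*} [Group G] [Finite G] (p : ℕ) [Fact p.Prime] (M : Ideal Cfsg.AlgInt) (hM : Cfsg.IsPModular p M) (B : Set (Cfsg.IrrCharacter G)) (hB : Cfsg.IsPBlock M B) : (∑ᶠ χ ∈ B, Cfsg.charDegree (χ : G → ℂ) ^ 2).factorization p = 2 * (Nat.card G).factorization p - Cfsg.blockDefect p B := by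
  classical
  have := Fintype.ofFinite G
  obtain ⟨χ, hχ, h0⟩ := exists_blockHeight_eq_zero p (block_nonempty hM hB)
  have h1 := unit_blockCoeff_one_div hM hB hχ h0
  have h2 : blockCoeff B 1 / (χ : G → ℂ) 1 =
      ((∑ᶠ χ ∈ B, charDegree (χ : G → ℂ) ^ 2 : ℕ) : ℂ) /
        ((Nat.card G * charDegree (χ : G → ℂ) : ℕ) : ℂ) := by
    rw [blockCoeff_eq, finsum_mem_irr]
    push_cast
    rw [cast_charDegree_irr, inv_mul_eq_div, div_div]
    congr 1
    refine Finset.sum_congr rfl fun ψ _ => ?_
    split_ifs
    · rw [← cast_charDegree_irr]; simp [sq]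
    · simp
  rw [h2, unit_natCast_div_iff hM (mul_ne_zero Nat.card_pos.ne' (charDegree_ne_zero χ.2))] at h1
  rw [h1.2, Nat.factorization_mul Nat.card_pos.ne' (charDegree_ne_zero χ.2), Finsupp.add_apply,
    (blockHeight_eq_zero_iff hχ).1 h0]
  have := blockDefect_add_minVal p (block_nonempty hM hB)
  omega

end Cfsg.Agent.S4491
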