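import Cfsg.Statements.S4495
import Cfsg.Agent.Block.PrimeSylow

set_option autoImplicit false
open Cfsg

namespace Cfsg.Agent.S4495

/-- Let the finite group G contain an element x of prime order p with C_G(x) = ⟨x⟩, and let t be the number of conjugacy classes of elements of order p. If t ≠ p − 1 then the commutator subgroup has index at most (p − 1)/t; if t = p − 1 it has index exactly p. -/
theorem result {G : Type*} [Group G] [Finite G] (p : ℕ) (hp : p.Prime) (x : G) (hx : orderOf x = p) (hC : Subgroup.centralizer ({x} : Set G) = Subgroup.zpowers x) (t : ℕ) (ht : Nat.card {C : ConjClasses G // ∃ g ∈ C.carrier, orderOf g = p} = t) : (t ≠ p - 1 → (commutator G).index * t ≤ p - 1) ∧ (t = p - 1 → (commutator G).index = p) := by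
  have := Fact.mk hp
  obtain ⟨P, e, hPx, hP, hCP, he, hte, hN⟩ := Cfsg.Lib.Block.PS.selfCent_data hx hC
  rw [ht] at hte
  have hp2 := hp.two_le
  constructor
  · intro h
    have he1 : e ≠ 1 := fun e1 => h (by rw [← hte, e1, mul_one])
    have h1 := Cfsg.Lib.Block.PS.index_commutator_dvd P
      (Cfsg.Lib.Block.PS.le_commutator P hP (he ▸ he1))
    rw [hCP] at he
    rw [he] at h1
    have he0 : 0 < e := Nat.pos_of_ne_zero fun e0 => by rw [e0] at hte; omega
    rw [← hte, mul_comm]
    exact Nat.mul_le_mul_left _ (Nat.le_of_dvd he0 h1)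
  · intro h
    refine Cfsg.Lib.Block.PS.index_commutator_of_eq_one hx hC P hP (he.trans ?_)
    rw [h] at hte
    exact Nat.eq_of_mul_eq_mul_left (show 0 < p - 1 by omega) (by rw [hte, mul_one])

end Cfsg.Agent.S4495
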