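import Cfsg.Statements.S4496
import Cfsg.Agent.Solv.CardModEq
import Cfsg.Agent.Char.Camina
import Mathlib.GroupTheory.SpecificGroups.Cyclic

set_option autoImplicit false
open Cfsg

namespace Cfsg.Agent.S4496

/-- Let the finite group G contain an element x of prime order p with C_G(x) = ⟨x⟩. Then: (a) every normal subgroup of order divisible by p contains the commutator subgroup; (b) every normal subgroup S of order prime to p has order dividing the number of subgroups of order p of G and congruent to 1 modulo p, and in G/S the image of x again has prime order p and commutes only with its own powers. -/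
theorem result {G : Type*} [Group G] [Finite G] (p : ℕ) (hp : p.Prime) (x : G) (hx : orderOf x = p) (hC : Subgroup.centralizer ({x} : Set G) = Subgroup.zpowers x) (S : Subgroup G) [S.Normal] : (p ∣ Nat.card S → commutator G ≤ S) ∧ (¬ p ∣ Nat.card S → Nat.card S ∣ Nat.card {H : Subgroup G // Nat.card H = p} ∧ Nat.card S % p = 1 ∧ orderOf (QuotientGroup.mk x : G ⧸ S) = p ∧ Subgroup.centralizer ({(QuotientGroup.mk x : G ⧸ S)} : Set (G ⧸ S)) = Subgroup.zpowers (QuotientGroup.mk x : G ⧸ S)) := by
  have := Fact.mk hp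
  have hPc : Nat.card (Subgroup.zpowers x) = p := by rw [Nat.card_zpowers, hx]
  have hPp : IsPGroup p (Subgroup.zpowers x) := IsPGroup.of_card (n := 1) (by rw [hPc, pow_one])
  have hCz : Subgroup.centralizer (Subgroup.zpowers x : Set G) = Subgroup.zpowers x := by
    rw [Subgroup.zpowers_eq_closure, Subgroup.centralizer_closure, hC, Subgroup.zpowers_eq_closure]
  have hx1 : x ≠ 1 := fun e => hp.one_lt.ne' (by rw [← hx, e, orderOf_one])
  obtain ⟨P, hP⟩ := hPp.exists_le_sylow
  have hPeq : (P : Subgroup G) = Subgroup.zpowers x := by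
    have hxP : x ∈ (P : Subgroup G) := hP (Subgroup.mem_zpowers x)
    have : Nontrivial (P : Subgroup G) := ⟨⟨⟨x, hxP⟩, 1, fun e => hx1 (congrArg Subtype.val e)⟩⟩
    have := P.isPGroup'.center_nontrivial
    obtain ⟨z, hz⟩ := exists_ne (1 : Subgroup.center (P : Subgroup G))
    have hz1 : ((z : (P : Subgroup G)) : G) ≠ 1 := fun e => hz (Subtype.ext (Subtype.ext e))
    have hzc : ∀ b ∈ (P : Subgroup G), b * ((z : (P : Subgroup G)) : G) = (z : (P : Subgroup G)) * b :=
      fun b hb => congrArg Subtype.val (Subgroup.mem_center_iff.1 z.2 ⟨b, hb⟩)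
    have h1 : ((z : (P : Subgroup G)) : G) ∈ Subgroup.zpowers x := by
      rw [← hC, Subgroup.mem_centralizer_singleton_iff]
      exact (hzc x hxP).symm
    have h2 : Subgroup.zpowers ((z : (P : Subgroup G)) : G) = Subgroup.zpowers x := by
      refine Subgroup.eq_of_le_of_card_ge (Subgroup.zpowers_le.2 h1) (le_of_eq ?_)
      rw [hPc, Nat.card_zpowers]
      refine ((hp.eq_one_or_self_of_dvd _ ?_).resolve_left (orderOf_eq_one_iff.not.2 hz1)).symm
      exact (Subgroup.orderOf_dvd_natCard _ h1).trans (dvd_of_eq hPc)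
    refine le_antisymm ?_ hP
    rw [← hCz, ← h2, Subgroup.zpowers_eq_closure, Subgroup.centralizer_closure]
    exact fun b hb => Subgroup.mem_centralizer_singleton_iff.2 (hzc b hb)
  have hPcard : Nat.card P = p := by rw [hPeq, hPc]
  have hcyc : IsCyclic (P : Subgroup G) := isCyclic_of_prime_card hPcard
  constructor
  · intro hS
    obtain ⟨y, hy⟩ := exists_prime_orderOf_dvd_card' p hS
    have hPS : (P : Subgroup G) ≤ S := by
      obtain ⟨Q, hQ⟩ := (IsPGroup.of_card (G := Subgroup.zpowers (y : G)) (n := 1)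
        (by rw [Nat.card_zpowers, Subgroup.orderOf_coe, hy, pow_one])).exists_le_sylow
      have h1 : Subgroup.zpowers (y : G) = Q := Subgroup.eq_of_le_of_card_ge hQ (by
        rw [Nat.card_zpowers, Subgroup.orderOf_coe, hy, Q.card_eq_multiplicity,
          ← P.card_eq_multiplicity, hPcard])
      obtain ⟨g, rfl⟩ := MulAction.exists_smul_eq G Q P
      rw [Sylow.coe_subgroup_smul, ← h1]
      exact (Subgroup.pointwise_smul_le_pointwise_smul_iff.2 (Subgroup.zpowers_le.2 y.2)).trans
        (Subgroup.Normal.conj_smul_eq_self g S).le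
    have hF := Sylow.normalizer_sup_eq_top' P hPS
    rw [← Subgroup.Normal.quotient_commutative_iff_commutator_le]
    have hN : ∀ g : G, ∃ n ∈ Subgroup.normalizer ((P : Subgroup G) : Set G),
        (g : G ⧸ S) = (n : G ⧸ S) := by
      intro g
      have h1 : g ∈ ((Subgroup.normalizer ((P : Subgroup G) : Set G) ⊔ S : Subgroup G) : Set G) := by
        have h0 : (Subgroup.normalizer ((P : Subgroup G) : Set G) ⊔ S : Subgroup G) = ⊤ := hF
        rw [h0]; trivial
      rw [Subgroup.mul_normal] at h1
      obtain ⟨n, hn, s, hs, rfl⟩ := h1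
      exact ⟨n, hn, QuotientGroup.mk_mul_of_mem n hs⟩
    refine ⟨⟨fun a b => ?_⟩⟩
    obtain ⟨a, rfl⟩ := QuotientGroup.mk_surjective a
    obtain ⟨b, rfl⟩ := QuotientGroup.mk_surjective b
    obtain ⟨n, hn, e1⟩ := hN a
    obtain ⟨m, hm, e2⟩ := hN b
    rw [e1, e2, ← QuotientGroup.mk_mul, ← QuotientGroup.mk_mul, QuotientGroup.eq]
    refine hPS ?_
    rw [hPeq, ← hCz, ← hPeq]
    have h2 : (⟨(n * m)⁻¹ * (m * n), Subgroup.mul_mem _ (Subgroup.inv_mem _ (Subgroup.mul_mem _ hn hm))
        (Subgroup.mul_mem _ hm hn)⟩ : Subgroup.normalizer ((P : Subgroup G) : Set G)) ∈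
        (P : Subgroup G).normalizerMonoidHom.ker := by
      let := IsCyclic.commGroup (α := (P : Subgroup G))
      rw [MonoidHom.mem_ker]
      have h3 : (⟨(n * m)⁻¹ * (m * n), Subgroup.mul_mem _ (Subgroup.inv_mem _ (Subgroup.mul_mem _ hn hm))
        (Subgroup.mul_mem _ hm hn)⟩ : Subgroup.normalizer ((P : Subgroup G) : Set G)) =
          (⟨n, hn⟩ * ⟨m, hm⟩)⁻¹ * (⟨m, hm⟩ * ⟨n, hn⟩) := rfl
      rw [h3, map_mul, map_inv, inv_mul_eq_one, map_mul, map_mul]
      exact (IsCyclic.mulAutMulEquiv _).injective (by rw [map_mul, map_mul, mul_comm])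
    rw [Subgroup.normalizerMonoidHom_ker] at h2
    exact h2
  · intro hS
    have hdisj : S ⊓ Subgroup.zpowers x = ⊥ := by
      apply Subgroup.inf_eq_bot_of_coprime
      rw [hPc]
      exact (hp.coprime_iff_not_dvd.2 hS).symm
    have hxo : orderOf (QuotientGroup.mk x : G ⧸ S) = p := by
      refine (hp.eq_one_or_self_of_dvd _ (hx ▸ orderOf_map_dvd (QuotientGroup.mk' S) x)).resolve_left
        fun e => hx1 ?_
      rw [orderOf_eq_one_iff, QuotientGroup.eq_one_iff] at e
      have : x ∈ S ⊓ Subgroup.zpowers x := ⟨e, Subgroup.mem_zpowers x⟩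
      rwa [hdisj, Subgroup.mem_bot] at this
    refine ⟨?_, ?_, hxo, ?_⟩
    · have h1 : Nat.card {H : Subgroup G // Nat.card H = p} = Nat.card (Sylow p G) := by
        refine Nat.card_congr
          { toFun := fun H => Sylow.ofCard H.1 (by rw [H.2, ← P.card_eq_multiplicity, hPcard])
            invFun := fun Q => ⟨Q, by rw [Q.card_eq_multiplicity, ← P.card_eq_multiplicity, hPcard]⟩
            left_inv := fun H => rfl
            right_inv := fun Q => rfl }
      rw [h1, P.card_eq_index_normalizer]
      have h2 : S ⊓ Subgroup.normalizer ((P : Subgroup G) : Set G) = ⊥ := by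
        rw [eq_bot_iff, ← hdisj]
        rintro s ⟨hs1, hs2⟩
        refine ⟨hs1, ?_⟩
        change s ∈ Subgroup.zpowers x
        rw [← hC, Subgroup.mem_centralizer_singleton_iff]
        have h3 : s * x * s⁻¹ * x⁻¹ ∈ S ⊓ Subgroup.zpowers x := by
          constructor
          · have := S.mul_mem hs1 (Subgroup.Normal.conj_mem inferInstance _ (S.inv_mem hs1) x)
            simpa [mul_assoc] using this
          · rw [← hPeq]
            exact Subgroup.mul_mem _ ((Subgroup.mem_normalizer_iff.1 hs2 x).1
              (hP (Subgroup.mem_zpowers x))) (Subgroup.inv_mem _ (hP (Subgroup.mem_zpowers x)))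
        rw [hdisj, Subgroup.mem_bot, mul_inv_eq_one, mul_inv_eq_iff_eq_mul] at h3
        exact h3
      set N := Subgroup.normalizer ((P : Subgroup G) : Set G)
      have h3 : N.relIndex (N ⊔ S) = Nat.card S := by
        have h4 := Subgroup.relIndex_sup_right N S
        have h5 : S.relIndex N = Nat.card N := by
          rw [← Subgroup.inf_relIndex_right, h2, Subgroup.relIndex_bot_left]
        have h6 := Subgroup.relIndex_mul_relIndex ⊥ S (N ⊔ S) bot_le le_sup_right
        have h7 := Subgroup.relIndex_mul_relIndex ⊥ N (N ⊔ S) bot_le le_sup_left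
        rw [Subgroup.relIndex_bot_left, h4, h5, ← h7, Subgroup.relIndex_bot_left, mul_comm] at h6
        exact (Nat.eq_of_mul_eq_mul_left Nat.card_pos h6).symm
      rw [← h3]
      exact Subgroup.relIndex_dvd_index_of_le le_sup_left
    · have h1 := Cfsg.Lib.Solv.card_modEq_one_of_inf_centralizer_eq_bot (L := S) hPp
        (by rw [Subgroup.normalizer_eq_top]; exact le_top) (by rw [hCz, hdisj])
      rw [h1, Nat.mod_eq_of_lt hp.one_lt]
    · refine (Subgroup.eq_of_le_of_card_ge ?_ ?_).symm
      · rw [Subgroup.zpowers_le, Subgroup.mem_centralizer_singleton_iff]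
      · rw [Nat.card_zpowers, hxo, ← hPc, ← hC]
        have h1 := Cfsg.Lib.Char.sum_irr_normSq x
        classical
        rw [← Finset.sum_filter_add_sum_filter_not Finset.univ
          (fun χ : Cfsg.IrrCharacter G => S ≤ Cfsg.Lib.Char.charKer (χ : G → ℂ)),
          Cfsg.Lib.Char.sum_irr_ker_normSq] at h1
        have h2 : (Nat.card (Subgroup.centralizer ({(x : G ⧸ S)} : Set (G ⧸ S))) : ℝ) ≤
            Nat.card (Subgroup.centralizer ({x} : Set G)) := by
          rw [← h1, le_add_iff_nonneg_right]
          exact Finset.sum_nonneg fun _ _ => by positivity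
        exact_mod_cast h2

end Cfsg.Agent.S4496
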