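import Cfsg.Statements.S4497
import Cfsg.Agent.Block.PrimeSylow
import Cfsg.Agent.S4496

set_option autoImplicit false
open Cfsg

namespace Cfsg.Agent.S4497

/-- Let the finite group G contain an element x of prime order p with C_G(x) = ⟨x⟩, let t be the number of conjugacy classes of elements of order p, and let S* = O_{p′}(G) be the largest normal subgroup of order prime to p. Then S* ≤ G′; if t ≠ p − 1 the quotient G′/S* is simple (in particular non-trivial); if t = p − 1 then G′ = S*. -/
theorem result {G : Type*} [Group G] [Finite G] (p : ℕ) (hp : p.Prime) (x : G) (hx : orderOf x = p) (hC : Subgroup.centralizer ({x} : Set G) = Subgroup.zpowers x) (t : ℕ) (ht : Nat.card {C : ConjClasses G // ∃ g ∈ C.carrier, orderOf g = p} = t) : Cfsg.pPrimeCore p G ≤ commutator G ∧ (t ≠ p - 1 → ∀ h : ((Cfsg.pPrimeCore p G).subgroupOf (commutator G)).Normal, IsSimpleGroup (↥(commutator G) ⧸ (Cfsg.pPrimeCore p G).subgroupOf (commutator G))) ∧ (t = p - 1 → commutator G = Cfsg.pPrimeCore p G) := by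
  have := Fact.mk hp
  obtain ⟨P, e, hPx, hP, hCP, he, hte, hN⟩ := Cfsg.Lib.Block.PS.selfCent_data hx hC
  rw [ht] at hte
  have hp2 := hp.two_le
  have hS := Cfsg.Lib.Solv.not_dvd_card_pPrimeCore p G
  have h0 := Cfsg.Lib.Block.PS.le_commutator_of_not_dvd hx hC _ hS
  refine ⟨h0, fun h _ => ?_, fun h => ?_⟩
  · have he1 : e ≠ 1 := fun e1 => h (by rw [← hte, e1, mul_one])
    have h1 := Cfsg.Lib.Block.PS.le_commutator P hP (he ▸ he1)
    have hxG : x ∈ commutator G := h1 (hPx ▸ Subgroup.mem_zpowers x)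
    have hxS : x ∉ Cfsg.pPrimeCore p G := fun hxS =>
      hS ((dvd_of_eq hx.symm).trans (Subgroup.orderOf_dvd_natCard _ hxS))
    have : Nontrivial (↥(commutator G) ⧸ (Cfsg.pPrimeCore p G).subgroupOf (commutator G)) :=
      ⟨⟨((⟨x, hxG⟩ : commutator G) : _ ⧸ _), 1, fun e => hxS (Subgroup.mem_subgroupOf.1 ((QuotientGroup.eq_one_iff (⟨x, hxG⟩ : commutator G)).1 e))⟩⟩
    refine ⟨fun K hK => ?_⟩
    set K' := (K.comap (QuotientGroup.mk' _)) with hK'
    have hK'n : K'.Normal := hK.comap _
    by_cases hd : p ∣ Nat.card K'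
    · right
      -- `K'` contains every element of order `p`
      have hsq : ¬ p ^ 2 ∣ Nat.card (commutator G) := fun h2 =>
        Cfsg.Lib.Block.PS.not_sq_dvd P hP (h2.trans (Subgroup.card_subgroup_dvd_card _))
      have hall : ∀ y : commutator G, orderOf y = p → y ∈ K' := by
        intro y hy
        obtain ⟨Q⟩ : Nonempty (Sylow p (commutator G)) := inferInstance
        have hQ := Cfsg.Lib.Block.PS.card_sylow_eq
          (hd.trans (Subgroup.card_subgroup_dvd_card _)) hsq Q
        obtain ⟨g, hg⟩ := Cfsg.Lib.Block.PS.exists_conj_mem Q hQ hy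
        have := hK'n.conj_mem _ (Cfsg.Lib.Block.PS.le_of_dvd_card Q hQ K' hd hg) g⁻¹
        simpa [mul_assoc] using this
      have h2 : Subgroup.normalClosure ({x} : Set G) ≤ K'.map (commutator G).subtype := by
        rw [Subgroup.normalClosure, Subgroup.closure_le]
        intro y hy
        obtain ⟨a, ha, hay⟩ := Group.mem_conjugatesOfSet_iff.1 hy
        rw [Set.mem_singleton_iff] at ha
        subst ha
        obtain ⟨g, rfl⟩ := isConj_iff.1 hay
        refine ⟨⟨g * a * g⁻¹, Subgroup.Normal.conj_mem inferInstance _ hxG g⟩, hall _ ?_, rfl⟩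
        rw [← Subgroup.orderOf_coe, ← hx]
        exact (MulAut.conj g).orderOf_eq a
      have h3 := (Cfsg.Agent.S4496.result p hp x hx hC (Subgroup.normalClosure ({x} : Set G))).1
        (hx ▸ Subgroup.orderOf_dvd_natCard _ (Subgroup.subset_normalClosure rfl))
      rw [eq_top_iff]
      intro y _
      obtain ⟨y, rfl⟩ := QuotientGroup.mk_surjective y
      obtain ⟨z, hz, hzy⟩ := h2 (h3 y.2)
      have : z = y := Subtype.ext hzy
      exact this ▸ hz
    · left
      have h2 : K'.map (commutator G).subtype ≤ Cfsg.pPrimeCore p G := by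
        refine le_trans (Subgroup.map_mono (Cfsg.Lib.Solv.le_pPrimeCore hK'n ?_))
          (Cfsg.Lib.Solv.map_pPrimeCore_le_of_normal _)
        exact (hp.coprime_iff_not_dvd.2 hd).symm
      rw [eq_bot_iff]
      intro y hy
      obtain ⟨y, rfl⟩ := QuotientGroup.mk_surjective y
      exact (QuotientGroup.eq_one_iff _).2 (h2 ⟨y, hy, rfl⟩)
  · refine le_antisymm (Cfsg.Lib.Solv.le_pPrimeCore inferInstance ?_) h0
    have h1 := Cfsg.Lib.Block.PS.index_commutator_of_eq_one hx hC P hP (he.trans (by
      rw [h] at hte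
      exact Nat.eq_of_mul_eq_mul_left (show 0 < p - 1 by omega) (by rw [hte, mul_one])))
    refine (hp.coprime_iff_not_dvd.2 fun h2 => Cfsg.Lib.Block.PS.not_sq_dvd P hP ?_).symm
    rw [← (commutator G).card_mul_index, h1, pow_two]
    exact Nat.mul_dvd_mul_right h2 p

end Cfsg.Agent.S4497
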