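import Cfsg.Statements.S4731
import Cfsg.Agent.Block.GaloisBlock
import Cfsg.Agent.Block.BlockOrth

set_option autoImplicit false
open Cfsg

namespace Cfsg.Agent.S4731
open Cfsg.Lib.Block


/-- Let p ≠ q be primes, M_p and M_q maximal ideals of the algebraic integers containing p and q respectively, and G a finite group with no element of order pq; let q^b be the q-part of the order of G. For a p-block B_p (relative to M_p), a q-block B_q (relative to M_q) and a p-singular element y, the sum of χ(1)χ(y) over the irreducible characters χ lying in both B_p and B_q is q^b times an algebraic integer. -/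
theorem result {G : Type*} [Group G] [Finite G] (p q : ℕ) [Fact p.Prime] [Fact q.Prime] (hpq : p ≠ q) (Mp Mq : Ideal Cfsg.AlgInt) (hMp : Cfsg.IsPModular p Mp) (hMq : Cfsg.IsPModular q Mq) (hno : ∀ g : G, orderOf g ≠ p * q) (b : ℕ) (hb : (Nat.card G).factorization q = b) (Bp : Set (Cfsg.IrrCharacter G)) (hBp : Cfsg.IsPBlock Mp Bp) (Bq : Set (Cfsg.IrrCharacter G)) (hBq : Cfsg.IsPBlock Mq Bq) (y : G) (hy : p ∣ orderOf y) : ∃ ω : Cfsg.AlgInt, ∑ᶠ χ ∈ Bp ∩ Bq, (Cfsg.charDegree (χ : G → ℂ) : ℂ) * (χ : G → ℂ) y = (q : ℂ) ^ b * (ω : ℂ) := by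
  classical
  have hp : p.Prime := Fact.out
  have hq : q.Prime := Fact.out
  have := Fintype.ofFinite G
  have := Fintype.ofFinite (ConjClasses G)
  set θ : G → ℂ := ∑ χ ∈ irrFin Bp, (χ : G → ℂ) y • (χ : G → ℂ) with hθ
  have hθc : Cfsg.IsClassFunction G θ :=
    Cfsg.Lib.Char.isClassFunction_sum _ fun χ _ => χ.2.isClassFunction.smul _
  have hθa : ∀ g, θ g = ∑ χ ∈ irrFin Bp, (χ : G → ℂ) y * (χ : G → ℂ) g := fun g => by
    rw [hθ, Finset.sum_apply]; rfl
  have hint : ∀ (χ : Cfsg.IrrCharacter G) g, IsIntegral ℤ ((χ : G → ℂ) g) := fun χ g =>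
    χ.2.isCharacter.isGeneralizedCharacter.isIntegral g
  set S := ∑ᶠ χ ∈ Bp ∩ Bq, (Cfsg.charDegree (χ : G → ℂ) : ℂ) * (χ : G → ℂ) y with hS
  have hS1 : S = ∑ g, Cfsg.blockCoeff Bq g * θ g := by
    have h1 := sum_blockCoeff_mul_mul Bq hθc 1
    simp only [mul_one] at h1
    rw [h1, hθ, Ht.blockPart_sum, Finset.sum_apply, hS, finsum_mem_irr, sum_irrFin_eq_sum_ite,
      sum_irrFin_eq_sum_ite]
    refine Finset.sum_congr rfl fun χ _ => ?_
    rw [Ht.blockPart_smul]
    by_cases h2 : χ ∈ Bq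
    · rw [Ht.blockPart_irr_of_mem h2]
      simp [h2, irr_charDegree_cast, mul_comm]
    · rw [Ht.blockPart_irr_of_notMem h2]
      simp [h2]
  have hSi : IsIntegral ℤ S := by
    rw [hS, finsum_mem_irr]
    exact IsIntegral.sum _ fun χ _ => by rw [irr_charDegree_cast]; exact (hint χ 1).mul (hint χ y)
  have hq0 : (q : ℂ) ^ b ≠ 0 := pow_ne_zero _ (Nat.cast_ne_zero.2 hq.ne_zero)
  have hS2 : S = ∑ C : ConjClasses G, Cfsg.blockCoeff Bq (Quotient.out C) * θ (Quotient.out C) *
      ((Subgroup.centralizer ({Quotient.out C} : Set G)).index : ℂ) := by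
    have h1 := Ht.om_eq_sum_classes (Cfsg.Lib.Char.isClassFunction_const (G := G) 1)
      ((Ht.isClassFunction_blockCoeff Bq).mul hθc)
    simpa [Ht.om, Cfsg.centralChar, ← hS1] using h1
  have key : IsIntegral ℤ (S / (q : ℂ) ^ b) := by
    refine isIntegral_of_forall_memLocalRing (b := b) hq (by rwa [mul_div_cancel₀ _ hq0]) fun M hM => ?_
    rw [hS2, Finset.sum_div]
    refine Loc.ring_sum hM _ fun C _ => ?_
    set g := Quotient.out C
    by_cases hg : p ∣ orderOf g
    · have hnd : ¬ q ∣ Nat.card (Subgroup.centralizer ({g} : Set G)) := by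
        intro h
        obtain ⟨z, hz⟩ := exists_prime_orderOf_dvd_card' q h
        have hzo : orderOf (g ^ (orderOf g / p)) = p := orderOf_pow_orderOf_div (orderOf_pos g).ne' hg
        have hc : Commute (g ^ (orderOf g / p)) (z : G) :=
          (Commute.pow_right (Subgroup.mem_centralizer_singleton_iff.1 z.2) _).symm
        have hz' : orderOf (z : G) = q := by rw [Subgroup.orderOf_coe, hz]
        refine hno (g ^ (orderOf g / p) * z) ?_
        rw [hc.orderOf_mul_eq_mul_orderOf_of_coprime (by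
          rw [hz', hzo]; exact (Nat.coprime_primes hp hq).2 hpq), hz', hzo]
      have hdvd : q ^ b ∣ (Subgroup.centralizer ({g} : Set G)).index := by
        refine (Nat.Coprime.pow_left b ((Nat.Prime.coprime_iff_not_dvd hq).2 hnd)).dvd_of_dvd_mul_left ?_
        rw [Subgroup.card_mul_index, ← hb]
        exact Nat.ordProj_dvd _ _
      obtain ⟨k, hk⟩ := hdvd
      rw [hk, Nat.cast_mul, Nat.cast_pow, mul_div_assoc, mul_div_cancel_left₀ _ hq0]
      refine Loc.ring_mul hM (Loc.ring_mul hM ?_ (Loc.ring_of_isIntegral hM ?_)) (Loc.ring_natCast hM k)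
      · exact memLocalRing_blockCoeff hM (isPBlock_of_isPModular hMq hM hBq) g
      · rw [hθa]
        exact IsIntegral.sum _ fun χ _ => (hint χ y).mul (hint χ g)
    · have h1 := block_orth_regular hMp hBp hg (y := y⁻¹) (by rwa [orderOf_inv])
      have h2 : θ g = 0 := by
        rw [hθa, ← h1, finsum_mem_irr]
        refine Finset.sum_congr rfl fun χ _ => ?_
        rw [χ.2.isCharacter.apply_inv, Complex.conj_conj, mul_comm]
      rw [h2, mul_zero, zero_mul, zero_div]
      exact Loc.ring_zero hM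
  exact ⟨⟨_, key⟩, (mul_div_cancel₀ _ hq0).symm⟩

end Cfsg.Agent.S4731
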