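import Cfsg.Statements.S4498
import Cfsg.Agent.S4731
import Cfsg.Agent.Block.PrincBasic

set_option autoImplicit false
open Cfsg

namespace Cfsg.Agent.S4498
open Cfsg.Lib.Block


/-- Let p and q be distinct primes dividing the order of the finite group G, and suppose G has no element of order p·q. Fix maximal ideals M_p over p and M_q over q of the algebraic integers. Then the principal p-block and the principal q-block of G have a non-principal irreducible character in common. -/
theorem result {G : Type*} [Group G] [Finite G] (p q : ℕ) [Fact p.Prime] [Fact q.Prime] (hpq : p ≠ q) (hp : p ∣ Nat.card G) (hq : q ∣ Nat.card G) (hno : ∀ g : G, orderOf g ≠ p * q) (Mp Mq : Ideal Cfsg.AlgInt) (hMp : Cfsg.IsPModular p Mp) (hMq : Cfsg.IsPModular q Mq) : ∃ χ : Cfsg.IrrCharacter G, (χ : G → ℂ) ≠ (fun _ => 1) ∧ χ ∈ Cfsg.principalBlock Mp G ∧ χ ∈ Cfsg.principalBlock Mq G := by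
  by_contra hcon
  have hq' : q.Prime := Fact.out
  obtain ⟨y, hy⟩ := exists_prime_orderOf_dvd_card' p hp
  obtain ⟨ω, hω⟩ := Cfsg.Agent.S4731.result p q hpq Mp Mq hMp hMq hno _ rfl _ isPBlock_principalBlock' _
    isPBlock_principalBlock' y (hy ▸ dvd_rfl)
  have h1 : Cfsg.principalBlock Mp G ∩ Cfsg.principalBlock Mq G = {Princ.triv G} := by
    refine Set.eq_singleton_iff_unique_mem.2 ⟨⟨Princ.triv_mem_principalBlock hMp, Princ.triv_mem_principalBlock hMq⟩,
      fun χ hχ => ?_⟩
    by_contra hne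
    exact hcon ⟨χ, fun h => hne (Princ.eq_triv_iff.2 h), hχ⟩
  rw [h1, finsum_mem_singleton, irr_charDegree_cast, Princ.triv_apply, Princ.triv_apply, mul_one] at hω
  have h2 : (1 : Cfsg.AlgInt) = (q : Cfsg.AlgInt) ^ (Nat.card G).factorization q * ω :=
    Subtype.ext (by simpa using hω)
  refine Loc.one_notMem hMq ?_
  rw [h2]
  exact Mq.mul_mem_right _ (Mq.pow_mem_of_mem hMq.2.2 _ (hq'.factorization_pos_of_dvd Nat.card_pos.ne' hq))

end Cfsg.Agent.S4498
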