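import Cfsg.Statements.S4500
import Cfsg.Agent.PrimeOne.SelfCent
import Cfsg.Agent.S4499
import Cfsg.Agent.Block.OmegaFun

set_option autoImplicit false
open Cfsg

namespace Cfsg.Agent.S4500
open Cfsg.Lib.Block Cfsg.Lib.PrimeOne

theorem key {G : Type*} [Group G] [Finite G] [Nontrivial G] (p q r a b c : ℕ) (hp : p.Prime)
    (hq : q.Prime) (hr : r.Prime) (hpq : p ≠ q) (hpr : p ≠ r) (ha : a ≤ 2)
    (hG : Nat.card G = p ^ a * q ^ b * r ^ c) :
    ∃ χ : Cfsg.IrrCharacter G, (χ : G → ℂ) ≠ (fun _ => 1) ∧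
      ∃ k : ℕ, Cfsg.charDegree (χ : G → ℂ) = q ^ k := by
  have main : ∃ χ : Cfsg.IrrCharacter G, χ ≠ Princ.triv G ∧ ¬ r ∣ Cfsg.charDegree (χ : G → ℂ) ∧
      ¬ p ∣ Cfsg.charDegree (χ : G → ℂ) := by
    by_cases hpG : p ∣ Nat.card G
    · have := Fact.mk hp
      obtain ⟨M, hM⟩ := Princ.exists_isPModular hp
      obtain ⟨g, hg⟩ := exists_prime_orderOf_dvd_card' p hpG
      obtain ⟨χ, hχ, h1, h2, h3⟩ := exists_princ_not_dvd hM hr (g := g) (dvd_of_eq hg.symm)
      refine ⟨χ, h1, h2, fun hd => ?_⟩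
      by_cases hsq : p ^ 2 ∣ Nat.card G
      · have hf : (Nat.card G).factorization p = a := by
          rw [hG, Nat.factorization_mul (mul_pos (pow_pos hp.pos _) (pow_pos hq.pos _)).ne'
            (pow_pos hr.pos _).ne', Nat.factorization_mul (pow_pos hp.pos _).ne'
            (pow_pos hq.pos _).ne']
          simp [hp.factorization_pow, hq.factorization_pow, hr.factorization_pow, hpq, hpr]
        have h2a := (hp.pow_dvd_iff_le_factorization Nat.card_pos.ne').1 hsq
        have h4 := Cfsg.Agent.S4499.result p M hM hpG _ (Princ.isPBlock_principalBlock) χ hχ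
          (by rw [show (Nat.card G).factorization p - 1 = 1 by omega, pow_one]; exact hd)
          (Princ.triv G) (Princ.triv_mem_principalBlock hM)
        rw [show (Nat.card G).factorization p - 1 = 1 by omega, pow_one] at h4
        simp [Cfsg.charDegree, hp.one_lt.ne'] at h4
      · exact h3 (apply_eq_zero_of_dvd_degree hp hsq χ hd (dvd_of_eq hg.symm))
    · obtain ⟨s, hs, hsG⟩ := Nat.exists_prime_and_dvd (Finite.one_lt_card (α := G)).ne'
      have := Fact.mk hs
      obtain ⟨M, hM⟩ := Princ.exists_isPModular hs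
      obtain ⟨g, hg⟩ := exists_prime_orderOf_dvd_card' s hsG
      obtain ⟨χ, -, h1, h2, -⟩ := exists_princ_not_dvd hM hr (g := g) (dvd_of_eq hg.symm)
      exact ⟨χ, h1, h2, fun hd => hpG (hd.trans (Ht.charDegree_dvd_card χ.2))⟩
  obtain ⟨χ, h1, h2, h3⟩ := main
  refine ⟨χ, fun h => h1 (Princ.eq_triv_iff.2 h), ?_⟩
  have h4 := Ht.charDegree_dvd_card χ.2
  rw [hG] at h4
  have h5 := Nat.Coprime.dvd_of_dvd_mul_right
    (Nat.Coprime.pow_right c ((hr.coprime_iff_not_dvd.2 h2).symm)) h4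
  have h6 := Nat.Coprime.dvd_of_dvd_mul_left
    (Nat.Coprime.pow_right a ((hp.coprime_iff_not_dvd.2 h3).symm)) h5
  obtain ⟨k, -, hk⟩ := (Nat.dvd_prime_pow hq).1 h6
  exact ⟨k, hk⟩


/-- Let G be a non-trivial finite group of order p^a · q^b · r^c with p, q, r distinct primes and a ≤ 2. Then G has a non-principal irreducible character whose degree is a power of q, and a non-principal irreducible character whose degree is a power of r; the power may be the zeroth, so a non-principal linear character serves for both. -/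
theorem result {G : Type*} [Group G] [Finite G] [Nontrivial G] (p q r a b c : ℕ) (hp : p.Prime) (hq : q.Prime) (hr : r.Prime) (hpq : p ≠ q) (hpr : p ≠ r) (hqr : q ≠ r) (ha : a ≤ 2) (hG : Nat.card G = p ^ a * q ^ b * r ^ c) : (∃ χ : Cfsg.IrrCharacter G, (χ : G → ℂ) ≠ (fun _ => 1) ∧ ∃ k : ℕ, Cfsg.charDegree (χ : G → ℂ) = q ^ k) ∧ ∃ χ : Cfsg.IrrCharacter G, (χ : G → ℂ) ≠ (fun _ => 1) ∧ ∃ k : ℕ, Cfsg.charDegree (χ : G → ℂ) = r ^ k := by
  refine ⟨key p q r a b c hp hq hr hpq hpr ha hG, key p r q a c b hp hr hq hpr hpq ha ?_⟩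
  rw [hG]; ring

end Cfsg.Agent.S4500
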