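import Cfsg.Statements.S4502
import Cfsg.Agent.Block.CycCons
import Cfsg.Agent.Block.PrimeSylow
import Cfsg.Agent.Block.PrincBasic

set_option autoImplicit false
open Cfsg

namespace Cfsg.Agent.S4502
open Cfsg.Lib.Block
open scoped Pointwise Cfsg.Lib.Block.CD

theorem card_eq {G : Type*} [Group G] [Finite G] {p : ℕ} [Fact p.Prime] {M : Ideal AlgInt}
    (hM : IsPModular p M) (P : Sylow p G) (hP : Nat.card P = p)
    {b : Set (IrrCharacter (Subgroup.normalizer ((P : Subgroup G) : Set G)))}
    {B : Set (IrrCharacter G)}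
    (hb : IsDefectGroup p M b ((P : Subgroup G).subgroupOf _))
    (h : IsInducedBlock M (Subgroup.normalizer ((P : Subgroup G) : Set G)) b B) :
    Nat.card b = Nat.card B := by
  classical
  have := Fintype.ofFinite G
  have hB := (defect_of_isInducedBlock_normalizer hM hb h).1
  set N := Subgroup.normalizer ((P : Subgroup G) : Set G) with hN
  have := Fintype.ofFinite N
  have hPN : (P : Subgroup G) ≤ N := Subgroup.le_normalizer
  set P' := (P : Subgroup G).subgroupOf N with hP'def
  have hP' : Nat.card P' = p :=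
    (Nat.card_congr (Subgroup.subgroupOfEquivOfLe hPN).toEquiv).trans hP
  obtain ⟨c', hc'⟩ := CD.exists_root hM h.1 hb
  have hmem : ∀ x : N, x ∈ CD.Cz P' ↔ (x : G) ∈ CD.Cz (P : Subgroup G) := by
    intro x
    simp only [Subgroup.mem_centralizer_iff]
    exact ⟨fun hx y hy => congrArg Subtype.val (hx ⟨y, hPN hy⟩ hy),
      fun hx y hy => Subtype.ext (hx y hy)⟩
  let e : CD.Cz (P : Subgroup G) ≃* CD.Cz P' :=
    { toFun := fun y => ⟨⟨y, CD.Cz_le_Nz _ y.2⟩, (hmem _).2 y.2⟩
      invFun := fun y => ⟨y.1.1, (hmem _).1 y.2⟩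
      left_inv := fun _ => rfl
      right_inv := fun _ => rfl
      map_mul' := fun _ _ => rfl }
  have hc : IsInducedBlock M _ (trB e c') B :=
    (isInducedBlock_trans_map hM e (fun _ => rfl) hc').2 h
  have hs := CD.setup_of_card hM hB hP hc
  have hs' := CD.setup_of_card hM hb hP' hc'
  obtain ⟨θ₁, h1, h2⟩ := hs.exists_fixed
  obtain ⟨X, Y, μ, ε, a, hS, -⟩ := hs.exists_struct h1 h2 (Princ.triv G)
  obtain ⟨θ₁', h1', h2'⟩ := hs'.exists_fixed
  obtain ⟨X', Y', μ', ε', a', hS', -⟩ := hs'.exists_struct h1' h2' (Princ.triv N)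
  have hin : CD.inert M c' = CD.inert M (trB e c') := by
    have h3 := hs.card_stabilizer
    have h4 := hs'.card_stabilizer
    rw [Nat.card_congr e.toEquiv] at h3
    have hNz : ∀ n : N, n ∈ CD.Nz P' := fun n => by
      rw [CD.Nz, Subgroup.normalizer_eq_top]; trivial
    have key : ∀ n : CD.Nz (P : Subgroup G), (n • trB e c' = trB e c') ↔ ((⟨n, hNz n⟩ : CD.Nz P') • c' = c') := by
      intro n
      rw [CD.smul_set_eq_trB, CD.smul_set_eq_trB, trB_trB,
        trB_congr (e := (CD.cjC n).trans e) (e' := e.trans (CD.cjC (⟨n, hNz n⟩ : CD.Nz P')))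
          (fun _ => rfl), ← trB_trB,
        trB_inj]
    have h5 : Nat.card (MulAction.stabilizer (CD.Nz (P : Subgroup G)) (trB e c')) =
        Nat.card (MulAction.stabilizer (CD.Nz P') c') :=
      Nat.card_congr
        { toFun := fun n => ⟨⟨n.1, hNz _⟩, (key _).1 n.2⟩
          invFun := fun n => ⟨n.1.1, (key _).2 n.2⟩
          left_inv := fun _ => rfl
          right_inv := fun _ => rfl }
    rw [h3, h4] at h5
    exact (Nat.eq_of_mul_eq_mul_right Nat.card_pos h5).symm
  rw [hS.card_B, hS'.card_B, hS.card_Y_eq, hS'.card_Y_eq, hin, hP, hP']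


/-- Let G be a finite group whose order is divisible by the prime p exactly once, and let P be a Sylow p-subgroup. Then the number of irreducible characters of G of degree not divisible by p equals the number of conjugacy classes of the normalizer of P. -/
theorem result {G : Type*} [Group G] [Finite G] (p : ℕ) [Fact p.Prime] (hdiv : p ∣ Nat.card G) (hsq : ¬ p ^ 2 ∣ Nat.card G) (P : Sylow p G) : Nat.card {χ : Cfsg.IrrCharacter G // ¬ p ∣ Cfsg.charDegree (χ : G → ℂ)} = Nat.card (ConjClasses (Subgroup.normalizer ((P : Subgroup G) : Set G))) := by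
  classical
  have hp : p.Prime := Fact.out
  have := Fintype.ofFinite G
  obtain ⟨M, hM⟩ := Princ.exists_isPModular hp
  have hP := PS.card_sylow_eq hdiv hsq P
  have hfac : (Nat.card G).factorization p = 1 := by
    have h1 := (hp.dvd_iff_one_le_factorization Nat.card_pos.ne').1 hdiv
    have h2 := (hp.pow_dvd_iff_le_factorization (k := 2) (Nat.card_pos (α := G)).ne').not.1 hsq
    omega
  set N := Subgroup.normalizer ((P : Subgroup G) : Set G) with hN
  have hPN : (P : Subgroup G) ≤ N := Subgroup.le_normalizer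
  have hCN : Subgroup.centralizer ((P : Subgroup G) : Set G) ≤ N := Subgroup.centralizer_le_normalizer _
  have hP' : Nat.card ((P : Subgroup G).subgroupOf N) = p :=
    (Nat.card_congr (Subgroup.subgroupOfEquivOfLe hPN).toEquiv).trans hP
  have hcyc : IsCyclic (P : Subgroup G) := isCyclic_of_prime_card hP
  -- every block of `N` has defect group `P`
  have hdefN : ∀ b : Set (IrrCharacter N), IsPBlock M b →
      IsDefectGroup p M b ((P : Subgroup G).subgroupOf N) := by
    intro b hb
    obtain ⟨D, hD⟩ := exists_isDefectGroup hM hb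
    have h1 := le_defect_of_normal hM hb (P := (P : Subgroup G).subgroupOf N) inferInstance
      (P.isPGroup'.comap_subtype) hD
    have h2 : D = (P : Subgroup G).subgroupOf N :=
      (P.subtype hPN).is_maximal' (defect_isPGroup hD) h1
    exact h2 ▸ hD
  have hind : ∀ b : Set (IrrCharacter N), ∃ B : Set (IrrCharacter G), IsPBlock M b →
      IsInducedBlock M N b B := by
    intro b
    by_cases hb : IsPBlock M b
    · obtain ⟨B, hB⟩ := inducedBlockDefined_of_local hM P.isPGroup' hPN hCN le_rfl hb
      exact ⟨B, fun _ => hB⟩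
    · exact ⟨∅, fun h => absurd h hb⟩
  choose β hβ using hind
  -- the characters of `p'`-degree
  have hdeg : ∀ χ : IrrCharacter G, ¬ p ∣ charDegree (χ : G → ℂ) ↔
      IsDefectGroup p M (blockOf M (χ : G → ℂ)) P := by
    intro χ
    have hB : IsPBlock M (blockOf M (χ : G → ℂ)) := isPBlock_blockOf' χ
    have hχ := mem_blockOf_self' hM χ
    constructor
    · intro h
      rw [isDefectGroup_sylow_iff hM hB, blockDefect]
      have : sInf ((fun χ : IrrCharacter G => (charDegree (χ : G → ℂ)).factorization p) ''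
          blockOf M (χ : G → ℂ)) = 0 :=
        Nat.sInf_eq_zero.2 (Or.inl ⟨χ, hχ, Nat.factorization_eq_zero_of_not_dvd h⟩)
      rw [this, Nat.sub_zero]
    · intro h hd
      obtain ⟨c, hc⟩ := CD.exists_root hM hB h
      have hs := CD.setup_of_card hM h hP hc
      obtain ⟨θ₁, h1, h2⟩ := hs.exists_fixed
      obtain ⟨X, Y, μ, ε, a, hS, -⟩ := hs.exists_struct h1 h2 χ
      have h3 := factorization_degree_of_height_zero hM hB hχ (hS.height_zero hχ)
      rw [(isDefectGroup_sylow_iff hM hB P).1 h] at h3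
      have h4 := (hp.dvd_iff_one_le_factorization (irr_charDegree_ne_zero χ)).1 hd
      omega
  have hL : Nat.card {χ : IrrCharacter G // ¬ p ∣ charDegree (χ : G → ℂ)} =
      ∑ B ∈ (blockFin M G).filter (fun B => IsDefectGroup p M B P), Nat.card B := by
    rw [Nat.card_eq_fintype_card, Fintype.card_subtype, Finset.card_filter,
      ← sum_blockFin_sum hM, Finset.sum_filter]
    refine Finset.sum_congr rfl fun B hB => ?_
    rw [mem_blockFin] at hB
    have h1 : ∀ χ ∈ irrFin B, (¬ p ∣ charDegree (χ : G → ℂ)) ↔ IsDefectGroup p M B P := by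
      intro χ hχ
      rw [hdeg, ← isPBlock_eq_blockOf hM hB (mem_irrFin.1 hχ)]
    rw [Finset.sum_congr rfl fun χ hχ => if_congr (h1 χ hχ) rfl rfl, Finset.sum_const,
      card_irrFin]
    split_ifs <;> simp
  have hR : Nat.card (ConjClasses N) = ∑ b ∈ blockFin M N, Nat.card b := by
    rw [← Cfsg.Lib.Char.card_irr_eq_card_conjClasses, Nat.card_eq_fintype_card, Fintype.card_eq_sum_ones,
      ← sum_blockFin_sum hM]
    refine Finset.sum_congr rfl fun b _ => ?_
    rw [Finset.sum_const, card_irrFin, smul_eq_mul, mul_one]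
  rw [hL, hR]
  symm
  have hβ' : ∀ b ∈ blockFin M N, IsDefectGroup p M (β b) P := fun b hb =>
    (defect_of_isInducedBlock_normalizer hM (hdefN b (mem_blockFin.1 hb))
      (hβ b (mem_blockFin.1 hb))).1
  refine Finset.sum_bij (fun b _ => β b) ?_ ?_ ?_ ?_
  · intro b hb
    exact Finset.mem_filter.2 ⟨mem_blockFin.2 (hβ b (mem_blockFin.1 hb)).2.1, hβ' b hb⟩
  · intro b hb b' hb' h
    exact eq_of_isInducedBlock_normalizer hM (hβ' b hb) (hβ b (mem_blockFin.1 hb))
      (h ▸ hβ b' (mem_blockFin.1 hb'))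
  · intro B hB
    rw [Finset.mem_filter, mem_blockFin] at hB
    obtain ⟨b, hb, -⟩ := exists_brauerCorrespondent hM hB.1 hB.2
    exact ⟨b, mem_blockFin.2 hb.1, Princ.isInducedBlock_unique hM (hβ b hb.1) hb⟩
  · intro b hb
    exact card_eq hM P hP (hdefN b (mem_blockFin.1 hb)) (hβ b (mem_blockFin.1 hb))

end Cfsg.Agent.S4502
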