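import Cfsg.Statements.S4506
import Cfsg.Agent.Block.GalPow
import Cfsg.Agent.Block.Contrib
import Cfsg.Agent.Block.DefectCenter
import Cfsg.Agent.Block.PrincBasic

set_option autoImplicit false
open Cfsg

namespace Cfsg.Agent.S4506

open Cfsg.Lib.Block Cfsg.Lib.Char

/-- Let G be a finite group, p a prime, p^a the p-part of the order of G and g′ its p′-part. Call two irreducible characters p-conjugate when one is obtained from the other by applying a field automorphism of ℂ that fixes the g′-th roots of unity, and let r be the number of characters p-conjugate to the irreducible character χ (χ included). Then the exponent of p in r·χ(1) is at most a; and if p^a divides r·χ(1) then p^a already divides χ(1). -/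
theorem result {G : Type*} [Group G] [Finite G] (p : ℕ) (hp : p.Prime) (χ : Cfsg.IrrCharacter G) (r : ℕ) (hr : Nat.card {ψ : Cfsg.IrrCharacter G // ∃ σ : ℂ ≃+* ℂ, σ (Complex.exp (2 * Real.pi * Complex.I / ((Nat.card G / p ^ (Nat.card G).factorization p) : ℕ))) = Complex.exp (2 * Real.pi * Complex.I / ((Nat.card G / p ^ (Nat.card G).factorization p) : ℕ)) ∧ (ψ : G → ℂ) = fun g => σ ((χ : G → ℂ) g)} = r) : (r * Cfsg.charDegree (χ : G → ℂ)).factorization p ≤ (Nat.card G).factorization p ∧ (p ^ (Nat.card G).factorization p ∣ r * Cfsg.charDegree (χ : G → ℂ) → p ^ (Nat.card G).factorization p ∣ Cfsg.charDegree (χ : G → ℂ)) := by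
  classical
  have := Fintype.ofFinite G
  have : Fact p.Prime := ⟨hp⟩
  obtain ⟨M, hM⟩ := Princ.exists_isPModular hp
  have hB := isPBlock_blockOf (M := M) χ
  have hχ := mem_blockOf_self hM χ
  set B := blockOf M (χ : G → ℂ)
  set m := Nat.card G / p ^ (Nat.card G).factorization p with hm
  have hm0 : m ≠ 0 := (Nat.ordCompl_pos p Nat.card_pos.ne').ne'
  have hmd : m ∣ Nat.card G := Nat.ordCompl_dvd _ p
  have hreg : ∀ y : G, ¬ p ∣ orderOf y → orderOf y ∣ m := fun y hy => by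
    refine Nat.Coprime.dvd_of_dvd_mul_left (((Nat.Prime.coprime_iff_not_dvd hp).mpr hy).symm.pow_right
      ((Nat.card G).factorization p)) ?_
    rw [hm, Nat.ordProj_mul_ordCompl_eq_self]
    exact orderOf_dvd_natCard y
  set S : Set (IrrCharacter G) := {ψ | ∃ σ : ℂ ≃+* ℂ,
    σ (Complex.exp (2 * Real.pi * Complex.I / (m : ℕ))) =
      Complex.exp (2 * Real.pi * Complex.I / (m : ℕ)) ∧
      (ψ : G → ℂ) = fun g => σ ((χ : G → ℂ) g)} with hS
  have hrS : (irrFin S).card = r := (card_irrFin S).trans hr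
  have hk : ∀ ψ : IrrCharacter G, ∃ k : ℕ, ψ ∈ S → k.Coprime (Nat.card G) ∧ k ≡ 1 [MOD m] ∧
      ∀ g, (ψ : G → ℂ) g = (χ : G → ℂ) (g ^ k) := fun ψ => by
    by_cases hψ : ψ ∈ S
    · obtain ⟨σ, h1, h2⟩ := hψ
      obtain ⟨k, hk1, hk2⟩ := exists_pow_of_ringHom (Nat.card_pos (α := G)).ne' (σ : ℂ →+* ℂ)
      have hη := Complex.isPrimitiveRoot_exp m hm0
      refine ⟨k, fun _ => ⟨hk1, ?_, fun g => ?_⟩⟩
      · have h3 := hk2 _ ((hη.pow_eq_one_iff_dvd _).mpr hmd)
        rw [RingHom.coe_coe, h1] at h3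
        rw [hη.eq_orderOf, ← (isOfFinOrder_iff_pow_eq_one.mpr
          ⟨m, Nat.pos_of_ne_zero hm0, hη.pow_eq_one⟩).pow_eq_pow_iff_modEq, pow_one]
        exact h3.symm
      · rw [h2]
        exact χ.2.isGeneralizedCharacter.ringHom_pow g Nat.card_pos.ne' pow_card_eq_one' _ hk2
    · exact ⟨0, fun h => absurd h hψ⟩
  choose k hk using hk
  have hpow : ∀ ψ ∈ S, ∀ y : G, ¬ p ∣ orderOf y → y ^ k ψ = y := fun ψ hψ y hy => by
    conv_rhs => rw [← pow_one y]
    exact pow_eq_pow_iff_modEq.mpr ((hk ψ hψ).2.1.of_dvd (hreg y hy))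
  have hSreg : ∀ ψ ∈ S, ∀ y : G, ¬ p ∣ orderOf y → (ψ : G → ℂ) y = (χ : G → ℂ) y :=
    fun ψ hψ y hy => by rw [(hk ψ hψ).2.2, hpow ψ hψ y hy]
  have hSB : S ⊆ B := fun ψ hψ => mem_block_of_eq_on_regular hM hB hχ (hSreg ψ hψ)
  have hca : ∀ ψ ∈ S, ca p B χ ψ = ca p B χ χ := fun ψ hψ => by
    have h1 : pRegularPart p (ψ : G → ℂ) = pRegularPart p (χ : G → ℂ) := funext fun g => by
      unfold pRegularPart
      split_ifs with h
      · exact hSreg ψ hψ g h
      · rfl
    rw [ca, ca, ← classInner_pRegularPart_both, h1, classInner_pRegularPart_both]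
  have hpos := ca_self_pos hM hB hχ
  have hle : (r : ℤ) * ca p B χ χ ≤ (p : ℤ) ^ blockDefect p B := by
    refine le_of_mul_le_mul_right ?_ hpos
    rw [← sum_ca_sq hM hB hχ, mul_assoc, ← sq, ← hrS, ← nsmul_eq_mul, ← Finset.sum_const,
      ← Finset.sum_congr rfl fun ψ hψ => congrArg (· ^ 2) (hca ψ (mem_irrFin.mp hψ))]
    exact Finset.sum_le_sum_of_subset_of_nonneg
      (fun ψ hψ => mem_irrFin.mpr (hSB (mem_irrFin.mp hψ))) fun _ _ _ => sq_nonneg _
  have hr0 : r ≠ 0 := by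
    rw [← hrS]
    exact Finset.card_ne_zero.mpr ⟨χ, mem_irrFin.mpr ⟨RingEquiv.refl ℂ, rfl, rfl⟩⟩
  have key : ∀ j : ℕ, (p : ℤ) ^ j ∣ ca p B χ χ → r.factorization p + j ≤ blockDefect p B :=
    fun j hj => by
    have h1 : (p : ℤ) ^ (r.factorization p + j) ∣ (r : ℤ) * ca p B χ χ := by
      rw [pow_add]
      exact mul_dvd_mul (by exact_mod_cast Nat.ordProj_dvd r p) hj
    have h2 := (Int.le_of_dvd (mul_pos (by exact_mod_cast Nat.pos_of_ne_zero hr0) hpos) h1).trans hle
    exact (pow_le_pow_iff_right₀ (by exact_mod_cast hp.one_lt)).mp h2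
  have hd0 := Ht.charDegree_ne_zero χ.2
  have e1 := Ht.factorization_charDegree_eq (p := p) hχ
  have e2 := Ht.blockDefect_add_minVal p (B := B) ⟨χ, hχ⟩
  have e3 := key _ (pow_height_dvd_ca hp χ hχ)
  rw [hp.pow_dvd_iff_le_factorization (mul_ne_zero hr0 hd0), hp.pow_dvd_iff_le_factorization hd0,
    Nat.factorization_mul hr0 hd0, Finsupp.add_apply]
  refine ⟨by omega, fun h => ?_⟩
  by_cases h0 : blockHeight p B (χ : G → ℂ) = 0
  swap
  · have e4 := key _ (pow_height_succ_dvd_ca hM hB hχ hχ h0)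
    omega
  by_contra hlt
  have hd : blockDefect p B ≠ 0 := by omega
  have hpG : p ∣ Nat.card G := Nat.dvd_of_factorization_pos (by omega)
  have h1 : p ^ blockDefect p B ≤ r := Nat.le_of_dvd (Nat.pos_of_ne_zero hr0)
    ((hp.pow_dvd_iff_le_factorization hr0).mpr (by omega))
  have hq : 0 < p ^ blockDefect p B := pow_pos hp.pos _
  have h2 : (irrFin S).card ≤ ((Finset.range (p ^ blockDefect p B)).erase 0).card := by
    refine Finset.card_le_card_of_injOn (fun ψ => k ψ % p ^ blockDefect p B) (fun ψ hψ => ?_)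
      (fun ψ hψ ξ hξ e => Subtype.ext (funext fun g => ?_))
    · refine Finset.mem_coe.mpr (Finset.mem_erase.mpr ⟨fun h => ?_,
        Finset.mem_range.mpr (Nat.mod_lt _ hq)⟩)
      exact hp.one_lt.ne' (Nat.eq_one_of_dvd_coprimes (hk ψ (mem_irrFin.mp hψ)).1
        ((dvd_pow_self p hd).trans (Nat.dvd_of_mod_eq_zero h)) hpG)
    · have hψ := mem_irrFin.mp hψ
      have hξ := mem_irrFin.mp hξ
      rw [(hk ψ hψ).2.2, (hk ξ hξ).2.2]
      by_cases hg : (χ : G → ℂ) g = 0
      · rw [(χ.2.isGeneralizedCharacter.apply_pow_eq_zero_iff g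
          ((hk ψ hψ).1.coprime_dvd_right (orderOf_dvd_natCard g))).mpr hg,
          (χ.2.isGeneralizedCharacter.apply_pow_eq_zero_iff g
          ((hk ξ hξ).1.coprime_dvd_right (orderOf_dvd_natCard g))).mpr hg]
      · obtain ⟨x, hx⟩ := exists_isPPart hp g
        obtain ⟨D, hD, hxD⟩ := exists_defect_mem_of_apply_ne_zero hM hB hχ hx hg
        obtain ⟨y, rfl, hc, -, hy⟩ := hx
        rw [hc.mul_pow, hc.mul_pow, hpow ψ hψ y hy, hpow ξ hξ y hy,
          pow_eq_pow_iff_modEq.mpr (Nat.ModEq.of_dvd ?_ e)]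
        rw [← card_defect hM hB hD]
        exact D.orderOf_dvd_natCard hxD
  rw [Finset.card_erase_of_mem (Finset.mem_range.mpr hq), Finset.card_range, hrS] at h2
  omega

end Cfsg.Agent.S4506
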