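import Cfsg.Statements.S4507
import Cfsg.Agent.Block.CycPrime

set_option autoImplicit false
open Cfsg

namespace Cfsg.Agent.S4507

open Cfsg.Lib.Char Cfsg.Lib.Block Cfsg.Lib.Block.Pair Cfsg.Lib.Block.CD Subgroup

/-- Let G be a finite group whose order g is divisible by the prime p exactly once, g′ = g/p, and fix a maximal ideal M of the algebraic integers containing p. Call two irreducible characters p-conjugate when a field automorphism of ℂ fixing the g′-th roots of unity carries one to the other. Let B be a p-block of positive defect (its defect group is a Sylow p-subgroup). Then B contains a subset Y (the exceptional family) such that: Y is a full p-conjugacy class (its members are pairwise p-conjugate and every p-conjugate of a member of Y lies in Y); every member of B outside Y is p-conjugate only to itself; the size t of Y divides p − 1 and B has exactly t + (p − 1)/t members; and there are signs δ_χ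 = ±1 (χ ∈ B) such that for every p-regular element x and every θ ∈ Y, Σ_{χ ∈ B ∖ Y} δ_χ χ(x) + δ_θ θ(x) = 0. -/
theorem result {G : Type*} [Group G] [Finite G] (p : ℕ) [Fact p.Prime] (M : Ideal Cfsg.AlgInt) (hM : Cfsg.IsPModular p M) (hdiv : p ∣ Nat.card G) (hsq : ¬ p ^ 2 ∣ Nat.card G) (B : Set (Cfsg.IrrCharacter G)) (hB : Cfsg.IsPBlock M B) (hd : 0 < Cfsg.blockDefect p B) : ∃ Y : Set (Cfsg.IrrCharacter G), Y ⊆ B ∧ Y.Nonempty ∧ (∀ θ ∈ Y, ∀ ψ : Cfsg.IrrCharacter G, (∃ σ : ℂ ≃+* ℂ, σ (Complex.exp (2 * Real.pi * Complex.I / ((Nat.card G / p ^ (Nat.card G).factorization p) : ℕ))) = Complex.exp (2 * Real.pi * Complex.I / ((Nat.card G / p ^ (Nat.card G).factorization p) : ℕ)) ∧ (ψ : G → ℂ) = fun g => σ ((θ : G → ℂ) g)) ↔ ψ ∈ Y) ∧ (∀ χ ∈ B, χ ∉ Y → ∀ ψ : Cfsg.IrrCharacter G, (∃ σ : ℂ ≃+* ℂ, σ (Complex.exp (2 * Real.pi * Complex.I / ((Nat.card G / p ^ (Nat.card G).factorization p) : ℕ))) = Complex.exp (2 * Real.pi *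 Complex.I / ((Nat.card G / p ^ (Nat.card G).factorization p) : ℕ)) ∧ (ψ : G → ℂ) = fun g => σ ((χ : G → ℂ) g)) → ψ = χ) ∧ Nat.card Y ∣ p - 1 ∧ Nat.card B = Nat.card Y + (p - 1) / Nat.card Y ∧ ∃ δ : Cfsg.IrrCharacter G → ℤ, (∀ χ ∈ B, δ χ = 1 ∨ δ χ = -1) ∧ ∀ x : G, ¬ p ∣ orderOf x → ∀ θ ∈ Y, (∑ᶠ χ ∈ B \ Y, (δ χ : ℂ) * (χ : G → ℂ) x) + (δ θ : ℂ) * (θ : G → ℂ) x = 0 := by
  classical
  have := Fintype.ofFinite G
  have hp : p.Prime := Fact.out
  have hG : Nat.card G ≠ 0 := Nat.card_pos.ne'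
  obtain ⟨D, hD⟩ := exists_isDefectGroup hM hB
  have hcard : Nat.card D = p := by
    have h1 := card_defect hM hB hD
    have h2 : ¬ 2 ≤ blockDefect p B := fun h =>
      hsq ((pow_dvd_pow p h).trans (h1 ▸ card_subgroup_dvd_card D))
    rw [h1, show blockDefect p B = 1 by omega, pow_one]
  obtain ⟨b, hb⟩ := exists_root hM hB hD
  have h0 := setup_of_card hM hD hcard hb
  obtain ⟨θ₁, h₁, hc₁⟩ := h0.exists_canon
  obtain ⟨X, Y, μ, ε, a, h, -⟩ := h0.exists_struct h₁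
    (fun n hn => (h0.smul_eq_iff_of_canon h₁ hc₁ n).2 hn) (Classical.arbitrary _)
  have hY : inert M b * Y.card = p - 1 := by have := h.card_Y; omega
  have hconj : ∀ θ ψ : IrrCharacter G, (∃ σ : ℂ ≃+* ℂ, σ (Complex.exp (2 * Real.pi * Complex.I / ((Nat.card G / p ^ (Nat.card G).factorization p) : ℕ))) = Complex.exp (2 * Real.pi * Complex.I / ((Nat.card G / p ^ (Nat.card G).factorization p) : ℕ)) ∧ (ψ : G → ℂ) = fun g => σ ((θ : G → ℂ) g)) ↔
      ∃ σ, PFix p (Nat.card G) σ ∧ galoisPerm G σ θ = ψ := fun θ ψ =>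
    exists_congr fun σ => and_congr (pFix_iff hG) (eq_comm.trans (Subtype.ext_iff (a1 := galoisPerm G σ θ)).symm)
  refine ⟨Y, fun χ hχ => h.mem_of_Y hχ, h.Y_nonempty, fun θ hθ ψ => (hconj θ ψ).trans ⟨?_, ?_⟩,
    fun χ hχ hY ψ hψ => ?_, ?_, ?_, fun χ => if χ ∈ Y then ε else a χ, fun χ hχ => ?_,
    fun x hx θ hθ => ?_⟩
  · rintro ⟨σ, hσ, rfl⟩
    exact h.galoisPerm_Y hσ (h0.galoisPerm_canon h₁ hc₁ hσ) hθ
  · intro hψ
    obtain ⟨θ', h1, h2, rfl⟩ := h.mu_surj θ hθ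
    obtain ⟨ψ', h3, h4, rfl⟩ := h.mu_surj ψ hψ
    obtain ⟨σ, hσ, rfl⟩ := h0.exists_galoisPerm_eq h1 h3
      (fun hc => h2 (h0.eq_of_canon h1 h₁ hc hc₁)) (fun hc => h4 (h0.eq_of_canon h3 h₁ hc hc₁))
    exact ⟨σ, hσ, (h.galoisPerm_mu hσ (h0.galoisPerm_canon h₁ hc₁ hσ) h1 h2).2.2⟩
  · obtain ⟨σ, hσ, rfl⟩ := (hconj χ ψ).1 hψ
    exact h.galoisPerm_X hσ (h0.galoisPerm_canon h₁ hc₁ hσ) (((h.union χ).1 hχ).resolve_right hY)
  · simpa using Dvd.intro_left _ hY
  · simp only [SetLike.coe_sort_coe, Nat.card_eq_fintype_card, Fintype.card_coe]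
    rw [← hY, Nat.mul_div_cancel _ h.Y_nonempty.card_pos, ← Nat.card_eq_fintype_card, h.card_B,
      add_comm]
  · dsimp only
    split_ifs with hY
    exacts [h.sign, h.sign_X χ (((h.union χ).1 hχ).resolve_right hY)]
  · rw [h.diff_eq, finsum_mem_coe_finset, add_comm, ← h.sign_rel hθ hx]
    dsimp only
    rw [if_pos (Finset.mem_coe.1 hθ)]
    congr 1
    exact Finset.sum_congr rfl fun χ hχ => by rw [if_neg (Finset.disjoint_left.1 h.disj hχ)]

end Cfsg.Agent.S4507
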