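import Cfsg.Statements.S4508
import Cfsg.Agent.PrimeOne.DegP
import Cfsg.Agent.S4495

set_option autoImplicit false
open Cfsg

namespace Cfsg.Agent.S4508
open Cfsg.Lib.Block Cfsg.Lib.PrimeOne Cfsg.Lib.Char Subgroup


/-- Let the finite group G contain an element x of prime order p with C_G(x) = ⟨x⟩, and let t be the number of conjugacy classes of elements of order p. If G has an irreducible character of degree p − 1, then t is even or the commutator subgroup has even index. -/
theorem result {G : Type*} [Group G] [Finite G] (p : ℕ) (hp : p.Prime) (x : G) (hx : orderOf x = p) (hC : Subgroup.centralizer ({x} : Set G) = Subgroup.zpowers x) (t : ℕ) (ht : Nat.card {C : ConjClasses G // ∃ g ∈ C.carrier, orderOf g = p} = t) (χ : Cfsg.IrrCharacter G) (hχ : Cfsg.charDegree (χ : G → ℂ) + 1 = p) : Even t ∨ Even (commutator G).index := by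
  have := Fact.mk hp
  obtain ⟨P, e, hPx, hP, hCP, he, hte, hN⟩ := PS.selfCent_data hx hC
  rw [ht] at hte
  have hp2 := hp.two_le
  rcases hp.eq_two_or_odd' with rfl | hodd
  · right
    have h1 : t = 2 - 1 := Nat.eq_one_of_mul_eq_one_right hte
    rw [(Cfsg.Agent.S4495.result 2 hp x hx hC t ht).2 h1]
    exact even_two
  by_cases htev : Even t
  · exact Or.inl htev
  right
  have hpe : Even (t * e) := by rw [hte]; exact Nat.Odd.sub_odd hodd odd_one
  have hev : Even e := (Nat.even_mul.1 hpe).resolve_left htev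
  have hp3 : 3 ≤ p := by obtain ⟨k, rfl⟩ := hodd; omega
  obtain ⟨M, hM⟩ := Princ.exists_isPModular hp
  obtain ⟨t', X, Y, δ, ε, hB⟩ := exists_B0 hM P hP
  rw [he] at hB
  have he0 : e ≠ 0 := hB.e_pos.ne'
  have htt : t' = t := by
    have h1 := hB.card_eq
    rw [factorization_eq_one hP, pow_one] at h1
    refine Nat.eq_of_mul_eq_mul_left hB.e_pos ?_
    rw [mul_comm e t, hte]
    omega
  subst htt
  have hdeg : (deg χ : ℤ) = p - 1 := by rw [← hχ]; push_cast; ring
  have hχB := mem_principalBlock_of_not_dvd hP hCP.le hM (χ := χ) (fun h => by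
    have := Nat.le_of_dvd (deg_pos χ) h
    simp only [deg] at this
    omega)
  have h1 : (χ : G → ℂ) 1 = p - 1 := by rw [← deg_cast, ← hχ]; push_cast; ring
  have hv : ∀ g, p ∣ orderOf g → (χ : G → ℂ) g = -1 := by
    intro g hg
    rcases (hB.union χ).1 hχB with h | h
    · rw [hB.val_X χ h g hg]
      rcases hB.sign_X χ h with h2 | h2
      · exfalso
        have h3 := (hB.deg_X_modEq' h).dvd
        rw [h2, hdeg] at h3
        have h4 : (p : ℤ) ∣ 2 := by
          have := dvd_add h3 (dvd_refl (p : ℤ))
          rwa [show (1 : ℤ) - (p - 1) + p = 2 by ring] at this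
        have := Int.le_of_dvd two_pos h4
        omega
      · rw [h2]; simp
    · have h3 := (hB.deg_Y_modEq' h).dvd
      have hele : e ≤ p - 1 := by
        rw [← hte]; exact Nat.le_mul_of_pos_left _ hB.t_pos
      rcases hB.sign with h2 | h2
      · rw [h2, hdeg, one_mul] at h3
        have h4 : (p : ℤ) ∣ e + 1 := by
          have := dvd_add h3 (dvd_refl (p : ℤ))
          rwa [show (e : ℤ) - (p - 1) + p = e + 1 by ring] at this
        have h5 := Int.le_of_dvd (by omega) h4
        have h6 : e = p - 1 := by omega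
        have h7 : t' = 1 := by
          rw [← h6] at hte
          exact Nat.eq_of_mul_eq_mul_right hB.e_pos (by rw [hte, one_mul])
        have h8 := hB.sum_Y g hg
        obtain ⟨θ, hθ⟩ := Finset.card_eq_one.1 (hB.card_Y.trans h7)
        rw [hθ, Finset.mem_singleton] at h
        rw [hθ, Finset.sum_singleton, ← h, h2] at h8
        simpa using h8
      · exfalso
        rw [h2, hdeg] at h3
        have h4 : (p : ℤ) ∣ e - 1 := by
          have := dvd_neg.2 (dvd_add h3 (dvd_refl (p : ℤ)))
          rwa [show -((-1 : ℤ) * e - (p - 1) + p) = e - 1 by ring] at this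
        obtain ⟨k, hk⟩ := hev
        have := Int.le_of_dvd (by omega) h4
        omega
  haveI : Fact (Nat.Prime 2) := ⟨Nat.prime_two⟩
  obtain ⟨k, m, hm, hkm⟩ := Nat.exists_eq_pow_mul_and_not_dvd he0 2 (by norm_num)
  obtain ⟨S₀, hS₀⟩ := Sylow.exists_subgroup_card_pow_prime
    (G := normalizer ((P : Subgroup G) : Set G))
    2 (n := k) (by rw [hN, hkm]; exact (dvd_mul_right _ _).mul_left _)
  set S := S₀.map (normalizer ((P : Subgroup G) : Set G)).subtype
  have hS : Nat.card S = 2 ^ k := by rw [card_map_of_injective (subtype_injective _), hS₀]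
  have hSN : S ≤ normalizer ((P : Subgroup G) : Set G) := map_subtype_le _
  have hSC : ∀ s ∈ S, s ∈ centralizer ((P : Subgroup G) : Set G) → s = 1 := by
    intro s hs hs'
    by_contra hne
    have h2 := Subgroup.orderOf_dvd_natCard _ hs
    rw [hS, orderOf_of_mem hP (hCP.le hs') hne] at h2
    have := Nat.le_of_dvd two_pos (hp.dvd_of_dvd_pow h2)
    omega
  haveI := isCyclic_of_inf_eq_bot hP hSN hSC
  obtain ⟨s, hs⟩ := IsCyclic.exists_generator (α := S)
  have hk : k ≠ 0 := by
    rintro rfl
    rw [pow_zero, one_mul] at hkm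
    exact hm (hkm ▸ hev.two_dvd)
  have hdet := detChar_of_regular hs (χ := fun x : S => (χ : G → ℂ) x) (m := m * t')
    (by
      rw [hS, ← mul_assoc, ← hkm, mul_comm, hte]
      simp only [OneMemClass.coe_one, h1]
      rw [Nat.cast_sub hp.one_le, Nat.cast_one])
    (fun x hx => apply_eq_zero_of_deg hP χ.2.isCharacter h1 hv (hSN x.2)
      fun h => hx (Subtype.ext (hSC x x.2 h)))
    (by rw [hS]; exact (Nat.even_pow.2 ⟨even_two, hk⟩))
  rw [detChar_res χ.2.isCharacter, Odd.neg_one_pow ((Nat.odd_mul.2
    ⟨Nat.not_even_iff_odd.1 fun h => hm h.two_dvd, Nat.not_even_iff_odd.1 htev⟩))] at hdet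
  have h3 := monoidHom_apply_of_mem_commutator (detHom (χ : G → ℂ))
    ((commutator G).pow_index_mem (s : G))
  rw [map_pow] at h3
  have h4 := congrArg Units.val h3
  rw [Units.val_pow_eq_pow_val, coe_detHom] at h4
  simp only at hdet
  rw [hdet] at h4
  by_contra hcon
  rw [(Nat.not_even_iff_odd.1 hcon).neg_one_pow] at h4
  norm_num at h4

end Cfsg.Agent.S4508
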