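import Cfsg.Statements.S4509
import Cfsg.Agent.Block.PrimeSylow
import Cfsg.Agent.S4496

set_option autoImplicit false
open Cfsg

namespace Cfsg.Agent.S4509

/-- Let the finite group G contain an element x of prime order p with C_G(x) = ⟨x⟩; let t be the number of conjugacy classes of elements of order p and 1 + n·p the number of subgroups of order p. Then G has a normal subgroup of order 1 + n·p if and only if either t = p − 1, or t < p − 1 and G″ ≠ G′. Moreover, if t = p − 1 then G′ has order 1 + n·p and G/G′ is cyclic of order p; and if t < p − 1 and G″ ≠ G′ then G″ has order 1 + n·p and G′ has order p·(1 + n·p). -/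
theorem result {G : Type*} [Group G] [Finite G] (p : ℕ) (hp : p.Prime) (x : G) (hx : orderOf x = p) (hC : Subgroup.centralizer ({x} : Set G) = Subgroup.zpowers x) (t : ℕ) (ht : Nat.card {C : ConjClasses G // ∃ g ∈ C.carrier, orderOf g = p} = t) (n : ℕ) (hn : Nat.card {H : Subgroup G // Nat.card H = p} = 1 + n * p) : ((∃ S : Subgroup G, S.Normal ∧ Nat.card S = 1 + n * p) ↔ (t = p - 1 ∨ (t < p - 1 ∧ derivedSeries G 2 ≠ derivedSeries G 1))) ∧ (t = p - 1 → Nat.card (commutator G) = 1 + n * p ∧ IsCyclic (G ⧸ commutator G) ∧ (commutator G).index = p) ∧ (t < p - 1 → derivedSeries G 2 ≠ derivedSeries G 1 → Nat.card (derivedSeries G 2) = 1 + n * p ∧ Nat.card (commutator G) = p * (1 + n * p)) := by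
  have := Fact.mk hp
  obtain ⟨P, e, hPx, hP, hCP, he, hte, hN⟩ := Cfsg.Lib.Block.PS.selfCent_data hx hC
  rw [ht] at hte
  have hp2 := hp.two_le
  rw [Cfsg.Lib.Block.PS.card_subgroups_eq P hP, P.card_eq_index_normalizer] at hn
  have hG : Nat.card G = p * e * (1 + n * p) := by
    rw [← hN, ← hn]; exact (Subgroup.card_mul_index _).symm
  have he0 : 0 < e := Nat.pos_of_ne_zero fun e0 => by rw [e0] at hte; omega
  have htle : t ≤ p - 1 := by rw [← hte]; exact Nat.le_mul_of_pos_right _ he0
  have hd1 : derivedSeries G 1 = commutator G := derivedSeries_one G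
  have hnp : ¬ p ∣ 1 + n * p := fun h =>
    hp.one_lt.ne' (Nat.dvd_one.1 ((Nat.dvd_add_left (Dvd.intro_left n rfl)).1 h))
  have hA : t = p - 1 → Nat.card (commutator G) = 1 + n * p ∧ IsCyclic (G ⧸ commutator G) ∧
      (commutator G).index = p := by
    intro h
    have he1 : e = 1 := by
      rw [h] at hte
      exact Nat.eq_of_mul_eq_mul_left (show 0 < p - 1 by omega) (by rw [hte, mul_one])
    have h1 := Cfsg.Lib.Block.PS.index_commutator_of_eq_one hx hC P hP (he.trans he1)
    refine ⟨?_, isCyclic_of_prime_card (p := p) h1, h1⟩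
    have h2 := (commutator G).card_mul_index
    rw [h1, hG, he1, mul_one, mul_comm] at h2
    exact Nat.eq_of_mul_eq_mul_left hp.pos h2
  have hle : t < p - 1 → (P : Subgroup G) ≤ commutator G := fun h =>
    Cfsg.Lib.Block.PS.le_commutator P hP (by
      rw [he]; intro e1; rw [e1, mul_one] at hte; omega)
  have hB : t < p - 1 → derivedSeries G 2 ≠ derivedSeries G 1 →
      Nat.card (derivedSeries G 2) = 1 + n * p ∧ Nat.card (commutator G) = p * (1 + n * p) := by
    intro h hne
    have hPG := hle h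
    set D := derivedSeries G 2 with hD
    have hDG : D ≤ commutator G := by
      rw [← hd1]; exact derivedSeries_antitone G (by norm_num)
    have h46 := Cfsg.Agent.S4496.result p hp x hx hC D
    have hDp : ¬ p ∣ Nat.card D := fun h => hne (le_antisymm (hd1 ▸ hDG) (hd1 ▸ h46.1 h))
    obtain ⟨-, -, hxo, hxc⟩ := h46.2 hDp
    have hxG : x ∈ commutator G := hPG (hPx ▸ Subgroup.mem_zpowers x)
    -- `G' = P D`
    have h1 : commutator G = (P : Subgroup G) ⊔ D := by
      refine le_antisymm (fun g hg => ?_) (sup_le hPG hDG)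
      have h2 : (g : G ⧸ D) ∈ Subgroup.zpowers (x : G ⧸ D) := by
        rw [← hxc, Subgroup.mem_centralizer_singleton_iff, ← QuotientGroup.mk_mul,
          ← QuotientGroup.mk_mul, QuotientGroup.eq]
        have h3 : x⁻¹ * g⁻¹ * x⁻¹⁻¹ * g⁻¹⁻¹ ∈ D := by
          rw [hD, derivedSeries_succ, hd1]
          exact Subgroup.commutator_mem_commutator (inv_mem hxG) (inv_mem hg)
        simpa [mul_assoc] using h3
      obtain ⟨k, hk⟩ := h2
      have h4 : (x ^ k)⁻¹ * g ∈ D := by
        rw [← QuotientGroup.eq]; exact hk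
      have h5 : g = x ^ k * ((x ^ k)⁻¹ * g) := by group
      rw [h5]
      exact Subgroup.mul_mem_sup (hPx ▸ Subgroup.zpow_mem_zpowers x k) h4
    have h2 : Nat.card (commutator G) = p * Nat.card D := by
      have h6 := Subgroup.relIndex_mul_relIndex ⊥ D (commutator G) bot_le hDG
      rw [Subgroup.relIndex_bot_left, Subgroup.relIndex_bot_left] at h6
      rw [← h6, h1, Subgroup.relIndex_sup_right, ← Subgroup.inf_relIndex_right,
        Cfsg.Lib.Block.PS.inf_eq_bot_of_not_dvd hP hDp, Subgroup.relIndex_bot_left, hP, mul_comm]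
    -- `G = N D`
    have h3 : Subgroup.normalizer ((P : Subgroup G) : Set G) ⊔ D = ⊤ := by
      have hF := Sylow.normalizer_sup_eq_top' P hPG
      have h0 : (Subgroup.normalizer ((P : Subgroup G) : Set G) ⊔ commutator G : Subgroup G) = ⊤ :=
        hF
      rw [h1, ← sup_assoc, sup_eq_left.2 Subgroup.le_normalizer] at h0
      exact h0
    have h4 : D.index = p * e := by
      rw [← Subgroup.relIndex_top_right, ← h3, Subgroup.relIndex_sup_right,
        ← Subgroup.inf_relIndex_right, Cfsg.Lib.Block.PS.inf_normalizer_eq_bot hP hCP D hDp,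
        Subgroup.relIndex_bot_left, hN]
    have h5 : Nat.card D = 1 + n * p := by
      have h6 := D.card_mul_index
      rw [h4, hG, mul_comm] at h6
      exact Nat.eq_of_mul_eq_mul_left (Nat.mul_pos hp.pos he0) h6
    exact ⟨h5, by rw [h2, h5]⟩
  refine ⟨⟨?_, ?_⟩, hA, hB⟩
  · rintro ⟨S, hSn, hS⟩
    rcases htle.eq_or_lt with h | h
    · exact Or.inl h
    refine Or.inr ⟨h, fun hne => ?_⟩
    have hSp : ¬ p ∣ Nat.card S := hS ▸ hnp
    set N := Subgroup.normalizer ((P : Subgroup G) : Set G) with hNdef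
    have h3 : N ⊔ S = ⊤ := by
      refine Subgroup.eq_top_of_card_eq _ ?_
      have h6 := Subgroup.relIndex_mul_relIndex ⊥ S (N ⊔ S) bot_le le_sup_right
      rw [Subgroup.relIndex_bot_left, Subgroup.relIndex_bot_left, Subgroup.relIndex_sup_right,
        ← Subgroup.inf_relIndex_right, Cfsg.Lib.Block.PS.inf_normalizer_eq_bot hP hCP S hSp,
        Subgroup.relIndex_bot_left, hN, hS] at h6
      rw [← h6, hG, mul_comm]
    -- `G' ≤ P S`
    have hnorm : ((P : Subgroup G) ⊔ S).Normal := by
      rw [← Subgroup.normalizer_eq_top_iff, eq_top_iff, ← h3]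
      refine sup_le (fun g hg => ?_) (le_sup_right.trans Subgroup.le_normalizer)
      rw [← Subgroup.conjAct_pointwise_smul_iff, Subgroup.smul_sup,
        Subgroup.conjAct_pointwise_smul_iff.2 hg, Subgroup.Normal.conjAct hSn]
    have h4 : commutator G ≤ (P : Subgroup G) ⊔ S :=
      (Cfsg.Agent.S4496.result p hp x hx hC _).1
        ((dvd_of_eq hP.symm).trans (Subgroup.card_dvd_of_le le_sup_left))
    have h5 : derivedSeries G 2 ≤ S := by
      rw [derivedSeries_succ, hd1, Subgroup.commutator_le]
      intro a ha b hb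
      have ha' : a ∈ (((P : Subgroup G) ⊔ S : Subgroup G) : Set G) := h4 ha
      have hb' : b ∈ (((P : Subgroup G) ⊔ S : Subgroup G) : Set G) := h4 hb
      rw [Subgroup.mul_normal] at ha' hb'
      obtain ⟨a1, ha1, a2, ha2, rfl⟩ := ha'
      obtain ⟨b1, hb1, b2, hb2, rfl⟩ := hb'
      rw [← QuotientGroup.eq_one_iff]
      change QuotientGroup.mk' S _ = 1
      have hc : a1 * b1 = b1 * a1 :=
        Cfsg.Lib.Block.PS.le_centralizer_of_card hP hb1 a1 ha1
      rw [map_commutatorElement, commutatorElement_eq_one_iff_mul_comm]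
      simp only [QuotientGroup.mk'_apply]
      rw [QuotientGroup.mk_mul_of_mem a1 ha2, QuotientGroup.mk_mul_of_mem b1 hb2,
        ← QuotientGroup.mk_mul, hc, QuotientGroup.mk_mul]
    rw [hne, hd1] at h5
    exact hSp ((dvd_of_eq hP.symm).trans (Subgroup.card_dvd_of_le ((hle h).trans h5)))
  · rintro (h | ⟨h, hne⟩)
    · exact ⟨_, inferInstance, (hA h).1⟩
    · exact ⟨_, inferInstance, (hB h hne).1⟩

end Cfsg.Agent.S4509
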