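import Cfsg.Statements.S4513
import Cfsg.Agent.Block.GenDec

set_option autoImplicit false
open Cfsg

namespace Cfsg.Agent.S4513

open Cfsg.Lib.Char Cfsg.Lib.Block

open scoped ComplexConjugate
open Cfsg.Lib.Block.Pair

/-- Blocks of defect one for p = 2. Let M be a maximal ideal of the algebraic integers containing 2, B a 2-block of the finite group G whose defect group is the subgroup generated by an involution x, C = C_G(x), b a block of C inducing B and θ a member of b taking the same value at x as at 1 (there is exactly one). Then B consists of exactly two irreducible characters, which agree on every element of odd order, and they can be labelled χ₁, χ₂ with signs ε₁, ε₂ = ±1, ε₁ε₂ = −1, such that χᵢ(x y) = εᵢ θ(y) for every element y of C of odd order. -/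
theorem result {G : Type*} [Group G] [Finite G] (M : Ideal Cfsg.AlgInt) (hM : Cfsg.IsPModular 2 M) (x : G) (hx : orderOf x = 2)
    (B : Set (Cfsg.IrrCharacter G)) (hB : Cfsg.IsPBlock M B) (hBD : Cfsg.IsDefectGroup 2 M B (Subgroup.zpowers x))
    (b : Set (Cfsg.IrrCharacter ↥(Subgroup.centralizer ({x} : Set G)))) (hb : Cfsg.IsInducedBlock M (Subgroup.centralizer ({x} : Set G)) b B)
    (θ : Cfsg.IrrCharacter ↥(Subgroup.centralizer ({x} : Set G))) (hθ : θ ∈ b)
    (hθx : ∀ z : ↥(Subgroup.centralizer ({x} : Set G)), (z : G) = x → (θ : ↥(Subgroup.centralizer ({x} : Set G)) → ℂ) z = (θ : ↥(Subgroup.centralizer ({x} : Set G)) → ℂ) 1) :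
    Nat.card B = 2 ∧ (∀ χ ∈ B, ∀ ψ ∈ B, ∀ g : G, ¬ 2 ∣ orderOf g → (χ : G → ℂ) g = (ψ : G → ℂ) g) ∧
      ∃ χ₁ ∈ B, ∃ χ₂ ∈ B, χ₁ ≠ χ₂ ∧ ∃ ε₁ ε₂ : ℤ, (ε₁ = 1 ∨ ε₁ = -1) ∧ (ε₂ = 1 ∨ ε₂ = -1) ∧ ε₁ * ε₂ = -1 ∧
        ∀ y : ↥(Subgroup.centralizer ({x} : Set G)), ¬ 2 ∣ orderOf y →
          (χ₁ : G → ℂ) (x * y) = (ε₁ : ℂ) * (θ : ↥(Subgroup.centralizer ({x} : Set G)) → ℂ) y ∧ (χ₂ : G → ℂ) (x * y) = (ε₂ : ℂ) * (θ : ↥(Subgroup.centralizer ({x} : Set G)) → ℂ) y := by
  classical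
  have := Fintype.ofFinite G
  have := charP_kM hM
  obtain ⟨e, h⟩ := exists_isMax_eB hM hB hBD
  have hx1 : x ≠ 1 := fun h0 => by simp [h0] at hx
  have hx2 : x ^ 2 = 1 := hx ▸ pow_orderOf_eq_one x
  have hxP := Subgroup.mem_zpowers x
  have hmem : ∀ y ∈ Subgroup.zpowers x, y = 1 ∨ y = x := fun y hy => by
    rw [mem_zpowers_iff_mem_range_orderOf, hx] at hy
    obtain ⟨k, hk, rfl⟩ := Finset.mem_image.1 hy
    have := Finset.mem_range.1 hk
    interval_cases k <;> simp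
  have hc : ∀ g : G, g * x * g⁻¹ ∈ Subgroup.zpowers x → g * x * g⁻¹ = x := fun g hg =>
    (hmem _ hg).resolve_left fun h0 => hx1 (by simpa using h0)
  have hab : Subgroup.zpowers x ≤ Subgroup.centralizer (Subgroup.zpowers x : Set G) := by
    rw [centralizer_zpowers_eq, Subgroup.zpowers_le]; exact cent_self_mem rfl
  have hT : Subgroup.normalizer (Subgroup.zpowers x : Set G) ⊓ stab e ≤
      Subgroup.centralizer (Subgroup.zpowers x : Set G) := fun t ht => by
    rw [centralizer_zpowers_eq, Subgroup.mem_centralizer_singleton_iff, ← mul_inv_eq_iff_eq_mul]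
    exact hc t ((Subgroup.mem_normalizer_iff.1 ht.1 x).1 hxP)
  have hk : Nat.card B = 2 := by rw [card_eq_card_nilp hM h hab hT hB, Nat.card_zpowers, hx]
  have hl := blockRank_subBlk_nilp hM h hab hT hxP
  obtain rfl := eq_subBlk_of_isInducedBlock hM h hB hxP hc hb
  have hθ' := pRegularPart_eq_posGen_of_le_center hM hb.1 (isDefectGroup_subBlk_of_le hM h hxP
    (le_cent_of_abelian hab hxP)) (fun z hz => by
      rcases hmem z hz with h0 | h0
      · rw [show z = 1 from Subtype.ext h0]; exact one_mem _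
      · rw [show z = ⟨x, cent_self_mem rfl⟩ from Subtype.ext h0]; exact cent_mem_center rfl) hθ
  choose n hn using fun χ : IrrCharacter G =>
    exists_int_cA_of_sq hM h hxP hl rfl hx2 χ.2.isGeneralizedCharacter
  have hn1 : ∀ χ ∈ B, n χ = 1 ∨ n χ = -1 := fun χ hχ => by
    have h1 := cA_mul_conj_nilp hM h hab hT hB hχ hxP
    rw [hn, map_intCast] at h1
    exact Int.eq_one_or_neg_one_of_mul_eq_one (by exact_mod_cast h1)
  have hval : ∀ χ ∈ B, ∀ y : Subgroup.centralizer ({x} : Set G), ¬ 2 ∣ orderOf y →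
      (χ : G → ℂ) (x * y) = n χ * (θ : _ → ℂ) y := fun χ hχ y hy => by
    rw [apply_mul_eq_subRes hM h hB hxP hc (inSpan_irr hχ) y hy, subRes_eq_cA_smul hM h hxP hl, hn,
      phiA, ← hθ', Pi.smul_apply, pRegularPart_of_regular 2 _ hy, smul_eq_mul]
  refine ⟨hk, fun χ hχ ψ hψ g hg => ?_, ?_⟩
  · rw [← pRegularPart_of_regular 2 (χ : G → ℂ) hg, ← pRegularPart_of_regular 2 (ψ : G → ℂ) hg,
      pRegularPart_eq_posGen_nilp hM h hab hT hB hχ, pRegularPart_eq_posGen_nilp hM h hab hT hB hψ]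
  rw [← card_irrFin, Finset.card_eq_two] at hk
  obtain ⟨χ₁, χ₂, hne, h12⟩ := hk
  have h1 : χ₁ ∈ B := mem_irrFin.1 (by simp [h12])
  have h2 : χ₂ ∈ B := mem_irrFin.1 (by simp [h12])
  have h3 := sum_cA_mul_conj_of_not_ef hM h (one_mem _)
    (blockRank_subBlk_nilp hM h hab hT (one_mem _)) hB hxP fun h0 => hx1 (ef_one_left h0)
  rw [h12, Finset.sum_pair hne, cA_one_nilp hM h hab hT hB h1, cA_one_nilp hM h hab hT hB h2,
    hn, hn, map_one, mul_one, mul_one] at h3
  have h4 : n χ₁ + n χ₂ = 0 := by exact_mod_cast h3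
  refine ⟨χ₁, h1, χ₂, h2, hne, n χ₁, n χ₂, hn1 _ h1, hn1 _ h2, ?_,
    fun y hy => ⟨hval _ h1 y hy, hval _ h2 y hy⟩⟩
  rcases hn1 _ h1 with h5 | h5 <;> rw [h5] at h4 ⊢ <;> omega

end Cfsg.Agent.S4513
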