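import Cfsg.Statements.S4633
import Cfsg.Agent.Block.PairPrinc

set_option autoImplicit false
open Cfsg

namespace Cfsg.Agent.S4633

open Cfsg.Lib.Block Cfsg.Lib.Block.Pair Subgroup
open scoped MonoidAlgebra

/-- Let B be a block of the finite group G relative to a maximal ideal M of the algebraic integers containing the prime p, with a nontrivial cyclic defect group P. Let c be a block of C_G(P) inducing B and T the stabilizer of c in N_G(P) (the elements of N_G(P) conjugating c to itself); T contains C_G(P). Then T/C_G(P) is cyclic of order dividing p − 1, and it acts freely on the non-identity elements of P: an element of T fixing some non-identity element of P under conjugation lies in C_G(P). -/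
theorem result {G : Type*} [Group G] [Finite G] (p : ℕ) [Fact p.Prime] (M : Ideal Cfsg.AlgInt) (hM : Cfsg.IsPModular p M) (B : Set (Cfsg.IrrCharacter G)) (hB : Cfsg.IsPBlock M B) (P : Subgroup G) (hPD : Cfsg.IsDefectGroup p M B P) (hP1 : P ≠ ⊥) (hcyc : IsCyclic P) (c : Set (Cfsg.IrrCharacter (Subgroup.centralizer (P : Set G)))) (hc : Cfsg.IsInducedBlock M (Subgroup.centralizer (P : Set G)) c B) (T : Subgroup G) (hT : ∀ g : G, g ∈ T ↔ (g ∈ Subgroup.normalizer (P : Set G) ∧ Cfsg.StabilizesBlock (Subgroup.centralizer (P : Set G)) c g)) [hn : ((Subgroup.centralizer (P : Set G)).subgroupOf T).Normal] : IsCyclic (T ⧸ (Subgroup.centralizer (P : Set G)).subgroupOf T) ∧ (Subgroup.centralizer (P : Set G)).relIndex T ∣ p - 1 ∧ ∀ g ∈ T, ∀ x ∈ P, x ≠ 1 → g * x * g⁻¹ = x → g ∈ Subgroup.centralizer (P : Set G) := by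
  have := charP_kM hM
  have hm := isMax_of_isInducedBlock hM hPD hc
  obtain rfl := eq_normalizer_inf_stab hM hc.1 hT
  have h1 := fun g hg x hx => hm.mem_centralizer_of_isCyclic (g := g) (x := x) hg hx
  obtain ⟨φ, hφ⟩ := exists_hom_units_of_isCyclic hm.isPGroup hP1 inf_le_left h1
  have h2 := QuotientGroup.kerLift_injective φ
  refine ⟨?_, ?_, h1⟩
  · exact isCyclic_of_injective
      ((QuotientGroup.kerLift φ).comp (QuotientGroup.quotientMulEquivOfEq hφ.symm).toMonoidHom)
      (h2.comp (QuotientGroup.quotientMulEquivOfEq hφ.symm).injective)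
  · have h3 := card_dvd_of_injective _ h2
    rwa [hφ, Nat.card_eq_fintype_card (α := (ZMod p)ˣ), ZMod.card_units] at h3

end Cfsg.Agent.S4633
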