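import Cfsg.Statements.S4634
import Cfsg.Agent.Block.CycPerf
import Cfsg.Agent.S4652

set_option autoImplicit false
open Cfsg

namespace Cfsg.Agent.S4634

open Cfsg.Lib.Char Cfsg.Lib.Block Cfsg.Lib.Block.CD Cfsg.Lib.Block.Pair

theorem sum_three_le {F : Type*} [Group F] [Finite F] {a b c : IrrCharacter F} (hab : a ≠ b)
    (hac : a ≠ c) (hbc : b ≠ c) {x y z : ℕ} (hx : (a : F → ℂ) 1 = x) (hy : (b : F → ℂ) 1 = y)
    (hz : (c : F → ℂ) 1 = z) : x ^ 2 + y ^ 2 + z ^ 2 ≤ Nat.card F := by
  classical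
  choose d hd using fun χ : IrrCharacter F => χ.2.isCharacter.exists_nat_degree
  have h := sum_irr_degree_sq (G := F)
  simp only [hd] at h hx hy hz
  have h' : ∑ χ : IrrCharacter F, d χ ^ 2 = Nat.card F := by exact_mod_cast h
  have h1 : ∑ χ ∈ ({a, b, c} : Finset (IrrCharacter F)), d χ ^ 2 ≤ ∑ χ, d χ ^ 2 :=
    Finset.sum_le_sum_of_subset (Finset.subset_univ _)
  rw [Finset.sum_insert (by simp [hab, hac]), Finset.sum_pair hbc, h'] at h1
  rw [← Nat.cast_injective (R := ℂ) hx, ← Nat.cast_injective (R := ℂ) hy,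
    ← Nat.cast_injective (R := ℂ) hz]
  omega

/-- Let B be a block of the finite group G relative to a maximal ideal M of the algebraic integers containing the prime p, with a nontrivial cyclic defect group P, let c be a block of C_G(P) inducing B, T the stabilizer of c in N_G(P) and e the index of C_G(P) in T. Let F be any finite group of order #P · e having a cyclic subgroup Q of order #P that is its own centralizer (F is then the semidirect product of Q by a cyclic group of order e acting faithfully). Then there is a perfect isometry from the set of all irreducible characters of F onto B whose signs agree on all the characters of F that do not contain Q in their kernel. -/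
theorem result {G : Type*} [Group G] [Finite G] (p : ℕ) [Fact p.Prime] (M : Ideal Cfsg.AlgInt) (hM : Cfsg.IsPModular p M) (B : Set (Cfsg.IrrCharacter G)) (hB : Cfsg.IsPBlock M B) (P : Subgroup G) (hPD : Cfsg.IsDefectGroup p M B P) (hP1 : P ≠ ⊥) (hcyc : IsCyclic P) (c : Set (Cfsg.IrrCharacter (Subgroup.centralizer (P : Set G)))) (hc : Cfsg.IsInducedBlock M (Subgroup.centralizer (P : Set G)) c B) (T : Subgroup G) (hT : ∀ g : G, g ∈ T ↔ (g ∈ Subgroup.normalizer (P : Set G) ∧ Cfsg.StabilizesBlock (Subgroup.centralizer (P : Set G)) c g)) (e : ℕ) (he : (Subgroup.centralizer (P : Set G)).relIndex T = e) (F : Type*) [Group F] [Finite F] (hF : Nat.card F = Nat.card P * e) (Q : Subgroup F) (hQ : IsCyclic Q) (hQcard : Nat.card Q = Nat.card P) (hQC : Subgroup.centralizer (Q : Set F) = Q) : ∃ (I : Cfsg.IrrCharacter F → Cfsg.IrrCharacter G) (ε : Cfsg.IrrCharacter F → ℤ), Cfsg.IsPerfectIsometry p M (Set.univ : Set (Cfsg.IrrCharacter F)) B I ε ∧ ∀ η η' : Cfsg.IrrCharacter F, (∃ x ∈ Q,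 (η : F → ℂ) x ≠ (η : F → ℂ) 1) → (∃ x ∈ Q, (η' : F → ℂ) x ≠ (η' : F → ℂ) 1) → ε η = ε η' := by
  classical
  have hp : p.Prime := Fact.out
  have hl : blockRank p B = e := by
    rw [blockRank_eq_relIndex hM hPD hP1 hc, ← eq_normalizer_inf_stab hM hc.1 hT, he]
  have hdvd : e ∣ p - 1 := hl ▸ (blockRank_dvd_and_card hM hB hPD hP1).1
  have hp2 := hp.two_le
  have he0 : 0 < e := Nat.pos_of_dvd_of_pos hdvd (by omega)
  have hele : e ≤ p - 1 := Nat.le_of_dvd (by omega) hdvd
  have hpe : ¬ p ∣ e := fun h => by have := Nat.le_of_dvd he0 h; omega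
  obtain ⟨d, hd⟩ := IsPGroup.iff_card.1 (defect_isPGroup hPD)
  have hQp : IsPGroup p Q := IsPGroup.of_card (hQcard.trans hd)
  have hidx : Q.index = e := by
    have := Q.card_mul_index
    rw [hF, hQcard] at this
    exact Nat.eq_of_mul_eq_mul_left Nat.card_pos this
  let S : Sylow p F := hQp.toSylow (by rwa [hidx])
  have hS : (S : Subgroup F) = Q := rfl
  have hN : Q.Normal := by
    have h1 : Nat.card (Sylow p F) ∣ e := hidx ▸ hS ▸ S.card_dvd_index
    have h2 := card_sylow_modEq_one p F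
    have h3 : Nat.card (Sylow p F) = 1 :=
      Nat.ModEq.eq_of_lt_of_lt h2 (by have := Nat.le_of_dvd he0 h1; omega) hp.one_lt
    have : Subsingleton (Sylow p F) := (Nat.card_eq_one_iff_unique.1 h3).1
    exact hS ▸ Sylow.normal_of_subsingleton S
  have hU : principalBlock M F = Set.univ :=
    block_eq_univ_of_centralizer_le hM isPBlock_principalBlock hN hQp hQC.le
  have hUb : IsPBlock M (Set.univ : Set (IrrCharacter F)) := hU ▸ isPBlock_principalBlock
  have := Fintype.ofFinite F
  have hQD : IsDefectGroup p M (Set.univ : Set (IrrCharacter F)) Q :=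
    hU ▸ (Cfsg.Agent.S4652.result p M hM Q).2 ⟨S, hS⟩
  have hQ1 : Q ≠ ⊥ := by
    intro h
    apply hP1
    rw [← Subgroup.card_eq_one] at h ⊢
    rw [← h, hQcard]
  -- the root
  have hCp : IsPGroup p (Subgroup.centralizer (Q : Set F)) := by rw [hQC]; exact hQp
  have hb : principalBlock M (Subgroup.centralizer (Q : Set F)) = Set.univ :=
    block_eq_univ_of_centralizer_le hM isPBlock_principalBlock (Q := ⊤) inferInstance
      (hCp.to_subgroup ⊤) le_top
  have hbb : IsPBlock M (Set.univ : Set (IrrCharacter (Subgroup.centralizer (Q : Set F)))) :=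
    hb ▸ isPBlock_principalBlock
  obtain ⟨B', hB'⟩ := inducedBlockDefined_centralizer hM hQp hbb
  obtain rfl : B' = Set.univ := block_eq_univ_of_centralizer_le hM hB'.2.1 hN hQp hQC.le
  have hf := isMax_of_isInducedBlock hM hQD hB'
  have hCN : (Subgroup.centralizer (Q : Set F)).Normal := by rw [hQC]; exact hN
  have htop : (⊤ : Subgroup F) = Subgroup.normalizer (Q : Set F) ⊓ stab (hat M (Subgroup.centralizer (Q : Set F)) Set.univ) :=
    eq_normalizer_inf_stab hM hbb fun y => by
      simp only [Subgroup.mem_top, true_iff]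
      refine ⟨Subgroup.normalizer_eq_top Q ▸ Subgroup.mem_top y, ?_⟩
      rw [stabilizesBlock_iff_mem_stabB, mem_stabB_iff_forall]
      exact fun _ _ => Set.mem_univ _
  obtain ⟨hA, hcard⟩ := abFree_of_isCyclic hM hUb hQD hQ1 hf
  have hce : Nat.card (autT Q (hat M (Subgroup.centralizer (Q : Set F)) Set.univ)) = e := by
    rw [card_autT, ← htop, hQC, Subgroup.relIndex_top_right, hidx]
  have := Fintype.ofFinite (autT Q (hat M (Subgroup.centralizer (Q : Set F)) Set.univ))
  obtain ⟨X, a, ε', μ, I, δ, ε, hD, hI, hδ⟩ := exists_perfect_of_isCyclic hM hB hPD hP1 hUb hQD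
    (mulEquivOfCyclicCardEq hQcard) (by rw [← hcard, hce, hl]) hf
  refine ⟨I, δ, hI, ?_⟩
  have hsd : ∀ v : Q, v ≠ 1 → ∀ θ : F → ℂ, sd p M Q (hat M (Subgroup.centralizer (Q : Set F)) Set.univ) v θ = θ v := by
    intro v hv θ
    refine sd_eq_apply hM hf hA.ab v.2 ?_ θ
    have := freeAut_autT_iff.1 hA.free v v.2 (fun h => hv (Subtype.ext h))
    rwa [← htop, top_inf_eq, hQC] at this
  have := Fintype.ofFinite Q
  have hq : p ≤ Nat.card Q := by
    rw [hQcard, hd]
    rcases d with _ | d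
    · exact absurd (Subgroup.card_eq_one.1 (by rw [hd, pow_zero])) hP1
    · exact Nat.le_self_pow (Nat.succ_ne_zero d) p
  have hsum : ∀ η : IrrCharacter F, (∃ x ∈ Q, (η : F → ℂ) x ≠ (η : F → ℂ) 1) →
      (η : F → ℂ) 1 + ∑ v ∈ Finset.univ.erase (1 : Q), (η : F → ℂ) v = 0 := by
    intro η hη
    have h1 : classInner (fun n : Q => (η : F → ℂ) n) (fun _ => 1) = 0 := by
      by_contra h
      obtain ⟨x, hx, hx'⟩ := hη
      exact hx' ((lies_over_one_iff η.2).1 h x hx)
    rw [classInner_one_right] at h1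
    have h2 := (mul_eq_zero.1 h1).resolve_left (inv_ne_zero (card_ne_zero Q))
    rwa [← Finset.add_sum_erase _ _ (Finset.mem_univ (1 : Q))] at h2
  have hX : ∀ η : IrrCharacter F, (∃ x ∈ Q, (η : F → ℂ) x ≠ (η : F → ℂ) 1) → η ∈ X →
      (η : F → ℂ) 1 = (Nat.card Q - 1 : ℕ) := by
    intro η hη hηX
    have h1 := hsum η hη
    rw [Finset.sum_congr rfl fun v hv => (hsd v (Finset.ne_of_mem_erase hv) _).symm.trans
        (hD.sd_X η hηX v (Finset.ne_of_mem_erase hv)),
      Finset.sum_const, Finset.card_erase_of_mem (Finset.mem_univ _), Finset.card_univ,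
      ← Nat.card_eq_fintype_card, nsmul_eq_mul] at h1
    obtain ⟨n, hn, hn'⟩ := η.2.exists_nat_degree_pos
    rcases hD.sign_X η hηX with h | h <;> rw [h] at h1
    · rw [hn'] at h1
      have : ((n + (Nat.card Q - 1) : ℕ) : ℂ) = 0 := by push_cast at h1 ⊢; linear_combination h1
      have : n + (Nat.card Q - 1) = 0 := by exact_mod_cast this
      omega
    · push_cast at h1; linear_combination h1
  have hY : ∀ η : IrrCharacter F, (∃ x ∈ Q, (η : F → ℂ) x ≠ (η : F → ℂ) 1) → η ∉ X →
      (η : F → ℂ) 1 = e := by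
    intro η hη hηX
    obtain ⟨l, hl1, rfl⟩ := ((hD.mem_iff η).1 (Set.mem_univ _)).resolve_left hηX
    have h1 := hsum _ hη
    rw [Finset.sum_congr rfl fun v hv => (hsd v (Finset.ne_of_mem_erase hv) _).symm.trans
        (hD.sd_mu l hl1 v (Finset.ne_of_mem_erase hv)),
      ← Finset.mul_sum] at h1
    have h2 := hA.free.classInner_os hA.comm (l := l) (m := 1) hl1
    rw [if_neg (fun h => h.ne_one hl1 rfl)] at h2
    simp only [MonoidHom.one_apply, Units.val_one] at h2
    rw [classInner_one_right] at h2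
    have h3 := (mul_eq_zero.1 h2).resolve_left (inv_ne_zero (card_ne_zero Q))
    rw [← Finset.add_sum_erase _ _ (Finset.mem_univ (1 : Q))] at h3
    have h4 : os (autT Q (hat M (Subgroup.centralizer (Q : Set F)) Set.univ)) l 1 = e := by
      simp [os, ← hce]
    rw [h4] at h3
    obtain ⟨n, hn, hn'⟩ := (μ l).2.exists_nat_degree_pos
    rcases hD.sign with h | h <;> rw [h] at h1
    · push_cast at h1; linear_combination h1 - h3
    · rw [hn'] at h1
      have : ((n + e : ℕ) : ℂ) = 0 := by push_cast at h1 ⊢; linear_combination h1 + h3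
      have : n + e = 0 := by exact_mod_cast this
      omega
  have key : ∀ η η' : IrrCharacter F, (∃ x ∈ Q, (η : F → ℂ) x ≠ (η : F → ℂ) 1) →
      (∃ x ∈ Q, (η' : F → ℂ) x ≠ (η' : F → ℂ) 1) → η ∈ X → η = η' := by
    intro η η' hη hη' hηX
    by_contra hne
    have hne1 : ∀ ζ : IrrCharacter F, (∃ x ∈ Q, (ζ : F → ℂ) x ≠ (ζ : F → ℂ) 1) →
        ζ ≠ ⟨fun _ => 1, isIrrCharacter_one⟩ := by
      rintro ζ ⟨x, -, hx⟩ rfl
      exact hx rfl
    obtain ⟨n, hn, hen⟩ : ∃ n : ℕ, (η' : F → ℂ) 1 = n ∧ e ≤ n := by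
      by_cases h : η' ∈ X
      · exact ⟨_, hX η' hη' h, by omega⟩
      · exact ⟨_, hY η' hη' h, le_rfl⟩
    have h1 := sum_three_le hne (hne1 η hη) (hne1 η' hη') (hX η hη hηX) hn (z := 1) (by simp)
    rw [hF, ← hQcard] at h1
    obtain ⟨s, hs⟩ : ∃ s, Nat.card Q = s + 1 := ⟨Nat.card Q - 1, by omega⟩
    rw [hs, Nat.add_sub_cancel] at h1
    have h2 : e ≤ s := by omega
    nlinarith
  intro η η' hη hη'
  by_cases h : η ∈ X
  · rw [key η η' hη hη' h]
  · by_cases h' : η' ∈ X
    · rw [key η' η hη' hη h']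
    · rw [hδ η h, hδ η' h']

end Cfsg.Agent.S4634
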