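import Cfsg.Statements.S4635
import Cfsg.Agent.Block.CycPerf

set_option autoImplicit false
open Cfsg

namespace Cfsg.Agent.S4635

open Cfsg.Lib.Char Cfsg.Lib.Block Cfsg.Lib.Block.CD Cfsg.Lib.Block.Pair

/-- Let B be a block of the finite group G relative to a maximal ideal M of the algebraic integers containing the prime p, with a nontrivial cyclic defect group P; let Z be the subgroup of order p of P and H = N_G(Z), which contains N_G(P). Let c be the block of H with defect group P that induces B. Then B and c contain the same number of irreducible characters, have the same p-regular rank, and there is a perfect isometry from c onto B. -/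
theorem result {G : Type*} [Group G] [Finite G] (p : ℕ) [Fact p.Prime] (M : Ideal Cfsg.AlgInt) (hM : Cfsg.IsPModular p M) (B : Set (Cfsg.IrrCharacter G)) (hB : Cfsg.IsPBlock M B) (P : Subgroup G) (hPD : Cfsg.IsDefectGroup p M B P) (hP1 : P ≠ ⊥) (hcyc : IsCyclic P) (Z : Subgroup G) (hZ : Z ≤ P) (hZcard : Nat.card Z = p) (H : Subgroup G) (hH : H = Subgroup.normalizer (Z : Set G)) (c : Set (Cfsg.IrrCharacter H)) (hcD : Cfsg.IsDefectGroup p M c (P.subgroupOf H)) (hc : Cfsg.IsInducedBlock M H c B) : Nat.card c = Nat.card B ∧ Cfsg.blockRank p c = Cfsg.blockRank p B ∧ ∃ (I : Cfsg.IrrCharacter H → Cfsg.IrrCharacter G) (ε : Cfsg.IrrCharacter H → ℤ), Cfsg.IsPerfectIsometry p M c B I ε := by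
  subst hH
  have hN : Subgroup.normalizer (P : Set G) ≤ Subgroup.normalizer (Z : Set G) := by
    have hmem : ∀ x, x ∈ Z ↔ x ∈ P ∧ x ^ p = 1 := by
      intro x
      refine ⟨fun hx => ⟨hZ hx, ?_⟩, fun hx => ?_⟩
      · have := pow_card_eq_one' (G := Z) (x := ⟨x, hx⟩)
        rw [hZcard] at this
        exact congrArg Subtype.val this
      · classical
        have := Fintype.ofFinite P
        have h1 := IsCyclic.card_pow_eq_one_le (α := P) (n := p) (Fact.out : p.Prime).pos
        have h2 : (Finset.univ.filter fun a : P => (a : G) ∈ Z) ⊆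
            Finset.univ.filter fun a : P => a ^ p = 1 := by
          intro a ha
          simp only [Finset.mem_filter, Finset.mem_univ, true_and] at ha ⊢
          have := pow_card_eq_one' (G := Z) (x := ⟨a, ha⟩)
          rw [hZcard] at this
          have h6 : (a : G) ^ p = 1 := congrArg Subtype.val this
          exact Subtype.ext h6
        have h3 : (Finset.univ.filter fun a : P => (a : G) ∈ Z).card = p := by
          rw [← Fintype.card_subtype, ← Nat.card_eq_fintype_card, ← hZcard]
          exact Nat.card_congr (Subgroup.subgroupOfEquivOfLe hZ).toEquiv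
        have h4 := Finset.eq_of_subset_of_card_le h2 (by rw [h3]; exact h1)
        have h5 : (⟨x, hx.1⟩ : P) ∈ Finset.univ.filter fun a : P => a ^ p = 1 :=
          Finset.mem_filter.2 ⟨Finset.mem_univ _, Subtype.ext hx.2⟩
        rw [← h4] at h5
        exact (Finset.mem_filter.1 h5).2
    intro g hg
    rw [Subgroup.mem_normalizer_iff] at hg ⊢
    intro x
    rw [hmem, hmem, hg x, conj_pow, conj_eq_one_iff]
  have hPH : P ≤ Subgroup.normalizer (Z : Set G) := Subgroup.le_normalizer.trans hN
  have hl := blockRank_eq_of_isInducedBlock hM hPD hP1 hN hcD hc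
  let φ := Subgroup.subgroupOfEquivOfLe hPH
  have : IsCyclic (P.subgroupOf (Subgroup.normalizer (Z : Set G))) :=
    isCyclic_of_surjective φ.symm φ.symm.surjective
  have hcard := Nat.card_congr φ.toEquiv
  have hQ1 : P.subgroupOf (Subgroup.normalizer (Z : Set G)) ≠ ⊥ := by
    intro h
    apply hP1
    rw [← Subgroup.card_eq_one] at h ⊢
    rw [← h, hcard]
  refine ⟨?_, hl, ?_⟩
  · rw [(blockRank_dvd_and_card hM hB hPD hP1).2, (blockRank_dvd_and_card hM hc.1 hcD hQ1).2, hl,
      hcard]
  · obtain ⟨f, hf⟩ := exists_isMax_eB hM hc.1 hcD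
    have := Fintype.ofFinite (autT (P.subgroupOf (Subgroup.normalizer (Z : Set G))) f)
    obtain ⟨-, -, -, -, I, δ, -, -, hI, -⟩ :=
      exists_perfect_of_isCyclic hM hB hPD hP1 hc.1 hcD φ hl hf
    exact ⟨I, δ, hI⟩

end Cfsg.Agent.S4635
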