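import Cfsg.Statements.S4636

set_option autoImplicit false
open scoped Pointwise
open Cfsg

namespace Cfsg.Agent.S4636

theorem mem_of_pow_eq_one {G : Type*} [Group G] [Finite G] (p : ℕ) [hp : Fact p.Prime]
    (P : Subgroup G) (hcyc : IsCyclic P) (Z : Subgroup G) (hZ : Z ≤ P) (hZcard : Nat.card Z = p)
    (y : G) (hy : y ∈ P) (hyp : y ^ p = 1) : y ∈ Z := by
  classical
  haveI := Fintype.ofFinite P
  have h1 := IsCyclic.card_pow_eq_one_le (α := P) hp.out.pos
  have h2 : (Finset.univ.filter (fun a : P => (a : G) ∈ Z)) ⊆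
      Finset.univ.filter (fun a : P => a ^ p = 1) := by
    intro a ha
    simp only [Finset.mem_filter, Finset.mem_univ, true_and] at ha ⊢
    have : (⟨a, ha⟩ : Z) ^ p = 1 := by rw [← hZcard]; exact pow_card_eq_one'
    apply Subtype.ext
    simpa using congrArg Subtype.val this
  have h3 : (Finset.univ.filter (fun a : P => (a : G) ∈ Z)).card = p := by
    rw [← hZcard, ← Nat.card_congr (Subgroup.subgroupOfEquivOfLe hZ).toEquiv,
      Nat.card_eq_fintype_card, Fintype.card_subtype]
    rfl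
  have h4 := Finset.eq_of_subset_of_card_le h2 (by rw [h3]; exact h1)
  have h5 : (⟨y, hy⟩ : P) ∈ Finset.univ.filter (fun a : P => a ^ p = 1) := by
    simp only [Finset.mem_filter, Finset.mem_univ, true_and]
    exact Subtype.ext hyp
  rw [← h4] at h5
  simpa using h5

/-- Let P be a nontrivial cyclic p-subgroup of the finite group G and Z its subgroup of order p. For every x outside N_G(Z), P meets its conjugate xPx⁻¹ trivially; consequently N_G(Q) ≤ N_G(Z) for every nontrivial subgroup Q of P. -/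
theorem result {G : Type*} [Group G] [Finite G] (p : ℕ) [Fact p.Prime] (P : Subgroup G) (hP : IsPGroup p P) (hP1 : P ≠ ⊥) (hcyc : IsCyclic P) (Z : Subgroup G) (hZ : Z ≤ P) (hZcard : Nat.card Z = p) : (∀ x : G, x ∉ Subgroup.normalizer (Z : Set G) → P ⊓ MulAut.conj x • P = ⊥) ∧ ∀ Q : Subgroup G, Q ≤ P → Q ≠ ⊥ → Subgroup.normalizer (Q : Set G) ≤ Subgroup.normalizer (Z : Set G) := by
  have hp : p.Prime := Fact.out
  have key : ∀ x : G, x ∉ Subgroup.normalizer (Z : Set G) → P ⊓ MulAut.conj x • P = ⊥ := by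
    intro x hx
    by_contra hne
    apply hx
    obtain ⟨⟨w, hw⟩, hw1⟩ := (Subgroup.ne_bot_iff_exists_ne_one).1 hne
    have hw1' : w ≠ 1 := fun h => hw1 (Subtype.ext h)
    obtain ⟨k, hk⟩ : ∃ k, orderOf w = p ^ k := by
      obtain ⟨k, hk⟩ := (IsPGroup.iff_orderOf.1 hP) ⟨w, hw.1⟩
      exact ⟨k, by rw [← hk, Subgroup.orderOf_mk]⟩
    have hk0 : k ≠ 0 := by
      rintro rfl
      exact hw1' (by simpa using hk)
    have hdvd : p ∣ orderOf w := by rw [hk]; exact dvd_pow_self p hk0
    have hord : orderOf (w ^ (orderOf w / p)) = p :=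
      orderOf_pow_orderOf_div (orderOf_pos w).ne' hdvd
    set y := w ^ (orderOf w / p) with hy
    have hyin : y ∈ P ⊓ MulAut.conj x • P := Subgroup.pow_mem _ hw _
    have hyp : y ^ p = 1 := by rw [← hord]; exact pow_orderOf_eq_one y
    have hy1 : y ≠ 1 := by
      intro h; rw [h, orderOf_one] at hord; exact hp.one_lt.ne hord
    obtain ⟨y', hy'P, hy'⟩ := (Subgroup.mem_smul_pointwise_iff_exists _ _ _).1 hyin.2
    simp only [MulAut.smul_def, MulAut.conj_apply] at hy'
    have hy'p : y' ^ p = 1 := by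
      have : x * y' ^ p * x⁻¹ = 1 := by rw [← conj_pow, hy', hyp]
      simpa using this
    have hy'1 : y' ≠ 1 := by
      rintro rfl; apply hy1; rw [← hy']; simp
    have hyZ := mem_of_pow_eq_one p P hcyc Z hZ hZcard y hyin.1 hyp
    have hy'Z := mem_of_pow_eq_one p P hcyc Z hZ hZcard y' hy'P hy'p
    apply Subgroup.mem_normalizer_fintype
    intro n hn
    have := mem_zpowers_of_prime_card (G := Z) hZcard (g := ⟨y', hy'Z⟩) (g' := ⟨n, hn⟩)
      (fun h => hy'1 (congrArg Subtype.val h))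
    obtain ⟨m, hm⟩ := this
    have hm' : y' ^ m = n := by simpa using congrArg Subtype.val hm
    rw [← hm', ← conj_zpow, hy']
    exact Z.zpow_mem hyZ m
  refine ⟨key, fun Q hQ hQ1 g hg => ?_⟩
  by_contra hn
  have h1 := key g hn
  apply hQ1
  rw [eq_bot_iff, ← h1]
  intro q hq
  refine ⟨hQ hq, ?_⟩
  have hg' := (Subgroup.normalizer (Q : Set G)).inv_mem hg
  rw [Subgroup.mem_normalizer_iff] at hg'
  have := (hg' q).1 hq
  refine (Subgroup.mem_smul_pointwise_iff_exists _ _ _).2 ⟨_, hQ this, ?_⟩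
  simp [MulAut.smul_def, mul_assoc]

end Cfsg.Agent.S4636
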