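import Cfsg.Statements.S4637
import Cfsg.Agent.Block.DeltaP

set_option autoImplicit false
open Cfsg

namespace Cfsg.Agent.S4637

open Cfsg.Lib.Char Cfsg.Lib.Block

open Cfsg.Lib.Block.Pair

/-- Let B be a block of the finite group G relative to a maximal ideal M of the algebraic integers containing 2, with a Klein four defect group P. Let c be a block of C_G(P) inducing B, T the stabilizer of c in N_G(P) and e the index of C_G(P) in T (the inertial index). Then e is 1 or 3, B contains exactly four irreducible characters, and the 2-regular rank of B (its number of irreducible Brauer characters) equals e. -/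
theorem result {G : Type*} [Group G] [Finite G] (M : Ideal Cfsg.AlgInt) (hM : Cfsg.IsPModular 2 M) (B : Set (Cfsg.IrrCharacter G)) (hB : Cfsg.IsPBlock M B) (P : Subgroup G) (hPD : Cfsg.IsDefectGroup 2 M B P) (hV : IsKleinFour P) (c : Set (Cfsg.IrrCharacter (Subgroup.centralizer (P : Set G)))) (hc : Cfsg.IsInducedBlock M (Subgroup.centralizer (P : Set G)) c B) (T : Subgroup G) (hT : ∀ g : G, g ∈ T ↔ (g ∈ Subgroup.normalizer (P : Set G) ∧ Cfsg.StabilizesBlock (Subgroup.centralizer (P : Set G)) c g)) (e : ℕ) (he : (Subgroup.centralizer (P : Set G)).relIndex T = e) : (e = 1 ∨ e = 3) ∧ Nat.card B = 4 ∧ Cfsg.blockRank 2 B = e := by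
  have : Fact (Nat.Prime 2) := ⟨Nat.prime_two⟩
  have hmax := isMax_of_isInducedBlock hM hPD hc
  have he' : Nat.card (autT P (hat M _ c)) = e := by
    rw [card_autT, ← eq_normalizer_inf_stab hM hc.1 hT, he]
  have hab : IsMulCommutative P := ⟨⟨mul_comm_of_exponent_two hV.exponent_two⟩⟩
  have h4 := Princ.ncard_of_kleinFour hV.card_four IsKleinFour.mul_self
  have h1 := (abFree_of_ncard hM hB hmax hab h4).card_eq_div
  have h2 := card_autT_of_ncard hM hB hmax hab h4
  have h3 := blockRank_of_ncard hM hB hmax hab h4
  rw [h3, hV.card_four] at h1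
  rw [he'] at h1 h2 h3
  refine ⟨h2, ?_, h3⟩
  rcases h2 with rfl | rfl <;> exact h1

end Cfsg.Agent.S4637
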