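import Cfsg.Statements.S4638
import Cfsg.Agent.Block.DeltaP

set_option autoImplicit false
open Cfsg

namespace Cfsg.Agent.S4638

open Cfsg.Lib.Char Cfsg.Lib.Block

open Cfsg.Lib.Block.Pair

/-- Let B be a block of the finite group G relative to a maximal ideal M of the algebraic integers containing 2, with a Klein four defect group P, and let c be its Brauer correspondent: the block of N_G(P) with defect group P that induces B. Then there is a perfect isometry from c onto B. -/
theorem result {G : Type*} [Group G] [Finite G] (M : Ideal Cfsg.AlgInt) (hM : Cfsg.IsPModular 2 M) (B : Set (Cfsg.IrrCharacter G)) (hB : Cfsg.IsPBlock M B) (P : Subgroup G) (hPD : Cfsg.IsDefectGroup 2 M B P) (hV : IsKleinFour P) (c : Set (Cfsg.IrrCharacter (Subgroup.normalizer (P : Set G)))) (hcD : Cfsg.IsDefectGroup 2 M c (P.subgroupOf (Subgroup.normalizer (P : Set G)))) (hc : Cfsg.IsInducedBlock M (Subgroup.normalizer (P : Set G)) c B) : ∃ (I : Cfsg.IrrCharacter (Subgroup.normalizer (P : Set G)) → Cfsg.IrrCharacter G) (ε :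 Cfsg.IrrCharacter (Subgroup.normalizer (P : Set G)) → ℤ), Cfsg.IsPerfectIsometry 2 M c B I ε := by
  have : Fact (Nat.Prime 2) := ⟨Nat.prime_two⟩
  obtain ⟨f, h1, h2⟩ := exists_isMax_emb hM hPD Subgroup.le_normalizer
    (Subgroup.centralizer_le_normalizer _) hcD hc
  have key : ∀ {G : Type _} [Group G] [Finite G] {B : Set (IrrCharacter G)} {P : Subgroup G}
      {e : MonoidAlgebra (kM M) G} [Fintype (autT P e)], IsPBlock M B → IsKleinFour P →
      IsMax 2 ⊤ ⊤ (eB M B) P e → ∃ X a ε μ, DStruct 2 M B P e X a ε μ := by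
    intro G _ _ B P e _ hB hV h
    have hab : IsMulCommutative P := ⟨⟨mul_comm_of_exponent_two hV.exponent_two⟩⟩
    have h4 := Princ.ncard_of_kleinFour hV.card_four IsKleinFour.mul_self
    refine (abFree_of_ncard hM hB h hab h4).exists_dStruct ?_
      (blockRank_of_ncard hM hB h hab h4).ge
    rintro rfl
    simpa using hV.card_four
  have := Fintype.ofFinite (autT P (emb (Subgroup.normalizer (P : Set G)).subtype f))
  have := Fintype.ofFinite (autT (P.subgroupOf (Subgroup.normalizer (P : Set G))) f)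
  let φ := Subgroup.subgroupOfEquivOfLe (Subgroup.le_normalizer (H := P))
  obtain ⟨X, a, ε, μ, D⟩ := key hB hV h2
  obtain ⟨X', a', ε', μ', D'⟩ := key hc.1 ⟨by rw [Nat.card_congr φ.toEquiv, hV.card_four],
    by rw [Monoid.exponent_eq_of_mulEquiv φ, hV.exponent_two]⟩ h1
  obtain ⟨I, δ, h, -⟩ := D.exists_perfect D' φ (mem_autT_subgroupOf le_rfl f)
  exact ⟨I, δ, h⟩

end Cfsg.Agent.S4638
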