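import Cfsg.Statements.S4640
import Cfsg.Agent.Block.StarLin
import Cfsg.Agent.Block.CoverDefect
import Cfsg.Agent.Char.Gallagher

set_option autoImplicit false
open Cfsg Cfsg.Lib.Block Cfsg.Lib.Char

namespace Cfsg.Agent.S4640

theorem res_irr {G : Type*} [Group G] [Fintype G] {N : Subgroup G} [N.Normal] [Fintype N]
    (hN : commutator G ≤ N) {χ : G → ℂ} (hχ : IsIrrCharacter G χ)
    (h : ∀ l : G →* ℂˣ, (∀ n ∈ N, l n = 1) → (χ * fun g => (l g : ℂ)) = χ → l = 1) :
    IsIrrCharacter N fun n : N => χ n := by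
  have hc : ∀ a b : G ⧸ N, a * b = b * a :=
    (Subgroup.Normal.quotient_commutative_iff_commutator_le.2 hN).is_comm.comm
  refine (hχ.isCharacter.res N).isIrrCharacter_of_classInner_self ?_
  rw [← classInner_indFun_irr_eq (hχ.isCharacter.res N) hχ.isCharacter,
    indFun_res_eq_sum_quotient hχ.isClassFunction, classInner_sum_left,
    Finset.sum_eq_single ⟨fun _ => 1, isIrrCharacter_one⟩]
  · simpa using hχ.classInner_self
  · intro β _ hβ
    obtain ⟨l, hl⟩ := β.2.exists_monoidHom_of_comm hc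
    have h1 := hχ.mul_monoidHom (l.comp (QuotientGroup.mk' N))
    have h2 : (fun g : G => β.1 (QuotientGroup.mk g) * χ g) =
        χ * fun g => ((l.comp (QuotientGroup.mk' N)) g : ℂ) := by
      funext g
      rw [hl, mul_comm]
      rfl
    rw [classInner_smul_left, h2, h1.classInner_of_ne hχ, mul_zero]
    intro h3
    have h4 := h _ (fun n hn => by
      rw [MonoidHom.comp_apply, QuotientGroup.mk'_apply, (QuotientGroup.eq_one_iff n).2 hn,
        map_one]) h3
    refine hβ (Subtype.ext (hl.trans (funext fun q => ?_)))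
    obtain ⟨g, rfl⟩ := QuotientGroup.mk_surjective q
    exact congrArg (fun z : ℂˣ => (z : ℂ)) (DFunLike.congr_fun h4 g)
  · simp

/-- Let N be a normal subgroup of the finite group G of index a power of the prime p, M a maximal ideal of the algebraic integers containing p, b a block of N stabilized by every element of G, and B a block of G covering b (some member of B has a member of b as a constituent of its restriction to N). Suppose that B has a commutative defect group P. Then G = NP and P ∩ N is a defect group of b; every member of B restricts to a member of b; every member of b is the restriction of exactly [G : N] members of B; B contains exactly [G : N] times as many irreducible characters as b; and B and b have the same p-regular rank. -/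
theorem result {G : Type*} [Group G] [Fintype G] (p : ℕ) [Fact p.Prime] (M : Ideal Cfsg.AlgInt) (hM : Cfsg.IsPModular p M) (N : Subgroup G) [N.Normal] [Fintype N] (hNi : ∃ k : ℕ, N.index = p ^ k) (b : Set (Cfsg.IrrCharacter N)) (hb : Cfsg.IsPBlock M b) (hstab : ∀ g : G, Cfsg.StabilizesBlock N b g) (B : Set (Cfsg.IrrCharacter G)) (hB : Cfsg.IsPBlock M B) (hcov : ∃ χ ∈ B, ∃ θ ∈ b, Cfsg.classInner (fun n : N => (χ : G → ℂ) n) (θ : N → ℂ) ≠ 0) (P : Subgroup G) (hPD : Cfsg.IsDefectGroup p M B P) (hPab : ∀ x ∈ P, ∀ y ∈ P, x * y = y * x) : N ⊔ P = ⊤ ∧ Cfsg.IsDefectGroup p M b ((P ⊓ N).subgroupOf N) ∧ (∀ χ ∈ B, ∃ θ ∈ b, ∀ n : N, (χ : G → ℂ) n = (θ : N → ℂ) n) ∧ (∀ θ ∈ b, Nat.card {χ : Cfsg.IrrCharacter G // χ ∈ B ∧ ∀ n : N, (χ : G → ℂ) n = (θ : N → ℂ) n} = N.index) ∧ Nat.card B = N.index * Nat.card b ∧ Cfsg.blockRank p B = Cfsg.blockRank p b := by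
  classical
  have := charP_kM hM
  have hcov' : Covers N B b := covers_iff.2 hcov
  have hst : stabB b = ⊤ := eq_top_iff.2 fun g _ => stabilizesBlock_iff_mem_stabB.1 (hstab g)
  have hBo := hcov'.eq_overSet_of_index hM hNi hB hb
  have he : eB M B = Pair.hat M N b := by
    rw [hBo, ← incSub_eB_orbB, orbB_eq_of_stabB_eq_top hst]
    rfl
  have hD := (Pair.isDefectGroup_iff_isDefect hM hB).1 hPD
  have hK : ⊤ ≤ Pair.stab (Pair.hat M N b) := he ▸ (Pair.isPrim_eB hM hB).le_stab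
  have hNn : ⊤ ≤ Subgroup.normalizer (N : Set G) := by rw [Subgroup.normalizer_eq_top]
  rw [he] at hD
  have h1 : N ⊔ P = ⊤ := hD.sup_eq_of_relIndex le_top hNn (Pair.isPrim_hat hM hb) hK
    (by rwa [Subgroup.relIndex_top_right])
  have hmul : ∀ g : G, ∃ n ∈ N, ∃ u ∈ P, n * u = g := fun g =>
    Subgroup.mem_sup_of_normal_left.1 (h1 ▸ Subgroup.mem_top g)
  have hcomm : commutator G ≤ N := by
    refine Subgroup.Normal.quotient_commutative_iff_commutator_le.1 ⟨⟨fun x y => ?_⟩⟩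
    obtain ⟨x, rfl⟩ := QuotientGroup.mk_surjective x
    obtain ⟨y, rfl⟩ := QuotientGroup.mk_surjective y
    obtain ⟨n, hn, u, hu, rfl⟩ := hmul x
    obtain ⟨m, hm, v, hv, rfl⟩ := hmul y
    simp only [QuotientGroup.mk_mul, (QuotientGroup.eq_one_iff _).2 hn,
      (QuotientGroup.eq_one_iff _).2 hm, one_mul]
    rw [← QuotientGroup.mk_mul, hPab u hu v hv, QuotientGroup.mk_mul]
  have hreg : ∀ g : G, ¬ p ∣ orderOf g → g ∈ N := fun g => mem_of_not_dvd_orderOf_of_index hM.1 hNi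
  obtain ⟨e, hmax⟩ := exists_isMax_eB hM hB hPD
  have hfree : ∀ χ ∈ B, ∀ l : G →* ℂˣ, (∀ n ∈ N, l n = 1) →
      ((χ : G → ℂ) * fun g => (l g : ℂ)) = χ → l = 1 := fun χ hχ l hl hlχ => by
    ext g
    obtain ⟨n, hn, u, hu, rfl⟩ := hmul g
    rw [map_mul, hl n hn, one_mul]
    by_contra hne
    refine Star.sr_ne_zero_of_central hM hmax hB hχ (v := ⟨u, hu⟩) (fun x hx =>
      Subgroup.mem_centralizer_iff.2 fun y hy => by
        rw [Set.mem_singleton_iff.1 hy]; exact hPab u hu x hx) ?_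
    rw [subRes_eq_blockPart hM (Star.isPBlock_bk hM hmax ⟨u, hu⟩), (pRegularPart_eq_zero_iff p).2,
      blockPart_zero]
    intro y hy
    have h2 := congrFun hlχ (u * y)
    rw [Pi.mul_apply, map_mul, hl y (hreg y (by rwa [Subgroup.orderOf_coe])), mul_one] at h2
    by_contra h0
    exact hne (mul_left_cancel₀ h0 (h2.trans (mul_one _).symm))
  have hirr : ∀ χ ∈ B, IsIrrCharacter N fun n : N => (χ : G → ℂ) n := fun χ hχ =>
    res_irr hcomm χ.2 (hfree χ hχ)
  have h3 : ∀ χ ∈ B, ∃ θ ∈ b, ∀ n : N, (χ : G → ℂ) n = (θ : N → ℂ) n := fun χ hχ =>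
    ⟨⟨_, hirr χ hχ⟩, hcov'.mem_of_stable hM hB hb hst hχ (over_of_res_eq (hirr χ hχ) fun _ => rfl),
      fun _ => rfl⟩
  have h5 : ∀ θ ∈ b, ∃ χ ∈ B, ∀ n : N, (χ : G → ℂ) n = (θ : N → ℂ) n := fun θ hθ => by
    obtain ⟨χ, hχ⟩ := exists_over_over θ
    have hχB : χ ∈ B := hBo ▸ ⟨θ, hθ, hχ⟩
    exact ⟨χ, hχB, congrFun ((hirr χ hχB).eq_of_classInner_ne_zero θ.2 (over_iff.1 hχ))⟩
  have h4 : ∀ θ ∈ b, Nat.card {χ : IrrCharacter G // χ ∈ B ∧
      ∀ n : N, (χ : G → ℂ) n = (θ : N → ℂ) n} = N.index := fun θ hθ => by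
    obtain ⟨χ, hχ, hχθ⟩ := h5 θ hθ
    rw [← Star.card_annih hcomm]
    have h6 : ∀ (l : Star.annih N) (n : N),
        ((χ : G → ℂ) * fun g => (l.1 g : ℂ)) n = (θ : N → ℂ) n := fun l n => by
      rw [Pi.mul_apply, l.2 n n.2, Units.val_one, mul_one, hχθ]
    symm
    refine Nat.card_congr (Equiv.ofBijective (fun l => ⟨⟨_, χ.2.mul_monoidHom l.1⟩,
      hBo ▸ ⟨θ, hθ, over_of_res_eq θ.2 (h6 l)⟩, h6 l⟩) ⟨fun l m hlm => ?_, fun ψ => ?_⟩)
    · have h7 : ((χ : G → ℂ) * fun g => (l.1 g : ℂ)) = (χ : G → ℂ) * fun g => (m.1 g : ℂ) :=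
        congrArg (fun x => (x.1 : G → ℂ)) hlm
      refine mul_inv_eq_one.1 (Subtype.ext (hfree χ hχ _ (l * m⁻¹).2 (funext fun g => ?_)))
      have h8 := congrFun h7 g
      simp only [Pi.mul_apply] at h8
      simp only [Pi.mul_apply, Subgroup.coe_mul, Subgroup.coe_inv, MonoidHom.mul_apply,
        MonoidHom.inv_apply, Units.val_mul, ← mul_assoc, h8]
      rw [mul_assoc, ← Units.val_mul, mul_inv_cancel, Units.val_one, mul_one]
    · obtain ⟨l, hl, hl'⟩ := exists_monoidHom_of_extensions χ.2.isCharacter (hirr χ hχ)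
        ψ.1.2.isCharacter fun n => (ψ.2.2 n).trans (hχθ n).symm
      exact ⟨⟨l, hl⟩, Subtype.ext (Subtype.ext (hl'.trans (funext fun g => mul_comm _ _)).symm)⟩
  refine ⟨h1, (Pair.isDefectGroup_subgroupOf_iff hM hb inf_le_right).2
    (hD.isDefect_inf_of_stable le_top hNn (Pair.isPrim_hat hM hb) hK), h3, h4, ?_, ?_⟩
  · choose r hr hr' using h3
    have := Fintype.ofFinite b
    rw [← Nat.card_congr (Equiv.sigmaFiberEquiv fun χ : B => (⟨r χ.1 χ.2, hr χ.1 χ.2⟩ : b)),
      Nat.card_sigma, Finset.sum_congr rfl (g := fun _ => N.index), Finset.sum_const, smul_eq_mul,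
      mul_comm, Finset.card_univ, Nat.card_eq_fintype_card]
    intro θ _
    rw [← h4 θ.1 θ.2]
    exact Nat.card_congr ⟨fun x => ⟨x.1.1, x.1.2, fun n => (hr' x.1.1 x.1.2 n).trans
        (congrArg (fun t : b => (t.1 : N → ℂ) n) x.2)⟩,
      fun x => ⟨⟨x.1, x.2.1⟩, Subtype.ext (Subtype.ext (funext fun n => by
        rw [← hr' x.1 x.2.1, x.2.2]))⟩, fun _ => rfl, fun _ => rfl⟩
  · let ext0 : (N → ℂ) →ₗ[ℂ] (G → ℂ) := LinearMap.pi fun g =>
      if h : g ∈ N then LinearMap.proj (⟨g, h⟩ : N) else 0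
    have h6 : ∀ (φ : N → ℂ) (n : N), ext0 φ n = φ n := fun φ n => by simp [ext0]
    have h7 : Function.Injective ext0 := fun φ ψ h => funext fun n => by rw [← h6 φ, h, h6]
    have h8 : ∀ (χ : G → ℂ) (θ : N → ℂ), (∀ n : N, χ n = θ n) →
        pRegularPart p χ = ext0 (pRegularPart p θ) := fun χ θ h => by
      funext g
      by_cases hg : g ∈ N
      · rw [h6 _ ⟨g, hg⟩, pRegularPart_eq_ite, pRegularPart_eq_ite, ← h, ← Subgroup.orderOf_coe]
      · rw [pRegularPart_of_dvd p _ (by_contra fun h => hg (hreg g h))]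
        simp [ext0, hg]
    rw [blockRank, blockRank, (Submodule.equivMapOfInjective ext0 h7 _).finrank_eq,
      Submodule.map_span, ← Set.image_comp]
    refine congrArg (fun S : Set (G → ℂ) => Module.finrank ℂ (Submodule.span ℂ S)) ?_
    ext φ
    constructor
    · rintro ⟨χ, hχ, rfl⟩
      obtain ⟨θ, hθ, h⟩ := h3 χ hχ
      exact ⟨θ, hθ, (h8 _ _ h).symm⟩
    · rintro ⟨θ, hθ, rfl⟩
      obtain ⟨χ, hχ, h⟩ := h5 θ hθ
      exact ⟨χ, hχ, h8 _ _ h⟩

end Cfsg.Agent.S4640
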