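import Cfsg.Statements.S4641
import Cfsg.Agent.Block.PimBasis
import Cfsg.Agent.Block.DegSq

set_option autoImplicit false
open Cfsg Cfsg.Lib.Block Cfsg.Lib.Char

namespace Cfsg.Agent.S4641

theorem not_dvd_sum_xd_sq {G : Type*} [Group G] [Finite G] {p : ℕ} {M : Ideal AlgInt}
    {B : Set (IrrCharacter G)} (hM : IsPModular p M) (hB : IsPBlock M B) :
    ¬ p ^ (blockDefect p B + 1) ∣ ∑ χ ∈ irrFin B, xd p B χ ^ 2 := by
  have : Fact p.Prime := ⟨hM.1⟩
  have := Fintype.ofFinite G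
  have hp : (p : ℤ) ^ blockDefect p B ≠ 0 := pow_ne_zero _ (Nat.cast_ne_zero.2 hM.1.ne_zero)
  obtain ⟨θ₀, h0⟩ : ∃ θ₀ : regLat p B, dualEl (dg p B) = (p : ℤ) ^ blockDefect p B • θ₀ := by
    let b := Module.Free.chooseBasis ℤ (regLat p B)
    have h : ∀ i, ∃ n, b.repr (dualEl (dg p B)) i = (p : ℤ) ^ blockDefect p B * n := fun i => by
      have h1 := pow_defect_dvd_dg_dualEl hM hB (b.coord i)
      rw [apply_dualEl_comm] at h1
      exact h1
    choose n hn using h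
    refine ⟨∑ i, n i • b i, ?_⟩
    rw [← b.sum_repr (dualEl (dg p B)), Finset.smul_sum]
    exact Finset.sum_congr rfl fun i _ => by rw [hn, mul_smul]
  obtain ⟨θ, hθ⟩ := exists_not_dvd_dg hM hB
  have h1 := bf_dualEl hM hB θ (dg p B)
  rw [h0, map_smul, smul_eq_mul, mul_right_inj' hp] at h1
  have h2 : ¬ (p : ℤ) ∣ dg p B θ₀ := fun h => hθ (h1 ▸ (dvd_bf_iff hM hB θ θ₀).2 (Or.inr h))
  have h3 := apply_dualEl (dg p B) (dg p B)
  rw [h0, map_smul, smul_eq_mul] at h3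
  intro h
  have h4 : ((∑ χ ∈ irrFin B, xd p B χ ^ 2 : ℕ) : ℤ) = (p : ℤ) ^ blockDefect p B * dg p B θ₀ := by
    rw [h3]
    push_cast
    refine Finset.sum_congr rfl fun χ hχ => ?_
    have h5 := pow_mul_dg_regEl (p := p) (mem_irrFin.1 hχ)
    rw [← pow_mul_xd hM.1 (mem_irrFin.1 hχ), ← rE_of_mem] at h5
    push_cast at h5
    rw [mul_left_cancel₀ (pow_ne_zero _ (Nat.cast_ne_zero.2 hM.1.ne_zero)) h5, sq]
  have h6 : ((p ^ (blockDefect p B + 1) : ℕ) : ℤ) ∣ _ := Int.natCast_dvd_natCast.2 h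
  rw [h4] at h6
  push_cast at h6
  rw [pow_succ, mul_dvd_mul_iff_left hp] at h6
  exact h2 h6

/-- Let B be a block of the finite group G relative to a maximal ideal M of the algebraic integers containing the prime p, let p^a be the p-part of the order of G and p^d the order of a defect group D of B, and let g be the greatest common divisor of the degrees of the members of B. Then the p-part of g is exactly p^(a−d), and writing g = p^(a−d)·u there is a positive integer v, prime to p and at least the p-regular rank of B (its number of irreducible Brauer characters), with Σ_{χ ∈ B} χ(1)² = p^(2a−d)·u²·v. -/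
theorem result {G : Type*} [Group G] [Finite G] (p : ℕ) [Fact p.Prime] (M : Ideal Cfsg.AlgInt) (hM : Cfsg.IsPModular p M) (B : Set (Cfsg.IrrCharacter G)) (hB : Cfsg.IsPBlock M B) (D : Subgroup G) (hD : Cfsg.IsDefectGroup p M B D) (a d : ℕ) (ha : (Nat.card G).factorization p = a) (hd : Nat.card D = p ^ d) (g : ℕ) (hg1 : ∀ χ ∈ B, g ∣ Cfsg.charDegree (χ : G → ℂ)) (hg2 : ∀ g' : ℕ, (∀ χ ∈ B, g' ∣ Cfsg.charDegree (χ : G → ℂ)) → g' ∣ g) : g.factorization p = a - d ∧ ∃ v : ℕ, 0 < v ∧ ¬ p ∣ v ∧ Cfsg.blockRank p B ≤ v ∧ ∑ᶠ χ ∈ B, Cfsg.charDegree (χ : G → ℂ) ^ 2 = p ^ (2 * a - d) * (g / p ^ (a - d)) ^ 2 * v := by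
  classical
  have := Fintype.ofFinite G
  have hp := hM.1
  have hne := isPBlock_nonempty hM hB
  have hdd : blockDefect p B = d := blockDefect_eq_of_card hM hB hD hd
  have hm : d + Ht.minVal p B = a := by rw [← hdd, ← ha]; exact Ht.blockDefect_add_minVal p hne
  have hg0 : g ≠ 0 := fun h => by
    obtain ⟨χ, hχ⟩ := hne
    exact irr_charDegree_ne_zero χ (by simpa [h] using hg1 χ hχ)
  have hgf : g.factorization p = Ht.minVal p B := by
    refine le_antisymm ?_ ?_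
    · obtain ⟨χ, hχ, h⟩ := Ht.exists_eq_minVal p hne
      rw [← h]
      exact (Nat.factorization_le_iff_dvd hg0 (irr_charDegree_ne_zero χ)).2 (hg1 χ hχ) p
    · exact (hp.pow_dvd_iff_le_factorization hg0).1
        (hg2 _ fun χ hχ => ⟨_, (pow_mul_xd hp hχ).symm⟩)
  have had : a - d = Ht.minVal p B := by omega
  refine ⟨hgf.trans had.symm, ?_⟩
  rw [had, ← hgf, finsum_mem_irr]
  obtain ⟨u, hu⟩ : ∃ u, u = g / p ^ g.factorization p := ⟨_, rfl⟩
  have hgu : p ^ g.factorization p * u = g := by rw [hu]; exact Nat.ordProj_mul_ordCompl_eq_self g p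
  have hpu : ¬ p ∣ u := by rw [hu]; exact Nat.not_dvd_ordCompl hp hg0
  rw [← hu]
  obtain ⟨c, hc0, hc, -⟩ := Pim.exists_pos_coeff_of_dvd hM hB (g := g)
    (fun χ => charDegree (χ : G → ℂ) / g) fun χ hχ => (Nat.mul_div_cancel' (hg1 χ hχ)).symm
  have hy : ∀ Φ : Pim.PIM M B, ∃ y : ℕ, 0 < y ∧ (Φ : G → ℂ) 1 = (p ^ a * u * y : ℕ) := by
    intro Φ
    obtain ⟨n, hn⟩ : ∃ n, n = ∑ χ ∈ irrFin B, Pim.dec χ Φ * charDegree (χ : G → ℂ) := ⟨_, rfl⟩
    have h1 : (Φ : G → ℂ) 1 = n := by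
      rw [congrFun (Pim.PIM.eq_sum hM hB Φ) 1, hn, Finset.sum_apply]
      push_cast
      exact Finset.sum_congr rfl fun χ _ => by rw [irr_charDegree_cast, Pi.smul_apply, smul_eq_mul]
    have h2 : u ∣ n := hn ▸ Finset.dvd_sum fun χ hχ =>
      ((Dvd.intro_left _ hgu).trans (hg1 χ (mem_irrFin.1 hχ))).mul_left _
    obtain ⟨k, hk⟩ := exists_apply_one_eq_of_regular (p := p)
      (Pim.PIM.isCharacter Φ).isGeneralizedCharacter (Pim.PIM.pRegularPart hM Φ)
    rw [h1, ha] at hk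
    have h3 : p ^ a ∣ n := by
      have : (n : ℤ) = (p : ℤ) ^ a * k := by exact_mod_cast hk
      exact Int.natCast_dvd_natCast.1 (by push_cast; exact Dvd.intro _ this.symm)
    obtain ⟨y, hy⟩ := Nat.Coprime.mul_dvd_of_dvd_of_dvd
      (Nat.Coprime.pow_left a ((Nat.Prime.coprime_iff_not_dvd hp).2 hpu)) h3 h2
    refine ⟨y, Nat.pos_of_ne_zero fun h => ?_, by rw [h1, hy]⟩
    obtain ⟨χ, hχ, h4⟩ := Pim.exists_dec_ne_zero hM hB Φ
    rw [h, mul_zero, hn, Finset.sum_eq_zero_iff] at hy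
    exact mul_ne_zero h4 (irr_charDegree_ne_zero χ) (hy χ (mem_irrFin.2 hχ))
  choose y hy0 hy using hy
  have hle : blockRank p B ≤ ∑ Φ, c Φ * y Φ := by
    rw [← Pim.card_PIM hM hB, Fintype.card_eq_sum_ones]
    exact Finset.sum_le_sum fun Φ _ => Nat.mul_pos (hc0 Φ) (hy0 Φ)
  have key : ∑ χ ∈ irrFin B, charDegree (χ : G → ℂ) ^ 2 =
      p ^ (2 * a - d) * u ^ 2 * ∑ Φ, c Φ * y Φ := by
    have h1 := congrFun hc 1
    simp only [Finset.sum_apply, Pi.smul_apply, smul_eq_mul, hy, ← irr_charDegree_cast] at h1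
    have h2 : ∑ χ ∈ irrFin B, charDegree (χ : G → ℂ) / g * charDegree (χ : G → ℂ) =
        ∑ Φ, c Φ * (p ^ a * u * y Φ) := by exact_mod_cast h1
    have h3 : 2 * a - d = g.factorization p + a := by omega
    calc _ = g * ∑ χ ∈ irrFin B, charDegree (χ : G → ℂ) / g * charDegree (χ : G → ℂ) := by
          rw [Finset.mul_sum]
          exact Finset.sum_congr rfl fun χ hχ => by
            rw [← mul_assoc, Nat.mul_div_cancel' (hg1 χ (mem_irrFin.1 hχ)), sq]
      _ = _ := by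
          rw [h2, h3, pow_add, Finset.mul_sum, Finset.mul_sum]
          refine Finset.sum_congr rfl fun Φ _ => ?_
          conv_lhs => rw [← hgu]
          ring
  have hnd : ¬ p ∣ ∑ Φ, c Φ * y Φ := fun h => not_dvd_sum_xd_sq hM hB <| by
    have h1 : ∑ χ ∈ irrFin B, charDegree (χ : G → ℂ) ^ 2 =
        p ^ (2 * Ht.minVal p B) * ∑ χ ∈ irrFin B, xd p B χ ^ 2 := by
      rw [Finset.mul_sum]
      exact Finset.sum_congr rfl fun χ hχ => by rw [← pow_mul_xd hp (mem_irrFin.1 hχ)]; ring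
    have h2 : 2 * a - d = 2 * Ht.minVal p B + d := by omega
    rw [h1, h2, pow_add, mul_assoc, mul_assoc,
      mul_right_inj' (pow_ne_zero _ hp.ne_zero)] at key
    rw [key, hdd, pow_succ]
    exact mul_dvd_mul_left _ (h.mul_left _)
  exact ⟨∑ Φ, c Φ * y Φ, Nat.pos_of_ne_zero fun h => hnd (h ▸ dvd_zero p), hnd, hle, key⟩

end Cfsg.Agent.S4641
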