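import Cfsg.Statements.S4642
import Cfsg.Agent.Block.Fong

set_option autoImplicit false
open Cfsg

namespace Cfsg.Agent.S4642

open Cfsg.Lib.Block Cfsg.Lib.Block.Pair Cfsg.Lib.Solv

/-- Let G be a finite group, p a prime, M a maximal ideal of the algebraic integers containing p, K the largest normal subgroup of G of order prime to p, and L the preimage in G of the largest normal p-subgroup of G/K. Let Q be a Sylow p-subgroup of L and suppose C_G(Q) ≤ L. Let θ be an irreducible character of K invariant under conjugation by every element of G, and let B be the set of irreducible characters of G whose restriction to K contains θ. Then B is a block of G, every Sylow p-subgroup of G is a defect group of B, and B is of principal type: for every p-subgroup R of G exactly one block of C_G(R) induces B. -/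
theorem result {G : Type*} [Group G] [Fintype G] (p : ℕ) [Fact p.Prime] (M : Ideal Cfsg.AlgInt) (hM : Cfsg.IsPModular p M) (K : Subgroup G) (hK : K = Cfsg.pPrimeCore p G) [Fintype K] (L : Subgroup G) (hL : L = Cfsg.pPrimePCore p G) (Q : Subgroup G) (hQL : Q ≤ L) (hQp : IsPGroup p Q) (hQS : ¬ p ∣ Q.relIndex L) (hCQ : Subgroup.centralizer (Q : Set G) ≤ L) (θ : Cfsg.IrrCharacter K) (hθ : ∀ g : G, Cfsg.IsConjCharOf K g (θ : K → ℂ) (θ : K → ℂ)) (B : Set (Cfsg.IrrCharacter G)) (hBdef : ∀ χ : Cfsg.IrrCharacter G, χ ∈ B ↔ Cfsg.classInner (fun k : K => (χ : G → ℂ) k) (θ : K → ℂ) ≠ 0) : Cfsg.IsPBlock M B ∧ (∀ S : Sylow p G, Cfsg.IsDefectGroup p M B S) ∧ ∀ R : Subgroup G, IsPGroup p R → ∃! f : Set (Cfsg.IrrCharacter (Subgroup.centralizer (R : Set G))), Cfsg.IsInducedBlock M (Subgroup.centralizer (R : Set G)) f B := by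
  subst hK hL
  obtain ⟨k, hk⟩ := exists_relIndex_pPrimePCore p G
  have hG : IsPConstrained p G := (isPConstrained_iff_of_sup_eq hQp
    (sup_eq_of_relIndex_pow (pPrimeCore_le_pPrimePCore p G) hQL hk hQS)).2 hCQ
  obtain ⟨h1, h2, h3⟩ := fong_block hM hG (θ := θ) fun g => by
    simpa using (isConjCharOf_iff.1 (hθ g⁻¹)).symm
  have hB : B = overSet (pPrimeCore p G) {θ} :=
    Set.ext fun χ => (hBdef χ).trans (mem_overSet_singleton.trans over_iff).symm
  subst hB
  exact ⟨h1, fun P => (h2 _).2 (isSylowIn_top_iff.2 ⟨P, rfl⟩), h3⟩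

end Cfsg.Agent.S4642
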