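import Cfsg.Statements.S4645
import Cfsg.Agent.Block.CycNil

set_option autoImplicit false
open Cfsg

namespace Cfsg.Agent.S4645

open Cfsg.Lib.Block Cfsg.Lib.Block.Pair Cfsg.Lib.Block.CD Subgroup

/-- Let B be a block of the finite group G relative to a maximal ideal M of the algebraic integers containing the prime p, with a nontrivial cyclic defect group P; let c be a block of C_G(P) inducing B and T the stabilizer of c in N_G(P). Let Q be a nontrivial subgroup of P (so C_G(P) ≤ C_G(Q)), f the block of C_G(Q) induced by c inside C_G(Q), and T' the stabilizer of f in N_G(Q). Then T' = T·C_G(Q), the index of C_G(Q) in T' equals the index of C_G(P) in T, f has p-regular rank 1, and f is a nilpotent block of C_G(Q). -/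
theorem result {G : Type*} [Group G] [Finite G] (p : ℕ) [Fact p.Prime] (M : Ideal Cfsg.AlgInt) (hM : Cfsg.IsPModular p M) (B : Set (Cfsg.IrrCharacter G)) (hB : Cfsg.IsPBlock M B) (P : Subgroup G) (hPD : Cfsg.IsDefectGroup p M B P) (hP1 : P ≠ ⊥) (hcyc : IsCyclic P) (c : Set (Cfsg.IrrCharacter (Subgroup.centralizer (P : Set G)))) (hc : Cfsg.IsInducedBlock M (Subgroup.centralizer (P : Set G)) c B) (T : Subgroup G) (hT : ∀ g : G, g ∈ T ↔ (g ∈ Subgroup.normalizer (P : Set G) ∧ Cfsg.StabilizesBlock (Subgroup.centralizer (P : Set G)) c g)) (Q : Subgroup G) (hQP : Q ≤ P) (hQ1 : Q ≠ ⊥) (f : Set (Cfsg.IrrCharacter (Subgroup.centralizer (Q : Set G)))) (hf : Cfsg.IsInducedBlockIn M (Subgroup.centralizer (Q : Set G)) (Subgroup.centralizer (P : Set G)) c f) (T' : Subgroup G) (hT' : ∀ g : G, g ∈ T' ↔ (g ∈ Subgroup.normalizer (Q : Set G) ∧ Cfsg.StabilizesBlock (Subgroup.centralizer (Q : Set G)) f g)) : T' = T ⊔ Subgroup.centralizer (Q : Set G) ∧ (Subgroup.centralizer (Q :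 Set G)).relIndex T' = (Subgroup.centralizer (P : Set G)).relIndex T ∧ Cfsg.blockRank p f = 1 ∧ Cfsg.IsNilpotentBlock p M f := by
  have := charP_kM hM
  have hm := isMax_of_isInducedBlock hM hPD hc
  obtain rfl := eq_normalizer_inf_stab hM hc.1 hT
  obtain rfl := eq_normalizer_inf_stab hM hf.2.1 hT'
  have hPC : P ≤ Cz Q := Mod.le_centralizer_of_isCyclic hQP
  have hle := (isInducedBlockIn_iff_le hM hm.isPGroup hQP hPC hc.1 hf.2.1).1 hf
  refine ⟨stab_eq_sup hM hPD hc hle, relIndex_stab_eq hM hPD hc hle hQ1,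
    (card_agree_Cz hM hQP hQ1 hf.2.1 (isDefectGroup_of_le hM hPD hc hPC hf.2.1 hle)).2.blockRank_eq
      hM hf.2.1, (isNilpotentBlock_iff_hat hM).2 ⟨hf.2.1, ?_⟩⟩
  have h1 := hm.isMax_centralizer hle hPC
  rw [top_inf_eq] at h1
  refine (h1.nilp_iff_of_comm (Mod.le_centralizer_of_isCyclic le_rfl)).2 ?_
  rw [inf_assoc]
  exact (stab_inf_Cz hM hPD hc hQP hQ1).le

end Cfsg.Agent.S4645
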