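import Cfsg.Statements.S4689
import Cfsg.Agent.Block.StarLin

set_option autoImplicit false
open Cfsg Cfsg.Lib.Block Cfsg.Lib.Char

namespace Cfsg.Agent.S4689

/-- Fix a prime p and a maximal ideal M of the algebraic integers containing p, and a nilpotent p-block B of the finite group G. Then B has p-regular rank one (a single irreducible Brauer character), and some χ₀ ∈ B restricts to that Brauer character: every χ ∈ B agrees on the p-regular elements with a natural-number multiple of χ₀. -/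
theorem result {G : Type*} [Group G] [Fintype G] (p : ℕ) [Fact p.Prime] (M : Ideal Cfsg.AlgInt) (hM : Cfsg.IsPModular p M) (B : Set (Cfsg.IrrCharacter G)) (hnil : Cfsg.IsNilpotentBlock p M B) : Cfsg.blockRank p B = 1 ∧ ∃ χ₀ ∈ B, ∀ χ ∈ B, ∃ d : ℕ, ∀ x : G, Cfsg.pRegularPart p (χ : G → ℂ) x = (d : ℂ) * Cfsg.pRegularPart p (χ₀ : G → ℂ) x := by
  obtain ⟨hB, hn⟩ := (Pair.isNilpotentBlock_iff hM).1 hnil
  obtain ⟨P, hP⟩ := exists_isDefectGroup hM hB
  obtain ⟨e, h⟩ := exists_isMax_eB hM hB hP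
  obtain ⟨χ₀, hχ₀, h0⟩ := Ht.exists_eq_minVal p (isPBlock_nonempty hM hB)
  obtain ⟨Φ, hΦ⟩ := Star.exists_equiv_star hM h hB (Star.isConj_of_nilp hM h hn) hχ₀
    ((Ht.blockHeight_eq_zero_iff hχ₀).2 h0)
  have key : ∀ χ ∈ B, ∃ d : ℕ,
      pRegularPart p (χ : G → ℂ) = (d : ℂ) • pRegularPart p (χ₀ : G → ℂ) := fun χ hχ => by
    obtain ⟨l, hl⟩ := Φ.surjective ⟨χ, hχ⟩
    obtain ⟨d, hd⟩ := l.2.isCharacter.exists_nat_degree
    have h1 := hΦ l
    rw [hl] at h1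
    exact ⟨d, by rw [← hd, ← Star.pRegularPart_star hM h hB _ (inSpan_irr hχ₀), ← h1]⟩
  refine ⟨le_antisymm ?_ (blockRank_pos hM.1 ⟨χ₀, hχ₀⟩), χ₀, hχ₀, fun χ hχ => ?_⟩
  · refine finrank_le_one ⟨_, Submodule.subset_span ⟨χ₀, hχ₀, rfl⟩⟩ fun w => ?_
    obtain ⟨c, hc⟩ := Submodule.mem_span_singleton.1 ((Submodule.span_le.2 (by
      rintro _ ⟨χ, hχ, rfl⟩
      obtain ⟨d, hd⟩ := key χ hχ
      exact Submodule.mem_span_singleton.2 ⟨d, hd.symm⟩) :
        _ ≤ Submodule.span ℂ {pRegularPart p (χ₀ : G → ℂ)}) w.2)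
    exact ⟨c, Subtype.ext hc⟩
  · obtain ⟨d, hd⟩ := key χ hχ
    exact ⟨d, fun x => congrFun hd x⟩

end Cfsg.Agent.S4689
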