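import Cfsg.Statements.S4649
import Cfsg.Agent.Block.CycCons
import Cfsg.Agent.S4689

set_option autoImplicit false
open Cfsg Cfsg.Lib.Block Cfsg.Lib.Char

namespace Cfsg.Agent.S4649

/-- A block with cyclic defect group, of a finite group relative to a maximal ideal M of the algebraic integers containing the prime p, is nilpotent if and only if its p-regular rank is 1 (it has a unique irreducible Brauer character). -/
theorem result {G : Type*} [Group G] [Finite G] (p : ℕ) [Fact p.Prime] (M : Ideal Cfsg.AlgInt) (hM : Cfsg.IsPModular p M) (B : Set (Cfsg.IrrCharacter G)) (hB : Cfsg.IsPBlock M B) (P : Subgroup G) (hPD : Cfsg.IsDefectGroup p M B P) (hcyc : IsCyclic P) : Cfsg.IsNilpotentBlock p M B ↔ Cfsg.blockRank p B = 1 := by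
  have := Fintype.ofFinite G
  have := charP_kM hM
  refine ⟨fun h => (Cfsg.Agent.S4689.result p M hM B h).1, fun h => ?_⟩
  obtain ⟨b, hb⟩ := CD.exists_root hM hB hPD
  have hmax := Pair.isMax_of_isInducedBlock hM hPD hb
  have hc : P ≤ Subgroup.centralizer (P : Set G) := fun x hx =>
    Subgroup.mem_centralizer_iff.2 fun y hy =>
      congrArg Subtype.val (hcyc.isMulCommutative.is_comm.comm (⟨y, hy⟩ : P) ⟨x, hx⟩)
  refine (Pair.isNilpotentBlock_iff hM).2 ⟨hB, (hmax.nilp_iff_of_comm hc).2 ?_⟩
  by_cases hP1 : P = ⊥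
  · intro x _
    rw [hP1]
    simp [Subgroup.mem_centralizer_iff]
  · obtain ⟨Z, c, θ₁, X, Y, μ, ε, s, h1, h2⟩ := CD.exists_struct_of_root hM hPD hP1 hb
    rw [← h1.rank, h] at h2
    rw [top_inf_eq]
    exact Subgroup.relIndex_eq_one.1 h2.symm

end Cfsg.Agent.S4649
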