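import Cfsg.Statements.S4650
import Cfsg.Agent.Block.PairFusion

set_option autoImplicit false
open Cfsg

namespace Cfsg.Agent.S4650

open Cfsg.Lib.Block Cfsg.Lib.Block.Pair Subgroup
open scoped MonoidAlgebra

/-- Let B be a block of the finite group G relative to a maximal ideal M of the algebraic integers containing the prime p, with a nontrivial commutative defect group P; let c be a block of C_G(P) inducing B and T the stabilizer of c in N_G(P). Then T/C_G(P) acts freely on the non-identity elements of P (an element of T fixing a non-identity element of P under conjugation lies in C_G(P)) if and only if, for every nontrivial subgroup Q of P, the block of C_G(Q) induced by c inside C_G(Q) is a nilpotent block of C_G(Q). -/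
theorem result {G : Type*} [Group G] [Finite G] (p : ℕ) [Fact p.Prime] (M : Ideal Cfsg.AlgInt) (hM : Cfsg.IsPModular p M) (B : Set (Cfsg.IrrCharacter G)) (hB : Cfsg.IsPBlock M B) (P : Subgroup G) (hPD : Cfsg.IsDefectGroup p M B P) (hPab : ∀ x ∈ P, ∀ y ∈ P, x * y = y * x) (hP1 : P ≠ ⊥) (c : Set (Cfsg.IrrCharacter (Subgroup.centralizer (P : Set G)))) (hc : Cfsg.IsInducedBlock M (Subgroup.centralizer (P : Set G)) c B) (T : Subgroup G) (hT : ∀ g : G, g ∈ T ↔ (g ∈ Subgroup.normalizer (P : Set G) ∧ Cfsg.StabilizesBlock (Subgroup.centralizer (P : Set G)) c g)) : (∀ g ∈ T, ∀ x ∈ P, x ≠ 1 → g * x * g⁻¹ = x → g ∈ Subgroup.centralizer (P : Set G)) ↔ ∀ Q : Subgroup G, Q ≤ P → Q ≠ ⊥ → ∀ f : Set (Cfsg.IrrCharacter (Subgroup.centralizer (Q : Set G))), Cfsg.IsInducedBlockIn M (Subgroup.centralizer (Q : Set G)) (Subgroup.centralizer (P : Set G)) c f → Cfsg.IsNilpotentBlock p M f := by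
  have := charP_kM hM
  have hm := isMax_of_isInducedBlock hM hPD hc
  obtain rfl := eq_normalizer_inf_stab hM hc.1 hT
  have hP : P ≤ centralizer (P : Set G) := fun x hx y hy => hPab y hy x hx
  have key : ∀ Q : Subgroup G, Q ≤ P → ∀ f : Set (IrrCharacter (centralizer (Q : Set G))),
      IsInducedBlockIn M (centralizer (Q : Set G)) (centralizer (P : Set G)) c f →
      (IsNilpotentBlock p M f ↔ centralizer (Q : Set G) ⊓ normalizer (P : Set G) ⊓
        stab (hat M _ c) ≤ centralizer (P : Set G)) := by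
    intro Q hQ f hf
    have h1 := hP.trans (centralizer_le hQ)
    have h2 := hm.isMax_centralizer
      ((isInducedBlockIn_iff_le hM hm.isPGroup hQ h1 hc.1 hf.2.1).1 hf) h1
    rw [top_inf_eq] at h2
    rw [isNilpotentBlock_iff_hat hM, and_iff_right hf.2.1, h2.nilp_iff_of_comm hP]
  constructor
  · intro h Q hQ hQ1 f hf
    obtain ⟨⟨x, hx⟩, hx1⟩ := ne_bot_iff_exists_ne_one.1 hQ1
    exact (key Q hQ f hf).2 fun g hg => h g ⟨hg.1.2, hg.2⟩ x (hQ hx)
      (fun h0 => hx1 (Subtype.ext h0)) (conj_eq_of_mem_centralizer hg.1.1 hx)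
  · intro h g hg x hx hx1 hgx
    have hQ := zpowers_le.2 hx
    obtain ⟨f, hf⟩ := exists_isInducedBlockIn hM hm.isPGroup (hP.trans (centralizer_le hQ))
      (centralizer_le hQ) hc.1
    refine (key _ hQ f hf).1 (h _ hQ (zpowers_ne_bot.2 hx1) f hf) ⟨⟨?_, hg.1⟩, hg.2⟩
    refine mem_centralizer_of_conj_eq ?_
    rintro _ ⟨i, rfl⟩
    simp only
    rw [← conj_zpow, hgx]

end Cfsg.Agent.S4650
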