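import Cfsg.Statements.S4651
import Cfsg.Agent.Block.KnorrRob

set_option autoImplicit false
open Cfsg

namespace Cfsg.Agent.S4651

open Cfsg.Lib.Char Cfsg.Lib.Block Cfsg.Lib.Block.Ht Subgroup

theorem isCh_iff {G : Type*} [Group G] {p : ℕ} {s : Finset (Subgroup G)} :
    (s.Nonempty ∧ (∀ Q ∈ s, ∀ R ∈ s, Q ≤ R ∨ R ≤ Q) ∧ (∀ Q ∈ s, Q ≠ ⊥ ∧ IsPGroup p Q) ∧
      ∃ T ∈ s, ∀ Q ∈ s, Q ≤ T ∧ T ≤ normalizer ((Q : Subgroup G) : Set G)) ↔
      IsCh p s ∧ s ≠ ∅ := by
  constructor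
  · rintro ⟨h0, h1, h2, T, hT, h3⟩
    refine ⟨⟨h1, fun Q hQ => (h2 Q hQ).1, fun Q hQ => (h2 Q hQ).2, fun Q hQ => ?_⟩, h0.ne_empty⟩
    exact (Finset.sup_le fun R hR => (h3 R hR).1).trans (h3 Q hQ).2
  · rintro ⟨hs, h0⟩
    have h0' := Finset.nonempty_iff_ne_empty.2 h0
    refine ⟨h0', hs.chain, fun Q hQ => ⟨hs.ne_bot Q hQ, hs.pgroup Q hQ⟩, s.sup id, ?_,
      fun Q hQ => ⟨Finset.le_sup (f := id) hQ, hs.norm Q hQ⟩⟩
    refine (sup_eq_bot_or_mem hs.chain).resolve_left fun h => ?_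
    obtain ⟨Q, hQ⟩ := h0'
    exact hs.ne_bot Q hQ (le_bot_iff.1 (h ▸ Finset.le_sup (f := id) hQ))

theorem set_eq {G : Type*} [Group G] [Finite G] {p : ℕ} [Fact p.Prime] {M : Ideal AlgInt}
    (hM : IsPModular p M) {b : Set (IrrCharacter G)} (hb : IsPBlock M b)
    {s : Finset (Subgroup G)} (hs : IsCh p s) (h0 : s ≠ ∅) :
    {ψ : IrrCharacter (chN s) | ∃ β : Set (IrrCharacter (chN s)), ψ ∈ β ∧
      IsInducedBlock M (chN s) β b} = idSet M (brH (s.sup id) (chN s) (eB M b)) := by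
  have hC : centralizer ((s.sup id : Subgroup G) : Set G) ≤ chN s := fun x hx =>
    mem_chN.2 fun Q hQ => centralizer_le_normalizer _
      (centralizer_le (show (Q : Set G) ⊆ (s.sup id : Subgroup G) from
        (Finset.le_sup (f := id) hQ : Q ≤ s.sup id)) hx)
  have key := fun {β : Set (IrrCharacter (chN s))} (hβ : IsPBlock M β) =>
    isInducedBlock_iff_brH_eq_one hM (isPGroup_sup hs) (sup_le_chN hs) hC
      (chN_le_normalizer_sup hs) hβ hb
  ext ψ
  constructor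
  · rintro ⟨β, hψ, hβ⟩
    change lam M _ _ = 1
    rw [← lamB_eq_lam hM hβ.1 hψ]
    exact (key hβ.1).1 hβ
  · intro h
    refine ⟨blockOf M (ψ : chN s → ℂ), Ht.mem_blockOf_self hM ψ,
      (key (Ht.isPBlock_blockOf ψ)).2 ?_⟩
    rw [lamB_blockOf hM ψ.2]
    exact h

/-- An alternating-sum identity over chains of p-subgroups (the character-count form behind the chain reformulation of Alperin's weight conjecture, which holds unconditionally for the difference k − l). Let b be a block of the finite group G relative to a maximal ideal M of the algebraic integers containing the prime p. Consider the nonempty chains s = {Q_0 < Q_1 < ⋯ < Q_m} of nontrivial p-subgroups of G in which every member is normal in the largest member; let N_G(s) be the intersection of the normalizers of the members (the stabilizer of the chain), and let b_s be the set of irreducible characters of N_G(s) lying in blocks of N_G(s) that induce b. Then #G · (k(b)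 − l(b)) equals the sum over all such chains s of (−1)^m · #N_G(s) · (k(b_s) − l(b_s)), where k counts irreducible characters and l is the p-regular rank; equivalently, k(b) − l(b) is the alternating sum of k(b_s) − l(b_s) over representatives of the conjugacy classes of such chains. -/
theorem result {G : Type*} [Group G] [Finite G] (p : ℕ) [Fact p.Prime] (M : Ideal Cfsg.AlgInt) (hM : Cfsg.IsPModular p M) (b : Set (Cfsg.IrrCharacter G)) (hb : Cfsg.IsPBlock M b) : (Nat.card G : ℤ) * ((Nat.card b : ℤ) - (Cfsg.blockRank p b : ℤ)) = ∑ᶠ s ∈ {s : Finset (Subgroup G) | s.Nonempty ∧ (∀ Q ∈ s, ∀ R ∈ s, Q ≤ R ∨ R ≤ Q) ∧ (∀ Q ∈ s, Q ≠ ⊥ ∧ IsPGroup p Q) ∧ ∃ T ∈ s, ∀ Q ∈ s, Q ≤ T ∧ T ≤ Subgroup.normalizer ((Q : Subgroup G) : Set G)}, (-1 : ℤ) ^ (s.card - 1) * (Nat.card (((⨅ Q ∈ s, Subgroup.normalizer ((Q : Subgroup G) : Set G) : Subgroup G))) : ℤ) * ((Nat.card {ψ : Cfsg.IrrCharacter (((⨅ Q ∈ s, Subgroup.normalizer ((Q : Subgroup G) : Set G) :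 Subgroup G))) | ∃ β : Set (Cfsg.IrrCharacter (((⨅ Q ∈ s, Subgroup.normalizer ((Q : Subgroup G) : Set G) : Subgroup G)))), ψ ∈ β ∧ Cfsg.IsInducedBlock M (((⨅ Q ∈ s, Subgroup.normalizer ((Q : Subgroup G) : Set G) : Subgroup G))) β b} : ℤ) - (Cfsg.blockRank p {ψ : Cfsg.IrrCharacter (((⨅ Q ∈ s, Subgroup.normalizer ((Q : Subgroup G) : Set G) : Subgroup G))) | ∃ β : Set (Cfsg.IrrCharacter (((⨅ Q ∈ s, Subgroup.normalizer ((Q : Subgroup G) : Set G) : Subgroup G)))), ψ ∈ β ∧ Cfsg.IsInducedBlock M (((⨅ Q ∈ s, Subgroup.normalizer ((Q : Subgroup G) : Set G) : Subgroup G))) β b} : ℤ)) := by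
  classical
  letI : Fintype (Finset (Subgroup G)) := Fintype.ofFinite _
  have hset : {s : Finset (Subgroup G) | s.Nonempty ∧ (∀ Q ∈ s, ∀ R ∈ s, Q ≤ R ∨ R ≤ Q) ∧
      (∀ Q ∈ s, Q ≠ ⊥ ∧ IsPGroup p Q) ∧
      ∃ T ∈ s, ∀ Q ∈ s, Q ≤ T ∧ T ≤ normalizer ((Q : Subgroup G) : Set G)} =
      ↑((Finset.univ.filter (fun s : Finset (Subgroup G) => IsCh p s)).erase ∅) := by
    ext s
    rw [Set.mem_ofPred_eq, isCh_iff]
    simp [and_comm]
  rw [hset, finsum_mem_coe_finset]
  have key := knorr_robinson_sum (G := G) hM (eB_mem_center (M := M) b)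
  have hmem : (∅ : Finset (Subgroup G)) ∈
      Finset.univ.filter (fun s : Finset (Subgroup G) => IsCh p s) :=
    Finset.mem_filter.2 ⟨Finset.mem_univ _, ⟨by simp, by simp, by simp, by simp⟩⟩
  rw [← Finset.add_sum_erase _ _ hmem] at key
  have h0 : (Nat.card (chN (∅ : Finset (Subgroup G))) : ℂ) *
      ((Nat.card (idSet M (brH ((∅ : Finset (Subgroup G)).sup id) (chN ∅) (eB M b))) : ℂ) -
        (blockRank p (idSet M (brH ((∅ : Finset (Subgroup G)).sup id) (chN ∅) (eB M b))) : ℂ)) =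
      (Nat.card G : ℂ) * ((Nat.card b : ℂ) - (blockRank p b : ℂ)) := by
    letI := Fintype.ofFinite G
    rw [brH_apply, ← sum_sqH_singular hM, ← sum_sqS_singular hM
      (Princ.isUnionOfBlocks_of_isPBlock hM hb), chN_empty, trunc_eq_self (by simp [mem_centralizer_iff])]
    simp only [sqH_top hM (eB_mem_center (M := M) b), idSet_eB hM hb]
  rw [h0, Finset.card_empty, pow_zero, one_mul, add_eq_zero_iff_eq_neg,
    ← Finset.sum_neg_distrib] at key
  apply Int.cast_injective (α := ℂ)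
  push_cast
  rw [key]
  refine Finset.sum_congr rfl fun s hs => ?_
  obtain ⟨hs0, hs⟩ := Finset.mem_erase.1 hs
  have hs' : IsCh p s := (Finset.mem_filter.1 hs).2
  rw [← set_eq hM hb hs' hs0]
  obtain ⟨n, hn⟩ : ∃ n, s.card = n + 1 :=
    Nat.exists_eq_succ_of_ne_zero (by simpa using hs0)
  rw [hn, Nat.add_sub_cancel, pow_succ]
  have aux : ∀ a a' c c' d d' e : ℂ, a = a' → c = c' → d = d' →
      -(e * -1 * (a * (c - d))) = e * a' * (c' - d') := by
    rintro a _ c _ d _ e rfl rfl rfl; ring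
  exact aux _ _ _ _ _ _ _ rfl rfl rfl

end Cfsg.Agent.S4651
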