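import Cfsg.Statements.S4653
import Cfsg.Agent.Block.PairLocal

set_option autoImplicit false
open Cfsg

namespace Cfsg.Agent.S4653

open Cfsg.Lib.Block Cfsg.Lib.Block.Pair Subgroup
open scoped MonoidAlgebra

/-- Fix a prime p and a maximal ideal M of the algebraic integers containing p. Let P be a normal p-subgroup of the finite group G and B a p-block of G. Then the idempotent of B is supported on C_G(P): its coefficient at every element of G outside C_G(P) is zero. -/
theorem result {G : Type*} [Group G] [Fintype G] (p : ℕ) [Fact p.Prime] (M : Ideal Cfsg.AlgInt) (hM : Cfsg.IsPModular p M) (P : Subgroup G) [P.Normal] (hP : IsPGroup p P) (B : Set (Cfsg.IrrCharacter G)) (hB : Cfsg.IsPBlock M B) (g : G) (hg : g ∉ Subgroup.centralizer (P : Set G)) : Cfsg.blockCoeff B g = 0 := by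
  have := charP_kM hM
  have hN : (⊤ : Subgroup G) ≤ normalizer (P : Set G) := by rw [normalizer_eq_top]
  have h1 := (isPrim_eB hM hB).isPrim_inf_centralizer hP le_top hN
  rw [top_inf_eq] at h1
  obtain ⟨a, hO, ha, hi, h2⟩ := exists_fix_idem_lift hM le_top
    (hN.trans (normalizer_le_normalizer_centralizer P)) h1.mem h1.idem
  have h3 := fix_idem_eq_of_redG_eq (fix_mono le_top le_rfl ha)
    (mem_fix_top_iff.2 (fB_mem_center B)) hO (fB_mem_OG hM hB) hi (isIdempotentElem_fB B) h2
  rw [← coeff_fB, ← h3]
  exact ha.1 g hg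

end Cfsg.Agent.S4653
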