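import Cfsg.Statements.S4654
import Cfsg.Agent.Block.PairLocal

set_option autoImplicit false
open Cfsg

namespace Cfsg.Agent.S4654

open Cfsg.Lib.Block Cfsg.Lib.Block.Pair Subgroup
open scoped MonoidAlgebra

theorem sum_cj {G R : Type*} [Group G] [Fintype G] [CommRing R] (a : R[G]) :
    ∑ x : G, cj x a = Nat.card (stab a) • orbSum ⊤ a := by
  classical
  rw [Finset.sum_comp (fun b : R[G] => b) (fun x : G => cj x a), orbSum, Finset.smul_sum]
  refine Finset.sum_congr ?_ fun b hb => ?_
  · ext b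
    simp [orb]
  · rw [Set.Finite.mem_toFinset] at hb
    obtain ⟨y, -, rfl⟩ := hb
    congr 1
    rw [← Fintype.card_subtype, ← Nat.card_eq_fintype_card]
    refine Nat.card_congr ((Equiv.mulLeft y⁻¹).subtypeEquiv fun x => ?_)
    rw [Equiv.coe_mulLeft, mem_stab, ← cj_cj]
    exact ⟨fun h => by rw [h, cj_inv_cj], fun h => by rw [← cj_cj_inv y (cj x a), h]⟩

theorem orbSum_lift {G : Type*} [Group G] [Finite G] {M : Ideal AlgInt} {C : Subgroup G}
    (hN : ⊤ ≤ normalizer (C : Set G)) {a : ℂ[G]} (ha : a ∈ fix ℂ C C) (hO : a ∈ OG M G)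
    (hi : IsIdempotentElem a) (hp : IsPrim C C (redG M a)) :
    IsIdempotentElem (orbSum ⊤ a) ∧ redG M (orbSum ⊤ a) = orbSum ⊤ (redG M a) := by
  classical
  have h1 : ∀ b ∈ (orb_finite ⊤ a).toFinset, b ∈ fix ℂ C C ∧ b ∈ OG M G ∧ IsIdempotentElem b ∧
      redG M b ∈ orb ⊤ (redG M a) := by
    intro b hb
    rw [Set.Finite.mem_toFinset] at hb
    obtain ⟨y, hy, rfl⟩ := hb
    exact ⟨cj_mem_fix_of_mem ha (hN hy) (hN hy), cj_mem_OG y hO, hi.map (cj y),
      y, hy, (redG_cj y a).symm⟩
  have h2 : ∀ b ∈ (orb_finite ⊤ a).toFinset, ∀ b' ∈ (orb_finite ⊤ a).toFinset,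
      redG M b = redG M b' → b = b' := fun b hb b' hb' h =>
    fix_idem_eq_of_redG_eq (h1 b hb).1 (h1 b' hb').1 (h1 b hb).2.1 (h1 b' hb').2.1
      (h1 b hb).2.2.1 (h1 b' hb').2.2.1 h
  constructor
  · unfold IsIdempotentElem orbSum
    rw [Finset.sum_mul_sum]
    refine Finset.sum_congr rfl fun b hb => ?_
    rw [Finset.sum_eq_single b (fun b' hb' hne => ?_) (fun h => absurd hb h), (h1 b hb).2.2.1.eq]
    refine fix_idem_eq_of_redG_eq (M := M) (mul_mem (h1 b hb).1 (h1 b' hb').1) (zero_mem _)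
      (mul_mem (h1 b hb).2.1 (h1 b' hb').2.1) (zero_mem _)
      (IsIdempotentElem.mul_of_commute (commute_of_mem_fix le_rfl (h1 b hb).1 (h1 b' hb').1)
        (h1 b hb).2.2.1 (h1 b' hb').2.2.1) IsIdempotentElem.zero ?_
    rw [redG_mul (h1 b hb).2.1 (h1 b' hb').2.1, redG_zero]
    exact (hp.of_mem_orb hN hN (h1 b hb).2.2.2).mul_eq_zero_of_ne le_rfl
      (hp.of_mem_orb hN hN (h1 b' hb').2.2.2) fun h => hne (h2 b hb b' hb' h).symm
  · unfold orbSum
    rw [redG_sum fun b hb => (h1 b hb).2.1]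
    refine Finset.sum_bij (fun b _ => redG M b) (fun b hb => ?_) (fun b hb b' hb' => h2 b hb b' hb')
      (fun c hc => ?_) fun _ _ => rfl
    · rw [Set.Finite.mem_toFinset]
      exact (h1 b hb).2.2.2
    · rw [Set.Finite.mem_toFinset] at hc
      obtain ⟨y, hy, rfl⟩ := hc
      exact ⟨cj y a, by rw [Set.Finite.mem_toFinset]; exact ⟨y, hy, rfl⟩, redG_cj y a⟩

/-- Fix a prime p and a maximal ideal M of the algebraic integers containing p. Let P be a normal p-subgroup of the finite group G, B a p-block of G and e a p-block of C_G(P) such that (P, e) is a Brauer pair of B (as P is normal, this says that e occurs in the idempotent of B, which is supported on C_G(P)). Let T be the stabilizer of e in G under conjugation. Then the idempotent of e is a block idempotent of T: some block E of T has, at every element of T, the same idempotent coefficient as e (zero off C_G(P)); and the idempotent of B is the sum of the distinct G-conjugates of the idempotent of e: its coefficient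 at g is the sum over all x in G of the coefficient of e at x⁻¹ g x, divided by the order of T. -/
theorem result {G : Type*} [Group G] [Fintype G] (p : ℕ) [Fact p.Prime] (M : Ideal Cfsg.AlgInt) (hM : Cfsg.IsPModular p M) (P : Subgroup G) [P.Normal] (hP : IsPGroup p P) (B : Set (Cfsg.IrrCharacter G)) (e : Set (Cfsg.IrrCharacter (Subgroup.centralizer (P : Set G)))) (hBe : Cfsg.IsBrauerPairOf p M B P e) (T : Subgroup G) (hT : ∀ x : G, x ∈ T ↔ Cfsg.StabilizesBlock (Subgroup.centralizer (P : Set G)) e x) : (∃ E : Set (Cfsg.IrrCharacter T), Cfsg.IsPBlock M E ∧ ∀ t : T, Cfsg.blockCoeff E t = Cfsg.subgroupBlockCoeff (Subgroup.centralizer (P : Set G)) e (t : G)) ∧ ∀ g : G, Cfsg.blockCoeff B g = (Nat.card T : ℂ)⁻¹ * ∑ x : G, Cfsg.subgroupBlockCoeff (Subgroup.centralizer (P : Set G)) e (x⁻¹ * g * x) := by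
  have := charP_kM hM
  obtain ⟨-, he, hB, hbe⟩ := (Pair.isBrauerPairOf_iff hM).1 hBe
  have hN : (⊤ : Subgroup G) ≤ normalizer (P : Set G) := by rw [normalizer_eq_top]
  have hNC := hN.trans (normalizer_le_normalizer_centralizer P)
  have hT' : T = normalizer (P : Set G) ⊓ stab (hat M _ e) := eq_normalizer_inf_stab hM he
    fun y => (hT y).trans ⟨fun h => ⟨hN trivial, h⟩, fun h => h.2⟩
  constructor
  · subst hT'
    obtain ⟨F, hF, -, h⟩ := exists_block_of_between hM hP he (between_top_stab (isBlk_hat hM he))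
      (le_inf le_normalizer (isBlk_hat hM he).self_le_stab)
    exact ⟨F, hF, h⟩
  · intro g
    set a := incSub (centralizer (P : Set G)) (fB e) with ha
    have ha1 : a ∈ fix ℂ _ _ := incSub_fB_mem_fix _ e
    have ha2 : a ∈ OG M G := incSub_mem_OG _ (fB_mem_OG hM he)
    have ha3 : IsIdempotentElem a := isIdempotentElem_incSub_fB _ e
    have ha4 : hat M _ e = redG M a := hat_eq_redG _ e
    obtain ⟨h1, h2⟩ := orbSum_lift hNC ha1 ha2 ha3 (ha4 ▸ isPrim_hat hM he)
    have h3 := (isPrim_eB hM hB).isPrim_inf_centralizer hP le_top hN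
    rw [top_inf_eq] at h3
    rw [br_eq_self h3.suppOn] at hbe
    have h4 := h3.eq_orbSum le_rfl le_top hNC hNC (isPrim_hat hM he)
      (by rw [hbe]; exact (isPrim_hat hM he).ne_zero)
    have h5 : fB B = orbSum ⊤ a := fix_idem_eq_of_redG_eq (H := ⊤)
      (mem_fix_top_iff.2 (fB_mem_center B)) ⟨suppOn_top _, le_stab_orbSum _ _⟩ (fB_mem_OG hM hB)
      (sum_mem fun b hb => by
        rw [Set.Finite.mem_toFinset] at hb
        obtain ⟨y, -, rfl⟩ := hb
        exact cj_mem_OG y ha2) (isIdempotentElem_fB B) h1 (by rw [h2, ← ha4]; exact h4)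
    have h6 : T = stab a := by
      rw [hT', eq_top_iff.2 hN, top_inf_eq, ha4]
      exact le_antisymm (le_stab_of_redG (le_top.trans hNC) ha1 ha2 ha3 le_rfl)
        fun x hx => by rw [mem_stab, ← redG_cj, hx]
    have h7 := congrArg (fun b : ℂ[G] => b.coeff g) (sum_cj a)
    simp only [coeff_sum_apply, coeff_cj, ha, coeff_incSub_fB] at h7
    rw [h7, ← ha, ← h5, ← h6, ← coeff_fB, ← Nat.cast_smul_eq_nsmul ℂ, coeff_smul_apply',
      inv_mul_cancel_left₀ (Nat.cast_ne_zero.2 Nat.card_pos.ne')]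

end Cfsg.Agent.S4654
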