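import Cfsg.Statements.S4657
import Cfsg.Agent.Block.PairBridge

set_option autoImplicit false
open Cfsg

namespace Cfsg.Agent.S4657

open Cfsg.Lib.Block Cfsg.Lib.Block.Pair Subgroup
open scoped MonoidAlgebra

/-- Fix a prime p and a maximal ideal M of the algebraic integers containing p. Every Brauer pair (P, e) of the finite group G is a Brauer pair of exactly one p-block B of G. -/
theorem result {G : Type*} [Group G] [Fintype G] (p : ℕ) [Fact p.Prime] (M : Ideal Cfsg.AlgInt) (hM : Cfsg.IsPModular p M) (P : Subgroup G) (e : Set (Cfsg.IrrCharacter (Subgroup.centralizer (P : Set G)))) (hPe : Cfsg.IsBrauerPair p M P e) : ∃! B : Set (Cfsg.IrrCharacter G), Cfsg.IsBrauerPairOf p M B P e := by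
  have := charP_kM hM
  obtain ⟨b, hb, h⟩ := (isBlk_hat hM hPe.2).exists_isPrim_above (K := ⊤) le_rfl le_top hPe.1
  obtain ⟨B, hB, rfl⟩ := hb.exists_eq_eB hM
  refine ⟨B, (isBrauerPairOf_iff hM).2 ⟨hPe.1, hPe.2, hB, h⟩, fun B' hB' => ?_⟩
  obtain ⟨-, -, h1, h2⟩ := (isBrauerPairOf_iff hM).1 hB'
  exact block_eq_of_eB_eq hM h1 hB
    ((isPrim_eB hM h1).unique_above le_rfl hb le_top hPe.1 (isBlk_hat hM hPe.2).ne_zero h2 h)

end Cfsg.Agent.S4657
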