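import Cfsg.Statements.S4661
import Cfsg.Agent.Block.PairLocal

set_option autoImplicit false
open Cfsg

namespace Cfsg.Agent.S4661

open Cfsg.Lib.Block Cfsg.Lib.Block.Pair Subgroup
open scoped MonoidAlgebra

/-- Fix a prime p and a maximal ideal M of the algebraic integers containing p. Let (P, e) be a maximal Brauer pair of the p-block B of the finite group G, Q ≤ P, and f the p-block of C_G(Q) with (Q, f) ≤ (P, e). Then C_P(Q) is contained in a defect group of f (as a block of the group C_G(Q)); and for some x in G the conjugate pair (x Q x⁻¹, conjugate of f) again lies below (P, e) and C_P(x Q x⁻¹) is a defect group of the conjugate of f in C_G(x Q x⁻¹). -/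
theorem result {G : Type*} [Group G] [Fintype G] (p : ℕ) [Fact p.Prime] (M : Ideal Cfsg.AlgInt) (hM : Cfsg.IsPModular p M) (B : Set (Cfsg.IrrCharacter G)) (P Q : Subgroup G) (e : Set (Cfsg.IrrCharacter (Subgroup.centralizer (P : Set G)))) (f : Set (Cfsg.IrrCharacter (Subgroup.centralizer (Q : Set G)))) (hmax : Cfsg.IsMaximalBrauerPair p M B P e) (hQP : Q ≤ P) (hf : Cfsg.IsPBlock M f) (hle : Cfsg.SubpairLE p M Q f P e) : (∃ D : Subgroup (Subgroup.centralizer (Q : Set G)), Cfsg.IsDefectGroup p M f D ∧ (P ⊓ Subgroup.centralizer (Q : Set G)).subgroupOf (Subgroup.centralizer (Q : Set G)) ≤ D) ∧ ∃ x : G, Cfsg.SubpairLE p M (Q.map (MulAut.conj x).toMonoidHom) (Cfsg.conjBlock Q x f) P e ∧ Cfsg.IsDefectGroup p M (Cfsg.conjBlock Q x f) ((P ⊓ Subgroup.centralizer ((Q.map (MulAut.conj x).toMonoidHom) : Set G)).subgroupOf (Subgroup.centralizer ((Q.map (MulAut.conj x).toMonoidHom) : Set G))) := by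
  have := charP_kM hM
  have hm := isMax_of_isMaximalBrauerPair hM hmax
  have hle' := le_of_subpairLE hM hle
  have hT := between_top_centralizer (isBlk_hat hM hf)
  constructor
  · obtain ⟨D, hD, h⟩ := hm.exists_isDefect_ge hle' hT
    exact ⟨D.subgroupOf _, (isDefectGroup_subgroupOf_iff hM hf hD.le).2 hD, comap_mono h⟩
  · obtain ⟨x, -, h1, h2⟩ := hm.exists_conj_isDefect_inf le_top (hm.isPGroup_of_le hle')
      (isBlk_hat hM hf) (hm.br_mul_of_le hle') hT
    refine ⟨x, (subpairLE_conjBlock_iff hM hf hmax.1.1.2 x).2 h1, ?_⟩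
    rw [isDefectGroup_subgroupOf_iff hM (isPBlock_conjBlock x hf) inf_le_right, hat_conjBlock,
      ← map_conj_centralizer]
    exact h2

end Cfsg.Agent.S4661
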