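import Cfsg.Statements.S4662
import Cfsg.Agent.Block.PairLocal

set_option autoImplicit false
open Cfsg

namespace Cfsg.Agent.S4662

open Cfsg.Lib.Block Cfsg.Lib.Block.Pair Subgroup
open scoped MonoidAlgebra

/-- Fix a prime p and a maximal ideal M of the algebraic integers containing p. Let (P, e) be a maximal Brauer pair of the p-block B of the finite group G, Q ≤ P, and f the p-block of C_G(Q) with (Q, f) ≤ (P, e). Let T be the stabilizer of f in N_G(Q). Then the idempotent of f is a block idempotent of T, and N_P(Q) is contained in a defect group of that block of T; moreover for some x in G the conjugate pair (x Q x⁻¹, conjugate of f) again lies below (P, e) and, with T' the stabilizer of the conjugate of f in N_G(x Q x⁻¹), N_P(x Q x⁻¹) is a defect group of the block of T' whose idempotent is that of the conjugate of f. -/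
theorem result {G : Type*} [Group G] [Fintype G] (p : ℕ) [Fact p.Prime] (M : Ideal Cfsg.AlgInt) (hM : Cfsg.IsPModular p M) (B : Set (Cfsg.IrrCharacter G)) (P Q : Subgroup G) (e : Set (Cfsg.IrrCharacter (Subgroup.centralizer (P : Set G)))) (f : Set (Cfsg.IrrCharacter (Subgroup.centralizer (Q : Set G)))) (hmax : Cfsg.IsMaximalBrauerPair p M B P e) (hQP : Q ≤ P) (hf : Cfsg.IsPBlock M f) (hle : Cfsg.SubpairLE p M Q f P e) (T : Subgroup G) (hT : ∀ y : G, y ∈ T ↔ y ∈ Subgroup.normalizer (Q : Set G) ∧ Cfsg.StabilizesBlock (Subgroup.centralizer (Q : Set G)) f y) : (∃ F : Set (Cfsg.IrrCharacter T), Cfsg.IsPBlock M F ∧ (∀ t : T, Cfsg.blockCoeff F t = Cfsg.subgroupBlockCoeff (Subgroup.centralizer (Q : Set G)) f (t : G)) ∧ ∃ D : Subgroup T, Cfsg.IsDefectGroup p M F D ∧ (P ⊓ Subgroup.normalizer (Q : Set G)).subgroupOf T ≤ D) ∧ ∃ x : G, Cfsg.SubpairLE p M (Q.map (MulAut.conj x).toMonoidHom) (Cfsg.conjBlock Q x f) P e ∧ ∀ (T' : Subgroup G), (∀ y : G, y ∈ T' ↔ y ∈ Subgroup.normalizer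 ((Q.map (MulAut.conj x).toMonoidHom) : Set G) ∧ Cfsg.StabilizesBlock (Subgroup.centralizer ((Q.map (MulAut.conj x).toMonoidHom) : Set G)) (Cfsg.conjBlock Q x f) y) → ∃ F' : Set (Cfsg.IrrCharacter T'), Cfsg.IsPBlock M F' ∧ (∀ t : T', Cfsg.blockCoeff F' t = Cfsg.subgroupBlockCoeff (Subgroup.centralizer ((Q.map (MulAut.conj x).toMonoidHom) : Set G)) (Cfsg.conjBlock Q x f) (t : G)) ∧ Cfsg.IsDefectGroup p M F' ((P ⊓ Subgroup.normalizer ((Q.map (MulAut.conj x).toMonoidHom) : Set G)).subgroupOf T') := by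
  have := charP_kM hM
  have hm := isMax_of_isMaximalBrauerPair hM hmax
  have hle' := le_of_subpairLE hM hle
  have hQ := hm.isPGroup_of_le hle'
  obtain rfl := eq_normalizer_inf_stab hM hf hT
  have hT := between_top_stab (isBlk_hat hM hf)
  constructor
  · obtain ⟨F, hF, h1, h2⟩ := exists_block_of_between hM hQ hf hT
      (le_inf le_normalizer (isBlk_hat hM hf).self_le_stab)
    obtain ⟨D, hD, h⟩ := hm.exists_isDefect_ge hle' hT
    exact ⟨F, hF, h2, D.subgroupOf _, (isDefectGroup_subgroupOf_iff hM hF hD.le).2 (by rwa [h1]),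
      fun t ht => h ⟨ht.1, t.2⟩⟩
  · obtain ⟨x, -, h1, h2⟩ := hm.exists_conj_isDefect_inf le_top hQ
      (isBlk_hat hM hf) (hm.br_mul_of_le hle') hT
    refine ⟨x, (subpairLE_conjBlock_iff hM hf hmax.1.1.2 x).2 h1, fun T' hT' => ?_⟩
    have hf' := isPBlock_conjBlock x hf
    obtain rfl := eq_normalizer_inf_stab hM hf' hT'
    obtain ⟨F, hF, h3, h4⟩ := exists_block_of_between hM (hQ.map _) hf'
      (between_top_stab (isBlk_hat hM hf'))
      (le_inf le_normalizer (isBlk_hat hM hf').self_le_stab)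
    rw [map_conj_inf, map_conj_normalizer, ← stab_cj, ← hat_conjBlock] at h2
    rw [← hat_conjBlock] at h1
    have h5 := hm.inf_normalizer_le_stab h1
    refine ⟨F, hF, h4, ?_⟩
    rw [isDefectGroup_subgroupOf_iff hM hF (le_inf inf_le_right h5), h3]
    rwa [← inf_assoc, inf_eq_left.2 h5] at h2

end Cfsg.Agent.S4662
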