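import Cfsg.Statements.S4664
import Cfsg.Agent.Block.BlockOrth
import Cfsg.Agent.Char.Cyclo

set_option autoImplicit false
open Cfsg

namespace Cfsg.Agent.S4664

open Cfsg.Lib.Block Cfsg.Lib.Char

/-- Fix a prime p and a maximal ideal M of the algebraic integers containing p, and let B be a p-block of the finite group G. Let m be the p'-part of the order of G and η = exp(2πi/m). Then every coefficient of the idempotent of B lies in the cyclotomic field ℚ(η). -/
theorem result {G : Type*} [Group G] [Fintype G] (p : ℕ) [Fact p.Prime] (M : Ideal Cfsg.AlgInt) (hM : Cfsg.IsPModular p M) (B : Set (Cfsg.IrrCharacter G)) (hB : Cfsg.IsPBlock M B) (g : G) : Cfsg.blockCoeff B g ∈ IntermediateField.adjoin ℚ ({Complex.exp (2 * Real.pi * Complex.I / ((Nat.card G / p ^ (Nat.card G).factorization p : ℕ) : ℂ))} : Set ℂ) := by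
  classical
  by_cases hg : p ∣ orderOf g
  · rw [blockCoeff_eq_zero_of_dvd hM hB hg]; exact zero_mem _
  set m := Nat.card G / p ^ (Nat.card G).factorization p with hm
  have hm0 : m ≠ 0 := (Nat.ordCompl_pos p Nat.card_pos.ne').ne'
  have hgm : g⁻¹ ^ m = 1 := by
    rw [inv_pow, inv_eq_one, ← orderOf_dvd_iff_pow_eq_one]
    refine Nat.Coprime.dvd_of_dvd_mul_left
      (((Nat.Prime.coprime_iff_not_dvd hM.1).mpr hg).symm.pow_right
        ((Nat.card G).factorization p)) ?_
    rw [hm, Nat.ordProj_mul_ordCompl_eq_self]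
    exact orderOf_dvd_natCard g
  have hle : cycField m ≤ IntermediateField.adjoin ℚ
      ({Complex.exp (2 * Real.pi * Complex.I / (m : ℂ))} : Set ℂ) := by
    rw [cycField, IntermediateField.adjoin_le_iff]
    intro z hz
    have : NeZero m := ⟨hm0⟩
    obtain ⟨i, -, rfl⟩ := (Complex.isPrimitiveRoot_exp m hm0).eq_pow_of_pow_eq_one hz
    exact pow_mem (IntermediateField.mem_adjoin_simple_self ℚ _) i
  refine hle ?_
  rw [blockCoeff_eq_inv]
  refine mul_mem (inv_mem (natCast_mem _ _)) (sum_mem fun χ _ => ?_)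
  split_ifs
  · exact mul_mem (char_mem_cycField χ.2.isCharacter hm0 (one_pow m))
      (char_mem_cycField χ.2.isCharacter hm0 hgm)
  · exact zero_mem _

end Cfsg.Agent.S4664
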