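import Cfsg.Statements.S4666
import Cfsg.Agent.Block.Contrib

set_option autoImplicit false
open Cfsg

namespace Cfsg.Agent.S4666

open Cfsg.Lib.Char Cfsg.Lib.Block

/-- Fix a prime p and a maximal ideal M of the algebraic integers containing p, and a p-block B of the finite group G of defect d. For every integer combination χ of the irreducible characters in B, p^d times the function that agrees with χ on p-regular elements and vanishes elsewhere is again an integer combination of the irreducible characters in B. -/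
theorem result {G : Type*} [Group G] [Fintype G] (p : ℕ) [Fact p.Prime] (M : Ideal Cfsg.AlgInt) (hM : Cfsg.IsPModular p M) (B : Set (Cfsg.IrrCharacter G)) (hB : Cfsg.IsPBlock M B) (χ : G → ℂ) (hχ : (∃ n : Cfsg.IrrCharacter G → ℤ, ∀ g : G, χ g = ∑ᶠ ψ ∈ B, (n ψ : ℂ) * (ψ : G → ℂ) g)) : (∃ n : Cfsg.IrrCharacter G → ℤ, ∀ g : G, (p ^ Cfsg.blockDefect p B : ℂ) * Cfsg.pRegularPart p χ g = ∑ᶠ ψ ∈ B, (n ψ : ℂ) * (ψ : G → ℂ) g) := by
  obtain ⟨n, hn⟩ := hχ
  have h1 : χ = ∑ ψ ∈ irrFin B, (n ψ : ℂ) • (ψ : G → ℂ) := by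
    funext g
    rw [hn, finsum_mem_irr, Finset.sum_apply]; rfl
  refine ⟨fun ξ => ∑ ψ ∈ irrFin B, n ψ * ca p B ψ ξ, fun g => ?_⟩
  have h2 : ((p : ℂ) ^ blockDefect p B) • pRegularPart p χ =
      ∑ ξ ∈ irrFin B, ((∑ ψ ∈ irrFin B, n ψ * ca p B ψ ξ : ℤ) : ℂ) • (ξ : G → ℂ) := by
    rw [h1, pRegularPart_sum, Finset.smul_sum]
    push_cast
    simp only [Finset.sum_smul]
    rw [Finset.sum_comm]
    refine Finset.sum_congr rfl fun ψ hψ => ?_
    rw [pRegularPart_smul, smul_comm, pow_defect_smul_pRegularPart hM hB (mem_irrFin.1 hψ),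
      Finset.smul_sum]
    simp only [mul_smul]
  have h3 := congrFun h2 g
  rw [Finset.sum_apply] at h3
  rw [finsum_mem_irr]
  exact h3

end Cfsg.Agent.S4666
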