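import Cfsg.Statements.S4668
import Cfsg.Agent.Block.PairLocal
import Cfsg.Agent.Block.BlockOrth
import Cfsg.Agent.S4653
import Cfsg.Agent.S0028

set_option autoImplicit false
open Cfsg

namespace Cfsg.Agent.S4668

open Cfsg.Lib.Block Cfsg.Lib.Block.Pair Subgroup
open scoped MonoidAlgebra

/-- Fix a prime p and a maximal ideal M of the algebraic integers containing p. Let Q₀ < Q₁ < ⋯ < Q_m be a strictly increasing chain of p-subgroups of the finite group G and N the intersection of their normalizers. Then every block idempotent of N is supported on C_G(Q_m): for every p-block E of N, the idempotent coefficient of E vanishes at every element of N outside C_G(Q_m). -/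
theorem result {G : Type*} [Group G] [Fintype G] (p : ℕ) [Fact p.Prime] (M : Ideal Cfsg.AlgInt) (hM : Cfsg.IsPModular p M) (m : ℕ) (Q : Fin (m + 1) → Subgroup G) (hQ : StrictMono Q) (hQp : ∀ i, IsPGroup p (Q i)) (N : Subgroup G) (hN : ∀ g : G, g ∈ N ↔ ∀ i, g ∈ Subgroup.normalizer (Q i : Set G)) (E : Set (Cfsg.IrrCharacter N)) (hE : Cfsg.IsPBlock M E) (n : N) (hn : (n : G) ∉ Subgroup.centralizer (Q (Fin.last m) : Set G)) : Cfsg.blockCoeff E n = 0 := by
  by_contra h0
  have := Fintype.ofFinite N
  have hreg : ¬ p ∣ orderOf (n : G) := fun h =>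
    h0 (blockCoeff_eq_zero_of_dvd hM hE (by rwa [Subgroup.orderOf_coe] at h))
  have hnorm : ((Q (Fin.last m)).subgroupOf N).Normal :=
    normal_subgroupOf_of_le_normalizer' fun g hg => (hN g).1 hg _
  have hC : n ∈ centralizer (((Q (Fin.last m)).subgroupOf N : Subgroup N) : Set N) := by
    by_contra h
    exact h0 (S4653.result p M hM ((Q (Fin.last m)).subgroupOf N) ((hQp _).comap_subtype) E hE n h)
  have hR : ∀ u, u ∈ N → u ∈ Q (Fin.last m) → u ∈ centralizer (zpowers (n : G) : Set G) := by
    intro u hu hu'
    have h1 : (⟨u, hu⟩ : N) * n = n * ⟨u, hu⟩ := mem_centralizer_iff.1 hC ⟨u, hu⟩ hu'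
    have h2 : Commute u (n : G) := congrArg Subtype.val h1
    rintro _ ⟨k, rfl⟩
    exact (h2.zpow_right k).symm.eq
  have key : ∀ i, zpowers (n : G) ≤ centralizer (Q i : Set G) := by
    intro i
    induction i using Fin.induction with
    | zero =>
      rw [le_centralizer_iff]
      exact fun u hu => hR u ((hN u).2 fun j => le_normalizer (hQ.monotone (Fin.zero_le j) hu))
        (hQ.monotone (Fin.zero_le _) hu)
    | succ i ih =>
      refine S0028.result p (Q i.castSucc) _ (Q i.succ) (hQp _) ?_ (hQp _)
        (le_centralizer_iff.1 ih) ((hQ.monotone i.castSucc_lt_succ.le).trans le_normalizer)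
        (zpowers_le.2 ((hN _).1 n.2 _)) fun u hu => hR u ((hN u).2 fun j => ?_)
          (hQ.monotone (Fin.le_last _) hu.1)
      · rw [Nat.card_zpowers]
        exact ((Fact.out : p.Prime).coprime_iff_not_dvd.2 hreg).symm
      · by_cases hj : j ≤ i.castSucc
        · exact centralizer_le_normalizer _ (centralizer_le (hQ.monotone hj) hu.2)
        · exact le_normalizer (hQ.monotone (Fin.castSucc_lt_iff_succ_le.1 (not_le.1 hj)) hu.1)
  exact hn (key _ (mem_zpowers _))

end Cfsg.Agent.S4668
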