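import Cfsg.Statements.S4670
import Cfsg.Agent.Block.PairLocal

set_option autoImplicit false
open Cfsg

namespace Cfsg.Agent.S4670

open Cfsg.Lib.Block Cfsg.Lib.Block.Pair Subgroup
open scoped MonoidAlgebra

theorem key {G k : Type*} [Group G] [Finite G] [Field k] {p : ℕ} [Fact p.Prime] [CharP k p]
    {P K K' : Subgroup G} (hK : normalizer (P : Set G) ≤ K) (hK' : normalizer (P : Set G) ≤ K')
    {b : k[G]} (hb : IsPrim K K b) (hD : IsDefect p K b P) :
    ∃! b', IsPrim K' K' b' ∧ IsDefect p K' b' P ∧ br P b = br P b' := by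
  have hC := centralizer_le_normalizer (P : Set G)
  have h1 := hb.isPrim_br le_rfl le_normalizer hD
  have h2 := hD.isDefect_br
  rw [inf_eq_right.2 hK, ← inf_eq_right.2 hK'] at h1 h2
  rw [inf_eq_right.2 (hC.trans hK), ← inf_eq_right.2 (hC.trans hK')] at h1
  obtain ⟨b', hb', h3⟩ := exists_isPrim_br_mul_ne_zero (le_refl K') P h1.ne_zero
  obtain ⟨h4, h5⟩ := hb'.isDefect_of_br_mul_ne_zero le_rfl le_normalizer h1 h2 h3
  refine ⟨b', ⟨hb', h4, h5.symm⟩, fun b'' h => ?_⟩
  refine h.1.eq_of_br_mul_ne_zero le_rfl hb' h4.le h4.isPGroup ?_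
  rw [← h.2.2, h5, h1.idem.eq]
  exact h1.ne_zero

theorem cong_iff {G : Type*} [Group G] [Finite G] {p : ℕ} {M : Ideal AlgInt}
    (hM : IsPModular p M) {P H : Subgroup G} {B : Set (IrrCharacter G)} (hB : IsPBlock M B)
    {c : Set (IrrCharacter H)} (hc : IsPBlock M c) :
    (∀ x : G, x ∈ centralizer (P : Set G) →
      MemLocalIdeal M (blockCoeff B x - subgroupBlockCoeff H c x)) ↔
      br P (eB M B) = br P (hat M H c) := by
  have h1 : ∀ x, MemLocalIdeal M (blockCoeff B x - subgroupBlockCoeff H c x) ↔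
      (eB M B).coeff x = (hat M H c).coeff x := fun x => by
    rw [memLocalIdeal_sub_iff_redM_of_le hM (isAlgebraic_blockCoeff B x)
      (isAlgebraic_subgroupBlockCoeff H c x) (vM_blockCoeff_le_one hM hB x)
      (vM_subgroupBlockCoeff_le_one hM hc x), coeff_eB, coeff_hat]
  simp only [h1]
  constructor
  · intro h
    ext x
    by_cases hx : x ∈ centralizer (P : Set G)
    · rw [coeff_br_of_mem _ hx, coeff_br_of_mem _ hx, h x hx]
    · rw [coeff_br_of_notMem _ hx, coeff_br_of_notMem _ hx]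
  · intro h x hx
    rw [← coeff_br_of_mem _ hx, h, coeff_br_of_mem _ hx]

/-- Fix a prime p and a maximal ideal M of the algebraic integers containing p. Let P be a p-subgroup of the finite group G and H a subgroup containing N_G(P). For every p-block B of G with defect group P there is exactly one p-block c of H with defect group P whose idempotent agrees with that of B, modulo the local ideal at M, at every element of C_G(P) (their Brauer-map images at P coincide); and every p-block c of H with defect group P arises in this way from exactly one such B. This is the Brauer correspondence over H. -/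
theorem result {G : Type*} [Group G] [Fintype G] (p : ℕ) [Fact p.Prime] (M : Ideal Cfsg.AlgInt) (hM : Cfsg.IsPModular p M) (P H : Subgroup G) (hP : IsPGroup p P) (hH : Subgroup.normalizer (P : Set G) ≤ H) : (∀ B : Set (Cfsg.IrrCharacter G), Cfsg.IsPBlock M B → Cfsg.IsDefectGroup p M B P → ∃! c : Set (Cfsg.IrrCharacter H), Cfsg.IsPBlock M c ∧ Cfsg.IsDefectGroup p M c (P.subgroupOf H) ∧ ∀ x : G, x ∈ Subgroup.centralizer (P : Set G) → Cfsg.MemLocalIdeal M (Cfsg.blockCoeff B x - Cfsg.subgroupBlockCoeff H c x)) ∧ (∀ c : Set (Cfsg.IrrCharacter H), Cfsg.IsPBlock M c → Cfsg.IsDefectGroup p M c (P.subgroupOf H) → ∃! B : Set (Cfsg.IrrCharacter G), Cfsg.IsPBlock M B ∧ Cfsg.IsDefectGroup p M B P ∧ ∀ x : G, x ∈ Subgroup.centralizer (P : Set G) → Cfsg.MemLocalIdeal M (Cfsg.blockCoeff B x - Cfsg.subgroupBlockCoeff H c x)) := by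
  have := charP_kM hM
  have hPH : P ≤ H := le_normalizer.trans hH
  constructor
  · intro B hB hD
    obtain ⟨b', ⟨h1, h2, h3⟩, hu⟩ := key le_top hH (isPrim_eB hM hB)
      ((isDefectGroup_iff_isDefect hM hB).1 hD)
    obtain ⟨c, hc, rfl⟩ := h1.exists_eq_hat hM
    refine ⟨c, ⟨hc, (isDefectGroup_subgroupOf_iff hM hc hPH).2 h2, (cong_iff hM hB hc).2 h3⟩,
      fun c' h => block_eq_of_hat_eq hM h.1 hc (hu _ ⟨isPrim_hat hM h.1,
        (isDefectGroup_subgroupOf_iff hM h.1 hPH).1 h.2.1, (cong_iff hM hB h.1).1 h.2.2⟩)⟩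
  · intro c hc hD
    obtain ⟨b', ⟨h1, h2, h3⟩, hu⟩ := key hH le_top (isPrim_hat hM hc)
      ((isDefectGroup_subgroupOf_iff hM hc hPH).1 hD)
    obtain ⟨B, hB, rfl⟩ := h1.exists_eq_eB hM
    refine ⟨B, ⟨hB, (isDefectGroup_iff_isDefect hM hB).2 h2, (cong_iff hM hB hc).2 h3.symm⟩,
      fun B' h => block_eq_of_eB_eq hM h.1 hB (hu _ ⟨isPrim_eB hM h.1,
        (isDefectGroup_iff_isDefect hM h.1).1 h.2.1, ((cong_iff hM h.1 hc).1 h.2.2).symm⟩)⟩

end Cfsg.Agent.S4670
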