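import Cfsg.Statements.S4672
import Cfsg.Agent.Block.CoverDefect

set_option autoImplicit false
open Cfsg Cfsg.Lib.Char Cfsg.Lib.Block Cfsg.Lib.Block.Pair

namespace Cfsg.Agent.S4672

/-- Fix a prime p and a maximal ideal M of the algebraic integers containing p. Let N be a normal subgroup of the finite group G of p-power index and c a p-block of N stable under conjugation by G. Then the idempotent of c is a block idempotent of G: there is a p-block B of G whose idempotent coefficients agree with those of c on N and vanish off N; and for every defect group P of such a block B, G = NP and P ∩ N is a defect group of c. -/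
theorem result {G : Type*} [Group G] [Fintype G] (p : ℕ) [Fact p.Prime] (M : Ideal Cfsg.AlgInt) (hM : Cfsg.IsPModular p M) (N : Subgroup G) [N.Normal] (hN : ∃ k : ℕ, N.index = p ^ k) (c : Set (Cfsg.IrrCharacter N)) (hc : Cfsg.IsPBlock M c) (hst : ∀ x : G, Cfsg.StabilizesBlock N c x) : (∃ B : Set (Cfsg.IrrCharacter G), Cfsg.IsPBlock M B ∧ ∀ g : G, Cfsg.blockCoeff B g = Cfsg.subgroupBlockCoeff N c g) ∧ ∀ B : Set (Cfsg.IrrCharacter G), Cfsg.IsPBlock M B → (∀ g : G, Cfsg.blockCoeff B g = Cfsg.subgroupBlockCoeff N c g) → ∀ P : Subgroup G, Cfsg.IsDefectGroup p M B P → N ⊔ P = ⊤ ∧ Cfsg.IsDefectGroup p M c ((P ⊓ N).subgroupOf N) := by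
  haveI := charP_kM hM
  have hst' : stabB c = ⊤ := eq_top_iff.2 fun g _ => stabilizesBlock_iff_mem_stabB.1 (hst g)
  have hK : (⊤ : Subgroup G) ≤ stab (hat M N c) := by rw [← stabB_eq_stab hM hc, hst']
  have hKN : (⊤ : Subgroup G) ≤ Subgroup.normalizer (N : Set G) := by
    rw [Subgroup.normalizer_eq_top]
  have he := isPrim_hat hM hc
  refine ⟨?_, fun B hB hco P hP => ?_⟩
  · obtain ⟨B, hB, hcov⟩ := exists_covers_above hM hc
    refine ⟨B, hB, fun g => ?_⟩
    rw [hcov.eq_overSet_of_index hM hN hB hc, ← coeff_fB, ← incSub_fB_eq_fB_overSet hst',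
      Pair.coeff_incSub_fB]
  · have heq : eB M B = hat M N c := by
      ext g
      change (eB M B).coeff g = (hat M N c).coeff g
      rw [coeff_eB, coeff_hat, hco]
    have hPd := (isDefectGroup_iff_isDefect hM hB).1 hP
    rw [heq] at hPd
    refine ⟨hPd.sup_eq_of_relIndex le_top hKN he hK (by rwa [Subgroup.relIndex_top_right]), ?_⟩
    exact (isDefectGroup_subgroupOf_iff hM hc inf_le_right).2
      (hPd.isDefect_inf_of_stable le_top hKN he hK)

end Cfsg.Agent.S4672
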