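import Cfsg.Statements.S4673
import Cfsg.Agent.Block.CoverDefect
import Cfsg.Agent.Block.Fong

set_option autoImplicit false
open Cfsg Cfsg.Lib.Char Cfsg.Lib.Block Cfsg.Lib.Block.Pair

namespace Cfsg.Agent.S4673

/-- Fix a prime p and a maximal ideal M of the algebraic integers containing p. Let N ≤ L be normal subgroups of the finite group G with L/N a p-group, let B be a p-block of G covering the p-block c of N (some member of B has a constituent in c on restriction to N), and suppose that N contains a defect group of B. Then the stabilizer T of c in G satisfies T ∩ L = N. -/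
theorem result {G : Type*} [Group G] [Fintype G] (p : ℕ) [Fact p.Prime] (M : Ideal Cfsg.AlgInt) (hM : Cfsg.IsPModular p M) (N L : Subgroup G) [N.Normal] [L.Normal] [Fintype N] (hNL : N ≤ L) (hLN : ∃ k : ℕ, (N.subgroupOf L).index = p ^ k) (B : Set (Cfsg.IrrCharacter G)) (hB : Cfsg.IsPBlock M B) (c : Set (Cfsg.IrrCharacter N)) (hc : Cfsg.IsPBlock M c) (hcov : (∃ χ ∈ B, ∃ θ ∈ c, Cfsg.classInner (fun n : N => (χ : G → ℂ) n) (θ : N → ℂ) ≠ 0)) (hD : ∃ D : Subgroup G, Cfsg.IsDefectGroup p M B D ∧ D ≤ N) (T : Subgroup G) (hT : ∀ x : G, x ∈ T ↔ Cfsg.StabilizesBlock N c x) : T ⊓ L = N := by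
  haveI := charP_kM hM
  have hp : p.Prime := Fact.out
  have hT' : T = stab (hat M N c) := by
    rw [← stabB_eq_stab hM hc]
    exact Subgroup.ext fun x => (hT x).trans stabilizesBlock_iff_mem_stabB
  have hnN : ∀ K : Subgroup G, K ≤ Subgroup.normalizer (N : Set G) := fun K => by
    rw [Subgroup.normalizer_eq_top]; exact le_top
  have hnL : ∀ K : Subgroup G, K ≤ Subgroup.normalizer (L : Set G) := fun K => by
    rw [Subgroup.normalizer_eq_top]; exact le_top
  have he := isPrim_hat hM hc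
  have hNT : N ≤ T := hT' ▸ he.le_stab
  have hNS : N ≤ T ⊓ L := le_inf hNT hNL
  have hS : T ⊓ L ≤ stab (hat M N c) := hT' ▸ inf_le_left
  obtain ⟨E, hE⟩ := (he.of_le_stab hNS hS).exists_isDefect p hNS (hnN _)
  obtain ⟨k, hk⟩ := hLN
  have hsup : N ⊔ E = T ⊓ L := by
    refine hE.sup_eq_of_relIndex hNS (hnN _) he hS ?_
    have h1 : N.relIndex (T ⊓ L) ∣ p ^ k := by
      rw [← hk]
      exact Dvd.intro _ (Subgroup.relIndex_mul_relIndex N (T ⊓ L) L hNS inf_le_right)
    obtain ⟨j, -, hj⟩ := (Nat.dvd_prime_pow hp).1 h1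
    exact ⟨j, hj⟩
  have hreg : ∀ g ∈ L, ¬ p ∣ orderOf g → g ∈ N := fun g hg h => by
    have := mem_of_not_dvd_orderOf_of_index (N := N.subgroupOf L) hp ⟨k, hk⟩ (g := ⟨g, hg⟩)
      (by rwa [← Subgroup.orderOf_coe])
    exact this
  have hf : IsPrim L L (orbSum L (hat M N c)) :=
    (he.isPrim_orbSum le_rfl hNL (hnN _) (hnN _)).of_regular_mem hM hNL hreg
  have hfe : orbSum L (hat M N c) * hat M N c = hat M N c :=
    he.orbSum_mul_of_mem le_rfl (hnN _) (hnN _) (mem_orb_self _ _)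
  have hEL : E ≤ L := hE.le.trans inf_le_right
  have hbr : br E (orbSum L (hat M N c)) ≠ 0 :=
    br_ne_zero_of_mul_eq hE.isPGroup (hEL.trans hf.le_stab) (hE.le.trans hS) hfe hE.br_ne_zero
  obtain ⟨Q, hQ, hEQ⟩ := hf.exists_isDefect_ge le_rfl (hnL _) hEL hE.isPGroup hbr
  have hne := (covers_iff_mul_hat_ne_zero hM hB hc).1 (covers_iff.2 hcov)
  have hne' : eB M B * orbSum L (hat M N c) ≠ 0 := fun h => hne (by
    rw [← hfe, ← mul_assoc, h, zero_mul])
  obtain ⟨P, hP, hPQ⟩ := hf.knorr le_top (hnL _) hQ (isPrim_eB hM hB) hne'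
  obtain ⟨D, hD, hDN⟩ := hD
  obtain ⟨y, -, hy⟩ := hP.exists_conj ((isDefectGroup_iff_isDefect hM hB).1 hD)
  have hPN : P ≤ N := by
    rw [← hy]
    rintro _ ⟨x, hx, rfl⟩
    exact ‹N.Normal›.conj_mem x (hDN hx) y
  rw [← hsup]
  exact sup_eq_left.2 (hEQ.trans (hPQ ▸ inf_le_left.trans hPN))

end Cfsg.Agent.S4673
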