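import Cfsg.Statements.S4674
import Cfsg.Agent.Block.CoverDefect

set_option autoImplicit false
open Cfsg Cfsg.Lib.Char Cfsg.Lib.Block Cfsg.Lib.Block.Pair

namespace Cfsg.Agent.S4674

open Subgroup in
theorem isInducedBlockIn_iff_br {G : Type*} [Group G] [Finite G] {p : ℕ} [Fact p.Prime]
    {M : Ideal AlgInt} (hM : IsPModular p M) {P L N : Subgroup G} (hP : IsPGroup p P)
    (hPL : P ≤ L) (hLN : L ≤ N) (hCL : N ⊓ centralizer (P : Set G) ≤ L)
    (hLP : L ≤ normalizer (P : Set G)) {e : Set (IrrCharacter L)} {d : Set (IrrCharacter N)}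
    (he : IsPBlock M e) (hd : IsPBlock M d) :
    IsInducedBlockIn M N L e d ↔ br P (hat M N d) * hat M L e ≠ 0 := by
  have hPN : P ≤ N := hPL.trans hLN
  have hmap : (P.subgroupOf N).map N.subtype = P := by
    rw [subgroupOf_map_subtype, inf_eq_left.2 hPN]
  rw [isInducedBlockIn_iff_subgroupOf hLN,
    isInducedBlock_iff_br_mul hM (P := P.subgroupOf N) (hP.of_equiv
      (subgroupOfEquivOfLe hPN).symm) (fun x hx => hPL hx) ?_ ?_ (isPBlock_trB_of _ he) hd,
    ← emb_ne_zero_iff N.subtype_injective, map_mul, ← br_emb N.subtype_injective, hmap,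
    emb_hat_subB hLN]
  · rfl
  · intro x hx
    exact hCL ⟨x.2, (mem_centralizer_subgroupOf_iff hPN).1 hx⟩
  · intro x hx
    rw [← mem_normalizer_map_iff N.subtype_injective, hmap]
    exact hLP hx

open Subgroup in
theorem defect_of_local {G : Type*} [Group G] [Finite G] {p : ℕ} [Fact p.Prime] {k : Type*}
    [Field k] [CharP k p] {Q D : Subgroup G} {B c : MonoidAlgebra k G} (hB : IsPrim ⊤ ⊤ B)
    (hc : IsPrim (normalizer (Q : Set G)) (normalizer (Q : Set G)) c)
    (hD : IsDefect p (normalizer (Q : Set G)) c D) (hQD : Q ≤ D)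
    (hN : normalizer (D : Set G) ≤ normalizer (Q : Set G)) (h : br Q B * c = c) :
    IsDefect p ⊤ B D ∧ br D B = br D c := by
  have h1 := isPrim_br_normalizer hc hD
  have h2 := hD.isDefect_br
  rw [inf_eq_right.2 hN, ← top_inf_eq (normalizer (D : Set G))] at h1 h2
  refine isDefect_of_br_mul_normalizer hB h1 h2 ?_
  rw [← br_br_of_le hQD B, ← br_mul hD.isPGroup ((le_inf (le_top.trans hB.le_stab) hD.le).trans
    (stab_inf_normalizer_le_stab_br Q B)) (hD.le.trans hc.le_stab), h]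
  exact hD.br_ne_zero

/-- Fix a prime p and a maximal ideal M of the algebraic integers containing p. Let N be a normal subgroup of the finite group G, Q a p-subgroup of N, H = N_G(Q) and L = H ∩ N = N_N(Q). Let d be a p-block of N with defect group Q and e the p-block of L with defect group Q that induces d inside N (its Brauer correspondent). Then block induction from H to G is a bijection from the p-blocks of H covering e onto the p-blocks of G covering d: every block of H covering e induces exactly one block of G, and that block covers d; and every block of G covering d is induced by exactly one block of H covering e. -/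
theorem result {G : Type*} [Group G] [Fintype G] (p : ℕ) [Fact p.Prime] (M : Ideal Cfsg.AlgInt) (hM : Cfsg.IsPModular p M) (N : Subgroup G) [N.Normal] [Fintype N] (Q : Subgroup G) (hQ : IsPGroup p Q) (hQN : Q ≤ N) [Fintype ↥(Subgroup.normalizer (Q : Set G) ⊓ N)] (d : Set (Cfsg.IrrCharacter N)) (hd : Cfsg.IsPBlock M d) (hdQ : Cfsg.IsDefectGroup p M d (Q.subgroupOf N)) (e : Set (Cfsg.IrrCharacter ↥(Subgroup.normalizer (Q : Set G) ⊓ N))) (he : Cfsg.IsPBlock M e) (heQ : Cfsg.IsDefectGroup p M e (Q.subgroupOf (Subgroup.normalizer (Q : Set G) ⊓ N))) (hed : Cfsg.IsInducedBlockIn M N (Subgroup.normalizer (Q : Set G) ⊓ N) e d) : (∀ c : Set (Cfsg.IrrCharacter ↥(Subgroup.normalizer (Q : Set G))), Cfsg.IsPBlock M c → (∃ ψ ∈ c, ∃ ξ ∈ e, Cfsg.classInner (fun l : ↥(Subgroup.normalizer (Q : Set G) ⊓ N) => (ψ : ↥(Subgroup.normalizer (Q : Set G)) → ℂ) (Subgroup.inclusion inf_le_left l)) (ξ : ↥(Subgroup.normalizer (Q : Set G) ⊓ N) → ℂ) ≠ 0) → ∃! B : Set (Cfsg.IrrCharacter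 G), Cfsg.IsInducedBlock M (Subgroup.normalizer (Q : Set G)) c B ∧ (∃ χ ∈ B, ∃ θ ∈ d, Cfsg.classInner (fun n : N => (χ : G → ℂ) n) (θ : N → ℂ) ≠ 0)) ∧ (∀ B : Set (Cfsg.IrrCharacter G), Cfsg.IsPBlock M B → (∃ χ ∈ B, ∃ θ ∈ d, Cfsg.classInner (fun n : N => (χ : G → ℂ) n) (θ : N → ℂ) ≠ 0) → ∃! c : Set (Cfsg.IrrCharacter ↥(Subgroup.normalizer (Q : Set G))), (Cfsg.IsPBlock M c ∧ ∃ ψ ∈ c, ∃ ξ ∈ e, Cfsg.classInner (fun l : ↥(Subgroup.normalizer (Q : Set G) ⊓ N) => (ψ : ↥(Subgroup.normalizer (Q : Set G)) → ℂ) (Subgroup.inclusion inf_le_left l)) (ξ : ↥(Subgroup.normalizer (Q : Set G) ⊓ N) → ℂ) ≠ 0) ∧ Cfsg.IsInducedBlock M (Subgroup.normalizer (Q : Set G)) c B) := by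
  haveI := charP_kM hM
  have hnN : ∀ K : Subgroup G, K ≤ Subgroup.normalizer (N : Set G) := fun K => by
    rw [Subgroup.normalizer_eq_top]; exact le_top
  have hQH : Q ≤ Subgroup.normalizer (Q : Set G) := Subgroup.le_normalizer
  have hCH : Subgroup.centralizer (Q : Set G) ≤ Subgroup.normalizer (Q : Set G) :=
    Subgroup.centralizer_le_normalizer _
  have hQL : Q ≤ Subgroup.normalizer (Q : Set G) ⊓ N := le_inf hQH hQN
  have hHL : Subgroup.normalizer (Q : Set G) ≤
      Subgroup.normalizer ((Subgroup.normalizer (Q : Set G) ⊓ N : Subgroup G) : Set G) :=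
    fun x hx => mem_normalizer_inf (Subgroup.le_normalizer hx) (hnN ⊤ (Subgroup.mem_top x))
  haveI := normal_subgroupOf_of_le_normalizer' hHL
  have hdp := isPrim_hat hM hd
  have hep := isPrim_hat hM he
  have hdD := (isDefectGroup_subgroupOf_iff hM hd hQN).1 hdQ
  have heD := (isDefectGroup_subgroupOf_iff hM he hQL).1 heQ
  have hde : br Q (hat M N d) = hat M _ e := by
    have h1 := (isInducedBlockIn_iff_br hM hQ hQL inf_le_right
      (le_inf (inf_le_right.trans hCH) inf_le_left) inf_le_left he hd).1 hed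
    generalize hat M _ e = e' at hep heD h1
    rw [inf_comm] at hep heD
    exact (isDefect_of_br_mul_normalizer hdp hep heD h1).2
  have hcovH : ∀ c : Set (IrrCharacter (Subgroup.normalizer (Q : Set G))), IsPBlock M c →
      ((∃ ψ ∈ c, ∃ ξ ∈ e, classInner (fun l : ↥(Subgroup.normalizer (Q : Set G) ⊓ N) =>
        (ψ : ↥(Subgroup.normalizer (Q : Set G)) → ℂ) (Subgroup.inclusion inf_le_left l))
        (ξ : ↥(Subgroup.normalizer (Q : Set G) ⊓ N) → ℂ) ≠ 0) ↔ hat M _ c * hat M _ e ≠ 0) :=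
    fun c hc => (covers_subB_iff inf_le_left).symm.trans
      (covers_subB_iff_hat_mul_ne_zero hM inf_le_left hc he)
  have hbrm : ∀ B : Set (IrrCharacter G), IsPBlock M B →
      br Q (eB M B * hat M N d) = br Q (eB M B) * hat M _ e := fun B hB => by
    rw [br_mul hQ (le_top.trans (isPrim_eB hM hB).le_stab) (hQN.trans hdp.le_stab), hde]
  refine ⟨fun c hc hcov => ?_, fun B hB hcov => ?_⟩
  · obtain ⟨B, hB⟩ := inducedBlockDefined_of_local hM hQ hQH hCH le_rfl hc
    refine ⟨B, ⟨hB, ?_⟩, fun B' hB' => isInducedBlock_unique' hM hB'.1 hB⟩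
    rw [← covers_iff, covers_iff_mul_hat_ne_zero hM hB.2.1 hd]
    intro h0
    have h1 := (isInducedBlock_iff_br_mul_eq hM hQ hQH hCH le_rfl hc hB.2.1).1 hB
    have h2 := hbrm B hB.2.1
    rw [h0, map_zero] at h2
    have hm := br_mem_fix (isPrim_eB hM hB.2.1).mem Q
    rw [top_inf_eq, top_inf_eq] at hm
    refine (hcovH c hc).1 hcov ?_
    rw [← h1, (commute_of_mem_fix le_rfl (fix_mono hCH le_rfl hm) (isPrim_hat hM hc).mem).eq,
      mul_assoc, ← h2, mul_zero]
  · have hBp := isPrim_eB hM hB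
    have hne := (covers_iff_mul_hat_ne_zero hM hB hd).1 (covers_iff.2 hcov)
    have h1 := hdp.br_mul_ne_zero_graded le_top (hnN ⊤) hQ hQN hdD.br_ne_zero
      (fix_mono le_rfl le_top hBp.mem) hBp.idem hne
    rw [hbrm B hB] at h1
    have hm := br_mem_fix hBp.mem Q
    rw [top_inf_eq, top_inf_eq] at hm
    obtain ⟨c', hc', hmul, hne'⟩ := exists_isPrim le_rfl (fun a => a * hat M _ e ≠ 0)
      (by simp) (fun a b h => by
        by_contra hh
        push Not at hh
        exact h (by rw [add_mul, hh.1, hh.2, add_zero]))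
      (fix_mono hCH le_rfl hm) (br_isIdempotentElem hQ (le_top.trans hBp.le_stab) hBp.idem) h1
    obtain ⟨c, hc, rfl⟩ := hc'.exists_eq_hat hM
    refine ⟨c, ⟨⟨hc, (hcovH c hc).2 hne'⟩,
      (isInducedBlock_iff_br_mul_eq hM hQ hQH hCH le_rfl hc hB).2 hmul⟩, ?_⟩
    rintro c₂ ⟨⟨hc₂, hcov₂⟩, hind₂⟩
    have hne₂ := (hcovH c₂ hc₂).1 hcov₂
    have hmul₂ := (isInducedBlock_iff_br_mul_eq hM hQ hQH hCH le_rfl hc₂ hB).1 hind₂
    have hc₂' := isPrim_hat hM hc₂
    have key : ∀ {a : MonoidAlgebra (kM M) G} {D : Subgroup G},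
        IsPrim (Subgroup.normalizer (Q : Set G)) (Subgroup.normalizer (Q : Set G)) a →
        IsDefect p (Subgroup.normalizer (Q : Set G)) a D → D ⊓ N = Q →
        br Q (eB M B) * a = a → IsDefect p ⊤ (eB M B) D ∧ br D (eB M B) = br D a :=
      fun {a D} ha hD hDN h => defect_of_local hBp ha hD (hDN ▸ inf_le_left)
        (fun x hx => hDN ▸ mem_normalizer_inf hx (hnN ⊤ (Subgroup.mem_top x))) h
    have hinf : ∀ {D : Subgroup G}, D ≤ Subgroup.normalizer (Q : Set G) →
        D ⊓ (Subgroup.normalizer (Q : Set G) ⊓ N) = Q → D ⊓ N = Q := fun {D} h1 h2 => by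
      rwa [← inf_assoc, inf_eq_left.2 h1] at h2
    obtain ⟨D, hD, hDQ⟩ := hep.knorr inf_le_left hHL heD hc' hne'
    obtain ⟨D₂, hD₂, hDQ₂⟩ := hep.knorr inf_le_left hHL heD hc₂' hne₂
    have hDN := hinf hD.le hDQ
    have hDN₂ := hinf hD₂.le hDQ₂
    obtain ⟨hBD, hbr⟩ := key hc' hD hDN hmul
    obtain ⟨y, -, hy⟩ := hBD.exists_conj (key hc₂' hD₂ hDN₂ hmul₂).1
    have hyH : y ∈ Subgroup.normalizer (Q : Set G) := by
      rw [← map_conj_eq_self_iff]
      conv_lhs => rw [← hDN₂]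
      rw [map_conj_inf, hy, map_conj_eq_self_iff.2 (hnN ⊤ (Subgroup.mem_top y)), hDN]
    have hD₂' := hD₂.conj hc₂'.le_stab hyH
    rw [hy] at hD₂'
    have hbr₂ := (key hc₂' hD₂' hDN hmul₂).2
    refine block_eq_of_hat_eq hM hc₂ hc (hc₂'.eq_of_br_mul_ne_zero le_rfl hc' hD.le hD.isPGroup ?_)
    rw [← hbr, ← hbr₂, ← br_mul hD.isPGroup (le_top.trans hBp.le_stab) (le_top.trans hBp.le_stab),
      hBp.idem.eq]
    exact hBD.br_ne_zero

end Cfsg.Agent.S4674
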