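import Cfsg.Statements.S4675
import Cfsg.Agent.Block.BasicSet
import Cfsg.Agent.Block.DefectNum

set_option autoImplicit false
open Cfsg

namespace Cfsg.Agent.S4675

open Cfsg.Lib.Char Cfsg.Lib.Block

/-- Fix a prime p and a maximal ideal M of the algebraic integers containing p. Let B be a p-block of the finite group G with defect group P and p-regular rank one (a single irreducible Brauer character). Then there are a function φ on G that is, on the p-regular elements, an integer combination of the members of B, and natural numbers d_χ (χ ∈ B), such that every χ ∈ B agrees with d_χ·φ on the p-regular elements and Σ_{χ ∈ B} d_χ² equals the order of P (the single Cartan invariant of B is the order of P). -/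
theorem result {G : Type*} [Group G] [Fintype G] (p : ℕ) [Fact p.Prime] (M : Ideal Cfsg.AlgInt) (hM : Cfsg.IsPModular p M) (B : Set (Cfsg.IrrCharacter G)) (hB : Cfsg.IsPBlock M B) (P : Subgroup G) (hP : Cfsg.IsDefectGroup p M B P) (hl : Cfsg.blockRank p B = 1) : ∃ φ : G → ℂ, ∃ d : Cfsg.IrrCharacter G → ℕ, (∃ n : Cfsg.IrrCharacter G → ℤ, ∀ x : G, Cfsg.IsPRegular p x → φ x = ∑ᶠ ψ ∈ B, (n ψ : ℂ) * (ψ : G → ℂ) x) ∧ (∀ χ ∈ B, ∀ x : G, Cfsg.IsPRegular p x → (χ : G → ℂ) x = (d χ : ℂ) * φ x) ∧ ∑ᶠ χ ∈ B, d χ ^ 2 = Nat.card P := by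
  obtain ⟨φ, h1, h2, h3⟩ := exists_generator_of_rank_one hM hB hl
  have hpos : ∀ χ ∈ B, 0 ≤ bf p B (rE p B χ) φ := by
    intro χ hχ
    have h4 := dg_rE_pos (p := p) hχ
    rw [h3 (rE p B χ), map_smul, smul_eq_mul] at h4
    exact ((pos_iff_pos_of_mul_pos h4).2 h2).le
  refine ⟨φ, fun χ => (bf p B (rE p B χ) φ).toNat, ?_, fun χ hχ x hx => ?_, ?_⟩
  · obtain ⟨n, hn⟩ := mem_regLat_iff.1 φ.2
    refine ⟨n, fun x hx => ?_⟩
    rw [hn, pRegularPart_of_regular p _ hx, finsum_mem_irr, Finset.sum_apply]; rfl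
  · have h4 := congrFun (congrArg Subtype.val (h3 (rE p B χ))) x
    rw [coe_rE hχ, pRegularPart_of_regular p _ hx] at h4
    rw [h4, ← Int.cast_natCast, Int.toNat_of_nonneg (hpos χ hχ)]
    simp
  · have h4 := sum_bf_mul_bf hM hB φ φ
    rw [h1, mul_one] at h4
    rw [card_defect hM hB hP, finsum_mem_irr]
    apply Nat.cast_injective (R := ℤ)
    push_cast
    rw [← h4]
    refine Finset.sum_congr rfl fun χ hχ => ?_
    rw [Int.toNat_of_nonneg (hpos χ (mem_irrFin.1 hχ)), bf_symm, sq]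

end Cfsg.Agent.S4675
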