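import Cfsg.Statements.S4679
import Cfsg.Agent.Block.PairFusion

set_option autoImplicit false
open Cfsg

namespace Cfsg.Agent.S4679

open Cfsg.Lib.Block Cfsg.Lib.Block.Pair Subgroup
open scoped MonoidAlgebra

/-- Fix a prime p and a maximal ideal M of the algebraic integers containing p, a p-block B of the finite group G with maximal Brauer pair (P, e), its fusion system F on P, a Brauer pair (Q, f) ≤ (P, e), and let T be the stabilizer of f in N_G(Q). Then Q is fully normalized in F if and only if N_P(Q) is a defect group of the block of T whose idempotent is that of f. -/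
theorem result {G : Type*} [Group G] [Fintype G] (p : ℕ) [Fact p.Prime] (M : Ideal Cfsg.AlgInt) (hM : Cfsg.IsPModular p M) (B : Set (Cfsg.IrrCharacter G)) (P : Subgroup G) (e : Set (Cfsg.IrrCharacter (Subgroup.centralizer (P : Set G)))) (hmax : Cfsg.IsMaximalBrauerPair p M B P e) (F : Cfsg.FusionSystem P) (hF : Cfsg.IsBlockFusionSystemOn p M B P e F) (Q : Subgroup G) (f : Set (Cfsg.IrrCharacter (Subgroup.centralizer (Q : Set G)))) (hQP : Q ≤ P) (hf : Cfsg.IsPBlock M f) (hle : Cfsg.SubpairLE p M Q f P e) (T : Subgroup G) (hT : ∀ y : G, y ∈ T ↔ y ∈ Subgroup.normalizer (Q : Set G) ∧ Cfsg.StabilizesBlock (Subgroup.centralizer (Q : Set G)) f y) : F.IsFullyNormalized Q ↔ ∃ F' : Set (Cfsg.IrrCharacter T), Cfsg.IsPBlock M F' ∧ (∀ t : T, Cfsg.blockCoeff F' t = Cfsg.subgroupBlockCoeff (Subgroup.centralizer (Q : Set G)) f (t : G)) ∧ Cfsg.IsDefectGroup p M F' ((P ⊓ Subgroup.normalizer (Q : Set G)).subgroupOf T) := by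
  have := charP_kM hM
  have hm := isMax_of_isMaximalBrauerPair hM hmax
  have h1 := le_of_subpairLE hM hle
  obtain rfl := eq_normalizer_inf_stab hM hf hT
  have h2 := between_top_stab (isBlk_hat hM hf)
  have h3 : P ⊓ normalizer (Q : Set G) ≤ normalizer (Q : Set G) ⊓ stab (hat M _ f) :=
    le_inf inf_le_right (hm.inf_normalizer_le_stab h1)
  rw [hm.isFullyNormalized_iff ((isBlockFusionSystemOn_iff hM).1 hF).2 h1, top_inf_eq]
  constructor
  · intro hD
    obtain ⟨F', h4, h5, h6⟩ := exists_block_of_between hM (hm.isPGroup_of_le h1) hf h2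
      ((le_inf hQP le_normalizer).trans h3)
    exact ⟨F', h4, h6, (isDefectGroup_subgroupOf_iff hM h4 h3).2 (by rwa [h5])⟩
  · rintro ⟨F', h4, h5, h6⟩
    rwa [isDefectGroup_subgroupOf_iff hM h4 h3,
      hat_eq_of_blockCoeff_eq (le_inf le_top le_rfl |>.trans h2.le) h5] at h6

end Cfsg.Agent.S4679
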