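import Cfsg.Statements.S4682
import Cfsg.Agent.Block.PairFusion

set_option autoImplicit false
open Cfsg

namespace Cfsg.Agent.S4682

open Cfsg.Lib.Block Cfsg.Lib.Block.Pair Subgroup
open scoped MonoidAlgebra

/-- Fix a prime p and a maximal ideal M of the algebraic integers containing p, a p-block B of the finite group G with maximal Brauer pair (P, e), P abelian, and a Brauer pair (Q, f) ≤ (P, e). Let T_Q be the stabilizer of f in N_G(Q) and T_P the stabilizer of e in N_G(P). Then every element of T_Q is a product of an element of T_P and an element of C_G(Q); and the index of C_G(Q) in T_Q equals the index of T_P ∩ C_G(Q) in T_P ∩ N_G(Q). -/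
theorem result {G : Type*} [Group G] [Fintype G] (p : ℕ) [Fact p.Prime] (M : Ideal Cfsg.AlgInt) (hM : Cfsg.IsPModular p M) (B : Set (Cfsg.IrrCharacter G)) (P : Subgroup G) (e : Set (Cfsg.IrrCharacter (Subgroup.centralizer (P : Set G)))) (hmax : Cfsg.IsMaximalBrauerPair p M B P e) (hab : ∀ x ∈ P, ∀ y ∈ P, x * y = y * x) (Q : Subgroup G) (f : Set (Cfsg.IrrCharacter (Subgroup.centralizer (Q : Set G)))) (hQP : Q ≤ P) (hf : Cfsg.IsPBlock M f) (hle : Cfsg.SubpairLE p M Q f P e) (TQ : Subgroup G) (hTQ : ∀ y : G, y ∈ TQ ↔ y ∈ Subgroup.normalizer (Q : Set G) ∧ Cfsg.StabilizesBlock (Subgroup.centralizer (Q : Set G)) f y) (TP : Subgroup G) (hTP : ∀ y : G, y ∈ TP ↔ y ∈ Subgroup.normalizer (P : Set G) ∧ Cfsg.StabilizesBlock (Subgroup.centralizer (P : Set G)) e y) : (∀ x ∈ TQ, ∃ y ∈ TP, ∃ c ∈ Subgroup.centralizer (Q : Set G), x = y * c) ∧ ((Subgroup.centralizer (Q : Set G)).subgroupOf TQ).index = ((TP ⊓ Subgroup.centralizer (Q : Set G)).subgroupOf (TP ⊓ Subgroup.normalizer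 (Q : Set G))).index := by
  have := charP_kM hM
  have hm := isMax_of_isMaximalBrauerPair hM hmax
  obtain ⟨he, hB, -⟩ := (isMaximalBrauerPair_iff hM).1 hmax
  have h1 := le_of_subpairLE hM hle
  obtain rfl := eq_normalizer_inf_stab hM hf hTQ
  obtain rfl := eq_normalizer_inf_stab hM he hTP
  have h2 : ∀ x ∈ normalizer (Q : Set G) ⊓ stab (hat M _ f), ∃ y ∈ normalizer (P : Set G) ⊓
      stab (hat M _ e), ∃ c ∈ centralizer (Q : Set G), x = y * c := by
    intro x hx
    obtain ⟨y, hy, c, hc, h3⟩ := hm.exists_mul_of_le_centralizer h1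
      (fun x hx y hy => hab y (hQP hy) x hx) (x := x) ⟨⟨trivial, hx.1⟩, hx.2⟩
    exact ⟨y, ⟨hy.1.2, hy.2⟩, c, hc.2, h3⟩
  refine ⟨h2, ?_⟩
  have h3 : normalizer (Q : Set G) ⊓ stab (hat M _ f) = centralizer (Q : Set G) ⊔
      normalizer (P : Set G) ⊓ stab (hat M _ e) ⊓ normalizer (Q : Set G) := by
    have h4 := (between_top_stab (isBlk_hat hM hf)).le
    rw [top_inf_eq] at h4
    refine le_antisymm (fun x hx => ?_) (sup_le h4 (le_inf inf_le_right fun y hy =>
      hm.mem_stab_of_mem h1 trivial hy.1.1 hy.1.2 hy.2))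
    obtain ⟨y, hy, c, hc, rfl⟩ := h2 x hx
    refine mul_mem (mem_sup_right ⟨hy, ?_⟩) (mem_sup_left hc)
    have h5 : y * c ∈ normalizer (Q : Set G) := hx.1
    simpa using mul_mem h5 (inv_mem (centralizer_le_normalizer _ hc))
  change relIndex _ _ = relIndex _ _
  rw [h3, relIndex_sup_of_le_normalizer
    (inf_le_right.trans (normalizer_le_normalizer_centralizer Q)), ← inf_relIndex_right,
    ← inf_relIndex_right (_ ⊓ centralizer (Q : Set G))]
  congr 1
  ac_rfl

end Cfsg.Agent.S4682
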