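import Cfsg.Statements.S4683
import Cfsg.Agent.Block.Subsec

set_option autoImplicit false
open Cfsg

namespace Cfsg.Agent.S4683

open Cfsg.Lib.Char Cfsg.Lib.Block

/-- Fix a prime p and a maximal ideal M of the algebraic integers containing p, a p-block B of the finite group G, a p-element u and a p-block e of C = C_G(u) such that (⟨u⟩, e) is a Brauer pair of B (a Brauer element of B). For χ ∈ B let χ_u be the e-part of the class function c ↦ χ(u c) on C and χ_u' the e-part of c ↦ χ(u⁻¹ c). Then the sum over χ ∈ B and over the p-regular elements s of C of χ_u(s)·χ_u'(s⁻¹) equals the order of C times the p-regular rank of e (the number of irreducible Brauer characters of e). -/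
theorem result {G : Type*} [Group G] [Fintype G] (p : ℕ) [Fact p.Prime] (M : Ideal Cfsg.AlgInt) (hM : Cfsg.IsPModular p M) (B : Set (Cfsg.IrrCharacter G)) (u : G) (hu : ∃ k : ℕ, orderOf u = p ^ k) (e : Set (Cfsg.IrrCharacter (Subgroup.centralizer (Subgroup.zpowers u : Set G)))) (hBe : Cfsg.IsBrauerPairOf p M B (Subgroup.zpowers u) e) : ∑ᶠ χ ∈ B, ∑ᶠ s : Subgroup.centralizer (Subgroup.zpowers u : Set G), Cfsg.pRegularPart p (Cfsg.blockPart e (fun c : Subgroup.centralizer (Subgroup.zpowers u : Set G) => (χ : G → ℂ) (u * c))) s * Cfsg.blockPart e (fun c : Subgroup.centralizer (Subgroup.zpowers u : Set G) => (χ : G → ℂ) (u⁻¹ * c)) s⁻¹ = (Nat.card (Subgroup.centralizer (Subgroup.zpowers u : Set G)) : ℂ) * (Cfsg.blockRank p e : ℂ) := by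
  classical
  have hind := (isBrauerPairOf_zpowers_iff hM hu).1 hBe
  rw [← sum_classInner_subRes_self hM (centralizer_zpowers_eq u) hu hind, finsum_mem_irr,
    Finset.mul_sum]
  refine Finset.sum_congr rfl fun χ _ => ?_
  rw [finsum_eq_sum_of_fintype, subRes_apply, classInner_pRegularPart_both, card_mul_classInner]
  refine Finset.sum_congr rfl fun s _ => ?_
  congr 1
  rw [blockPart_apply, blockPart_apply, map_sum]
  refine Finset.sum_congr rfl fun ξ _ => ?_
  rw [map_mul, ξ.2.isCharacter.apply_inv]
  congr 1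
  unfold classInner
  rw [map_mul, map_sum]
  congr 1
  · simp
  · refine Fintype.sum_equiv (Equiv.inv _) _ _ fun c => ?_
    have hc : Commute u c := (cent_mem_iff (centralizer_zpowers_eq u)).1 c.2
    simp only [Equiv.inv_apply, map_mul, shiftLin_apply, Subgroup.coe_inv]
    rw [← ξ.2.isCharacter.apply_inv, ← ξ.2.isCharacter.apply_inv, ← χ.2.isCharacter.apply_inv,
      mul_inv_rev, inv_inv, hc.inv_left.eq, inv_inv, ξ.2.isCharacter.apply_inv]

end Cfsg.Agent.S4683
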