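import Cfsg.Statements.S4684
import Cfsg.Agent.Block.StarLin

set_option autoImplicit false
open Cfsg Cfsg.Lib.Block Cfsg.Lib.Char

namespace Cfsg.Agent.S4684

/-- Fix a prime p and a maximal ideal M of the algebraic integers containing p, a p-block B of the finite group G with maximal Brauer pair (P, e) and fusion system F on P. Then the number of irreducible characters of height zero in B is divisible by the index in P of the focal subgroup of F. -/
theorem result {G : Type*} [Group G] [Fintype G] (p : ℕ) [Fact p.Prime] (M : Ideal Cfsg.AlgInt) (hM : Cfsg.IsPModular p M) (B : Set (Cfsg.IrrCharacter G)) (P : Subgroup G) (e : Set (Cfsg.IrrCharacter (Subgroup.centralizer (P : Set G)))) (hmax : Cfsg.IsMaximalBrauerPair p M B P e) (F : Cfsg.FusionSystem P) (hF : Cfsg.IsBlockFusionSystemOn p M B P e F) : (F.focalSubgroup.subgroupOf P).index ∣ Nat.card {χ : Cfsg.IrrCharacter G // χ ∈ B ∧ Cfsg.blockHeight p B (χ : G → ℂ) = 0} := by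
  obtain ⟨-, hF'⟩ := (Pair.isBlockFusionSystemOn_iff hM).1 hF
  have hB := ((Pair.isMaximalBrauerPair_iff hM).1 hmax).2.1
  have h := Pair.isMax_of_isMaximalBrauerPair hM hmax
  rw [← Subgroup.relIndex_top_right]
  exact Star.relIndex_dvd_card hM h hB (fun u v huv => Star.mem_focalSubgroup_of_ef hF' huv) ⊤
    (fun χ => blockHeight p B χ = 0)
    (fun χ ψ h1 h2 => by rwa [blockHeight, charDegree, ← h1])
    fun χ hχ h0 w _ => Star.sr_ne_zero_of_height_zero hM h hB hχ h0 w

end Cfsg.Agent.S4684
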