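import Cfsg.Statements.S4685
import Cfsg.Agent.Block.StarLin

set_option autoImplicit false
open Cfsg Cfsg.Lib.Block Cfsg.Lib.Char

namespace Cfsg.Agent.S4685

/-- Fix a prime p and a maximal ideal M of the algebraic integers containing p, a p-block B of the finite group G with maximal Brauer pair (P, e) and fusion system F on P. Then for every h the number of irreducible characters of height h in B is divisible by the index of Z(P) ∩ foc(F) in Z(P), where foc(F) is the focal subgroup of F. -/
theorem result {G : Type*} [Group G] [Fintype G] (p : ℕ) [Fact p.Prime] (M : Ideal Cfsg.AlgInt) (hM : Cfsg.IsPModular p M) (B : Set (Cfsg.IrrCharacter G)) (P : Subgroup G) (e : Set (Cfsg.IrrCharacter (Subgroup.centralizer (P : Set G)))) (hmax : Cfsg.IsMaximalBrauerPair p M B P e) (F : Cfsg.FusionSystem P) (hF : Cfsg.IsBlockFusionSystemOn p M B P e F) (h : ℕ) : ((P ⊓ Subgroup.centralizer (P : Set G) ⊓ F.focalSubgroup).subgroupOf (P ⊓ Subgroup.centralizer (P : Set G))).index ∣ Nat.card {χ : Cfsg.IrrCharacter G // χ ∈ B ∧ Cfsg.blockHeight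 p B (χ : G → ℂ) = h} := by
  obtain ⟨-, hF'⟩ := (Pair.isBlockFusionSystemOn_iff hM).1 hF
  have hB := ((Pair.isMaximalBrauerPair_iff hM).1 hmax).2.1
  have hm := Pair.isMax_of_isMaximalBrauerPair hM hmax
  have h1 := Star.relIndex_dvd_card hM hm hB (N := F.focalSubgroup.subgroupOf P)
    (fun u v huv => Star.mem_focalSubgroup_of_ef hF' huv)
    ((P ⊓ Subgroup.centralizer (P : Set G)).subgroupOf P)
    (fun χ => blockHeight p B χ = h)
    (fun χ ψ h1 h2 => by rwa [blockHeight, charDegree, ← h1])
    fun χ hχ _ w hw => Star.sr_ne_zero_of_central hM hm hB hχ fun x hx =>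
      Subgroup.mem_centralizer_iff.2 fun y hy => by
        rw [Set.mem_singleton_iff.1 hy]
        exact (Subgroup.mem_centralizer_iff.1 hw.2 x hx).symm
  rwa [Subgroup.relIndex_subgroupOf inf_le_left, ← Subgroup.inf_relIndex_left] at h1

end Cfsg.Agent.S4685
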