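import Cfsg.Statements.S4686
import Cfsg.Agent.Block.PairFusion

set_option autoImplicit false
open Cfsg

namespace Cfsg.Agent.S4686

open Cfsg.Lib.Block Cfsg.Lib.Block.Pair Subgroup
open scoped MonoidAlgebra

/-- Fix a prime p and a maximal ideal M of the algebraic integers containing p, a p-block B of the finite group G with maximal Brauer pair (P, e) and fusion system F on P. Then B is nilpotent (for every Brauer pair (Q, f) of B the stabilizer of f in N_G(Q) is C_G(Q) extended by a p-group) if and only if F is the inner fusion system of P: its maps from each subgroup of P are exactly the conjugations by elements of P. -/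
theorem result {G : Type*} [Group G] [Fintype G] (p : ℕ) [Fact p.Prime] (M : Ideal Cfsg.AlgInt) (hM : Cfsg.IsPModular p M) (B : Set (Cfsg.IrrCharacter G)) (P : Subgroup G) (e : Set (Cfsg.IrrCharacter (Subgroup.centralizer (P : Set G)))) (hmax : Cfsg.IsMaximalBrauerPair p M B P e) (F : Cfsg.FusionSystem P) (hF : Cfsg.IsBlockFusionSystemOn p M B P e F) : Cfsg.IsNilpotentBlock p M B ↔ ∀ Q : Subgroup G, F.Hom Q = (Cfsg.innerFusionSystem P).Hom Q := by
  have := charP_kM hM
  have hm := isMax_of_isMaximalBrauerPair hM hmax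
  have h1 := ((isBlockFusionSystemOn_iff hM).1 hF).2
  rw [isNilpotentBlock_iff hM, and_iff_right ((isMaximalBrauerPair_iff hM).1 hmax).2.1]
  constructor
  · intro hn Q
    ext φ
    rw [h1]
    constructor
    · rintro ⟨x, hx, h2, h3⟩
      obtain ⟨u, hu, h4⟩ := hm.inner_of_nilp hn hx h3
      exact ⟨h3.le, u, hu, fun q => (h2 q).trans (h4 q q.2)⟩
    · rintro ⟨hQ, u, hu, h2⟩
      exact ⟨u, trivial, h2, hm.fuses_of_mem hQ hu⟩
  · intro h
    refine hm.nilp_of_inner fun Q x hx hf => ?_
    have h2 := (h1 Q (Cfsg.conjHom Q x)).2 ⟨x, hx, fun _ => rfl, hf⟩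
    rw [h] at h2
    obtain ⟨-, u, hu, h3⟩ := h2
    exact ⟨u, hu, fun q hq => h3 ⟨q, hq⟩⟩

end Cfsg.Agent.S4686
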