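import Cfsg.Statements.S4688
import Cfsg.Agent.Block.PairFusion

set_option autoImplicit false
open Cfsg

namespace Cfsg.Agent.S4688

open Cfsg.Lib.Block Cfsg.Lib.Block.Pair Subgroup
open scoped MonoidAlgebra

/-- Fix a prime p and a maximal ideal M of the algebraic integers containing p, and a nilpotent p-block B of the finite group G with maximal Brauer pair (P, e). Then for every Brauer pair (Q, f) of B, f is a nilpotent block of C_G(Q); and if moreover (Q, f) ≤ (P, e), then C_P(Q) is a defect group of f as a block of C_G(Q). -/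
theorem result {G : Type*} [Group G] [Fintype G] (p : ℕ) [Fact p.Prime] (M : Ideal Cfsg.AlgInt) (hM : Cfsg.IsPModular p M) (B : Set (Cfsg.IrrCharacter G)) (P : Subgroup G) (e : Set (Cfsg.IrrCharacter (Subgroup.centralizer (P : Set G)))) (hmax : Cfsg.IsMaximalBrauerPair p M B P e) (hnil : Cfsg.IsNilpotentBlock p M B) (Q : Subgroup G) (f : Set (Cfsg.IrrCharacter (Subgroup.centralizer (Q : Set G)))) (hQf : Cfsg.IsBrauerPairOf p M B Q f) : Cfsg.IsNilpotentBlock p M f ∧ (Cfsg.SubpairLE p M Q f P e → Cfsg.IsDefectGroup p M f ((P ⊓ Subgroup.centralizer (Q : Set G)).subgroupOf (Subgroup.centralizer (Q : Set G)))) := by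
  have := charP_kM hM
  have hm := isMax_of_isMaximalBrauerPair hM hmax
  obtain ⟨hB, hn⟩ := (isNilpotentBlock_iff hM).1 hnil
  obtain ⟨hQ, hf, -, h1⟩ := (Pair.isBrauerPairOf_iff hM).1 hQf
  refine ⟨(isNilpotentBlock_iff_hat hM).2 ⟨hf, ?_⟩, fun hle => ?_⟩
  · have := hn.of_pair hm.prim le_top hQ (isBlk_hat hM hf) h1
    rwa [top_inf_eq] at this
  · have := hm.isDefect_centralizer_of_nilp hn (le_of_subpairLE hM hle)
    rwa [top_inf_eq, ← isDefectGroup_subgroupOf_iff hM hf inf_le_right] at this

end Cfsg.Agent.S4688
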