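import Cfsg.Statements.S4690
import Cfsg.Agent.Block.StarLin

set_option autoImplicit false
open Cfsg Cfsg.Lib.Block Cfsg.Lib.Char

namespace Cfsg.Agent.S4690

/-- Fix a prime p and a maximal ideal M of the algebraic integers containing p, and a nilpotent p-block B of the finite group G with defect group P. Then there is a bijection from B onto the irreducible characters of P carrying the height of each χ ∈ B to the exponent of p in the degree of its image. -/
theorem result {G : Type*} [Group G] [Fintype G] (p : ℕ) [Fact p.Prime] (M : Ideal Cfsg.AlgInt) (hM : Cfsg.IsPModular p M) (B : Set (Cfsg.IrrCharacter G)) (hnil : Cfsg.IsNilpotentBlock p M B) (P : Subgroup G) (hP : Cfsg.IsDefectGroup p M B P) : ∃ Φ : B ≃ Cfsg.IrrCharacter P, ∀ χ : B, Cfsg.blockHeight p B ((χ : Cfsg.IrrCharacter G) : G → ℂ) = (Cfsg.charDegree ((Φ χ : Cfsg.IrrCharacter P) : P → ℂ)).factorization p := by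
  obtain ⟨hB, hn⟩ := (Pair.isNilpotentBlock_iff hM).1 hnil
  obtain ⟨e, h⟩ := exists_isMax_eB hM hB hP
  obtain ⟨χ₀, hχ₀, h0⟩ := Ht.exists_eq_minVal p (isPBlock_nonempty hM hB)
  have h0' := (Ht.blockHeight_eq_zero_iff hχ₀).2 h0
  obtain ⟨Φ, hΦ⟩ := Star.exists_equiv_star hM h hB (Star.isConj_of_nilp hM h hn) hχ₀ h0'
  refine ⟨Φ.symm, fun χ => ?_⟩
  have h1 := hΦ (Φ.symm χ)
  rw [Φ.apply_symm_apply] at h1
  rw [Star.blockHeight_star hM h hB hχ₀ (Φ.symm χ).2.isCharacter h1, h0', add_zero]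

end Cfsg.Agent.S4690
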