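import Cfsg.Statements.S4693
import Cfsg.Agent.Block.PairPrinc

set_option autoImplicit false
open Cfsg

namespace Cfsg.Agent.S4693

open Cfsg.Lib.Block Cfsg.Lib.Block.Pair Subgroup
open scoped MonoidAlgebra

/-- Fix a prime p and a maximal ideal M of the algebraic integers containing p, a p-block B of the finite group G with maximal Brauer pair (P, e) and fusion system F on P, and a Brauer pair (Q, f) ≤ (P, e) with Q centric in F. Suppose every element of G normalizes Q and stabilizes f. Then the idempotent of B agrees with that of f modulo M at every element of G, and f is the idempotent of a nilpotent block of Q·C_G(Q): some p-block of Q·C_G(Q) has the idempotent coefficients of f and is nilpotent. -/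
theorem result {G : Type*} [Group G] [Fintype G] (p : ℕ) [Fact p.Prime] (M : Ideal Cfsg.AlgInt) (hM : Cfsg.IsPModular p M) (B : Set (Cfsg.IrrCharacter G)) (P : Subgroup G) (e : Set (Cfsg.IrrCharacter (Subgroup.centralizer (P : Set G)))) (hmax : Cfsg.IsMaximalBrauerPair p M B P e) (F : Cfsg.FusionSystem P) (hF : Cfsg.IsBlockFusionSystemOn p M B P e F) (Q : Subgroup G) (f : Set (Cfsg.IrrCharacter (Subgroup.centralizer (Q : Set G)))) (hQP : Q ≤ P) (hf : Cfsg.IsPBlock M f) (hle : Cfsg.SubpairLE p M Q f P e) (hcen : F.IsCentric Q) (hG : ∀ x : G, x ∈ Subgroup.normalizer (Q : Set G) ∧ Cfsg.StabilizesBlock (Subgroup.centralizer (Q : Set G)) f x) : (∀ g : G, Cfsg.MemLocalIdeal M (Cfsg.blockCoeff B g - Cfsg.subgroupBlockCoeff (Subgroup.centralizer (Q : Set G)) f g)) ∧ ∃ F' : Set (Cfsg.IrrCharacter ↥(Q ⊔ Subgroup.centralizer (Q : Set G))), Cfsg.IsPBlock M F' ∧ (∀ t : ↥(Q ⊔ Subgroup.centralizer (Q : Set G)), Cfsg.blockCoeff F' t = Cfsg.subgroupBlockCoeff (Subgroup.centralizer (Q : Set G)) f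 (t : G)) ∧ Cfsg.IsNilpotentBlock p M F' := by
  have := charP_kM hM
  have hm := isMax_of_isMaximalBrauerPair hM hmax
  have hB := ((isMaximalBrauerPair_iff hM).1 hmax).2.1
  have h1 := le_of_subpairLE hM hle
  have hQ := hm.isPGroup_of_le h1
  have hf' := isBlk_hat hM hf
  have hD := (hm.isCentric_iff ((isBlockFusionSystemOn_iff hM).1 hF).2 h1).1 hcen
  have hN : ⊤ ≤ normalizer (Q : Set G) := fun x _ => (hG x).1
  have hS : ⊤ ≤ stab (hat M _ f) := fun x _ => ((normalizer_stabilizesBlock_iff hM hf).1 (hG x)).2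
  constructor
  · have h2 := hm.br_mul_of_le h1
    rw [br_eq_self (suppOn_centralizer_of_idem hQ le_top hN hm.prim.mem hm.prim.idem)] at h2
    have h3 := hm.prim.eq_of_mul_ne_zero le_rfl
      ((hf'.of_le_stab le_top hS).isPrim_self hQ le_top hN le_rfl le_top) (h2.trans_ne hf'.ne_zero)
    intro g
    rw [memLocalIdeal_sub_iff_redM_of_le hM (isAlgebraic_blockCoeff B g)
      (isAlgebraic_subgroupBlockCoeff _ f g) (vM_blockCoeff_le_one hM hB g)
      (vM_subgroupBlockCoeff_le_one hM hf g), ← coeff_eB, ← coeff_hat, h3]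
  · obtain ⟨F', h2, h3, h4⟩ := exists_block_of_between hM hQ hf (T := Q ⊔ centralizer (Q : Set G))
      ⟨inf_le_right.trans le_sup_right, le_top, le_top.trans hN, le_top.trans hS⟩ le_sup_left
    refine ⟨F', h2, h4, (isNilpotentBlock_iff_hat hM).2 ⟨h2, fun S g hST hSp hg hfg x hx _ _ hxp =>
      centralizer_le (hD.le_of_le_sup hf' hQ (le_normalizer_top Q) (by rwa [top_inf_eq]) hSp
        fun h0 => hg.ne_zero ?_) (mem_centralizer_of_mem_sup hQ hxp hx)⟩⟩
    rw [← hfg, h3, h0, zero_mul]

end Cfsg.Agent.S4693
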