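import Cfsg.Statements.S4694
import Cfsg.Agent.Block.PairPrinc
import Cfsg.Agent.S0969
import Cfsg.Agent.Block.CentQuot
import Cfsg.Agent.Block.CoverDefect

set_option autoImplicit false
open Cfsg

namespace Cfsg.Agent.S4694

open Cfsg.Lib.Block Cfsg.Lib.Block.Pair Subgroup
open scoped MonoidAlgebra

/-- Fix a prime p and a maximal ideal M of the algebraic integers containing p, a p-block B of the finite group G and a Brauer pair (Q, e) of B. Let T be the stabilizer of e in N_G(Q) and suppose that (Q, e) carries a weight: the block of T whose idempotent is that of e contains an irreducible character χ that is constant on the cosets of Q and whose degree has p-part equal to the p-part of the index of Q in T. Then Z(Q) is a defect group of e as a block of C_G(Q), and Q is the largest normal p-subgroup of T: every p-subgroup of T normalized by T lies in Q. -/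
theorem result {G : Type*} [Group G] [Fintype G] (p : ℕ) [Fact p.Prime] (M : Ideal Cfsg.AlgInt) (hM : Cfsg.IsPModular p M) (B : Set (Cfsg.IrrCharacter G)) (Q : Subgroup G) (e : Set (Cfsg.IrrCharacter (Subgroup.centralizer (Q : Set G)))) (hQe : Cfsg.IsBrauerPairOf p M B Q e) (T : Subgroup G) (hT : ∀ y : G, y ∈ T ↔ y ∈ Subgroup.normalizer (Q : Set G) ∧ Cfsg.StabilizesBlock (Subgroup.centralizer (Q : Set G)) e y) (F' : Set (Cfsg.IrrCharacter T)) (hF' : Cfsg.IsPBlock M F') (hF'e : ∀ t : T, Cfsg.blockCoeff F' t = Cfsg.subgroupBlockCoeff (Subgroup.centralizer (Q : Set G)) e (t : G)) (χ : Cfsg.IrrCharacter T) (hχ : χ ∈ F') (hχQ : ∀ q : G, q ∈ Q → ∀ t : T, ∀ t' : T, (t' : G) = q * (t : G) → (χ : T → ℂ) t' = (χ : T → ℂ) t) (hdeg : (Cfsg.charDegree (χ : T → ℂ)).factorization p + (Nat.card Q).factorization p = (Nat.card T).factorization p) : Cfsg.IsDefectGroup p M e ((Q ⊓ Subgroup.centralizer (Q : Set G)).subgroupOf (Subgroup.centralizer (Q : Set G))) ∧ ∀ R : Subgroup G, R ≤ T → IsPGroup p R → (∀ t ∈ T, t ∈ Subgroup.normalizer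 (R : Set G)) → R ≤ Q := by
  have := charP_kM hM
  obtain ⟨⟨hQ, he⟩, -⟩ := hQe
  have hf := isBlk_hat hM he
  have hTe := eq_normalizer_inf_stab hM he hT
  have hTN : T ≤ normalizer (Q : Set G) := hTe ▸ inf_le_left
  have hCT : centralizer (Q : Set G) ≤ T := by
    have h1 := (between_top_stab hf).le
    rwa [top_inf_eq, ← hTe] at h1
  have hQT : Q ≤ T := hTe ▸ le_inf le_normalizer hf.self_le_stab
  have hQn : (Q.subgroupOf T).Normal := (normal_subgroupOf_iff_le_normalizer hQT).2 hTN
  have hπ := QuotientGroup.mk'_surjective (Q.subgroupOf T)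
  set π := QuotientGroup.mk' (Q.subgroupOf T) with hπd
  have hker : ∀ t : T, π t = 1 ↔ (t : G) ∈ Q := fun t => QuotientGroup.eq_one_iff t
  obtain ⟨ψ, rfl⟩ := exists_infI_eq hπ (ψ := χ) fun q hq t => hχQ q ((hker q).1 hq) t _ rfl
  have hψ : IsDefectGroup p M (blockOf M (ψ : (T ⧸ Q.subgroupOf T) → ℂ)) ⊥ := by
    refine (S0969.result p M hM ⊥ IsPGroup.of_bot bot_le ψ ?_).1
    rw [charDegree_infI, ← (Q.subgroupOf T).index_mul_card, Nat.factorization_mul
      index_ne_zero_of_finite Nat.card_pos.ne', Finsupp.add_apply,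
      Nat.card_congr (subgroupOfEquivOfLe hQT).toEquiv] at hdeg
    rw [index_bot, ← index_eq_card]
    omega
  have hC := isPBlock_blockOf (M := M) ψ
  constructor
  · have hN : ((centralizer (Q : Set G)).subgroupOf T).Normal :=
      (normal_subgroupOf_iff_le_normalizer hCT).2 (hTN.trans (normalizer_le_normalizer_centralizer Q))
    let ι := inclusion hCT
    let g := (π.comp ι).rangeRestrict
    have hg : Function.Surjective g := (π.comp ι).rangeRestrict_surjective
    set Z := (Q ⊓ centralizer (Q : Set G)).subgroupOf (centralizer (Q : Set G)) with hZ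
    have hgk : g.ker = Z := by
      ext c
      rw [MonoidHom.ker_rangeRestrict, MonoidHom.mem_ker, MonoidHom.comp_apply, hker]
      exact ⟨fun h => ⟨h, c.2⟩, fun h => h.1⟩
    have hZp : IsPGroup p Z := (hQ.to_le inf_le_left).comap_subtype
    have hZc : Z ≤ center _ := fun z hz => mem_center_iff.2 fun c =>
      Subtype.ext (mem_centralizer_iff.1 c.2 z hz.1).symm
    have hcq : IsCQ p g := ⟨hg, hgk ▸ hZp, fun y _ => mem_centralizer_iff.2 fun z hz =>
      (mem_center_iff.1 (hZc (hgk ▸ hz)) y).symm⟩
    obtain ⟨D, hD⟩ := exists_isDefectGroup hM he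
    have h1 := (isDefectGroup_iff_isDefect_hat hM (hcq.isPBlock hM he)).1
      (hcq.isDefectGroup_map hM he hD)
    have h2 : hat M _ (infI hg ⁻¹' e) = emb π (eB M F') := by
      have h3 : emb ι (eB M e) = eB M F' := emb_injective T.subtype_injective (by
        rw [emb_emb]; exact (hat_eq_of_blockCoeff_eq hCT hF'e).symm)
      rw [hat, ← emb_eB hg (isIntEl_fB hM he), emb_emb, ← h3, emb_emb]
      rfl
    have hr : ((π.comp ι).range).Normal := by
      rw [MonoidHom.range_comp, inclusion_range]
      exact hN.map _ hπ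
    have h4 := (subset_preimage_iff_mul_ne_zero hM hπ hF' hC).1
      (subset_preimage_of_mem hM hπ hF' hC (mem_blockOf_self hM ψ) hχ)
    have h5 := (isPrim_hat hM (hcq.isPBlock hM he)).card_inf_eq_of_cover le_top
      (normalizer_eq_top _).ge h1 (isPrim_eB hM hC) (by
        rw [h2, ← (Subalgebra.mem_center_iff.1 (mem_fix_top_iff.1 (isPrim_eB hM hC).mem) _)]
        exact h4) ((isDefectGroup_iff_isDefect hM hC).1 hψ)
    rw [bot_inf_eq, card_bot, eq_comm, card_eq_one, map_eq_bot_iff_of_injective _
      (subtype_injective _), Subgroup.map_eq_bot_iff, hgk] at h5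
    have hZn : Z.Normal := hgk ▸ g.normal_ker
    rwa [le_antisymm (le_defect_of_normal hM he hZn hZp hD) h5]
  · intro R hR hRp hRN x hx
    have hRn : (R.subgroupOf T).Normal := (normal_subgroupOf_iff_le_normalizer hR).2 hRN
    exact (hker ⟨x, hR hx⟩).1 (le_defect_of_normal hM hC (hRn.map π hπ)
      (hRp.comap_subtype.map π) hψ (mem_map_of_mem π hx))

end Cfsg.Agent.S4694
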