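import Cfsg.Statements.S4696
import Cfsg.Agent.Block.CycCons

set_option autoImplicit false
open Cfsg

namespace Cfsg.Agent.S4696

open Cfsg.Lib.Block Cfsg.Lib.Block.Pair Cfsg.Lib.Block.CD Subgroup

/-- Let p be a prime, M a maximal ideal of the algebraic integers containing p, and B a p-block of the finite group G whose defect group D is cyclic of order p^a with a ≥ 1. Let C = C_G(D), let b be a block of C inducing B, let T be the stabilizer of b in N_G(D) (the elements g of N_G(D) such that the g-conjugate of every member of b is again in b), and let e be the index of C in T (the inertial index of B). Then e divides p − 1, every irreducible character in B has height zero, and B is the disjoint union of a set X of e characters and a set Y of (p^a − 1)/e characters, the members of Y agreeing on p-regular elements, for which there are signs δ_χ = ±1 (χ ∈ X) and δ₀ = ±1 such that: for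 every ψ ∈ Y and every p-regular g, δ₀ ψ(g) + Σ_{χ ∈ X} δ_χ χ(g) = 0; for all χ, χ' ∈ X the integers δ_χ χ(1) and δ_χ' χ'(1) are congruent modulo p^a; and for ψ ∈ Y and χ ∈ X, ψ(1) ≡ −e δ₀ δ_χ χ(1) modulo p^a. -/
theorem result {G : Type*} [Group G] [Finite G] (p : ℕ) [Fact p.Prime] (M : Ideal Cfsg.AlgInt) (hM : Cfsg.IsPModular p M) (D : Subgroup G) (hD : IsCyclic D) (a : ℕ) (ha : 1 ≤ a) (hDa : Nat.card D = p ^ a) (B : Set (Cfsg.IrrCharacter G)) (hB : Cfsg.IsPBlock M B) (hBD : Cfsg.IsDefectGroup p M B D) (b : Set (Cfsg.IrrCharacter (Subgroup.centralizer (D : Set G)))) (hind : Cfsg.IsInducedBlock M (Subgroup.centralizer (D : Set G)) b B) (T : Subgroup G) (hT : ∀ g : G, g ∈ T ↔ (g ∈ Subgroup.normalizer (D : Set G) ∧ ∀ θ ∈ b, ∀ θ' : Cfsg.IrrCharacter (Subgroup.centralizer (D : Set G)), (∀ h h' : Subgroup.centralizer (D : Set G), (h' : G) = g * h * g⁻¹ → (θ' : Subgroup.centralizer (D :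 Set G) → ℂ) h' = (θ : Subgroup.centralizer (D : Set G) → ℂ) h) → θ' ∈ b)) (e : ℕ) (he : (Subgroup.centralizer (D : Set G)).relIndex T = e) : e ∣ p - 1 ∧ (∀ χ ∈ B, Cfsg.blockHeight p B (χ : G → ℂ) = 0) ∧ ∃ X Y : Set (Cfsg.IrrCharacter G), B = X ∪ Y ∧ Disjoint X Y ∧ Nat.card X = e ∧ Nat.card Y = (p ^ a - 1) / e ∧ (∀ ψ ∈ Y, ∀ ψ' ∈ Y, ∀ g : G, ¬ p ∣ orderOf g → (ψ : G → ℂ) g = (ψ' : G → ℂ) g) ∧ ∃ (δ : Cfsg.IrrCharacter G → ℤ) (δ₀ : ℤ), (∀ χ ∈ X, δ χ = 1 ∨ δ χ = -1) ∧ (δ₀ = 1 ∨ δ₀ = -1) ∧ (∀ ψ ∈ Y, ∀ g : G, ¬ p ∣ orderOf g → (δ₀ : ℂ) * (ψ : G → ℂ) g + ∑ᶠ χ ∈ X, (δ χ : ℂ) * (χ : G → ℂ) g = 0) ∧ (∀ χ ∈ X, ∀ χ' ∈ X, δ χ * (Cfsg.charDegree (χ : G → ℂ) : ℤ) ≡ δ χ' * (Cfsg.charDegree (χ' : G → ℂ) : ℤ) [ZMOD (p : ℤ) ^ a]) ∧ (∀ ψ ∈ Y, ∀ χ ∈ X, (Cfsg.charDegree (ψ : G → ℂ) : ℤ) ≡ -((e : ℤ) * δ₀ * δ χ * (Cfsg.charDegree (χ : G → ℂ) : ℤ)) [ZMOD (p : ℤ) ^ a]) := by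
  have := Fintype.ofFinite G
  have hD1 : D ≠ ⊥ := by
    rintro rfl
    rw [card_bot] at hDa
    exact (Nat.one_lt_pow (by omega) (Fact.out : p.Prime).one_lt).ne hDa
  obtain rfl := eq_inf_stab_of_forall hM hind.1 hT
  obtain ⟨Z, c, θ₁, X, Y, μ, ε, s, h, h1⟩ := exists_struct_of_root hM hBD hD1 hind
  obtain rfl := h1.trans he
  have hle : a ≤ (Nat.card G).factorization p :=
    ((Fact.out : p.Prime).pow_dvd_iff_le_factorization Nat.card_pos.ne').1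
      (hDa ▸ card_subgroup_dvd_card D)
  refine ⟨h.inert_dvd, fun χ hχ => h.height_zero hχ, X, Y, h.eq_union,
    Finset.disjoint_coe.2 h.disj, by simpa using h.card_X, by simpa [hDa] using h.card_Y_eq,
    fun ψ hψ ψ' hψ' g hg => h.agree_Y hψ hψ' hg, s, ε, h.sign_X, h.sign, fun ψ hψ g hg => ?_,
    fun χ hχ χ' hχ' => (h.degree_X_modEq hχ hχ').of_dvd (pow_dvd_pow _ hle),
    fun ψ hψ χ hχ => (h.degree_Y_modEq hψ hχ).of_dvd (pow_dvd_pow _ hle)⟩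
  rw [finsum_mem_coe_finset]
  exact h.sign_rel hψ hg

end Cfsg.Agent.S4696
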