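import Cfsg.Statements.S4697
import Cfsg.Agent.Block.CycMin

set_option autoImplicit false
open Cfsg

namespace Cfsg.Agent.S4697

open Cfsg.Lib.Char Cfsg.Lib.Block

theorem closure_pair {D : Type*} [Group D] (x y : D) :
    Subgroup.closure ({x, y} : Set D) = Subgroup.zpowers x ⊔ Subgroup.zpowers y := by
  rw [Subgroup.zpowers_eq_closure, Subgroup.zpowers_eq_closure, ← Subgroup.closure_union]; rfl

theorem card_sup_le {D : Type*} [CommGroup D] [Finite D] (A B : Subgroup D) :
    Nat.card (A ⊔ B : Subgroup D) ≤ Nat.card A * Nat.card B := by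
  rw [← Nat.card_prod]
  refine Nat.card_le_card_of_surjective (fun x : A × B => ⟨x.1 * x.2,
    Subgroup.mul_mem_sup x.1.2 x.2.2⟩) fun ⟨x, hx⟩ => ?_
  obtain ⟨a, ha, b, hb, rfl⟩ := Subgroup.mem_sup.1 hx
  exact ⟨(⟨a, ha⟩, ⟨b, hb⟩), rfl⟩

/-- Let p be a prime, M a maximal ideal of the algebraic integers containing p, and B a p-block of the finite group G with an abelian defect group D of order p^d. If D has rank 2 (its least number of generators is 2) then B contains at most p^d irreducible characters; if D has rank 3 then the number k of irreducible characters in B satisfies k^3 ≤ p^(5d). -/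
theorem result {G : Type*} [Group G] [Finite G] (p : ℕ) [Fact p.Prime] (M : Ideal Cfsg.AlgInt) (hM : Cfsg.IsPModular p M) (B : Set (Cfsg.IrrCharacter G)) (hB : Cfsg.IsPBlock M B) (D : Subgroup G) (hBD : Cfsg.IsDefectGroup p M B D) (hab : IsMulCommutative D) (d : ℕ) (hDd : Nat.card D = p ^ d) : (Group.rank D = 2 → Nat.card B ≤ p ^ d) ∧ (Group.rank D = 3 → Nat.card B ^ 3 ≤ p ^ (5 * d)) := by
  classical
  have hc : ∀ z : D, D ≤ Subgroup.centralizer ({(z : G)} : Set G) := fun z d hd =>
    Subgroup.mem_centralizer_singleton_iff.2 (congrArg Subtype.val (hab.is_comm.comm ⟨d, hd⟩ z))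
  have hp : p.Prime := Fact.out
  obtain rfl : blockDefect p B = d :=
    Nat.pow_right_injective hp.two_le ((card_defect hM hB hBD).symm.trans hDd)
  obtain ⟨S, h1, h2⟩ := Group.rank_spec D
  refine ⟨fun h => ?_, fun h => ?_⟩
  · obtain ⟨x, y, -, rfl⟩ := Finset.card_eq_two.1 (h1.trans h)
    exact card_le_of_two_gen hM hB hBD (hc x) (y := y) (by rw [← closure_pair, ← h2]; simp)
  obtain ⟨z, hz, h3⟩ := S.exists_max_image orderOf (Finset.card_pos.1 (by omega))
  obtain ⟨x, y, -, h4⟩ := Finset.card_eq_two.1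
    (show (S.erase z).card = 2 by rw [Finset.card_erase_of_mem hz]; omega)
  have h5 : Subgroup.zpowers z ⊔ (Subgroup.zpowers x ⊔ Subgroup.zpowers y) = ⊤ := by
    rw [← h2, ← Finset.insert_erase hz, h4, ← closure_pair, Subgroup.zpowers_eq_closure,
      ← Subgroup.closure_union, Finset.coe_insert, Finset.coe_pair]
    rfl
  have hx : x ∈ S := Finset.mem_of_mem_erase (a := z) (by simp [h4])
  have hy : y ∈ S := Finset.mem_of_mem_erase (a := z) (by simp [h4])
  have h6 : p ^ blockDefect p B ≤ orderOf z ^ 3 := by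
    letI : CommGroup D := { (inferInstance : Group D) with mul_comm := hab.is_comm.comm }
    rw [← hDd, ← Subgroup.card_top, ← h5, pow_three]
    refine (card_sup_le _ _).trans (Nat.mul_le_mul (Nat.card_zpowers z).le
      ((card_sup_le _ _).trans (Nat.mul_le_mul ?_ ?_)))
    · exact (Nat.card_zpowers x).trans_le (h3 x hx)
    · exact (Nat.card_zpowers y).trans_le (h3 y hy)
  obtain ⟨H, _, _, c, f, h7, h8, h9, h10, -, h11, -⟩ := exists_major_quot hM hB hBD z.2 (hc z)
  have h12 := card_le_of_two_gen hM h7 h8 (z := f.rangeRestrict x) (y := f.rangeRestrict y)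
    (by
      rintro _ ⟨w, rfl⟩
      exact Subgroup.mem_centralizer_singleton_iff.2 (by
        rw [MonoidHom.coe_rangeRestrict, ← map_mul, ← map_mul, hab.is_comm.comm]))
    (by
      rw [← MonoidHom.map_zpowers, ← MonoidHom.map_zpowers, ← Subgroup.map_sup,
        ← Subgroup.map_top_of_surjective _ f.rangeRestrict_surjective, ← h5, Subgroup.map_sup
        (Subgroup.zpowers z), MonoidHom.map_zpowers, show f.rangeRestrict z = 1 from Subtype.ext h9,
        Subgroup.zpowers_one_eq_bot, bot_sup_eq])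
  have h13 := h11.trans (Nat.mul_le_mul_left _ ((blockRank_le_card p c).trans h12))
  obtain ⟨k, hk⟩ := pElt_of_mem (defect_isPGroup hBD) z.2
  rw [← Subgroup.orderOf_coe, hk, ← pow_mul, Nat.pow_le_pow_iff_right hp.one_lt] at h6
  rw [hk, ← pow_add, (Nat.pow_right_injective hp.two_le).eq_iff] at h10
  refine (Nat.pow_le_pow_left h13 3).trans ?_
  rw [← pow_add, ← pow_mul]
  exact Nat.pow_le_pow_right hp.pos (by omega)

end Cfsg.Agent.S4697
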