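import Cfsg.Statements.S4698
import Cfsg.Agent.Block.CycMin

set_option autoImplicit false
open Cfsg

namespace Cfsg.Agent.S4698

open Cfsg.Lib.Char Cfsg.Lib.Block

theorem aux {p : ℕ} [hp : Fact p.Prime] {M : Ideal AlgInt} (hM : IsPModular p M) (d : ℕ) :
    ∀ {G : Type _} [Group G] [Finite G] {B : Set (IrrCharacter G)}, IsPBlock M B →
      blockDefect p B = d → 2 ≤ d → Nat.card B ≤ p ^ (2 * d - 2) := by
  induction d using Nat.strong_induction_on with
  | _ d ih =>
  intro G _ _ B hB hd h2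
  rcases h2.eq_or_lt with rfl | h3
  · exact (card_le_of_defect_le_two hM hB hd.le).trans_eq (by rw [hd])
  by_cases h0 : ∀ χ ∈ B, blockHeight p B (χ : G → ℂ) = 0
  swap
  · push Not at h0
    obtain ⟨χ, hχ, h0⟩ := h0
    have := two_mul_card_le_of_height_pos hM hB hχ h0
    rw [hd] at this
    omega
  obtain ⟨D, hD⟩ := exists_isDefectGroup (p := p) hM hB
  have : Nontrivial D := Finite.one_lt_card_iff_nontrivial.1
    (card_defect hM hB hD ▸ Nat.one_lt_pow (by omega) hp.out.one_lt)
  obtain ⟨z, hz⟩ := @exists_ne _ (defect_isPGroup hD).center_nontrivial 1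
  obtain ⟨H, _, _, c, f, h4, -, -, h5, -, -, h6⟩ := exists_major_quot hM hB hD z.1.2 fun d hd =>
    Subgroup.mem_centralizer_singleton_iff.2
      (congrArg Subtype.val (Subgroup.mem_center_iff.1 z.2 ⟨d, hd⟩))
  obtain ⟨k, hk⟩ := pElt_of_mem (defect_isPGroup hD) z.1.2
  have hk0 : k ≠ 0 := fun h => hz (Subtype.ext (Subtype.ext (orderOf_eq_one_iff.1 (by
    rw [hk, h, pow_zero]))))
  rw [hk, ← pow_add, (Nat.pow_right_injective hp.out.two_le).eq_iff] at h5
  have h7 : Nat.card c ≤ p ^ (2 * d - 4) := by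
    rcases le_or_gt (blockDefect p c) 2 with h8 | h8
    · exact (card_le_of_defect_le_two hM h4 h8).trans (Nat.pow_le_pow_right hp.out.pos (by omega))
    · exact (ih _ (by omega) h4 rfl h8.le).trans (Nat.pow_le_pow_right hp.out.pos (by omega))
  have h8 := (h6 h0).trans (Nat.mul_le_mul_left _ ((blockRank_le_card p c).trans h7))
  rw [hd, ← pow_add, show 2 * d + (2 * d - 4) = (2 * d - 2) * 2 by omega, pow_mul] at h8
  exact (Nat.pow_le_pow_iff_left two_ne_zero).1 h8

/-- Let p be a prime, M a maximal ideal of the algebraic integers containing p, and B a p-block of defect d of the finite group G, containing k irreducible characters. Then k ≤ p^d when d ≤ 2, and k ≤ p^(2d − 2) when d ≥ 3. -/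
theorem result {G : Type*} [Group G] [Finite G] (p : ℕ) [Fact p.Prime] (M : Ideal Cfsg.AlgInt) (hM : Cfsg.IsPModular p M) (B : Set (Cfsg.IrrCharacter G)) (hB : Cfsg.IsPBlock M B) (d : ℕ) (hd : Cfsg.blockDefect p B = d) : (d ≤ 2 → Nat.card B ≤ p ^ d) ∧ (3 ≤ d → Nat.card B ≤ p ^ (2 * d - 2)) := by
  exact ⟨fun h => hd ▸ card_le_of_defect_le_two hM hB (hd ▸ h), fun h => aux hM d hB hd (by omega)⟩

end Cfsg.Agent.S4698
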