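import Cfsg.Statements.S4699
import Cfsg.Agent.Block.TITrace
import Mathlib.GroupTheory.SpecificGroups.Cyclic

set_option autoImplicit false
open Cfsg

namespace Cfsg.Agent.S4699

/-- Let p be a prime and G a finite group whose Sylow p-subgroup P is cyclic of order p^n with n ≥ 2 and meets every other Sylow p-subgroup trivially. Then every faithful irreducible representation of G on a finite-dimensional space over a finite field of characteristic p has dimension at least p^n − (p − 1). -/
theorem result {G : Type*} [Group G] [Finite G] (p : ℕ) [Fact p.Prime] (P : Sylow p G) (hcyc : IsCyclic P) (n : ℕ) (hn : 2 ≤ n) (hPn : Nat.card P = p ^ n) (hTI : ∀ Q : Sylow p G, Q ≠ P → (P : Subgroup G) ⊓ (Q : Subgroup G) = ⊥) (F : Type*) [Field F] [Finite F] [CharP F p] (V : Type*) [AddCommGroup V] [Module F V] [FiniteDimensional F V] (ρ : Representation F G V) (hfaith : Function.Injective ρ) (hirr : ρ.IsIrreducible) : p ^ n - (p - 1) ≤ Module.finrank F V := by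
  classical
  have hp : p.Prime := Fact.out
  have := Fintype.ofFinite G
  have := Fintype.ofFinite (P : Subgroup G)
  have := Cfsg.Lib.Block.TI.nontrivial_of_irr ρ
  have : CharP (Module.End F V) p := charP_of_injective_algebraMap (algebraMap F _).injective p
  obtain ⟨⟨x, hxP⟩, hx⟩ := IsCyclic.exists_generator (α := (P : Subgroup G))
  have hxz : Subgroup.zpowers x = (P : Subgroup G) := by
    refine le_antisymm (Subgroup.zpowers_le.2 hxP) fun y hy => ?_
    obtain ⟨j, hj⟩ := hx ⟨y, hy⟩
    exact ⟨j, congrArg Subtype.val hj⟩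
  have hxo : orderOf x = p ^ n := by rw [← Nat.card_zpowers, hxz, hPn]
  set N := Subgroup.normalizer ((P : Subgroup G) : Set G) with hN
  set u := ρ x - 1 with hu
  have hpow : ∀ m : ℕ, u ^ p ^ m = ρ (x ^ p ^ m) - 1 := fun m => by
    rw [hu, sub_pow_char_pow_of_commute _ _ (Commute.one_right _), one_pow, map_pow]
  have hnil : IsNilpotent u := ⟨p ^ n, by rw [hpow, ← hxo, pow_orderOf_eq_one, map_one, sub_self]⟩
  have hd := Cfsg.Lib.Block.TI.pow_finrank_eq_zero hnil
  set d := Module.finrank F V
  by_contra hlt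
  rw [not_le] at hlt
  -- the index `e`
  set e := (Subgroup.centralizer ({x} : Set G)).relIndex N with he
  have hCx : Subgroup.centralizer ({x} : Set G) =
      Subgroup.centralizer ((P : Subgroup G) : Set G) := by
    rw [← hxz, Subgroup.zpowers_eq_closure, Subgroup.centralizer_closure]
  have hedvd : e ∣ p - 1 := by
    have key := Subgroup.card_dvd_of_injective _
      (QuotientGroup.kerLift_injective (P : Subgroup G).normalizerMonoidHom)
    rw [Subgroup.normalizerMonoidHom_ker, ← Subgroup.index, ← Subgroup.relIndex,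
      hcyc.card_mulAut, hPn, Nat.totient_prime_pow hp (by omega), ← hCx] at key
    refine Nat.Coprime.dvd_of_dvd_mul_left (Nat.Coprime.pow_right _ ?_) key
    rw [he, hCx]
    apply Nat.Coprime.coprime_dvd_left
      (Subgroup.relIndex_dvd_of_le_left _ (P : Subgroup G).le_centralizer)
    apply Nat.Coprime.coprime_dvd_left (Subgroup.relIndex_dvd_index_of_le Subgroup.le_normalizer)
    rw [Nat.coprime_comm, Nat.Prime.coprime_iff_not_dvd hp]
    exact P.not_dvd_index
  have hp2 := hp.two_le
  have hele : e ≤ p - 1 := Nat.le_of_dvd (by omega) hedvd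
  obtain ⟨f, c, c', hf, hfc, hfc'⟩ := Cfsg.Lib.Block.TI.exists_norm_elt (K := F) (N := N) ρ
    (x := x) (by rw [hxz]) (Subgroup.le_normalizer hxP)
  have hf' : ∀ m ∈ N, Representation.linHom ρ ρ m f = f := fun m hm =>
    (Cfsg.Lib.Block.TI.linHom_eq_self_iff ρ m f).2 (hf m hm)
  obtain ⟨w, hw⟩ := Cfsg.Lib.Block.TI.trN_eq Subgroup.le_normalizer
    (Cfsg.Lib.Block.TI.free_of_ti P hTI) hf'
  have hcomm : ∀ g, ρ g * Cfsg.Lib.Block.TI.trN (Representation.linHom ρ ρ) N f =
      Cfsg.Lib.Block.TI.trN (Representation.linHom ρ ρ) N f * ρ g := fun g =>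
    (Cfsg.Lib.Block.TI.linHom_eq_self_iff ρ g _).1 (Cfsg.Lib.Block.TI.apply_trN hf' g)
  obtain ⟨v, hv0, hv⟩ : ∃ v : V, v ≠ 0 ∧ u v = 0 := by
    by_contra! hcon
    have hinj : Function.Injective u := by
      rw [← LinearMap.ker_eq_bot, Submodule.eq_bot_iff]
      intro v hv
      by_contra h0
      exact hcon v h0 hv
    obtain ⟨v, hv⟩ := exists_ne (0 : V)
    have h1 := (Function.Injective.iterate hinj d)
    rw [← Module.End.coe_pow, hd] at h1
    exact hv (h1 (by simp))
  have hfix : ∀ y ∈ (P : Subgroup G), ρ y v = v := by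
    have h1 : ρ x v = v := by
      rw [hu, LinearMap.sub_apply, sub_eq_zero] at hv
      exact hv
    intro y hy
    rw [← hxz, ← mem_powers_iff_mem_zpowers] at hy
    obtain ⟨j, rfl⟩ := hy
    induction j with
    | zero => simp
    | succ j ih => simp only [pow_succ, map_mul, Module.End.mul_apply, h1]; exact ih
  have hsum : ∑ y : (P : Subgroup G), ρ y = 0 := by
    rw [Cfsg.Lib.Block.TI.sum_eq_pow F ρ hxz hPn]
    exact pow_eq_zero_of_le (by omega) hd
  have h0 : Cfsg.Lib.Block.TI.trN (Representation.linHom ρ ρ) N f = 0 := by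
    refine Cfsg.Lib.Block.TI.eq_zero_of_commute ρ hcomm hv0 ?_
    rw [hw, LinearMap.add_apply, LinearMap.sum_apply, hfc', Module.End.mul_apply, hv, map_zero,
      zero_add]
    have h1 : ∀ y : (P : Subgroup G), Representation.linHom ρ ρ y w v = ρ y (w v) := fun y => by
      rw [Cfsg.Lib.Block.TI.linHom_apply', Module.End.mul_apply, Module.End.mul_apply,
        hfix _ (inv_mem y.2)]
    simp_rw [h1]
    rw [← LinearMap.sum_apply, hsum, LinearMap.zero_apply]
  obtain ⟨h', hh'⟩ := Cfsg.Lib.Block.TI.exists_sum_conj_eq ρ hxz hPn hd (m := e + 1)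
    (by omega) w
  rw [hw, hh', add_eq_zero_iff_eq_neg] at h0
  have h1 : u ^ e = 0 := Cfsg.Lib.Block.TI.eq_zero_of_pow_eq_mul (c := -h' * c) hnil (by
    rw [hfc, h0, neg_mul, neg_mul, mul_neg, mul_assoc])
  have h2 : u ^ p ^ 1 = 0 := pow_eq_zero_of_le (by rw [pow_one]; omega) h1
  rw [hpow, sub_eq_zero, ← map_one ρ] at h2
  have h3 := orderOf_dvd_of_pow_eq_one (hfaith h2)
  rw [hxo, Nat.pow_dvd_pow_iff_le_right hp.one_lt] at h3
  omega

end Cfsg.Agent.S4699
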