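import Cfsg.Statements.S4701
import Cfsg.Agent.PrimeOne.Brauer3

set_option autoImplicit false
open Cfsg

namespace Cfsg.Agent.S4701

/-- Let G be a finite perfect group and p a prime dividing the order of G with p^3 larger than the order of G. Suppose a Sylow p-subgroup of G is not normal and G has no normal subgroup of order 2. Then p > 3 and G is isomorphic to PSL(2, p), or to SL(2, 2^m) with p = 2^m + 1. -/
theorem result {G : Type*} [Group G] [Finite G] (hperf : commutator G = ⊤) (p : ℕ) [Fact p.Prime] (hdvd : p ∣ Nat.card G) (hbig : Nat.card G < p ^ 3) (P : Sylow p G) (hP : ¬ (P : Subgroup G).Normal) (h2 : ∀ N : Subgroup G, N.Normal → Nat.card N ≠ 2) : (∃ (F : Type) (_ : Field F) (_ : Fintype F), Fintype.card F = p ∧ 3 < p ∧ Nonempty (G ≃* Matrix.ProjectiveSpecialLinearGroup (Fin 2) F)) ∨ (∃ (m : ℕ) (F : Type) (_ : Field F) (_ : Fintype F), Fintype.card F = 2 ^ m ∧ p = 2 ^ m + 1 ∧ 3 < p ∧ Nonempty (G ≃* Matrix.SpecialLinearGroup (Fin 2) F)) := by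
  open Cfsg.Lib.PrimeOne in focus
  have hP' := card_eq_of_lt_cube hdvd hbig hP
  have h := (brauer_of_lt hP' hperf (lt_of_lt_cube hP' hperf hbig)).2
  have hO : Cfsg.pPrimeCore p G = ⊥ := by
    rw [← Subgroup.card_eq_one]
    have h1 := h2 (Cfsg.pPrimeCore p G) inferInstance
    have h3 : 0 < Nat.card (Cfsg.pPrimeCore p G) := Nat.card_pos
    by_contra hc
    have h4 : Nat.card (G ⧸ Cfsg.pPrimeCore p G) * 3 ≤ Nat.card G := by
      rw [Subgroup.card_eq_card_quotient_mul_card_subgroup (Cfsg.pPrimeCore p G)]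
      exact Nat.mul_le_mul_left _ (by omega)
    obtain ⟨h5, ⟨h6, -⟩ | ⟨m, -, h6, -⟩⟩ := h
    · obtain ⟨k, hk⟩ : ∃ k, p ^ 2 = k + 1 := ⟨p ^ 2 - 1, by have := Nat.one_le_pow 2 p (by omega); omega⟩
      rw [hk, Nat.add_sub_cancel] at h6
      rw [pow_succ', hk] at hbig
      have : 16 ≤ k + 1 := by rw [← hk]; nlinarith
      nlinarith
    · obtain ⟨k, rfl⟩ : ∃ k, p = k + 2 := ⟨p - 2, by omega⟩
      have h7 : k + 2 ≠ 4 := fun h => by
        have : (k + 2).Prime := Fact.out
        rw [h] at this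
        norm_num at this
      have h8 : 3 ≤ k := by omega
      rw [h6, show k + 2 - 1 = k + 1 by omega, Nat.add_sub_cancel] at h4
      have h9 := h4.trans_lt hbig
      rw [pow_succ', mul_assoc, mul_assoc] at h9
      have := Nat.lt_of_mul_lt_mul_left h9
      nlinarith
  exact (concl_of_lt hP' hperf hO (lt_of_lt_cube hP' hperf hbig)).sl

end Cfsg.Agent.S4701
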