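import Cfsg.Statements.S4702
import Cfsg.Agent.Perm.ZassRecog
import Cfsg.Agent.S0265

set_option autoImplicit false
open Cfsg

namespace Cfsg.Agent.S4702
open Cfsg.Lib.Perm

/-- Let G be a triply transitive permutation group on a finite set of odd size m ≥ 3 in which only the identity fixes three or more points. Then m = 2^a + 1 for some a ≥ 1 and G is isomorphic to SL(2, 2^a). -/
theorem result {α : Type*} [Fintype α] [DecidableEq α] (hm : 3 ≤ Fintype.card α) (hodd : Odd (Fintype.card α)) (G : Subgroup (Equiv.Perm α)) (h3 : MulAction.IsMultiplyPretransitive G α 3) (hfix : ∀ g : G, 3 ≤ Nat.card (MulAction.fixedBy α g) → g = 1) : ∃ a : ℕ, 1 ≤ a ∧ Fintype.card α = 2 ^ a + 1 ∧ ∃ (F : Type) (_ : Field F) (_ : Fintype F), Fintype.card F = 2 ^ a ∧ Nonempty (G ≃* Matrix.SpecialLinearGroup (Fin 2) F) := by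
  rw [← Nat.card_eq_fintype_card] at hm hodd ⊢
  have hsharp : ∀ x : Fin 3 ↪ α, MulAction.stabilizer G x = ⊥ := by
    intro x
    rw [eq_bot_iff]
    intro g hg
    refine hfix g ?_
    have h1 : ∀ i, x i ∈ MulAction.fixedBy α g := fun i =>
      congrArg (fun y : Fin 3 ↪ α => y i) (MulAction.mem_stabilizer_iff.1 hg)
    have := Nat.card_le_card_of_injective (fun i : Fin 3 => (⟨x i, h1 i⟩ : MulAction.fixedBy α g))
      (fun i j h => x.injective (congrArg Subtype.val h))
    rwa [Nat.card_eq_fintype_card, Fintype.card_fin] at this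
  have hz : Z2 G α := Z2.of_sharp_three hm h3 hsharp
  obtain ⟨a, b, hab⟩ := (Finite.one_lt_card_iff_nontrivial.mp (by omega : 1 < Nat.card α)).1
  have hinv : ∀ s : G, s • a = b → s • b = a → s * s = 1 := fun s h1 h2 =>
    hz.swap_sq_of_three_of_odd hab h3 hodd h1 h2
  obtain ⟨K, _, _, hK, ⟨e⟩⟩ := hz.exists_pgl hab hm h3 (hz.stab2_comm_of_swaps_invol hab hinv)
    (fun s h h1 h2 h3 h4 => Z2.conj_eq_inv_of_swaps_invol hinv h1 h2
      (by rw [mul_smul, h3, h3]) (by rw [mul_smul, h4, h4]))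
  obtain ⟨r, hr, n, hn⟩ := FiniteField.card' K
  have h2 : r = 2 := by
    rw [hK, hn.2, Nat.odd_add_one, Nat.not_odd_iff_even, Nat.even_pow] at hodd
    exact hn.1.even_iff.1 hodd.1
  subst h2
  refine ⟨n, n.2, by rw [hK, hn.2], K, inferInstance, inferInstance, hn.2, ⟨e.trans (MulEquiv.symm
    (MulEquiv.ofBijective Matrix.SpecialLinearGroup.toPGL ?_))⟩⟩
  have : Finite (Matrix.ProjGenLinGroup (Fin 2) K) := Finite.of_equiv _ e.toEquiv
  rw [Nat.bijective_iff_injective_and_card]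
  refine ⟨?_, (Cfsg.Agent.S0265.result 2).symm⟩
  rw [← MonoidHom.ker_eq_bot_iff, Matrix.SpecialLinearGroup.toPGL_ker, eq_bot_iff]
  intro g hg
  obtain ⟨c, hc, hg⟩ := Matrix.SpecialLinearGroup.mem_center_iff.1 hg
  have h1 : c = 1 := by
    rw [Fintype.card_fin] at hc
    have h2 : (c - 1) ^ 2 = 0 := by rw [sub_pow_char, hc, one_pow, sub_self]
    exact sub_eq_zero.1 (pow_eq_zero_iff two_ne_zero |>.1 h2)
  rw [Subgroup.mem_bot]
  ext1
  rw [← hg, h1, map_one]
  rfl

end Cfsg.Agent.S4702
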