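import Cfsg.Statements.S4704
import Cfsg.Agent.Block.BlauMain

set_option autoImplicit false
open Cfsg

namespace Cfsg.Agent.S4704

/-- Let G be a finite group with centre Z, p > 7 a prime, and suppose a Sylow p-subgroup of G has order p and is not normal. Let ζ be a faithful irreducible character of G and t the number of conjugacy classes of G consisting of elements of order p. Then one of the following holds: G/Z is isomorphic to PSL(2, p), ζ has degree (p + 1)/2 or (p − 1)/2 and t = 2; or ζ has degree at least p − 1; or ζ has degree at least p + 3/2 − √(p + 5/4) and p ≤ t^2 − 3t + 1. -/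
theorem result {G : Type*} [Group G] [Finite G] (p : ℕ) [Fact p.Prime] (hp : 7 < p) (P : Sylow p G) (hP : Nat.card P = p) (hnn : ¬ (P : Subgroup G).Normal) (ζ : G → ℂ) (hζ : Cfsg.IsIrrCharacter G ζ) (hfaith : ∀ g : G, ζ g = ζ 1 → g = 1) (t : ℕ) (ht : Nat.card {c : ConjClasses G // ∃ g : G, ConjClasses.mk g = c ∧ orderOf g = p} = t) : ((∃ (F : Type) (_ : Field F) (_ : Fintype F), Fintype.card F = p ∧ Nonempty (G ⧸ Subgroup.center G ≃* Matrix.ProjectiveSpecialLinearGroup (Fin 2) F)) ∧ (2 * Cfsg.charDegree ζ = p + 1 ∨ 2 * Cfsg.charDegree ζ = p - 1) ∧ t = 2) ∨ p - 1 ≤ Cfsg.charDegree ζ ∨ ((p : ℝ) + 3 / 2 - Real.sqrt ((p : ℝ) + 5 / 4) ≤ (Cfsg.charDegree ζ : ℝ) ∧ (p : ℤ) ≤ (t : ℤ) ^ 2 - 3 * t + 1) := by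
  by_cases hd : p - 1 ≤ Cfsg.charDegree ζ
  · exact .inr (.inl hd)
  have h0 := Cfsg.Lib.Block.PS.card_classes_mul P hP
  obtain ⟨x, H, hx, hH, h⟩ := Cfsg.Lib.Block.Lat.psl2_or_small hp P hP hnn hζ hfaith (by omega)
  rw [← Cfsg.Lib.Block.PS.centralizer_zpowers, hx] at hH
  rw [ht, ← hH, mul_comm] at h0
  obtain ⟨h1, h2, h3⟩ | ⟨E, r, ψ, hG, s, h1, h2⟩ := h
  · exact .inl ⟨⟨ZMod p, inferInstance, inferInstance, ZMod.card p, h1⟩, h3,
      Nat.eq_of_mul_eq_mul_left (Nat.card_pos (α := H)) (by omega)⟩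
  have h3 : Nat.card H + 3 ≤ t := by
    rcases le_or_gt 3 (Nat.card H) with h3 | h3
    · exact hG.blau s hp hnn hfaith h1 h2 h3 (by omega)
    · have h9 : p ≠ 9 := fun h => absurd (h ▸ (Fact.out : p.Prime)) (by norm_num)
      rw [show Nat.card H = 2 by omega] at h0 ⊢
      omega
  have h4 : p = Nat.card H * t + 1 := by omega
  generalize Nat.card H = e at *
  have h5 : (Cfsg.charDegree ζ : ℝ) + e = p := by exact_mod_cast h1
  have h6 : (p : ℝ) = e * t + 1 := by exact_mod_cast h4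
  have h7 : (e : ℝ) + 3 ≤ t := by exact_mod_cast h3
  refine .inr (.inr ⟨?_, by nlinarith⟩)
  have h8 : (e : ℝ) + 3 / 2 ≤ Real.sqrt ((p : ℝ) + 5 / 4) :=
    Real.le_sqrt_of_sq_le (by nlinarith [(Nat.cast_nonneg e : (0 : ℝ) ≤ e)])
  linarith

end Cfsg.Agent.S4704
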