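import Cfsg.Statements.S4708
import Cfsg.Agent.Block.CoverIrr
import Cfsg.Agent.Char.Gallagher

set_option autoImplicit false
open Cfsg

namespace Cfsg.Agent.S4708

open Cfsg.Lib.Char Cfsg.Lib.Block

/-- Let p be a prime, M a maximal ideal of the algebraic integers containing p, G a finite group and H a normal subgroup. Write λ(X) for the sum of the squares of the degrees of the irreducible characters in the principal p-block of a group X. Then λ(H) ≤ λ(G) ≤ [G : H]·λ(H). -/
theorem result {G : Type*} [Group G] [Finite G] (p : ℕ) [Fact p.Prime] (M : Ideal Cfsg.AlgInt) (hM : Cfsg.IsPModular p M) (H : Subgroup G) [H.Normal] : (∑ᶠ θ ∈ Cfsg.principalBlock M H, Cfsg.charDegree (θ : H → ℂ) ^ 2) ≤ (∑ᶠ χ ∈ Cfsg.principalBlock M G, Cfsg.charDegree (χ : G → ℂ) ^ 2) ∧ (∑ᶠ χ ∈ Cfsg.principalBlock M G, Cfsg.charDegree (χ : G → ℂ) ^ 2) ≤ H.index * ∑ᶠ θ ∈ Cfsg.principalBlock M H, Cfsg.charDegree (θ : H → ℂ) ^ 2 := by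
  classical
  letI := Fintype.ofFinite G
  letI := Fintype.ofFinite H
  rw [Cfsg.Lib.Block.finsum_mem_irr, Cfsg.Lib.Block.finsum_mem_irr]
  constructor
  · have hex : ∀ θ : IrrCharacter H, ∃ χ : IrrCharacter G, θ ∈ principalBlock M H →
        χ ∈ principalBlock M G ∧ Over H (χ : G → ℂ) (θ : H → ℂ) := by
      intro θ
      by_cases hθ : θ ∈ principalBlock M H
      · obtain ⟨χ, h1, h2⟩ := Ht.exists_principal_over hM hθ
        exact ⟨χ, fun _ => ⟨h1, h2⟩⟩
      · exact ⟨Classical.arbitrary _, fun h => (hθ h).elim⟩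
    choose c hc using hex
    rw [← Finset.sum_fiberwise_of_maps_to (g := c) (t := irrFin (principalBlock M G))
      (fun θ hθ => mem_irrFin.2 (hc θ (mem_irrFin.1 hθ)).1)]
    refine Finset.sum_le_sum fun χ _ => ?_
    refine (Finset.sum_sq_le_sq_sum_of_nonneg fun _ _ => Nat.zero_le _).trans ?_
    refine Nat.pow_le_pow_left ?_ 2
    obtain ⟨m, hm, hsum, -⟩ := (χ.2.isCharacter.res H).exists_nat_multiplicity
    have h1 : charDegree (χ : G → ℂ) = ∑ θ : IrrCharacter H, m θ * charDegree (θ : H → ℂ) := by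
      have := congrFun hsum 1
      simp only [Finset.sum_apply, Pi.smul_apply, smul_eq_mul, OneMemClass.coe_one] at this
      rw [← irr_charDegree_cast] at this
      simp only [← irr_charDegree_cast] at this
      exact_mod_cast this
    rw [h1]
    refine (Finset.sum_le_sum (g := fun θ => m θ * charDegree (θ : H → ℂ)) fun θ hθ => ?_).trans
      (Finset.sum_le_sum_of_subset (Finset.subset_univ _))
    rw [Finset.mem_filter] at hθ
    have h2 := over_iff.1 (hc θ (mem_irrFin.1 hθ.1)).2
    rw [hθ.2, hm, Nat.cast_ne_zero] at h2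
    exact Nat.le_mul_of_pos_left _ (Nat.pos_of_ne_zero h2)
  · have key : ∀ (X : Type _) [Group X] [Finite X] (S : Set (IrrCharacter X)),
        ((∑ χ ∈ irrFin S, charDegree (χ : X → ℂ) ^ 2 : ℕ) : ℂ) =
          Nat.card X * (fB S).coeff 1 := by
      intro X _ _ S
      rw [coeff_fB, Cfsg.Lib.Block.blockCoeff_eq, ← mul_assoc, mul_inv_cancel₀ (card_ne_zero X),
        one_mul, ← sum_irrFin_eq_sum_ite]
      push_cast
      refine Finset.sum_congr rfl fun χ _ => ?_
      rw [← irr_charDegree_cast, sq, map_natCast]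
    have h1 := key G (overSet H (principalBlock M H))
    rw [← incSub_fB_eq_fB_overSet stabB_principalBlock, coeff_incSub_of_mem _ _ H.one_mem,
      ← H.index_mul_card, Nat.cast_mul, mul_assoc] at h1
    have h2 := key H (principalBlock M H)
    have h3 : (⟨1, H.one_mem⟩ : H) = 1 := rfl
    rw [h3, ← h2] at h1
    have h4 : ∑ χ ∈ irrFin (overSet H (principalBlock M H)), charDegree (χ : G → ℂ) ^ 2 =
      H.index * ∑ θ ∈ irrFin (principalBlock M H), charDegree (θ : H → ℂ) ^ 2 := by
      exact_mod_cast h1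
    rw [← h4]
    refine Finset.sum_le_sum_of_subset fun χ hχ => mem_irrFin.2 ?_
    exact (covers_principalBlock hM H).subset_overSet hM isPBlock_principalBlock
      isPBlock_principalBlock (mem_irrFin.1 hχ)

end Cfsg.Agent.S4708
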