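import Cfsg.Statements.S4709
import Cfsg.Agent.Block.AbFrob

set_option autoImplicit false
open Cfsg

open Cfsg Cfsg.Lib.Char Cfsg.Lib.Block Cfsg.Lib.Block.Princ ComplexConjugate

namespace Cfsg.Agent.S4709

/-- Let p be a prime, M a maximal ideal of the algebraic integers containing p, and G a finite group with a nontrivial abelian Sylow p-subgroup P; put N = N_G(P), C = C_G(P). Suppose N/C is cyclic of order m with 1 < m < #P − 1 (C has index m in N and N is generated by C and one element), and C_G(y) ∩ N = C for every non-identity y ∈ P. Put r = (#P − 1)/m. Then there is s ≤ m such that the principal p-block is the disjoint union of a set X of s characters containing the principal character and a set Y of r characters, with integers a_χ ≠ 0 (χ ∈ X), d and a sign δ = ±1, such that: every χ ∈ X takes the value a_χ at every element whose p-part is a non-identity element of P; there is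 a map ζ from the non-principal linear characters ψ of P onto Y, constant on N-conjugacy classes, with ζ_ψ(z) = d + δ·Σ ψ'(y) for every z whose p-part y is a non-identity element of P, the sum running over the N-conjugates ψ' of ψ; (d − δ)^2 + (r − 1) d^2 + Σ_{χ ∈ X} a_χ^2 = m + 1; all members of Y agree on p-regular elements; and (r d − δ) η(g) + Σ_{χ ∈ X} a_χ χ(g) = 0 for every η ∈ Y and every p-regular g. -/
theorem result {G : Type*} [Group G] [Finite G] (p : ℕ) [Fact p.Prime] (M : Ideal Cfsg.AlgInt) (hM : Cfsg.IsPModular p M) (P : Sylow p G) (hab : IsMulCommutative P) (hP1 : Nat.card P ≠ 1) (m : ℕ) (hm1 : 1 < m) (hm2 : m + 1 < Nat.card P) (hCN : (Subgroup.centralizer ((P : Subgroup G) : Set G)).relIndex (Subgroup.normalizer ((P : Subgroup G) : Set G)) = m) (hcyc : ∃ g : G, g ∈ Subgroup.normalizer ((P : Subgroup G) : Set G) ∧ Subgroup.centralizer ((P : Subgroup G) : Set G) ⊔ Subgroup.zpowers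 g = Subgroup.normalizer ((P : Subgroup G) : Set G)) (hfrob : ∀ y : G, y ∈ (P : Subgroup G) → y ≠ 1 → Subgroup.centralizer ({y} : Set G) ⊓ Subgroup.normalizer ((P : Subgroup G) : Set G) = Subgroup.centralizer ((P : Subgroup G) : Set G)) : ∃ (s : ℕ) (X Y : Set (Cfsg.IrrCharacter G)), s ≤ m ∧ Cfsg.principalBlock M G = X ∪ Y ∧ Disjoint X Y ∧ Nat.card X = s ∧ Nat.card Y = (Nat.card P - 1) / m ∧ (∃ χ₁ ∈ X, (χ₁ : G → ℂ) = fun _ => 1) ∧ ∃ (a : Cfsg.IrrCharacter G → ℤ) (d δ : ℤ) (ζ : (↥(P : Subgroup G) →* ℂˣ) → Cfsg.IrrCharacter G), (δ = 1 ∨ δ = -1) ∧ (∀ χ ∈ X, a χ ≠ 0 ∧ ∀ z y : G, Cfsg.IsPPart p z y → y ∈ (P : Subgroup G) → y ≠ 1 → (χ : G → ℂ) z = (a χ : ℂ)) ∧ (∀ ψ : ↥(P : Subgroup G) →* ℂˣ, ψ ≠ 1 → ζ ψ ∈ Y) ∧ (∀ η ∈ Y, ∃ ψ : ↥(P : Subgroup G) →* ℂˣ, ψ ≠ 1 ∧ ζ ψ = η) ∧ (∀ ψ ψ' : ↥(P : Subgroup G) →* ℂˣ, ψ ≠ 1 → (∃ n : G, n ∈ Subgroup.normalizer ((P : Subgroup G) : Set G) ∧ ∀ w w' : ↥(P : Subgroup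 G), (w' : G) = n * w * n⁻¹ → ψ' w' = ψ w) → ζ ψ' = ζ ψ) ∧ (∀ ψ : ↥(P : Subgroup G) →* ℂˣ, ψ ≠ 1 → ∀ (z : G) (y : ↥(P : Subgroup G)), Cfsg.IsPPart p z (y : G) → (y : G) ≠ 1 → (ζ ψ : G → ℂ) z = (d : ℂ) + (δ : ℂ) * ∑ᶠ ψ' ∈ {ψ' : ↥(P : Subgroup G) →* ℂˣ | ∃ n : G, n ∈ Subgroup.normalizer ((P : Subgroup G) : Set G) ∧ ∀ w w' : ↥(P : Subgroup G), (w' : G) = n * w * n⁻¹ → ψ' w' = ψ w}, ((ψ' y : ℂˣ) : ℂ)) ∧ ((d - δ) ^ 2 + ((Nat.card P - 1) / m - 1 : ℤ) * d ^ 2 + ∑ᶠ χ ∈ X, a χ ^ 2 = (m : ℤ) + 1) ∧ (∀ η ∈ Y, ∀ η' ∈ Y, ∀ g : G, ¬ p ∣ orderOf g → (η : G → ℂ) g = (η' : G → ℂ) g) ∧ (∀ η ∈ Y, ∀ g : G, ¬ p ∣ orderOf g → ((((Nat.card P - 1) / m : ℕ) : ℂ) * d - δ) * (η : G → ℂ) g + ∑ᶠ χ ∈ X, (a χ : ℂ) * (χ : G → ℂ) g = 0) := by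
  classical
  have := Fintype.ofFinite (autE (P : Subgroup G))
  have := Fintype.ofFinite ((P : Subgroup G) →* ℂˣ)
  have hf : Frob (P : Subgroup G) := fun y hy hy1 => (hfrob y hy hy1).le
  have hm : Nat.card (autE (P : Subgroup G)) = m := (card_autE _).trans hCN
  obtain ⟨δ, d, ζ, a, X, Y, hδ, hXY, hdisj, htX, hY, hζ, -, hcard, hvX, hvY, hnorm, hrel⟩ :=
    abFrob hM P hab hf (by rw [hm]; exact hm2)
  rw [hm] at hcard hnorm
  have hYm : ∀ η, η ∈ Y ↔ ∃ ψ, ψ ≠ 1 ∧ ζ ψ = η := fun η => by simp [hY]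
  have hB : ∀ χ, χ ∈ principalBlock M G ↔ χ ∈ X ∨ χ ∈ Y := fun χ => by
    rw [← mem_irrFin, hXY, Finset.mem_union]
  have hYc : Y.card = (Nat.card P - 1) / m := by
    rw [← hcard, Nat.add_sub_cancel, Nat.mul_div_cancel_left _ (by omega)]
  have hYc' : ((Nat.card P - 1) / m : ℤ) = Y.card := by
    rw [← hcard]
    push_cast
    rw [add_sub_cancel_right, Int.mul_ediv_cancel_left _ (by omega)]
  have hsec : ∀ χ ∈ principalBlock M G, ∀ z y : G, IsPPart p z y → y ∈ (P : Subgroup G) → y ≠ 1 →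
      (χ : G → ℂ) z = (χ : G → ℂ) y := fun χ hχ z y hz hy hy1 =>
    princ_apply_of_isPPart hM (abFrob_index P hab hf hy hy1) hχ hz (IsConj.refl y)
  have hreg : ∀ g : G, ¬ p ∣ orderOf g → ∀ y : (P : Subgroup G), y ≠ 1 →
      ∑ χ ∈ irrFin (principalBlock M G), (χ : G → ℂ) g * (χ : G → ℂ) y = 0 := by
    intro g hg y hy
    rw [← finsum_mem_irr]
    have := block_orth_inv hM (Princ.isPBlock_principalBlock (G := G)) (isPPart_one_iff.2 hg)
      (isPPart_self (Fact.out : p.Prime) (orderOf_eq_pow_of_mem P.isPGroup' (y⁻¹).2))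
      (fun h => hy (inv_eq_one.1 (Subtype.ext (isConj_one_right.1 h))))
    simpa using this
  refine ⟨X.card, X, Y, ?_, ?_, Finset.disjoint_coe.2 hdisj, by simp, by simpa using hYc,
    ⟨triv G, htX, rfl⟩, a, d, δ, ζ, hδ, fun χ hχ => ⟨(hvX χ hχ).1, fun z y hz hy hy1 => ?_⟩,
    fun ψ hψ => (hYm _).2 ⟨ψ, hψ, rfl⟩, fun η hη => (hYm η).1 hη, fun ψ ψ' hψ h => ?_,
    fun ψ hψ z y hz hy => ?_, ?_, fun η hη η' hη' g hg => ?_, fun η hη g hg => ?_⟩
  · have h1 : (X.card : ℤ) ≤ ∑ χ ∈ X, a χ ^ 2 := by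
      rw [Finset.card_eq_sum_ones]
      push_cast
      exact Finset.sum_le_sum fun χ hχ => by
        have := (hvX χ hχ).1
        exact Int.add_one_le_of_lt (by positivity : (0 : ℤ) < a χ ^ 2)
    have h2 : 2 ≤ Y.card := by
      by_contra h
      have : m * Y.card ≤ m * 1 := Nat.mul_le_mul_left _ (by omega)
      omega
    have h3 : 1 ≤ (d - δ) ^ 2 + ((Y.card : ℤ) - 1) * d ^ 2 := by
      have h4 : (1 : ℤ) ≤ (Y.card : ℤ) - 1 := by omega
      by_cases hd : d = 0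
      · rcases hδ with rfl | rfl <;> simp [hd]
      · have : 1 ≤ d ^ 2 := Int.add_one_le_of_lt (by positivity : (0 : ℤ) < d ^ 2)
        nlinarith [sq_nonneg (d - δ)]
    omega
  · ext χ
    rw [hB]
    simp
  · rw [hsec χ ((hB χ).2 (Or.inl hχ)) z y hz hy hy1]
    exact (hvX χ hχ).2 ⟨y, hy⟩ fun h => hy1 (congrArg Subtype.val h)
  · have h' := lConj_iff.2 h
    exact (hζ _ _ (h'.ne_one hψ) hψ).2 h'.symm
  · rw [hsec _ ((hB _).2 (Or.inr ((hYm _).2 ⟨ψ, hψ, rfl⟩))) z y hz y.2 hy,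
      hvY ψ hψ y fun h => hy (congrArg Subtype.val h)]
    have := finsum_lConj hab hf hψ (fun ψ' => (ψ' y : ℂ))
    simp only [lConj_iff] at this
    rw [this]
    rfl
  · rw [finsum_mem_coe_finset, hYc', hnorm]
  · exact (hrel _ (hreg g hg)).1 η hη η' hη'
  · rw [finsum_mem_coe_finset, ← hYc]
    exact (hrel _ (hreg g hg)).2 η hη

end Cfsg.Agent.S4709
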