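import Cfsg.Statements.S4711
import Cfsg.Agent.Block.Ker
import Cfsg.Agent.Block.BlockOrth
import Cfsg.Agent.Block.PrincRank
import Cfsg.Agent.Block.Part
import Cfsg.Agent.Solv.PConstrained
import Cfsg.Agent.Solv.PLength
import Cfsg.Agent.Char.Kernel

set_option autoImplicit false
open Cfsg

namespace Cfsg.Agent.S4711

open Cfsg Cfsg.Lib.Char Cfsg.Lib.Block Cfsg.Lib.Solv
open scoped ComplexConjugate

theorem sum_key {G : Type*} [Group G] [Finite G] {p : ℕ} [hp : Fact p.Prime] {M : Ideal AlgInt}
    (hM : IsPModular p M) {B : Set (IrrCharacter G)} (hB : IsPBlock M B) {P : Subgroup G}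
    [Fintype P] (hP : IsPGroup p P) {y : G} (hy : ¬ p ∣ orderOf y) :
    ∑ χ ∈ irrFin B, (χ : G → ℂ) y * conj (∑ x : P, (χ : G → ℂ) x) =
      ∑ χ ∈ irrFin B, (χ : G → ℂ) y * conj ((χ : G → ℂ) 1) := by
  classical
  simp only [map_sum, Finset.mul_sum]
  rw [Finset.sum_comm, Finset.sum_eq_single (1 : P)]
  · rfl
  · intro x _ hx
    have hd : p ∣ orderOf (x : G) := by
      obtain ⟨k, hk⟩ := (IsPGroup.iff_orderOf.1 hP) x
      rw [Subgroup.orderOf_coe, hk]
      refine dvd_pow_self p ?_
      rintro rfl
      exact hx (orderOf_eq_one_iff.1 (by simpa using hk))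
    have := block_orth_regular hM hB hy hd
    rwa [finsum_mem_irr] at this
  · simp

/-- Let p be a prime, M a maximal ideal of the algebraic integers containing p, G a finite group, P a Sylow p-subgroup and N = N_G(P). Then G has p-length 1 (G = O_{p',p,p'}(G)) if and only if every irreducible character in the principal p-block of G restricts to an irreducible character of N. -/
theorem result {G : Type*} [Group G] [Finite G] (p : ℕ) [Fact p.Prime] (M : Ideal Cfsg.AlgInt) (hM : Cfsg.IsPModular p M) (P : Sylow p G) : Cfsg.PLengthLE p 1 G ↔ ∀ χ ∈ Cfsg.principalBlock M G, Cfsg.IsIrrCharacter ↥(Subgroup.normalizer ((P : Subgroup G) : Set G)) (fun n : ↥(Subgroup.normalizer ((P : Subgroup G) : Set G)) => (χ : G → ℂ) n) := by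
  classical
  constructor
  · intro h χ hχ
    have hidx := pLengthLE_one_iff.1 h
    have hPle : (P : Subgroup G) ≤ pPrimePCore p G := by
      intro x hx
      obtain ⟨k, hk⟩ := (IsPGroup.iff_orderOf.1 P.isPGroup') ⟨x, hx⟩
      rw [← QuotientGroup.eq_one_iff, ← orderOf_eq_one_iff]
      have h1 : orderOf (x : G ⧸ pPrimePCore p G) ∣ p ^ k := by
        rw [← hk, ← Subgroup.orderOf_coe]
        exact orderOf_map_dvd (QuotientGroup.mk' _) x
      have h2 : orderOf (x : G ⧸ pPrimePCore p G) ∣ (pPrimePCore p G).index :=
        orderOf_dvd_natCard _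
      exact Nat.eq_one_of_dvd_coprimes (Nat.Coprime.pow_right k hidx) h2 h1
    have hsup : pPrimeCore p G ⊔ (P : Subgroup G) = pPrimePCore p G := by
      have := pPrimeCore_sup_sylow_inf P
      rwa [inf_eq_left.2 hPle] at this
    have htop := normalizer_sup_pPrimeCore_eq_top P.isPGroup' hsup
    have hker := pPrimeCore_le_charKer hM hχ
    have hirr := (χ.2.deflate hker).comp_of_surjective
      ((QuotientGroup.mk' (pPrimeCore p G)).comp
        (Subgroup.normalizer ((P : Subgroup G) : Set G)).subtype) (by
      intro q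
      obtain ⟨g, rfl⟩ := QuotientGroup.mk_surjective q
      have hg : g ∈ Subgroup.normalizer ((P : Subgroup G) : Set G) ⊔ pPrimeCore p G := by
        rw [htop]; trivial
      rw [← SetLike.mem_coe, Subgroup.mul_normal] at hg
      obtain ⟨n, hn, o, ho, rfl⟩ := hg
      refine ⟨⟨n, hn⟩, ?_⟩
      simp only [MonoidHom.comp_apply, Subgroup.coe_subtype, QuotientGroup.mk'_apply,
        QuotientGroup.mk_mul]
      rw [(QuotientGroup.eq_one_iff o).2 ho, mul_one])
    convert hirr using 2 with n
    exact (χ.2.isClassFunction.deflate_mk hker n).symm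
  · intro h
    set B := principalBlock M G with hBdef
    have hB : IsPBlock M B := isPBlock_principalBlock'
    set N := Subgroup.normalizer ((P : Subgroup G) : Set G) with hN
    set L := Subgroup.normalClosure ((P : Subgroup G) : Set G) with hL
    letI : Fintype (P : Subgroup G) := Fintype.ofFinite _
    have hPN : (P : Subgroup G) ≤ N := Subgroup.le_normalizer
    -- either `L ≤ ker χ` or the sum over `P` vanishes
    have hdich : ∀ χ ∈ B, L ≤ charKer (χ : G → ℂ) ∨
        ∑ x : (P : Subgroup G), (χ : G → ℂ) x = 0 := by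
      intro χ hχ
      by_cases hk : (P : Subgroup G).subgroupOf N ≤ charKer (fun n : N => (χ : G → ℂ) n)
      · left
        haveI := χ.2.charKer_normal
        refine Subgroup.normalClosure_le_normal fun x hx => ?_
        have := hk (show (⟨x, hPN hx⟩ : N) ∈ (P : Subgroup G).subgroupOf N from hx)
        rw [χ.2.isCharacter.charKer_res] at this
        exact this
      · right
        haveI : ((P : Subgroup G).subgroupOf N).Normal := Subgroup.normal_in_normalizer
        letI : Fintype ((P : Subgroup G).subgroupOf N) := Fintype.ofFinite _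
        have := (h χ hχ).sum_res_eq_zero _ hk
        rw [← this]
        exact (Fintype.sum_equiv (Subgroup.subgroupOfEquivOfLe hPN).toEquiv _ _
          (fun x => rfl)).symm
    have hreg : ∀ y ∈ L, ¬ p ∣ orderOf y → y ∈ pPrimeCore p G := by
      intro y hyL hy
      have h1 := sum_key hM hB P.isPGroup' hy
      have h2 := sum_key hM hB P.isPGroup' (y := 1) (by
        simpa using (Fact.out : p.Prime).one_lt.ne')
      have h3 : ∑ χ ∈ irrFin B, (χ : G → ℂ) y * conj (∑ x : (P : Subgroup G), (χ : G → ℂ) x) =
          ∑ χ ∈ irrFin B, (χ : G → ℂ) 1 * conj (∑ x : (P : Subgroup G), (χ : G → ℂ) x) := by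
        refine Finset.sum_congr rfl fun χ hχ => ?_
        rcases hdich χ (mem_irrFin.1 hχ) with hk | hk
        · rw [apply_of_mem_charKer (hk hyL)]
        · simp [hk]
      rw [h1, h2] at h3
      have h4 : ∑ χ ∈ irrFin B, (((χ : G → ℂ) 1).re - ((χ : G → ℂ) y).re) *
          (charDegree (χ : G → ℂ) : ℝ) = 0 := by
        have := congrArg Complex.re h3
        simp only [Complex.re_sum] at this
        simp only [sub_mul, Finset.sum_sub_distrib]
        rw [sub_eq_zero]
        have e : ∀ (χ : IrrCharacter G) (z : ℂ), (z * conj ((χ : G → ℂ) 1)).re =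
            z.re * (charDegree (χ : G → ℂ) : ℝ) := by
          intro χ z
          rw [← irr_charDegree_cast χ]
          simp
        simp only [e] at this
        exact this.symm
      rw [Finset.sum_eq_zero_iff_of_nonneg (fun χ _ => mul_nonneg
        (sub_nonneg.2 (χ.2.isCharacter.re_le_re y)) (Nat.cast_nonneg _))] at h4
      have hyK : y ∈ blockKerSub B := by
        rw [mem_blockKerSub]
        intro χ hχ
        have := h4 χ (mem_irrFin.2 hχ)
        rw [mul_eq_zero, sub_eq_zero] at this
        rcases this with h5 | h5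
        · exact χ.2.mem_charKer_iff.2 (χ.2.isCharacter.eq_of_re_eq h5.symm)
        · exact absurd (by exact_mod_cast h5) (irr_charDegree_ne_zero χ)
      exact le_pPrimeCore inferInstance
        ((Fact.out : p.Prime).coprime_iff_not_dvd.2 (Ht.not_dvd_card_blockKerSub hM hB)).symm hyK
    have hLp : IsPGroup p (L.map (QuotientGroup.mk' (pPrimeCore p G))) := by
      rintro ⟨_, g, hg, rfl⟩
      refine ⟨(orderOf g).factorization p, Subtype.ext ?_⟩
      simp only [SubmonoidClass.coe_pow, OneMemClass.coe_one]
      rw [← map_pow, QuotientGroup.mk'_apply, QuotientGroup.eq_one_iff]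
      refine hreg _ (pow_mem hg _) ?_
      rw [orderOf_pow_of_dvd (pow_ne_zero _ (Fact.out : p.Prime).ne_zero) (Nat.ordProj_dvd _ _)]
      exact Nat.not_dvd_ordCompl Fact.out (orderOf_pos g).ne'
    have hLle : L ≤ pPrimePCore p G := le_pPrimePCore_of_isPGroup_map inferInstance hLp
    rw [pLengthLE_one_iff]
    have hd : (pPrimePCore p G).index ∣ (P : Subgroup G).index :=
      Subgroup.index_dvd_of_le (Subgroup.le_normalClosure.trans hLle)
    exact ((Fact.out : p.Prime).coprime_iff_not_dvd.2
      (fun h => P.not_dvd_index (h.trans hd))).symm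

end Cfsg.Agent.S4711
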