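import Cfsg.Statements.S4712
import Cfsg.Agent.Block.PimPerm
import Mathlib.RingTheory.ZMod.UnitsCyclic

set_option autoImplicit false
open Cfsg

namespace Cfsg.Agent.S4712

open Cfsg.Lib.Block

/-- Let p be an odd prime, M a maximal ideal of the algebraic integers containing p, G a finite group of order n with p-part p^a, and B a p-block of G. Call an irreducible character χ p-rational when χ(g^k) = χ(g) for every g and every k coprime to n with k ≡ 1 modulo n/p^a (χ is fixed by the Galois automorphisms fixing the roots of unity of order prime to p). Then the number of p-rational irreducible characters in B is at least the p-regular rank of B (the number of irreducible Brauer characters in B). -/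
theorem result {G : Type*} [Group G] [Finite G] (p : ℕ) [Fact p.Prime] (hodd : p ≠ 2) (M : Ideal Cfsg.AlgInt) (hM : Cfsg.IsPModular p M) (B : Set (Cfsg.IrrCharacter G)) (hB : Cfsg.IsPBlock M B) : Cfsg.blockRank p B ≤ Nat.card {χ : Cfsg.IrrCharacter G // χ ∈ B ∧ ∀ k : ℕ, Nat.Coprime k (Nat.card G) → k ≡ 1 [MOD Nat.card G / p ^ (Nat.card G).factorization p] → ∀ g : G, (χ : G → ℂ) (g ^ k) = (χ : G → ℂ) g} := by
  have := Fintype.ofFinite G
  have hp := hM.1
  have hG : Nat.card G ≠ 0 := Nat.card_pos.ne'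
  set a := (Nat.card G).factorization p
  set n := Nat.card G / p ^ a with hn
  have hGe : p ^ a * n = Nat.card G := Nat.ordProj_mul_ordCompl_eq_self _ _
  have hcop : (p ^ a).Coprime n := (Nat.coprime_ordCompl hp hG).pow_left a
  have : NeZero (p ^ a) := ⟨pow_ne_zero a hp.ne_zero⟩
  have := ZMod.isCyclic_units_of_prime_pow p hp hodd a
  obtain ⟨u, hu⟩ := IsCyclic.exists_monoid_generator (α := (ZMod (p ^ a))ˣ)
  obtain ⟨k, hk1, hk2⟩ := Nat.chineseRemainder hcop (u : ZMod (p ^ a)).val 1
  have hk : k.Coprime (Nat.card G) := by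
    rw [← hGe]
    refine Nat.Coprime.mul_right ?_ ?_
    · rw [Nat.Coprime, hk1.gcd_eq]
      exact ZMod.val_coe_unit_coprime u
    · rw [Nat.Coprime, hk2.gcd_eq, Nat.gcd_one_left]
  have h : ∀ g : G, ¬ p ∣ orderOf g → g ^ k = g := fun g hg => by
    have h1 : orderOf g ∣ n := (((Nat.Prime.coprime_iff_not_dvd hp).2 hg).symm.pow_right
      a).dvd_of_dvd_mul_left (hGe ▸ orderOf_dvd_natCard g)
    rw [pow_eq_pow_iff_modEq.2 (hk2.of_dvd h1), pow_one]
  refine (blockRank_le_card_fixed hM hB hk h).trans (Nat.card_le_card_of_injective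
    (fun χ => ⟨χ.1, χ.2.1, fun l hl hl1 g => ?_⟩) fun a b h => Subtype.ext (Subtype.mk.inj h))
  obtain ⟨j, hj⟩ := hu (ZMod.unitOfCoprime l (hl.coprime_dvd_right (hGe ▸ dvd_mul_right _ _)))
  have h1 : k ^ j ≡ l [MOD Nat.card G] := by
    rw [← hGe, ← Nat.modEq_and_modEq_iff_modEq_mul hcop]
    refine ⟨?_, by simpa using (hk2.pow j).trans (by simpa using hl1.symm)⟩
    rw [← ZMod.natCast_eq_natCast_iff, Nat.cast_pow, (ZMod.natCast_eq_natCast_iff _ _ _).2 hk1,
      ZMod.natCast_zmod_val, ← Units.val_pow_eq_pow_val]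
    exact congrArg Units.val hj
  rw [← pow_eq_pow_iff_modEq.2 (h1.of_dvd (orderOf_dvd_natCard g)), ← iterate_powI_apply hk,
    Function.iterate_fixed χ.2.2]

end Cfsg.Agent.S4712
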