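import Cfsg.Statements.S4713
import Cfsg.Agent.Char.DegIto

set_option autoImplicit false
open Cfsg

namespace Cfsg.Agent.S4713

open Cfsg.Lib.Char Cfsg.Lib.Char.Deg Cfsg.Lib.Solv

/-- Let p be a prime and G a finite p-solvable group. Then G has a normal abelian Sylow p-subgroup if and only if the degree of every irreducible character of G is prime to p. -/
theorem result {G : Type*} [Group G] [Finite G] (p : ℕ) [Fact p.Prime] (hsolv : Cfsg.IsPSolvable p G) (P : Sylow p G) : ((P : Subgroup G).Normal ∧ IsMulCommutative P) ↔ ∀ χ : Cfsg.IrrCharacter G, ¬ p ∣ Cfsg.charDegree (χ : G → ℂ) := by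
  refine ⟨fun ⟨h1, h2⟩ χ h => P.not_dvd_index (h.trans ?_), fun h => ?_⟩
  · have := Fintype.ofFinite (P : Subgroup G)
    exact ito χ.2 _ fun a ha b hb => congrArg Subtype.val (h2.is_comm.comm ⟨a, ha⟩ ⟨b, hb⟩)
  · exact ⟨ito_normal G hsolv (fun χ hχ => h ⟨χ, hχ⟩) P,
      ⟨⟨fun a b => Subtype.ext (ito_comm hsolv (fun χ hχ => h ⟨χ, hχ⟩) P a a.2 b b.2)⟩⟩⟩

end Cfsg.Agent.S4713
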