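import Cfsg.Statements.S4715
import Cfsg.Agent.Block.GenDec
import Cfsg.Agent.Block.FirstMain

set_option autoImplicit false
open Cfsg

namespace Cfsg.Agent.S4715

open Cfsg.Lib.Char Cfsg.Lib.Block

open scoped ComplexConjugate MonoidAlgebra
open Cfsg.Lib.Block.Pair Cfsg.Lib.Block.Cyc
open Subgroup (centralizer normalizer zpowers)

theorem avg_bound {G : Type*} [Group G] [Fintype G] {p : ℕ} [hp : Fact p.Prime] {M : Ideal AlgInt}
    (hM : IsPModular p M) {B : Set (IrrCharacter G)} (hB : IsPBlock M B) {D : Subgroup G}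
    {e : (kM M)[G]} (h : IsMax p ⊤ ⊤ (eB M B) D e) {χ : IrrCharacter G} (hχ : χ ∈ B) {n : ℕ}
    {ζ : ℂ} (hζ : IsPrimitiveRoot ζ (p ^ (n + 1))) (z : D) (hz : (z : G) ^ p ^ (n + 1) = 1)
    (hc : D ≤ centralizer ({(z : G)} : Set G)) :
    ((U p n).card : ℝ) * p ^ blockHeight p B (χ : G → ℂ) ≤
      ∑ k ∈ U p n, (p : ℝ) ^ blockDefect p B * (Star.ctr p M D e χ χ (z ^ k)).re := by
  have := Fintype.ofFinite (centralizer ({(z : G)} : Set G))
  have hu := isMax_pElt h z.2
  have hind := isInducedBlock_subBlk hM hB h z.2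
  have hd := blockDefect_subBlk_of_le hM hB h z.2 hc
  obtain ⟨a, ha⟩ := exists_isParts hp.out rfl hζ hz (subBlk p M D e z) χ.2.isGeneralizedCharacter
  have h1 : 2 * ((p : ℤ) - 1) * (p : ℤ) ^ blockHeight p B (χ : G → ℂ) ≤ avgB a a := by
    refine two_mul_le_sum_pairs (fun s x y => bf p _ (a (s, x) - a (s, y)) (a (s, x) - a (s, y)))
      (fun _ _ _ => bf_self_nonneg _) a (by positivity) (fun s x y hxy => Int.le_of_dvd
        (bf_self_pos (sub_ne_zero.2 hxy)) (ha.pow_height_dvd hM rfl hζ hu hind hd hχ _ s x y)) ?_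
    by_contra h0
    push Not at h0
    refine subRes_ne_zero_of_major hM rfl hu hind hd hχ ?_
    have h2 := (ha 1).trans (sum_pow_ex_smul_eq_zero hp.out hζ
      (by simpa using hp.out.one_lt.ne') _ fun s x y => by rw [h0 s x y])
    rwa [pow_one] at h2
  have h2 := two_mul_sum_U_inner hζ ha ha
  have h3 : ∀ k ∈ U p n, classInner (subRes p _ ((z : G) ^ k) (subBlk p M D e z) χ)
      (subRes p _ ((z : G) ^ k) (subBlk p M D e z) χ) = Star.ctr p M D e χ χ (z ^ k) := by
    intro k hk
    have h4 := cent_pow_eq hp.out rfl hu (not_dvd_of_mem_U hk)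
    have h5 : zpowers ((z : G) ^ k) = zpowers (z : G) := by
      obtain ⟨j, hj⟩ := hu
      refine le_antisymm (Subgroup.zpowers_le.2 (Subgroup.pow_mem _ (Subgroup.mem_zpowers _) k))
        (Subgroup.zpowers_le.2 (mem_zpowers_pow_iff.2 ?_))
      rw [hj]
      exact Nat.Coprime.pow_right _ ((Nat.Prime.coprime_iff_not_dvd hp.out).2
        (not_dvd_of_mem_U hk)).symm
    have key : ∀ (K K' : Subgroup G) [Fintype K] [Fintype K'] (f f' : (kM M)[G]), K = K' → f = f' →
        classInner (subRes p K ((z : G) ^ k) (blkOf M K f) χ)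
          (subRes p K ((z : G) ^ k) (blkOf M K f) χ) =
        classInner (subRes p K' ((z : G) ^ k) (blkOf M K' f') χ)
          (subRes p K' ((z : G) ^ k) (blkOf M K' f') χ) := by
      rintro K K' i i' f f' rfl rfl
      rw [Subsingleton.elim i i']
    have := Fintype.ofFinite (centralizer ({((z ^ k : D) : G)} : Set G))
    rw [Star.ctr_eq hM h χ.2.isClassFunction χ.2.isClassFunction]
    exact key _ _ _ _ h4 (by rw [← h5]; rfl)
  rw [Finset.sum_congr rfl fun k hk => by rw [h3 k hk, hd]] at h2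
  have h6 := congrArg Complex.re h2
  have h7 : ((U p n).card : ℝ) = (p : ℝ) ^ n * (p - 1) := by
    exact_mod_cast congrArg (Int.cast : ℤ → ℝ) (card_U hp.out.ne_zero n)
  have h8 : (2 * ((p : ℝ) - 1) * (p : ℝ) ^ blockHeight p B (χ : G → ℂ)) ≤ avgB a a := by
    exact_mod_cast h1
  simp only [← Nat.cast_pow, Complex.mul_re, Complex.re_sum, Complex.natCast_re,
    Complex.natCast_im, Complex.intCast_re, Complex.intCast_im, zero_mul, sub_zero, mul_zero,
    Complex.re_ofNat, Complex.im_ofNat] at h6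
  push_cast at h6
  have h9 : (0 : ℝ) ≤ (p : ℝ) ^ n := by positivity
  rw [h7]
  nlinarith [mul_le_mul_of_nonneg_left h8 h9]

/-- Let p be a prime, M a maximal ideal of the algebraic integers containing p, B a p-block of the finite group G with defect group D of order p^d, H = D·C_G(D), b a block of H inducing B, T the stabilizer of b in N_G(D) and e = [T : H] the inertial index of B; let n be the integer with p^n ≤ e < p^(n+1) and p^c the order of the centre of D. Then every irreducible character in B has height h with h + c ≤ n + d. -/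
theorem result {G : Type*} [Group G] [Finite G] (p : ℕ) [Fact p.Prime] (M : Ideal Cfsg.AlgInt) (hM : Cfsg.IsPModular p M) (B : Set (Cfsg.IrrCharacter G)) (hB : Cfsg.IsPBlock M B) (D : Subgroup G) (hBD : Cfsg.IsDefectGroup p M B D) (d : ℕ) (hDd : Nat.card D = p ^ d) (H : Subgroup G) (hH : H = D ⊔ Subgroup.centralizer (D : Set G)) (b : Set (Cfsg.IrrCharacter H)) (hind : Cfsg.IsInducedBlock M H b B) (T : Subgroup G) (hT : ∀ g : G, g ∈ T ↔ (g ∈ Subgroup.normalizer (D : Set G) ∧ ∀ θ ∈ b, ∀ θ' : Cfsg.IrrCharacter H, (∀ h h' : H, (h' : G) = g * h * g⁻¹ → (θ' : H → ℂ) h' = (θ : H → ℂ) h) → θ' ∈ b)) (e : ℕ) (he : H.relIndex T = e) (n : ℕ) (hn : p ^ n ≤ e ∧ e < p ^ (n + 1)) (c : ℕ) (hc : Nat.card (Subgroup.center D) = p ^ c) : ∀ χ ∈ B, Cfsg.blockHeight p B (χ : G → ℂ) + c ≤ n + d := by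
  classical
  intro χ hχ
  have hp : p.Prime := Fact.out
  have := Fintype.ofFinite G
  have := charP_kM hM
  have hDp := defect_isPGroup hBD
  have hDH : D ≤ H := hH ▸ le_sup_left
  have hCH : centralizer (D : Set G) ≤ H := hH ▸ le_sup_right
  have hHN : H ≤ normalizer (D : Set G) :=
    hH ▸ sup_le Subgroup.le_normalizer (Subgroup.centralizer_le_normalizer _)
  have hb := isPrim_hat hM hind.1
  have h : IsMax p ⊤ ⊤ (eB M B) D (hat M H b) := by
    refine ⟨le_rfl, top_le_normalizer_top, isPrim_eB hM hB,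
      (isDefectGroup_iff_isDefect hM hB).1 hBD, isBlk_top_iff.2 ⟨⟨hat_suppOn_centralizer hM hDp hDH
        hHN hind.1, hCH.trans hb.le_stab⟩, hb.idem, hb.ne_zero, fun f hf => hb.prim f
          ⟨hf.1.mono hCH, hH ▸ sup_le (le_stab_of_suppOn_centralizer hf.1) hf.2⟩⟩,
      (isInducedBlock_iff_br_mul_eq hM hDp hDH hCH hHN hind.1 hB).1 hind⟩
  have hTT : normalizer (D : Set G) ⊓ stab (hat M H b) ≤ T := fun g hg => by
    have hg' : H.map (MulAut.conj g).toMonoidHom = H := by
      rw [hH, Subgroup.map_sup, map_conj_centralizer, map_conj_eq_self_iff.2 hg.1]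
    refine (hT g).2 ⟨hg.1, fun θ hθ θ' h1 => ?_⟩
    have h2 : trB (conjIso g hg') b = b := block_eq_of_hat_eq hM (isPBlock_trB_of _ hind.1) hind.1
      (by rw [hat_trB_conjIso, hg.2])
    exact h2 ▸ mem_trB_iff_exists.2 ⟨θ, hθ, (eq_irrComap_conjIso_iff g hg' θ θ').1 h1⟩
  have hcen : ∀ z : D, z ∈ Subgroup.center D → D ≤ centralizer ({(z : G)} : Set G) :=
    fun z hz x hx => Subgroup.mem_centralizer_singleton_iff.2
      (congrArg Subtype.val (Subgroup.mem_center_iff.1 hz ⟨x, hx⟩))
  set Z := Finset.univ.filter fun z : D => z ∈ Subgroup.center D with hZ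
  have hcount : ∀ w : D, (Z.filter fun z : D => EF p D (hat M H b) z w).card ≤ e := fun w => by
    rcases (Z.filter fun z : D => EF p D (hat M H b) z w).eq_empty_or_nonempty with h0 | ⟨z, hz⟩
    · simp [h0]
    obtain ⟨hz1, hz2⟩ := Finset.mem_filter.1 hz
    have hz3 := hcen z (Finset.mem_filter.1 hz1).2
    have hz4 : H ≤ centralizer ({(z : G)} : Set G) := hH ▸ sup_le hz3
      (Subgroup.centralizer_le (Set.singleton_subset_iff.2 z.2))
    let f : T ⧸ H.subgroupOf T → G := Quotient.lift (fun t : T => (t : G) * z * (t : G)⁻¹)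
      fun s t hst => by
        have h0 : s⁻¹ * t ∈ H.subgroupOf T := QuotientGroup.leftRel_apply.1 hst
        have h1 := Subgroup.mem_centralizer_singleton_iff.1 (hz4 h0)
        rw [Subgroup.coe_subtype, Subgroup.coe_mul, Subgroup.coe_inv] at h1
        calc (s : G) * z * (s : G)⁻¹ = s * (z * ((s : G)⁻¹ * t)) * (t : G)⁻¹ := by group
          _ = _ := by rw [← h1]; group
    have := Fintype.ofFinite (T ⧸ H.subgroupOf T)
    rw [← he, Subgroup.relIndex, Subgroup.index, Nat.card_eq_fintype_card, ← Finset.card_univ,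
      ← Finset.card_image_of_injective _ Subtype.val_injective]
    refine (Finset.card_le_card fun y hy => ?_).trans (Finset.card_image_le (f := f))
    obtain ⟨y, hy', rfl⟩ := Finset.mem_image.1 hy
    obtain ⟨hy1, hy2⟩ := Finset.mem_filter.1 hy'
    obtain ⟨t, ht, h1⟩ := (hz2.trans h hy2.symm).exists_mem_stab h hz3
      (hcen y (Finset.mem_filter.1 hy1).2)
    exact Finset.mem_image.2 ⟨QuotientGroup.mk ⟨t, hTT ht⟩, Finset.mem_univ _, h1⟩
  set r : D → ℝ := fun w => (Star.ctr p M D (hat M H b) χ χ w).re with hr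
  have hr0 : ∀ w, 0 ≤ r w := Star.ctr_self_re_nonneg hM h χ.2.isClassFunction
  have hn0 : ∀ w : D, (0 : ℝ) < Star.nF p D (hat M H b) w := fun w => by
    exact_mod_cast Star.nF_pos h w.2
  have h1 : ∑ w, r w / Star.nF p D (hat M H b) w = 1 := by
    have h2 := congrArg Complex.re (Star.classInner_eq_sum_ctr hM h hB (inSpan_irr hχ) χ)
    rw [χ.2.classInner_self, Complex.re_sum] at h2
    rw [← Complex.one_re, h2]
    exact Finset.sum_congr rfl fun w _ => by rw [Complex.div_natCast_re]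
  have h2 : ∑ z ∈ Z, r z ≤ e := by
    calc ∑ z ∈ Z, r z = ∑ z ∈ Z, ∑ w ∈ Finset.univ.filter fun w : D => EF p D (hat M H b) z w,
          r w / Star.nF p D (hat M H b) w := Finset.sum_congr rfl fun z _ => by
            rw [Finset.sum_congr rfl (g := fun _ => r z / Star.nF p D (hat M H b) z) fun w hw => by
              have h3 := (Finset.mem_filter.1 hw).2
              simp only [hr, Star.nF_congr h h3, Star.stable_ctr hM h χ χ z w h3],
              Finset.sum_const, nsmul_eq_mul, ← Fintype.card_subtype, ← Nat.card_eq_fintype_card]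
            exact (mul_div_cancel₀ _ (hn0 z).ne').symm
      _ = ∑ w : D, ∑ z ∈ Z.filter fun z : D => EF p D (hat M H b) z w,
          r w / Star.nF p D (hat M H b) w := Finset.sum_comm' (by simp [and_comm])
      _ ≤ ∑ w : D, e * (r w / Star.nF p D (hat M H b) w) := Finset.sum_le_sum fun w _ => by
            rw [Finset.sum_const, nsmul_eq_mul]
            exact mul_le_mul_of_nonneg_right (by exact_mod_cast hcount w)
              (div_nonneg (hr0 w) (hn0 w).le)
      _ = e := by rw [← Finset.mul_sum, h1, mul_one]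
  have hζ := Complex.isPrimitiveRoot_exp (p ^ (d + 1)) (pow_ne_zero _ hp.ne_zero)
  have h3 := Finset.sum_le_sum fun z (hz : z ∈ Z) => avg_bound hM hB h hχ hζ z (by
    rw [pow_succ, ← hDd, pow_mul, ← Subgroup.coe_pow, pow_card_eq_one', Subgroup.coe_one, one_pow])
    (hcen z (Finset.mem_filter.1 hz).2)
  have h4 : ∀ k ∈ U p d, ∑ z ∈ Z, r (z ^ k) = ∑ z ∈ Z, r z := fun k hk => by
    have h5 : (Nat.card D).Coprime k := hDd ▸ Nat.Coprime.pow_left _
      ((Nat.Prime.coprime_iff_not_dvd hp).2 (not_dvd_of_mem_U hk))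
    refine Finset.sum_bij (fun z _ => z ^ k) (fun z hz => ?_)
      (fun x _ y _ hxy => (powCoprime h5).injective hxy) (fun y hy => ?_) fun _ _ => rfl
    · exact Finset.mem_filter.2 ⟨Finset.mem_univ _, pow_mem (Finset.mem_filter.1 hz).2 k⟩
    · exact ⟨(powCoprime h5).symm y, Finset.mem_filter.2 ⟨Finset.mem_univ _,
        zpow_mem (Finset.mem_filter.1 hy).2 _⟩, (powCoprime h5).apply_symm_apply y⟩
  have hd : blockDefect p B = d :=
    Nat.pow_right_injective hp.two_le ((card_defect hM hB hBD).symm.trans hDd)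
  rw [Finset.sum_const, nsmul_eq_mul, Finset.sum_comm, Finset.sum_congr rfl fun k hk => by
    rw [← Finset.mul_sum, h4 k hk], Finset.sum_const, nsmul_eq_mul, hd, hZ,
    ← Fintype.card_subtype, ← Nat.card_eq_fintype_card, hc, mul_left_comm] at h3
  have h5 : (0 : ℝ) < (U p d).card := by
    exact_mod_cast Finset.card_pos.2 ⟨1, one_mem_U hp d⟩
  have h6 : ((p ^ c : ℕ) : ℝ) * p ^ blockHeight p B (χ : G → ℂ) ≤ (p : ℝ) ^ d * e :=
    (le_of_mul_le_mul_left h3 h5).trans (mul_le_mul_of_nonneg_left h2 (by positivity))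
  have h7 : p ^ c * p ^ blockHeight p B (χ : G → ℂ) ≤ p ^ d * e := by exact_mod_cast h6
  have h8 := h7.trans_lt (Nat.mul_lt_mul_of_pos_left hn.2 (pow_pos hp.pos d))
  rw [← pow_add, ← pow_add, Nat.pow_lt_pow_iff_right hp.one_lt] at h8
  omega

end Cfsg.Agent.S4715
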