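import Cfsg.Statements.S4718
import Cfsg.Agent.Block.Landau
import Cfsg.Agent.S4494
import Cfsg.Agent.Block.Part

set_option autoImplicit false
universe u
open Cfsg

namespace Cfsg.Agent.S4718

/-- Let p be a prime and a a natural number. There is a bound N such that every finite group whose Sylow p-subgroups have order p^a and whose only p-block (relative to a maximal ideal of the algebraic integers containing p) is the principal block has order at most N. -/
theorem result (p : ℕ) [Fact p.Prime] (a : ℕ) : ∃ N : ℕ, ∀ (G : Type u) [Group G] [Finite G] (M : Ideal Cfsg.AlgInt), Cfsg.IsPModular p M → (Nat.card G).factorization p = a → (∀ B : Set (Cfsg.IrrCharacter G), Cfsg.IsPBlock M B → B = Cfsg.principalBlock M G) → Nat.card G ≤ N := by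
  have hp : p.Prime := Fact.out
  obtain ⟨N, hN⟩ := Cfsg.Lib.Block.exists_card_le_of_card_conjClasses.{u} (p ^ (2 * a) + 4)
  refine ⟨N, fun G _ _ M hM ha hB => hN G ?_⟩
  have h1 := Cfsg.Agent.S4494.result p M hM _ (Cfsg.Lib.Block.isPBlock_principalBlock' (M := M) (G := G))
  have h2 : Cfsg.principalBlock M G = Set.univ := by
    refine Set.eq_univ_of_forall fun χ => ?_
    rw [← hB _ (Cfsg.Lib.Block.isPBlock_blockOf' χ)]
    exact Cfsg.Lib.Block.mem_blockOf_self' hM χ
  have h3 : Cfsg.blockDefect p (Cfsg.principalBlock M G) ≤ a := by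
    rw [← ha]; exact Nat.sub_le _ _
  have h4 : p ^ (2 * Cfsg.blockDefect p (Cfsg.principalBlock M G)) ≤ p ^ (2 * a) :=
    Nat.pow_le_pow_right hp.pos (by omega)
  have h5 : Nat.card (Cfsg.principalBlock M G) = Nat.card (ConjClasses G) := by
    rw [h2, Nat.card_univ, Cfsg.Lib.Char.card_irr_eq_card_conjClasses]
  omega

end Cfsg.Agent.S4718
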