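import Cfsg.Statements.S4719
import Cfsg.Agent.Block.BFBound
import Cfsg.Agent.Block.Deficiency
import Cfsg.Agent.Block.PrincQuot
import Cfsg.Agent.Block.Ker
import Cfsg.Agent.Block.InvertedSylow
import Cfsg.Agent.S4718

set_option autoImplicit false
universe u
open Cfsg

namespace Cfsg.Agent.S4719

open Cfsg.Lib.Block Subgroup

universe v

/-- Deficiency class. -/
def Defi (M : Ideal Cfsg.AlgInt) (G : Type v) [Group G] (r : ℕ) : Prop :=
  ∀ B : Set (Cfsg.IrrCharacter G), Cfsg.IsPBlock M B → B ≠ Cfsg.principalBlock M G → Cfsg.blockDefect 2 B < r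

/-- An elementary abelian subgroup of order `2 ^ (r + 1)`. -/
def Elem (G : Type v) [Group G] (r : ℕ) : Prop :=
  ∃ E : Subgroup G, (∀ x ∈ E, x * x = 1) ∧ Nat.card E = 2 ^ (r + 1)

variable {M : Ideal Cfsg.AlgInt} {G : Type v} [Group G] [Finite G]

theorem defi_quot (hM : Cfsg.IsPModular 2 M) (Z : Subgroup G) [Z.Normal] (hZ : Nat.card Z = 2)
    (hc : Z ≤ center G) {r : ℕ} (h : Defi M G (r + 1)) : Defi M (G ⧸ Z) r := by
  intro b hb hne
  have hf := QuotientGroup.mk'_surjective Z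
  obtain ⟨χ, hχ, hmin⟩ := Ht.exists_eq_minVal 2 (isPBlock_nonempty hM hb)
  let θ : Cfsg.IrrCharacter G := ⟨fun g => (χ : G ⧸ Z → ℂ) (QuotientGroup.mk' Z g), χ.2.comp_of_surjective _ hf⟩
  have hB := isPBlock_blockOf' (M := M) θ
  have hθ := mem_blockOf_self' hM θ
  have h1 := h _ hB fun h0 => hne (by
    refine isPBlock_eq_of_mem hM hb isPBlock_principalBlock' hχ ?_
    refine Princ.mem_principalBlock_of_comp hM (QuotientGroup.mk' Z) hf ?_ ?_ (h0 ▸ hθ) fun g => rfl
    · rw [QuotientGroup.ker_mk']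
      exact IsPGroup.of_card (n := 1) (by rw [hZ, pow_one])
    · intro y _ z hz
      rw [QuotientGroup.ker_mk'] at hz
      exact (mem_center_iff.1 (hc hz) y).symm)
  have h2 := Ht.blockDefect_add_minVal 2 (isPBlock_nonempty hM hb)
  have h3 := Ht.blockDefect_add_minVal 2 (isPBlock_nonempty hM hB)
  have h4 := Ht.minVal_le (p := 2) hθ
  have h5 : Cfsg.charDegree (θ : G → ℂ) = Cfsg.charDegree (χ : G ⧸ Z → ℂ) := rfl
  have h6 : (Nat.card G).factorization 2 = (Nat.card (G ⧸ Z)).factorization 2 + 1 := by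
    rw [card_eq_card_quotient_mul_card_subgroup Z, hZ, Nat.factorization_mul Nat.card_pos.ne' two_ne_zero,
      Finsupp.add_apply, Nat.prime_two.factorization_self]
  rw [h5, hmin] at h4
  omega

theorem elem_quot (Z : Subgroup G) [Z.Normal] (hZ : Nat.card Z = 2) {E : Subgroup G} (hZE : Z ≤ E)
    (hE : ∀ x ∈ E, x * x = 1) {r : ℕ} (hc : Nat.card E = 2 ^ (r + 1 + 1)) : Elem (G ⧸ Z) r := by
  refine ⟨E.map (QuotientGroup.mk' Z), ?_, ?_⟩
  · rintro _ ⟨x, hx, rfl⟩
    rw [← map_mul, hE x hx, map_one]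
  · have h1 := (Z.subgroupOf E).card_mul_index
    rw [Nat.card_congr (subgroupOfEquivOfLe hZE).toEquiv, hZ, hc, pow_succ', ← relIndex] at h1
    rw [← relIndex_ker, QuotientGroup.ker_mk']
    omega

theorem step (hM : Cfsg.IsPModular 2 M) {r : ℕ} (h : Defi M G (r + 1)) {E : Subgroup G}
    (hE : ∀ x ∈ E, x * x = 1) (hc : Nat.card E = 2 ^ (r + 1 + 1)) {t : G} (ht : t ∈ E) (ht1 : t ≠ 1) :
    ∃ (Z : Subgroup (centralizer ({t} : Set G))) (_ : Z.Normal), Nat.card Z = 2 ∧
      Defi M (centralizer ({t} : Set G) ⧸ Z) r ∧ Elem (centralizer ({t} : Set G) ⧸ Z) r := by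
  have hto : orderOf t = 2 := orderOf_eq_prime (by rw [pow_two, hE t ht]) ht1
  have hz := self_mem_center_centralizer t
  set t' : centralizer ({t} : Set G) := ⟨t, mem_centralizer_singleton_iff.mpr rfl⟩ with ht'
  have hle : zpowers t' ≤ center _ := zpowers_le.2 hz
  have hN : (zpowers t').Normal := by
    refine ⟨fun n hn g => ?_⟩
    rw [mem_center_iff.1 (hle hn) g, mul_inv_cancel_right]
    exact hn
  have hZ : Nat.card (zpowers t') = 2 := by rw [Nat.card_zpowers, ht', orderOf_mk, hto]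
  have hEC : E ≤ centralizer ({t} : Set G) := by
    intro x hx
    rw [mem_centralizer_singleton_iff]
    have h1 := hE _ (E.mul_mem hx ht)
    calc x * t = x * (t * t) * (x * x) * t := by rw [hE x hx, hE t ht, mul_one, mul_one]
      _ = (x * t) * (t * x) * (x * t) := by group
      _ = (x * t) * (t * x) * (x * t)⁻¹ := by rw [inv_eq_of_mul_eq_one_right h1]
      _ = (x * x) * (t * x) := by
        rw [mul_inv_rev, inv_eq_of_mul_eq_one_right (hE x hx), inv_eq_of_mul_eq_one_right (hE t ht)]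
        calc x * t * (t * x) * (t * x) = x * (t * t) * x * (t * x) := by group
          _ = _ := by rw [hE t ht, mul_one]
      _ = _ := by rw [hE x hx, one_mul]
  refine ⟨zpowers t', hN, hZ, defi_quot hM _ hZ hle (deficiency_centralizer hM h ⟨1, by rw [hto, pow_one]⟩),
    elem_quot _ hZ (E := E.subgroupOf _) (zpowers_le.2 ht) (fun x hx => Subtype.ext (hE x hx)) ?_⟩
  rw [Nat.card_congr (subgroupOfEquivOfLe hEC).toEquiv, hc]

theorem core_eq_bot (hM : Cfsg.IsPModular 2 M) (r : ℕ) : ∀ (G : Type v) [Group G] [Finite G],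
    Defi M G r → Elem G r → Cfsg.pPrimeCore 2 G = ⊥ := by
  induction r with
  | zero =>
    intro G _ _ h _
    rw [eq_bot_iff, ← Cfsg.Lib.Char.iInf_charKer_irr]
    refine le_iInf fun χ => pPrimeCore_le_charKer hM ?_
    by_contra hχ
    exact Nat.not_lt_zero _ (h _ (isPBlock_blockOf' χ) fun h0 => hχ (h0 ▸ mem_blockOf_self' hM χ))
  | succ r ih =>
    rintro G _ _ h ⟨E, hE, hc⟩
    have hfix : ∀ t ∈ E, t ≠ 1 → ∀ x ∈ Cfsg.pPrimeCore 2 G, t * x = x * t → x = 1 := by
      intro t ht ht1 x hx htx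
      obtain ⟨Z, hN, hZ, h1, h2⟩ := step hM h hE hc ht ht1
      have h3 := ih _ h1 h2
      let x' : centralizer ({t} : Set G) := ⟨x, mem_centralizer_singleton_iff.2 htx.symm⟩
      have h4 : x' ∈ Cfsg.pPrimeCore 2 (centralizer ({t} : Set G)) :=
        Cfsg.Lib.Solv.pPrimeCore_subgroupOf_le _ (mem_subgroupOf.2 hx)
      have h5 := Cfsg.Lib.Solv.map_pPrimeCore_le (p := 2) (QuotientGroup.mk' Z) (QuotientGroup.mk'_surjective Z)
        ⟨x', h4, rfl⟩
      rw [h3, mem_bot, QuotientGroup.mk'_apply, QuotientGroup.eq_one_iff] at h5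
      have h6 : orderOf x ∣ 2 := by
        rw [← hZ, ← orderOf_mk x x'.2, ← orderOf_mk x' h5]; exact orderOf_dvd_natCard _
      have h7 : orderOf x ∣ Nat.card (Cfsg.pPrimeCore 2 G) := by
        rw [← orderOf_mk x hx]; exact orderOf_dvd_natCard _
      exact orderOf_eq_one_iff.1 (Nat.eq_one_of_dvd_coprimes (Cfsg.Lib.Solv.coprime_card_pPrimeCore 2 G) h7 h6)
    have hinv : ∀ t ∈ E, t ≠ 1 → ∀ x ∈ Cfsg.pPrimeCore 2 G, t * x * t⁻¹ = x⁻¹ := fun t ht ht1 x hx =>
      inverts_of_mem_normalizer (hE t ht) (by rw [normalizer_eq_top]; trivial) (hfix t ht ht1) hx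
    have h3 : 2 < Nat.card E := by
      rw [hc, pow_succ]
      have := Nat.one_lt_two_pow (n := r + 1) (by omega)
      omega
    obtain ⟨s, t, hs, ht, hst⟩ : ∃ s t : E, s ≠ 1 ∧ t ≠ 1 ∧ s ≠ t := by
      have := Fintype.ofFinite E
      rw [Nat.card_eq_fintype_card] at h3
      obtain ⟨a, b, c, hab, hac, hbc⟩ := Fintype.two_lt_card_iff.1 h3
      by_cases ha : a = 1
      · exact ⟨b, c, ha ▸ hab.symm, ha ▸ hac.symm, hbc⟩
      · by_cases hb : b = 1
        · exact ⟨a, c, ha, hb ▸ hbc.symm, hac⟩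
        · exact ⟨a, b, ha, hb, hab⟩
    have h4 := mul_mem_centralizer_of_inverts (hinv s s.2 fun h => hs (Subtype.ext h))
      (hinv t t.2 fun h => ht (Subtype.ext h))
    refine eq_bot_iff.2 fun x hx => mem_bot.2 (hfix _ (E.mul_mem s.2 t.2) (fun h0 => hst (Subtype.ext ?_)) x hx
      (h4 x hx).symm)
    rw [← inv_eq_of_mul_eq_one_right h0, inv_eq_of_mul_eq_one_right (hE s s.2)]

theorem main (a : ℕ) : ∃ N : ℕ, ∀ (G : Type v) [Group G] [Finite G] (M : Ideal Cfsg.AlgInt) (r : ℕ),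
    Cfsg.IsPModular 2 M → (Nat.card G).factorization 2 ≤ a → Defi M G r → Elem G r → Nat.card G ≤ N := by
  induction a with
  | zero =>
    refine ⟨0, fun G _ _ M r _ ha _ ⟨E, _, hc⟩ => ?_⟩
    have h1 := card_subgroup_dvd_card E
    rw [hc, Nat.prime_two.pow_dvd_iff_le_factorization Nat.card_pos.ne'] at h1
    omega
  | succ a ih =>
    obtain ⟨N, hN⟩ := ih
    obtain ⟨N₁, hN₁⟩ := BF.exists_card_le.{v} (a + 1) (N * 2)
    choose f hf using Cfsg.Agent.S4718.result.{v} 2
    refine ⟨N₁ + ∑ i ∈ Finset.range (a + 2), f i, fun G _ _ M r hM ha h hE => ?_⟩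
    rcases r with _ | r
    · have h1 := hf _ G M hM rfl fun B hB => by
        by_contra hne
        exact Nat.not_lt_zero _ (h B hB hne)
      have h2 : f ((Nat.card G).factorization 2) ≤ ∑ i ∈ Finset.range (a + 2), f i :=
        Finset.single_le_sum (fun _ _ => Nat.zero_le _) (Finset.mem_range.2 (by omega))
      omega
    · have hO := core_eq_bot hM _ G h hE
      obtain ⟨E, hE, hc⟩ := hE
      have : Nontrivial E := by
        rw [← Finite.one_lt_card_iff_nontrivial, hc]
        exact Nat.one_lt_two_pow (by omega)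
      obtain ⟨t, ht⟩ := exists_ne (1 : E)
      obtain ⟨Z, hZN, hZ, h1, h2⟩ := step hM h hE hc t.2 fun h => ht (Subtype.ext h)
      have h3 := card_eq_card_quotient_mul_card_subgroup Z
      have h4 : (Nat.card (centralizer ({(t : G)} : Set G))).factorization 2 ≤ (Nat.card G).factorization 2 :=
        (Nat.factorization_le_iff_dvd Nat.card_pos.ne' Nat.card_pos.ne').2 (card_subgroup_dvd_card _) 2
      rw [hZ] at h3
      rw [h3, Nat.factorization_mul Nat.card_pos.ne' two_ne_zero, Finsupp.add_apply,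
        Nat.prime_two.factorization_self] at h4
      have h5 := hN _ M r hM (by omega) h1 h2
      have h6 := hN₁ G hO ha t (hE t t.2) (by rw [h3]; exact Nat.mul_le_mul_right _ h5)
      omega


/-- For every natural number a there is a bound N with the following property. Let G be a finite group with Sylow 2-subgroups of order 2^a and r ≥ 0 such that G has no non-principal 2-block (relative to a maximal ideal of the algebraic integers containing 2) of defect ≥ r, and suppose a Sylow 2-subgroup of G contains an elementary abelian subgroup of order 2^(r+1). Then the order of G is at most N. -/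
theorem result (a : ℕ) : ∃ N : ℕ, ∀ (G : Type u) [Group G] [Finite G] (M : Ideal Cfsg.AlgInt) (r : ℕ) (P : Sylow 2 G), Cfsg.IsPModular 2 M → Nat.card P = 2 ^ a → (∀ B : Set (Cfsg.IrrCharacter G), Cfsg.IsPBlock M B → B ≠ Cfsg.principalBlock M G → Cfsg.blockDefect 2 B < r) → (∃ E : Subgroup G, E ≤ (P : Subgroup G) ∧ IsMulCommutative E ∧ (∀ x ∈ E, x * x = 1) ∧ Nat.card E = 2 ^ (r + 1)) → Nat.card G ≤ N := by
  obtain ⟨N, hN⟩ := main.{u} a
  refine ⟨N, fun G _ _ M r P hM hP h ⟨E, _, _, hE, hc⟩ => hN G M r hM ?_ h ⟨E, hE, hc⟩⟩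
  rw [P.card_eq_multiplicity] at hP
  exact (Nat.pow_right_injective le_rfl hP).le

end Cfsg.Agent.S4719
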