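import Cfsg.Statements.S4720
import Cfsg.Agent.Block.PrincSection
import Cfsg.Agent.Char.Ind

set_option autoImplicit false
open Cfsg

namespace Cfsg.Agent.S4720

open Cfsg.Lib.Block ComplexConjugate

open Classical in
theorem sum_princ_inv {G : Type*} [Group G] [Finite G] {p : ℕ} [hp : Fact p.Prime] {M : Ideal Cfsg.AlgInt}
    (hM : Cfsg.IsPModular p M) {y z : G} (hy : ∃ k : ℕ, orderOf y = p ^ k) (hz : ∃ k : ℕ, orderOf z = p ^ k) :
    ∑ χ ∈ irrFin (Cfsg.principalBlock M G), (χ : G → ℂ) y⁻¹ * conj ((χ : G → ℂ) z⁻¹) =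
      if IsConj y z then ∑ ξ ∈ irrFin (Cfsg.principalBlock M (Subgroup.centralizer ({y} : Set G))),
        (Cfsg.charDegree (ξ : Subgroup.centralizer ({y} : Set G) → ℂ) : ℂ) ^ 2 else 0 := by
  split_ifs with h
  · have h1 := Princ.sum_mul_conj_section_princ hM hy (y := 1) (y' := 1)
      (by rw [orderOf_one]; exact hp.out.one_lt.ne' ∘ Nat.dvd_one.1)
      (by rw [orderOf_one]; exact hp.out.one_lt.ne' ∘ Nat.dvd_one.1)
    simp only [OneMemClass.coe_one, mul_one] at h1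
    calc _ = ∑ χ ∈ irrFin (Cfsg.principalBlock M G), (χ : G → ℂ) y * conj ((χ : G → ℂ) y) := by
          refine Finset.sum_congr rfl fun χ _ => ?_
          rw [χ.2.isCharacter.apply_inv, χ.2.isCharacter.apply_inv, ← χ.2.isClassFunction.eq_of_isConj h,
            Complex.conj_conj, mul_comm]
      _ = _ := by
          rw [h1]
          refine Finset.sum_congr rfl fun ξ _ => ?_
          rw [← irr_charDegree_cast, Complex.conj_natCast, pow_two]
  · rw [← finsum_mem_irr]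
    refine block_orth_conj hM isPBlock_principalBlock' (IsPPart_inv hp.out (isPPart_self hp.out hy))
      (IsPPart_inv hp.out (isPPart_self hp.out hz)) fun h' => h ?_
    obtain ⟨c, hc⟩ := isConj_iff.1 h'
    refine isConj_iff.2 ⟨c, ?_⟩
    rw [← inv_inj, ← hc]; group

open Classical in
theorem sum_conj_extend {G : Type*} [Group G] [Finite G] (P N : Subgroup G) [Fintype P] [Fintype N] {y : G}
    (hfus : ∀ g : G, g * y * g⁻¹ ∈ P → ∃ n ∈ N, n * y * n⁻¹ = g * y * g⁻¹) (η : P → ℂ) :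
    ∑ x : N, Cfsg.extendByZero P η ((x : G) * y * (x : G)⁻¹) =
      ∑ z : P, (if IsConj y (z : G) then (Nat.card ↥(N ⊓ Subgroup.centralizer ({y} : Set G)) : ℂ) else 0) * η z := by
  have h1 : ∀ g : G, Cfsg.extendByZero P η g = ∑ z : P, if g = z then η z else 0 := by
    intro g
    by_cases hg : g ∈ P
    · rw [Cfsg.Lib.Char.extendByZero_of_mem P η hg, Finset.sum_eq_single ⟨g, hg⟩]
      · simp
      · intro b _ hb
        rw [if_neg fun h => hb (Subtype.ext h.symm)]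
      · simp
    · rw [Cfsg.Lib.Char.extendByZero_of_notMem P η hg]
      exact (Finset.sum_eq_zero fun (z : P) _ => if_neg fun h : g = z => hg (h ▸ z.2)).symm
  simp only [h1]
  rw [Finset.sum_comm]
  refine Finset.sum_congr rfl fun z _ => ?_
  rw [← Finset.sum_filter, Finset.sum_const, nsmul_eq_mul]
  congr 1
  split_ifs with h
  · obtain ⟨c, hc⟩ := isConj_iff.1 h
    obtain ⟨n, hn, hny⟩ := hfus c (hc ▸ z.2)
    rw [hc] at hny
    rw [← Fintype.card_subtype, ← Nat.card_eq_fintype_card]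
    congr 1
    refine Nat.card_congr ⟨fun x => ⟨n⁻¹ * x.1.1, N.mul_mem (N.inv_mem hn) x.1.2, ?_⟩,
      fun c => ⟨⟨n * c.1, N.mul_mem hn c.2.1⟩, ?_⟩, fun x => ?_, fun c => ?_⟩
    · have := x.2.trans hny.symm
      change _ ∈ Subgroup.centralizer ({y} : Set G)
      rw [Subgroup.mem_centralizer_singleton_iff]
      calc n⁻¹ * x.1.1 * y = n⁻¹ * (x.1.1 * y * (x.1.1 : G)⁻¹) * x.1.1 := by group
        _ = _ := by rw [this]; group
    · have := Subgroup.mem_centralizer_singleton_iff.1 c.2.2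
      rw [← hny]
      calc n * c.1 * y * (n * c.1)⁻¹ = n * (c.1 * y) * (c.1 : G)⁻¹ * n⁻¹ := by group
        _ = _ := by rw [this]; group
    · simp
    · simp
  · rw [Finset.filter_eq_empty_iff.2 fun x _ hx => h (isConj_iff.2 ⟨_, hx⟩)]
    simp


/-- Let p be a prime, M a maximal ideal of the algebraic integers containing p, P a p-subgroup of the finite group G, N a subgroup with P ≤ N ≤ N_G(P), and U a nonempty subset of P normalized by N such that an element of U and an element of P that are conjugate in G are already conjugate in N, and such that λ(C_G(y)) = w·#C_N(y) for every y ∈ U with one rational number w, where λ(X) denotes the sum of the squares of the degrees of the irreducible characters in the principal p-block of X. For a complex function θ on P and χ in the principal block of G put a_χ(θ) = #P⁻¹ Σ_{y ∈ P} χ(y) θ(y⁻¹). Then for generalized characters θ, η of P with θ vanishing outside U, Σ_χ a_χ(θ)·conj(a_χ(η))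 = (w/#P²)·Σ_{y ∈ P} θ(y)·conj(Σ_{x ∈ N} η(x y x⁻¹)) (η extended by zero off P; the conjugates lie in P), the first sum over the principal p-block of G. -/
theorem result {G : Type*} [Group G] [Finite G] (p : ℕ) [Fact p.Prime] (M : Ideal Cfsg.AlgInt) (hM : Cfsg.IsPModular p M) (P : Subgroup G) (hP : IsPGroup p P) (N : Subgroup G) (hPN : P ≤ N) (hNN : N ≤ Subgroup.normalizer (P : Set G)) (U : Set G) (hUne : U.Nonempty) (hUP : U ⊆ (P : Set G)) (hUN : ∀ n ∈ N, ∀ u ∈ U, n * u * n⁻¹ ∈ U) (hfus : ∀ u ∈ U, ∀ g : G, g * u * g⁻¹ ∈ (P : Set G) → ∃ n ∈ N, n * u * n⁻¹ = g * u * g⁻¹) (w : ℚ) (hw : ∀ y ∈ U, ((∑ᶠ ψ ∈ Cfsg.principalBlock M ↥(Subgroup.centralizer ({y} : Set G)), Cfsg.charDegree (ψ : ↥(Subgroup.centralizer ({y} : Set G)) → ℂ) ^ 2) : ℚ) = w * Nat.card ↥(N ⊓ Subgroup.centralizer ({y} : Set G))) (θ η : ↥P → ℂ) (hθ : Cfsg.IsGeneralizedCharacter ↥P θ) (hη : Cfsg.IsGeneralizedCharacter ↥P η) (hθU : ∀ y : ↥P, (y : G) ∉ U → θ y = 0) : ∑ᶠ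 χ ∈ Cfsg.principalBlock M G, ((Nat.card ↥P : ℂ)⁻¹ * ∑ᶠ y : ↥P, (χ : G → ℂ) (y : G) * θ y⁻¹) * (starRingEnd ℂ) ((Nat.card ↥P : ℂ)⁻¹ * ∑ᶠ y : ↥P, (χ : G → ℂ) (y : G) * η y⁻¹) = ((w : ℂ) / ((Nat.card ↥P : ℂ) ^ 2)) * ∑ᶠ y : ↥P, θ y * (starRingEnd ℂ) (∑ᶠ x : ↥N, Cfsg.extendByZero P η ((x : G) * (y : G) * (x : G)⁻¹)) := by
  classical
  have := Fintype.ofFinite P
  have := Fintype.ofFinite N
  have hpel : ∀ y : P, ∃ k : ℕ, orderOf (y : G) = p ^ k := fun y => by
    obtain ⟨k, hk⟩ := IsPGroup.iff_orderOf.1 hP y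
    exact ⟨k, by rw [Subgroup.orderOf_coe, hk]⟩
  have hinv : ∀ (χ : G → ℂ) (φ : P → ℂ), ∑ y : P, χ (y : G) * φ y⁻¹ = ∑ y : P, χ (y : G)⁻¹ * φ y := by
    intro χ φ
    rw [← Equiv.sum_comp (Equiv.inv P)]
    simp
  rw [finsum_mem_irr]
  simp only [finsum_eq_sum_of_fintype, hinv]
  have h1 : ∀ χ : Cfsg.IrrCharacter G,
      ((Nat.card P : ℂ)⁻¹ * ∑ y : P, (χ : G → ℂ) (y : G)⁻¹ * θ y) *
        conj ((Nat.card P : ℂ)⁻¹ * ∑ y : P, (χ : G → ℂ) (y : G)⁻¹ * η y) =
      ((Nat.card P : ℂ) ^ 2)⁻¹ * ∑ y : P, ∑ z : P,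
        θ y * conj (η z) * ((χ : G → ℂ) (y : G)⁻¹ * conj ((χ : G → ℂ) (z : G)⁻¹)) := by
    intro χ
    rw [map_mul, map_inv₀, Complex.conj_natCast, map_sum, mul_mul_mul_comm, Finset.sum_mul_sum, ← mul_inv,
      ← pow_two]
    congr 1
    refine Finset.sum_congr rfl fun y _ => Finset.sum_congr rfl fun z _ => ?_
    rw [map_mul]; ring
  simp only [h1]
  rw [← Finset.mul_sum, Finset.sum_comm, div_eq_mul_inv, mul_comm (w : ℂ), mul_assoc, Finset.mul_sum _ _ (w : ℂ)]
  congr 1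
  refine Finset.sum_congr rfl fun y _ => ?_
  rw [Finset.sum_comm]
  by_cases hy : (y : G) ∈ U
  · rw [sum_conj_extend P N (hfus y hy) η, map_sum, Finset.mul_sum, Finset.mul_sum]
    refine Finset.sum_congr rfl fun z _ => ?_
    rw [← Finset.mul_sum, sum_princ_inv hM (hpel y) (hpel z)]
    have h2 := congrArg (fun q : ℚ => (q : ℂ)) (hw y hy)
    simp only [finsum_mem_irr] at h2
    push_cast at h2
    split_ifs with h
    · rw [h2, map_mul, Complex.conj_natCast]; ring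
    · simp
  · simp [hθU y hy]

end Cfsg.Agent.S4720
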