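import Cfsg.Statements.S4721
import Cfsg.Agent.Block.AbFrob3

set_option autoImplicit false
open Cfsg

open Cfsg Cfsg.Lib.Char Cfsg.Lib.Block Cfsg.Lib.Block.Princ Cfsg.Lib.Local ComplexConjugate

namespace Cfsg.Agent.S4721

/-- Let p be a prime, M a maximal ideal of the algebraic integers containing p, and G a finite group with a nontrivial abelian Sylow p-subgroup P, N = N_G(P), C = C_G(P), such that N/C is cyclic of order 3, #P > 4, and C_G(y) ∩ N = C for every non-identity y ∈ P. Then the principal p-block is the disjoint union of a set X of exactly 3 characters containing the principal character and a set Y of (#P − 1)/3 characters, with signs a_χ = ±1 (χ ∈ X, a = 1 at the principal character) and δ = ±1 such that every χ ∈ X takes the value a_χ at every element whose p-part is a non-identity element of P, and there is a map ζ from the non-principal linear characters of P onto Y, constant on N-conjugacy classes, with ζ_ψ(z) = δ·Σ ψ'(y)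 over the N-orbit of ψ, for z with p-part y ≠ 1 in P. If moreover G has an involution lying in no proper normal subgroup of G, then exactly two of the three numbers −δ and a_χ (χ ∈ X non-principal) equal −1, and the product of the degrees of the two non-principal members of X and of any member of Y is a perfect square. -/
theorem result {G : Type*} [Group G] [Finite G] (p : ℕ) [Fact p.Prime] (M : Ideal Cfsg.AlgInt) (hM : Cfsg.IsPModular p M) (P : Sylow p G) (hab : IsMulCommutative P) (hP1 : Nat.card P ≠ 1) (hCN : (Subgroup.centralizer ((P : Subgroup G) : Set G)).relIndex (Subgroup.normalizer ((P : Subgroup G) : Set G)) = 3) (hcyc : ∃ g : G, g ∈ Subgroup.normalizer ((P : Subgroup G) : Set G) ∧ Subgroup.centralizer ((P : Subgroup G) : Set G) ⊔ Subgroup.zpowers g = Subgroup.normalizer ((P : Subgroup G) : Set G)) (hm2 : 3 + 1 < Nat.card P) (hfrob : ∀ y : G, y ∈ (P : Subgroup G) → y ≠ 1 → Subgroup.centralizer ({y} : Set G) ⊓ Subgroup.normalizer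 ((P : Subgroup G) : Set G) = Subgroup.centralizer ((P : Subgroup G) : Set G)) : ∃ (X Y : Set (Cfsg.IrrCharacter G)), Cfsg.principalBlock M G = X ∪ Y ∧ Disjoint X Y ∧ Nat.card X = 3 ∧ Nat.card Y = (Nat.card P - 1) / 3 ∧ (∃ χ₁ ∈ X, (χ₁ : G → ℂ) = fun _ => 1) ∧ ∃ (a : Cfsg.IrrCharacter G → ℤ) (δ : ℤ) (ζ : (↥(P : Subgroup G) →* ℂˣ) → Cfsg.IrrCharacter G), (δ = 1 ∨ δ = -1) ∧ (∀ χ ∈ X, (a χ = 1 ∨ a χ = -1) ∧ ∀ z y : G, Cfsg.IsPPart p z y → y ∈ (P : Subgroup G) → y ≠ 1 → (χ : G → ℂ) z = (a χ : ℂ)) ∧ (∀ ψ : ↥(P : Subgroup G) →* ℂˣ, ψ ≠ 1 → ζ ψ ∈ Y) ∧ (∀ η ∈ Y, ∃ ψ : ↥(P : Subgroup G) →* ℂˣ, ψ ≠ 1 ∧ ζ ψ = η) ∧ (∀ ψ ψ' : ↥(P : Subgroup G) →* ℂˣ, ψ ≠ 1 → (∃ n : G, n ∈ Subgroup.normalizer ((P : Subgroup G) : Set G) ∧ ∀ w w' : ↥(P : Subgroup G), (w' : G) = n * w * n⁻¹ → ψ' w' = ψ w) → ζ ψ' = ζ ψ) ∧ (∀ ψ : ↥(P : Subgroup G) →* ℂˣ, ψ ≠ 1 → ∀ (z : G) (y : ↥(P : Subgroup G)), Cfsg.IsPPart p z (y : G) → (y : G) ≠ 1 → (ζ ψ : G → ℂ) z = (δ : ℂ) * ∑ᶠ ψ' ∈ {ψ'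 : ↥(P : Subgroup G) →* ℂˣ | ∃ n : G, n ∈ Subgroup.normalizer ((P : Subgroup G) : Set G) ∧ ∀ w w' : ↥(P : Subgroup G), (w' : G) = n * w * n⁻¹ → ψ' w' = ψ w}, ((ψ' y : ℂˣ) : ℂ)) ∧ ((∃ t : G, orderOf t = 2 ∧ ∀ K : Subgroup G, K.Normal → t ∈ K → K = ⊤) → Nat.card {χ : Cfsg.IrrCharacter G // χ ∈ X ∧ (χ : G → ℂ) ≠ (fun _ => 1) ∧ a χ = -1} + (if δ = 1 then 1 else 0) = 2 ∧ ∀ η ∈ Y, IsSquare (Cfsg.charDegree (η : G → ℂ) * ∏ᶠ χ ∈ {χ : Cfsg.IrrCharacter G | χ ∈ X ∧ (χ : G → ℂ) ≠ fun _ => 1}, Cfsg.charDegree (χ : G → ℂ))) := by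
  classical
  have := Fintype.ofFinite (autE (P : Subgroup G))
  have := Fintype.ofFinite ((P : Subgroup G) →* ℂˣ)
  have hp : p.Prime := Fact.out
  have hf : Frob (P : Subgroup G) := fun y hy hy1 => (hfrob y hy hy1).le
  have hm : Nat.card (autE (P : Subgroup G)) = 3 := (card_autE _).trans hCN
  obtain ⟨δ, a₂, a₃, ζ, χ₂, χ₃, Y, hδ, s₂, s₃, n₂, n₃, h23, hXY, hdisj, hYm, hζ, hsum, hcard, hvX,
    hvY, hrel⟩ := abFrob_three hM P hab hf hm hm2
  have hB : ∀ χ, χ ∈ principalBlock M G ↔ χ ∈ ({triv G, χ₂, χ₃} : Finset _) ∨ χ ∈ Y := fun χ => by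
    rw [← mem_irrFin, hXY, Finset.mem_union]
  have hsec : ∀ χ ∈ principalBlock M G, ∀ z y : G, IsPPart p z y → y ∈ (P : Subgroup G) → y ≠ 1 →
      (χ : G → ℂ) z = (χ : G → ℂ) y := fun χ hχ z y hz hy hy1 =>
    princ_apply_of_isPPart hM (abFrob_index P hab hf hy hy1) hχ hz (IsConj.refl y)
  have hreg : ∀ g : G, ¬ p ∣ orderOf g → ∀ y : (P : Subgroup G), y ≠ 1 →
      ∑ χ ∈ irrFin (principalBlock M G), (χ : G → ℂ) g * (χ : G → ℂ) y = 0 := by
    intro g hg y hy
    rw [← finsum_mem_irr]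
    have := block_orth_inv hM (Princ.isPBlock_principalBlock (G := G)) (isPPart_one_iff.2 hg)
      (isPPart_self (Fact.out : p.Prime) (orderOf_eq_pow_of_mem P.isPGroup' (y⁻¹).2))
      (fun h => hy (inv_eq_one.1 (Subtype.ext (isConj_one_right.1 h))))
    simpa using this
  let a : IrrCharacter G → ℤ := fun χ => if χ = χ₂ then a₂ else if χ = χ₃ then a₃ else 1
  have ha1 : a (triv G) = 1 := by simp [a, n₂.symm, n₃.symm]
  have ha2 : a χ₂ = a₂ := by simp [a]
  have ha3 : a χ₃ = a₃ := by simp [a, h23.symm]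
  refine ⟨({triv G, χ₂, χ₃} : Finset _), Y, ?_, Finset.disjoint_coe.2 hdisj, ?_, ?_,
    ⟨triv G, by simp, rfl⟩, a, δ, ζ, hδ, fun χ hχ => ?_,
    fun ψ hψ => (hYm _).2 ⟨ψ, hψ, rfl⟩, fun η hη => (hYm η).1 hη,
    fun ψ ψ' hψ h => hζ ψ ψ' hψ (lConj_iff.2 h), fun ψ hψ z y hz hy => ?_, ?_⟩
  · ext χ
    rw [hB, Set.mem_union, Finset.mem_coe, Finset.mem_coe]
  · rw [Finset.coe_sort_coe, Nat.card_eq_fintype_card, Fintype.card_coe,
      Finset.card_eq_three.2 ⟨_, _, _, n₂.symm, n₃.symm, h23, rfl⟩]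
  · rw [Finset.coe_sort_coe, Nat.card_eq_fintype_card, Fintype.card_coe]
    omega
  · have hχB := (hB χ).2 (Or.inl hχ)
    simp only [Finset.coe_insert, Finset.coe_singleton, Set.mem_insert_iff,
      Set.mem_singleton_iff] at hχ
    rcases hχ with rfl | rfl | rfl
    · exact ⟨Or.inl ha1, fun z y _ _ _ => by simp [ha1]⟩
    · refine ⟨ha2 ▸ s₂, fun z y hz hy hy1 => ?_⟩
      rw [hsec _ hχB z y hz hy hy1, ha2]
      exact (hvX ⟨y, hy⟩ fun h => hy1 (congrArg Subtype.val h)).1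
    · refine ⟨ha3 ▸ s₃, fun z y hz hy hy1 => ?_⟩
      rw [hsec _ hχB z y hz hy hy1, ha3]
      exact (hvX ⟨y, hy⟩ fun h => hy1 (congrArg Subtype.val h)).2
  · rw [hsec _ ((hB _).2 (Or.inr ((hYm _).2 ⟨ψ, hψ, rfl⟩))) z y hz y.2 hy,
      hvY ψ hψ y fun h => hy (congrArg Subtype.val h)]
    have := finsum_lConj hab hf hψ (fun ψ' => (ψ' y : ℂ))
    simp only [lConj_iff] at this
    rw [this]
    rfl
  · rintro ⟨t, ht, htK⟩
    have hne : ∀ χ : IrrCharacter G, χ ≠ triv G → (χ : G → ℂ) t ≠ charDegree (χ : G → ℂ) := by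
      intro χ hχ h
      rw [irr_charDegree_cast] at h
      exact hχ (eq_triv_iff.2 (eq_one_of_apply_eq χ.2 htK h))
    have hdeg : ∀ η ∈ Y, 1 + a₂ * (charDegree (χ₂ : G → ℂ) : ℤ) + a₃ * charDegree (χ₃ : G → ℂ) +
        (-δ) * charDegree (η : G → ℂ) = 0 := by
      intro η hη
      have := hrel _ (hreg 1 (by simp [hp.ne_one])) η hη
      simp only [← irr_charDegree_cast, triv_apply] at this
      exact_mod_cast this
    have key : ∀ η ∈ Y, kd (a₂ = -1) + kd (a₃ = -1) + kd (-δ = -1) = 2 ∧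
        IsSquare (charDegree (η : G → ℂ) * (charDegree (χ₂ : G → ℂ) * charDegree (χ₃ : G → ℂ))) := by
      intro η hη
      by_cases hp2 : p = 2
      · subst hp2
        obtain ⟨g, hg⟩ := exists_conj_mem_sylow P (z := t) ⟨1, by rw [ht, pow_one]⟩
        have hv := hvX ⟨_, hg⟩ fun h => invol_ne_one ht (by simpa using congrArg Subtype.val h)
        simp only [χ₂.2.isClassFunction.apply_conj, χ₃.2.isClassFunction.apply_conj] at hv
        refine rel_three s₂ s₃ (by omega) (irr_charDegree_pos _) (irr_charDegree_pos _)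
          (irr_charDegree_pos _) (u₂ := a₂) (u₃ := a₃) (u := 3 * δ) (hdeg η hη) ?_
          (abFrob_three_two hM P hab hf hm hm2 hδ s₂ s₃ n₂ n₃ h23 hXY hdisj hsum hvX hvY
            fun ψ hψ => ?_) (fun h => hne _ n₂ ?_) (fun h => hne _ n₃ ?_) (fun h h' => ?_)
        · rcases hδ with rfl | rfl <;> rcases s₂ with rfl | rfl <;> rcases s₃ with rfl | rfl <;>
            norm_num
        · have e1 := hdeg η hη
          have e2 := hdeg _ ((hYm _).2 ⟨ψ, hψ, rfl⟩)
          rw [← irr_charDegree_cast, Nat.cast_inj]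
          rcases hδ with rfl | rfl <;> omega
        · rw [hv.1]; exact_mod_cast h
        · rw [hv.2]; exact_mod_cast h
        · have : 3 * δ = charDegree (η : G → ℂ) := by exact_mod_cast h'
          omega
      · obtain ⟨u₂, hu₂, -⟩ := S0944.result χ₂ t ht
        obtain ⟨u₃, hu₃, -⟩ := S0944.result χ₃ t ht
        obtain ⟨u, hu, -⟩ := S0944.result η t ht
        have hηt : η ≠ triv G := fun h => Finset.disjoint_left.1 hdisj (by simp) (h ▸ hη)
        have e1 := hrel _ (hreg t (by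
          rw [ht]; exact fun h => hp2 ((Nat.prime_dvd_prime_iff_eq hp Nat.prime_two).1 h))) η hη
        have e2 := hrel (fun χ => conj ((χ : G → ℂ) t * (χ : G → ℂ) t / (χ : G → ℂ) 1))
          (fun y hy => sum_block_prod_eq_zero hM Princ.isPBlock_principalBlock
            (isPPart_self hp (orderOf_eq_pow_of_mem P.isPGroup' y.2)) fun s' t' w h1 h2 hw h => by
              rw [eq_one_of_isPPart_mul hp2 P hab hf (by rw [hm]; decide)
                ((orderOf_of_isConj h1).trans ht) ((orderOf_of_isConj h2).trans ht) hw] at h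
              exact hy (Subtype.ext (isConj_one_left.1 h))) η hη
        simp only [← irr_charDegree_cast, triv_apply, hu₂, hu₃, hu, map_div₀, map_mul, map_intCast,
          map_natCast, map_one, ← pow_two, map_pow] at e1 e2
        refine rel_three s₂ s₃ (by omega) (irr_charDegree_pos _) (irr_charDegree_pos _)
          (irr_charDegree_pos _) (u₂ := u₂) (u₃ := u₃) (u := u) (hdeg η hη) (by exact_mod_cast e1)
          ?_ (fun h => hne _ n₂ ?_) (fun h => hne _ n₃ ?_) (fun _ h => hne _ hηt ?_)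
        · rw [one_pow, div_one] at e2
          exact_mod_cast e2
        · rw [hu₂]; exact_mod_cast h
        · rw [hu₃]; exact_mod_cast h
        · rw [hu]; exact_mod_cast h
    obtain ⟨η₀, hη₀⟩ := Finset.card_pos.1 (by omega : 0 < Y.card)
    refine ⟨?_, fun η hη => ?_⟩
    · rw [Nat.subtype_card (({χ₂, χ₃} : Finset (IrrCharacter G)).filter (fun χ => a χ = -1)),
        Finset.card_filter, Finset.sum_pair h23, ha2, ha3]
      · have := (key η₀ hη₀).1
        rw [kd_eq, kd_eq, kd_eq] at this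
        rcases hδ with rfl | rfl <;> rcases s₂ with rfl | rfl <;> rcases s₃ with rfl | rfl <;>
          simp at this ⊢
      · intro χ
        simp only [Finset.mem_filter, Finset.mem_insert, Finset.mem_singleton, Finset.coe_insert,
          Finset.coe_singleton, Set.mem_insert_iff, Set.mem_singleton_iff, Ne, ← eq_triv_iff]
        constructor
        · rintro ⟨rfl | rfl, h⟩
          · exact ⟨Or.inr (Or.inl rfl), n₂, h⟩
          · exact ⟨Or.inr (Or.inr rfl), n₃, h⟩
        · rintro ⟨h1, h2, h3⟩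
          exact ⟨h1.resolve_left h2, h3⟩
    · have : {χ : IrrCharacter G | χ ∈ (({triv G, χ₂, χ₃} : Finset (IrrCharacter G)) :
          Set (IrrCharacter G)) ∧ (χ : G → ℂ) ≠ fun _ => 1} = {χ₂, χ₃} := by
        ext χ
        simp only [Finset.coe_insert, Finset.coe_singleton, Set.mem_insert_iff,
          Set.mem_singleton_iff, Ne, ← eq_triv_iff, Set.mem_ofPred_eq]
        constructor
        · rintro ⟨h1, h2⟩
          exact h1.resolve_left h2
        · rintro (rfl | rfl)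
          · exact ⟨Or.inr (Or.inl rfl), n₂⟩
          · exact ⟨Or.inr (Or.inr rfl), n₃⟩
      rw [this, finprod_mem_pair h23]
      exact (key η hη).2

end Cfsg.Agent.S4721
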