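import Cfsg.Statements.S4722
import Cfsg.Agent.Block.BlockOrth
import Cfsg.Agent.Block.PairCount
import Cfsg.Agent.Block.Ker

set_option autoImplicit false
open Cfsg

namespace Cfsg.Agent.S4722

open Cfsg.Lib.Block ComplexConjugate

theorem variance {ι : Type*} (s : Finset ι) (m x : ι → ℝ) (h0 : ∑ i ∈ s, m i = 0) (h1 : ∑ i ∈ s, m i * x i = 0)
    (h2 : ∑ i ∈ s, m i * x i ^ 2 = 0) {i₁ : ι} (hi₁ : i₁ ∈ s) (hm : m i₁ ≠ 0)
    (hpos : ∀ i ∈ s, ∀ j ∈ s, 0 < m i → 0 < m j → i = j) : ∃ i ∈ s, i ≠ i₁ ∧ x i = x i₁ := by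
  classical
  obtain ⟨x₀, hx₀⟩ : ∃ x₀, ∀ i ∈ s, 0 < m i → x i = x₀ := by
    by_cases h : ∃ i ∈ s, 0 < m i
    · obtain ⟨i, hi, hmi⟩ := h
      exact ⟨x i, fun j hj hmj => by rw [hpos j hj i hi hmj hmi]⟩
    · exact ⟨0, fun j hj hmj => absurd ⟨j, hj, hmj⟩ h⟩
  have h3 : ∑ i ∈ s, m i * (x i - x₀) ^ 2 = 0 := by
    have : ∀ i, m i * (x i - x₀) ^ 2 = m i * x i ^ 2 - 2 * x₀ * (m i * x i) + x₀ ^ 2 * m i := fun i => by ring
    simp only [this, Finset.sum_add_distrib, Finset.sum_sub_distrib, ← Finset.mul_sum, h0, h1, h2]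
    ring
  have h4 : ∀ i ∈ s, m i * (x i - x₀) ^ 2 ≤ 0 := by
    intro i hi
    rcases lt_or_ge 0 (m i) with h | h
    · rw [hx₀ i hi h]; simp
    · exact mul_nonpos_of_nonpos_of_nonneg h (sq_nonneg _)
  have h5 : ∀ i ∈ s, m i ≠ 0 → x i = x₀ := by
    intro i hi hmi
    have := (Finset.sum_eq_zero_iff_of_nonpos h4).1 h3 i hi
    rcases mul_eq_zero.1 this with h | h
    · exact absurd h hmi
    · exact sub_eq_zero.1 (pow_eq_zero_iff two_ne_zero |>.1 h)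
  by_contra hcon
  push Not at hcon
  rw [Finset.sum_eq_single i₁ (fun i hi hne => by
    by_contra hmi
    exact hcon i hi hne ((h5 i hi hmi).trans (h5 i₁ hi₁ hm).symm)) (fun h => absurd hi₁ h)] at h0
  exact hm h0

theorem three_sums {G : Type*} [Group G] [Finite G] {M : Ideal Cfsg.AlgInt} (hM : Cfsg.IsPModular 2 M)
    {B : Set (Cfsg.IrrCharacter G)} (hB : Cfsg.IsPBlock M B) {t y : G} (ht : orderOf t = 2)
    (hy : ∃ k : ℕ, orderOf y = 2 ^ k) (hinv : ∀ g : G, (g * t * g⁻¹) * y * (g * t * g⁻¹)⁻¹ ≠ y⁻¹) :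
    (∑ χ ∈ irrFin B, (χ : G → ℂ) y * ((χ : G → ℂ) t ^ 2 / (χ : G → ℂ) 1) = 0) ∧
    (∑ χ ∈ irrFin B, (χ : G → ℂ) y * (χ : G → ℂ) 1 = 0) ∧
    (∑ χ ∈ irrFin B, (χ : G → ℂ) y * (χ : G → ℂ) t = 0) := by
  classical
  have := Fintype.ofFinite G
  have hp := Nat.prime_two
  have htt : t * t = 1 := by rw [← pow_two, ← ht, pow_orderOf_eq_one]
  have ht' : t⁻¹ = t := inv_eq_of_mul_eq_one_right htt
  refine ⟨?_, ?_, ?_⟩
  · have h := block_blockPart_eq_zero_of_section hM hB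
      (θ := ∑ χ : Cfsg.IrrCharacter G, ((χ : G → ℂ) t ^ 2 / (χ : G → ℂ) 1) • (χ : G → ℂ))
      (isPPart_self hp hy) (fun g w hw hyw => ?_)
    · rw [blockPart_apply] at h
      rw [← h]
      refine Finset.sum_congr rfl fun χ _ => ?_
      rw [Cfsg.Lib.Char.classInner_sum_smul_irr, mul_comm]
    · have h1 := sum_irr_mul_mul_conj_div_eq_zero (a := t) (b := t) (u := g⁻¹) (fun a b ha hb hab => ?_)
      · rw [Finset.sum_apply, ← h1]
        refine Finset.sum_congr rfl fun χ _ => ?_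
        rw [χ.2.isCharacter.apply_inv, Complex.conj_conj, Pi.smul_apply, smul_eq_mul]
        ring
      · obtain ⟨c, rfl⟩ := isConj_iff.1 ha
        obtain ⟨d, rfl⟩ := isConj_iff.1 hb
        obtain ⟨e, rfl⟩ := isConj_iff.1 hyw
        obtain ⟨n, hn⟩ := IsPPart_exists_pow hp hw
        have hg : g = (d * t * d⁻¹) * (c * t * c⁻¹) := by
          rw [← inv_inv g, ← hab]
          simp only [mul_inv_rev, inv_inv, ht', mul_assoc]
        have h2 : (c * t * c⁻¹) * g * (c * t * c⁻¹)⁻¹ = g⁻¹ := by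
          rw [← hab]
          conv_lhs => rw [hg]
          group
        have h3 : (c * t * c⁻¹) * (e * y * e⁻¹) * (c * t * c⁻¹)⁻¹ = (e * y * e⁻¹)⁻¹ := by
          rw [← hn, ← conj_pow, h2, inv_pow]
        refine hinv (e⁻¹ * c) ?_
        calc _ = e⁻¹ * ((c * t * c⁻¹) * (e * y * e⁻¹) * (c * t * c⁻¹)⁻¹) * e := by group
          _ = _ := by rw [h3]; group
  · have h := block_orth_inv hM hB (isPPart_self hp hy) (h := 1) (isPPart_self hp ⟨0, by simp⟩) (fun hc => ?_)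
    · rwa [finsum_mem_irr, inv_one] at h
    · rw [isConj_one_left.1 hc] at hinv
      exact hinv 1 (by group)
  · have h := block_orth_inv hM hB (isPPart_self hp hy) (h := t) (isPPart_self hp ⟨1, by simp [ht]⟩) (fun hc => ?_)
    · rwa [finsum_mem_irr, ht'] at h
    · obtain ⟨c, hc⟩ := isConj_iff.1 hc.symm
      refine hinv c ?_
      rw [hc, mul_inv_cancel_right, ← hc]
      simp only [mul_inv_rev, inv_inv, ht', mul_assoc]


/-- Let M be a maximal ideal of the algebraic integers containing 2, P a 2-subgroup of the finite group G, U a subset of P, and t an involution of G such that no element of U is inverted by any conjugate of t. Let θ be a generalized character of P vanishing outside U, and for χ in the principal 2-block B₀ put a_χ = #P⁻¹ Σ_{y ∈ P} χ(y) θ(y⁻¹). Then Σ_{χ ∈ B₀} a_χ χ(t)^2/χ(1) = 0, Σ_{χ ∈ B₀} a_χ χ(1) = 0 and Σ_{χ ∈ B₀} a_χ χ(t) = 0. If moreover #P⁻¹ Σ_{y ∈ P} θ(y)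 ≠ 0, then either at least two of the a_χ have positive real part and at least two have negative real part, or G has a proper normal subgroup containing O_2'(G) and t. -/
theorem result {G : Type*} [Group G] [Finite G] (M : Ideal Cfsg.AlgInt) (hM : Cfsg.IsPModular 2 M) (P : Subgroup G) (hP : IsPGroup 2 P) (U : Set G) (hUP : U ⊆ (P : Set G)) (t : G) (ht : orderOf t = 2) (hinv : ∀ u ∈ U, ∀ g : G, (g * t * g⁻¹) * u * (g * t * g⁻¹)⁻¹ ≠ u⁻¹) (θ : ↥P → ℂ) (hθ : Cfsg.IsGeneralizedCharacter ↥P θ) (hθU : ∀ y : ↥P, (y : G) ∉ U → θ y = 0) : (∑ᶠ χ ∈ Cfsg.principalBlock M G, ((Nat.card ↥P : ℂ)⁻¹ * ∑ᶠ y : ↥P, (χ : G → ℂ) (y : G) * θ y⁻¹) * (χ : G → ℂ) t ^ 2 / (χ : G → ℂ) 1 = 0) ∧ (∑ᶠ χ ∈ Cfsg.principalBlock M G, ((Nat.card ↥P : ℂ)⁻¹ * ∑ᶠ y : ↥P, (χ : G → ℂ) (y : G) * θ y⁻¹) * (χ : G → ℂ) 1 = 0) ∧ (∑ᶠ χ ∈ Cfsg.principalBlock M G, ((Nat.card ↥P : ℂ)⁻¹ * ∑ᶠ y : ↥P, (χ : G → ℂ) (y : G) * θ y⁻¹) * (χ : G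 → ℂ) t = 0) ∧ ((Nat.card ↥P : ℂ)⁻¹ * ∑ᶠ y : ↥P, θ y ≠ 0 → (2 ≤ Nat.card {χ : Cfsg.IrrCharacter G // χ ∈ Cfsg.principalBlock M G ∧ 0 < (((Nat.card ↥P : ℂ)⁻¹ * ∑ᶠ y : ↥P, (χ : G → ℂ) (y : G) * θ y⁻¹)).re} ∧ 2 ≤ Nat.card {χ : Cfsg.IrrCharacter G // χ ∈ Cfsg.principalBlock M G ∧ (((Nat.card ↥P : ℂ)⁻¹ * ∑ᶠ y : ↥P, (χ : G → ℂ) (y : G) * θ y⁻¹)).re < 0}) ∨ ∃ K : Subgroup G, K.Normal ∧ K ≠ ⊤ ∧ Cfsg.pPrimeCore 2 G ≤ K ∧ t ∈ K) := by
  classical
  have := Fintype.ofFinite P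
  have hB := isPBlock_principalBlock' (M := M) (G := G)
  have hpel : ∀ y : P, ∃ k : ℕ, orderOf (y : G) = 2 ^ k := fun y => by
    obtain ⟨k, hk⟩ := IsPGroup.iff_orderOf.1 hP y
    exact ⟨k, by rw [Subgroup.orderOf_coe, hk]⟩
  have key : ∀ F : Cfsg.IrrCharacter G → ℂ,
      (∀ y : G, (∃ k : ℕ, orderOf y = 2 ^ k) → (∀ g : G, (g * t * g⁻¹) * y * (g * t * g⁻¹)⁻¹ ≠ y⁻¹) →
        ∑ χ ∈ irrFin (Cfsg.principalBlock M G), (χ : G → ℂ) y * F χ = 0) →
      ∑ χ ∈ irrFin (Cfsg.principalBlock M G),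
        ((Nat.card P : ℂ)⁻¹ * ∑ y : P, (χ : G → ℂ) (y : G) * θ y⁻¹) * F χ = 0 := by
    intro F hF
    simp only [mul_assoc, ← Finset.mul_sum, Finset.sum_mul]
    rw [Finset.sum_comm, Finset.sum_eq_zero, mul_zero]
    intro y _
    by_cases hy : ((y⁻¹ : P) : G) ∈ U
    · have := hF y (hpel y) (fun g hg => hinv _ hy g (by
        rw [Subgroup.coe_inv, inv_inv]
        calc _ = (g * t * g⁻¹ * ↑y * (g * t * g⁻¹)⁻¹)⁻¹ := by group
          _ = _ := by rw [hg, inv_inv]))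
      rw [← mul_zero (θ y⁻¹), ← this, Finset.mul_sum]
      exact Finset.sum_congr rfl fun χ _ => by ring
    · simp [hθU _ hy]
  have e1 := key _ fun y hy hinv => (three_sums hM hB ht hy hinv).1
  have e2 := key _ fun y hy hinv => (three_sums hM hB ht hy hinv).2.1
  have e3 := key _ fun y hy hinv => (three_sums hM hB ht hy hinv).2.2
  simp only [finsum_mem_irr]
  simp only [finsum_eq_sum_of_fintype]
  refine ⟨by simpa only [mul_div_assoc] using e1, e2, e3, fun hne => ?_⟩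
  set a : Cfsg.IrrCharacter G → ℂ := fun χ => (Nat.card P : ℂ)⁻¹ * ∑ y : P, (χ : G → ℂ) (y : G) * θ y⁻¹ with ha
  have hA : ∀ χ, ∃ n : ℤ, a χ = n := by
    intro χ
    obtain ⟨n, hn⟩ := (χ.2.isCharacter.res P).isGeneralizedCharacter.exists_int_classInner hθ
    refine ⟨n, ?_⟩
    rw [← hn, ha, Cfsg.classInner]
    simp only [hθ.apply_inv]
  choose A hA using hA
  have htt : t * t = 1 := by rw [← pow_two, ← ht, pow_orderOf_eq_one]
  have ht' : t⁻¹ = t := inv_eq_of_mul_eq_one_right htt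
  have hr : ∀ χ : Cfsg.IrrCharacter G, (χ : G → ℂ) t = (((χ : G → ℂ) t).re : ℂ) := fun χ =>
    (Complex.conj_eq_iff_re.1 (by rw [← χ.2.isCharacter.apply_inv, ht'])).symm
  set d : Cfsg.IrrCharacter G → ℝ := fun χ => Cfsg.charDegree (χ : G → ℂ) with hd
  set r : Cfsg.IrrCharacter G → ℝ := fun χ => ((χ : G → ℂ) t).re with hrdef
  have hd0 : ∀ χ, 0 < d χ := fun χ => by
    simp only [hd]; exact_mod_cast irr_charDegree_pos χ
  have hd1 : ∀ χ : Cfsg.IrrCharacter G, (χ : G → ℂ) 1 = (d χ : ℂ) := fun χ => by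
    rw [← irr_charDegree_cast]; simp [hd]
  have hr1 : ∀ χ : Cfsg.IrrCharacter G, (χ : G → ℂ) t = (r χ : ℂ) := hr
  change ∑ χ ∈ _, a χ * _ = 0 at e1 e2 e3
  have f0 : ∑ χ ∈ irrFin (Cfsg.principalBlock M G), (A χ : ℝ) * d χ = 0 := by
    simp only [hA, hd1] at e2
    exact_mod_cast e2
  have f1 : ∑ χ ∈ irrFin (Cfsg.principalBlock M G), (A χ : ℝ) * d χ * (r χ / d χ) = 0 := by
    simp only [hA, hr1] at e3
    have : ∑ χ ∈ irrFin (Cfsg.principalBlock M G), (A χ : ℝ) * r χ = 0 := by exact_mod_cast e3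
    rw [← this]
    refine Finset.sum_congr rfl fun χ _ => ?_
    have := (hd0 χ).ne'
    field_simp
  have f2 : ∑ χ ∈ irrFin (Cfsg.principalBlock M G), (A χ : ℝ) * d χ * (r χ / d χ) ^ 2 = 0 := by
    simp only [hA, hr1, hd1] at e1
    have : ∑ χ ∈ irrFin (Cfsg.principalBlock M G), (A χ : ℝ) * (r χ ^ 2 / d χ) = 0 := by exact_mod_cast e1
    rw [← this]
    refine Finset.sum_congr rfl fun χ _ => ?_
    have := (hd0 χ).ne'
    field_simp
  let one : Cfsg.IrrCharacter G := ⟨fun _ => 1, Cfsg.Lib.Char.isIrrCharacter_one⟩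
  have hone : one ∈ irrFin (Cfsg.principalBlock M G) := mem_irrFin.2 (one_mem_principalBlock hM)
  have hA1 : (A one : ℝ) * d one ≠ 0 := by
    refine mul_ne_zero ?_ (hd0 _).ne'
    intro h
    apply hne
    have h1 : a one = 0 := by rw [hA]; exact_mod_cast h
    rw [← h1, ha, ← Equiv.sum_comp (Equiv.inv P)]
    simp [one]
  have fin : (∃ χ ∈ irrFin (Cfsg.principalBlock M G), χ ≠ one ∧ r χ / d χ = r one / d one) →
      ∃ K : Subgroup G, K.Normal ∧ K ≠ ⊤ ∧ Cfsg.pPrimeCore 2 G ≤ K ∧ t ∈ K := by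
    rintro ⟨χ, hχ, hne1, hx⟩
    refine ⟨Cfsg.Lib.Char.charKer (χ : G → ℂ), χ.2.charKer_normal,
      fun h => hne1 (Subtype.ext (χ.2.charKer_eq_top_iff.1 h)), pPrimeCore_le_charKer hM (mem_irrFin.1 hχ), ?_⟩
    rw [χ.2.mem_charKer_iff, hr1, hd1]
    have h1 : r one = d one := by
      have := (hr1 one).symm.trans (hd1 one)
      exact_mod_cast this
    rw [h1, div_self (hd0 _).ne', div_eq_one_iff_eq (hd0 _).ne'] at hx
    rw [hx]
  have two : ∀ Q : Cfsg.IrrCharacter G → Prop,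
      ¬ 2 ≤ Nat.card {χ : Cfsg.IrrCharacter G // χ ∈ Cfsg.principalBlock M G ∧ Q χ} →
      ∀ i ∈ irrFin (Cfsg.principalBlock M G), ∀ j ∈ irrFin (Cfsg.principalBlock M G), Q i → Q j → i = j := by
    intro Q hQ i hi j hj qi qj
    have : Subsingleton {χ : Cfsg.IrrCharacter G // χ ∈ Cfsg.principalBlock M G ∧ Q χ} :=
      Finite.card_le_one_iff_subsingleton.1 (by omega)
    exact congrArg Subtype.val (Subsingleton.elim
      (⟨i, mem_irrFin.1 hi, qi⟩ : {χ : Cfsg.IrrCharacter G // χ ∈ Cfsg.principalBlock M G ∧ Q χ})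
      ⟨j, mem_irrFin.1 hj, qj⟩)
  by_contra hcon
  rw [not_or, not_and_or] at hcon
  refine hcon.2 (fin ?_)
  have hre : ∀ χ, (a χ).re = A χ := fun χ => by rw [hA, Complex.intCast_re]
  rcases hcon.1 with h | h
  · refine variance _ (fun χ => (A χ : ℝ) * d χ) (fun χ => r χ / d χ) f0 f1 f2 hone hA1 fun i hi j hj qi qj => ?_
    refine two (fun χ => 0 < (a χ).re) h i hi j hj ?_ ?_
    · rw [hre]; exact (mul_pos_iff_of_pos_right (hd0 i)).1 qi
    · rw [hre]; exact (mul_pos_iff_of_pos_right (hd0 j)).1 qj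
  · refine variance _ (fun χ => -((A χ : ℝ) * d χ)) (fun χ => r χ / d χ) (by rw [Finset.sum_neg_distrib, f0, neg_zero])
      (by simp only [neg_mul]; rw [Finset.sum_neg_distrib, f1, neg_zero])
      (by simp only [neg_mul]; rw [Finset.sum_neg_distrib, f2, neg_zero]) hone (neg_ne_zero.2 hA1)
      fun i hi j hj qi qj => ?_
    refine two (fun χ => (a χ).re < 0) h i hi j hj ?_ ?_
    · rw [hre]; have := hd0 i; nlinarith
    · rw [hre]; have := hd0 j; nlinarith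

end Cfsg.Agent.S4722
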