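import Cfsg.Statements.S4724
import Cfsg.Agent.Block.UniqDeg
import Cfsg.Agent.Perm.Neumann4
import Cfsg.Agent.S0806

set_option autoImplicit false
open Cfsg

namespace Cfsg.Agent.S4724

/-- Let G be a transitive permutation group of prime degree p having exactly one irreducible character of degree p. Let P be a Sylow p-subgroup and suppose N_G(P) = P·E for a subgroup E with P ∩ E = 1, such that the normalizer of E has order 2·#E and E meets each of its conjugates by elements outside its normalizer trivially. Then p is 5, 7 or 11 and G is isomorphic to PSL(2, p). -/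
theorem result {α : Type*} [Fintype α] [DecidableEq α] {p : ℕ} [Fact p.Prime] (hα : Fintype.card α = p) (G : Subgroup (Equiv.Perm α)) [MulAction.IsPretransitive G α] (huniq : ∃! χ : Cfsg.IrrCharacter G, Cfsg.charDegree (χ : G → ℂ) = p) (P : Sylow p G) (E : Subgroup G) (hPE : (P : Subgroup G) ⊔ E = Subgroup.normalizer ((P : Subgroup G) : Set G)) (hPE' : (P : Subgroup G) ⊓ E = ⊥) (hNE : Nat.card (Subgroup.normalizer (E : Set G)) = 2 * Nat.card E) (hTI : ∀ g : G, g ∉ Subgroup.normalizer (E : Set G) → E ⊓ E.map (MulAut.conj g).toMonoidHom = ⊥) : (p = 5 ∨ p = 7 ∨ p = 11) ∧ ∃ (F : Type) (_ : Field F) (_ : Fintype F), Fintype.card F = p ∧ Nonempty (G ≃* Matrix.ProjectiveSpecialLinearGroup (Fin 2) F) := by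
  have hp : p.Prime := Fact.out
  have hΩ : Nat.card α = p := by rw [Nat.card_eq_fintype_card, hα]
  obtain ⟨χ, hχ, hχ'⟩ := huniq
  have h : Cfsg.Lib.Block.UD.Hyp P E χ := by
    obtain ⟨c, e, hc, -, he⟩ := Cfsg.Lib.Perm.exists_coord_sylow hα G P
    refine ⟨Cfsg.Lib.Perm.card_sylow_prime_degree hα G P, ?_, hPE, hPE', hNE, hTI, hχ, hχ',
      fun K _ hK => Cfsg.Lib.Perm.dvd_card_of_normal_prime_degree hα G K hK⟩
    rw [hc, Cfsg.Lib.Perm.centralizer_zpowers_coord he]
  obtain ⟨a⟩ : Nonempty α := Fintype.card_pos_iff.1 (hα ▸ hp.pos)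
  have hH : (MulAction.stabilizer G a).index = p := by
    rw [MulAction.index_stabilizer_of_transitive, hΩ]
  have hp2 : p ≠ 2 := by
    rintro rfl
    have h1 := Subgroup.card_le_card_group G
    have h2 := h.sq_le
    rw [Nat.card_perm, hΩ] at h1
    exact absurd (h2.trans h1) (by decide)
  obtain ⟨h3, ⟨e⟩⟩ := h.main (fun h1 => Cfsg.Lib.Perm.Neumann.card_normalizer_ne hp2 hΩ inferInstance P
    (fun g => Abelianization.commutator_subset_ker (Equiv.Perm.sign.comp G.subtype)
      (h.perfect.ge (Subgroup.mem_top g))) (by rw [h.card_norm, h1])) _ hH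
  refine ⟨?_, ZMod p, inferInstance, inferInstance, ZMod.card p, ⟨e⟩⟩
  by_contra h4
  have h5 := (Cfsg.Agent.S0806.result (ZMod.card p) (by
    have : p ≠ 9 := by rintro rfl; exact absurd hp (by decide)
    simp only [Finset.mem_insert, Finset.mem_singleton]
    omega)).1 ((MulAction.stabilizer G a).map (e : G →* _))
  rw [Subgroup.index_map_equiv, hH] at h5
  have := h5 fun h6 => hp.ne_one (by
    rw [← hH, ← Subgroup.index_map_equiv _ e]
    exact Subgroup.index_eq_one.2 h6)
  omega

end Cfsg.Agent.S4724
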