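import Cfsg.Statements.S4726
import Cfsg.Agent.Block.DefectCount

set_option autoImplicit false
open Cfsg Cfsg.Lib.Block Cfsg.Lib.Char

namespace Cfsg.Agent.S4726

/-- Let p be a prime, M a maximal ideal of the algebraic integers containing p, H a subgroup of the finite group G and b a p-block of H with defect group D₀ such that C_G(D₀) ≤ H. Then b induces a block of G, and for every block B of G induced by b there is a defect group D of B with Z(D) ≤ Z(D₀) ≤ D₀ ≤ D (as subgroups of G). In particular, if the defect groups of B are abelian then D₀ is a defect group of B. -/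
theorem result {G : Type*} [Group G] [Finite G] (p : ℕ) [Fact p.Prime] (M : Ideal Cfsg.AlgInt) (hM : Cfsg.IsPModular p M) (H : Subgroup G) (b : Set (Cfsg.IrrCharacter ↥H)) (hb : Cfsg.IsPBlock M b) (D₀ : Subgroup ↥H) (hD₀ : Cfsg.IsDefectGroup p M b D₀) (hC : Subgroup.centralizer ((D₀.map H.subtype : Subgroup G) : Set G) ≤ H) : Cfsg.InducedBlockDefined M H b ∧ ∀ B : Set (Cfsg.IrrCharacter G), Cfsg.IsInducedBlock M H b B → (∃ D : Subgroup G, Cfsg.IsDefectGroup p M B D ∧ (Subgroup.center ↥D).map D.subtype ≤ ((Subgroup.center ↥D₀).map D₀.subtype).map H.subtype ∧ ((Subgroup.center ↥D₀).map D₀.subtype).map H.subtype ≤ D₀.map H.subtype ∧ D₀.map H.subtype ≤ D) ∧ (∀ D : Subgroup G, Cfsg.IsDefectGroup p M B D → IsMulCommutative ↥D → Cfsg.IsDefectGroup p M B (D₀.map H.subtype)) := by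
  refine ⟨inducedBlockDefined_of_centralizer_defect_le hM hb hD₀ hC, fun B h => ?_⟩
  obtain ⟨D, hD, h1, h2⟩ := exists_defect_inf_centralizer_le hM h hD₀ hC
  refine ⟨⟨D, hD, ?_, Subgroup.map_mono (Subgroup.map_subtype_le _), h1⟩, fun E hE hEc => ?_⟩
  · rintro _ ⟨z, hz, rfl⟩
    have hzc : (z : G) ∈ Subgroup.centralizer ((D₀.map H.subtype : Subgroup G) : Set G) :=
      fun y hy => congrArg Subtype.val (Subgroup.mem_center_iff.mp hz ⟨y, h1 hy⟩)
    obtain ⟨w, hw, hwz⟩ := h2 ⟨z.2, hzc⟩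
    refine ⟨w, ⟨⟨w, hw⟩, Subgroup.mem_center_iff.mpr fun y => Subtype.ext (Subtype.ext ?_), rfl⟩, hwz⟩
    have := hzc (y : H) ⟨y, y.2, rfl⟩
    rw [← hwz] at this
    exact this
  · obtain ⟨x, hx⟩ := defect_exists_conj hM h.2.1 hD hE
    have h3 : D ≤ Subgroup.centralizer ((D₀.map H.subtype : Subgroup G) : Set G) := by
      intro a ha y hy
      have hy' := h1 hy
      rw [← hx] at ha hy'
      obtain ⟨a, ha, rfl⟩ := ha
      obtain ⟨y, hy', rfl⟩ := hy'
      rw [← map_mul, ← map_mul]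
      exact congrArg _ (congrArg Subtype.val (hEc.is_comm.comm ⟨y, hy'⟩ ⟨a, ha⟩))
    have h4 : D = D₀.map H.subtype := le_antisymm ((le_inf le_rfl h3).trans h2) h1
    rwa [← h4]

end Cfsg.Agent.S4726
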