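import Cfsg.Statements.S4727
import Cfsg.Agent.Block.KerIdem
import Cfsg.Agent.Block.BlockOrth

set_option autoImplicit false
open Cfsg

namespace Cfsg.Agent.S4727

open MonoidAlgebra Subgroup Cfsg.Lib.Char Cfsg.Lib.Block Cfsg.Lib.Block.Pair Cfsg.Lib.Solv Cfsg.Lib.Block.Ht

/-- Let p be a prime, π a set of primes containing p, M a maximal ideal of the algebraic integers containing p, and B a p-block of the finite group G with defect group D; let B₁ be the block of N_G(D) with defect group D that induces B (the Brauer correspondent of B). Suppose every element of O_π'(N_G(D)), the largest normal subgroup of N_G(D) whose order has no prime divisor in π, lies in the kernel of every member of B₁. If y is a p-element whose centralizer C has a normal Hall π'-subgroup (every element of C whose order has no prime divisor in π lies in O_π'(C)), then χ(y x) = χ(y) for every χ ∈ B and every x ∈ C whose order has no prime divisor in π. -/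
theorem result {G : Type*} [Group G] [Finite G] (p : ℕ) [Fact p.Prime] (M : Ideal Cfsg.AlgInt) (hM : Cfsg.IsPModular p M) (π : Set ℕ) (hpπ : p ∈ π) (B : Set (Cfsg.IrrCharacter G)) (hB : Cfsg.IsPBlock M B) (D : Subgroup G) (hBD : Cfsg.IsDefectGroup p M B D) (B₁ : Set (Cfsg.IrrCharacter ↥(Subgroup.normalizer (D : Set G)))) (hB₁ : Cfsg.IsInducedBlock M (Subgroup.normalizer (D : Set G)) B₁ B) (hB₁D : Cfsg.IsDefectGroup p M B₁ (D.subgroupOf (Subgroup.normalizer (D : Set G)))) (hker : ∀ n : ↥(Subgroup.normalizer (D : Set G)), n ∈ Cfsg.piCore {q | q ∉ π} ↥(Subgroup.normalizer (D : Set G)) → n ∈ Cfsg.blockKer B₁) (y : G) (hy : ∃ k : ℕ, orderOf y = p ^ k) (hC : ∀ x : ↥(Subgroup.centralizer ({y} : Set G)), (∀ q : ℕ, q.Prime → q ∣ orderOf x → q ∉ π) → x ∈ Cfsg.piCore {q | q ∉ π} ↥(Subgroup.centralizer ({y} : Set G))) : ∀ χ ∈ B, ∀ x : G, x ∈ Subgroup.centralizer ({y} : Set G) → (∀ q : ℕ, q.Prime → q ∣ orderOf x → q ∉ π) → (χ : G → ℂ) (y * x) = (χ : G → ℂ) y := by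
  haveI := charP_kM hM
  have hp : p ∉ {q | q ∉ π} := fun h => h hpπ
  intro χ hχ x hx hxπ
  set C := centralizer ({y} : Set G) with hCdef
  have hQ : IsPGroup p (zpowers y) := by
    obtain ⟨k, hk⟩ := hy
    exact IsPGroup.of_card (by rw [Nat.card_zpowers, hk])
  have hCQ : centralizer (zpowers y : Set G) = C := by
    rw [hCdef, zpowers_eq_closure, centralizer_closure]
  have h1 : zpowers y ≤ C := by
    rw [zpowers_le, hCdef, mem_centralizer_singleton_iff]
  have h3 : C ≤ normalizer (zpowers y : Set G) := hCQ ▸ centralizer_le_normalizer _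
  have hcl : IsClassFunction C (fun c : C => (χ : G → ℂ) (y * (c : G))) :=
    isClassFunction_mul_left χ.2.isClassFunction le_rfl
  have hsum := sum_blockPart hM hcl
  have hx1 : (⟨x, hx⟩ : C) ∈ piCore {q | q ∉ π} C := hC _ (by rw [← orderOf_coe]; exact hxπ)
  have key : ∀ b ∈ blockFin M C, blockPart b (fun c : C => (χ : G → ℂ) (y * (c : G))) ⟨x, hx⟩ =
      blockPart b (fun c : C => (χ : G → ℂ) (y * (c : G))) 1 := by
    intro b hb
    have hb' : IsPBlock M b := mem_blockFin.1 hb
    by_cases hind : IsInducedBlock M C b B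
    · have hf : IsBlk ⊤ (zpowers y) (hat M C b) := by
        rw [isBlk_top_iff, hCQ]; exact isPrim_hat hM hb'
      have h4 := kills_of_brauerCorr hM hp hB₁ hB₁D hker hQ hf
        ((isInducedBlock_iff_br_mul_eq hM hQ h1 hCQ.le h3 hb' hB).1 hind)
      rw [kills_iff, hCQ] at h4
      have hσ := isPiNum_card_piCore {q | q ∉ π} C
      have h5 := ker_of_lInv_hat hM hb' (fun hd => hp (hσ p Fact.out hd)) h4 _ hx1
      have := blockPart_mul_of_mem_blockKerSub (fun c : C => (χ : G → ℂ) (y * (c : G)))
        (mem_blockKerSub_iff.2 h5) 1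
      rwa [mul_one] at this
    · obtain ⟨B', hB'⟩ := inducedBlockDefined_of_local hM hQ h1 hCQ.le h3 hb'
      have hχ' : χ ∉ B' := fun h =>
        hind (isPBlock_eq_of_mem hM ((isInducedBlock_iff hM).1 hB').2.1 hB h hχ ▸ hB')
      rw [blockPart_centralizer_eq_zero_of_not_mem hM hy hB' hχ' ⟨x, hx⟩,
        blockPart_centralizer_eq_zero_of_not_mem hM hy hB' hχ' 1]
      · rw [orderOf_one, Nat.dvd_one]; exact hM.1.ne_one
      · rw [← orderOf_coe]; exact fun h => hxπ p hM.1 h hpπ
  have e1 := congrFun hsum ⟨x, hx⟩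
  have e2 := congrFun hsum 1
  simp only [Finset.sum_apply] at e1 e2
  rw [Finset.sum_congr rfl key, e2] at e1
  simpa using e1.symm

end Cfsg.Agent.S4727
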