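import Cfsg.Statements.S4728
import Cfsg.Agent.Block.KerIdem

set_option autoImplicit false
open Cfsg

namespace Cfsg.Agent.S4728

open MonoidAlgebra Subgroup Cfsg.Lib.Char Cfsg.Lib.Block Cfsg.Lib.Block.Pair Cfsg.Lib.Solv Cfsg.Lib.Block.Ht

/-- Let p be a prime, π a set of primes containing p, M a maximal ideal of the algebraic integers containing p, B a p-block of the finite group G with defect group D, and B₁ the block of N_G(D) with defect group D inducing B. Let D₀ be a p-subgroup, H₀ = D₀·C_G(D₀), and b a block of H₀ inducing B. Write O_π'(X) for the largest normal subgroup of X whose order has no prime divisor in π. Suppose that O_π'(C_G(D₀)) is a normal Hall π'-subgroup of C_G(D₀) (it contains every element of C_G(D₀) whose order has no prime divisor in π) and that every element of it lies in the kernel of every member of b. Then every element of O_π'(N_G(D)) lies in the kernel of every member of B₁. -/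
theorem result {G : Type*} [Group G] [Finite G] (p : ℕ) [Fact p.Prime] (M : Ideal Cfsg.AlgInt) (hM : Cfsg.IsPModular p M) (π : Set ℕ) (hpπ : p ∈ π) (B : Set (Cfsg.IrrCharacter G)) (hB : Cfsg.IsPBlock M B) (D : Subgroup G) (hBD : Cfsg.IsDefectGroup p M B D) (B₁ : Set (Cfsg.IrrCharacter ↥(Subgroup.normalizer (D : Set G)))) (hB₁ : Cfsg.IsInducedBlock M (Subgroup.normalizer (D : Set G)) B₁ B) (hB₁D : Cfsg.IsDefectGroup p M B₁ (D.subgroupOf (Subgroup.normalizer (D : Set G)))) (D₀ : Subgroup G) (hD₀ : IsPGroup p D₀) (H₀ : Subgroup G) (hH₀ : H₀ = D₀ ⊔ Subgroup.centralizer (D₀ : Set G)) (b : Set (Cfsg.IrrCharacter ↥H₀)) (hb : Cfsg.IsInducedBlock M H₀ b B) (hcompl : ∀ x : ↥(Subgroup.centralizer (D₀ : Set G)), (∀ q : ℕ, q.Prime → q ∣ orderOf x → q ∉ π) → x ∈ Cfsg.piCore {q | q ∉ π} ↥(Subgroup.centralizer (D₀ : Set G))) (hkerb : ∀ x : ↥(Subgroup.centralizer (D₀ : Set G)), x ∈ Cfsg.piCore {q | q ∉ π} ↥(Subgroup.centralizer (D₀ : Set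 G)) → ∀ θ ∈ b, ∀ h : ↥H₀, (h : G) = (x : G) → (θ : ↥H₀ → ℂ) h = (θ : ↥H₀ → ℂ) 1) : ∀ n : ↥(Subgroup.normalizer (D : Set G)), n ∈ Cfsg.piCore {q | q ∉ π} ↥(Subgroup.normalizer (D : Set G)) → n ∈ Cfsg.blockKer B₁ := by
  haveI := charP_kM hM
  have hp : p ∉ {q | q ∉ π} := fun h => h hpπ
  have hb' := ((isInducedBlock_iff hM).1 hb).1
  have hB₁' := ((isInducedBlock_iff hM).1 hB₁).1
  have hσ := isPiNum_card_piCore {q | q ∉ π} (normalizer (D : Set G))
  refine ker_of_lInv_hat hM hB₁' (fun hd => hp (hσ p Fact.out hd)) ?_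
  obtain ⟨hD, hbr⟩ := defect_of_isInducedBlock_normalizer hM hB₁D hB₁
  rw [← hbr]
  have h1 : D₀ ≤ H₀ := hH₀ ▸ le_sup_left
  have h2 : centralizer (D₀ : Set G) ≤ H₀ := hH₀ ▸ le_sup_right
  have h3 : H₀ ≤ normalizer (D₀ : Set G) :=
    hH₀ ▸ sup_le le_normalizer (centralizer_le_normalizer _)
  have hf0 := (isPrim_iff_isPrim_centralizer hD₀ h1 h2 h3).1 (isPrim_hat hM hb')
  have hf : IsBlk ⊤ D₀ (hat M H₀ b) := by
    rw [isBlk_top_iff]
    refine ⟨fix_mono le_rfl h2 hf0.mem, hf0.idem, hf0.ne_zero, fun c hc hi => hf0.prim c ?_ hi⟩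
    refine mem_fix.2 ⟨(mem_fix.1 hc).1, ?_⟩
    rw [hH₀]
    exact sup_le (le_stab_of_suppOn_centralizer (mem_fix.1 hc).1) (mem_fix.1 hc).2
  refine lInv_br_defect_of_hallKills hp (isPrim_eB hM hB) ((isDefectGroup_iff_isDefect hM hB).1 hD)
    hD₀ hf ((isInducedBlock_iff_br_mul_eq hM hD₀ h1 h2 h3 hb' hB).1 hb) ?_
  set L := (piCore {q | q ∉ π} (centralizer (D₀ : Set G))).map (centralizer (D₀ : Set G)).subtype
  have hLC : L ≤ centralizer (D₀ : Set G) := map_subtype_le _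
  refine ⟨L, fun x => ⟨fun hx => ⟨hLC hx, (isPiNum_card_map_piCore _ _).orderOf_of_mem hx⟩, ?_⟩, ?_⟩
  · rintro ⟨hx, hx'⟩
    refine ⟨⟨x, hx⟩, hcompl _ ?_, rfl⟩
    rw [← orderOf_coe]
    exact hx'
  · have : L = (L.subgroupOf H₀).map H₀.subtype := by
      rw [subgroupOf_map_subtype, inf_eq_left.2 (hLC.trans h2)]
    rw [this]
    refine lInv_hat_of_ker fun l hl θ hθ => ?_
    obtain ⟨x, hx, hxl⟩ := mem_subgroupOf.1 hl
    exact hkerb x hx θ hθ l hxl.symm

end Cfsg.Agent.S4728
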