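import Cfsg.Statements.S4730
import Cfsg.Agent.Block.OmegaFun
import Cfsg.Agent.Char.Cyclo
import Cfsg.Agent.Char.CharCenter
import Cfsg.Agent.Char.DegBasic

set_option autoImplicit false
open Cfsg

namespace Cfsg.Agent.S4730

open Cfsg.Lib.Char Cfsg.Lib.Block.Ht Cfsg.Lib.Block.Loc Subgroup

theorem ideal_div_sub {G : Type*} [Group G] {p : ℕ} {M : Ideal AlgInt} (hM : IsPModular p M)
    {χ ψ : G → ℂ} (h : SameBlock M χ ψ) {g : G} (hg : ¬ p ∣ (centralizer ({g} : Set G)).index) :
    MemLocalIdeal M (χ g / χ 1 - ψ g / ψ 1) := by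
  have h1 := h g
  rw [centralChar, centralChar, mul_div_assoc, mul_div_assoc, ← mul_sub] at h1
  exact (ideal_mul_unit_iff hM (ring_natCast hM _)
    (fun h2 => hg ((ideal_natCast_iff hM _).1 h2))).1 h1

/-- Let p be a prime, M a maximal ideal of the algebraic integers containing p, and G a finite group with trivial centre, Sylow p-subgroup P of order p^a and centre Z(P) of order p^b. If χ is a faithful irreducible character of G whose degree is a power of p, then the p-block of χ has defect at most a − b; in particular, if P is abelian then χ lies in a block of defect zero. -/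
theorem result {G : Type*} [Group G] [Finite G] (p : ℕ) [Fact p.Prime] (M : Ideal Cfsg.AlgInt) (hM : Cfsg.IsPModular p M) (hZ : Subgroup.center G = ⊥) (P : Sylow p G) (a b : ℕ) (ha : Nat.card P = p ^ a) (hb : Nat.card (Subgroup.center ↥(P : Subgroup G)) = p ^ b) (χ : Cfsg.IrrCharacter G) (hfaith : ∀ g : G, (χ : G → ℂ) g = (χ : G → ℂ) 1 → g = 1) (n : ℕ) (hdeg : Cfsg.charDegree (χ : G → ℂ) = p ^ n) : Cfsg.blockDefect p (Cfsg.blockOf M (χ : G → ℂ)) ≤ a - b ∧ (IsMulCommutative ↥(P : Subgroup G) → Cfsg.blockDefect p (Cfsg.blockOf M (χ : G → ℂ)) = 0) := by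
  have hp : p.Prime := Fact.out
  set Z : Subgroup G := (center (P : Subgroup G)).map (P : Subgroup G).subtype with hZdef
  letI := Fintype.ofFinite Z
  have hcard : Nat.card Z = p ^ b := by
    rw [← hb, hZdef, card_map_of_injective (subtype_injective _)]
  have hidx : ∀ z ∈ Z, ¬ p ∣ (centralizer ({z} : Set G)).index := by
    rintro _ ⟨z, hz, rfl⟩ h
    refine P.not_dvd_index (h.trans (index_dvd_of_le fun x hx => ?_))
    exact mem_centralizer_singleton_iff.2 (congrArg Subtype.val (mem_center_iff.1 hz ⟨x, hx⟩))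
  have hker : charKer (χ : G → ℂ) = ⊥ :=
    eq_bot_iff.2 fun g hg => hfaith g (apply_of_mem_charKer hg)
  have hvan : ∀ z ∈ Z, z ≠ 1 → (χ : G → ℂ) z = 0 := by
    intro z hz hz1
    refine (irr_eq_zero_or_norm_eq_of_coprime χ.2 (Deg.apply_one_eq χ.2.isCharacter) z
      ?_).resolve_right fun h => hz1 ?_
    · rw [hdeg]
      exact Nat.Coprime.pow_left _ (hp.coprime_iff_not_dvd.2 (hidx z hz))
    · have h1 : z ∈ charCenter (χ : G → ℂ) := by
        rw [χ.2.mem_charCenter_iff, h, Deg.norm_apply_one χ.2.isCharacter]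
      rwa [χ.2.charCenter_eq_center_of_faithful hker, hZ, mem_bot] at h1
  have hmin : b ≤ minVal p (blockOf M (χ : G → ℂ)) := by
    obtain ⟨ψ, hψ, h⟩ := exists_eq_minVal p (block_nonempty hM (isPBlock_blockOf (M := M) χ))
    rw [← h]
    have h1 : MemLocalIdeal M (∑ z : Z, ((χ : G → ℂ) z / (χ : G → ℂ) 1 -
        (ψ : G → ℂ) z / (ψ : G → ℂ) 1)) :=
      ideal_sum hM _ fun z _ => ideal_div_sub hM hψ (hidx z z.2)
    obtain ⟨m, hm⟩ := (ψ.2.isCharacter.res Z).exists_nat_classInner isCharacter_one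
    have h2 : ∑ z : Z, (ψ : G → ℂ) z = ((p ^ b * m : ℕ) : ℂ) := by
      have := card_mul_classInner (fun z : Z => (ψ : G → ℂ) z) (fun _ => 1)
      rw [hm, hcard] at this
      simpa using this.symm
    rw [Finset.sum_sub_distrib, Finset.sum_eq_single (1 : Z)
      (fun z _ hz => by rw [hvan z z.2 (by simpa using hz), zero_div]) (by simp),
      OneMemClass.coe_one, div_self χ.2.apply_one_ne_zero, ← Finset.sum_div, h2,
      ← cast_charDegree_irr ψ] at h1
    have h3 := not_ideal_of_sub_one hM (ideal_sub_comm hM h1)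
    by_contra h4
    apply h3
    have h5 : charDegree (ψ : G → ℂ) ≠ 0 := charDegree_ne_zero ψ.2
    obtain ⟨c, hc⟩ := Nat.exists_eq_add_of_lt (not_le.1 h4)
    rw [natCast_eq_pow_mul_ordCompl p (charDegree (ψ : G → ℂ)), hc]
    have h6 : (p : ℂ) ≠ 0 := by exact_mod_cast hp.ne_zero
    have h7 : (((p ^ ((charDegree (ψ : G → ℂ)).factorization p + c + 1) * m : ℕ) : ℂ)) /
        ((p : ℂ) ^ (charDegree (ψ : G → ℂ)).factorization p *
          ((ordCompl[p] (charDegree (ψ : G → ℂ)) : ℕ) : ℂ)) =
        ((p * (p ^ c * m) : ℕ) : ℂ) / ((ordCompl[p] (charDegree (ψ : G → ℂ)) : ℕ) : ℂ) := by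
      push_cast
      field_simp
      ring
    rw [h7]
    exact ideal_div hM ((ideal_natCast_iff hM _).2 (dvd_mul_right _ _)) (ring_natCast hM _)
      (not_ideal_ordCompl hM h5)
  have hG : (Nat.card G).factorization p = a := by
    have := P.card_eq_multiplicity
    rw [ha] at this
    exact (Nat.pow_right_injective hp.two_le this).symm
  have key : blockDefect p (blockOf M (χ : G → ℂ)) ≤ a - b := by
    rw [blockDefect_eq, hG]; omega
  refine ⟨key, fun hc => ?_⟩
  have : b = a := by
    rw [center_eq_top, card_top, ha] at hb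
    exact (Nat.pow_right_injective hp.two_le hb).symm
  omega

end Cfsg.Agent.S4730
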