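import Cfsg.Statements.S4729
import Cfsg.Agent.Block.OmegaFun
import Cfsg.Agent.S4730
import Cfsg.Agent.Char.Det
import Cfsg.Agent.Block.PPart

set_option autoImplicit false
open Cfsg

namespace Cfsg.Agent.S4729

open Cfsg.Lib.Char Cfsg.Lib.Block.Ht Cfsg.Lib.Block.Loc Subgroup

/-- Let p be a prime, M a maximal ideal of the algebraic integers containing p, G a finite perfect group and P a Sylow p-subgroup. If the principal p-block of G contains a faithful irreducible character of degree less than 2p, then the centralizer of P is a p-group. -/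
theorem result {G : Type*} [Group G] [Finite G] (p : ℕ) [Fact p.Prime] (M : Ideal Cfsg.AlgInt) (hM : Cfsg.IsPModular p M) (hperf : commutator G = ⊤) (P : Sylow p G) (χ : Cfsg.IrrCharacter G) (hχ : χ ∈ Cfsg.principalBlock M G) (hfaith : ∀ g : G, (χ : G → ℂ) g = (χ : G → ℂ) 1 → g = 1) (hdeg : Cfsg.charDegree (χ : G → ℂ) < 2 * p) : IsPGroup p ↥(Subgroup.centralizer ((P : Subgroup G) : Set G)) := by
  classical
  have hp : p.Prime := Fact.out
  have key : ∀ y ∈ centralizer ((P : Subgroup G) : Set G), ¬ p ∣ orderOf y → y = 1 := by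
    intro y hy hyp
    set Y := zpowers y with hY
    letI := Fintype.ofFinite Y
    have hYC : Y ≤ centralizer ((P : Subgroup G) : Set G) := zpowers_le.2 hy
    have hidx : ∀ z ∈ Y, ¬ p ∣ (centralizer ({z} : Set G)).index := by
      intro z hz h
      refine P.not_dvd_index (h.trans (index_dvd_of_le fun x hx => ?_))
      exact mem_centralizer_singleton_iff.2 (mem_centralizer_iff.1 (hYC hz) x hx)
    have hYp : ¬ p ∣ Nat.card Y := by rwa [hY, Nat.card_zpowers]
    have hres := χ.2.isCharacter.res Y
    obtain ⟨c, hc, hsum, -⟩ := hres.exists_nat_multiplicity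
    have hlin : ∀ l : IrrCharacter Y, (l : Y → ℂ) 1 = 1 := fun l =>
      l.2.apply_one_of_comm fun a b => mul_comm' a b
    -- multiplicities of nontrivial characters are divisible by `p`
    have hdvd : ∀ l : IrrCharacter Y, (l : Y → ℂ) ≠ (fun _ => 1) → p ∣ c l := by
      intro l hl
      have h1 : MemLocalIdeal M (∑ z : Y, (χ : G → ℂ) 1 * ((1 / 1 -
          (χ : G → ℂ) z / (χ : G → ℂ) 1) * (starRingEnd ℂ) ((l : Y → ℂ) z))) :=
        ideal_sum hM _ fun z _ => ideal_mul_left hM (ring_char hM χ.2.isCharacter _)
          (ideal_mul_right hM (S4730.ideal_div_sub hM hχ (hidx z z.2))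
            (ring_char hM l.2.isCharacter.conj z))
      have h2 : ∑ z : Y, (χ : G → ℂ) 1 * ((1 / 1 -
          (χ : G → ℂ) z / (χ : G → ℂ) 1) * (starRingEnd ℂ) ((l : Y → ℂ) z)) =
          -((Nat.card Y * c l : ℕ) : ℂ) := by
        have h3 := card_mul_classInner (fun z : Y => (χ : G → ℂ) z) (l : Y → ℂ)
        have h4 := card_mul_classInner (fun _ : Y => (1 : ℂ)) (l : Y → ℂ)
        rw [isIrrCharacter_one.classInner_of_ne l.2 hl.symm, mul_zero] at h4
        rw [hc] at h3
        have h5 := χ.2.apply_one_ne_zero
        calc _ = ∑ z : Y, ((χ : G → ℂ) 1 * (1 * (starRingEnd ℂ) ((l : Y → ℂ) z)) -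
              (χ : G → ℂ) z * (starRingEnd ℂ) ((l : Y → ℂ) z)) :=
              Finset.sum_congr rfl fun z _ => by field_simp
          _ = _ := by
            rw [Finset.sum_sub_distrib, ← Finset.mul_sum, ← h4, ← h3]; push_cast; ring
      rw [h2] at h1
      have h6 := ideal_neg hM h1
      rw [neg_neg, ideal_natCast_iff hM] at h6
      exact (hp.dvd_mul.1 h6).resolve_left hYp
    have hdeg' : ∑ l, c l < 2 * p := by
      have h1 := congrFun hsum 1
      simp only [Finset.sum_apply, Pi.smul_apply, hlin, smul_eq_mul, mul_one,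
        OneMemClass.coe_one] at h1
      rw [← cast_charDegree_irr] at h1
      have h2 : charDegree (χ : G → ℂ) = ∑ l, c l := by exact_mod_cast h1
      omega
    have hzero : ∀ l : IrrCharacter Y, (l : Y → ℂ) ≠ (fun _ => 1) → c l = 0 := by
      intro l hl
      by_contra h0
      have h1 : c l = p := by
        obtain ⟨k, hk⟩ := hdvd l hl
        have h2 : c l ≤ ∑ l, c l := Finset.single_le_sum (fun _ _ => Nat.zero_le _)
          (Finset.mem_univ l)
        have h3 : k < 2 := by
          by_contra h3
          have : p * 2 ≤ p * k := Nat.mul_le_mul_left p (not_lt.1 h3)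
          omega
        interval_cases k
        · omega
        · omega
      have h2 : ∀ l' : IrrCharacter Y, l' ≠ l → (l' : Y → ℂ) ≠ (fun _ => 1) → c l' = 0 := by
        intro l' hne hl'
        by_contra h3
        have h4 := Nat.le_of_dvd (Nat.pos_of_ne_zero h3) (hdvd l' hl')
        have h5 : c l' + c l ≤ ∑ l, c l := by
          rw [← Finset.sum_pair hne]
          exact Finset.sum_le_sum_of_subset (Finset.subset_univ _)
        omega
      have h3 : ∀ z : Y, (l : Y → ℂ) z ^ p = 1 := by
        intro z
        have h4 := congrFun (detChar_res χ.2.isCharacter Y) z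
        have h5 : detChar (χ : G → ℂ) z = 1 := by
          rw [detChar_eq_coe]
          simp only
          rw [monoidHom_apply_of_mem_commutator _ (hperf ▸ mem_top _), Units.val_one]
        rw [h5, hsum, detChar_sum _ fun l _ => l.2.isCharacter.natCast_smul _,
          Finset.prod_apply, Finset.prod_eq_single l, detChar_natCast_smul l.2.isCharacter,
          detChar_of_apply_one l.2.isCharacter (hlin l), h1] at h4
        · exact h4
        · intro l' _ hne
          rw [detChar_natCast_smul l'.2.isCharacter, detChar_of_apply_one l'.2.isCharacter (hlin l')]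
          by_cases h6 : (l' : Y → ℂ) = fun _ => 1
          · simp [h6]
          · simp [h2 l' hne h6]
        · simp
      apply hl
      funext z
      obtain ⟨lam, hlam⟩ := l.2.isCharacter.exists_monoidHom_of_apply_one (hlin l)
      have h4 := h3 z
      rw [hlam] at h4 ⊢
      have h5 : lam z ^ p = 1 := by ext; simpa using h4
      have h6 : lam z ^ Nat.card Y = 1 := by rw [← map_pow, pow_card_eq_one', map_one]
      have h7 := pow_gcd_eq_one.2 ⟨h5, h6⟩
      rw [hp.coprime_iff_not_dvd.2 hYp, pow_one] at h7
      simp [h7]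
    refine hfaith y ?_
    have h1 := congrFun hsum ⟨y, mem_zpowers y⟩
    have h2 := congrFun hsum 1
    simp only [Finset.sum_apply, Pi.smul_apply, smul_eq_mul, OneMemClass.coe_one] at h1 h2
    rw [h1, h2]
    refine Finset.sum_congr rfl fun l _ => ?_
    by_cases h6 : (l : Y → ℂ) = fun _ => 1
    · simp [h6]
    · simp [hzero l h6]
  intro g
  obtain ⟨x, hx⟩ := Lib.Block.exists_isPPart hp g
  have h1 := Lib.Block.IsPPart_not_dvd hx
  have h2 := key _ (x⁻¹ * g).2 (by rwa [orderOf_coe])
  have h3 : x = g := inv_mul_eq_one.1 (Subtype.ext h2)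
  obtain ⟨k, hk⟩ := Lib.Block.IsPPart_orderOf hx
  exact ⟨k, by rw [← h3, ← hk, pow_orderOf_eq_one]⟩

end Cfsg.Agent.S4729
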