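import Cfsg.Statements.S4732
import Cfsg.Agent.Char.BFStein3
import Cfsg.Agent.Char.BFLift
import Cfsg.Agent.Char.JordanBound
import Cfsg.Agent.Block.PrincBasic

set_option autoImplicit false
universe u v
open Cfsg

namespace Cfsg.Agent.S4732

open Cfsg.Lib Cfsg.Lib.Char Cfsg.Lib.Char.BF Cfsg.Lib.Block
open scoped TensorProduct

theorem exists_faithful {p : ℕ} [hp : Fact p.Prime] {G : Type u} [Group G] [Finite G] {F : Type v}
    [Field F] [CharP F p] {n : ℕ} (ρ : Representation F G (Fin n → F))
    (hρ : Function.Injective ρ) {m : ℕ} (hm : (Nat.card G).factorization p = m) :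
    ∃ χ : G → ℂ, IsCharacter G χ ∧ (∀ g, χ g = χ 1 → g = 1) ∧
      charDegree χ ≤ (p ^ (m + 1)) ^ (n * n) * (n + 1) := by
  classical
  obtain ⟨M, hM⟩ := Princ.exists_isPModular hp.out
  have := charP_kM hM
  have := Fintype.ofFinite G
  obtain ⟨r, hr⟩ := exists_specialization (p := p) (k := kM M)
    ((LinearMap.toMatrixAlgEquiv' (R := F) (n := Fin n)).toMonoidHom.comp ρ)
    (LinearMap.toMatrixAlgEquiv'.injective.comp hρ)
  let σ : Representation (kM M) G (Fin n → kM M) :=
    (Matrix.toLinAlgEquiv' (R := kM M) (n := Fin n)).toMonoidHom.comp r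
  have hσ : Function.Injective σ := Matrix.toLinAlgEquiv'.injective.comp hr
  obtain ⟨P⟩ : Nonempty (Sylow p G) := inferInstance
  have := Fintype.ofFinite (P : Subgroup G)
  obtain ⟨b, hb⟩ := exists_basis_uni P.isPGroup' n (Fin n → kM M) (by simp)
    (σ.comp (P : Subgroup G).subtype)
  let γ : G →* GL (Fin n) (kM M) := ((LinearMap.toMatrixAlgEquiv b).toMonoidHom.comp σ).toHomUnits
  have hγ : ∀ g i j, (γ g).val i j = b.repr (σ g (b j)) i := fun g i j =>
    LinearMap.toMatrixAlgEquiv_apply b (σ g) i j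
  have hγi : Function.Injective γ := fun g h hgh =>
    hσ ((LinearMap.toMatrixAlgEquiv b).injective (congrArg Units.val hgh))
  have huni : ∀ g : (P : Subgroup G), IsUni ((γ.comp (P : Subgroup G).subtype) g).val := by
    intro g
    have key : ∀ i j, i ≤ j → b.repr (σ g (b j)) i = b.repr (b j) i := fun i j hij => by
      have h1 : i ∉ (b.repr (σ g (b j) - b j)).support := fun h =>
        hij.not_gt (b.mem_span_image.1 (hb g j) h)
      rwa [Finsupp.notMem_support_iff, map_sub, Finsupp.sub_apply, sub_eq_zero] at h1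
    refine ⟨fun i => (hγ g i i).trans ?_, fun i j hij => (hγ g i j).trans ?_⟩
    · rw [key i i le_rfl]; simp
    · rw [key i j hij.le]; simp [hij.ne]
  obtain ⟨⟨t, ht⟩, hfin, hnt, hrk⟩ := exists_higman (p := p) (m := m) huni
    (hγi.comp Subtype.val_injective) (by
      rw [← Nat.card_eq_fintype_card, P.card_eq_multiplicity, hm])
  let ω : Representation (kM M) G (St (kM M) n (p ^ (m + 1))) := (stRep (kM M) n _).comp γ
  obtain ⟨t', ht'⟩ := higman_of_subgroup ω (P : Subgroup G) (by
    rw [Ne, CharP.cast_eq_zero_iff (kM M) p]; exact P.not_dvd_index) ht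
  obtain ⟨χ₁, h1, h2, h3⟩ := exists_character_of_higman ω t' ht'
  obtain ⟨χ₂, h4, h5, h6⟩ := exists_character_of_higman (M := M)
    (V := St (kM M) n (p ^ (m + 1)) ⊗[kM M] (Fin n → kM M)) (ω.tprod σ)
    (TensorProduct.map t' LinearMap.id) (by
      have : ∀ g, ω.tprod σ g * TensorProduct.map t' LinearMap.id * ω.tprod σ g⁻¹ =
          LinearMap.rTensor _ (ω g * t' * ω g⁻¹) := fun g => by
        rw [Representation.tprod_apply, Representation.tprod_apply, ← TensorProduct.map_mul,
          ← TensorProduct.map_mul, ← Module.End.one_eq_id, mul_one, ← map_mul, mul_inv_cancel,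
          map_one]
        rfl
      simp only [this]
      rw [Module.End.one_eq_id, ← LinearMap.rTensor_id, ← Module.End.one_eq_id, ← ht']
      exact (map_sum (LinearMap.rTensorHom (Fin n → kM M)) _ _).symm)
  refine ⟨χ₁ + χ₂, h1.add h4, fun g hg => ?_, ?_⟩
  · have h7 := (h1.add h4).mem_charKer_iff.2 hg
    rw [h1.charKer_add h4] at h7
    have h8 := h3 g (h1.mem_charKer_iff.1 h7.1)
    have h9 := h6 g (h4.mem_charKer_iff.1 h7.2)
    obtain ⟨w, hw⟩ := exists_ne (0 : St (kM M) n (p ^ (m + 1)))
    obtain ⟨ξ, hξ⟩ := Module.Projective.exists_dual_eq_one (kM M) hw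
    apply hσ
    rw [map_one]
    refine LinearMap.ext fun v => ?_
    have := congrArg (fun x => TensorProduct.lid _ _ (LinearMap.rTensor _ ξ x))
      (LinearMap.congr_fun h9 (w ⊗ₜ v))
    simpa [h8, hξ] using this
  · obtain ⟨d₁, hd₁⟩ := h1.exists_nat_degree
    obtain ⟨d₂, hd₂⟩ := h4.exists_nat_degree
    rw [Module.finrank_tensorProduct, Module.finrank_fin_fun] at h5
    have e1 : charDegree (χ₁ + χ₂) = d₁ + d₂ := by
      rw [charDegree, Pi.add_apply, hd₁, hd₂, ← Nat.cast_add, Complex.natCast_re, Nat.floor_natCast]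
    have e2 : charDegree χ₁ = d₁ := by simp [charDegree, hd₁]
    have e3 : charDegree χ₂ = d₂ := by simp [charDegree, hd₂]
    have e4 := Nat.mul_le_mul_right n hrk
    rw [e1, mul_add, mul_one]
    omega

/-- Let p be a prime. There is a function f of two natural-number arguments such that every finite group G admitting a faithful representation of degree n over a field of characteristic p, with Sylow p-subgroups of order p^m, has a normal abelian subgroup A with [G : A] < f(m, n). -/
theorem result (p : ℕ) [Fact p.Prime] : ∃ f : ℕ → ℕ → ℕ, ∀ (G : Type u) [Group G] [Finite G] (F : Type v) [Field F] [CharP F p] (n : ℕ) (ρ : Representation F G (Fin n → F)), Function.Injective ρ → ∀ m : ℕ, (Nat.card G).factorization p = m → ∃ A : Subgroup G, A.Normal ∧ IsMulCommutative A ∧ A.index < f m n := by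
  refine ⟨fun m n => (Finset.range ((p ^ (m + 1)) ^ (n * n) * (n + 1) + 1)).sup
    (fun d => d.factorial * 12 ^ (d * (Nat.primeCounting (d + 1) + 1))) + 1,
    fun G _ _ F _ _ n ρ hρ m hm => ?_⟩
  obtain ⟨χ, h1, h2, h3⟩ := exists_faithful ρ hρ hm
  obtain ⟨A, hA, hc, hi⟩ := exists_abelian_normal_index_le h1 h2 rfl
  refine ⟨A, hA, ⟨⟨fun x y => Subtype.ext (hc x x.2 y y.2)⟩⟩, Nat.lt_succ_of_le (hi.trans ?_)⟩
  exact Finset.le_sup (f := fun d => d.factorial * 12 ^ (d * (Nat.primeCounting (d + 1) + 1)))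
    (Finset.mem_range.2 (Nat.lt_succ_of_le h3))

end Cfsg.Agent.S4732
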