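import Cfsg.Statements.S4734
import Cfsg.Agent.Block.KerIdem

set_option autoImplicit false
open Cfsg

namespace Cfsg.Agent.S4734

open MonoidAlgebra Subgroup Cfsg.Lib.Char Cfsg.Lib.Block Cfsg.Lib.Block.Pair Cfsg.Lib.Solv Cfsg.Lib.Block.Ht

/-- Let p be a prime, π a set of primes containing p, M a maximal ideal of the algebraic integers containing p, B a p-block of the finite group G with defect group D, and B₁ the block of N_G(D) with defect group D inducing B. Write O_π'(X) for the largest normal subgroup of X whose order has no prime divisor in π, and suppose every element of O_π'(N_G(D)) lies in the kernel of every member of B₁. Let G₀ be a subgroup and B₀ a block of G₀ with defect group D₀ such that C_G(D₀) ≤ G₀ and B₀ induces B. Then every element of O_π'(G₀) lies in the kernel of every member of B₀. -/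
theorem result {G : Type*} [Group G] [Finite G] (p : ℕ) [Fact p.Prime] (M : Ideal Cfsg.AlgInt) (hM : Cfsg.IsPModular p M) (π : Set ℕ) (hpπ : p ∈ π) (B : Set (Cfsg.IrrCharacter G)) (hB : Cfsg.IsPBlock M B) (D : Subgroup G) (hBD : Cfsg.IsDefectGroup p M B D) (B₁ : Set (Cfsg.IrrCharacter ↥(Subgroup.normalizer (D : Set G)))) (hB₁ : Cfsg.IsInducedBlock M (Subgroup.normalizer (D : Set G)) B₁ B) (hB₁D : Cfsg.IsDefectGroup p M B₁ (D.subgroupOf (Subgroup.normalizer (D : Set G)))) (hker : ∀ n : ↥(Subgroup.normalizer (D : Set G)), n ∈ Cfsg.piCore {q | q ∉ π} ↥(Subgroup.normalizer (D : Set G)) → n ∈ Cfsg.blockKer B₁) (G₀ : Subgroup G) (B₀ : Set (Cfsg.IrrCharacter ↥G₀)) (hB₀ : Cfsg.IsInducedBlock M G₀ B₀ B) (D₀ : Subgroup ↥G₀) (hD₀ : Cfsg.IsDefectGroup p M B₀ D₀) (hC : Subgroup.centralizer ((D₀.map G₀.subtype : Subgroup G) : Set G) ≤ G₀) : ∀ x : ↥G₀, x ∈ Cfsg.piCore {q | q ∉ π} ↥G₀ → x ∈ Cfsg.blockKer B₀ := by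
  haveI := charP_kM hM
  have hp : p ∉ {q | q ∉ π} := fun h => h hpπ
  have hb := ((isInducedBlock_iff hM).1 hB₀).1
  have hσ := isPiNum_card_piCore {q | q ∉ π} G₀
  refine ker_of_lInv_hat hM hb (fun hd => hp (hσ p Fact.out hd)) ?_
  have hdef := (isDefectGroup_iff_isDefect_hat hM hb).1 hD₀
  have hprim := isPrim_hat hM hb
  obtain ⟨e, he, hbe⟩ := hprim.exists_isBlk_under le_rfl hdef.le hdef.isPGroup hdef.br_ne_zero
  have he' : IsBlk ⊤ (D₀.map G₀.subtype) e := by
    rw [isBlk_top_iff]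
    unfold IsBlk at he
    rwa [inf_eq_right.2 hC] at he
  have h1 := br_eB_mul_of_isInducedBlock hM hB₀ hdef.isPGroup hdef.le hC he' hbe
  have h2 := kills_of_brauerCorr hM hp hB₁ hB₁D hker hdef.isPGroup he' h1
  have hN : G₀ ≤ normalizer (((piCore {q | q ∉ π} G₀).map G₀.subtype : Subgroup G) : Set G) :=
    le_normalizer.trans (normalizer_le_normalizer_map_piCore _ _)
  have hσ' := isPiNum_card_map_piCore {q | q ∉ π} G₀
  refine IsPrim.lInv_of_br hprim (map_subtype_le _) hN (fun hd => hp (hσ' p Fact.out hd))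
    hdef.isPGroup (hdef.le.trans hN) (hdef.le.trans hprim.le_stab) he.ne_zero hbe
    (h2 _ inf_le_right ?_ (hσ'.card_of_le inf_le_left))
  intro x hx
  exact mem_normalizer_inf (hN (hC hx)) (le_normalizer hx)

end Cfsg.Agent.S4734
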