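import Cfsg.Statements.S4735
import Cfsg.Agent.Block.GaloisBlock
import Cfsg.Agent.Block.PrincQuot
import Cfsg.Agent.S0967
import Cfsg.Agent.Solv.Cores

set_option autoImplicit false
open Cfsg

namespace Cfsg.Agent.S4735
open Cfsg.Lib.Block ComplexConjugate

theorem sum_quot {G : Type*} [Group G] [Finite G] {p : ℕ} [Fact p.Prime] {M : Ideal Cfsg.AlgInt}
    (hM : Cfsg.IsPModular p M) (N : Subgroup G) [N.Normal] (hN : ¬ p ∣ Nat.card N) {A : Type*} [AddCommMonoid A]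
    (F : (G → ℂ) → A) : ∑ χ ∈ irrFin (Cfsg.principalBlock M G), F (χ : G → ℂ) =
      ∑ ψ ∈ irrFin (Cfsg.principalBlock M (G ⧸ N)), F (fun g => (ψ : G ⧸ N → ℂ) (QuotientGroup.mk g)) := by
  symm
  refine Finset.sum_bij (fun ψ _ => (Cfsg.Lib.Char.irrQuotientEquiv N ψ).1) (fun ψ hψ => ?_)
    (fun ψ _ ψ' _ h => (Cfsg.Lib.Char.irrQuotientEquiv N).injective (Subtype.ext h)) (fun χ hχ => ?_)
    fun ψ _ => rfl
  · exact mem_irrFin.2 (Princ.comp_mem_principalBlock hM (QuotientGroup.mk' N) (QuotientGroup.mk'_surjective N)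
      (mem_irrFin.1 hψ))
  · obtain ⟨ψ, hψ, h⟩ := Cfsg.Agent.S0967.result p M hM N hN (Princ.triv (G ⧸ N)) χ (mem_irrFin.1 hχ)
    exact ⟨ψ, mem_irrFin.2 h, Subtype.ext hψ.symm⟩


/-- Let p be a prime, M a maximal ideal of the algebraic integers containing p, G a finite group, H = O_p'(G) and Ḡ = G/H. For x ∈ G write λ(G, x) for the sum of |χ(x)|^2 over the irreducible characters χ in the principal p-block of G. Then λ(G, x) is a positive integer, λ(G, x) = λ(Ḡ, x̄) where x̄ is the image of x, and λ(G, x) ≤ #C_Ḡ(x̄). Moreover λ(G, 1) = [G : H] if and only if the principal block is the only p-block of Ḡ. -/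
theorem result {G : Type*} [Group G] [Finite G] (p : ℕ) [Fact p.Prime] (M : Ideal Cfsg.AlgInt) (hM : Cfsg.IsPModular p M) (x : G) : (∃ n : ℕ, 0 < n ∧ ∑ᶠ χ ∈ Cfsg.principalBlock M G, Complex.normSq ((χ : G → ℂ) x) = n) ∧ ∑ᶠ χ ∈ Cfsg.principalBlock M G, Complex.normSq ((χ : G → ℂ) x) = ∑ᶠ ψ ∈ Cfsg.principalBlock M (G ⧸ Cfsg.pPrimeCore p G), Complex.normSq ((ψ : G ⧸ Cfsg.pPrimeCore p G → ℂ) (QuotientGroup.mk x)) ∧ ∑ᶠ χ ∈ Cfsg.principalBlock M G, Complex.normSq ((χ : G → ℂ) x) ≤ (Nat.card ↥(Subgroup.centralizer ({(QuotientGroup.mk x : G ⧸ Cfsg.pPrimeCore p G)} : Set (G ⧸ Cfsg.pPrimeCore p G))) : ℝ) ∧ ((∑ᶠ χ ∈ Cfsg.principalBlock M G, Cfsg.charDegree (χ : G → ℂ) ^ 2) = (Cfsg.pPrimeCore p G).index ↔ ∀ B : Set (Cfsg.IrrCharacter (G ⧸ Cfsg.pPrimeCore p G)), Cfsg.IsPBlock M B → B = Cfsg.principalBlock M (G ⧸ Cfsg.pPrimeCore p G)) := by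
  classical
  have hN := Cfsg.Lib.Solv.not_dvd_card_pPrimeCore p G
  simp only [finsum_mem_irr]
  have h2 := sum_quot hM _ hN (fun χ => Complex.normSq (χ x))
  refine ⟨?_, h2, ?_, ?_⟩
  · set z : ℂ := ∑ χ ∈ irrFin (Cfsg.principalBlock M G), (χ : G → ℂ) x * conj ((χ : G → ℂ) x) with hz
    have hzi : IsIntegral ℤ z := IsIntegral.sum _ fun χ _ => by
      rw [← χ.2.isCharacter.apply_inv]
      exact (χ.2.isCharacter.isGeneralizedCharacter.isIntegral _).mul
        (χ.2.isCharacter.isGeneralizedCharacter.isIntegral _)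
    obtain ⟨n, hn⟩ := Cfsg.Lib.Char.exists_int_of_forall_ringEquiv hzi fun σ => by
      rw [hz, map_sum, ← sum_principalBlock_galoisPerm σ
        (fun χ : Cfsg.IrrCharacter G => (χ : G → ℂ) x * conj ((χ : G → ℂ) x))]
      refine Finset.sum_congr rfl fun χ _ => ?_
      rw [map_mul, Cfsg.Lib.Char.galoisPerm_apply]
      congr 1
      exact χ.2.isCharacter.isGeneralizedCharacter.ringHom_conj (σ : ℂ →+* ℂ) x
    have h3 : ∑ χ ∈ irrFin (Cfsg.principalBlock M G), Complex.normSq ((χ : G → ℂ) x) = (n : ℝ) := by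
      simp only [hz, Complex.mul_conj] at hn
      exact_mod_cast hn
    have h4 : (1 : ℝ) ≤ ∑ χ ∈ irrFin (Cfsg.principalBlock M G), Complex.normSq ((χ : G → ℂ) x) := by
      have := Finset.single_le_sum (f := fun χ : Cfsg.IrrCharacter G => Complex.normSq ((χ : G → ℂ) x))
        (fun χ _ => Complex.normSq_nonneg _) (mem_irrFin.2 (Princ.triv_mem_principalBlock (G := G) hM))
      simpa using this
    rw [h3] at h4
    have h5 : 1 ≤ n := by exact_mod_cast h4
    refine ⟨n.toNat, by omega, ?_⟩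
    rw [h3]
    exact_mod_cast (Int.toNat_of_nonneg (by omega)).symm
  · rw [h2, ← Cfsg.Lib.Char.sum_irr_normSq]
    simp only [Complex.normSq_eq_norm_sq]
    exact Finset.sum_le_sum_of_subset_of_nonneg (Finset.subset_univ _) fun _ _ _ => sq_nonneg _
  · rw [sum_quot hM _ hN (fun χ => Cfsg.charDegree χ ^ 2)]
    have h3 : ∑ ψ : Cfsg.IrrCharacter (G ⧸ Cfsg.pPrimeCore p G),
        Cfsg.charDegree (ψ : G ⧸ Cfsg.pPrimeCore p G → ℂ) ^ 2 = (Cfsg.pPrimeCore p G).index := by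
      have := Cfsg.Lib.Char.sum_irr_degree_sq (G := G ⧸ Cfsg.pPrimeCore p G)
      simp only [← irr_charDegree_cast] at this
      rw [Subgroup.index_eq_card]
      exact_mod_cast this
    change ∑ ψ ∈ irrFin (Cfsg.principalBlock M (G ⧸ Cfsg.pPrimeCore p G)),
      Cfsg.charDegree (ψ : G ⧸ Cfsg.pPrimeCore p G → ℂ) ^ 2 = _ ↔ _
    rw [← h3]
    constructor
    · intro h B hB
      obtain ⟨χ, hχ⟩ := isPBlock_nonempty hM hB
      refine isPBlock_eq_of_mem hM hB isPBlock_principalBlock' hχ ?_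
      by_contra hne
      refine (Finset.sum_lt_sum_of_subset (Finset.subset_univ _) (Finset.mem_univ χ) (mem_irrFin.not.2 hne)
        (pow_pos (irr_charDegree_pos χ) 2) fun _ _ _ => Nat.zero_le _).ne h
    · intro h
      congr 1
      refine Finset.eq_univ_of_forall fun χ => mem_irrFin.2 ?_
      rw [← h _ (isPBlock_blockOf' χ)]
      exact mem_blockOf_self' hM χ

end Cfsg.Agent.S4735
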