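import Cfsg.Statements.S4736
import Cfsg.Agent.Block.FongPrinc
import Cfsg.Agent.Block.PrincOver
import Cfsg.Agent.Block.DefectNum
import Cfsg.Agent.Block.OmegaFun
import Cfsg.Agent.Char.DegBasic
import Cfsg.Agent.S4439
import Cfsg.Agent.S4713

set_option autoImplicit false
open Cfsg

namespace Cfsg.Agent.S4736

open Cfsg Cfsg.Lib.Char Cfsg.Lib.Block Cfsg.Lib.Solv

/-- Let p be a prime, M a maximal ideal of the algebraic integers containing p, and G a finite p-solvable group with Sylow p-subgroup P. Then P is abelian if and only if every irreducible character in the principal p-block of G has height zero. -/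
theorem result {G : Type*} [Group G] [Finite G] (p : ℕ) [Fact p.Prime] (M : Ideal Cfsg.AlgInt) (hM : Cfsg.IsPModular p M) (hsolv : Cfsg.IsPSolvable p G) (P : Sylow p G) : IsMulCommutative P ↔ ∀ χ ∈ Cfsg.principalBlock M G, Cfsg.blockHeight p (Cfsg.principalBlock M G) (χ : G → ℂ) = 0 := by
  constructor
  · intro hP χ hχ
    have hB : IsPBlock M (principalBlock M G) := Princ.isPBlock_principalBlock
    have hD : IsDefectGroup p M (principalBlock M G) (P : Subgroup G) := by
      rw [isDefectGroup_sylow_iff hM hB]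
      have h := factorization_degree_of_height_zero hM hB (Princ.triv_mem_principalBlock hM)
        (Ht.blockHeight_one_principalBlock p)
      have h1 : charDegree (Princ.triv G : G → ℂ) = 1 := Deg.deg_const_one
      rw [h1] at h
      simpa using h
    have h := Cfsg.Agent.S4439.result p M hM hsolv _ hB _ hD χ hχ
    have hc : Subgroup.center (P : Subgroup G) = ⊤ := by
      rw [eq_top_iff]
      intro x _
      rw [Subgroup.mem_center_iff]
      intro g
      exact hP.is_comm.comm g x
    rw [hc, Subgroup.index_top] at h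
    simpa using h
  · intro h
    set N := pPrimeCore p G with hN
    have hq : IsPSolvable p (G ⧸ N) := hsolv.quotient N
    let Q : Sylow p (G ⧸ N) := P.mapSurjective (QuotientGroup.mk'_surjective N)
    have hQ := (Cfsg.Agent.S4713.result p hq Q).2 (fun ψ => by
      have hχ : (⟨fun g => ψ.1 (QuotientGroup.mk g), ψ.2.inflate⟩ : IrrCharacter G) ∈
          principalBlock M G :=
        (mem_principalBlock_iff_of_isPSolvable hM hsolv).2 (le_charKer_comp_mk N ψ.1)
      have := (Ht.height_zero_principal_iff hM hχ).1 (h _ hχ)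
      rwa [show charDegree ((⟨fun g => ψ.1 (QuotientGroup.mk g), ψ.2.inflate⟩ : IrrCharacter G) :
        G → ℂ) = charDegree (ψ : G ⧸ N → ℂ) from Deg.deg_inflate N _] at this)
    refine ⟨⟨fun a b => ?_⟩⟩
    have hab : ((a : G) : G ⧸ N) * (b : G) = ((b : G) : G ⧸ N) * (a : G) := by
      have ha : ((a : G) : G ⧸ N) ∈ (Q : Subgroup (G ⧸ N)) := ⟨a, a.2, rfl⟩
      have hb : ((b : G) : G ⧸ N) ∈ (Q : Subgroup (G ⧸ N)) := ⟨b, b.2, rfl⟩
      exact congrArg Subtype.val (hQ.2.is_comm.comm (⟨_, ha⟩ : (Q : Subgroup (G ⧸ N))) ⟨_, hb⟩)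
    have hmem : ((a * b : (P : Subgroup G)) : G)⁻¹ * ((b * a : (P : Subgroup G)) : G) ∈ N := by
      rw [← QuotientGroup.eq]
      simpa using hab
    have hdisj : Disjoint (P : Subgroup G) N := by
      apply Subgroup.disjoint_of_coprime_natCard
      exact coprime_card_of_isPGroup P.isPGroup' (coprime_card_pPrimeCore p G)
    have h1 : ((a * b : (P : Subgroup G)) : G)⁻¹ * ((b * a : (P : Subgroup G)) : G) = 1 :=
      (Subgroup.disjoint_def.1 hdisj) (mul_mem (inv_mem (a * b).2) (b * a).2) hmem
    exact Subtype.ext (inv_mul_eq_one.1 h1)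

end Cfsg.Agent.S4736
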