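import Cfsg.Statements.S4956
import Cfsg.Agent.Solv.SchurZassenhaus
import Mathlib.GroupTheory.ClassEquation

set_option autoImplicit false
open Cfsg

namespace Cfsg.Agent.S4956

/-- Let X be a finite group, V an abelian normal subgroup of X (any two elements of V commute) and G a complement to V in X whose order is coprime to that of V. Let S be a set of representatives of the orbits of G on V under conjugation: S lies in V and every element of V is conjugate under G to exactly one member of S. Then the number of conjugacy classes of X equals the sum, over s in S, of the number of conjugacy classes of the centralizer of s in G. -/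
theorem result {X : Type*} [Group X] [Finite X] (V : Subgroup X) [V.Normal] (hab : ∀ a ∈ V, ∀ b ∈ V, a * b = b * a) (G : Subgroup X) (hGV : Subgroup.IsComplement' V G) (hcop : (Nat.card V).Coprime (Nat.card G)) (S : Finset X) (hSV : ∀ s ∈ S, s ∈ V) (hrep : ∀ v ∈ V, ∃! s, s ∈ S ∧ ∃ g ∈ G, g * v * g⁻¹ = s) : Nat.card (ConjClasses X) = ∑ s ∈ S, Nat.card (ConjClasses ↥(G ⊓ Subgroup.centralizer ({s} : Set X))) := by
  classical
  obtain ⟨n, hn1, hn0⟩ := Nat.chineseRemainder hcop 1 0
  have hVn : ∀ v ∈ V, v ^ n = v := fun v hv => by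
    have h1 : (⟨v, hv⟩ : V) ^ n = (⟨v, hv⟩ : V) ^ 1 :=
      pow_eq_pow_iff_modEq.2 (hn1.of_dvd (orderOf_dvd_natCard _))
    simpa using congrArg Subtype.val h1
  have hGn : ∀ g ∈ G, g ^ n = 1 := fun g hg => by
    have h1 : (⟨g, hg⟩ : G) ^ n = (⟨g, hg⟩ : G) ^ 0 :=
      pow_eq_pow_iff_modEq.2 (hn0.of_dvd (orderOf_dvd_natCard _))
    simpa using congrArg Subtype.val h1
  have hpow : ∀ s ∈ S, ∀ c ∈ G ⊓ Subgroup.centralizer ({s} : Set X), (s * c) ^ n = s := by
    intro s hs c hc
    have h1 : Commute s c := (Subgroup.mem_centralizer_singleton_iff.1 hc.2).symm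
    rw [h1.mul_pow, hVn s (hSV s hs), hGn c hc.1, mul_one]
  let F : (Σ s : S, ConjClasses ↥(G ⊓ Subgroup.centralizer ({(s : X)} : Set X))) → ConjClasses X :=
    fun x => Quotient.lift (fun c : ↥(G ⊓ Subgroup.centralizer ({(x.1 : X)} : Set X)) =>
      ConjClasses.mk ((x.1 : X) * c)) (fun a b hab => by
        obtain ⟨d, rfl⟩ := isConj_iff.1 hab
        refine ConjClasses.mk_eq_mk_iff_isConj.2 (isConj_iff.2 ⟨d, ?_⟩)
        have h1 := Subgroup.mem_centralizer_singleton_iff.1 d.2.2
        push_cast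
        rw [← mul_assoc, h1]
        group) x.2
  have hF : Function.Bijective F := by
    constructor
    · rintro ⟨⟨s, hs⟩, C⟩ ⟨⟨s', hs'⟩, C'⟩ h
      obtain ⟨c, rfl⟩ := ConjClasses.mk_surjective C
      obtain ⟨c', rfl⟩ := ConjClasses.mk_surjective C'
      obtain ⟨x, hx⟩ := isConj_iff.1 (ConjClasses.mk_eq_mk_iff_isConj.1 h)
      simp only at hx
      obtain ⟨⟨⟨w, hw⟩, ⟨g, hg⟩⟩, rfl⟩ := hGV.2 x
      simp only at hx
      have h1 : w * g * s * (w * g)⁻¹ = s' := by
        have := congrArg (· ^ n) hx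
        simp only [conj_pow] at this
        rwa [hpow s hs c c.2, hpow s' hs' c' c'.2] at this
      have h2 : g * s * g⁻¹ = s' := by
        rw [← h1]
        have h3 := hab w hw _ (Subgroup.Normal.conj_mem inferInstance s (hSV s hs) g)
        calc g * s * g⁻¹ = (g * s * g⁻¹ * w) * w⁻¹ := by group
          _ = w * g * s * (w * g)⁻¹ := by rw [← h3]; group
      have h3 : s = s' := (hrep s (hSV s hs)).unique ⟨hs, 1, G.one_mem, by simp⟩ ⟨hs', g, hg, h2⟩
      subst h3
      have hgC : g ∈ G ⊓ Subgroup.centralizer ({s} : Set X) :=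
        ⟨hg, Subgroup.mem_centralizer_singleton_iff.2 (mul_inv_eq_iff_eq_mul.1 h2)⟩
      have h4 : w * (g * c * g⁻¹) * w⁻¹ = c' := by
        have h5 : w * g * (s * c) * (w * g)⁻¹ = (w * g * s * (w * g)⁻¹) * (w * (g * c * g⁻¹) * w⁻¹) := by
          group
        rw [h5, h1] at hx
        exact mul_left_cancel hx
      have h5 : g * c * g⁻¹ = c' := by
        have h6 : (c' : X) * (g * c * g⁻¹)⁻¹ ∈ V := by
          rw [← h4]
          have := V.mul_mem hw (Subgroup.Normal.conj_mem inferInstance _ (V.inv_mem hw) (g * c * g⁻¹))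
          simpa [mul_assoc] using this
        have h7 : (c' : X) * (g * c * g⁻¹)⁻¹ ∈ G :=
          G.mul_mem c'.2.1 (G.inv_mem (G.mul_mem (G.mul_mem hg c.2.1) (G.inv_mem hg)))
        exact (mul_inv_eq_one.1 (Subgroup.disjoint_def.1 hGV.disjoint h6 h7)).symm
      congr 1
      exact ConjClasses.mk_eq_mk_iff_isConj.2 (isConj_iff.2 ⟨⟨g, hgC⟩, Subtype.ext h5⟩)
    · intro C
      obtain ⟨x, rfl⟩ := ConjClasses.mk_surjective C
      have hidx : V.index = Nat.card G := hGV.symm.index_eq_card
      obtain ⟨k, hk⟩ : Nat.card G ∣ n := (Nat.modEq_zero_iff_dvd).1 hn0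
      have hv : x ^ n ∈ V := by
        rw [hk, pow_mul, ← hidx]
        exact V.pow_mem (V.pow_index_mem x) k
      set y := (x ^ n)⁻¹ * x with hy
      have hc : Commute (x ^ n) y := ((Commute.refl _).inv_right).mul_right ((Commute.refl x).pow_left n)
      have hyo : y ^ Nat.card G = 1 := by
        have h1 : Commute (x ^ n)⁻¹ x := ((Commute.refl x).pow_left n).inv_left
        rw [hy, h1.mul_pow, inv_pow, ← pow_mul, mul_comm n, pow_mul,
          hVn _ (by rw [← hidx]; exact V.pow_index_mem x), inv_mul_cancel]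
      obtain ⟨⟨⟨w, hw⟩, ⟨g, hg⟩⟩, hwg⟩ := hGV.2 y
      simp only at hwg
      obtain ⟨u, -, hu⟩ := Cfsg.Lib.Solv.schur_zassenhaus_conj_ambient' V (Subgroup.zpowers y)
        (Subgroup.zpowers g) (by rw [Subgroup.normalizer_eq_top]; exact le_top)
        (by rw [Nat.card_zpowers]
            exact hcop.symm.coprime_dvd_left (orderOf_dvd_of_pow_eq_one hyo))
        (Or.inr (Group.isSolvable_of_comm fun a b => Subtype.ext (hab a a.2 b b.2))) (by
          refine le_antisymm (sup_le le_sup_left ?_) (sup_le le_sup_left ?_)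
          · rw [Subgroup.zpowers_le, ← hwg]
            exact Subgroup.mul_mem_sup hw (Subgroup.mem_zpowers g)
          · rw [Subgroup.zpowers_le, eq_inv_mul_iff_mul_eq.2 hwg]
            exact Subgroup.mul_mem_sup (V.inv_mem hw) (Subgroup.mem_zpowers y))
        (hGV.disjoint.mono_right (Subgroup.zpowers_le.2 hg))
      have h1 : u * y * u⁻¹ ∈ G := by
        refine (Subgroup.zpowers_le.2 hg) ?_
        rw [← hu]
        exact Subgroup.smul_mem_pointwise_smul y _ _ (Subgroup.mem_zpowers y)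
      obtain ⟨s, ⟨hs, a, ha, has⟩, -⟩ :=
        hrep _ (Subgroup.Normal.conj_mem inferInstance _ hv u)
      refine ⟨⟨⟨s, hs⟩, ConjClasses.mk ⟨a * (u * y * u⁻¹) * a⁻¹,
        G.mul_mem (G.mul_mem ha h1) (G.inv_mem ha), ?_⟩⟩, ?_⟩
      · change _ ∈ Subgroup.centralizer ({s} : Set X)
        rw [Subgroup.mem_centralizer_singleton_iff, ← has]
        calc a * (u * y * u⁻¹) * a⁻¹ * (a * (u * x ^ n * u⁻¹) * a⁻¹)
            = a * u * (y * x ^ n) * (a * u)⁻¹ := by group
          _ = a * u * (x ^ n * y) * (a * u)⁻¹ := by rw [hc.eq]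
          _ = _ := by group
      · refine ConjClasses.mk_eq_mk_iff_isConj.2 (isConj_iff.2 ⟨(a * u)⁻¹, ?_⟩)
        simp only
        rw [← has, hy]
        group
  rw [← Nat.card_eq_of_bijective F hF, Nat.card_sigma]
  exact Finset.sum_coe_sort S
    (fun s => Nat.card (ConjClasses ↥(G ⊓ Subgroup.centralizer ({s} : Set X))))

end Cfsg.Agent.S4956
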