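import Cfsg.Statements.S4958
import Cfsg.Agent.Block.KgvMod

set_option autoImplicit false
open Cfsg

namespace Cfsg.Agent.S4958

open Cfsg.Lib.Block Cfsg.Lib.Solv Subgroup

/-- Let X be a finite group and V a normal subgroup of X in which every element has order dividing the prime p, whose index in X is prime to p and which is its own centralizer in X; so V is an elementary abelian normal Sylow p-subgroup, and any complement G to V in X is a group of order prime to p acting faithfully on the vector space V by conjugation (the coprime linear setting of the k(GV) problem). Let G be a complement to V in X and suppose that for some v in V the centralizer of v in G is abelian. Then the number of conjugacy classes of X is at most the order of V (the abelian-stabilizer criterion for the k(GV) problem). -/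
theorem result {X : Type*} [Group X] [Finite X] (p : ℕ) [Fact p.Prime] (V : Subgroup X) [V.Normal] (hVexp : ∀ v ∈ V, v ^ p = 1) (hidx : ¬ p ∣ V.index) (hself : Subgroup.centralizer (V : Set X) = V) (G : Subgroup X) (hGV : Subgroup.IsComplement' V G) (v : X) (hv : v ∈ V) (hab : ∀ a ∈ G ⊓ Subgroup.centralizer ({v} : Set X), ∀ b ∈ G ⊓ Subgroup.centralizer ({v} : Set X), a * b = b * a) : Nat.card (ConjClasses X) ≤ Nat.card V := by
  classical
  have := Fintype.ofFinite X
  obtain ⟨M, hM⟩ := Princ.exists_isPModular (Fact.out : p.Prime)
  have hcomm : ∀ a ∈ V, ∀ b ∈ V, a * b = b * a := fun a ha b hb => (hself.ge hb) a ha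
  have : ElemAb p V := ⟨fun a b => Subtype.ext (hcomm a a.2 b b.2),
    fun a => Subtype.ext (hVexp a a.2)⟩
  have hG : ¬ p ∣ Nat.card G := hGV.symm.index_eq_card ▸ hidx
  have hH : ∀ x, x ∈ G ⊓ centralizer ({v} : Set X) ↔ x ∈ G ∧ x * v = v * x := fun x => by
    rw [mem_inf, mem_centralizer_singleton_iff]
  refine Kgv.card_conjClasses_le_of_sqM hM hcomm hGV hG hv (hVexp v hv) hH
    (mul_ne_zero hM.1.ne_zero Nat.card_pos.ne') le_rfl le_normalizer_of_normal
    (fun h hh h1 => disjoint_def.1 hGV.disjoint (hself.le fun u hu => (h1 u hu).symm) hh.1)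
    (Kgv.sqM_comm hM (fun a b => Subtype.ext (hab a a.2 b b.2))
      (fun h => hG (h.trans (card_dvd_of_le inf_le_left))) _ _ _ rfl)

end Cfsg.Agent.S4958
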