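import Cfsg.Statements.S4964
import Cfsg.Agent.Block.Quot
import Cfsg.Agent.S0029
import Cfsg.Agent.S0012
import Cfsg.Agent.Solv.Cores

set_option autoImplicit false
open Cfsg Cfsg.Lib.Char Cfsg.Lib.Block

namespace Cfsg.Agent.S4964

/-- Let D be a normal p-subgroup of the finite group G, let D′ be its commutator subgroup (normal in G), and fix a maximal ideal M of the algebraic integers containing p. Then (i) two irreducible characters of G ⧸ D′ lie in the same p-block if and only if their inflations to G do, and (ii) every p-block of G contains the inflation of some irreducible character of G ⧸ D′; so inflation induces a bijection between the p-blocks of G ⧸ D′ and the p-blocks of G. -/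
theorem result {G : Type*} [Group G] [Finite G] (p : ℕ) [Fact p.Prime] (M : Ideal Cfsg.AlgInt) (hM : Cfsg.IsPModular p M) (D : Subgroup G) [D.Normal] (hD : IsPGroup p D) : (∀ χ ψ : Cfsg.IrrCharacter (G ⧸ ⁅D, D⁆), Cfsg.SameBlock M (χ : G ⧸ ⁅D, D⁆ → ℂ) (ψ : G ⧸ ⁅D, D⁆ → ℂ) ↔ Cfsg.SameBlock M ((χ : G ⧸ ⁅D, D⁆ → ℂ) ∘ QuotientGroup.mk) ((ψ : G ⧸ ⁅D, D⁆ → ℂ) ∘ QuotientGroup.mk)) ∧ ∀ B : Set (Cfsg.IrrCharacter G), Cfsg.IsPBlock M B → ∃ χ : Cfsg.IrrCharacter (G ⧸ ⁅D, D⁆), ∃ θ ∈ B, (θ : G → ℂ) = (χ : G ⧸ ⁅D, D⁆ → ℂ) ∘ QuotientGroup.mk := by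
  have hf := QuotientGroup.mk'_surjective ⁅D, D⁆
  have hker : (QuotientGroup.mk' ⁅D, D⁆).ker ≤ D := by
    rw [QuotientGroup.ker_mk']
    exact Subgroup.commutator_le_left D D
  have hC' : ∀ y : G, ¬ p ∣ orderOf y → QuotientGroup.mk' ⁅D, D⁆ y ∈
      Subgroup.centralizer ((D.map (QuotientGroup.mk' ⁅D, D⁆) : Subgroup (G ⧸ ⁅D, D⁆)) :
        Set (G ⧸ ⁅D, D⁆)) → y ∈ Subgroup.centralizer (D : Set G) := by
    intro y hy hc
    have hle : ∀ a ∈ Subgroup.zpowers y, QuotientGroup.mk' ⁅D, D⁆ a ∈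
        Subgroup.centralizer ((D.map (QuotientGroup.mk' ⁅D, D⁆) : Subgroup (G ⧸ ⁅D, D⁆)) :
          Set (G ⧸ ⁅D, D⁆)) := by
      rintro _ ⟨n, rfl⟩
      rw [map_zpow]
      exact zpow_mem hc n
    refine Cfsg.Agent.S0029.result (Subgroup.zpowers y) D
      (by rw [Subgroup.normalizer_eq_top]; exact le_top) ?_ (fun a ha k hk => ?_)
      (Subgroup.mem_zpowers y)
    · rw [Nat.card_zpowers]
      exact (Cfsg.Lib.Solv.coprime_card_of_isPGroup (hD.to_subgroup _)
        ((Nat.Prime.coprime_iff_not_dvd Fact.out).2 hy).symm).symm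
    · have h1 : a * k * a⁻¹ * k⁻¹ ∈ ⁅D, D⁆ := by
        rw [← QuotientGroup.ker_mk' ⁅D, D⁆, MonoidHom.mem_ker, map_mul, map_mul, map_mul,
          ← Subgroup.mem_centralizer_iff.1 (hle a ha) _ ⟨k, hk, rfl⟩, map_inv, map_inv]
        group
      have h2 : ⁅D, D⁆ = (commutator D).map D.subtype := by
        rw [commutator_def, Subgroup.map_commutator, ← MonoidHom.range_eq_map,
          Subgroup.range_subtype]
      rw [h2] at h1
      exact Subgroup.map_mono (Cfsg.Agent.S0012.result p hD).1 h1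
  refine ⟨fun χ ψ => ?_, fun B hB => ?_⟩
  · have hB := isPBlock_blockOf (M := M) (infI hf χ)
    have hC := isPBlock_blockOf (M := M) χ
    have h := subset_preimage_of_mem hM hf hB hC (mem_blockOf_self hM χ)
      (mem_blockOf_self hM (infI hf χ))
    have h2 := preimage_eq_of_isPGroup hM hf hD hker hC' hB hC h
    rw [← mem_blockOf, ← h2]
    rfl
  · obtain ⟨C, hC, h, -⟩ := exists_dominated_of_isPGroup hM hf (hD.to_le hker) hB
    obtain ⟨χ, hχ⟩ := block_nonempty hM hC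
    exact ⟨χ, infI hf χ, h hχ, rfl⟩

end Cfsg.Agent.S4964
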