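import Cfsg.Statements.S4965
import Mathlib.GroupTheory.CommutingProbability

set_option autoImplicit false
open Cfsg

namespace Cfsg.Agent.S4965

/-- Let X be a finite group with an abelian normal subgroup V (any two elements of V commute), and let φ be the action of X ⧸ V on V induced by conjugation (well defined because V is abelian; the hypothesis hφ says that the class of x acts as conjugation by x). Then X has at most as many conjugacy classes as the semidirect product of V by X ⧸ V formed with this action: the split extension has the largest class number among extensions with the given action. -/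
theorem result {X : Type*} [Group X] [Finite X] (V : Subgroup X) [V.Normal] (hab : ∀ a ∈ V, ∀ b ∈ V, a * b = b * a) (φ : X ⧸ V →* MulAut ↥V) (hφ : ∀ (x : X) (v : ↥V), ((φ (QuotientGroup.mk x) v : ↥V) : X) = x * v * x⁻¹) : Nat.card (ConjClasses X) ≤ Nat.card (ConjClasses (SemidirectProduct ↥V (X ⧸ V) φ)) := by
  classical
  have hfin : Finite (SemidirectProduct ↥V (X ⧸ V) φ) :=
    Finite.of_equiv _ (SemidirectProduct.equivProd (φ := φ)).symm
  have hcard : Nat.card (SemidirectProduct ↥V (X ⧸ V) φ) = Nat.card X := by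
    rw [SemidirectProduct.card, mul_comm, ← Subgroup.card_eq_card_quotient_mul_card_subgroup]
  have h1 := card_comm_eq_card_conjClasses_mul_card X
  have h2 := card_comm_eq_card_conjClasses_mul_card (SemidirectProduct ↥V (X ⧸ V) φ)
  rw [hcard] at h2
  refine Nat.le_of_mul_le_mul_right ?_ (Nat.card_pos (α := X))
  rw [← h1, ← h2]
  have hch : ∀ a b : X ⧸ V, ∃ z : X × X, ∀ x y : X, Commute x y → (x : X ⧸ V) = a → (y : X ⧸ V) = b →
      Commute z.1 z.2 ∧ (z.1 : X ⧸ V) = a ∧ (z.2 : X ⧸ V) = b := by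
    intro a b
    by_cases h : ∃ z : X × X, Commute z.1 z.2 ∧ (z.1 : X ⧸ V) = a ∧ (z.2 : X ⧸ V) = b
    · obtain ⟨z, hz⟩ := h
      exact ⟨z, fun _ _ _ _ _ => hz⟩
    · exact ⟨1, fun x y h1 h2 h3 => absurd ⟨(x, y), h1, h2, h3⟩ h⟩
  choose z hz using hch
  have hmem : ∀ x y : X, (x : X ⧸ V) = y → y * x⁻¹ ∈ V := fun x y h => by
    have := Subgroup.Normal.conj_mem inferInstance _ (QuotientGroup.eq.1 h) x
    simpa [mul_assoc] using this
  refine Nat.card_le_card_of_injective (fun p =>
    ⟨(⟨⟨p.1.1 * (z p.1.1 p.1.2).1⁻¹, hmem _ _ (hz _ _ _ _ p.2 rfl rfl).2.1⟩, p.1.1⟩,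
      ⟨⟨p.1.2 * (z p.1.1 p.1.2).2⁻¹, hmem _ _ (hz _ _ _ _ p.2 rfl rfl).2.2⟩, p.1.2⟩), ?_⟩) ?_
  · obtain ⟨⟨x, y⟩, hxy⟩ := p
    obtain ⟨h3, h4, h5⟩ := hz _ _ _ _ hxy rfl rfl
    refine SemidirectProduct.ext (Subtype.ext ?_) ?_
    · simp only [SemidirectProduct.mul_left, Subgroup.coe_mul]
      have hφ' : ∀ (q : X ⧸ V) (a : X), (a : X ⧸ V) = q → ∀ v : V,
          ((φ q v : V) : X) = a * v * a⁻¹ := by
        rintro _ a rfl v
        exact hφ a v
      rw [hφ' _ _ h4, hφ' _ _ h5]
      simp only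
      have h6 : x * y = y * x := hxy
      calc x * (z x y).1⁻¹ * ((z x y).1 * (y * (z x y).2⁻¹) * (z x y).1⁻¹)
          = (x * y) * ((z x y).1 * (z x y).2)⁻¹ := by group
        _ = (y * x) * ((z x y).2 * (z x y).1)⁻¹ := by rw [h6, h3.eq]
        _ = _ := by group
    · simp only [SemidirectProduct.mul_right]
      rw [← QuotientGroup.mk_mul, ← QuotientGroup.mk_mul]
      exact congrArg _ hxy
  · rintro ⟨⟨x, y⟩, hxy⟩ ⟨⟨x', y'⟩, hxy'⟩ h
    simp only [Subtype.mk.injEq, Prod.mk.injEq] at h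
    have h1 : x * (z x y).1⁻¹ = x' * (z x' y').1⁻¹ := congrArg (fun t => (t.left : X)) h.1
    have h2 : (x : X ⧸ V) = x' := congrArg (fun t => t.right) h.1
    have h3 : y * (z x y).2⁻¹ = y' * (z x' y').2⁻¹ := congrArg (fun t => (t.left : X)) h.2
    have h4 : (y : X ⧸ V) = y' := congrArg (fun t => t.right) h.2
    rw [h2, h4] at h1 h3
    exact Subtype.ext (Prod.ext (mul_right_cancel h1) (mul_right_cancel h3))

end Cfsg.Agent.S4965
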