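import Cfsg.Statements.S4967
import Cfsg.Agent.Block.KgvLin
import Mathlib.GroupTheory.Exponent

set_option autoImplicit false
open Cfsg

namespace Cfsg.Agent.S4967

open Module in
theorem aux {F K H : Type*} [Field F] [Fintype F] [Field K] [Algebra F K] [Finite K] [Group H]
    (x : H →* Kˣ) (hx : Submodule.span F (Set.range fun h => (x h : K)) = ⊤)
    (B : LinearMap.BilinForm F K) (hB : B.Nondegenerate)
    (hinv : ∀ h a b, B (x h * a) (x h * b) = B a b) :
    ∃ τ : K →ₐ[F] K, (∀ h, τ (x h) = x h⁻¹) ∧ τ * τ = 1 := by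
  have hfin : FiniteDimensional F K := Module.Finite.of_finite
  have h1 : ∀ h a b, B (x h * a) b = B a (x h⁻¹ * b) := fun h a b => by
    rw [← hinv h a, ← mul_assoc, ← Units.val_mul, ← map_mul, mul_inv_cancel, map_one,
      Units.val_one, one_mul]
  have hex : ∀ k : K, ∃ k' : K, ∀ a b, B (k * a) b = B a (k' * b) := by
    intro k
    have hk : k ∈ Submodule.span F (Set.range fun h => (x h : K)) := hx ▸ Submodule.mem_top
    induction hk using Submodule.span_induction with
    | mem y hy =>
      obtain ⟨h, rfl⟩ := hy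
      exact ⟨_, h1 h⟩
    | zero => exact ⟨0, fun a b => by simp⟩
    | add y z _ _ hy hz =>
      obtain ⟨y', hy⟩ := hy
      obtain ⟨z', hz⟩ := hz
      exact ⟨y' + z', fun a b => by simp [add_mul, hy, hz]⟩
    | smul c y _ hy =>
      obtain ⟨y', hy⟩ := hy
      exact ⟨c • y', fun a b => by simp [hy]⟩
  choose t ht using hex
  have huniq : ∀ k k', (∀ a, B a k = B a k') → k = k' := fun k k' h =>
    sub_eq_zero.1 (hB.2 _ fun a => by rw [map_sub, h, sub_self])
  have hadd : ∀ k l, t (k + l) = t k + t l := fun k l => huniq _ _ fun a => by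
    rw [map_add, ← mul_one (t (k + l)), ← mul_one (t k), ← mul_one (t l), ← ht, ← ht, ← ht,
      add_mul, map_add, LinearMap.add_apply]
  have hsmul : ∀ (c : F) k, t (c • k) = c • t k := fun c k => huniq _ _ fun a => by
    rw [map_smul, ← mul_one (t (c • k)), ← mul_one (t k), ← ht, ← ht, smul_mul_assoc, map_smul,
      LinearMap.smul_apply]
  have hone : t 1 = 1 := huniq _ _ fun a => by
    rw [← mul_one (t 1), ← ht, one_mul]
  have hmul : ∀ k l, t (k * l) = t k * t l := fun k l => huniq _ _ fun a => by
    rw [← mul_one (t (k * l)), ← ht, mul_assoc, ht, ht, mul_one, mul_comm]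
  let tl : K →ₗ[F] K := ⟨⟨t, hadd⟩, hsmul⟩
  have hth : ∀ h, t (x h) = x h⁻¹ := fun h => huniq _ _ fun a => by
    rw [← mul_one (t _), ← ht, h1, mul_one]
  refine ⟨AlgHom.ofLinearMap tl hone hmul, hth, AlgHom.toLinearMap_injective ?_⟩
  refine LinearMap.ext_on_range hx fun h => ?_
  change t (t (x h)) = x h
  rw [hth, hth, inv_inv]

/-- Let F be a finite field with r elements and of characteristic p, H a finite abelian group of order prime to p, and V a faithful irreducible representation of H over F of dimension n (faithful: distinct elements act differently; irreducible: the only H-invariant subspaces are 0 and V). Call V self-dual when it carries a nondegenerate H-invariant bilinear form. If n = 1 and V is self-dual then H has order at most 2. If n ≥ 2 then V is self-dual if and only if n is even and the order of H divides r^(n/2) + 1. -/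
theorem result {F : Type*} [Field F] [Fintype F] (p : ℕ) [Fact p.Prime] [CharP F p] {H : Type*} [CommGroup H] [Finite H] (hcop : ¬ p ∣ Nat.card H) {V : Type*} [AddCommGroup V] [Module F V] [FiniteDimensional F V] (ρ : Representation F H V) (hfaith : Function.Injective ρ) (hirr : ∀ U : Submodule F V, (∀ h : H, ∀ u ∈ U, ρ h u ∈ U) → U = ⊥ ∨ U = ⊤) : (Module.finrank F V = 1 → (∃ B : LinearMap.BilinForm F V, B.Nondegenerate ∧ ∀ h : H, ∀ x y : V, B (ρ h x) (ρ h y) = B x y) → Nat.card H ≤ 2) ∧ (2 ≤ Module.finrank F V → ((∃ B : LinearMap.BilinForm F V, B.Nondegenerate ∧ ∀ h : H, ∀ x y : V, B (ρ h x) (ρ h y) = B x y) ↔ (Even (Module.finrank F V) ∧ Nat.card H ∣ Fintype.card F ^ (Module.finrank F V / 2) + 1))) := by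
  have hn : ∀ n, 1 ≤ n → n ≤ Module.finrank F V → Nontrivial V := fun n h1 h2 =>
    Module.nontrivial_of_finrank_pos (R := F) (by omega)
  have main : Nontrivial V → ∃ (K : Type _) (_ : Field K) (_ : Algebra F K) (_ : Finite K)
      (x : H →* Kˣ) (e : K ≃ₗ[F] V), (∀ h k, e (x h * k) = ρ h (e k)) ∧
        Submodule.span F (Set.range fun h => (x h : K)) = ⊤ ∧ Function.Injective x ∧
        ∀ m : ℕ, (Nat.card H ∣ m ↔ ∀ h, (x h : K) ^ m = 1) := by
    intro _
    obtain ⟨K, _, _, _, x, e, he, hx⟩ := Cfsg.Lib.Block.Kgv.exists_field mul_comm ρ hirr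
    have hinj : Function.Injective x := fun a b h => hfaith (LinearMap.ext fun v => by
      obtain ⟨k, rfl⟩ := e.surjective v
      rw [← he, ← he, h])
    refine ⟨K, inferInstance, inferInstance, inferInstance, x, e, he, hx, hinj, fun m => ?_⟩
    have : IsCyclic H := isCyclic_of_injective_ringHom ((Units.coeHom K).comp x)
      (Units.val_injective.comp hinj)
    rw [← IsCyclic.exponent_eq_card, Monoid.exponent_dvd_iff_forall_pow_eq_one]
    refine forall_congr' fun h => ⟨fun h1 => ?_, fun h1 => hinj (Units.ext ?_)⟩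
    · rw [← Units.val_pow_eq_pow_val, ← map_pow, h1, map_one, Units.val_one]
    · rw [map_pow, Units.val_pow_eq_pow_val, h1, map_one, Units.val_one]
  have key : ∀ {K : Type _} [Field K] [Algebra F K] [Finite K] (x : H →* Kˣ) (e : K ≃ₗ[F] V),
      (∀ h k, e (x h * k) = ρ h (e k)) → Submodule.span F (Set.range fun h => (x h : K)) = ⊤ →
      (∃ B : LinearMap.BilinForm F V, B.Nondegenerate ∧
        ∀ h : H, ∀ x y : V, B (ρ h x) (ρ h y) = B x y) →
      ∃ i < Module.finrank F V, Module.finrank F V ∣ 2 * i ∧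
        ∀ h, (x h : K) ^ (Fintype.card F ^ i + 1) = 1 := by
    rintro K _ _ _ x e he hx ⟨B, hB, hinv⟩
    obtain ⟨τ, h1, h2⟩ := aux x hx (LinearMap.BilinForm.congr e.symm B) (hB.congr e.symm)
      fun h a b => by simp [he, hinv]
    obtain ⟨⟨i, hi⟩, rfl⟩ := (FiniteField.bijective_frobeniusAlgHom_pow F K).2 τ
    rw [← e.finrank_eq]
    refine ⟨i, hi, ?_, fun h => ?_⟩
    · rw [← FiniteField.orderOf_frobeniusAlgHom, orderOf_dvd_iff_pow_eq_one, two_mul, pow_add]
      exact h2
    · have := h1 h
      simp only [AlgHom.coe_pow, FiniteField.coe_frobeniusAlgHom, pow_iterate] at this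
      rw [pow_succ, this, ← Units.val_mul, ← map_mul, inv_mul_cancel, map_one, Units.val_one]
  refine ⟨fun h1 hB => ?_, fun h2 => ⟨fun hB => ?_, fun ⟨⟨m, hm⟩, hd⟩ => ?_⟩⟩
  · obtain ⟨K, _, _, _, x, e, he, hx, -, hc⟩ := main (hn 1 le_rfl h1.ge)
    obtain ⟨i, hi, -, h⟩ := key x e he hx hB
    obtain rfl : i = 0 := by omega
    exact Nat.le_of_dvd two_pos ((hc 2).2 (by simpa using h))
  · obtain ⟨K, _, _, _, x, e, he, hx, -, hc⟩ := main (hn 2 one_le_two h2)
    obtain ⟨i, hi, ⟨c, hc'⟩, h⟩ := key x e he hx hB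
    have hi0 : i ≠ 0 := by
      rintro rfl
      have h3 : (⊤ : Submodule F K) ≤ Submodule.span F {1} := by
        rw [← hx, Submodule.span_le]
        rintro _ ⟨g, rfl⟩
        have h4 := h g
        rw [pow_zero, ← two_mul, mul_one, sq_eq_one_iff] at h4
        rcases h4 with h4 | h4
        · exact h4 ▸ Submodule.mem_span_singleton_self _
        · change (x g : K) ∈ _
          rw [h4]
          exact Submodule.neg_mem _ (Submodule.mem_span_singleton_self _)
      have h4 := Submodule.finrank_mono h3
      rw [finrank_top, finrank_span_singleton one_ne_zero, e.finrank_eq] at h4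
      omega
    have hc1 : c = 1 := by
      rcases c with _ | _ | c
      · omega
      · rfl
      · nlinarith
    subst hc1
    have : Module.finrank F V / 2 = i := by omega
    exact ⟨⟨i, by omega⟩, (hc _).2 (this ▸ h)⟩
  · obtain ⟨K, _, _, _, x, e, he, hx, -, hc⟩ := main (hn 2 one_le_two h2)
    have hfin : FiniteDimensional F K := Module.Finite.of_finite
    let φ := FiniteField.frobeniusAlgEquivOfAlgebraic F K ^ (Module.finrank F V / 2)
    have hφ : ∀ k, φ k = k ^ Fintype.card F ^ (Module.finrank F V / 2) := fun k => by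
      simp only [φ, AlgEquiv.coe_pow, FiniteField.coe_frobeniusAlgEquivOfAlgebraic_iterate]
    let B : LinearMap.BilinForm F K := (Algebra.traceForm F K).compRight φ.toLinearMap
    have hB : ∀ a b, B a b = Algebra.trace F K (a * φ b) := fun a b => rfl
    refine ⟨LinearMap.BilinForm.congr e B, LinearMap.BilinForm.Nondegenerate.congr e
      (LinearMap.BilinForm.Nondegenerate.ofSeparatingLeft fun a ha =>
        (traceForm_nondegenerate F K).1 a fun b => ?_), fun h v w => ?_⟩
    · obtain ⟨b, rfl⟩ := φ.surjective b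
      exact ha b
    · obtain ⟨a, rfl⟩ := e.surjective v
      obtain ⟨b, rfl⟩ := e.surjective w
      have h3 := (hc _).1 hd h
      rw [pow_succ, ← hφ] at h3
      rw [← he, ← he]
      simp only [LinearMap.BilinForm.congr_apply, LinearEquiv.symm_apply_apply, hB, map_mul]
      congr 1
      linear_combination (a * φ b) * h3

end Cfsg.Agent.S4967
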