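import Cfsg.Statements.S5005
import Cfsg.Agent.Block.OneBlock
import Cfsg.Agent.Block.ClassFun24
import Cfsg.Agent.Spor.M22Classes

set_option autoImplicit false
open Cfsg Cfsg.Lib.Char Cfsg.Lib.Block Subgroup

namespace Cfsg.Agent.S5005

def ords : Fin 12 → ℕ := ![1, 2, 3, 4, 4, 5, 6, 7, 7, 8, 11, 11]

def cents : Fin 12 → ℕ := ![443520, 384, 36, 32, 16, 5, 12, 7, 7, 8, 11, 11]

theorem aux {G : Type*} [Group G] [Finite G] (x : Fin 12 → G)
    (ho : ∀ i, orderOf (x i) = ords i)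
    (hc : ∀ i, Nat.card (centralizer ({x i} : Set G)) = cents i)
    (hinj : ∀ i j, IsConj (x i) (x j) → i = j) (hall : ∀ g, ∃ i, IsConj (x i) g)
    {M : Ideal AlgInt} (hM : IsPModular 2 M) (χ ψ : IrrCharacter G) :
    SameBlock M (χ : G → ℂ) (ψ : G → ℂ) := by
  have h0 : x 0 = 1 := orderOf_eq_one_iff.1 (ho 0)
  have hG : Nat.card G = 443520 := by
    have := hc 0
    rwa [h0, centralizer_eq_top_iff_subset.2 (by simp), card_top] at this
  have hall' : ∀ g, ∃ i, IsConj (x i) g ∧ orderOf g = ords i ∧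
      Nat.card (centralizer ({g} : Set G)) = cents i := fun g => by
    obtain ⟨i, hi⟩ := hall g
    exact ⟨i, hi, by rw [orderOf_eq_of_isConj' hi, ho], by
      rw [card_centralizer_eq_of_isConj' hi, hc]⟩
  have hcl : ∀ (r : ℕ) (i j : Fin 12), (∀ k, ords k = r → k = i ∨ k = j) →
      ∀ g : G, orderOf g = r → IsConj (x i) g ∨ IsConj (x j) g := fun r i j h g hg => by
    obtain ⟨k, hk, hk', -⟩ := hall' g
    rcases h k (hk'.symm.trans hg) with rfl | rfl
    exacts [Or.inl hk, Or.inr hk]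
  refine sameBlock_of_criterion hM (d := 2) (by rw [hG]; decide +kernel) (fun g hg hg2 => ?_)
    (fun z hz => ?_) (fun θ hv hdeg => ?_) χ ψ
  · obtain ⟨i, -, h1, h2⟩ := hall' g
    rw [h2]
    rw [h1] at hg2
    rw [Ne, ← orderOf_eq_one_iff, h1] at hg
    clear h1 h2
    revert i
    decide +kernel
  · obtain ⟨i, -, h1, h2⟩ := hall' z
    rw [h2]
    rw [h1] at hz
    clear h1 h2
    revert i
    decide +kernel
  have hθ := θ.2.isCharacter
  have ha := (irr_charDegree_cast θ).symm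
  have hd := Ht.charDegree_dvd_card θ.2
  set a := charDegree (θ : G → ℂ)
  rw [hG] at hd hdeg
  obtain ⟨m, hm⟩ : 128 ∣ a := by
    have := Nat.ordProj_dvd a 2
    rwa [hdeg, show (443520 : ℕ).factorization 2 = 7 by decide +kernel] at this
  obtain ⟨N5, e5, c5⟩ := exists_nat_normSq_modEq_of_one_class hθ ha Nat.prime_five (ho 5)
    fun g hg => (hcl 5 5 5 (by decide) g hg).elim id id
  have h7 := fun {y : G} => exists_nat_normSq_modEq_of_two_classes (x := y) hθ ha
    (by norm_num : Nat.Prime 7) (by decide) (hcl 7 7 8 (by decide))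
  have h11 := fun {y : G} => exists_nat_normSq_modEq_of_two_classes (x := y) hθ ha
    (by norm_num : Nat.Prime 11) (by decide) (hcl 11 10 11 (by decide))
  obtain ⟨N7, e7, c7⟩ := h7 (ho 7)
  obtain ⟨N7', e7', c7'⟩ := h7 (ho 8)
  obtain ⟨N11, e11, c11⟩ := h11 (ho 10)
  obtain ⟨N11', e11', c11'⟩ := h11 (ho 11)
  have hsum := sum_normSq_div_card_centralizer_le θ.2 x hinj
  have hle : ∑ i ∈ ({0, 2, 5, 7, 8, 10, 11} : Finset (Fin 12)),
      ‖(θ : G → ℂ) (x i)‖ ^ 2 / Nat.card (centralizer ({x i} : Set G)) ≤ 1 :=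
    le_trans (Finset.sum_le_sum_of_subset_of_nonneg (Finset.subset_univ _)
      fun _ _ _ => by positivity) hsum
  simp only [hc] at hle
  rw [Finset.sum_insert (by decide), Finset.sum_insert (by decide), Finset.sum_insert (by decide),
    Finset.sum_insert (by decide), Finset.sum_insert (by decide), Finset.sum_insert (by decide),
    Finset.sum_singleton, e5, e7, e7', e11, e11', h0, ha, Complex.norm_natCast] at hle
  change (a : ℝ) ^ 2 / (443520 : ℕ) + (_ / (36 : ℕ) + (_ / (5 : ℕ) + (_ / (7 : ℕ) + (_ / (7 : ℕ) +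
    (_ / (11 : ℕ) + _ / (11 : ℕ)))))) ≤ (1 : ℝ) at hle
  have h3 := sq_nonneg ‖(θ : G → ℂ) (x 2)‖
  have hN : a ^ 2 + 88704 * N5 + 63360 * (N7 + N7') + 40320 * (N11 + N11') ≤ 443520 := by
    have : (a : ℝ) ^ 2 + 88704 * N5 + 63360 * (N7 + N7') + 40320 * (N11 + N11') ≤ 443520 := by
      push_cast at hle
      linarith
    exact_mod_cast this
  have hm6 : m < 6 := by nlinarith
  unfold Nat.ModEq at c5 c7 c7' c11 c11'
  rw [hm] at hd c5 c7 c7' c11 c11' hN
  have hm3 : m = 3 := by interval_cases m <;> omega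
  subst hm3
  have h9 : (θ : G → ℂ) (x 2) = 0 := by
    have h5 : (1 : ℝ) ≤ N5 := by exact_mod_cast (by omega : 1 ≤ N5)
    have h7 : (1 : ℝ) ≤ N7 := by exact_mod_cast (by omega : 1 ≤ N7)
    have h7' : (1 : ℝ) ≤ N7' := by exact_mod_cast (by omega : 1 ≤ N7')
    have h11 : (1 : ℝ) ≤ N11 := by exact_mod_cast (by omega : 1 ≤ N11)
    have h11' : (1 : ℝ) ≤ N11' := by exact_mod_cast (by omega : 1 ≤ N11')
    rw [hm] at hle
    push_cast at hle
    exact norm_eq_zero.1 (pow_eq_zero_iff two_ne_zero |>.1 (le_antisymm (by linarith) h3))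
  haveI : Fact (Nat.Prime 3) := ⟨Nat.prime_three⟩
  obtain ⟨P⟩ : Nonempty (Sylow 3 G) := inferInstance
  have hP := card_dvd_of_vanish hθ ha (P : Subgroup G) fun g hg hg1 => by
    obtain ⟨k, hk⟩ := exists_orderOf_eq_pow P.isPGroup' hg
    obtain ⟨i, hi, h1, -⟩ := hall' g
    have h2 : i = 2 := by
      have h4 : ∀ j, ords j ∣ 3 ^ 12 → ords j ≠ 1 → j = 2 := by decide
      refine h4 i ?_ (by rwa [← h1, Ne, orderOf_eq_one_iff])
      have h5 : ords i < 3 ^ 12 := by clear hi h1; revert i; decide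
      rw [← h1, hk] at h5 ⊢
      exact pow_dvd_pow 3 ((Nat.pow_lt_pow_iff_right (by norm_num)).1 h5).le
    rw [← θ.2.isClassFunction.eq_of_isConj hi, h2, h9]
  rw [P.card_eq_multiplicity, hG, hm,
    show (443520 : ℕ).factorization 3 = 2 by decide +kernel] at hP
  omega

/-- All irreducible complex characters of the Mathieu group `M₂₂` lie in a single 2-block: any two of them lie in the same block relative to every maximal ideal of the algebraic integers containing 2. -/
theorem result (M : Ideal Cfsg.AlgInt) (hM : Cfsg.IsPModular 2 M)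
    (χ ψ : Cfsg.IrrCharacter ↥Cfsg.Spor.M22) : Cfsg.SameBlock M (χ : ↥Cfsg.Spor.M22 → ℂ) (ψ : ↥Cfsg.Spor.M22 → ℂ) := by
  obtain ⟨x, ho, hc, hinj, hall⟩ := Lib.Spor.MP.isClassList_M22.exists_family (n := 12) rfl
  exact aux x (fun i => (ho i).trans (by fin_cases i <;> rfl))
    (fun i => (hc i).trans (by fin_cases i <;> rfl)) hinj hall hM χ ψ

end Cfsg.Agent.S5005
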