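import Cfsg.Statements.S5006
import Cfsg.Agent.Block.OneBlock
import Cfsg.Agent.Block.ClassFun24
import Cfsg.Agent.Spor.M24Classes

set_option autoImplicit false
open Cfsg Cfsg.Lib.Char Cfsg.Lib.Block Subgroup

namespace Cfsg.Agent.S5006

def ords : Fin 26 → ℕ :=
  ![1, 2, 2, 3, 3, 4, 4, 4, 5, 6, 6, 7, 7, 8, 10, 11, 12, 12, 14, 14, 15, 15, 21, 21, 23, 23]

def cents : Fin 26 → ℕ := ![244823040, 21504, 7680, 1080, 504, 384, 128, 96, 60, 24, 24, 42, 42,
  16, 20, 11, 12, 12, 14, 14, 15, 15, 21, 21, 23, 23]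

theorem aux {G : Type*} [Group G] [Finite G] (x : Fin 26 → G)
    (ho : ∀ i, orderOf (x i) = ords i)
    (hc : ∀ i, Nat.card (centralizer ({x i} : Set G)) = cents i)
    (hinj : ∀ i j, IsConj (x i) (x j) → i = j) (hall : ∀ g, ∃ i, IsConj (x i) g)
    {M : Ideal AlgInt} (hM : IsPModular 2 M) (χ ψ : IrrCharacter G) :
    SameBlock M (χ : G → ℂ) (ψ : G → ℂ) := by
  have h0 : x 0 = 1 := orderOf_eq_one_iff.1 (ho 0)
  have hG : Nat.card G = 244823040 := by
    have := hc 0
    rwa [h0, centralizer_eq_top_iff_subset.2 (by simp), card_top] at this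
  have hall' : ∀ g, ∃ i, IsConj (x i) g ∧ orderOf g = ords i ∧
      Nat.card (centralizer ({g} : Set G)) = cents i := fun g => by
    obtain ⟨i, hi⟩ := hall g
    exact ⟨i, hi, by rw [orderOf_eq_of_isConj' hi, ho], by
      rw [card_centralizer_eq_of_isConj' hi, hc]⟩
  have hcl : ∀ (r : ℕ) (i j : Fin 26), (∀ k, ords k = r → k = i ∨ k = j) →
      ∀ g : G, orderOf g = r → IsConj (x i) g ∨ IsConj (x j) g := fun r i j h g hg => by
    obtain ⟨k, hk, hk', -⟩ := hall' g
    rcases h k (hk'.symm.trans hg) with rfl | rfl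
    exacts [Or.inl hk, Or.inr hk]
  refine sameBlock_of_criterion hM (d := 3) (by rw [hG]; decide +kernel) (fun g hg hg2 => ?_)
    (fun z hz => ?_) (fun θ hv hdeg => ?_) χ ψ
  · obtain ⟨i, -, h1, h2⟩ := hall' g
    rw [h2]
    rw [h1] at hg2
    rw [Ne, ← orderOf_eq_one_iff, h1] at hg
    clear h1 h2
    revert i
    decide +kernel
  · obtain ⟨i, -, h1, h2⟩ := hall' z
    rw [h2]
    rw [h1] at hz
    clear h1 h2
    revert i
    decide +kernel
  have hθ := θ.2.isCharacter
  have ha := (irr_charDegree_cast θ).symm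
  have hd := Ht.charDegree_dvd_card θ.2
  set a := charDegree (θ : G → ℂ)
  rw [hG] at hd hdeg
  obtain ⟨m, hm⟩ : 1024 ∣ a := by
    have := Nat.ordProj_dvd a 2
    rwa [hdeg, show (244823040 : ℕ).factorization 2 = 10 by decide +kernel] at this
  obtain ⟨N5, e5, c5⟩ := exists_nat_normSq_modEq_of_one_class hθ ha Nat.prime_five (ho 8)
    fun g hg => (hcl 5 8 8 (by decide) g hg).elim id id
  have d5 := sq_dvd_normSq_of_vanish hθ hv (x := x 8) (by rw [ho]; decide) e5
  rw [hc, show (cents 8).factorization 2 = 2 by decide +kernel] at d5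
  obtain ⟨N11, e11, c11⟩ := exists_nat_normSq_modEq_of_one_class hθ ha
    (by norm_num : Nat.Prime 11) (ho 15) fun g hg => (hcl 11 15 15 (by decide) g hg).elim id id
  have h7 := fun {y : G} => exists_nat_normSq_modEq_of_two_classes (x := y) hθ ha
    (by norm_num : Nat.Prime 7) (by decide) (hcl 7 11 12 (by decide))
  have h23 := fun {y : G} => exists_nat_normSq_modEq_of_two_classes (x := y) hθ ha
    (by norm_num : Nat.Prime 23) (by decide) (hcl 23 24 25 (by decide))
  obtain ⟨N7, e7, c7⟩ := h7 (ho 11)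
  obtain ⟨N7', e7', c7'⟩ := h7 (ho 12)
  obtain ⟨N23, e23, c23⟩ := h23 (ho 24)
  obtain ⟨N23', e23', c23'⟩ := h23 (ho 25)
  have hsum := sum_normSq_div_card_centralizer_le θ.2 x hinj
  have hle : ∑ i ∈ ({0, 8, 11, 12, 15, 24, 25} : Finset (Fin 26)),
      ‖(θ : G → ℂ) (x i)‖ ^ 2 / Nat.card (centralizer ({x i} : Set G)) ≤ 1 :=
    le_trans (Finset.sum_le_sum_of_subset_of_nonneg (Finset.subset_univ _)
      fun _ _ _ => by positivity) hsum
  simp only [hc] at hle
  rw [Finset.sum_insert (by decide), Finset.sum_insert (by decide), Finset.sum_insert (by decide),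
    Finset.sum_insert (by decide), Finset.sum_insert (by decide), Finset.sum_insert (by decide),
    Finset.sum_singleton, e5, e7, e7', e11, e23, e23', h0, ha, Complex.norm_natCast] at hle
  change (a : ℝ) ^ 2 / (244823040 : ℕ) + (_ / (60 : ℕ) + (_ / (42 : ℕ) + (_ / (42 : ℕ) +
    (_ / (11 : ℕ) + (_ / (23 : ℕ) + _ / (23 : ℕ)))))) ≤ (1 : ℝ) at hle
  have hN : a ^ 2 + 4080384 * N5 + 5829120 * (N7 + N7') + 22256640 * N11 +
      10644480 * (N23 + N23') ≤ 244823040 := by
    have : (a : ℝ) ^ 2 + 4080384 * N5 + 5829120 * (N7 + N7') + 22256640 * N11 +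
        10644480 * (N23 + N23') ≤ 244823040 := by
      push_cast at hle
      linarith
    exact_mod_cast this
  have hm6 : m < 16 := by nlinarith
  unfold Nat.ModEq at c5 c7 c7' c11 c23 c23'
  rw [hm] at hd c5 c7 c7' c11 c23 c23' hN
  interval_cases m <;> omega

/-- All irreducible complex characters of the Mathieu group `M₂₄` lie in a single 2-block: any two of them lie in the same block relative to every maximal ideal of the algebraic integers containing 2. -/
theorem result (M : Ideal Cfsg.AlgInt) (hM : Cfsg.IsPModular 2 M)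
    (χ ψ : Cfsg.IrrCharacter ↥Cfsg.M24) : Cfsg.SameBlock M (χ : ↥Cfsg.M24 → ℂ) (ψ : ↥Cfsg.M24 → ℂ) := by
  obtain ⟨x, ho, hc, hinj, hall⟩ := Lib.Spor.MP.isClassList_M24.exists_family (n := 26) rfl
  exact aux x (fun i => (ho i).trans (by fin_cases i <;> rfl))
    (fun i => (hc i).trans (by fin_cases i <;> rfl)) hinj hall hM χ ψ

end Cfsg.Agent.S5006
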