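import Cfsg.Statements.S5014
import Mathlib
import Cfsg.Agent.Class.RankOneGrp

set_option autoImplicit false
open Cfsg

namespace Cfsg.Agent.S5014

/-- Let X = ⟨A, B⟩ be a rank one group with unipotent subgroups A and B and let Ω be the set of conjugates of A under X. Then Ω has at least three members, X acts doubly transitively on Ω by conjugation (any two ordered pairs of distinct members are carried to one another by a single element of X), and A acts regularly on Ω with A removed: for C, D in Ω different from A there is exactly one element of A conjugating C to D. -/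
theorem result {G : Type*} [Group G] {A B : Subgroup G} (h : Cfsg.IsRankOnePair A B) :
    (∃ C₁ ∈ Cfsg.unipotentSubgroups A B, ∃ C₂ ∈ Cfsg.unipotentSubgroups A B, ∃ C₃ ∈ Cfsg.unipotentSubgroups A B,
      C₁ ≠ C₂ ∧ C₁ ≠ C₃ ∧ C₂ ≠ C₃) ∧
    (∀ C₁ ∈ Cfsg.unipotentSubgroups A B, ∀ C₂ ∈ Cfsg.unipotentSubgroups A B, ∀ D₁ ∈ Cfsg.unipotentSubgroups A B,
      ∀ D₂ ∈ Cfsg.unipotentSubgroups A B, C₁ ≠ C₂ → D₁ ≠ D₂ →
        ∃ x ∈ A ⊔ B, Cfsg.conjBy C₁ x = D₁ ∧ Cfsg.conjBy C₂ x = D₂) ∧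
    (∀ C ∈ Cfsg.unipotentSubgroups A B, ∀ D ∈ Cfsg.unipotentSubgroups A B, C ≠ A → D ≠ A →
      ∃! a : G, a ∈ A ∧ Cfsg.conjBy C a = D) := by
  refine ⟨?_, fun C₁ h₁ C₂ h₂ D₁ k₁ D₂ k₂ hC hD => ?_, fun C hC D hD hCA hDA => ?_⟩
  · obtain ⟨a, ha, ha1⟩ := Cfsg.Lib.Class.r1_exists h
    exact ⟨A, Cfsg.Lib.Class.left_mem_unip, B, Cfsg.Lib.Class.right_mem_unip h, _,
      Cfsg.Lib.Class.rc_mem_unip (Cfsg.Lib.Class.right_mem_unip h) (Subgroup.mem_sup_left ha), h.ne,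
      (Cfsg.Lib.Class.r1_rc_ne h ha).symm, (Cfsg.Lib.Class.r1_rc_self h ha ha1).ne⟩
  · obtain ⟨x, hx, rfl, rfl⟩ := Cfsg.Lib.Class.exists_rc_pair h h₁ h₂ hC
    obtain ⟨y, hy, rfl, rfl⟩ := Cfsg.Lib.Class.exists_rc_pair h k₁ k₂ hD
    refine ⟨y⁻¹ * x, Subgroup.mul_mem _ (Subgroup.inv_mem _ hy) hx, ?_, ?_⟩ <;>
      rw [Cfsg.Lib.Class.conjBy_eq_rc, Cfsg.Lib.Class.rc_rc, mul_inv_rev, inv_inv, mul_inv_cancel_left]
  · obtain ⟨a, ha, rfl⟩ := ((Cfsg.Lib.Class.mem_unip_iff h).1 hC).resolve_left hCA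
    obtain ⟨a', ha', rfl⟩ := ((Cfsg.Lib.Class.mem_unip_iff h).1 hD).resolve_left hDA
    refine ⟨a'⁻¹ * a, ⟨A.mul_mem (A.inv_mem ha') ha, ?_⟩, fun y hy => ?_⟩
    · rw [Cfsg.Lib.Class.conjBy_eq_rc, Cfsg.Lib.Class.rc_rc, mul_inv_rev, inv_inv, mul_inv_cancel_left]
    · have := hy.2
      rw [Cfsg.Lib.Class.conjBy_eq_rc, Cfsg.Lib.Class.rc_rc] at this
      rw [← Cfsg.Lib.Class.r1_rc_inj h (A.mul_mem ha (A.inv_mem hy.1)) ha' this]
      group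

end Cfsg.Agent.S5014
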