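import Cfsg.Statements.S5015
import Mathlib
import Cfsg.Agent.Class.RankOneGrp

set_option autoImplicit false
open Cfsg

namespace Cfsg.Agent.S5015

/-- Let a group Y act doubly transitively on a set Ω with at least three points, and suppose that the stabilizer of a point α contains a nilpotent subgroup A, normalized by that stabilizer, which acts regularly on the points other than α. Then for any y in Y moving α, the subgroups A and y A y⁻¹ are the unipotent subgroups of a rank one group, and the normal closure of A in Y (the subgroup generated by all conjugates of A) is generated by A and y A y⁻¹ alone. -/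
theorem result {Y Ω : Type*} [Group Y] [MulAction Y Ω]
    (h2 : MulAction.IsMultiplyPretransitive Y Ω 2) (hΩ : 3 ≤ ENat.card Ω) (α : Ω) (A : Subgroup Y)
    (hA : A ≤ MulAction.stabilizer Y α) (hAn : ∀ y ∈ MulAction.stabilizer Y α, Cfsg.conjBy A y = A)
    (hnil : Group.IsNilpotent A) (hreg : ∀ β γ : Ω, β ≠ α → γ ≠ α → ∃! a : Y, a ∈ A ∧ a • β = γ)
    (y : Y) (hy : y ∉ MulAction.stabilizer Y α) :
    Cfsg.IsRankOnePair A (Cfsg.conjBy A y) ∧ Subgroup.normalClosure (A : Set Y) = A ⊔ Cfsg.conjBy A y := by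
  rw [MulAction.mem_stabilizer_iff] at hy
  have hwd : ∀ g g' : Y, g • α = g' • α → Cfsg.conjBy A g = Cfsg.conjBy A g' := by
    intro g g' e
    have : g'⁻¹ * g ∈ MulAction.stabilizer Y α := by
      rw [MulAction.mem_stabilizer_iff, mul_smul, e, inv_smul_smul]
    rw [← mul_inv_cancel_left g' g, ← Cfsg.Lib.Class.conjBy_conjBy, hAn _ this]
  have hcond : ∀ g g' : Y, g • α ≠ g' • α →
      Cfsg.RankOneCondition (Cfsg.conjBy A g) (Cfsg.conjBy A g') := by
    intro g g' hne a ha ha1
    have ha' := Cfsg.Lib.Class.mem_conjBy.1 ha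
    have hfix : a • g • α = g • α := by
      have := hA ha'
      rw [MulAction.mem_stabilizer_iff, mul_smul, mul_smul, inv_smul_eq_iff] at this
      exact this
    have h1 : g⁻¹ • g' • α ≠ α := fun e => hne (by rw [← inv_smul_eq_iff.1 e])
    have h2 : a⁻¹ • g' • α ≠ g' • α := by
      intro e
      obtain ⟨c, -, hc⟩ := hreg _ _ h1 h1
      have e1 := hc (g⁻¹ * a * g) ⟨ha', by
        rw [mul_smul, mul_smul, smul_inv_smul, ← inv_smul_eq_iff.1 e]⟩
      have e2 := hc 1 ⟨A.one_mem, one_smul _ _⟩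
      apply ha1
      calc a = g * (g⁻¹ * a * g) * g⁻¹ := by group
        _ = 1 := by rw [e1, ← e2]; group
    obtain ⟨c, ⟨hc, e⟩, -⟩ := hreg (g'⁻¹ • a⁻¹ • g' • α) (g'⁻¹ • g • α)
      (fun e => h2 (inv_smul_eq_iff.1 e)) (fun e => hne (inv_smul_eq_iff.1 e))
    have e' : (g' * c * g'⁻¹)⁻¹ • g • α = a⁻¹ • g' • α := by
      rw [inv_smul_eq_iff, mul_smul, mul_smul, e, smul_inv_smul]
    refine ⟨g' * c * g'⁻¹, Cfsg.Lib.Class.conj_mem_conjBy hc g', fun e1 => ?_, ?_⟩
    · rw [e1, inv_one, one_smul, eq_inv_smul_iff, hfix] at e'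
      exact hne e'
    · rw [Cfsg.Lib.Class.conjBy_conjBy, Cfsg.Lib.Class.conjBy_conjBy]
      exact hwd _ _ (by rw [mul_smul, mul_smul, e'])
  have hy1 : (1 : Y) • α ≠ y • α := by rw [one_smul]; exact fun e => hy e.symm
  have c1 := hcond 1 y hy1
  have c2 := hcond y 1 hy1.symm
  rw [Cfsg.Lib.Class.conjBy_one] at c1 c2
  refine ⟨⟨fun e => ?_, hnil, (Cfsg.Lib.Class.isNilpotent_map_iff (MulAut.conj y).injective).2 hnil,
    c1, c2⟩, le_antisymm ?_ (sup_le Subgroup.le_normalClosure ?_)⟩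
  · obtain ⟨γ, h1, h2⟩ : ∃ γ : Ω, γ ≠ α ∧ γ ≠ y • α := by
      by_contra hcon
      push Not at hcon
      have : (Set.univ : Set Ω) ⊆ {α, y • α} := fun γ _ => by
        by_cases h : γ = α
        exacts [Or.inl h, Or.inr (hcon γ h)]
      have h3 := Set.encard_le_encard this
      rw [Set.encard_univ] at h3
      have h4 := (hΩ.trans h3).trans (Set.encard_insert_le _ _)
      rw [Set.encard_singleton] at h4
      exact absurd h4 (by decide)
    obtain ⟨a, ⟨ha, ha'⟩, -⟩ := hreg (y • α) γ hy h1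
    rw [e] at ha
    have := hA (Cfsg.Lib.Class.mem_conjBy.1 ha)
    rw [MulAction.mem_stabilizer_iff, mul_smul, mul_smul, inv_smul_eq_iff, ha'] at this
    exact h2 this
  · refine (Subgroup.closure_le _).2 fun x hx => ?_
    obtain ⟨a, ha, hc⟩ := Group.mem_conjugatesOfSet_iff.1 hx
    obtain ⟨g, rfl⟩ := isConj_iff.1 hc
    have hm := Cfsg.Lib.Class.conj_mem_conjBy ha g
    by_cases h : g • α = α
    · rw [hAn g h] at hm
      exact Subgroup.mem_sup_left hm
    · obtain ⟨c, ⟨hc, e⟩, -⟩ := hreg (y • α) _ hy h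
      rw [← hwd (c * y) g (by rw [mul_smul, e]), ← Cfsg.Lib.Class.conjBy_conjBy,
        Cfsg.Lib.Class.conjBy_eq_rc] at hm
      exact Cfsg.Lib.Class.rc_le_of_le le_sup_right (Subgroup.mem_sup_left (A.inv_mem hc)) hm
  · rintro _ ⟨a, ha, rfl⟩
    exact Subgroup.normalClosure_normal.conj_mem a (Subgroup.subset_normalClosure ha) y

end Cfsg.Agent.S5015
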