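import Cfsg.Statements.S5017
import Mathlib
import Cfsg.Agent.Class.RankOneGrp

set_option autoImplicit false
open Cfsg

namespace Cfsg.Agent.S5017

/-- Let X be a rank one group with unipotent subgroups A and B and N a normal subgroup of X. Then either X = N A or N lies in the centre of X. Consequently a perfect rank one group is quasisimple. -/
theorem result {X : Type*} [Group X] {A B : Subgroup X} (h : Cfsg.IsRankOneGroup X A B) :
    (∀ N : Subgroup X, N.Normal → N ⊔ A = ⊤ ∨ N ≤ Subgroup.center X) ∧
    (Group.IsPerfect X → Cfsg.IsQuasisimple X) := by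
  refine ⟨fun N hN => ?_, Cfsg.Lib.Class.r1_isQuasisimple h.2 h.1⟩
  rcases Cfsg.Lib.Class.r1_normal_sup h.2 (N := N) (h.1 ▸ le_top) (fun x _ n hn => hN.conj_mem n hn x)
    with e | e
  · exact Or.inl (e.trans h.1)
  · exact Or.inr fun n hn => Subgroup.mem_center_iff.2 fun g => (e n hn g (h.1 ▸ Subgroup.mem_top g)).symm

end Cfsg.Agent.S5017
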