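import Cfsg.Statements.S5020
import Mathlib
import Cfsg.Agent.Class.RankOneSpecial

set_option autoImplicit false
open Cfsg

namespace Cfsg.Agent.S5020

/-- Let X be a special rank one group with abelian unipotent subgroups A and B, and H = N(A) ∩ N(B) its diagonal subgroup. Then either A has at most three elements and X is isomorphic to SL₂(2), SL₂(3) or PSL₂(3); or X = X' A with the commutator subgroup X' quasisimple and the commutator subgroup ⁅A, H⁆ having more than three elements. -/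
theorem result {X : Type*} [Group X] {A B : Subgroup X} (h : Cfsg.IsRankOneGroup X A B)
    (hs : Cfsg.IsSpecialRankOnePair A B) (hab : Cfsg.HasAbelianUnipotents A B) :
    (ENat.card A ≤ 3 ∧ (Nonempty (X ≃* Matrix.SpecialLinearGroup (Fin 2) (ZMod 2)) ∨
        Nonempty (X ≃* Matrix.SpecialLinearGroup (Fin 2) (ZMod 3)) ∨
        Nonempty (X ≃* Matrix.ProjectiveSpecialLinearGroup (Fin 2) (ZMod 3)))) ∨
    (commutator X ⊔ A = ⊤ ∧ Cfsg.IsQuasisimple (commutator X) ∧
      3 < ENat.card ↥(⁅A, Cfsg.rankOneDiagonal A B⁆ : Subgroup X)) := by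
  have hA := Lib.Class.cm_self hab.1
  rcases lt_or_ge 3 (ENat.card A) with h3 | h3
  · right
    have hp : commutator X = ⊤ := by
      have := Lib.Class.sp_perfect hs hA h3
      rwa [h.1] at this
    refine ⟨by rw [hp, top_sup_eq], ?_, by rwa [Lib.Class.sp_commutator_diagonal hs hA h3]⟩
    rw [hp]
    exact Lib.Trans.isQuasisimple_top_iff.2 (Lib.Class.r1_isQuasisimple h.2 h.1 ⟨hp⟩)
  · refine Or.inl ⟨h3, ?_⟩
    haveI : Finite A := ENat.card_lt_top.1 (h3.trans_lt (ENat.coe_lt_top 3))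
    rw [ENat.card_eq_coe_natCard] at h3
    have h3' : Nat.card A ≤ 3 := by exact_mod_cast h3
    have h1 : 1 < Nat.card A := (Subgroup.one_lt_card_iff_ne_bot A).2 (Lib.Class.r1_ne_bot h.2)
    obtain ⟨a, ha, ha1⟩ := Lib.Class.r1_exists h.2
    obtain ⟨b, r⟩ := Lib.Class.exists_rr_right h.2 ha ha1
    have key : ∀ p : ℕ, p.Prime → Nat.card A = p → (∀ a ∈ A, a ^ p = 1) ∧ Subgroup.closure {a, b} = ⊤ := by
      intro p hp e
      haveI := Fact.mk hp
      refine ⟨fun c hc => congrArg Subtype.val (e ▸ pow_card_eq_one' (x := (⟨c, hc⟩ : A))), ?_⟩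
      have hA' : A ≤ Subgroup.zpowers a := fun c hc => by
        obtain ⟨n, hn⟩ : (⟨c, hc⟩ : A) ∈ Subgroup.zpowers (⟨a, ha⟩ : A) :=
          mem_zpowers_of_prime_card e fun e => ha1 (congrArg Subtype.val e)
        exact ⟨n, congrArg Subtype.val hn⟩
      rw [eq_top_iff, ← h.1]
      have hA2 : A ≤ Subgroup.closure {a, b} :=
        hA'.trans (Subgroup.zpowers_le_of_mem (Subgroup.subset_closure (by simp)))
      refine sup_le hA2 ?_
      rw [← r.rc_nu_left hs]
      have h1 : a ∈ Subgroup.closure {a, b} := Subgroup.subset_closure (by simp)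
      exact Lib.Class.rc_le_of_le hA2 (Subgroup.mul_mem _ (Subgroup.mul_mem _ h1
        (Subgroup.inv_mem _ (Subgroup.subset_closure (by simp)))) h1)
    obtain e | e : Nat.card A = 2 ∨ Nat.card A = 3 := by omega
    · obtain ⟨h1, h2⟩ := key 2 Nat.prime_two e
      rcases r.closure_equiv hs h1 with ⟨⟨φ⟩⟩ | ⟨h, -⟩
      · exact Or.inl ⟨Subgroup.topEquiv.symm.trans ((MulEquiv.subgroupCongr h2.symm).trans φ)⟩
      · exact absurd rfl h
    · obtain ⟨h1, h2⟩ := key 3 Nat.prime_three e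
      haveI := Fact.mk Nat.prime_three
      rcases r.closure_equiv hs h1 with ⟨⟨φ⟩⟩ | ⟨-, ⟨φ⟩⟩
      · exact Or.inr (Or.inl ⟨Subgroup.topEquiv.symm.trans ((MulEquiv.subgroupCongr h2.symm).trans φ)⟩)
      · exact Or.inr (Or.inr ⟨Subgroup.topEquiv.symm.trans ((MulEquiv.subgroupCongr h2.symm).trans φ)⟩)

end Cfsg.Agent.S5020
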