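import Cfsg.Statements.S5023
import Mathlib
import Cfsg.Agent.Class.RankOneSpecial

set_option autoImplicit false
open Cfsg

namespace Cfsg.Agent.S5023

/-- Let X be a rank one group with unipotent subgroups A and B that acts faithfully on an abelian group V (written additively) with A acting quadratically: a' • (a • v − v) = a • v − v for all a, a' in A and v in V. Then A is either torsion-free or an elementary abelian p-group for some prime p. -/
theorem result {X : Type*} [Group X] {A B : Subgroup X} (h : Cfsg.IsRankOneGroup X A B)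
    {V : Type*} [AddCommGroup V] [DistribMulAction X V] (hf : ∀ x : X, (∀ v : V, x • v = v) → x = 1)
    (hq : ∀ a ∈ A, ∀ a' ∈ A, ∀ v : V, a' • (a • v - v) = a • v - v) :
    (∀ a ∈ A, a ≠ 1 → ¬ IsOfFinOrder a) ∨ ∃ p : ℕ, p.Prime ∧ Cfsg.IsElementaryAbelian p A := by
  have hc : ∀ x y : X, (∀ v : V, x • (y • v - v) = y • v - v) → (∀ v : V, y • (x • v - v) = x • v - v) →
      x * y = y * x := fun x y e e' => by
    rw [← mul_inv_eq_one]
    refine hf _ fun v => ?_
    have : ∀ w : V, (x * y) • w = (y * x) • w := fun w => by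
      have h1 := e w
      have h2 := e' w
      rw [smul_sub, sub_eq_iff_eq_add] at h1 h2
      rw [mul_smul, mul_smul, h1, h2]
      abel
    rw [mul_smul, this, smul_inv_smul]
  have key : ∀ x y : X, (DistribMulAction.toAddMonoidEnd X V x - 1) * (DistribMulAction.toAddMonoidEnd X V y - 1) = 0 ↔
      ∀ n : V, x • (y • n - n) = y • n - n := fun x y => by
    rw [DFunLike.ext_iff]
    exact forall_congr' fun n => sub_eq_zero
  have hA : Lib.Class.Cm A A := fun a ha a' ha' => hc a a' (hq a' ha' a ha) (hq a ha a' ha')
  have hs := Lib.Class.sp_of_module h.2 h.1 (DistribMulAction.toAddMonoidEnd X V)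
    (fun a ha a' ha' => (key _ _).2 (hq a' ha' a ha)) (by
      by_contra hn
      push Not at hn
      exact Lib.Class.r1_not_cm h.2 fun a _ b _ => hc a b ((key _ _).1 (hn a b)) ((key _ _).1 (hn b a)))
  exact (Lib.Class.sp_structure hs hA).symm.imp And.left fun ⟨p, hp, e⟩ =>
    ⟨p, hp, Lib.Class.isMulCommutative_of_cm hA, e⟩

end Cfsg.Agent.S5023
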