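import Cfsg.Statements.S5024
import Mathlib
import Cfsg.Agent.Class.RootSets

set_option autoImplicit false
open Cfsg

namespace Cfsg.Agent.S5024

/-- Let S be a set of abstract root subgroups of G, A and C members of S, B a rank one partner of A in S and D a rank one partner of C in S. If the rank one group ⟨A, B⟩ is contained in ⟨C, D⟩ then the two coincide, and C and D are conjugates of A inside ⟨A, B⟩. -/
theorem result {G : Type*} [Group G] {S : Set (Subgroup G)} (hS : Cfsg.IsRootSubgroupSet S)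
    {A B C D : Subgroup G} (hA : A ∈ S) (hC : C ∈ S) (hB : B ∈ Cfsg.rankOnePartners S A) (hD : D ∈ Cfsg.rankOnePartners S C)
    (hle : A ⊔ B ≤ C ⊔ D) : A ⊔ B = C ⊔ D ∧ C ∈ Cfsg.unipotentSubgroups A B ∧ D ∈ Cfsg.unipotentSubgroups A B := by
  have h1 := Lib.Class.RS.mem_unip_of_le hS hA hC hB.2 hD.2 hle
  have h2 := Lib.Class.RS.mem_unip_of_le hS hB.1 hC (Lib.Class.r1_symm hB.2) hD.2 (by rwa [sup_comm])
  refine ⟨Lib.Class.sup_eq_of_mem_unip hD.2 h1 h2 hB.2.ne, ?_⟩
  rw [Lib.Class.unip_eq_of_mem_unip hD.2 h1 h2 hB.2.ne]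
  exact ⟨Lib.Class.left_mem_unip, Lib.Class.right_mem_unip hD.2⟩

end Cfsg.Agent.S5024
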