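import Cfsg.Statements.S5026
import Mathlib
import Cfsg.Agent.Class.RootSets

set_option autoImplicit false
open Cfsg

namespace Cfsg.Agent.S5026

/-- Let S be a degenerate set of abstract root subgroups of G (a set of abstract transvection groups) and let a, b be commuting non-identity elements of members of S with a b ≠ 1. Then the members of S centralizing a b are exactly those centralizing both a and b. -/
theorem result {G : Type*} [Group G] {S : Set (Subgroup G)} (hS : Cfsg.IsRootSubgroupSet S) (hdeg : Cfsg.IsDegenerateRootSet S)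
    {a b : G} (ha : a ∈ Cfsg.rootElements S) (hb : b ∈ Cfsg.rootElements S) (hab : a * b = b * a) (hab1 : a * b ≠ 1) :
    Cfsg.centralizingMembers S (Subgroup.zpowers (a * b)) =
      Cfsg.centralizingMembers S (Subgroup.zpowers a) ∩ Cfsg.centralizingMembers S (Subgroup.zpowers b) := by
  have mem : ∀ (x : G) (C : Subgroup G), C ∈ Cfsg.centralizingMembers S (Subgroup.zpowers x) ↔
      C ∈ S ∧ ∀ c ∈ C, c * x = x * c := fun x C => by
    refine and_congr_right fun _ => ⟨fun h c hc => (h hc x (Subgroup.mem_zpowers x)).symm, fun h c hc => ?_⟩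
    rintro _ ⟨n, rfl⟩
    exact ((show Commute c x from h c hc).zpow_right n).symm
  have key : ∀ a b : G, a ∈ Cfsg.rootElements S → b ∈ Cfsg.rootElements S → a * b = b * a → a * b ≠ 1 →
      ∀ C ∈ S, (∀ c ∈ C, c * (a * b) = a * b * c) → ∀ c ∈ C, c * a = a * c := by
    rintro a b ⟨ha1, A, hA, ha⟩ ⟨hb1, B, hB, hb⟩ hab hab1 C hC h
    rcases Lib.Class.RS.tri hS hC hA with h1 | h1 | h1
    · exact fun c hc => h1 c hc a ha
    · exfalso
      have e : Lib.Class.rc C b⁻¹ = Lib.Class.rc C a := by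
        rw [← Lib.Class.rc_mul_of_eq (Lib.Class.rc_eq_of_forall h), mul_inv_cancel_right]
      have h2 := Lib.Class.RS.mem_unip_of_rc hS hC h1 Lib.Class.left_mem_unip hB (B.inv_mem hb)
        (Subgroup.mem_sup_right ha) e fun e' => ha1 (Lib.Class.r1_eq_one (Lib.Class.r1_symm h1) ha (e ▸ e'))
      by_cases hAB : A = B
      · exact hab1 (Lib.Class.r1_eq_one (Lib.Class.r1_symm h1) (A.mul_mem ha (hAB ▸ hb))
          (Lib.Class.rc_eq_of_forall h))
      · exact hb1 (Lib.Class.r1_comm_eq (Lib.Class.r1_of_mem_unip h1 (Lib.Class.right_mem_unip h1) h2 hAB)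
          ha ha1 hb hab)
    · exact absurd h1 (hdeg C hC A hA)
  ext C
  rw [Set.mem_inter_iff, mem, mem, mem]
  constructor
  · rintro ⟨hC, h⟩
    exact ⟨⟨hC, key a b ha hb hab hab1 C hC h⟩, hC, key b a hb ha hab.symm (hab ▸ hab1) C hC (hab ▸ h)⟩
  · rintro ⟨⟨hC, h⟩, -, h'⟩
    exact ⟨hC, fun c hc => by rw [← mul_assoc, h c hc, mul_assoc, h' c hc, mul_assoc]⟩

end Cfsg.Agent.S5026
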