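import Cfsg.Statements.S5027
import Mathlib
import Cfsg.Agent.Class.RootSets

set_option autoImplicit false
open Cfsg

namespace Cfsg.Agent.S5027

/-- Let S be a set of abstract root subgroups of G such that every member of S has a rank one partner in S (the graph of rank one pairs on S has no isolated vertex). Then the second centre of G equals its centre. -/
theorem result {G : Type*} [Group G] {S : Set (Subgroup G)} (hS : Cfsg.IsRootSubgroupSet S)
    (hF : ∀ A ∈ S, ¬ Cfsg.IsIsolatedIn (Cfsg.FAdj S) S A) : Subgroup.upperCentralSeries G 2 = Subgroup.center G := by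
  refine le_antisymm (fun z hz => ?_) (by
    rw [← Subgroup.upperCentralSeries_one]; exact Subgroup.upperCentralSeries_mono _ one_le_two)
  rw [Subgroup.mem_upperCentralSeries_succ_iff, Subgroup.upperCentralSeries_one] at hz
  have : (⨆ A ∈ S, A) ≤ Subgroup.centralizer {z} := iSup₂_le fun A hA a ha => by
    rw [Subgroup.mem_centralizer_singleton_iff]
    by_cases ha1 : a = 1
    · rw [ha1, one_mul, mul_one]
    obtain ⟨B, hB, h⟩ := (Lib.Class.RS.not_isolated_iff hA).1 (hF A hA)
    have hc := Subgroup.mem_center_iff.1 (hz a)
    have := Lib.Class.RS.eq_one_of_mul_mem hS hA hB h (fun x _ => hc x) (fun x _ => hc x) ha ha1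
      (hS.conj_mem A hA z) (by
        rw [commutatorElement_def, inv_mul_cancel_right]; exact Lib.Class.conj_mem_conjBy ha z)
    exact (commutatorElement_eq_one_iff_mul_comm.1 this).symm
  rw [hS.generates] at this
  exact Subgroup.mem_center_iff.2 fun g => Subgroup.mem_centralizer_singleton_iff.1 (this (Subgroup.mem_top g))

end Cfsg.Agent.S5027
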