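import Cfsg.Statements.S5029
import Mathlib
import Cfsg.Agent.Class.RootSets

set_option autoImplicit false
open Cfsg

namespace Cfsg.Agent.S5029

/-- Let S be a set of abstract root subgroups of G, A ∈ S having a rank one partner in S, and B ∈ S with C = ⁅A, B⁆ ∈ S. Then the members of S contained in AC are the conjugates of A by elements of B together with C, they partition AC, the members of S inside AC partition AC so that A is a line partner of C, and for every non-identity a ∈ A the map b ↦ a⁻¹ b⁻¹ a b is an isomorphism from B onto C. -/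
theorem result {G : Type*} [Group G] {S : Set (Subgroup G)} (hS : Cfsg.IsRootSubgroupSet S)
    {A B : Subgroup G} (hA : ¬ Cfsg.IsIsolatedIn (Cfsg.FAdj S) S A) (hAS : A ∈ S) (hB : B ∈ S) (hC : ⁅A, B⁆ ∈ S) :
    Cfsg.membersIn S (A ⊔ ⁅A, B⁆) = (fun b : G => Cfsg.conjBy A b) '' (B : Set G) ∪ {⁅A, B⁆} ∧
    Cfsg.IsSubgroupPartition (A ⊔ ⁅A, B⁆) (Cfsg.membersIn S (A ⊔ ⁅A, B⁆)) ∧
    A ∈ Cfsg.linePartners S ⁅A, B⁆ ∧
    ∀ a ∈ A, a ≠ 1 → ∃ φ : ↥B ≃* ↥⁅A, B⁆, ∀ b : ↥B, (φ b : G) = a⁻¹ * (b : G)⁻¹ * a * b := by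
  obtain ⟨E, hE, hAE⟩ := (Lib.Class.RS.not_isolated_iff hAS).1 hA
  have h := Lib.Class.RS.cc_of_mem hS hAS hB hC
  refine ⟨?_, Lib.Class.RS.cc_partition hS hAS hE hAE h, Lib.Class.RS.cc_linePartner hS hAS hE hAE h,
    fun a ha ha1 => ?_⟩
  · ext D
    constructor
    · rintro ⟨hD, hle⟩
      rcases Lib.Class.RS.cc_members hS hAS hE hAE h hD hle with e | ⟨b, hb, e⟩
      · exact Or.inr e
      · exact Or.inl ⟨b⁻¹, B.inv_mem hb, e.symm⟩
    · rintro (⟨b, hb, rfl⟩ | rfl)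
      · refine ⟨hS.conj_mem A hAS b, ?_⟩
        have := Lib.Class.cc_rc_le h (B.inv_mem hb)
        rwa [← Lib.Class.conjBy_eq_rc] at this
      · exact ⟨hC, le_sup_right⟩
  · let φ : B →* ↥⁅A, B⁆ := MonoidHom.mk' (fun b => ⟨Lib.Class.kc a b, Lib.Class.kc_mem ha b.2⟩)
      fun b b' => Subtype.ext (Lib.Class.cc_kc_mul_right h ha b.2 b'.2)
    refine ⟨MulEquiv.ofBijective φ ⟨(injective_iff_map_eq_one φ).2 fun b e => Subtype.ext
      (Lib.Class.RS.cc_inj hS hAS hE hAE h ha ha1 b.2 (Lib.Class.kc_eq_one.1 (congrArg Subtype.val e))),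
      fun c => ?_⟩, fun b => rfl⟩
    obtain ⟨b, hb, e⟩ := Lib.Class.cc_surj h ha ha1 c.2
    exact ⟨⟨b, hb⟩, Subtype.ext e⟩

end Cfsg.Agent.S5029
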