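import Cfsg.Statements.S5030
import Mathlib
import Cfsg.Agent.Class.RootNilp

set_option autoImplicit false
open Cfsg

namespace Cfsg.Agent.S5030

/-- Let S be a set of abstract root subgroups of G and A, B, C ∈ S with ⁅A, B⁆ ∈ S and ⁅B, C⁆ ∈ S, where A and C are different and commute. For a non-identity b ∈ B put X = ⟨A, b⁻¹ C b⟩ and Y = ⟨b⁻¹ A b, C⟩ and R = ⟨A, B, C⟩. Then X and Y are either both abelian or both nilpotent of class exactly two; X and Y commute elementwise; XY is normal in R with R = (XY) B; and R is nilpotent. -/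
theorem result {G : Type*} [Group G] {S : Set (Subgroup G)} (hS : Cfsg.IsRootSubgroupSet S)
    {A B C : Subgroup G} (hA : A ∈ S) (hB : B ∈ S) (hC : C ∈ S) (hAB : ⁅A, B⁆ ∈ S) (hBC : ⁅B, C⁆ ∈ S)
    (hAC : C ∈ Cfsg.commutingPartners S A)
    {b : G} (hb : b ∈ B) (hb1 : b ≠ 1) :
    ((IsMulCommutative ↥(A ⊔ Cfsg.conjBy C b⁻¹) ∧ IsMulCommutative ↥(Cfsg.conjBy A b⁻¹ ⊔ C)) ∨
      ((¬ IsMulCommutative ↥(A ⊔ Cfsg.conjBy C b⁻¹) ∧
          ⁅⁅A ⊔ Cfsg.conjBy C b⁻¹, A ⊔ Cfsg.conjBy C b⁻¹⁆, A ⊔ Cfsg.conjBy C b⁻¹⁆ = ⊥) ∧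
        (¬ IsMulCommutative ↥(Cfsg.conjBy A b⁻¹ ⊔ C) ∧
          ⁅⁅Cfsg.conjBy A b⁻¹ ⊔ C, Cfsg.conjBy A b⁻¹ ⊔ C⁆, Cfsg.conjBy A b⁻¹ ⊔ C⁆ = ⊥))) ∧
    ⁅A ⊔ Cfsg.conjBy C b⁻¹, Cfsg.conjBy A b⁻¹ ⊔ C⁆ = ⊥ ∧
    (∀ r ∈ A ⊔ B ⊔ C, Cfsg.conjBy ((A ⊔ Cfsg.conjBy C b⁻¹) ⊔ (Cfsg.conjBy A b⁻¹ ⊔ C)) r =
      (A ⊔ Cfsg.conjBy C b⁻¹) ⊔ (Cfsg.conjBy A b⁻¹ ⊔ C)) ∧
    ((A ⊔ Cfsg.conjBy C b⁻¹) ⊔ (Cfsg.conjBy A b⁻¹ ⊔ C)) ⊔ B = A ⊔ B ⊔ C ∧
    Group.IsNilpotent ↥(A ⊔ B ⊔ C) := by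
  have h := Lib.Class.RS.cc_of_mem hS hA hB hAB
  have h' := Lib.Class.rootCommutatorCase_symm (Lib.Class.RS.cc_of_mem hS hB hC hBC)
  have hc := Lib.Class.cm_iff.1 hAC.2.2
  rw [Lib.Class.rc_def, Lib.Class.rc_def]
  have key : ∀ {A C : Subgroup G}, A ∈ S → C ∈ S → RootCommutatorCase S C B → Lib.Class.Cm A C →
      IsMulCommutative ↥(A ⊔ Lib.Class.rc C b) → IsMulCommutative ↥(C ⊔ Lib.Class.rc A b) := by
    intro A C hA hC h' hc h1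
    have h2 : Lib.Class.Cm A (Lib.Class.rc C b⁻¹) :=
      (hc.sup_right ((Lib.Class.cm_self h1).mono le_sup_left le_sup_right)).mono le_rfl (by
        rw [Lib.Class.cc_sup_rc h' hb hb1]; exact Lib.Class.cc_rc_le h' (B.inv_mem hb))
    have h3 := h2.rc b
    rw [Lib.Class.rc_inv_rc] at h3
    exact Lib.Class.isMulCommutative_of_cm (((Lib.Class.RS.cm hS hC).sup_right h3.symm).sup_left
      (h3.sup_right (Lib.Class.RS.cm hS (Lib.Class.RS.rc_mem hS hA b))))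
  have key2 : ∀ {A C : Subgroup G}, A ∈ S → C ∈ S → RootCommutatorCase S A B → Lib.Class.Cm A C →
      ⁅⁅A ⊔ Lib.Class.rc C b, A ⊔ Lib.Class.rc C b⁆, A ⊔ Lib.Class.rc C b⁆ = ⊥ := by
    intro A C hA hC h hc
    have hC' := Lib.Class.RS.rc_mem hS hC b
    rcases Lib.Class.RS.tri hS hA hC' with h1 | h1 | h1
    · rw [Lib.Class.cm_iff.2 (((Lib.Class.RS.cm hS hA).sup_right h1).sup_left
        (h1.symm.sup_right (Lib.Class.RS.cm hS hC'))), Subgroup.commutator_bot_left]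
    · exact absurd h1 (Lib.Class.RS.not_r1_rc hS hA hC h hc hb)
    · exact Lib.Class.cc_commutator_sup (Lib.Class.RS.cm hS hA) (Lib.Class.RS.cm hS hC') h1
  refine ⟨?_, Lib.Class.cm_iff.2 (Lib.Class.RS.cm_XY hS hA hC h h' hc hb), ?_, ?_,
    Lib.Class.RS.isNilpotent_three hS hA hC h h' hc hB⟩
  · rw [sup_comm (Lib.Class.rc A b)]
    by_cases h1 : IsMulCommutative ↥(A ⊔ Lib.Class.rc C b)
    · exact Or.inl ⟨h1, key hA hC h' hc h1⟩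
    · exact Or.inr ⟨⟨h1, key2 hA hC h hc⟩, fun h2 => h1 (key hC hA h hc.symm h2), key2 hC hA h' hc.symm⟩
  · rw [Lib.Class.RS.sup_XY h h' hb hb1]
    intro r hr
    rw [Lib.Class.conjBy_eq_iff_mem_normalizer]
    refine (sup_le (sup_le ((le_sup_left.trans le_sup_left).trans Subgroup.le_normalizer) fun x hx => ?_)
      ((le_sup_left.trans le_sup_right).trans Subgroup.le_normalizer) : A ⊔ B ⊔ C ≤ _) hr
    rw [← Lib.Class.rc_eq_iff_mem_normalizer, Lib.Class.rc_sup, Lib.Class.cc_rc_sup h hx, Lib.Class.cc_rc_sup h' hx]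
  · refine le_antisymm (sup_le (sup_le (sup_le (le_sup_left.trans le_sup_left) ?_) (sup_le ?_ le_sup_right))
      (le_sup_right.trans le_sup_left)) (sup_le (sup_le ((le_sup_left.trans le_sup_left).trans le_sup_left)
        le_sup_right) ((le_sup_right.trans le_sup_right).trans le_sup_left))
    · exact Lib.Class.rc_le_of_le le_sup_right (Subgroup.mem_sup_left (Subgroup.mem_sup_right hb))
    · exact Lib.Class.rc_le_of_le (le_sup_left.trans le_sup_left) (Subgroup.mem_sup_left (Subgroup.mem_sup_right hb))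

end Cfsg.Agent.S5030
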