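import Cfsg.Statements.S5033
import Mathlib
import Cfsg.Agent.Class.RootLines

set_option autoImplicit false
open Cfsg

namespace Cfsg.Agent.S5033

/-- Quasisimplicity criterion for groups generated by abstract root subgroups. Let S be a set of abstract root subgroups of G with more than one member such that: the graph of rank one pairs on S is connected; no two different members of S have the same set of commuting members of S; if S is degenerate then every member of S has more than three elements; and every rank one pair in S is special. Then for every A ∈ S one has G = G' A with A ∩ G' ≠ 1, and the commutator subgroup G' is quasisimple. Moreover G is perfect if S is non-degenerate, or if some rank one pair A, B in S generates a perfect group. -/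
theorem result {G : Type*} [Group G] {S : Set (Subgroup G)} (hS : Cfsg.IsRootSubgroupSet S) (h2 : ∃ A ∈ S, ∃ B ∈ S, A ≠ B)
    (h1 : Cfsg.IsConnectedFamily (Cfsg.FAdj S) S)
    (h2' : ∀ A ∈ S, ∀ C ∈ S, A ≠ C → Cfsg.centralizingMembers S A ≠ Cfsg.centralizingMembers S C)
    (h3 : Cfsg.IsDegenerateRootSet S → ∀ A ∈ S, 3 < ENat.card A)
    (h4 : ∀ A ∈ S, ∀ B ∈ Cfsg.rankOnePartners S A, Cfsg.IsSpecialRankOnePair A B) :
    (∀ A ∈ S, commutator G ⊔ A = ⊤ ∧ A ⊓ commutator G ≠ ⊥) ∧ Cfsg.IsQuasisimple ↥(commutator G) ∧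
    (Cfsg.IsNondegenerateRootSet S → commutator G = ⊤) ∧
    ((∃ A ∈ S, ∃ B ∈ Cfsg.rankOnePartners S A, Group.IsPerfect ↥(A ⊔ B)) → commutator G = ⊤) := by
  obtain ⟨A₀, hA₀, A₁, hA₁, hne⟩ := h2
  have hc : IsConjClassOfSubgroups S := Lib.Class.RS.class_iff.2 ⟨⟨A₀, hA₀⟩, fun C hC D hD =>
    Lib.Class.RS.exists_rc_of_conn (h1 C hC D hD)⟩
  obtain ⟨B₀, hB₀, h₀⟩ := Lib.Class.RS.exists_r1_of_conn (h1 A₀ hA₀ A₁ hA₁) hne.symm
  have hF := Lib.Class.RS.noiso_of_class hS hc hA₀ hB₀ h₀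
  have hN : ∀ N : Subgroup G, N.Normal → ∀ A ∈ S, A ≤ N → N = ⊤ := fun N hN A hA h => by
    rw [eq_top_iff, ← hS.generates]
    refine iSup₂_le fun C hC => ?_
    obtain ⟨g, rfl⟩ := hc.2 A hA C hC
    rintro _ ⟨a, ha, rfl⟩
    exact hN.conj_mem a (h ha) g
  have hP : Cfsg.IsDegenerateRootSet S → ∀ A ∈ S, ∀ B ∈ S, IsRankOnePair A B → ⁅A ⊔ B, A ⊔ B⁆ = A ⊔ B :=
    fun hd A hA B hB h => Lib.Class.sp_perfect (h4 A hA B ⟨hB, h⟩) (Lib.Class.RS.cm hS hA) (h3 hd A hA)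
  have hp : commutator G = ⊤ := by
    by_cases hd : Cfsg.IsDegenerateRootSet S
    · exact hN _ inferInstance A₀ hA₀ (le_sup_left.trans ((hP hd A₀ hA₀ B₀ hB₀ h₀).ge.trans
        (Subgroup.commutator_mono le_top le_top)))
    · obtain ⟨C, -, D, -, h⟩ := (Lib.Class.RS.nondeg_of_not_deg hS hd hA₀ hB₀ h₀).2.2
      exact hN _ inferInstance _ h.1 (Subgroup.commutator_mono le_top le_top)
  haveI : Nontrivial G := by
    obtain ⟨a, -, ha⟩ := Lib.Class.r1_exists h₀
    exact ⟨⟨a, 1, ha⟩⟩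
  refine ⟨fun A hA => by rw [hp, top_sup_eq, inf_top_eq]; exact ⟨rfl, hS.ne_bot A hA⟩, ?_, fun _ => hp, fun _ => hp⟩
  rw [hp, Lib.Trans.isQuasisimple_top_iff]
  refine Lib.Trans.isQuasisimple_of_forall_normal hp fun N hNn => ?_
  by_cases h : ∀ n ∈ N, ∀ A ∈ S, Lib.Class.rc A n = A
  · refine Or.inr fun n hn => Subgroup.mem_center_iff.2 (Lib.Class.RS.induction_gen hS (by rw [one_mul, mul_one])
      (fun x y hx hy => by rw [mul_assoc, hy, ← mul_assoc, hx, mul_assoc]) fun A hA a ha => ?_)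
    obtain ⟨B, hB, hAB⟩ := hF A hA
    exact (Lib.Class.comm_of_normalizes_unip hAB (fun C hC => h n hn C (Lib.Class.RS.unip_mem hS hA hC)) a
      (Subgroup.mem_sup_left ha)).symm
  left
  push Not at h
  obtain ⟨n, hn, A, hA, hAn⟩ := h
  have hC := Lib.Class.RS.rc_mem hS hA n
  have mem : ∀ {A D : Subgroup G}, D ∈ Cfsg.centralizingMembers S A ↔ D ∈ S ∧ Lib.Class.Cm D A := fun {A D} =>
    and_congr_right fun _ => Lib.Class.cm_iff_le.symm
  obtain ⟨D, hD, hDA, hDC⟩ : ∃ D ∈ S, Lib.Class.Cm D A ∧ ¬ Lib.Class.Cm D (Lib.Class.rc A n) := by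
    by_contra h
    push Not at h
    refine h2' A hA _ hC hAn.symm (Set.ext fun D => ?_)
    rw [mem, mem]
    exact and_congr_right fun hD => ⟨h D hD, Lib.Class.RS.centralizing_eq hS hc hA hC hAn.symm
      ⟨A₀, hA₀, B₀, hB₀, h₀⟩ h D hD⟩
  have key : ∀ {E D : Subgroup G} {n : G}, n ∈ N → Lib.Class.Cm E D → ⁅E, Lib.Class.rc D n⁆ ≤ N := by
    intro E D n hn h
    refine Lib.Class.commutator_le_of_kc fun e he c hc => ?_
    obtain ⟨d, hd, rfl⟩ := Lib.Class.exists_of_mem_rc hc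
    have : Lib.Class.kc e (n⁻¹ * d * n) =
        (e⁻¹ * n⁻¹ * e⁻¹⁻¹) * (e⁻¹ * d⁻¹ * n * (e⁻¹ * d⁻¹)⁻¹) * (Lib.Class.kc e d * (d⁻¹ * n⁻¹ * d⁻¹⁻¹)) * n := by
      rw [Lib.Class.kc, Lib.Class.kc]; group
    rw [this, Lib.Class.kc_eq_one.2 (h e he d hd), one_mul]
    exact N.mul_mem (N.mul_mem (N.mul_mem (hNn.conj_mem _ (N.inv_mem hn) _) (hNn.conj_mem _ hn _))
      (hNn.conj_mem _ (N.inv_mem hn) _)) hn
  have hle := key hn hDA
  rcases (Lib.Class.RS.tri hS hD hC).resolve_left hDC with h | h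
  swap
  · exact hN N hNn _ h.1 hle
  rcases Lib.Class.r1_normal h (N := N ⊓ (D ⊔ Lib.Class.rc A n)) inf_le_right (fun x hx m hm =>
      ⟨hNn.conj_mem m hm.1 x, Subgroup.mul_mem _ (Subgroup.mul_mem _ hx hm.2)
        (Subgroup.inv_mem _ hx)⟩) with ⟨m, hm, e⟩ | e
  swap
  · exact absurd h (Lib.Class.not_isRankOnePair_of_central (hS.ne_bot D hD) (hS.commutative _ hC)
      fun c hc => e c ⟨hle hc, Lib.Class.commutator_le_sup _ _ hc⟩)
  by_cases hd : Cfsg.IsDegenerateRootSet S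
  · refine hN N hNn D hD (le_sup_left.trans ((hP hd D hD _ hC h).ge.trans ?_))
    have h5 : D ⊔ Lib.Class.rc A n ≤ N ⊔ D := sup_le le_sup_right
      (e ▸ Lib.Class.rc_le_of_le le_sup_right (Subgroup.mem_sup_left hm.1))
    exact (Subgroup.commutator_mono h5 h5).trans (Lib.Class.commutator_sup_le_of_normalizer
      (Lib.Class.RS.cm hS hD) (by rw [Subgroup.normalizer_eq_top]; exact le_top))
  · obtain ⟨Q, hQ, h5, -⟩ := Lib.Class.RS.nd_exists_line hS hc (Lib.Class.RS.nondeg_of_not_deg hS hd hA₀ hB₀ h₀)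
      hD hC h
    refine hN N hNn _ h5.1 ?_
    rw [← e]
    exact key hm.1 (Lib.Class.cm_iff.1 hQ.1.2.2).symm

end Cfsg.Agent.S5033
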