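import Cfsg.Statements.S5035
import Mathlib
import Cfsg.Agent.Class.RootNilp

set_option autoImplicit false
open Cfsg

namespace Cfsg.Agent.S5035

/-- Let S be a set of abstract root subgroups of G whose graph of rank one pairs is connected, and f a homomorphism from G onto a group H. Then either the images of the members of S form a set of abstract root subgroups of H whose graph of rank one pairs is again connected, or H equals the image of a member of S. -/
theorem result {G H : Type*} [Group G] [Group H] {S : Set (Subgroup G)} (hS : Cfsg.IsRootSubgroupSet S)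
    (hc : Cfsg.IsConnectedFamily (Cfsg.FAdj S) S) (f : G →* H) (hf : Function.Surjective f) :
    (Cfsg.IsRootSubgroupSet ((fun A : Subgroup G => A.map f) '' S) ∧
      Cfsg.IsConnectedFamily (Cfsg.FAdj ((fun A : Subgroup G => A.map f) '' S)) ((fun A : Subgroup G => A.map f) '' S)) ∨
    ∃ A ∈ S, A.map f = ⊤ := by
  by_cases h0 : ∃ A ∈ S, A.map f = ⊥
  · obtain ⟨A, hA, h0⟩ := h0
    refine Or.inr ⟨A, hA, ?_⟩
    have : (⨆ A ∈ S, A) ≤ f.ker := iSup₂_le fun B hB => by
      obtain ⟨g, rfl⟩ := Lib.Class.RS.exists_rc_of_conn (hc A hA B hB)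
      rw [← Subgroup.map_eq_bot_iff, Lib.Class.rc, Lib.Class.map_conjBy, h0]
      exact Subgroup.map_bot _
    rw [hS.generates] at this
    refine eq_top_iff.2 fun x _ => ?_
    obtain ⟨y, rfl⟩ := hf x
    rw [MonoidHom.mem_ker.1 (this (Subgroup.mem_top y))]
    exact Subgroup.one_mem _
  push Not at h0
  have key : ∀ {A B : Subgroup G}, IsRankOnePair A B → A.map f = B.map f ∨ IsRankOnePair (A.map f) (B.map f) := by
    intro A B h
    rcases Lib.Class.r1_normal h (N := f.ker ⊓ (A ⊔ B)) inf_le_right (fun x hx n hn =>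
      ⟨(MonoidHom.normal_ker f).conj_mem n hn.1 x, Subgroup.mul_mem _ (Subgroup.mul_mem _ hx hn.2)
        (Subgroup.inv_mem _ hx)⟩) with ⟨n, hn, e⟩ | e
    · left
      rw [← e, Lib.Class.rc, Lib.Class.map_conjBy, map_inv, MonoidHom.mem_ker.1 hn.1, inv_one, Lib.Class.conjBy_one]
    · exact Or.inr (Lib.Class.r1_map h f fun n hn h1 => e n ⟨h1, hn⟩)
  refine Or.inl ⟨⟨?_, ?_, ?_, ?_, ?_⟩, ?_⟩
  · rintro _ ⟨A, hA, rfl⟩
    haveI := hS.commutative A hA
    infer_instance
  · rintro _ ⟨A, hA, rfl⟩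
    exact h0 A hA
  · rw [iSup_image, ← Subgroup.map_top_of_surjective f hf, ← hS.generates]
    simp only [Subgroup.map_iSup]
  · rintro _ ⟨A, hA, rfl⟩ g
    obtain ⟨g, rfl⟩ := hf g
    exact ⟨_, hS.conj_mem A hA g, Lib.Class.map_conjBy f A g⟩
  · rintro _ ⟨A, hA, rfl⟩ _ ⟨B, hB, rfl⟩
    beta_reduce
    rcases hS.pair A hA B hB with h | h | h
    · left
      rw [← Subgroup.map_commutator, h, Subgroup.map_bot]
    · rcases key h with e | e
      · left
        rw [← e, ← Subgroup.map_commutator, Lib.Class.cm_iff.2 (Lib.Class.RS.cm hS hA), Subgroup.map_bot]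
      · exact Or.inr (Or.inl e)
    · refine Or.inr (Or.inr ⟨⟨_, h.1, Subgroup.map_commutator _ _ _⟩, ?_, ?_, ?_⟩)
      · rw [← Subgroup.map_commutator, ← Subgroup.map_sup]
        rintro _ ⟨c, hc, rfl⟩ _ ⟨x, hx, rfl⟩
        rw [← map_mul, ← map_mul, h.2.1 c hc x hx]
      · rintro _ ⟨a, ha, rfl⟩ ha1
        rw [← Subgroup.map_commutator, ← Lib.Class.map_closure_comm_left,
          h.2.2.1 a ha fun e => ha1 (by rw [e, map_one])]
      · rintro _ ⟨a, ha, rfl⟩ ha1
        rw [← Subgroup.map_commutator, ← Lib.Class.map_closure_comm_right,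
          h.2.2.2 a ha fun e => ha1 (by rw [e, map_one])]
  · rintro _ ⟨A, hA, rfl⟩ _ ⟨B, hB, rfl⟩
    have := hc A hA B hB
    clear hB
    induction this with
    | refl => exact .refl
    | tail _ h ih =>
      rcases key h.2.2 with e | e
      · beta_reduce at ih ⊢
        rwa [← e]
      · exact ih.tail ⟨⟨_, h.1, rfl⟩, ⟨_, h.2.1, rfl⟩, e⟩

end Cfsg.Agent.S5035
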