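import Cfsg.Statements.S5036
import Mathlib
import Cfsg.Agent.Class.RootLines

set_option autoImplicit false
open Cfsg

namespace Cfsg.Agent.S5036

/-- Let S be a set of abstract root subgroups of G, A, B ∈ S with C = ⁅A, B⁆ ∈ S, and D ∈ S with ⁅D, C⁆ = A. Put X = ⟨B, D⟩ and N = AC. Then B, D form a rank one pair; the conjugates of A under X are the conjugates of C under X, namely the conjugates of A by elements of B together with C, equally the conjugates of C by elements of D together with A, and they partition N; and the centralizer of N in X is central in X. -/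
theorem result {G : Type*} [Group G] {S : Set (Subgroup G)} (hS : Cfsg.IsRootSubgroupSet S)
    {A B D : Subgroup G} (hA : A ∈ S) (hB : B ∈ S) (hC : ⁅A, B⁆ ∈ S) (hD : D ∈ S) (hDC : ⁅D, ⁅A, B⁆⁆ = A) :
    Cfsg.IsRankOnePair B D ∧
    {E | ∃ x ∈ B ⊔ D, E = Cfsg.conjBy A x} = {E | ∃ x ∈ B ⊔ D, E = Cfsg.conjBy ⁅A, B⁆ x} ∧
    {E | ∃ x ∈ B ⊔ D, E = Cfsg.conjBy A x} = (fun b : G => Cfsg.conjBy A b) '' (B : Set G) ∪ {⁅A, B⁆} ∧
    {E | ∃ x ∈ B ⊔ D, E = Cfsg.conjBy A x} = (fun d : G => Cfsg.conjBy ⁅A, B⁆ d) '' (D : Set G) ∪ {A} ∧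
    Cfsg.IsSubgroupPartition (A ⊔ ⁅A, B⁆) {E | ∃ x ∈ B ⊔ D, E = Cfsg.conjBy A x} ∧
    ∀ x ∈ (B ⊔ D) ⊓ Subgroup.centralizer ((A ⊔ ⁅A, B⁆ : Subgroup G) : Set G), ∀ y ∈ B ⊔ D, x * y = y * x := by
  have h1 := Lib.Class.RS.cc_of_mem hS hA hB hC
  have h2 := Lib.Class.rootCommutatorCase_symm (Lib.Class.RS.cc_of_mem hS hD hC (by rwa [hDC]))
  have h := Lib.Class.RS.r1_of_cc_cc hS hA hB hC hD hDC
  rw [Subgroup.commutator_comm] at hDC
  obtain ⟨C, hCe⟩ : ∃ C, ⁅A, B⁆ = C := ⟨_, rfl⟩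
  rw [hCe] at hC h2 hDC ⊢
  -- the situation is symmetric in `(A, B, C, D)` and `(C, D, A, B)`
  have key : ∀ {A B C D : Subgroup G}, RootCommutatorCase S A B → RootCommutatorCase S C D → ⁅A, B⁆ = C →
      ⁅C, D⁆ = A → IsRankOnePair D B →
      (∀ a ∈ A, ∀ b ∈ B, a * b = b * a → a = 1 ∨ b = 1) ∧
      ∀ d b, Lib.Class.RR D B d b → Lib.Class.rc A b ≤ Lib.Class.rc C d := by
    intro A B C D h1 h2 e1 e2 h
    have hAD : Lib.Class.Cm A D := e2 ▸ Lib.Class.cc_cm_right h2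
    have hinj : ∀ a ∈ A, (∀ b ∈ B, a * b = b * a) → a = 1 := fun a ha hb => by
      by_contra ha1
      obtain ⟨c, hc, hc1⟩ := Lib.Class.RS.exists_ne hS h1.1
      obtain ⟨b, hb', rfl⟩ := Lib.Class.cc_surj h1 ha ha1 hc
      exact hc1 (Lib.Class.kc_eq_one.2 (hb b hb'))
    refine ⟨fun a ha b hb e => ?_, fun d b r x hx => ?_⟩
    · by_contra hh
      push Not at hh
      refine hh.1 (hinj a ha fun b' hb' => Lib.Class.forall_sup_of (A := D) (B := Lib.Class.rc D b) (hAD a ha)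
        (fun y hy => ?_) b' ?_)
      · have := (hAD.rc b) _ (Lib.Class.conj_mem_rc ha b) y hy
        rwa [mul_assoc b⁻¹, e, inv_mul_cancel_left] at this
      · rw [Lib.Class.sup_rc_self (Lib.Class.r1_symm h) hb hh.2]
        exact Subgroup.mem_sup_left hb'
    · have h3 := (hAD.rc b).rc d⁻¹ _ (Lib.Class.conj_mem_rc hx d⁻¹)
      rw [r.eq, Lib.Class.rc_rc_inv] at h3
      have h4 : d⁻¹⁻¹ * x * d⁻¹ ∈ A ⊔ C := by
        have := Lib.Class.cc_rc_sup h2 (D.inv_mem r.mem_left)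
        rw [e2, sup_comm] at this
        rw [← this]
        exact Lib.Class.conj_mem_rc (e1 ▸ Lib.Class.cc_rc_le h1 r.mem_right hx) _
      obtain ⟨a, ha, c, hc, e⟩ := (e1 ▸ (Lib.Class.cc_cm_left h1).symm : Lib.Class.Cm A C).mem_sup.1 h4
      rw [← e] at h3
      have ha1 := hinj a ha fun b' hb' => by
        have := h3 b' hb'
        rwa [mul_assoc, (e1 ▸ Lib.Class.cc_cm_right h1 : Lib.Class.Cm C B) c hc b' hb', ← mul_assoc, ← mul_assoc,
          mul_left_inj] at this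
      rw [Lib.Class.mem_rc, ← inv_inv d, inv_inv d⁻¹, ← e, ha1, one_mul]
      exact hc
  obtain ⟨k1, k2⟩ := key h1 h2 hCe hDC h
  obtain ⟨k3, k4⟩ := key h2 h1 hDC hCe (Lib.Class.r1_symm h)
  have k5 : ∀ d b, Lib.Class.RR D B d b → Lib.Class.rc A b = Lib.Class.rc C d := fun d b r =>
    le_antisymm (k2 d b r) (k4 b d r.symm)
  have hAD : Lib.Class.Cm A D := hDC ▸ Lib.Class.cc_cm_right h2
  have hCB : Lib.Class.Cm C B := hCe ▸ Lib.Class.cc_cm_right h1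
  have t1 : ∀ E, (E = C ∨ ∃ b ∈ B, E = Lib.Class.rc A b) ↔ (E = A ∨ ∃ d ∈ D, E = Lib.Class.rc C d) := fun E => by
    constructor
    · rintro (e | ⟨b, hb, e⟩)
      · exact Or.inr ⟨1, D.one_mem, by rw [e, Lib.Class.rc_one]⟩
      · by_cases hb1 : b = 1
        · exact Or.inl (by rw [e, hb1, Lib.Class.rc_one])
        · obtain ⟨d, r⟩ := Lib.Class.exists_rr_left h hb hb1
          exact Or.inr ⟨d, r.mem_left, e.trans (k5 d b r)⟩
    · rintro (e | ⟨d, hd, e⟩)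
      · exact Or.inr ⟨1, B.one_mem, by rw [e, Lib.Class.rc_one]⟩
      · by_cases hd1 : d = 1
        · exact Or.inl (by rw [e, hd1, Lib.Class.rc_one])
        · obtain ⟨b, r⟩ := Lib.Class.exists_rr_right h hd hd1
          exact Or.inr ⟨b, r.mem_right, e.trans (k5 d b r).symm⟩
  have t2 : ∀ x ∈ B ⊔ D, ∀ E, (E = C ∨ ∃ b ∈ B, E = Lib.Class.rc A b) →
      (Lib.Class.rc E x = C ∨ ∃ b ∈ B, Lib.Class.rc E x = Lib.Class.rc A b) := by
    intro x hx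
    rw [Subgroup.sup_eq_closure] at hx
    have step : ∀ x ∈ (B : Set G) ∪ D, ∀ E, (E = C ∨ ∃ b ∈ B, E = Lib.Class.rc A b) →
        (Lib.Class.rc E x = C ∨ ∃ b ∈ B, Lib.Class.rc E x = Lib.Class.rc A b) := by
      rintro x (hx | hx) E hE
      · rcases hE with e | ⟨b, hb, e⟩
        · exact Or.inl (by rw [e, hCB.rc_eq hx])
        · exact Or.inr ⟨b * x, B.mul_mem hb hx, by rw [e, Lib.Class.rc_rc]⟩
      · rw [t1] at hE ⊢
        rcases hE with e | ⟨b, hb, e⟩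
        · exact Or.inl (by rw [e, hAD.rc_eq hx])
        · exact Or.inr ⟨b * x, D.mul_mem hb hx, by rw [e, Lib.Class.rc_rc]⟩
    induction hx using Subgroup.closure_induction'' with
    | mem x hx => exact step x hx
    | inv_mem x hx => exact step _ (hx.imp B.inv_mem D.inv_mem)
    | one => intro E hE; simpa using hE
    | mul x y _ _ hx hy => intro E hE; rw [← Lib.Class.rc_rc]; exact hy _ (hx E hE)
  obtain ⟨d₀, hd₀, hd₀1⟩ := Lib.Class.r1_exists h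
  obtain ⟨b₀, r₀⟩ := Lib.Class.exists_rr_right h hd₀ hd₀1
  have t3 : ∀ E, (∃ x ∈ B ⊔ D, E = conjBy A x) ↔ (E = C ∨ ∃ b ∈ B, E = Lib.Class.rc A b) := fun E => by
    constructor
    · rintro ⟨x, hx, rfl⟩
      rw [Lib.Class.conjBy_eq_rc]
      exact t2 _ (Subgroup.inv_mem _ hx) A (Or.inr ⟨1, B.one_mem, (Lib.Class.rc_one A).symm⟩)
    · rintro (e | ⟨b, hb, e⟩)
      · exact ⟨(b₀ * d₀⁻¹)⁻¹, Subgroup.inv_mem _ (Subgroup.mul_mem_sup r₀.mem_right (D.inv_mem hd₀)), by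
          rw [Lib.Class.rc_def, ← Lib.Class.rc_rc, k5 _ _ r₀, Lib.Class.rc_rc_inv, e]⟩
      · exact ⟨b⁻¹, Subgroup.mem_sup_left (B.inv_mem hb), e⟩
  have t4 : ∀ {A B C : Subgroup G} (E), (E = C ∨ ∃ b ∈ B, E = Lib.Class.rc A b) ↔
      E ∈ (fun b : G => Cfsg.conjBy A b) '' (B : Set G) ∪ {C} := fun {A B C} E => by
    rw [or_comm]
    exact or_congr ⟨fun ⟨b, hb, e⟩ => ⟨b⁻¹, B.inv_mem hb, e.symm⟩,
      fun ⟨b, hb, e⟩ => ⟨b⁻¹, B.inv_mem hb, e.symm.trans (Lib.Class.conjBy_eq_rc _ _)⟩⟩ Iff.rfl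
  have hAC : ∀ x ∈ A, x ∈ C → x = 1 := fun x hx hx' =>
    (k1 x hx b₀ r₀.mem_right (hCB x hx' b₀ r₀.mem_right)).resolve_right r₀.ne_right
  refine ⟨Lib.Class.r1_symm h, Set.ext fun E => ⟨?_, ?_⟩, Set.ext fun E => (t3 E).trans (t4 E),
    Set.ext fun E => ((t3 E).trans (t1 E)).trans (t4 E), ⟨fun E hE => ?_, fun x hx _ => ?_, fun E hE F hF hne => ?_⟩,
    fun x hx => ?_⟩
  · rintro ⟨x, hx, rfl⟩
    refine ⟨(d₀ * b₀⁻¹ * x⁻¹)⁻¹, Subgroup.inv_mem _ (Subgroup.mul_mem _ (Subgroup.mul_mem _ (Subgroup.mem_sup_right hd₀)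
      (Subgroup.mem_sup_left (B.inv_mem r₀.mem_right))) (Subgroup.inv_mem _ hx)), ?_⟩
    rw [Lib.Class.rc_def, ← Lib.Class.rc_rc, ← Lib.Class.rc_rc, ← k5 _ _ r₀, Lib.Class.rc_rc_inv,
      Lib.Class.conjBy_eq_rc]
  · rintro ⟨x, hx, rfl⟩
    rw [Set.mem_setOf_eq, t3, Lib.Class.conjBy_eq_rc]
    exact t2 _ (Subgroup.inv_mem _ hx) C (Or.inl rfl)
  · rcases (t3 E).1 hE with e | ⟨b, hb, e⟩
    · rw [e]; exact le_sup_right
    · rw [e, ← hCe]; exact Lib.Class.cc_rc_le h1 hb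
  · rcases Lib.Class.RS.cc_cover h1 (hCe ▸ hx) with e | ⟨b, hb, e⟩
    · exact ⟨C, (t3 C).2 (Or.inl rfl), hCe ▸ e⟩
    · exact ⟨_, (t3 _).2 (Or.inr ⟨b, hb, rfl⟩), e⟩
  · have hC' : ∀ b ∈ B, ∀ x ∈ Lib.Class.rc A b, x ∈ C → x = 1 := fun b hb x hx hx' => by
      obtain ⟨a, ha, rfl⟩ := Lib.Class.exists_of_mem_rc hx
      rw [← hCB.rc_eq hb, Lib.Class.mem_rc] at hx'
      rw [hAC a ha (by convert hx' using 1; group)]
      group
    refine (Subgroup.eq_bot_iff_forall _).2 fun x hx => ?_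
    rcases (t3 E).1 hE with rfl | ⟨b, hb, rfl⟩ <;> rcases (t3 F).1 hF with rfl | ⟨b', hb', rfl⟩
    · exact absurd rfl hne
    · exact hC' b' hb' x hx.2 hx.1
    · exact hC' b hb x hx.1 hx.2
    · obtain ⟨a, ha, rfl⟩ := Lib.Class.exists_of_mem_rc hx.1
      have h3 : (b * b'⁻¹)⁻¹ * a * (b * b'⁻¹) ∈ A := by
        convert Lib.Class.mem_rc.1 hx.2 using 1; group
      rw [← Lib.Class.mul_kc, A.mul_mem_cancel_left ha] at h3
      have hbb := B.mul_mem hb (B.inv_mem hb')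
      rcases k1 a ha _ hbb (Lib.Class.kc_eq_one.1 (hAC _ h3 (hCe ▸ Lib.Class.kc_mem ha hbb))) with e | e
      · rw [e]; group
      · exact absurd (by rw [mul_inv_eq_one.1 e]) hne
  · have hn : ∀ y ∈ B ⊔ D, ∀ n ∈ (B ⊔ D) ⊓ Subgroup.centralizer ((A ⊔ C : Subgroup G) : Set G),
        y * n * y⁻¹ ∈ (B ⊔ D) ⊓ Subgroup.centralizer ((A ⊔ C : Subgroup G) : Set G) := fun y hy n hn => by
      refine ⟨Subgroup.mul_mem _ (Subgroup.mul_mem _ hy hn.1) (Subgroup.inv_mem _ hy), ?_⟩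
      have h3 : y ∈ Subgroup.normalizer ((A ⊔ C : Subgroup G) : Set G) := by
        refine (sup_le (fun b hb => ?_) fun d hd => ?_ : B ⊔ D ≤ _) hy
        · rw [← Lib.Class.rc_eq_iff_mem_normalizer, ← hCe, Lib.Class.cc_rc_sup h1 hb]
        · rw [← Lib.Class.rc_eq_iff_mem_normalizer, sup_comm, ← hDC, Lib.Class.cc_rc_sup h2 hd]
      intro z hz
      have h4 := hn.2 _ ((Subgroup.mem_normalizer_iff''.1 h3 z).1 hz)
      calc z * (y * n * y⁻¹) = y * (y⁻¹ * z * y * n) * y⁻¹ := by group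
        _ = _ := by rw [h4]; group
    rcases Lib.Class.r1_normal (Lib.Class.r1_symm h) inf_le_left hn with ⟨n, hn, e⟩ | e
    · exfalso
      have h3 := hCB.rc n
      rw [e, Lib.Class.rc_eq_of_forall fun c hc => hn.2 c (Subgroup.mem_sup_right hc)] at h3
      exact Lib.Class.RS.not_cm_of_mem hS h2.1 h3
    · exact e x hx

end Cfsg.Agent.S5036
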