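import Cfsg.Statements.S5037
import Mathlib
import Cfsg.Agent.Class.RootLines

set_option autoImplicit false
open Cfsg

namespace Cfsg.Agent.S5037

/-- Let S be a class of abstract root subgroups of G that is either degenerate or non-degenerate (so either the commutator case never occurs, or all three cases occur), and A ≠ C members of S. If every member of S commuting with A commutes with C, then A and C have the same commuting members of S; and if every rank one partner of A is a rank one partner of C, then A and C commute and have the same rank one partners. -/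
theorem result {G : Type*} [Group G] {S : Set (Subgroup G)} (hS : Cfsg.IsRootSubgroupClass S)
    (hdn : Cfsg.IsDegenerateRootSet S ∨ Cfsg.IsNondegenerateRootSet S)
    {A C : Subgroup G} (hA : A ∈ S) (hC : C ∈ S) (hAC : A ≠ C) :
    (Cfsg.centralizingMembers S A ⊆ Cfsg.centralizingMembers S C →
      Cfsg.centralizingMembers S A = Cfsg.centralizingMembers S C) ∧
    (Cfsg.rankOnePartners S A ⊆ Cfsg.rankOnePartners S C →
      ⁅A, C⁆ = ⊥ ∧ Cfsg.rankOnePartners S A = Cfsg.rankOnePartners S C) := by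
  have mem : ∀ {A D : Subgroup G}, D ∈ Cfsg.centralizingMembers S A ↔ D ∈ S ∧ Lib.Class.Cm D A := fun {A D} =>
    and_congr_right fun _ => Lib.Class.cm_iff_le.symm
  by_cases hx : ∃ A ∈ S, ∃ B ∈ S, IsRankOnePair A B
  swap
  · have hd := hdn.resolve_right fun h => hx h.2.1
    have hc : ∀ A ∈ S, ∀ B ∈ S, Lib.Class.Cm A B := fun A hA B hB =>
      ((Lib.Class.RS.tri hS.1 hA hB).resolve_right fun h => h.elim (fun h => hx ⟨A, hA, B, hB, h⟩) (hd A hA B hB))
    refine ⟨fun h => h.antisymm fun D hD => mem.2 ⟨hD.1, hc D hD.1 A hA⟩, fun h =>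
      ⟨Lib.Class.cm_iff.2 (hc A hA C hC), h.antisymm fun D hD => absurd ⟨C, hC, D, hD.1, hD.2⟩ hx⟩⟩
  refine ⟨fun h => h.antisymm fun D hD => mem.2 ⟨hD.1, Lib.Class.RS.centralizing_eq hS.1 hS.2 hA hC hAC hx
    (fun D hD h1 => (mem.1 (h (mem.2 ⟨hD, h1⟩))).2) D hD.1 (mem.1 hD).2⟩, fun h => ?_⟩
  obtain ⟨A', hA', B', hB', h'⟩ := hx
  have hF := Lib.Class.RS.noiso_of_class hS.1 hS.2 hA' hB' h'
  obtain ⟨B, hB, hAB⟩ := hF A hA
  have hCB := (h ⟨hB, hAB⟩).2
  have hc : Lib.Class.Cm A C := by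
    rcases Lib.Class.RS.tri hS.1 hA hC with h1 | h1 | h1
    · exact h1
    · exact absurd rfl (h ⟨hC, h1⟩).2.ne
    exfalso
    have h1' := Lib.Class.rootCommutatorCase_symm h1
    have key : ∀ {A C : Subgroup G}, A ∈ S → RootCommutatorCase S A C → ∀ E ∈ S, IsRankOnePair ⁅A, C⁆ E →
        (∃ c ∈ C, IsRankOnePair A (Lib.Class.rc E c)) ∧ ∃ c ∈ C, ¬ IsRankOnePair A (Lib.Class.rc E c) := by
      intro A C hA h1 E hE h2
      obtain ⟨B, hB, hAB⟩ := hF A hA
      have h3 := Lib.Class.RS.cc_linePartner hS.1 hA hB hAB h1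
      obtain ⟨Q, hQ, k1, k2, k3⟩ := Lib.Class.RS.line_structure hS.1 h1.1 h3 hE h2
      have k4 := Lib.Class.RS.cc_not_r1 hS.1 hQ hE k1
      obtain ⟨c, hc, rfl⟩ := (Lib.Class.RS.cc_members hS.1 hA hB hAB h1 hQ
        (by rw [sup_comm, k3]; exact le_sup_right)).resolve_left fun e => k4 (e ▸ h2)
      refine ⟨?_, c⁻¹, C.inv_mem hc, fun h => k4 (by
        have := Lib.Class.r1_rc h c
        rwa [Lib.Class.rc_inv_rc] at this)⟩
      obtain ⟨c', hc', hc1⟩ : ∃ c' ∈ C, c' ≠ 1 := by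
        by_contra h
        push Not at h
        exact Lib.Class.RS.not_cm_of_mem hS.1 h1.1 fun a _ c hc => by rw [h c hc, mul_one, one_mul]
      have k5 := Lib.Class.RS.cc_of_mem hS.1 h1.1 k1.1 (by rwa [k2])
      obtain ⟨f, hf, e⟩ := (Lib.Class.RS.cc_members hS.1 h1.1 hE h2 k5 (Lib.Class.RS.rc_mem hS.1 hA (c' * c))
        (by rw [k2, ← k3, sup_comm]; exact Lib.Class.cc_rc_le h1 (C.mul_mem hc' hc))).resolve_left (by
          rw [k2, ← Lib.Class.rc_rc, Lib.Class.rc_inj]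
          exact Lib.Class.RS.cc_rc_ne hS.1 hA hB hAB h1 hc' hc1)
      refine ⟨(c' * c)⁻¹, C.inv_mem (C.mul_mem hc' hc), ?_⟩
      have := Lib.Class.r1_rc (Lib.Class.r1_rc h2 f) (c' * c)⁻¹
      rwa [← e, Lib.Class.rc_rc_inv, (Lib.Class.cc_cm_right k1).symm.rc_eq hf] at this
    obtain ⟨E, hE, h2⟩ := hF _ h1.1
    obtain ⟨c, hc, h3⟩ := (key hA h1 E hE h2).1
    have h4 := Lib.Class.r1_rc h2 c
    rw [(Lib.Class.cc_cm_right h1).rc_eq hc, Subgroup.commutator_comm] at h4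
    obtain ⟨a, ha, h5⟩ := (key hC h1' _ (Lib.Class.RS.rc_mem hS.1 hE c) h4).2
    have h6 := Lib.Class.r1_rc h3 a
    rw [Lib.Class.rc_of_mem ha] at h6
    exact h5 (h ⟨Lib.Class.RS.rc_mem hS.1 (Lib.Class.RS.rc_mem hS.1 hE c) a, h6⟩).2
  refine ⟨Lib.Class.cm_iff.2 hc, h.antisymm fun D hD => ⟨hD.1, ?_⟩⟩
  obtain ⟨g, e1, e2⟩ := Lib.Class.triple_swap hAB hCB (Lib.Class.RS.cm hS.1 hA) (Lib.Class.RS.cm hS.1 hC) hc hAC
  rw [← Lib.Class.rc_inv_rc D g, ← e2, Lib.Class.r1_rc_iff]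
  refine (h ⟨Lib.Class.RS.rc_mem hS.1 hD.1 _, ?_⟩).2
  rw [← Lib.Class.r1_rc_iff (g := g), Lib.Class.rc_inv_rc, e1]
  exact hD.2

end Cfsg.Agent.S5037
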