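import Cfsg.Statements.S5038
import Mathlib
import Cfsg.Agent.Class.RootLines

set_option autoImplicit false
open Cfsg

namespace Cfsg.Agent.S5038

/-- Let S be a set of abstract root subgroups of G in which every member has a rank one partner, A ∈ S and B a line partner of A. Then the subgroup generated by the members of S normalizing AB permutes the members of S inside AB doubly transitively by conjugation. -/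
theorem result {G : Type*} [Group G] {S : Set (Subgroup G)} (hS : Cfsg.IsRootSubgroupSet S)
    (hF : ∀ A ∈ S, ¬ Cfsg.IsIsolatedIn (Cfsg.FAdj S) S A) {A B : Subgroup G} (hA : A ∈ S) (hB : B ∈ Cfsg.linePartners S A) :
    ∀ C₁ ∈ Cfsg.membersIn S (A ⊔ B), ∀ C₂ ∈ Cfsg.membersIn S (A ⊔ B), ∀ D₁ ∈ Cfsg.membersIn S (A ⊔ B),
      ∀ D₂ ∈ Cfsg.membersIn S (A ⊔ B), C₁ ≠ C₂ → D₁ ≠ D₂ →
        ∃ x ∈ ⨆ E ∈ Cfsg.normalizingMembers S (A ⊔ B), E, Cfsg.conjBy C₁ x = D₁ ∧ Cfsg.conjBy C₂ x = D₂ := by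
  have hF' : ∀ A ∈ S, ∃ E ∈ S, IsRankOnePair A E := fun A hA => (Lib.Class.RS.not_isolated_iff hA).1 (hF A hA)
  set K := ⨆ E ∈ Cfsg.normalizingMembers S (A ⊔ B), E
  have key : ∀ P ∈ membersIn S (A ⊔ B), ∀ Q ∈ membersIn S (A ⊔ B), ∀ C ∈ membersIn S (A ⊔ B), P ≠ Q → C ≠ Q →
      ∃ f ∈ K, Lib.Class.rc (A ⊔ B) f = A ⊔ B ∧ Lib.Class.rc P f = C ∧ Lib.Class.rc Q f = Q := by
    intro P hP Q hQ C hC h1 h2
    obtain ⟨F, hF1, hF2, f, hf, e⟩ := Lib.Class.RS.line_move hS hF' hA hB hP.1 hP.2 hQ.1 hQ.2 hC.1 hC.2 h1 h2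
    exact ⟨f, (le_iSup₂_of_le F ⟨hF1, fun x hx => Lib.Class.rc_eq_iff_mem_normalizer.1 (hF2 x hx)⟩ le_rfl :
      F ≤ K) hf, hF2 f hf, e⟩
  intro C₁ hC₁ C₂ hC₂ D₁ hD₁ D₂ hD₂ hC hD
  have h1 : ∃ f ∈ K, Lib.Class.rc (A ⊔ B) f = A ⊔ B ∧ Lib.Class.rc C₁ f = D₁ := by
    by_cases e : C₁ = D₁
    · exact ⟨1, K.one_mem, Lib.Class.rc_one _, by rw [Lib.Class.rc_one, e]⟩
    obtain ⟨R, hR, hRN, h1, h2⟩ := Lib.Class.RS.line_third hS hF' hC₁.1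
      (Lib.Class.RS.line_partner hS hF' hA hB hC₁.1 hC₁.2 hD₁.1 hD₁.2 e)
    obtain ⟨f, hf, e1, e2, -⟩ := key C₁ hC₁ R ⟨hR, hRN.trans (sup_le hC₁.2 hD₁.2)⟩ D₁ hD₁ h1 h2
    exact ⟨f, hf, e1, e2⟩
  obtain ⟨f, hf, e1, rfl⟩ := h1
  obtain ⟨g, hg, -, e2, e3⟩ := key (Lib.Class.rc C₂ f) ⟨Lib.Class.RS.rc_mem hS hC₂.1 f,
    e1 ▸ Lib.Class.rc_mono hC₂.2 f⟩ _ hD₁ D₂ hD₂ (fun e => hC (Lib.Class.rc_inj.1 e).symm) hD.symm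
  refine ⟨(f * g)⁻¹, K.inv_mem (K.mul_mem hf hg), ?_, ?_⟩
  · rw [Lib.Class.rc_def, ← Lib.Class.rc_rc, e3]
  · rw [Lib.Class.rc_def, ← Lib.Class.rc_rc, e2]

end Cfsg.Agent.S5038
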