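import Cfsg.Statements.S5039
import Mathlib
import Cfsg.Agent.Class.RootSpecial

set_option autoImplicit false
universe u
open Cfsg

namespace Cfsg.Agent.S5039

/-- Let S be a class of abstract root subgroups of G containing two different commuting members. Suppose that, in case S is degenerate and every element of every member of S has order at most 3, the following holds: for every A ∈ S and every rank one partner B of A there are subgroups A₀ ≤ A and B₀ ≤ B generating an image of SL₂(k) with central kernel, k a field with at least four elements, A₀ and B₀ being the images of the unitriangular subgroups. Then every rank one pair A, B in S is special. -/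
theorem result {G : Type u} [Group G] {S : Set (Subgroup G)} (hS : Cfsg.IsRootSubgroupClass S)
    (hcomm : ∃ A ∈ S, ∃ C ∈ S, A ≠ C ∧ ⁅A, C⁆ = ⊥)
    (hH : Cfsg.IsDegenerateRootSet S → (∀ A ∈ S, ∀ a ∈ A, 0 < orderOf a ∧ orderOf a ≤ 3) →
      ∀ A ∈ S, ∀ B ∈ Cfsg.rankOnePartners S A, ∃ A₀ B₀ : Subgroup G, A₀ ≤ A ∧ B₀ ≤ B ∧
        ∃ (k : Type u) (_ : Field k), 3 < ENat.card k ∧ Cfsg.IsPSL2PairOver k A₀ B₀)
    {A B : Subgroup G} (hA : A ∈ S) (hB : B ∈ Cfsg.rankOnePartners S A) : Cfsg.IsSpecialRankOnePair A B := by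
  by_cases hd : Cfsg.IsDegenerateRootSet S
  swap
  · exact Lib.Class.RS.nd_special hS.1 hS.2 (Lib.Class.RS.nondeg_of_not_deg hS.1 hd hA hB.1 hB.2) hA hB.1 hB.2
  by_cases hs : Lib.Class.RSim S B A
  swap
  · obtain ⟨E, hE, h⟩ := Lib.Class.RS.exists_triple hS.1 hd hA hB.1 hB.2 hs
    exact Lib.Class.TriCfg.special ⟨hS.1, hd, hA, hB.1, hE, hB.2, h, hs⟩
  exfalso
  obtain ⟨P, E, c⟩ := Lib.Class.RS.exists_triCfg hS.1 hd hS.2 hcomm hA hB.1 hB.2
  have h1 : ∀ a ∈ A, 0 < orderOf a ∧ orderOf a ≤ 3 := fun a ha => by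
    by_cases h2 : a ^ 2 = 1
    · exact ⟨(isOfFinOrder_iff_pow_eq_one.2 ⟨2, two_pos, h2⟩).orderOf_pos,
        (orderOf_le_of_pow_eq_one two_pos h2).trans (by norm_num)⟩
    · have h3 := c.pow_three hB.1 hs.symm hB.2.ne ha h2
      exact ⟨(isOfFinOrder_iff_pow_eq_one.2 ⟨3, three_pos, h3⟩).orderOf_pos, orderOf_le_of_pow_eq_one three_pos h3⟩
  obtain ⟨A₀, B₀, hA₀, hB₀, k, _, hk, φ, e1, e2, e3, e4⟩ := hH hd (fun C hC x hx => by
    obtain ⟨g, rfl⟩ := hS.2.2 A hA C hC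
    obtain ⟨a, ha, rfl⟩ := hx
    have := h1 a ha
    rwa [← (MulAut.conj g).orderOf_eq] at this) A hA B hB
  obtain ⟨⟨hT, h2⟩, h3, h4, -⟩ := Cfsg.Agent.S5016.result k
  have h5 : 3 < ENat.card (lowerUnipotentSL2 k) := hk.trans_le (ENat.card_le_card_of_injective
    (f := fun t : k => (⟨Lib.Class.slV t, Lib.Class.mem_lowerUnipotentSL2.2 ⟨t, rfl⟩⟩ : lowerUnipotentSL2 k))
    fun t u e => by simpa [Lib.Class.slV] using congrArg (fun g : lowerUnipotentSL2 k => g.1.1 1 0) e)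
  have h6 := Lib.Class.sp_perfect h3 (Lib.Class.cm_self h4) h5
  refine Lib.Class.r1_not_cm h2 fun x _ y hy => Subgroup.mem_center_iff.1 (e2 ?_) x
  refine c.inf_commutator hB.1 hs.symm (hA₀ (e3 ▸ ⟨y, hy, rfl⟩)) ?_
  have h7 : y ∈ ⁅lowerUnipotentSL2 k ⊔ upperUnipotentSL2 k, lowerUnipotentSL2 k ⊔ upperUnipotentSL2 k⁆ := by
    rw [h6]; exact Subgroup.mem_sup_right hy
  have h8 := Subgroup.mem_map_of_mem φ h7
  rw [Subgroup.map_commutator, Subgroup.map_sup, e3, e4] at h8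
  have h9 : B₀ ⊔ A₀ ≤ A ⊔ B := sup_le (hB₀.trans le_sup_right) (hA₀.trans le_sup_left)
  exact Subgroup.commutator_mono h9 h9 h8

end Cfsg.Agent.S5039
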