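import Cfsg.Statements.S5040
import Mathlib
import Cfsg.Agent.Class.RootLines

set_option autoImplicit false
open Cfsg

namespace Cfsg.Agent.S5040

/-- Let S be a non-degenerate class of abstract root subgroups of G and Δ a weak TI-subset of S. Then the members of Δ commute with one another elementwise. -/
theorem result {G : Type*} [Group G] {S : Set (Subgroup G)} (hS : Cfsg.IsRootSubgroupClass S) (hnd : Cfsg.IsNondegenerateRootSet S)
    {Δ : Set (Subgroup G)} (hΔ : Cfsg.IsWeakTISubset S Δ) : Cfsg.IsAbelianFamily Δ := by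
  obtain ⟨hsub, -, hne, hti⟩ := hΔ
  have hF := Lib.Class.RS.nd_noiso hS.1 hS.2 hnd
  let H : Subgroup G :=
    { carrier := {g | ∀ A, Lib.Class.rc A g ∈ Δ ↔ A ∈ Δ}
      mul_mem' := fun {x y} hx hy A => by rw [← Lib.Class.rc_rc, hy, hx]
      one_mem' := fun A => by rw [Lib.Class.rc_one]
      inv_mem' := fun {x} hx A => by rw [← hx, Lib.Class.rc_inv_rc] }
  have hH : ∀ A ∈ Δ, ∀ C ∈ S, Lib.Class.Cm A C → C ≤ H := fun A hA C hC h c hc => by
    by_cases hc1 : c = 1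
    · rw [hc1]; exact H.one_mem
    rcases hti c⁻¹ ⟨inv_ne_one.2 hc1, C, hC, C.inv_mem hc⟩ with e | e
    · intro D
      constructor
      · intro hD
        obtain ⟨D', hD', e'⟩ := e.symm ▸ hD
        rwa [← Lib.Class.rc_inj.1 e']
      · intro hD
        exact e ▸ ⟨D, hD, rfl⟩
    · exact absurd hA (Set.disjoint_left.1 e ⟨A, hA, h.rc_eq hc⟩)
  have key : ∀ A ∈ Δ, ∀ B ∈ Δ, ¬ IsRankOnePair A B := fun A hA B hB h => by
    have := Lib.Class.RS.nd_generate hS.1 hS.2 hnd (hsub hA) (hsub hB) h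
      (fun C hC => hH A hA C hC.1.1 (Lib.Class.cm_iff.1 hC.1.2.2)) (hH B hB B (hsub hB) (Lib.Class.RS.cm hS.1 (hsub hB)))
    refine hne (hsub.antisymm fun C hC => ?_)
    obtain ⟨g, rfl⟩ := (Lib.Class.RS.class_iff.1 hS.2).2 A (hsub hA) C hC
    exact ((this ▸ Subgroup.mem_top g : g ∈ H) A).2 hA
  intro A hA B hB
  rcases Lib.Class.RS.tri hS.1 (hsub hA) (hsub hB) with h | h | h
  · exact h
  · exact absurd h (key A hA B hB)
  exfalso
  obtain ⟨E, hE, hAE⟩ := hF A (hsub hA)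
  obtain ⟨F, hF', e⟩ := Lib.Class.RS.exists_commutator_eq hS.1 hF h.1
    (Lib.Class.RS.cc_linePartner hS.1 (hsub hA) hE hAE h)
  have h1 := Lib.Class.RS.r1_of_cc_cc hS.1 (hsub hA) (hsub hB) h.1 hF' (by rwa [Subgroup.commutator_comm])
  have h2 := Lib.Class.cc_cm_right (Lib.Class.RS.cc_of_mem hS.1 h.1 hF' (by rw [e]; exact hsub hA))
  rw [e] at h2
  obtain ⟨f, hf, hf1⟩ := Lib.Class.r1_exists h1
  exact key B hB _ ((hH A hA F hF' h2 hf B).2 hB) (Lib.Class.r1_rc_self h1 hf hf1)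

end Cfsg.Agent.S5040
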