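import Cfsg.Statements.S5043
import Cfsg.Agent.Class.RootSL

set_option autoImplicit false
open Matrix
open Cfsg

namespace Cfsg.Agent.S5043

open Cfsg.Lib.Class

theorem closure_eq (k : Type*) [Field k] (n : ℕ) :
    Subgroup.closure {t : Matrix.SpecialLinearGroup (Fin (n + 3)) k |
      ∃ c : k, (t : Matrix (Fin (n + 3)) (Fin (n + 3)) k) = Matrix.transvection 0 1 c} =
    rootSub (Pi.single 0 1) (Pi.single 1 1) (by simp) := by
  rw [← Subgroup.closure_eq (rootSub _ _ _)]
  congr 1
  ext t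
  refine exists_congr fun c => ?_
  have e : tvS (Pi.single 0 1) (c • Pi.single 1 1) =
      Matrix.SpecialLinearGroup.transvection (zero_ne_one : (0 : Fin (n + 3)) ≠ 1) c := by
    rw [transvection_eq_tvS, ← tvS_smul_left _ (by simp), ← Pi.single_smul, smul_eq_mul, mul_one]
  rw [e]
  exact ⟨fun h => Subtype.ext h, fun h => by rw [h]; rfl⟩

theorem set_eq (k : Type*) [Field k] (n : ℕ) :
    {A : Subgroup (Matrix.SpecialLinearGroup (Fin (n + 3)) k) |
        ∃ g : Matrix.SpecialLinearGroup (Fin (n + 3)) k,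
          A = Cfsg.conjBy (Subgroup.closure {t : Matrix.SpecialLinearGroup (Fin (n + 3)) k |
            ∃ c : k, (t : Matrix (Fin (n + 3)) (Fin (n + 3)) k) = Matrix.transvection 0 1 c}) g} =
      rootClass (Fin (n + 3)) k := by
  rw [closure_eq]
  ext A
  constructor
  · rintro ⟨g, rfl⟩
    exact isRootSubgroupSet_rootClass.conj_mem _ ⟨_, _, _, by simp, by simp, rfl⟩ g
  · rintro ⟨v, f, h, hv, hf, rfl⟩
    exact exists_conjBy_rootSub (by simp) (by simp) (by simp) hv hf _ h

/-- Let k be a field and n a natural number. In SL_{n+3}(k) (so in every dimension at least 3) the conjugates of the root subgroup of elementary transvections 1 + c E₁₂ (c ∈ k) — that is, the groups of transvections attached to an incident point–hyperplane pair — form a non-degenerate class of abstract k-root subgroups of SL_{n+3}(k) whose graph of rank one pairs is connected. -/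
theorem result (k : Type*) [Field k] (n : ℕ) :
    Cfsg.IsRootSubgroupClass {A : Subgroup (Matrix.SpecialLinearGroup (Fin (n + 3)) k) |
        ∃ g : Matrix.SpecialLinearGroup (Fin (n + 3)) k,
          A = Cfsg.conjBy (Subgroup.closure {t : Matrix.SpecialLinearGroup (Fin (n + 3)) k |
            ∃ c : k, (t : Matrix (Fin (n + 3)) (Fin (n + 3)) k) = Matrix.transvection 0 1 c}) g} ∧
    Cfsg.IsNondegenerateRootSet {A : Subgroup (Matrix.SpecialLinearGroup (Fin (n + 3)) k) |
        ∃ g : Matrix.SpecialLinearGroup (Fin (n + 3)) k,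
          A = Cfsg.conjBy (Subgroup.closure {t : Matrix.SpecialLinearGroup (Fin (n + 3)) k |
            ∃ c : k, (t : Matrix (Fin (n + 3)) (Fin (n + 3)) k) = Matrix.transvection 0 1 c}) g} ∧
    Cfsg.IsKRootSubgroupSet k {A : Subgroup (Matrix.SpecialLinearGroup (Fin (n + 3)) k) |
        ∃ g : Matrix.SpecialLinearGroup (Fin (n + 3)) k,
          A = Cfsg.conjBy (Subgroup.closure {t : Matrix.SpecialLinearGroup (Fin (n + 3)) k |
            ∃ c : k, (t : Matrix (Fin (n + 3)) (Fin (n + 3)) k) = Matrix.transvection 0 1 c}) g} ∧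
    Cfsg.IsConnectedFamily (Cfsg.FAdj {A : Subgroup (Matrix.SpecialLinearGroup (Fin (n + 3)) k) |
        ∃ g : Matrix.SpecialLinearGroup (Fin (n + 3)) k,
          A = Cfsg.conjBy (Subgroup.closure {t : Matrix.SpecialLinearGroup (Fin (n + 3)) k |
            ∃ c : k, (t : Matrix (Fin (n + 3)) (Fin (n + 3)) k) = Matrix.transvection 0 1 c}) g})
      {A : Subgroup (Matrix.SpecialLinearGroup (Fin (n + 3)) k) |
        ∃ g : Matrix.SpecialLinearGroup (Fin (n + 3)) k,
          A = Cfsg.conjBy (Subgroup.closure {t : Matrix.SpecialLinearGroup (Fin (n + 3)) k |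
            ∃ c : k, (t : Matrix (Fin (n + 3)) (Fin (n + 3)) k) = Matrix.transvection 0 1 c}) g} := by
  rw [set_eq]
  have h02 : (0 : Fin (n + 3)) ≠ 2 := by
    simp [Fin.ext_iff, Nat.mod_eq_of_lt (show 2 < n + 3 by omega)]
  have h12 : (1 : Fin (n + 3)) ≠ 2 := by
    simp [Fin.ext_iff, Nat.mod_eq_of_lt (show 2 < n + 3 by omega)]
  have m : ∀ i j : Fin (n + 3), ∀ h, rootSub (Pi.single i (1 : k)) (Pi.single j 1) h ∈
      rootClass (Fin (n + 3)) k := fun i j h => ⟨_, _, h, by simp, by simp, rfl⟩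
  refine ⟨⟨isRootSubgroupSet_rootClass, ⟨_, m 0 1 (by simp)⟩, ?_⟩, ⟨?_, ?_, ?_⟩,
    isKRootSubgroupSet_rootClass, isConnectedFamily_rootClass⟩
  · rintro _ ⟨v, f, hf, hv, hf0, rfl⟩ _ ⟨w, g, hg, hw, hg0, rfl⟩
    exact exists_conjBy_rootSub (by simp) hv hf0 hw hg0 hf hg
  · refine ⟨_, m 0 1 (by simp), _, m 0 2 (by simp [h02.symm]), fun e => ?_,
      commutator_rootSub_eq_bot _ _ (by simp) (by simp [h02.symm])⟩
    obtain ⟨c, hc⟩ := e.le (tvS_mem_rootSub _)
    have := congrArg (fun t : Matrix.SpecialLinearGroup (Fin (n + 3)) k ↦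
      (t : Matrix (Fin (n + 3)) (Fin (n + 3)) k) *ᵥ (Pi.single 1 1)) hc
    rw [tvS_mulVec (by simp), tvS_mulVec (by simp [h02.symm])] at this
    simp [h12.symm] at this
  · exact ⟨_, m 0 1 (by simp), _, m 1 0 (by simp), isRankOnePair_rootSub _ _ (by simp) (by simp)⟩
  · exact ⟨_, m 0 1 (by simp), _, m 1 2 (by simp [h12.symm]),
      rootCommutatorCase_rootSub _ _ (by simp) (by simp [h02.symm]) (m 0 2 _)⟩

end Cfsg.Agent.S5043
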