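import Cfsg.Statements.S5045
import Mathlib
import Cfsg.Agent.Class.RootInvCls

set_option autoImplicit false
open Cfsg

namespace Cfsg.Agent.S5045

/-- Let G be a finite group generated by a set D of root involutions, and W the set of members of D whose product with every other member of D has even order or is trivial (the isolated vertices of the odd-order-product graph on D). Then W is conjugation-invariant and generates a normal 2-subgroup of G meeting D in exactly W; the commutator of two members of D lying in different connected components of that graph, each with more than one member, lies in the subgroup generated by W; and for a in such a component, every member of D commuting with a, different from a and with product with a in D, lies in that component or in W. -/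
theorem result {G : Type*} [Group G] [Finite G] {D : Set G} (hD : Cfsg.IsRootInvolutionSet D) :
    (∀ w ∈ {w | Cfsg.IsIsolatedElem (Cfsg.OddAdj D) D w}, ∀ g : G, g * w * g⁻¹ ∈ {w | Cfsg.IsIsolatedElem (Cfsg.OddAdj D) D w}) ∧
    (Subgroup.closure {w | Cfsg.IsIsolatedElem (Cfsg.OddAdj D) D w}).Normal ∧
    IsPGroup 2 ↥(Subgroup.closure {w | Cfsg.IsIsolatedElem (Cfsg.OddAdj D) D w}) ∧
    (Subgroup.closure {w | Cfsg.IsIsolatedElem (Cfsg.OddAdj D) D w} : Set G) ∩ D = {w | Cfsg.IsIsolatedElem (Cfsg.OddAdj D) D w} ∧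
    (∀ a ∈ D, ∀ b ∈ D, (∃ a' ∈ Cfsg.elemComponentOf (Cfsg.OddAdj D) D a, a' ≠ a) →
      (∃ b' ∈ Cfsg.elemComponentOf (Cfsg.OddAdj D) D b, b' ≠ b) →
      Cfsg.elemComponentOf (Cfsg.OddAdj D) D a ≠ Cfsg.elemComponentOf (Cfsg.OddAdj D) D b →
        a * b * a⁻¹ * b⁻¹ ∈ Subgroup.closure {w | Cfsg.IsIsolatedElem (Cfsg.OddAdj D) D w}) ∧
    (∀ a ∈ D, (∃ a' ∈ Cfsg.elemComponentOf (Cfsg.OddAdj D) D a, a' ≠ a) →
      Cfsg.productPartners D a ⊆ Cfsg.elemComponentOf (Cfsg.OddAdj D) D a ∪ {w | Cfsg.IsIsolatedElem (Cfsg.OddAdj D) D w}) := by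
  have hR := Lib.Class.RI.rt_of hD
  have h1 : ∀ w ∈ {w | Cfsg.IsIsolatedElem (Cfsg.OddAdj D) D w}, ∀ g : G,
      g * w * g⁻¹ ∈ {w | Cfsg.IsIsolatedElem (Cfsg.OddAdj D) D w} := by
    intro w hw g
    obtain ⟨hw1, hw2⟩ := Lib.Class.RI.isolated_iff.1 hw
    refine Lib.Class.RI.isolated_iff.2 ⟨hD.conj_mem w hw1 g, fun b hb o => ?_⟩
    refine hw2 _ (hD.conj_mem b hb g⁻¹) ?_
    simpa [mul_assoc] using o.cj g⁻¹
  have h2 := Lib.Class.RI.normal_closure_of_conj h1
  have h3 : IsPGroup 2 ↥(Subgroup.closure {w | Cfsg.IsIsolatedElem (Cfsg.OddAdj D) D w}) := by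
    refine hR.isPGroup_closure (fun w hw => hw.1) (fun a ha b hb => ?_) fun a ha b hb => ?_
    · have := h1 a ha b
      rwa [hR.inv hb.1] at this
    · exact (Lib.Class.RI.isolated_iff.1 ha).2 b hb.1
  have h6 : ∀ a ∈ D, (∃ a' ∈ Cfsg.elemComponentOf (Cfsg.OddAdj D) D a, a' ≠ a) → ∀ w,
      Lib.Class.RI.Ln D a w → Lib.Class.RI.Cn D a w ∨ Cfsg.IsIsolatedElem (Cfsg.OddAdj D) D w := by
    rintro a ha ⟨a', ha', hne⟩ w l
    by_cases hw : ∃ y ∈ D, Lib.Class.RI.Op w y
    · exact Or.inl (hR.cn_of_ln l (Lib.Class.RI.Cn.exists_op ha'.2 hne) hw)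
    · push Not at hw
      exact Or.inr (Lib.Class.RI.isolated_iff.2 ⟨l.r, hw⟩)
  refine ⟨h1, h2, h3, ?_, ?_, ?_⟩
  · ext d
    refine ⟨fun hd => Lib.Class.RI.isolated_iff.2 ⟨hd.2, fun b hb => ?_⟩,
      fun hd => ⟨Subgroup.subset_closure hd, hd.1⟩⟩
    refine Lib.Class.RI.not_op_of_mem_normal h3 hd.1 ?_ (hR.sq d hd.2)
    have := h2.conj_mem d hd.1 b
    rwa [hR.inv hb] at this
  · intro a ha b hb na nb hne
    have hcn : ¬ Lib.Class.RI.Cn D a b := fun c => hne (Set.ext fun x =>
      and_congr_right fun _ => ⟨fun h => Lib.Class.RI.Cn.trans c.symm h,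
        fun h => Lib.Class.RI.Cn.trans c h⟩)
    rw [hR.inv ha, hR.inv hb]
    rcases hR.tri ha hb with c | c | c
    · have := (Lib.Class.RI.cm_eq_one_iff (hR.sq a ha) (hR.sq b hb)).2 c
      rw [Lib.Class.RI.cm] at this
      rw [this]; exact one_mem _
    · exact absurd (Lib.Class.RI.Cn.single ha hb c) hcn
    · refine Subgroup.subset_closure ?_
      rcases h6 a ha na _ (hR.ln_cm ha hb c) with c1 | c1
      · rcases h6 b hb nb _ (hR.ln_cm' ha hb c) with c2 | c2
        · exact absurd (c1.trans c2.symm) hcn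
        · exact c2
      · exact c1
  · intro a ha na w hw
    have l := (Lib.Class.RI.mem_productPartners ha).1 hw
    exact (h6 a ha na w l).imp (fun c => ⟨l.r, c⟩) id

end Cfsg.Agent.S5045
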