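import Cfsg.Statements.S5046
import Mathlib
import Cfsg.Agent.Class.RootInvCls

set_option autoImplicit false
open Cfsg

namespace Cfsg.Agent.S5046

/-- Let G be a finite group generated by a set D of root involutions whose odd-order-product graph is connected, and d ∈ D. Then the members e of D with the same commuting members as d are exactly those for which the union of the commuting members of d and the members whose product with d has order 4 equals the corresponding union for e. -/
theorem result {G : Type*} [Group G] [Finite G] {D : Set G} (hD : Cfsg.IsRootInvolutionSet D)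
    (hc : Cfsg.IsConnectedSet (Cfsg.OddAdj D) D) {d : G} (hd : d ∈ D) :
    Cfsg.sameCommutingClass D d =
      {e | e ∈ D ∧ Cfsg.commutingMembers D d ∪ Cfsg.fourPartners D d = Cfsg.commutingMembers D e ∪ Cfsg.fourPartners D e} := by
  have hR := Lib.Class.RI.rt_of hD
  have hcl := hR.cls_of_conn hc
  have key : ∀ a ∈ D, ∀ x, x ∈ Cfsg.commutingMembers D a ∪ Cfsg.fourPartners D a ↔
      x ∈ D ∧ ¬ Lib.Class.RI.Op a x := by
    intro a ha x
    constructor
    · rintro (h | h)
      · exact ⟨h.1, fun o => hR.nc ha h.1 o (Eq.symm h.2)⟩
      · exact ⟨h.1, Lib.Class.RI.Fr.not_op h.2⟩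
    · rintro ⟨hx, h⟩
      rcases hR.tri ha hx with c | c | c
      exacts [Or.inl ⟨hx, c.symm.eq⟩, absurd c h, Or.inr ⟨hx, c⟩]
  ext e
  rw [Lib.Class.RI.mem_sameCommutingClass]
  refine and_congr_right fun he => ⟨fun s => ?_, fun s => ?_⟩
  · ext x
    rw [key d hd, key e he]
    exact and_congr_right fun hx => not_congr (hR.sameA_of_sameC hd he s x hx)
  · refine hR.sameC_of_sameA hcl hd he fun x hx => ?_
    have := Set.ext_iff.1 s x
    rw [key d hd, key e he] at this
    simp only [hx, true_and] at this
    exact not_iff_not.1 this

end Cfsg.Agent.S5046
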