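import Cfsg.Statements.S5047
import Mathlib
import Cfsg.Agent.Class.RootInvCls

set_option autoImplicit false
open Cfsg

namespace Cfsg.Agent.S5047

/-- Let G be a finite group generated by a set D of root involutions whose odd-order-product graph is connected, a ∈ D, and b a member of D different from a, commuting with a, with ab ∈ D, but not having the same commuting members as a. Then some member x of D with bx of order 4 has ax of order 3. -/
theorem result {G : Type*} [Group G] [Finite G] {D : Set G} (hD : Cfsg.IsRootInvolutionSet D)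
    (hc : Cfsg.IsConnectedSet (Cfsg.OddAdj D) D) {a b : G} (ha : a ∈ D) (hb : b ∈ Cfsg.productPartners D a)
    (hbE : b ∉ Cfsg.sameCommutingClass D a) : ∃ x ∈ Cfsg.fourPartners D b, orderOf (a * x) = 3 := by
  have hR := Lib.Class.RI.rt_of hD
  have l := (Lib.Class.RI.mem_productPartners ha).1 hb
  obtain ⟨u, -, x, hx, -, -, fx, -, o, h3⟩ := hR.exists_s4 (hR.cls_of_conn hc) l
    fun s => hbE (Lib.Class.RI.mem_sameCommutingClass.2 ⟨l.r, s⟩)
  haveI : Fact (Nat.Prime 3) := ⟨Nat.prime_three⟩
  exact ⟨x, ⟨hx, fx⟩, orderOf_eq_prime h3 (o.mul_ne_one (hR.sq a ha))⟩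

end Cfsg.Agent.S5047
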