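import Cfsg.Statements.S5048
import Mathlib
import Cfsg.Agent.Class.RootInvNorm

set_option autoImplicit false
open Cfsg

namespace Cfsg.Agent.S5048

/-- Let G be a finite group generated by a set D of root involutions whose odd-order-product graph is connected, with some product of two different commuting members of D again in D. Then the largest solvable normal subgroup of G is the preimage of the centre of G/O₂(G), and the quotient of G by it is a simple group. -/
theorem result {G : Type*} [Group G] [Finite G] {D : Set G} (hD : Cfsg.IsRootInvolutionSet D)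
    (hc : Cfsg.IsConnectedSet (Cfsg.OddAdj D) D) (hDD : (D ∩ Cfsg.commutingProducts D).Nonempty) :
    Cfsg.solvableRadical G = Cfsg.twoZCore G ∧ IsSimpleGroup (G ⧸ Cfsg.twoZCore G) := by
  have hR := Lib.Class.RI.rt_of hD
  have hcl := hR.cls_of_conn hc
  obtain ⟨a, w, l⟩ := hR.exists_ln hDD
  refine ⟨le_antisymm (sSup_le fun N hN => ?_) (le_sSup ⟨inferInstance,
    Lib.Class.RI.isSolvable_twoZCore⟩), hR.isSimpleGroup_quot hD.generates hcl l⟩
  haveI := hN.1
  exact hR.le_twoZCore hD.generates hcl l (hR.ne_top_of_isSolvable hD.generates hcl l hN.2)

end Cfsg.Agent.S5048
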