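import Cfsg.Statements.S5049
import Mathlib
import Cfsg.Agent.Class.RootInvNorm

set_option autoImplicit false
open Cfsg

namespace Cfsg.Agent.S5049

/-- Let G be a finite group generated by a set D of odd transpositions (root involutions with no product of order 4), Q = O₂(G), and for a ∈ D let Q_a be the commutator subgroup of Q with a. Then every member of D commuting with a centralizes Q_a; and for b ∈ D with ab of odd order greater than 1, the centralizer of ab in Q is the intersection of the centralizers of a and b in Q. -/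
theorem result {G : Type*} [Group G] [Finite G] {D : Set G} (hD : Cfsg.IsOddTranspositionSet D) {a : G} (ha : a ∈ D) :
    (∀ e ∈ Cfsg.commutingMembers D a, ∀ q ∈ ⁅Cfsg.pCore 2 G, Subgroup.zpowers a⁆, e * q = q * e) ∧
    (∀ b ∈ Cfsg.oddPartners D a,
      Cfsg.pCore 2 G ⊓ Subgroup.centralizer {a * b} = Cfsg.pCore 2 G ⊓ Subgroup.centralizer {a} ⊓ Subgroup.centralizer {b}) := by
  have hR := Lib.Class.RI.rt_of hD.1
  have hp := Lib.Solv.pCore_isPGroup 2 G
  have hN := Cfsg.pCore_normal 2 G
  have key : ∀ e ∈ D, Commute e a → ∀ q ∈ Cfsg.pCore 2 G, Commute e (q * a * q⁻¹) := by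
    intro e he c q hq
    have hm := hD.1.conj_mem a ha q
    refine hR.commute_of he hm (fun o => ?_) (hD.2 e he _ hm)
    have h1 : a * q * a * q⁻¹ ∈ Cfsg.pCore 2 G := by
      have := hN.conj_mem q hq a
      rw [hR.inv ha] at this
      exact mul_mem this (inv_mem hq)
    have h2 : e * (q * a * q⁻¹) = (e * a) * (a * q * a * q⁻¹) := by
      simp only [mul_assoc, Lib.Class.RI.il (hR.sq a ha)]
    have h3 := Lib.Class.RI.sq_mul_of_commute (hR.sq e he) (hR.sq a ha) c
    have h4 : e * (q * a * q⁻¹) * (e * (q * a * q⁻¹)) ∈ Cfsg.pCore 2 G := by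
      have := hN.conj_mem _ h1 (e * a)
      rw [Lib.Class.RI.inv_of_sq h3] at this
      rw [h2, ← mul_assoc]
      exact mul_mem this h1
    exact o.mul_ne_one (hR.sq e he) (Lib.Class.RI.eq_one_of_odd_mem hp
      (Lib.Class.RI.mem_of_sq_mem o.2 h4) o.2)
  constructor
  · intro e he q hq
    have : ⁅Cfsg.pCore 2 G, Subgroup.zpowers a⁆ ≤ Subgroup.centralizer {e} := by
      rw [Subgroup.commutator_le]
      rintro q hq _ ⟨k, rfl⟩
      have c : Commute e a := he.2
      have h1 : Commute e (q * a ^ k * q⁻¹) := by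
        rw [← conj_zpow]; exact (key e he.1 c q hq).zpow_right k
      rw [Subgroup.mem_centralizer_singleton_iff, commutatorElement_def]
      exact (h1.mul_right (c.zpow_right k).inv_right).symm.eq
    exact (Subgroup.mem_centralizer_singleton_iff.1 (this hq)).symm
  · intro b hb
    obtain ⟨hb, o⟩ := Lib.Class.RI.mem_oddPartners.1 hb
    ext q
    simp only [Subgroup.mem_inf, Subgroup.mem_centralizer_singleton_iff]
    constructor
    · rintro ⟨hq, hc⟩
      have ha2 := hR.sq a ha
      have c1 := key a ha (Commute.refl a) q hq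
      have hm := hD.1.conj_mem a ha q
      have h1 : Commute q a := by
        refine Lib.Class.RI.commute_of_cj_eq (Eq.symm ?_)
        by_contra hne
        have h2 : q * a * q⁻¹ * (q * b * q⁻¹) = a * b := by
          rw [← Lib.Class.RI.cj_eq_of_commute (show Commute q (a * b) from hc)]; group
        have h3 : q * b * q⁻¹ = (a * (q * a * q⁻¹)) * b := by
          rw [c1.eq, mul_assoc _ a b, ← h2, Lib.Class.RI.il (hR.sq _ hm)]
        have ht := Lib.Class.RI.sq_mul_of_commute ha2 (hR.sq _ hm) c1
        refine hR.not_mem_mul ha hb o ht (fun e => hne (Lib.Class.RI.eq_of_mul_eq_one ha2 e))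
          ((Commute.refl a).mul_left c1.symm) ?_ (by rw [Lib.Class.RI.il ha2]; exact hm)
        refine Lib.Class.RI.commute_of_sq_mul ht (hR.sq b hb) ?_
        rw [← h3]; exact hR.sq _ (hD.1.conj_mem b hb q)
      refine ⟨⟨hq, h1.eq⟩, ?_⟩
      have : b = a * (a * b) := (Lib.Class.RI.il ha2 b).symm
      rw [this]; exact (h1.mul_right hc).eq
    · rintro ⟨⟨hq, h1⟩, h2⟩
      exact ⟨hq, (Commute.mul_right h1 h2).eq⟩

end Cfsg.Agent.S5049
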