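import Cfsg.Statements.S5058
import Cfsg.Agent.Class.RootSL

set_option autoImplicit false
open Matrix
open Cfsg

namespace Cfsg.Agent.S5058

open Cfsg.Lib.Class

/-- The set of all transvections. -/
def D (ι : Type*) [Fintype ι] [DecidableEq ι] (F : Type*) [Field F] :
    Set (Matrix.SpecialLinearGroup ι F) :=
  {t | ∃ v f : ι → F, f ⬝ᵥ v = 0 ∧ v ≠ 0 ∧ f ≠ 0 ∧ t = tvS v f}

theorem set_eq (F : Type*) [Field F] (n : ℕ) :
    {t : Matrix.SpecialLinearGroup (Fin (n + 3)) F | ∃ c : F, c ≠ 0 ∧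
        ∃ g : Matrix.SpecialLinearGroup (Fin (n + 3)) F,
          ((g⁻¹ * t * g : Matrix.SpecialLinearGroup (Fin (n + 3)) F) :
          Matrix (Fin (n + 3)) (Fin (n + 3)) F) = Matrix.transvection 0 1 c} =
      D (Fin (n + 3)) F := by
  ext t
  constructor
  · rintro ⟨c, hc, g, hg⟩
    have h1 : g⁻¹ * t * g = Matrix.SpecialLinearGroup.transvection
      (zero_ne_one : (0 : Fin (n + 3)) ≠ 1) c := Subtype.ext hg
    rw [transvection_eq_tvS] at h1
    have h2 : t = g * tvS (Pi.single 0 c) (Pi.single 1 1) * g⁻¹ := by rw [← h1]; group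
    rw [conj_tvS _ (by simp)] at h2
    exact ⟨_, _, (SL_vecMul_inv_dot_mulVec g _ _).trans (by simp),
      SL_mulVec_ne_zero g (by simpa using hc), SL_vecMul_ne_zero g⁻¹ (by simp), h2⟩
  · rintro ⟨v, f, h, hv, hf, rfl⟩
    obtain ⟨g, -, -, hg⟩ := exists_conj_tvS (ι := Fin (n + 3)) (by simp) hv hf
      (v' := Pi.single 0 1) (f' := Pi.single 1 1) (by simp) (by simp) h (by simp)
    refine ⟨1, one_ne_zero, g⁻¹, ?_⟩
    rw [inv_inv, hg, ← transvection_eq_tvS (zero_ne_one : (0 : Fin (n + 3)) ≠ 1)]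
    rfl

variable {ι : Type*} [Fintype ι] [DecidableEq ι] {F : Type*} [Field F] [CharP F 2]

theorem inv_tvS {v f : ι → F} (h : f ⬝ᵥ v = 0) : (tvS v f)⁻¹ = tvS v f := by
  rw [tvS_inv h]
  congr 1
  ext i
  exact CharTwo.neg_eq _

theorem sq_tvS {v f : ι → F} (h : f ⬝ᵥ v = 0) : tvS v f * tvS v f = 1 := by
  nth_rewrite 1 [← inv_tvS h]
  exact inv_mul_cancel _

theorem orderOf_D {t : Matrix.SpecialLinearGroup ι F} (ht : t ∈ D ι F) : orderOf t = 2 := by
  obtain ⟨v, f, h, hv, hf, rfl⟩ := ht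
  refine orderOf_eq_prime (by rw [pow_two, sq_tvS h]) ?_
  rw [Ne, tvS_eq_one_iff h]
  tauto

theorem sq_mul {v f w g : ι → F} (hf : f ⬝ᵥ v = 0) (hg : g ⬝ᵥ w = 0) (h2 : g ⬝ᵥ v = 0) :
    (tvS v f * tvS w g) ^ 2 = tvS v ((f ⬝ᵥ w) • g) := by
  rw [← tvS_commutator hf hg h2, inv_tvS hf, inv_tvS hg, pow_two]
  simp only [mul_assoc]

theorem sq_mul' {v f w g : ι → F} (hf : f ⬝ᵥ v = 0) (hg : g ⬝ᵥ w = 0) (h2 : g ⬝ᵥ v = 0) :
    (tvS w g * tvS v f) ^ 2 = tvS v ((f ⬝ᵥ w) • g) := by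
  have : tvS w g * tvS v f = (tvS v f * tvS w g)⁻¹ := by
    rw [_root_.mul_inv_rev, inv_tvS hf, inv_tvS hg]
  rw [this, inv_pow, sq_mul hf hg h2, inv_tvS (by simp [h2])]

theorem orderOf_eq_four {x : Matrix.SpecialLinearGroup ι F} (h : x ^ 2 ∈ D ι F) :
    orderOf x = 4 := by
  have h2 := orderOf_D h
  refine orderOf_eq_prime_pow (p := 2) (n := 1) ?_ ?_
  · intro e
    rw [pow_one] at e
    rw [e, orderOf_one] at h2
    omega
  · rw [pow_succ, pow_one, pow_mul]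
    have := pow_orderOf_eq_one (x ^ 2)
    rwa [h2] at this

omit [CharP F 2] in
theorem exists_sl2 {v f w g : ι → F} (hf : f ⬝ᵥ v = 0) (hg : g ⬝ᵥ w = 0) (h1 : f ⬝ᵥ w ≠ 0)
    (h2 : g ⬝ᵥ v ≠ 0) : ∃ φ : Matrix.SpecialLinearGroup (Fin 2) F →* Matrix.SpecialLinearGroup ι F,
      Function.Injective φ ∧
      φ (Matrix.SpecialLinearGroup.transvection zero_ne_one (f ⬝ᵥ w)) = tvS v f ∧
      φ (Matrix.SpecialLinearGroup.transvection one_ne_zero (g ⬝ᵥ v)) = tvS w g := by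
  have hgv : ((g ⬝ᵥ v)⁻¹ • g) ⬝ᵥ v = 1 := by simp [h2]
  have hgw : ((g ⬝ᵥ v)⁻¹ • g) ⬝ᵥ w = 0 := by simp [hg]
  have hfv : ((f ⬝ᵥ w)⁻¹ • f) ⬝ᵥ v = 0 := by simp [hf]
  have hfw : ((f ⬝ᵥ w)⁻¹ • f) ⬝ᵥ w = 1 := by simp [h1]
  refine ⟨sl2Hom hgv hgw hfv hfw, sl2Hom_injective _ _ _ _, ?_, ?_⟩
  · rw [sl2Hom_upper, smul_smul, mul_inv_cancel₀ h1, one_smul]
  · rw [sl2Hom_lower, smul_smul, mul_inv_cancel₀ h2, one_smul]

theorem odd_sl2 [Finite F] {s t : F} (hs : s ≠ 0) (ht : t ≠ 0) :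
    Odd (orderOf (Matrix.SpecialLinearGroup.transvection (zero_ne_one : (0 : Fin 2) ≠ 1) s *
      Matrix.SpecialLinearGroup.transvection (one_ne_zero : (1 : Fin 2) ≠ 0) t)) := by
  set a := Matrix.SpecialLinearGroup.transvection (zero_ne_one : (0 : Fin 2) ≠ 1) s with ha
  set b := Matrix.SpecialLinearGroup.transvection (one_ne_zero : (1 : Fin 2) ≠ 0) t with hb
  have ha1 : a⁻¹ = a := by
    rw [ha, Matrix.SpecialLinearGroup.transvection_inv, CharTwo.neg_eq]
  have hb1 : b⁻¹ = b := by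
    rw [hb, Matrix.SpecialLinearGroup.transvection_inv, CharTwo.neg_eq]
  by_contra hodd
  obtain ⟨m, hm⟩ := Nat.not_odd_iff_even.1 hodd
  have hpos : 0 < orderOf (a * b) := orderOf_pos _
  have hz : (a * b) ^ m ≠ 1 := pow_ne_one_of_lt_orderOf (by omega) (by omega)
  have hz2 : ((a * b) ^ m)⁻¹ = (a * b) ^ m := by
    rw [inv_eq_iff_mul_eq_one, ← pow_add, ← hm, pow_orderOf_eq_one]
  have hinv : (a * b)⁻¹ = b * a := by rw [_root_.mul_inv_rev, ha1, hb1]
  have h1 : a * (a * b) ^ m * a⁻¹ = (a * b) ^ m := by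
    rw [← conj_pow, ← hz2, ← inv_pow, hinv]
    congr 1
    rw [← mul_assoc, show a * a = 1 by nth_rewrite 1 [← ha1]; exact inv_mul_cancel a, one_mul, ha1]
  have h2 : b * (a * b) ^ m * b⁻¹ = (a * b) ^ m := by
    rw [← conj_pow, ← hz2, ← inv_pow, hinv]
    congr 1
    group
  generalize (a * b) ^ m = z at hz h1 h2
  rw [mul_inv_eq_iff_eq_mul] at h1 h2
  have e1 := congrArg Subtype.val h1
  have e2 := congrArg Subtype.val h2
  rw [Matrix.SpecialLinearGroup.coe_mul, Matrix.SpecialLinearGroup.coe_mul, ha,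
    Matrix.SpecialLinearGroup.transvection_coe] at e1
  rw [Matrix.SpecialLinearGroup.coe_mul, Matrix.SpecialLinearGroup.coe_mul, hb,
    Matrix.SpecialLinearGroup.transvection_coe] at e2
  have k1 := congrFun₂ e1 0 0
  have k2 := congrFun₂ e1 0 1
  have k3 := congrFun₂ e2 1 1
  simp [Matrix.mul_apply, Matrix.add_apply, Matrix.one_apply, Matrix.single_apply, hs, ht] at k1 k2 k3
  have k4 : z.1 1 1 = z.1 0 0 := by
    apply mul_left_cancel₀ hs
    linear_combination k2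
  have hd := z.det_coe
  rw [Matrix.det_fin_two, k1, k4, mul_zero, sub_zero] at hd
  have k5 : z.1 0 0 = 1 := by
    have : (z.1 0 0 - 1) ^ 2 = 0 := by
      have h2 : (2 : F) = 0 := CharTwo.two_eq_zero
      linear_combination hd + (1 - z.1 0 0) * h2
    exact sub_eq_zero.1 (pow_eq_zero_iff two_ne_zero |>.1 this)
  apply hz
  ext i j
  fin_cases i <;> fin_cases j <;> simp [k1, k3, k4, k5]

theorem isRootInvolutionSet [Finite F] : Cfsg.IsRootInvolutionSet (D ι F) where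
  orderOf_eq d hd := orderOf_D hd
  generates := by
    refine SL_eq_top_of_tvS _ fun v f h ↦ ?_
    rcases eq_or_ne v 0 with rfl | hv
    · simp
    rcases eq_or_ne f 0 with rfl | hf
    · simp
    exact Subgroup.subset_closure ⟨v, f, h, hv, hf, rfl⟩
  conj_mem := by
    rintro _ ⟨v, f, h, hv, hf, rfl⟩ g
    exact ⟨_, _, (SL_vecMul_inv_dot_mulVec g _ _).trans h, SL_mulVec_ne_zero g hv,
      SL_vecMul_ne_zero g⁻¹ hf, conj_tvS g h⟩
  pair := by
    rintro _ ⟨v, f, hf, hv, hf0, rfl⟩ _ ⟨w, g, hg, hw, hg0, rfl⟩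
    by_cases h1 : f ⬝ᵥ w = 0 <;> by_cases h2 : g ⬝ᵥ v = 0
    · exact Or.inl (tvS_commute hf hg h1 h2)
    · have : (tvS v f * tvS w g) ^ 2 ∈ D ι F :=
        ⟨_, _, by simp [h1], hw, smul_ne_zero h2 hf0, sq_mul' hg hf h1⟩
      exact Or.inr (Or.inr ⟨orderOf_eq_four this, this⟩)
    · have : (tvS v f * tvS w g) ^ 2 ∈ D ι F :=
        ⟨_, _, by simp [h2], hv, smul_ne_zero h1 hg0, sq_mul hf hg h2⟩
      exact Or.inr (Or.inr ⟨orderOf_eq_four this, this⟩)
    · obtain ⟨φ, hφ, e1, e2⟩ := exists_sl2 hf hg h1 h2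
      rw [← e1, ← e2, ← map_mul, orderOf_injective φ hφ]
      exact Or.inr (Or.inl (odd_sl2 h1 h2))

/-- Let F be a finite field of characteristic 2 and n a natural number. Then the transvections of SL_{n+3}(F) (so in every dimension at least 3) (the conjugates of the elementary matrices 1 + c E₁₂, c ≠ 0) form a class of root involutions of SL_{n+3}(F); when F has two elements they form a class of {3,4}⁺-transpositions (every product of odd order has order 1 or 3). -/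
theorem result (F : Type*) [Field F] [Fintype F] [CharP F 2] (n : ℕ) :
    Cfsg.IsRootInvolutionClass {t : Matrix.SpecialLinearGroup (Fin (n + 3)) F | ∃ c : F, c ≠ 0 ∧
        ∃ g : Matrix.SpecialLinearGroup (Fin (n + 3)) F, ((g⁻¹ * t * g : Matrix.SpecialLinearGroup (Fin (n + 3)) F) :
          Matrix (Fin (n + 3)) (Fin (n + 3)) F) = Matrix.transvection 0 1 c} ∧
    (Fintype.card F = 2 → Cfsg.IsThreeFourPlusTranspositionSet {t : Matrix.SpecialLinearGroup (Fin (n + 3)) F | ∃ c : F, c ≠ 0 ∧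
        ∃ g : Matrix.SpecialLinearGroup (Fin (n + 3)) F, ((g⁻¹ * t * g : Matrix.SpecialLinearGroup (Fin (n + 3)) F) :
          Matrix (Fin (n + 3)) (Fin (n + 3)) F) = Matrix.transvection 0 1 c}) := by
  rw [set_eq]
  refine ⟨⟨isRootInvolutionSet, ⟨_, Pi.single 0 1, Pi.single 1 1, by simp, by simp, by simp, rfl⟩,
    ?_⟩, fun hF => ⟨isRootInvolutionSet, ?_⟩⟩
  · rintro _ ⟨v, f, hf, hv, hf0, rfl⟩ _ ⟨w, g, hg, hw, hg0, rfl⟩
    obtain ⟨x, -, -, hx⟩ := exists_conj_tvS (by simp) hv hf0 hw hg0 hf hg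
    exact ⟨x, hx.symm⟩
  · rintro _ ⟨v, f, hf, hv, hf0, rfl⟩ _ ⟨w, g, hg, hw, hg0, rfl⟩ hodd
    by_cases h1 : f ⬝ᵥ w = 0 <;> by_cases h2 : g ⬝ᵥ v = 0
    · left
      have : (tvS v f * tvS w g) ^ 2 = 1 := by rw [sq_mul hf hg h2, h1]; simp
      have h3 := orderOf_dvd_of_pow_eq_one this
      rcases (Nat.dvd_prime Nat.prime_two).1 h3 with h | h
      · exact h
      · rw [h] at hodd
        exact absurd hodd (by decide)
    · have : (tvS v f * tvS w g) ^ 2 ∈ D _ F :=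
        ⟨_, _, by simp [h1], hw, smul_ne_zero h2 hf0, sq_mul' hg hf h1⟩
      rw [orderOf_eq_four this] at hodd
      exact absurd hodd (by decide)
    · have : (tvS v f * tvS w g) ^ 2 ∈ D _ F :=
        ⟨_, _, by simp [h2], hv, smul_ne_zero h1 hg0, sq_mul hf hg h2⟩
      rw [orderOf_eq_four this] at hodd
      exact absurd hodd (by decide)
    · obtain ⟨φ, hφ, e1, e2⟩ := exists_sl2 hf hg h1 h2
      rw [← e1, ← e2, ← map_mul, orderOf_injective φ hφ]
      have hone : ∀ x : F, x ≠ 0 → x = 1 := fun x hx => by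
        have := FiniteField.pow_card_sub_one_eq_one x hx
        simpa [hF] using this
      rw [hone _ h1, hone _ h2]
      refine (Nat.dvd_prime Nat.prime_three).1 (orderOf_dvd_of_pow_eq_one ?_)
      refine Subtype.ext ?_
      have h2 : (2 : F) = 0 := CharTwo.two_eq_zero
      rw [Matrix.SpecialLinearGroup.coe_pow, Matrix.SpecialLinearGroup.coe_mul,
        Matrix.SpecialLinearGroup.transvection_coe, Matrix.SpecialLinearGroup.transvection_coe]
      ext i j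
      fin_cases i <;> fin_cases j <;>
        simp [pow_succ, Matrix.mul_apply, Matrix.add_apply, Matrix.one_apply, Matrix.single_apply] <;>
        first | linear_combination 6 * h2 | linear_combination 4 * h2 | linear_combination 2 * h2

end Cfsg.Agent.S5058
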