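import Cfsg.Statements.S5060
import Mathlib
import Cfsg.Agent.Class.DicksonLemma

set_option autoImplicit false
open Cfsg

namespace Cfsg.Agent.S5060

/-- Let k ⊆ K be fields with the characteristic of k not 2 and k not of order 3, and let α ∈ K be a non-zero element algebraic over k. Then the subgroup of SL₂(K) generated by the upper unitriangular matrices with entry c and the lower unitriangular matrices with entry cα, c ranging over k, is exactly the group of matrices of SL₂(K) with all entries in k(α). -/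
theorem result {k K : Type*} [Field k] [Field K] [Algebra k K] (hk2 : ringChar k ≠ 2) (hk3 : Nat.card k ≠ 3)
    (α : K) (hα : IsAlgebraic k α) (hα0 : α ≠ 0) :
    (Subgroup.closure ({g : Matrix.SpecialLinearGroup (Fin 2) K | ∃ c : k, (g : Matrix (Fin 2) (Fin 2) K) = !![1, algebraMap k K c; 0, 1]} ∪
        {g : Matrix.SpecialLinearGroup (Fin 2) K | ∃ c : k, (g : Matrix (Fin 2) (Fin 2) K) = !![1, 0; algebraMap k K c * α, 1]}) :
      Set (Matrix.SpecialLinearGroup (Fin 2) K)) =
    {g : Matrix.SpecialLinearGroup (Fin 2) K | ∀ i j : Fin 2, (g : Matrix (Fin 2) (Fin 2) K) i j ∈ IntermediateField.adjoin k ({α} : Set K)} := by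
  open Cfsg.Lib.Class in
  set L := IntermediateField.adjoin k ({α} : Set K) with hL
  let α' : L := IntermediateField.AdjoinSimple.gen k α
  have hα' : α' ≠ 0 := fun h => hα0 (congrArg Subtype.val h)
  have hi : IsIntegral k α' :=
    (isIntegral_algHom_iff L.val Subtype.val_injective).1 hα.isIntegral
  have hgen : Algebra.adjoin k {α'} = ⊤ := by
    have := (IntermediateField.adjoin.powerBasis hα.isIntegral).adjoin_gen_eq_top
    rwa [IntermediateField.adjoin.powerBasis_gen] at this
  have htop := dicksonGroup_eq_top hk2 hk3 hα' hi hgen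
  let φ : Matrix.SpecialLinearGroup (Fin 2) L →* Matrix.SpecialLinearGroup (Fin 2) K :=
    Matrix.SpecialLinearGroup.map (algebraMap L K)
  have hrange : (φ.range : Set (Matrix.SpecialLinearGroup (Fin 2) K)) =
      {g : Matrix.SpecialLinearGroup (Fin 2) K | ∀ i j : Fin 2,
        (g : Matrix (Fin 2) (Fin 2) K) i j ∈ L} := by
    ext g
    constructor
    · rintro ⟨g', rfl⟩ i j
      exact (g' i j).2
    · intro hg
      refine ⟨⟨Matrix.of fun i j => ⟨g i j, hg i j⟩, ?_⟩, ?_⟩
      · apply Subtype.val_injective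
        have := g.det_coe
        rw [Matrix.det_fin_two] at this ⊢
        exact this
      · ext i j
        rfl
  rw [← hrange, MonoidHom.range_eq_map, ← htop, dicksonGroup, MonoidHom.map_closure]
  congr 2
  ext g
  simp only [Set.image_union, Set.mem_union, Set.mem_setOf_eq, Set.mem_image, Set.mem_range]
  refine or_congr ⟨?_, ?_⟩ ⟨?_, ?_⟩
  · rintro ⟨c, hc⟩
    refine ⟨_, ⟨c, rfl⟩, Subtype.ext ?_⟩
    rw [hc]
    ext i j
    fin_cases i <;> fin_cases j <;> simp [φ]
  · rintro ⟨_, ⟨c, rfl⟩, rfl⟩
    refine ⟨c, ?_⟩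
    ext i j
    fin_cases i <;> fin_cases j <;> simp [φ]
  · rintro ⟨c, hc⟩
    refine ⟨_, ⟨c, rfl⟩, Subtype.ext ?_⟩
    rw [hc]
    ext i j
    fin_cases i <;> fin_cases j <;> simp [φ, α']
  · rintro ⟨_, ⟨c, rfl⟩, rfl⟩
    refine ⟨c, ?_⟩
    ext i j
    fin_cases i <;> fin_cases j <;> simp [φ, α']

end Cfsg.Agent.S5060
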