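import Cfsg.Statements.S5063
import Mathlib
import Cfsg.Agent.Class.QuadFinal

set_option autoImplicit false
universe u
open Cfsg

namespace Cfsg.Agent.S5063

/-- Let k be a field of characteristic not 2 with k not of order 3, M a finite-dimensional k-vector space and G ≤ GL(M) such that (G, M) is a quadratic pair (M irreducible for G, and G generated by its quadratically acting elements σ whose scalar family 1 + c(σ − 1), c ∈ k, lies in G). Write 𝒬_d for the quadratic elements of G of minimal commutator rank, E(σ) for the subgroup generated by the members of 𝒬_d with the same fixed space and commutator space as σ, and Σ for the set of these subgroups. Then G is a central product of finitely many quasisimple normal subgroups G₁, …, G_s (pairwise commuting and together generating G), each generated by the quadratic elements of G it contains, and every quadratic element of G lies in one of them. -/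
theorem result {k : Type u} [Field k] (hk2 : ringChar k ≠ 2) (hk3 : Nat.card k ≠ 3)
    {M : Type u} [AddCommGroup M] [Module k M] [FiniteDimensional k M]
    {G : Subgroup (LinearMap.GeneralLinearGroup k M)} (hG : Cfsg.IsQuadraticPair G) :
    ∃ (s : ℕ) (Gi : Fin s → Subgroup (LinearMap.GeneralLinearGroup k M)),
      (∀ i, Gi i ≤ G ∧ ∀ g ∈ G, Cfsg.conjBy (Gi i) g = Gi i) ∧ (∀ i j, i ≠ j → ⁅Gi i, Gi j⁆ = ⊥) ∧ (⨆ i, Gi i) = G ∧
      (∀ i, Cfsg.IsQuasisimple ↥(Gi i) ∧ Subgroup.closure (Cfsg.quadraticElements G ∩ (Gi i : Set (LinearMap.GeneralLinearGroup k M))) = Gi i) ∧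
      Cfsg.quadraticElements G ⊆ ⋃ i, (Gi i : Set (LinearMap.GeneralLinearGroup k M)) := by
  obtain ⟨S, a1, a2, a3, a4, a5, a6⟩ := Cfsg.Lib.Class.exists_decomposition hk2 hk3 _ G
    (Cfsg.Lib.Class.nu_of_isIrreducibleFor hG.1) hG.2 (Nat.lt_succ_self _)
  haveI := a1.to_subtype
  obtain ⟨r, ⟨e⟩⟩ := Finite.exists_equiv_fin S
  have key : ∀ n, ∀ s ∈ Cfsg.Lib.Class.QS G, s ≠ 0 → Cfsg.Lib.Class.rk s = n →
      ∃ A ∈ S, s ∈ Cfsg.Lib.Class.QS A := by
    intro n
    induction n using Nat.strong_induction_on with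
    | _ n ih =>
      intro s hs hs0 hn
      obtain ⟨A, hA, x, hx, y, hy, hx0, rfl, b1, b2, b3⟩ := a6 s hs hs0
      by_cases hy0 : y = 0
      · exact ⟨A, hA, by simpa [hy0] using hx⟩
      obtain ⟨B, hB, hyB⟩ := ih _ (hn ▸ b3) y hy hy0 rfl
      by_cases hAB : A = B
      · subst hAB
        exact ⟨A, hA, Cfsg.Lib.Class.QS.add hx hyB b1 b2⟩
      · exact absurd b1 (Cfsg.Lib.Class.mul_ne_zero_of_commuting hG.1 (a2 B hB).1 (a2 B hB).2
          (a5 B hB).1 (a3 A hA B hB hAB) hx hx0 hyB hy0)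
  refine ⟨r, fun i => (e.symm i).1, fun i => ⟨(a2 _ (e.symm i).2).1, fun g hg => ?_⟩,
    fun i j hij => a3 _ (e.symm i).2 _ (e.symm j).2 fun h => hij (e.symm.injective (Subtype.ext h)),
    ?_, fun i => ⟨(a5 _ (e.symm i).2).1, ?_⟩, fun g hg => ?_⟩
  · refine le_antisymm ?_ fun a ha => Cfsg.Lib.Class.mem_conjBy.2 ?_
    · rintro _ ⟨a, ha, rfl⟩
      exact (a2 _ (e.symm i).2).2 g hg a ha
    · simpa using (a2 _ (e.symm i).2).2 _ (G.inv_mem hg) a ha
  · rw [← a4, iSup_subtype', e.symm.iSup_comp (g := fun A : S => A.1)]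
  · refine le_antisymm ((Subgroup.closure_le _).2 Set.inter_subset_right) ?_
    refine (a5 _ (e.symm i).2).2.ge.trans (Subgroup.closure_mono fun g hg => ⟨?_, hg.1⟩)
    rw [Cfsg.Lib.Class.mem_quadraticElements_iff] at hg ⊢
    exact ⟨Cfsg.Lib.Class.QS.mono (a2 _ (e.symm i).2).1 hg.1, hg.2⟩
  · rw [Cfsg.Lib.Class.mem_quadraticElements_iff] at hg
    obtain ⟨A, hA, h⟩ := key _ _ hg.1 hg.2 rfl
    refine Set.mem_iUnion.2 ⟨e ⟨A, hA⟩, ?_⟩
    simp only [Equiv.symm_apply_apply]
    exact Cfsg.Lib.Class.QS.mem_of_val_eq h (by abel)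

end Cfsg.Agent.S5063
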