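import Cfsg.Statements.S5064
import Mathlib
import Cfsg.Agent.Class.QuadSL2

set_option autoImplicit false
universe u
open Cfsg

namespace Cfsg.Agent.S5064

/-- Let k be a field of characteristic not 2 with k not of order 3, M a finite-dimensional k-vector space and G ≤ GL(M) such that (G, M) is a quadratic pair (M irreducible for G, and G generated by its quadratically acting elements σ whose scalar family 1 + c(σ − 1), c ∈ k, lies in G). Write 𝒬_d for the quadratic elements of G of minimal commutator rank, E(σ) for the subgroup generated by the members of 𝒬_d with the same fixed space and commutator space as σ, and Σ for the set of these subgroups. If σ, τ ∈ 𝒬_d and the subgroup H generated by their two scalar families does not act unipotently on M, then H is isomorphic to SL₂ over a simple algebraic extension k(λ) of k. -/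
theorem result {k : Type u} [Field k] (hk2 : ringChar k ≠ 2) (hk3 : Nat.card k ≠ 3)
    {M : Type u} [AddCommGroup M] [Module k M] [FiniteDimensional k M]
    {G : Subgroup (LinearMap.GeneralLinearGroup k M)} (hG : Cfsg.IsQuadraticPair G)
    {σ τ : LinearMap.GeneralLinearGroup k M} (hσ : σ ∈ Cfsg.minimalQuadraticElements G) (hτ : τ ∈ Cfsg.minimalQuadraticElements G)
    (hH : ¬ Cfsg.IsUnipotentOn (Subgroup.closure (Cfsg.scalarFamily σ ∪ Cfsg.scalarFamily τ))) :
    ∃ (K : Type u) (_ : Field K) (_ : Algebra k K) (lam : K), IsAlgebraic k lam ∧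
      IntermediateField.adjoin k ({lam} : Set K) = ⊤ ∧
      Nonempty (↥(Subgroup.closure (Cfsg.scalarFamily σ ∪ Cfsg.scalarFamily τ)) ≃* Matrix.SpecialLinearGroup (Fin 2) K) := by
  rw [Cfsg.Lib.Class.mem_minimalQuadraticElements_iff] at hσ hτ
  set t := (σ : Module.End k M) - 1 with ht
  set s := (τ : Module.End k M) - 1 with hs
  have h : t * s * t ≠ 0 := by
    intro h
    refine hH (Cfsg.Lib.Class.isUnipotentOn_mono ((Subgroup.closure_le _).2 ?_)
      (Cfsg.Lib.Class.isUnipotentOn_sup_EG hk2 hk3 hτ hσ h))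
    rintro g (⟨c, hc⟩ | ⟨c, hc⟩)
    · refine Subgroup.mem_sup_right (Cfsg.Lib.Class.mem_EG.2 ?_)
      rw [hc, add_sub_cancel_left]
      exact Submodule.smul_mem _ _ (Cfsg.Lib.Class.self_mem_Esp hσ.1)
    · refine Subgroup.mem_sup_left (Cfsg.Lib.Class.mem_EG.2 ?_)
      rw [hc, add_sub_cancel_left]
      exact Submodule.smul_mem _ _ (Cfsg.Lib.Class.self_mem_Esp hτ.1)
  obtain ⟨f, hf, φ, hfX, hφ, a, b⟩ := Cfsg.Lib.Class.exists_sl2_of_opp hk2 hk3 hτ hσ h
  have hi : IsIntegral k (AdjoinRoot.root f) :=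
    (AdjoinRoot.isAlgebraic_root hf.out.ne_zero).isIntegral
  have hα : AdjoinRoot.root f ≠ 0 := by
    rw [← AdjoinRoot.mk_X, Ne, AdjoinRoot.mk_eq_zero]
    exact hfX
  have hgen : Algebra.adjoin k {AdjoinRoot.root f} = ⊤ := AdjoinRoot.adjoinRoot_eq_top
  refine ⟨AdjoinRoot f, inferInstance, inferInstance, AdjoinRoot.root f, hi.isAlgebraic, ?_, ?_⟩
  · apply IntermediateField.toSubalgebra_injective
    rw [IntermediateField.adjoin_simple_toSubalgebra_of_isAlgebraic hi.isAlgebraic, hgen]
    rfl
  · have e : φ.range = Subgroup.closure (Cfsg.scalarFamily σ ∪ Cfsg.scalarFamily τ) := by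
      rw [MonoidHom.range_eq_map, ← Cfsg.Lib.Class.dicksonGroup_eq_top hk2 hk3 hα hi hgen,
        Cfsg.Lib.Class.dicksonGroup, MonoidHom.map_closure, Set.image_union]
      congr 2
      · ext g
        constructor
        · rintro ⟨_, ⟨c, rfl⟩, rfl⟩
          exact ⟨c, a c⟩
        · rintro ⟨c, hc⟩
          exact ⟨_, ⟨c, rfl⟩, Units.ext ((a c).trans hc.symm)⟩
      · ext g
        constructor
        · rintro ⟨_, ⟨c, rfl⟩, rfl⟩
          exact ⟨c, b c⟩
        · rintro ⟨c, hc⟩
          exact ⟨_, ⟨c, rfl⟩, Units.ext ((b c).trans hc.symm)⟩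
    rw [← e]
    exact ⟨(MonoidHom.ofInjective hφ).symm⟩

end Cfsg.Agent.S5064
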