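import Cfsg.Statements.S5066
import Mathlib
import Cfsg.Agent.Class.QuadComm

set_option autoImplicit false
universe u
open Cfsg

namespace Cfsg.Agent.S5066

/-- Let k be a field of characteristic not 2 with k not of order 3, M a finite-dimensional k-vector space and G ≤ GL(M) such that (G, M) is a quadratic pair (M irreducible for G, and G generated by its quadratically acting elements σ whose scalar family 1 + c(σ − 1), c ∈ k, lies in G). Write 𝒬_d for the quadratic elements of G of minimal commutator rank, E(σ) for the subgroup generated by the members of 𝒬_d with the same fixed space and commutator space as σ, and Σ for the set of these subgroups. Let E, F ∈ Σ generate a subgroup that is nilpotent of class exactly two. Then D = ⁅E, F⁆ belongs to Σ, equals the subgroup generated by the commutators of e with F, and also of E with f, for every non-identity e ∈ E, f ∈ F, and ⟨E, F⟩ lies in U(D), the set of elements g of G normalizing D with (g − 1)M inside the fixed space of D, (g − 1) mapping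 that fixed space into the commutator space of D, and g acting trivially on the commutator space of D. -/
theorem result {k : Type u} [Field k] (hk2 : ringChar k ≠ 2) (hk3 : Nat.card k ≠ 3)
    {M : Type u} [AddCommGroup M] [Module k M] [FiniteDimensional k M]
    {G : Subgroup (LinearMap.GeneralLinearGroup k M)} (hG : Cfsg.IsQuadraticPair G)
    {E F : Subgroup (LinearMap.GeneralLinearGroup k M)} (hE : E ∈ Cfsg.quadraticRootSubgroups G) (hF : F ∈ Cfsg.quadraticRootSubgroups G)
    (h2 : ⁅E ⊔ F, E ⊔ F⁆ ≠ ⊥ ∧ ⁅⁅E ⊔ F, E ⊔ F⁆, E ⊔ F⁆ = ⊥) :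
    ⁅E, F⁆ ∈ Cfsg.quadraticRootSubgroups G ∧
    (∀ e ∈ E, e ≠ 1 → Subgroup.closure ((fun f : LinearMap.GeneralLinearGroup k M => e * f * e⁻¹ * f⁻¹) '' (F : Set (LinearMap.GeneralLinearGroup k M))) = ⁅E, F⁆) ∧
    (∀ f ∈ F, f ≠ 1 → Subgroup.closure ((fun e : LinearMap.GeneralLinearGroup k M => e * f * e⁻¹ * f⁻¹) '' (E : Set (LinearMap.GeneralLinearGroup k M))) = ⁅E, F⁆) ∧
    ((E ⊔ F : Subgroup (LinearMap.GeneralLinearGroup k M)) : Set (LinearMap.GeneralLinearGroup k M)) ⊆ Cfsg.quadraticUnipotentCore G ⁅E, F⁆ := by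
  obtain ⟨s, hs, rfl⟩ := Cfsg.Lib.Class.mem_quadraticRootSubgroups_iff.1 hE
  obtain ⟨t, ht, rfl⟩ := Cfsg.Lib.Class.mem_quadraticRootSubgroups_iff.1 hF
  have hN := Cfsg.Lib.Class.nu_of_isIrreducibleFor hG.1
  have h : t * s * t = 0 := by
    by_contra h
    obtain ⟨g, hg, e⟩ := Cfsg.Lib.Class.exists_conjBy_EG_of_opp hk2 hk3 hs ht h
    have h0 : s * t - t * s = 0 := by
      refine Cfsg.Lib.Class.comm_eq_zero_of_commutator_EG hs.1 ht.1 ?_
      rw [Subgroup.commutator_eq_bot_iff_le_centralizer, e]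
      rintro _ ⟨a, ha, rfl⟩ b hb
      have hc := Subgroup.commutator_eq_bot_iff_le_centralizer.1 h2.2
        (Subgroup.commutator_mem_commutator (show g ∈ _ by rwa [sup_comm]) (Subgroup.mem_sup_right ha))
        b (Subgroup.mem_sup_right hb)
      have hab := Cfsg.Lib.Class.EG_mul_comm ha hb
      rw [commutatorElement_def] at hc
      change b * (g * a * g⁻¹) = g * a * g⁻¹ * b
      calc b * (g * a * g⁻¹) = b * (g * a * g⁻¹ * a⁻¹) * a := by group
        _ = g * a * g⁻¹ * a⁻¹ * (a * b) := by rw [hc, hab, mul_assoc]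
        _ = _ := by group
    apply h
    rw [mul_assoc, sub_eq_zero.1 h0, ← mul_assoc, ht.1.1, zero_mul]
  have hne : s * t - t * s ≠ 0 := by
    intro h0
    have h1 := Subgroup.commutator_eq_bot_iff_le_centralizer.1
      (Cfsg.Lib.Class.commutator_EG_eq_bot hk2 hk3 hs ht h0)
    apply h2.1
    rw [Subgroup.commutator_eq_bot_iff_le_centralizer]
    refine sup_le (Subgroup.le_centralizer_iff.1 (sup_le ?_ (Subgroup.le_centralizer_iff.1 h1)))
      (Subgroup.le_centralizer_iff.1 (sup_le h1 ?_))
    · exact fun a ha b hb => Cfsg.Lib.Class.EG_mul_comm hb ha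
    · exact fun a ha b hb => Cfsg.Lib.Class.EG_mul_comm hb ha
  have hq := (Cfsg.Lib.Class.comm_struct hk2 hk3 hs ht h hne).1
  obtain ⟨a, -, c, d⟩ := Cfsg.Lib.Class.rootCommutatorCase_EG hk2 hk3 hN hs ht h hne
    (Cfsg.Lib.Class.EG_mem_quadraticRootSubgroups hq)
  exact ⟨a, c, d, Cfsg.Lib.Class.sup_EG_subset_core hk2 hk3 hN hs ht h hne⟩

end Cfsg.Agent.S5066
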