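import Cfsg.Statements.S5067
import Mathlib
import Cfsg.Agent.Class.RootSets

set_option autoImplicit false
open Cfsg

namespace Cfsg.Agent.S5067

/-- Let P be a non-abelian nilpotent p-group (every element of p-power order; P possibly infinite) generated by two abelian subgroups E and F. Then the normal closure of E in P, and likewise that of F, has nilpotency class strictly smaller than that of P. -/
theorem result {P : Type*} [Group P] {p : ℕ} [Fact p.Prime] (hP : IsPGroup p P) [Group.IsNilpotent P]
    (hna : ¬ IsMulCommutative P) {E F : Subgroup P} (hE : IsMulCommutative ↥E) (hF : IsMulCommutative ↥F) (hgen : E ⊔ F = ⊤) :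
    Group.nilpotencyClass ↥(Subgroup.normalClosure (E : Set P)) < Group.nilpotencyClass P ∧
    Group.nilpotencyClass ↥(Subgroup.normalClosure (F : Set P)) < Group.nilpotencyClass P := by
  have key : ∀ E : Subgroup P, IsMulCommutative E →
      Group.nilpotencyClass ↥(Subgroup.normalClosure (E : Set P)) < Group.nilpotencyClass P := by
    intro E hE
    set N := Subgroup.normalClosure (E : Set P)
    have hN : N ≤ commutator P ⊔ E := by
      haveI : (commutator P ⊔ E).Normal := Subgroup.Normal.of_commutator_le _ le_sup_left
      exact Subgroup.normalClosure_le_normal (le_sup_right : E ≤ commutator P ⊔ E)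
    have h1 : ∀ n, N.lowerCentralSeries (n + 1) ≤ (⊤ : Subgroup P).lowerCentralSeries (n + 2) := by
      intro n
      induction n with
      | zero =>
        refine Lib.Class.commutator_le_of_kc fun x hx y hy => ?_
        have hn : E ≤ Subgroup.normalizer ((commutator P : Subgroup P) : Set P) := by
          rw [Subgroup.normalizer_eq_top]; exact le_top
        obtain ⟨u, hu, e, he, rfl⟩ := (Lib.Trans.mem_sup_of_le_normalizer hn).1 (hN hx)
        obtain ⟨v, hv, f, hf, rfl⟩ := (Lib.Trans.mem_sup_of_le_normalizer hn).1 (hN hy)
        have hK : ((⊤ : Subgroup P).lowerCentralSeries (0 + 2)).Normal := inferInstance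
        rw [Lib.Class.kc_mul_left, Lib.Class.kc_mul_right e,
          Lib.Class.kc_eq_one.2 (Lib.Class.cm_self hE e he f hf), one_mul]
        refine Subgroup.mul_mem _ (hK.conj_mem' _ (Lib.Class.kc_mem hu (Subgroup.mem_top _)) e)
          (hK.conj_mem' _ ?_ f)
        rw [← Lib.Class.kc_inv]
        exact Subgroup.inv_mem _ (Lib.Class.kc_mem hv (Subgroup.mem_top _))
      | succ n ih => exact Subgroup.commutator_mono ih le_top
    obtain ⟨n, hn⟩ : ∃ n, Group.nilpotencyClass P = n + 2 := by
      refine ⟨Group.nilpotencyClass P - 2, (Nat.sub_add_cancel ?_).symm⟩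
      by_contra h
      have := Subgroup.upperCentralSeries_eq_top_iff_nilpotencyClass_le.2 (show Group.nilpotencyClass P ≤ 1 by omega)
      rw [Subgroup.upperCentralSeries_one] at this
      exact hna ⟨⟨fun a b => Subgroup.mem_center_iff.1 (this ▸ Subgroup.mem_top b) a⟩⟩
    rw [hn, Nat.lt_succ_iff, ← Subgroup.lowerCentralSeries_eq_bot_iff_nilpotencyClass_le,
      ← Subgroup.map_eq_bot_iff_of_injective _ N.subtype_injective, Subgroup.top_subtype_lowerCentralSeries,
      eq_bot_iff, ← Subgroup.lowerCentralSeries_nilpotencyClass, hn]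
    exact h1 n
  exact ⟨key E hE, key F hF⟩

end Cfsg.Agent.S5067
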