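import Cfsg.Statements.S5069
import Mathlib
import Cfsg.Agent.Class.QuadComp

set_option autoImplicit false
universe u
open Cfsg

namespace Cfsg.Agent.S5069

/-- Let k be a field of characteristic not 2 with k not of order 3, M a finite-dimensional k-vector space and G ≤ GL(M) such that (G, M) is a quadratic pair (M irreducible for G, and G generated by its quadratically acting elements σ whose scalar family 1 + c(σ − 1), c ∈ k, lies in G). Write 𝒬_d for the quadratic elements of G of minimal commutator rank, E(σ) for the subgroup generated by the members of 𝒬_d with the same fixed space and commutator space as σ, and Σ for the set of these subgroups. Then Σ is a disjoint union of finitely many parts Σ₁, …, Σ_r such that the subgroups G_i generated by the Σ_i commute pairwise, each G_i is quasisimple, and inside G_i the members of Σ_i form a class of abstract root subgroups in which every rank one pair A, B contains subgroups A₀ ≤ A, B₀ ≤ B generating an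 image of SL₂(k₁) with central kernel on unitriangular subgroups for some field k₁ with at least four elements. -/
theorem result {k : Type u} [Field k] (hk2 : ringChar k ≠ 2) (hk3 : Nat.card k ≠ 3)
    {M : Type u} [AddCommGroup M] [Module k M] [FiniteDimensional k M]
    {G : Subgroup (LinearMap.GeneralLinearGroup k M)} (hG : Cfsg.IsQuadraticPair G) :
    ∃ (r : ℕ) (part : Fin r → Set (Subgroup (LinearMap.GeneralLinearGroup k M))),
      (⋃ i, part i) = Cfsg.quadraticRootSubgroups G ∧ (∀ i j, i ≠ j → Disjoint (part i) (part j)) ∧ (∀ i, (part i).Nonempty) ∧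
      (∀ i j, i ≠ j → ⁅(⨆ A ∈ part i, A), (⨆ A ∈ part j, A)⁆ = ⊥) ∧
      (∀ i, Cfsg.IsQuasisimple ↥(⨆ A ∈ part i, A) ∧
        Cfsg.IsRootSubgroupClass ((fun A : Subgroup (LinearMap.GeneralLinearGroup k M) => A.subgroupOf (⨆ B ∈ part i, B)) '' (part i)) ∧
        ∀ A ∈ part i, ∀ B ∈ Cfsg.rankOnePartners (part i) A, ∃ A₀ B₀ : Subgroup (LinearMap.GeneralLinearGroup k M), A₀ ≤ A ∧ B₀ ≤ B ∧
          ∃ (k₁ : Type u) (_ : Field k₁), 3 < ENat.card k₁ ∧ Cfsg.IsPSL2PairOver k₁ A₀ B₀) := by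
  have hN := Cfsg.Lib.Class.nu_of_isIrreducibleFor hG.1
  obtain ⟨r, v, hv, hne, hall⟩ := Cfsg.Lib.Class.exists_conn_reps hk2 hk3 hN
  refine ⟨r, fun i => Cfsg.Lib.Class.partQ G (v i), ?_, fun i j hij => ?_, fun i => ?_,
    fun i j hij => ?_, fun i => ?_⟩
  · ext A
    rw [Set.mem_iUnion, Cfsg.Lib.Class.mem_quadraticRootSubgroups_iff]
    constructor
    · rintro ⟨i, s, hs, rfl⟩
      exact ⟨s, hs.qd (hv i), rfl⟩
    · rintro ⟨t, ht, rfl⟩
      obtain ⟨i, hi⟩ := hall t ht
      exact ⟨i, t, hi, rfl⟩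
  · rw [Set.disjoint_left]
    rintro _ ⟨a, ha, rfl⟩ ⟨b, hb, hab⟩
    exact hne i j hij (ha.trans ((Cfsg.Lib.Class.conn_of_EG_eq hk2 hk3 hN (ha.qd (hv i))
      (hb.qd (hv j)) hab).trans (hb.symm hk2 hk3)))
  · exact ⟨_, v i, Cfsg.Lib.Class.Conn.refl _, rfl⟩
  · exact Cfsg.Lib.Class.commutator_GQ_eq_bot hk2 hk3 hN (hv i) (hv j) (hne i j hij)
  · refine ⟨Cfsg.Lib.Class.isQuasisimple_GQ hk2 hk3 hN (hv i),
      Cfsg.Lib.Class.isRootSubgroupClass_partQ hk2 hk3 hN (hv i), ?_⟩
    rintro _ ⟨a, ha, rfl⟩ _ ⟨⟨b, hb, rfl⟩, hab⟩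
    obtain ⟨A₀, B₀, h1, h2, h3⟩ := Cfsg.Lib.Class.exists_isPSL2PairOver_of_opp hk2 hk3 (hb.qd (hv i))
      (ha.qd (hv i)) ((Cfsg.Lib.Class.isRankOnePair_EG_iff hk2 hk3 (hb.qd (hv i)) (ha.qd (hv i))).1 hab)
    exact ⟨A₀, B₀, h1, h2, k, inferInstance, Cfsg.Lib.Class.three_lt_card hk2 hk3, h3⟩

end Cfsg.Agent.S5069
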