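import Cfsg.Statements.S5070
import Cfsg.Agent.Class.SpStab
import Cfsg.Agent.Class.HermSL2

set_option autoImplicit false
open Matrix
open Cfsg

namespace Cfsg.Agent.S5070

open Cfsg.Lib.Class
open scoped MatrixGroups

theorem rootClass_of_sl2Pair_top {X : Type*} [Group X] {K : Type*} [Field K]
    (S : Set (Subgroup X)) (hH : (⨆ B ∈ S, B) = ⊤) (h0 : S.Nonempty)
    (h1 : ∀ A ∈ S, IsMulCommutative A) (h2 : ∀ A ∈ S, A ≠ ⊥)
    (h3 : ∀ A ∈ S, ∀ g, conjBy A g ∈ S)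
    (h4 : ∀ A ∈ S, ∀ B ∈ S, ⁅A, B⁆ = ⊥ ∨ SL2Pair K A B)
    (h5 : ∀ A ∈ S, ∀ B ∈ S, SL2Pair K A B ∨ ∃ C ∈ S, SL2Pair K A C ∧ SL2Pair K C B) :
    IsRootSubgroupClass S ∧ IsDegenerateRootSet S ∧ IsKRootSubgroupSet K S ∧
      IsConnectedFamily (FAdj S) S := by
  have hset : IsRootSubgroupSet S := ⟨h1, h2, hH, h3,
    fun A hA B hB => (h4 A hA B hB).imp_right fun h => Or.inl h.isRankOnePair⟩
  have hc : ∀ A ∈ S, ∀ B ∈ S, SL2Pair K A B → ∃ g, B = conjBy A g := fun A hA B hB h => by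
    obtain ⟨g, -, e⟩ := exists_conjBy_of_isRankOnePair h.isRankOnePair (h2 A hA)
    exact ⟨g, e⟩
  refine ⟨⟨hset, h0, fun A hA B hB => ?_⟩, fun A hA B hB h => ?_, ⟨hset, fun A hA B hB h => ?_⟩,
    fun A hA B hB => ?_⟩
  · rcases h5 A hA B hB with h | ⟨C, hC, h, h'⟩
    · exact hc A hA B hB h
    · obtain ⟨g, rfl⟩ := hc A hA C hC h
      obtain ⟨g', rfl⟩ := hc _ hC B hB h'
      exact ⟨g' * g, conjBy_conjBy ..⟩
  · rcases h4 A hA B hB with h' | h'
    · exact h2 _ h.1 h'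
    · exact not_isRankOnePair_of_central (h2 A hA) (h1 B hB) h.2.1 h'.isRankOnePair
  · rcases h4 A hA B hB with h' | h'
    · exact absurd h (not_isRankOnePair_of_commutator_eq_bot (h2 A hA) h')
    · exact h'.isPSL2PairOver
  · rcases h5 A hA B hB with h | ⟨C, hC, h, h'⟩
    · exact .single ⟨hA, hB, h.isRankOnePair⟩
    · exact .tail (.single ⟨hA, hC, h.isRankOnePair⟩) ⟨hC, hB, h'.isRankOnePair⟩

theorem sl2Pair_spRoot {F V : Type*} [Field F] [AddCommGroup V] [Module F V]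
    {B : LinearMap.BilinForm F V} (hA : B.IsAlt) {u v : V} (huv : B u v ≠ 0) :
    SL2Pair F (spRoot hA u) (spRoot hA v) := by
  have hvu : B v u = - B u v := (hA.neg_eq u v).symm
  have hu0 : u ≠ 0 := by rintro rfl; simp at huv
  set δ := -(B u v ^ 2)⁻¹ with hδ
  have hδ0 : δ ≠ 0 := by simp [hδ, huv]
  let x : Module.End F V := (B.flip u).smulRight u
  let y : Module.End F V := (δ • B.flip v).smulRight v
  obtain ⟨χ, hχ, hU, hV⟩ := exists_sl2_hom_smul (x := x) (y := y)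
    (by ext w; simp [x, hA.self_eq_zero]) (by ext w; simp [y, hA.self_eq_zero])
    (by
      ext w
      simp only [x, y, Module.End.mul_apply, LinearMap.smulRight_apply, LinearMap.smul_apply,
        map_smul, smul_eq_mul, smul_smul, hδ, LinearMap.BilinForm.flip_apply, hvu]
      congr 1
      field_simp)
    (by
      ext w
      simp only [x, y, Module.End.mul_apply, LinearMap.smulRight_apply, LinearMap.smul_apply,
        map_smul, smul_eq_mul, smul_smul, hδ, LinearMap.BilinForm.flip_apply, hvu]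
      congr 1
      field_simp)
    (fun h => by simpa [x, hvu, huv, hu0] using LinearMap.congr_fun h v)
  let χ' : SL(2, F) →* (V ≃ₗ[F] V) :=
    (LinearMap.GeneralLinearGroup.generalLinearEquiv F V).toMonoidHom.comp χ
  have hU' : ∀ a, χ' (slU a) = altTEquiv hA u a := fun a => LinearEquiv.ext fun w => by
    change (χ (slU a) : Module.End F V) w = _
    rw [hU]
    simp [x, smul_smul, altTEquiv_apply']
  have hV' : ∀ a, χ' (slV a) = altTEquiv hA v (a * δ) := fun a => LinearEquiv.ext fun w => by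
    change (χ (slV a) : Module.End F V) w = _
    rw [hV]
    simp [y, smul_smul, altTEquiv_apply', mul_assoc]
  have hmem : ∀ g, χ' g ∈ SpB B := fun g => by
    have := sl2_eq_top_of_slU_slV ((SpB B).comap χ')
      (fun a => by rw [Subgroup.mem_comap, hU']; exact altTEquiv_mem_SpB hA _ _)
      (fun a => by rw [Subgroup.mem_comap, hV']; exact altTEquiv_mem_SpB hA _ _)
    exact (this ▸ Subgroup.mem_top g : g ∈ (SpB B).comap χ')
  refine ⟨χ'.codRestrict _ hmem, fun g g' hg => hχ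
    ((LinearMap.GeneralLinearGroup.generalLinearEquiv F V).injective (congrArg Subtype.val hg)),
    le_antisymm ?_ ?_, le_antisymm ?_ ?_⟩
  · rintro _ ⟨g, hg, rfl⟩
    obtain ⟨a, rfl⟩ := mem_upperUnipotentSL2.1 hg
    exact ⟨a, Subtype.ext (hU' a)⟩
  · rintro _ ⟨a, rfl⟩
    exact ⟨_, mem_upperUnipotentSL2.2 ⟨a, rfl⟩, Subtype.ext (hU' a)⟩
  · rintro _ ⟨g, hg, rfl⟩
    obtain ⟨a, rfl⟩ := mem_lowerUnipotentSL2.1 hg
    exact ⟨_, Subtype.ext (hV' a)⟩
  · rintro _ ⟨a, rfl⟩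
    refine ⟨_, mem_lowerUnipotentSL2.2 ⟨a / δ, rfl⟩, Subtype.ext ((hV' _).trans ?_)⟩
    rw [div_mul_cancel₀ _ hδ0]
    rfl

/-- Let F be a field, m a natural number and V = F^{2(m+1)} with the standard non-degenerate alternating form f(u, v) = uᵀ J v. For a non-zero vector p let T(p) be the group of symplectic transvections v ↦ v + c f(v, p) p, c ∈ F. Then the subgroups T(p), p ≠ 0, generate the symplectic group Sp_{2(m+1)}(F) and form a degenerate class of abstract F-root subgroups of it (any two of them either commute elementwise or are the unipotent subgroups of a rank one group that is an image of SL₂(F) with central kernel, never the commutator case), and their graph of rank one pairs is connected. -/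
theorem result (F : Type*) [Field F] (m : ℕ) :
    Cfsg.IsRootSubgroupClass {A : Subgroup ↥(Matrix.symplecticGroup (Fin (m + 1)) F) | ∃ p : Fin (m + 1) ⊕ Fin (m + 1) → F, p ≠ 0 ∧
        A = Subgroup.closure {g : ↥(Matrix.symplecticGroup (Fin (m + 1)) F) | ∃ c : F, ∀ v : Fin (m + 1) ⊕ Fin (m + 1) → F,
          (g : Matrix (Fin (m + 1) ⊕ Fin (m + 1)) (Fin (m + 1) ⊕ Fin (m + 1)) F) *ᵥ v =
            v + (c * (v ⬝ᵥ (Matrix.J (Fin (m + 1)) F *ᵥ p))) • p}} ∧
    Cfsg.IsDegenerateRootSet {A : Subgroup ↥(Matrix.symplecticGroup (Fin (m + 1)) F) | ∃ p : Fin (m + 1) ⊕ Fin (m + 1) → F, p ≠ 0 ∧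
        A = Subgroup.closure {g : ↥(Matrix.symplecticGroup (Fin (m + 1)) F) | ∃ c : F, ∀ v : Fin (m + 1) ⊕ Fin (m + 1) → F,
          (g : Matrix (Fin (m + 1) ⊕ Fin (m + 1)) (Fin (m + 1) ⊕ Fin (m + 1)) F) *ᵥ v =
            v + (c * (v ⬝ᵥ (Matrix.J (Fin (m + 1)) F *ᵥ p))) • p}} ∧
    Cfsg.IsKRootSubgroupSet F {A : Subgroup ↥(Matrix.symplecticGroup (Fin (m + 1)) F) | ∃ p : Fin (m + 1) ⊕ Fin (m + 1) → F, p ≠ 0 ∧
        A = Subgroup.closure {g : ↥(Matrix.symplecticGroup (Fin (m + 1)) F) | ∃ c : F, ∀ v : Fin (m + 1) ⊕ Fin (m + 1) → F,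
          (g : Matrix (Fin (m + 1) ⊕ Fin (m + 1)) (Fin (m + 1) ⊕ Fin (m + 1)) F) *ᵥ v =
            v + (c * (v ⬝ᵥ (Matrix.J (Fin (m + 1)) F *ᵥ p))) • p}} ∧
    Cfsg.IsConnectedFamily (Cfsg.FAdj {A : Subgroup ↥(Matrix.symplecticGroup (Fin (m + 1)) F) | ∃ p : Fin (m + 1) ⊕ Fin (m + 1) → F, p ≠ 0 ∧
        A = Subgroup.closure {g : ↥(Matrix.symplecticGroup (Fin (m + 1)) F) | ∃ c : F, ∀ v : Fin (m + 1) ⊕ Fin (m + 1) → F,
          (g : Matrix (Fin (m + 1) ⊕ Fin (m + 1)) (Fin (m + 1) ⊕ Fin (m + 1)) F) *ᵥ v =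
            v + (c * (v ⬝ᵥ (Matrix.J (Fin (m + 1)) F *ᵥ p))) • p}})
      {A : Subgroup ↥(Matrix.symplecticGroup (Fin (m + 1)) F) | ∃ p : Fin (m + 1) ⊕ Fin (m + 1) → F, p ≠ 0 ∧
        A = Subgroup.closure {g : ↥(Matrix.symplecticGroup (Fin (m + 1)) F) | ∃ c : F, ∀ v : Fin (m + 1) ⊕ Fin (m + 1) → F,
          (g : Matrix (Fin (m + 1) ⊕ Fin (m + 1)) (Fin (m + 1) ⊕ Fin (m + 1)) F) *ᵥ v =
            v + (c * (v ⬝ᵥ (Matrix.J (Fin (m + 1)) F *ᵥ p))) • p}} := by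
  have hB := sympBilin_nondegenerate (F := F) (m + 1)
  have hA := sympBilin_isAlt (F := F) (m + 1)
  let e := spEquivSpB (m + 1) F
  generalize hS : {A : Subgroup ↥(Matrix.symplecticGroup (Fin (m + 1)) F) | ∃ p : Fin (m + 1) ⊕ Fin (m + 1) → F, p ≠ 0 ∧
        A = Subgroup.closure {g : ↥(Matrix.symplecticGroup (Fin (m + 1)) F) | ∃ c : F, ∀ v : Fin (m + 1) ⊕ Fin (m + 1) → F,
          (g : Matrix (Fin (m + 1) ⊕ Fin (m + 1)) (Fin (m + 1) ⊕ Fin (m + 1)) F) *ᵥ v =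
            v + (c * (v ⬝ᵥ (Matrix.J (Fin (m + 1)) F *ᵥ p))) • p}} = S
  have hS' : ∀ A, A ∈ S ↔ ∃ p, p ≠ 0 ∧ A = (spRoot hA p).map e.symm.toMonoidHom := by
    intro A
    rw [← hS]
    refine exists_congr fun p => and_congr_right fun hp0 => ?_
    refine Eq.congr_right (le_antisymm ((Subgroup.closure_le _).2 fun g hg => ?_) fun g hg =>
      Subgroup.subset_closure ?_)
    · obtain ⟨c, hc⟩ := hg
      refine ⟨e g, ⟨c, Subtype.ext (LinearEquiv.ext fun v => ?_)⟩, e.symm_apply_apply g⟩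
      rw [spEquivSpB_apply, hc, coe_spT, altTEquiv_apply', sympBilin_apply]
      rfl
    · obtain ⟨_, ⟨c, rfl⟩, rfl⟩ := hg
      refine ⟨c, fun v => (spEquivSpB_symm_mulVec _ _ v).trans ?_⟩
      rw [coe_spT, altTEquiv_apply', sympBilin_apply]
      rfl
  have hpair : ∀ {u v}, sympBilin (m + 1) F u v ≠ 0 → SL2Pair F
      ((spRoot hA u).map e.symm.toMonoidHom) ((spRoot hA v).map e.symm.toMonoidHom) :=
    fun huv => (sl2Pair_spRoot hA huv).map e.symm.injective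
  have hcomm : ∀ {u v}, sympBilin (m + 1) F u v = 0 →
      ⁅(spRoot hA u).map e.symm.toMonoidHom, (spRoot hA v).map e.symm.toMonoidHom⁆ = ⊥ :=
    fun {u v} huv => by
      rw [← Subgroup.map_commutator, Subgroup.map_eq_bot_iff_of_injective _ e.symm.injective,
        Subgroup.commutator_eq_bot_iff_le_centralizer]
      rintro _ ⟨c, rfl⟩ _ ⟨d, rfl⟩
      exact Subtype.ext (altTEquiv_commute hA huv c d).symm
  refine rootClass_of_sl2Pair_top (K := F) S ?_ ?_ (fun A hA' => ?_) (fun A hA' => ?_)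
    (fun A hA' g => ?_) (fun A hA' A' hA'' => ?_) (fun A hA' A' hA'' => ?_)
  · refine symplecticGroup_eq_top_of_transvection_mem _ _ fun v c => ?_
    have h1 : (⟨sympTransvection (m + 1) v c, sympTransvection_mem (m + 1) v c⟩ :
        Matrix.symplecticGroup (Fin (m + 1)) F) = e.symm (spT hA v c) :=
      Subtype.ext (coe_spEquivSpB_symm_spT _ v c).symm
    rw [h1]
    by_cases hv : v = 0
    · rw [hv, spT_zero_left, map_one]
      exact one_mem _
    · exact le_iSup₂_of_le (f := fun B (_ : B ∈ S) => B) _ ((hS' _).2 ⟨v, hv, rfl⟩) le_rfl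
        ⟨_, ⟨c, rfl⟩, rfl⟩
  · obtain ⟨u, hu⟩ := exists_ne (0 : Fin (m + 1) ⊕ Fin (m + 1) → F)
    exact ⟨_, (hS' _).2 ⟨u, hu, rfl⟩⟩
  · obtain ⟨u, hu0, rfl⟩ := (hS' A).1 hA'
    rw [← Subgroup.le_centralizer_iff_isMulCommutative,
      ← Subgroup.commutator_eq_bot_iff_le_centralizer, hcomm (hA.self_eq_zero u)]
  · obtain ⟨u, hu0, rfl⟩ := (hS' A).1 hA'
    rw [Ne, Subgroup.map_eq_bot_iff_of_injective _ e.symm.injective]
    intro h0
    obtain ⟨x, hx⟩ := exists_alt_eq_one hB hu0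
    have h1 := (Subgroup.eq_bot_iff_forall _).1 h0 _ ⟨1, rfl⟩
    have h2 := congrArg (fun g : SpB (sympBilin (m + 1) F) => g.1 x) h1
    have h3 : sympBilin (m + 1) F x u = -1 := by rw [← hA.neg_eq, hx]
    simp [altTEquiv_apply', h3, hu0, -sympBilin_apply] at h2
  · obtain ⟨u, hu0, rfl⟩ := (hS' A).1 hA'
    obtain ⟨g, rfl⟩ := e.symm.surjective g
    refine (hS' _).2 ⟨g.1 u, by simpa using hu0, ?_⟩
    rw [← spRoot_conj]
    exact (map_conjBy e.symm.toMonoidHom _ g).symm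
  · obtain ⟨u, hu0, rfl⟩ := (hS' A).1 hA'
    obtain ⟨v, hv0, rfl⟩ := (hS' A').1 hA''
    by_cases huv : sympBilin (m + 1) F u v = 0
    exacts [Or.inl (hcomm huv), Or.inr (hpair huv)]
  · obtain ⟨u, hu0, rfl⟩ := (hS' A).1 hA'
    obtain ⟨v, hv0, rfl⟩ := (hS' A').1 hA''
    obtain ⟨x, hx⟩ := exists_alt_eq_one hB hu0
    obtain ⟨y, hy⟩ := exists_alt_eq_one hB hv0
    obtain ⟨z, -, h1, h2⟩ := exists_mem_both_ne_zero ⊤ (sympBilin (m + 1) F u)
      (sympBilin (m + 1) F v) ⟨x, trivial, by simp [hx, -sympBilin_apply]⟩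
      ⟨y, trivial, by simp [hy, -sympBilin_apply]⟩
    exact Or.inr ⟨_, (hS' _).2 ⟨z, by rintro rfl; exact h1 (map_zero _), rfl⟩, hpair h1,
      hpair (alt_ne_zero_comm hA h2)⟩

end Cfsg.Agent.S5070
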