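import Cfsg.Statements.S5071
import Cfsg.Agent.Class.HermSL2

set_option autoImplicit false
open Matrix
open Cfsg

namespace Cfsg.Agent.S5071

open Cfsg.Lib.Class Cfsg.Lib.Class.Form

/-- Let F be a finite field with q² elements, n a natural number, and h the Hermitian form Σ uᵢ vᵢ^q on F^{n+2}. For a non-zero isotropic vector p let T(p) be the group of unitary transvections with centre ⟨p⟩: the elements of SU_{n+2}(q) moving every vector by a multiple of p and fixing every vector perpendicular to p. Let Σ be the set of these T(p) and G₀ the subgroup they generate. Then, viewed inside G₀, the members of Σ form a degenerate class of abstract k-root subgroups of G₀ for some field k with q elements (any two commute or are the unipotent subgroups of a rank one group that is an image of SL₂(k) with central kernel, never the commutator case), and their graph of rank one pairs is connected. -/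
theorem result (F : Type*) [Field F] [Fintype F] (q n : ℕ) (hF : Fintype.card F = q ^ 2) :
    Cfsg.IsRootSubgroupClass ((fun A : Subgroup ↥(Cfsg.SU (n + 2) F q) => A.subgroupOf (⨆ B ∈ {A : Subgroup ↥(Cfsg.SU (n + 2) F q) | ∃ p : Fin (n + 2) → F, p ≠ 0 ∧ Cfsg.hermForm (n + 2) F q p p = 0 ∧
          A = Subgroup.closure {g : ↥(Cfsg.SU (n + 2) F q) |
            (∀ v : Fin (n + 2) → F, ∃ c : F, ((g : Matrix.SpecialLinearGroup (Fin (n + 2)) F) : Matrix (Fin (n + 2)) (Fin (n + 2)) F) *ᵥ v = v + c • p) ∧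
            ∀ v : Fin (n + 2) → F, Cfsg.hermForm (n + 2) F q v p = 0 →
              ((g : Matrix.SpecialLinearGroup (Fin (n + 2)) F) : Matrix (Fin (n + 2)) (Fin (n + 2)) F) *ᵥ v = v}}, B)) ''
      {A : Subgroup ↥(Cfsg.SU (n + 2) F q) | ∃ p : Fin (n + 2) → F, p ≠ 0 ∧ Cfsg.hermForm (n + 2) F q p p = 0 ∧
          A = Subgroup.closure {g : ↥(Cfsg.SU (n + 2) F q) |
            (∀ v : Fin (n + 2) → F, ∃ c : F, ((g : Matrix.SpecialLinearGroup (Fin (n + 2)) F) : Matrix (Fin (n + 2)) (Fin (n + 2)) F) *ᵥ v = v + c • p) ∧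
            ∀ v : Fin (n + 2) → F, Cfsg.hermForm (n + 2) F q v p = 0 →
              ((g : Matrix.SpecialLinearGroup (Fin (n + 2)) F) : Matrix (Fin (n + 2)) (Fin (n + 2)) F) *ᵥ v = v}}) ∧
    Cfsg.IsDegenerateRootSet ((fun A : Subgroup ↥(Cfsg.SU (n + 2) F q) => A.subgroupOf (⨆ B ∈ {A : Subgroup ↥(Cfsg.SU (n + 2) F q) | ∃ p : Fin (n + 2) → F, p ≠ 0 ∧ Cfsg.hermForm (n + 2) F q p p = 0 ∧
          A = Subgroup.closure {g : ↥(Cfsg.SU (n + 2) F q) |
            (∀ v : Fin (n + 2) → F, ∃ c : F, ((g : Matrix.SpecialLinearGroup (Fin (n + 2)) F) : Matrix (Fin (n + 2)) (Fin (n + 2)) F) *ᵥ v = v + c • p) ∧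
            ∀ v : Fin (n + 2) → F, Cfsg.hermForm (n + 2) F q v p = 0 →
              ((g : Matrix.SpecialLinearGroup (Fin (n + 2)) F) : Matrix (Fin (n + 2)) (Fin (n + 2)) F) *ᵥ v = v}}, B)) ''
      {A : Subgroup ↥(Cfsg.SU (n + 2) F q) | ∃ p : Fin (n + 2) → F, p ≠ 0 ∧ Cfsg.hermForm (n + 2) F q p p = 0 ∧
          A = Subgroup.closure {g : ↥(Cfsg.SU (n + 2) F q) |
            (∀ v : Fin (n + 2) → F, ∃ c : F, ((g : Matrix.SpecialLinearGroup (Fin (n + 2)) F) : Matrix (Fin (n + 2)) (Fin (n + 2)) F) *ᵥ v = v + c • p) ∧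
            ∀ v : Fin (n + 2) → F, Cfsg.hermForm (n + 2) F q v p = 0 →
              ((g : Matrix.SpecialLinearGroup (Fin (n + 2)) F) : Matrix (Fin (n + 2)) (Fin (n + 2)) F) *ᵥ v = v}}) ∧
    (∃ (L : Type) (_ : Field L) (_ : Fintype L), Fintype.card L = q ∧ Cfsg.IsKRootSubgroupSet L ((fun A : Subgroup ↥(Cfsg.SU (n + 2) F q) => A.subgroupOf (⨆ B ∈ {A : Subgroup ↥(Cfsg.SU (n + 2) F q) | ∃ p : Fin (n + 2) → F, p ≠ 0 ∧ Cfsg.hermForm (n + 2) F q p p = 0 ∧
          A = Subgroup.closure {g : ↥(Cfsg.SU (n + 2) F q) |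
            (∀ v : Fin (n + 2) → F, ∃ c : F, ((g : Matrix.SpecialLinearGroup (Fin (n + 2)) F) : Matrix (Fin (n + 2)) (Fin (n + 2)) F) *ᵥ v = v + c • p) ∧
            ∀ v : Fin (n + 2) → F, Cfsg.hermForm (n + 2) F q v p = 0 →
              ((g : Matrix.SpecialLinearGroup (Fin (n + 2)) F) : Matrix (Fin (n + 2)) (Fin (n + 2)) F) *ᵥ v = v}}, B)) ''
      {A : Subgroup ↥(Cfsg.SU (n + 2) F q) | ∃ p : Fin (n + 2) → F, p ≠ 0 ∧ Cfsg.hermForm (n + 2) F q p p = 0 ∧
          A = Subgroup.closure {g : ↥(Cfsg.SU (n + 2) F q) |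
            (∀ v : Fin (n + 2) → F, ∃ c : F, ((g : Matrix.SpecialLinearGroup (Fin (n + 2)) F) : Matrix (Fin (n + 2)) (Fin (n + 2)) F) *ᵥ v = v + c • p) ∧
            ∀ v : Fin (n + 2) → F, Cfsg.hermForm (n + 2) F q v p = 0 →
              ((g : Matrix.SpecialLinearGroup (Fin (n + 2)) F) : Matrix (Fin (n + 2)) (Fin (n + 2)) F) *ᵥ v = v}})) ∧
    Cfsg.IsConnectedFamily (Cfsg.FAdj ((fun A : Subgroup ↥(Cfsg.SU (n + 2) F q) => A.subgroupOf (⨆ B ∈ {A : Subgroup ↥(Cfsg.SU (n + 2) F q) | ∃ p : Fin (n + 2) → F, p ≠ 0 ∧ Cfsg.hermForm (n + 2) F q p p = 0 ∧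
          A = Subgroup.closure {g : ↥(Cfsg.SU (n + 2) F q) |
            (∀ v : Fin (n + 2) → F, ∃ c : F, ((g : Matrix.SpecialLinearGroup (Fin (n + 2)) F) : Matrix (Fin (n + 2)) (Fin (n + 2)) F) *ᵥ v = v + c • p) ∧
            ∀ v : Fin (n + 2) → F, Cfsg.hermForm (n + 2) F q v p = 0 →
              ((g : Matrix.SpecialLinearGroup (Fin (n + 2)) F) : Matrix (Fin (n + 2)) (Fin (n + 2)) F) *ᵥ v = v}}, B)) ''
      {A : Subgroup ↥(Cfsg.SU (n + 2) F q) | ∃ p : Fin (n + 2) → F, p ≠ 0 ∧ Cfsg.hermForm (n + 2) F q p p = 0 ∧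
          A = Subgroup.closure {g : ↥(Cfsg.SU (n + 2) F q) |
            (∀ v : Fin (n + 2) → F, ∃ c : F, ((g : Matrix.SpecialLinearGroup (Fin (n + 2)) F) : Matrix (Fin (n + 2)) (Fin (n + 2)) F) *ᵥ v = v + c • p) ∧
            ∀ v : Fin (n + 2) → F, Cfsg.hermForm (n + 2) F q v p = 0 →
              ((g : Matrix.SpecialLinearGroup (Fin (n + 2)) F) : Matrix (Fin (n + 2)) (Fin (n + 2)) F) *ᵥ v = v}})) ((fun A : Subgroup ↥(Cfsg.SU (n + 2) F q) => A.subgroupOf (⨆ B ∈ {A : Subgroup ↥(Cfsg.SU (n + 2) F q) | ∃ p : Fin (n + 2) → F, p ≠ 0 ∧ Cfsg.hermForm (n + 2) F q p p = 0 ∧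
          A = Subgroup.closure {g : ↥(Cfsg.SU (n + 2) F q) |
            (∀ v : Fin (n + 2) → F, ∃ c : F, ((g : Matrix.SpecialLinearGroup (Fin (n + 2)) F) : Matrix (Fin (n + 2)) (Fin (n + 2)) F) *ᵥ v = v + c • p) ∧
            ∀ v : Fin (n + 2) → F, Cfsg.hermForm (n + 2) F q v p = 0 →
              ((g : Matrix.SpecialLinearGroup (Fin (n + 2)) F) : Matrix (Fin (n + 2)) (Fin (n + 2)) F) *ᵥ v = v}}, B)) ''
      {A : Subgroup ↥(Cfsg.SU (n + 2) F q) | ∃ p : Fin (n + 2) → F, p ≠ 0 ∧ Cfsg.hermForm (n + 2) F q p p = 0 ∧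
          A = Subgroup.closure {g : ↥(Cfsg.SU (n + 2) F q) |
            (∀ v : Fin (n + 2) → F, ∃ c : F, ((g : Matrix.SpecialLinearGroup (Fin (n + 2)) F) : Matrix (Fin (n + 2)) (Fin (n + 2)) F) *ᵥ v = v + c • p) ∧
            ∀ v : Fin (n + 2) → F, Cfsg.hermForm (n + 2) F q v p = 0 →
              ((g : Matrix.SpecialLinearGroup (Fin (n + 2)) F) : Matrix (Fin (n + 2)) (Fin (n + 2)) F) *ᵥ v = v}}) := by
  have h := herm_hermSesq hF (n + 2)
  let B := hermSesq hF (n + 2)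
  let e : SU (n + 2) F q ≃* sIsom B := suEquivSIsom hF (n + 2)
  generalize hS : {A : Subgroup ↥(Cfsg.SU (n + 2) F q) | ∃ p : Fin (n + 2) → F, p ≠ 0 ∧ Cfsg.hermForm (n + 2) F q p p = 0 ∧
          A = Subgroup.closure {g : ↥(Cfsg.SU (n + 2) F q) |
            (∀ v : Fin (n + 2) → F, ∃ c : F, ((g : Matrix.SpecialLinearGroup (Fin (n + 2)) F) : Matrix (Fin (n + 2)) (Fin (n + 2)) F) *ᵥ v = v + c • p) ∧
            ∀ v : Fin (n + 2) → F, Cfsg.hermForm (n + 2) F q v p = 0 →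
              ((g : Matrix.SpecialLinearGroup (Fin (n + 2)) F) : Matrix (Fin (n + 2)) (Fin (n + 2)) F) *ᵥ v = v}} = S
  have hS' : ∀ A, A ∈ S ↔ ∃ p, p ≠ 0 ∧ B p p = 0 ∧
      A = (Herm.movingInto B (Submodule.span F {p})).map e.symm.toMonoidHom := by
    intro A
    rw [← hS]
    refine exists_congr fun p => and_congr_right fun hp0 => and_congr_right fun hp => ?_
    replace hp : B p p = 0 := hp
    refine Eq.congr_right (le_antisymm ((Subgroup.closure_le _).2 fun g hg => ?_) fun g hg =>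
      Subgroup.subset_closure ?_)
    · refine ⟨e g, fun x => ?_, e.symm_apply_apply g⟩
      obtain ⟨c, hc⟩ := hg.1 x
      exact Submodule.mem_span_singleton.2 ⟨c, by
        rw [sIsom_smul_def, suEquivSIsom_apply, hc, add_sub_cancel_left]⟩
    · obtain ⟨g, hg, rfl⟩ := hg
      obtain ⟨c, hc, e'⟩ := (h.mem_movingInto_iff hp0 hp).1 hg
      refine ⟨fun v => ⟨c * B p v, ?_⟩, fun v hv => ?_⟩
      · exact (suEquivSIsom_symm_mulVec hF _ g v).trans (by rw [e', h.transv_apply])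
      · refine (suEquivSIsom_symm_mulVec hF _ g v).trans ?_
        rw [e', h.transv_apply, show B p v = 0 from hv, mul_zero, zero_smul, add_zero]
  obtain ⟨p, k, hp, -, -, hq⟩ := exists_prime_pow_of_card_sq hF
  have := Fact.mk hp
  have hk : k ≠ 0 := by
    rintro rfl
    have := two_le_of_card_sq hF
    simp at hq
    omega
  let L := GaloisField p k
  let _ : Fintype L := Fintype.ofFinite L
  have hL : Fintype.card L = q := by
    rw [← Nat.card_eq_fintype_card, GaloisField.card p k hk, hq]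
  obtain ⟨φ, hφ⟩ := exists_ringHom_fixed hF hL
  have hpair : ∀ {u v}, B u u = 0 → B v v = 0 → B u v ≠ 0 → SL2Pair L
      ((Herm.movingInto B (Submodule.span F {u})).map e.symm.toMonoidHom)
      ((Herm.movingInto B (Submodule.span F {v})).map e.symm.toMonoidHom) := fun hu hv huv =>
    (h.sl2Pair_movingInto φ hφ hu hv huv).map e.symm.injective
  obtain ⟨a, b, c, d⟩ := rootClass_of_sl2Pair (K := L) S (by
      obtain ⟨u, hu0, hu⟩ := h.exists_isotropic (by simp)
      exact ⟨_, (hS' _).2 ⟨u, hu0, hu, rfl⟩⟩)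
    (fun A hA => by
      obtain ⟨u, hu0, hu, rfl⟩ := (hS' A).1 hA
      rw [← Subgroup.le_centralizer_iff_isMulCommutative,
        ← Subgroup.commutator_eq_bot_iff_le_centralizer, ← Subgroup.map_commutator,
        h.commutator_movingInto hu0 hu0 hu hu hu, Subgroup.map_bot])
    (fun A hA => by
      obtain ⟨u, hu0, hu, rfl⟩ := (hS' A).1 hA
      rw [Ne, Subgroup.map_eq_bot_iff_of_injective _ e.symm.injective]
      exact h.movingInto_ne_bot hu0 hu)
    (fun A hA g => by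
      obtain ⟨u, hu0, hu, rfl⟩ := (hS' A).1 hA
      obtain ⟨g, rfl⟩ := e.symm.surjective g
      refine (hS' _).2 ⟨g • u, by simpa [sIsom_smul_def] using hu0,
        by rw [sIsom_smul_def, isom_apply, hu], ?_⟩
      rw [← Herm.conjBy_movingInto, map_conjBy]
      rfl)
    (fun A hA A' hA' => by
      obtain ⟨u, hu0, hu, rfl⟩ := (hS' A).1 hA
      obtain ⟨v, hv0, hv, rfl⟩ := (hS' A').1 hA'
      by_cases huv : B u v = 0
      · left
        rw [← Subgroup.map_commutator, h.commutator_movingInto hu0 hv0 hu hv huv, Subgroup.map_bot]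
      · exact Or.inr (hpair hu hv huv))
    (fun A hA A' hA' => by
      obtain ⟨u, hu0, hu, rfl⟩ := (hS' A).1 hA
      obtain ⟨v, hv0, hv, rfl⟩ := (hS' A').1 hA'
      by_cases huv : B u v = 0
      · obtain ⟨z, hz, huz, hvz⟩ := h.exists_isotropic_ne_ne hu0 hv0 hu huv
        exact Or.inr ⟨_, (hS' _).2 ⟨z, by rintro rfl; exact huz (map_zero _), hz, rfl⟩, hpair hu hz huz,
          hpair hz hv (h.ne_comm hvz)⟩
      · exact Or.inl (hpair hu hv huv))
  exact ⟨a, b, ⟨L, inferInstance, inferInstance, hL, c⟩, d⟩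

end Cfsg.Agent.S5071
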