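import Cfsg.Statements.S5072
import Cfsg.Agent.Mit.Sieg

set_option autoImplicit false
open Matrix
open Cfsg

namespace Cfsg.Agent.S5072

open Matrix in
theorem aux {F : Type*} [Field F] {ι : Type} [Fintype ι] [DecidableEq ι]
    (Q : QuadraticForm F (ι → F)) (hQ : (QuadraticMap.polarBilin Q).Nondegenerate)
    (H : Cfsg.Lib.Mit.Sg.H3 Q) (P : (ι → F) → F) (hP : ⇑Q = P)
    (S : Set (Subgroup ↥(Cfsg.isometryGroup F P)))
    (hS : S = {A : Subgroup ↥(Cfsg.isometryGroup F P) | ∃ p r : ι → F,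
      LinearIndependent F ![p, r] ∧ P p = 0 ∧ P r = 0 ∧ P (p + r) = 0 ∧
      A = Subgroup.closure {σ : ↥(Cfsg.isometryGroup F P) | ∀ v : ι → F,
        P (v + p) - P v - P p = 0 → P (v + r) - P v - P r = 0 →
          ((σ : Matrix.GeneralLinearGroup ι F) : Matrix ι ι F) *ᵥ v = v}}) :
    Cfsg.IsKRootSubgroupSet F ((fun A : Subgroup ↥(Cfsg.isometryGroup F P) =>
      A.subgroupOf (⨆ B ∈ S, B)) '' S) ∧ Cfsg.IsConnectedFamily (Cfsg.FAdj S) S := by
  subst hP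
  refine Cfsg.Lib.Mit.Sg.main hQ H (Cfsg.Lib.Class.oEquivIsom Q).symm S ?_
  have key : ∀ p r : ι → F, Subgroup.closure {σ : ↥(Cfsg.isometryGroup F Q) | ∀ v : ι → F,
        Q (v + p) - Q v - Q p = 0 → Q (v + r) - Q v - Q r = 0 →
          ((σ : Matrix.GeneralLinearGroup ι F) : Matrix ι ι F) *ᵥ v = v} =
      (Cfsg.Lib.Mit.Sg.T Q p r).map ((Cfsg.Lib.Class.oEquivIsom Q).symm :
        Cfsg.Lib.Class.Orth.O Q →* Cfsg.isometryGroup F Q) := fun p r => by
    rw [← Subgroup.comap_equiv_eq_map_symm, ← Subgroup.closure_eq (Subgroup.comap _ _)]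
    rfl
  rw [hS]
  ext A
  constructor
  · rintro ⟨p, r, h1, h2, h3, h4, rfl⟩
    refine ⟨_, ⟨p, r, ⟨h1, h2, h3, ?_⟩, rfl⟩, (key p r).symm⟩
    rw [QuadraticMap.polar, h2, h3, h4]; ring
  · rintro ⟨_, ⟨p, r, h, rfl⟩, rfl⟩
    refine ⟨p, r, h.li, h.hp, h.hr, ?_, (key p r).symm⟩
    rw [Cfsg.Lib.Class.Orth.Q_add, h.hp, h.hr, h.hpr]; ring

/-- Let F be a field, m a natural number and V = F^{2(m+3)} with the hyperbolic quadratic form q(x, y) = Σ xᵢ yᵢ (non-degenerate, Witt index m + 3 ≥ 3). For a singular line ℓ (a 2-dimensional subspace on which q vanishes) let T(ℓ) be the group of isometries of q fixing every vector of ℓ^⊥ (the Siegel transvection group of ℓ), let Σ be the set of these groups and G₀ the subgroup they generate. Then, viewed inside G₀, the members of Σ form a set of abstract F-root subgroups of G₀ (any two commute, or are the unipotent subgroups of a rank one group that is an image of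 SL₂(F) with central kernel, or satisfy the commutator case), and their graph of rank one pairs is connected. -/
theorem result (F : Type*) [Field F] (m : ℕ) :
    Cfsg.IsKRootSubgroupSet F ((fun A : Subgroup ↥(Cfsg.isometryGroup F (Cfsg.quadFormPlus (m + 3) F)) => A.subgroupOf (⨆ B ∈ {A : Subgroup ↥(Cfsg.isometryGroup F (Cfsg.quadFormPlus (m + 3) F)) | ∃ p r : Fin (m + 3) ⊕ Fin (m + 3) → F, LinearIndependent F ![p, r] ∧
          Cfsg.quadFormPlus (m + 3) F p = 0 ∧ Cfsg.quadFormPlus (m + 3) F r = 0 ∧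
          Cfsg.quadFormPlus (m + 3) F (p + r) = 0 ∧
          A = Subgroup.closure {σ : ↥(Cfsg.isometryGroup F (Cfsg.quadFormPlus (m + 3) F)) | ∀ v : Fin (m + 3) ⊕ Fin (m + 3) → F,
            Cfsg.quadFormPlus (m + 3) F (v + p) - Cfsg.quadFormPlus (m + 3) F v - Cfsg.quadFormPlus (m + 3) F p = 0 →
            Cfsg.quadFormPlus (m + 3) F (v + r) - Cfsg.quadFormPlus (m + 3) F v - Cfsg.quadFormPlus (m + 3) F r = 0 →
              ((σ : Matrix.GeneralLinearGroup (Fin (m + 3) ⊕ Fin (m + 3)) F) : Matrix (Fin (m + 3) ⊕ Fin (m + 3)) (Fin (m + 3) ⊕ Fin (m + 3)) F) *ᵥ v = v}}, B)) ''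
      {A : Subgroup ↥(Cfsg.isometryGroup F (Cfsg.quadFormPlus (m + 3) F)) | ∃ p r : Fin (m + 3) ⊕ Fin (m + 3) → F, LinearIndependent F ![p, r] ∧
          Cfsg.quadFormPlus (m + 3) F p = 0 ∧ Cfsg.quadFormPlus (m + 3) F r = 0 ∧
          Cfsg.quadFormPlus (m + 3) F (p + r) = 0 ∧
          A = Subgroup.closure {σ : ↥(Cfsg.isometryGroup F (Cfsg.quadFormPlus (m + 3) F)) | ∀ v : Fin (m + 3) ⊕ Fin (m + 3) → F,
            Cfsg.quadFormPlus (m + 3) F (v + p) - Cfsg.quadFormPlus (m + 3) F v - Cfsg.quadFormPlus (m + 3) F p = 0 →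
            Cfsg.quadFormPlus (m + 3) F (v + r) - Cfsg.quadFormPlus (m + 3) F v - Cfsg.quadFormPlus (m + 3) F r = 0 →
              ((σ : Matrix.GeneralLinearGroup (Fin (m + 3) ⊕ Fin (m + 3)) F) : Matrix (Fin (m + 3) ⊕ Fin (m + 3)) (Fin (m + 3) ⊕ Fin (m + 3)) F) *ᵥ v = v}}) ∧
    Cfsg.IsConnectedFamily (Cfsg.FAdj {A : Subgroup ↥(Cfsg.isometryGroup F (Cfsg.quadFormPlus (m + 3) F)) | ∃ p r : Fin (m + 3) ⊕ Fin (m + 3) → F, LinearIndependent F ![p, r] ∧
          Cfsg.quadFormPlus (m + 3) F p = 0 ∧ Cfsg.quadFormPlus (m + 3) F r = 0 ∧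
          Cfsg.quadFormPlus (m + 3) F (p + r) = 0 ∧
          A = Subgroup.closure {σ : ↥(Cfsg.isometryGroup F (Cfsg.quadFormPlus (m + 3) F)) | ∀ v : Fin (m + 3) ⊕ Fin (m + 3) → F,
            Cfsg.quadFormPlus (m + 3) F (v + p) - Cfsg.quadFormPlus (m + 3) F v - Cfsg.quadFormPlus (m + 3) F p = 0 →
            Cfsg.quadFormPlus (m + 3) F (v + r) - Cfsg.quadFormPlus (m + 3) F v - Cfsg.quadFormPlus (m + 3) F r = 0 →
              ((σ : Matrix.GeneralLinearGroup (Fin (m + 3) ⊕ Fin (m + 3)) F) : Matrix (Fin (m + 3) ⊕ Fin (m + 3)) (Fin (m + 3) ⊕ Fin (m + 3)) F) *ᵥ v = v}})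
      {A : Subgroup ↥(Cfsg.isometryGroup F (Cfsg.quadFormPlus (m + 3) F)) | ∃ p r : Fin (m + 3) ⊕ Fin (m + 3) → F, LinearIndependent F ![p, r] ∧
          Cfsg.quadFormPlus (m + 3) F p = 0 ∧ Cfsg.quadFormPlus (m + 3) F r = 0 ∧
          Cfsg.quadFormPlus (m + 3) F (p + r) = 0 ∧
          A = Subgroup.closure {σ : ↥(Cfsg.isometryGroup F (Cfsg.quadFormPlus (m + 3) F)) | ∀ v : Fin (m + 3) ⊕ Fin (m + 3) → F,
            Cfsg.quadFormPlus (m + 3) F (v + p) - Cfsg.quadFormPlus (m + 3) F v - Cfsg.quadFormPlus (m + 3) F p = 0 →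
            Cfsg.quadFormPlus (m + 3) F (v + r) - Cfsg.quadFormPlus (m + 3) F v - Cfsg.quadFormPlus (m + 3) F r = 0 →
              ((σ : Matrix.GeneralLinearGroup (Fin (m + 3) ⊕ Fin (m + 3)) F) : Matrix (Fin (m + 3) ⊕ Fin (m + 3)) (Fin (m + 3) ⊕ Fin (m + 3)) F) *ᵥ v = v}} := by

  exact aux (Cfsg.Lib.Class.quadPlus (m + 3) F) (Cfsg.Lib.Class.quadPlus_nondegenerate _)
    (Cfsg.Lib.Mit.Sg.H3_plus m) _ (Cfsg.Lib.Class.coe_quadPlus _) _ rfl

end Cfsg.Agent.S5072
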