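import Cfsg.Statements.S5073
import Mathlib
import Cfsg.Agent.Class.QuadComm

set_option autoImplicit false
universe u
open Cfsg

namespace Cfsg.Agent.S5073

/-- Let k be a field of characteristic not 2 with k not of order 3, M a finite-dimensional k-vector space and G ≤ GL(M) such that (G, M) is a quadratic pair (M irreducible for G, and G generated by its quadratically acting elements σ whose scalar family 1 + c(σ − 1), c ∈ k, lies in G). Write 𝒬_d for the quadratic elements of G of minimal commutator rank, E(σ) for the subgroup generated by the members of 𝒬_d with the same fixed space and commutator space as σ, and Σ for the set of these subgroups. Let E, F ∈ Σ. If some non-identity element of E commutes with some non-identity element of F, or some non-identity element of E normalizes F, then E and F commute elementwise. -/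
theorem result {k : Type u} [Field k] (hk2 : ringChar k ≠ 2) (hk3 : Nat.card k ≠ 3)
    {M : Type u} [AddCommGroup M] [Module k M] [FiniteDimensional k M]
    {G : Subgroup (LinearMap.GeneralLinearGroup k M)} (hG : Cfsg.IsQuadraticPair G)
    {E F : Subgroup (LinearMap.GeneralLinearGroup k M)} (hE : E ∈ Cfsg.quadraticRootSubgroups G) (hF : F ∈ Cfsg.quadraticRootSubgroups G)
    (h : (∃ e ∈ E, e ≠ 1 ∧ ∃ f ∈ F, f ≠ 1 ∧ e * f = f * e) ∨ E ⊓ Subgroup.normalizer (F : Set (LinearMap.GeneralLinearGroup k M)) ≠ ⊥) :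
    ⁅E, F⁆ = ⊥ := by
  obtain ⟨s, hs, rfl⟩ := Cfsg.Lib.Class.mem_quadraticRootSubgroups_iff.1 hE
  obtain ⟨t, ht, rfl⟩ := Cfsg.Lib.Class.mem_quadraticRootSubgroups_iff.1 hF
  rcases h with ⟨e, he, he1, f, hf, hf1, hef⟩ | h
  · obtain ⟨x, hx, rfl⟩ := Cfsg.Lib.Class.exists_eq_unitOf_of_mem_EG he
    obtain ⟨y, hy, rfl⟩ := Cfsg.Lib.Class.exists_eq_unitOf_of_mem_EG hf
    rw [Ne, Cfsg.Lib.Class.unitOf_eq_one_iff] at he1 hf1
    rw [← Cfsg.Lib.Class.Esp.eg_eq hs hx he1, ← Cfsg.Lib.Class.Esp.eg_eq ht hy hf1]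
    refine Cfsg.Lib.Class.commutator_EG_eq_bot hk2 hk3 (Cfsg.Lib.Class.Esp.qd hs hx he1)
      (Cfsg.Lib.Class.Esp.qd ht hy hf1) ?_
    rw [Units.ext_iff] at hef
    simp only [Units.val_mul, Cfsg.Lib.Class.val_unitOf] at hef
    have e : x * y - y * x = (1 + x) * (1 + y) - (1 + y) * (1 + x) := by noncomm_ring
    rw [e, hef, sub_self]
  · obtain ⟨e, ⟨he, hn⟩, he1⟩ := (Subgroup.bot_or_exists_ne_one _).resolve_left h
    obtain ⟨x, hx, rfl⟩ := Cfsg.Lib.Class.exists_eq_unitOf_of_mem_EG he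
    rw [Ne, Cfsg.Lib.Class.unitOf_eq_one_iff] at he1
    have h1 := (Subgroup.mem_normalizer_iff.1 hn _).1
      (Cfsg.Lib.Class.unitOf_mem_EG (Cfsg.Lib.Class.self_mem_Esp ht.1))
    have h2 : (1 + x) * t * (1 - x) ∈ Cfsg.Lib.Class.Esp G t := by
      rw [Cfsg.Lib.Class.mem_EG] at h1
      simp only [Units.val_mul, Cfsg.Lib.Class.val_unitOf, Cfsg.Lib.Class.val_inv_unitOf] at h1
      convert h1 using 1
      have : (1 + x) * (1 + t) * (1 - x) - 1 = (1 + x) * t * (1 - x) - x * x := by noncomm_ring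
      rw [this, hx.1.1, sub_zero]
    have hst : t * s * t = 0 := by
      by_contra h0
      exact he1 (Cfsg.Lib.Class.eq_zero_of_conj_mem_Esp hk2 hk3 hs ht h0 hx h2)
    have hxq := Cfsg.Lib.Class.Esp.qd hs hx he1
    have hxt : t * x * t = 0 := Cfsg.Lib.Class.nonopp_of_mem_Esp hk2 hk3 hs ht hst hx
      (Cfsg.Lib.Class.self_mem_Esp ht.1) (Cfsg.Lib.Class.self_mem_Esp ht.1)
    have hxt' := Cfsg.Lib.Class.nonopp_symm hk2 hk3 hxq ht.1 hxt
    rw [Cfsg.Lib.Class.conj_eq_add_comm hxt'] at h2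
    have h3 : x * t - t * x ∈ Cfsg.Lib.Class.Esp G t := by
      simpa using sub_mem h2 (Cfsg.Lib.Class.self_mem_Esp ht.1)
    rw [← Cfsg.Lib.Class.Esp.eg_eq hs hx he1]
    refine Cfsg.Lib.Class.commutator_EG_eq_bot hk2 hk3 hxq ht ?_
    by_contra h0
    refine Cfsg.Lib.Class.comm_ne_zero_of_mem_Esp hk2 hk3 hxq ht hxt h0
      (Cfsg.Lib.Class.self_mem_Esp hxq.1) he1 h3 h0 ?_
    have : x * (x * t - t * x) - (x * t - t * x) * x = x * x * t - x * t * x - x * t * x + t * (x * x) := by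
      noncomm_ring
    rw [this, hx.1.1, hxt']
    simp

end Cfsg.Agent.S5073
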