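import Cfsg.Statements.S5079
import Cfsg.Agent.Fus.Sat

set_option autoImplicit false
open Cfsg

namespace Cfsg.Agent.S5079

open Cfsg.Lib.Fus Cfsg.FusionSystem


/-- In any fusion system over a finite p-group S: if P is fully automized and receptive and Q is conjugate to P in the system, then there is a map of the system with source N_S(Q) and values in N_S(P) carrying Q onto P. -/
theorem result {Ω : Type*} [Group Ω] {S : Subgroup Ω} [Finite S] (p : ℕ) [Fact p.Prime] (hS : IsPGroup p S) (F : Cfsg.FusionSystem S) (P Q : Subgroup Ω) (h₁ : F.IsFullyAutomized p P) (h₂ : F.IsReceptive P) (hQ : F.IsConj Q P) : ∃ φ ∈ F.Hom (Cfsg.FusionSystem.normalizerIn S Q), (∀ x, φ x ∈ Cfsg.FusionSystem.normalizerIn S P) ∧ (Q.subgroupOf (Cfsg.FusionSystem.normalizerIn S Q)).map φ = P := by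
  obtain ⟨f, hf⟩ := isConj_iff_piso.1 hQ
  obtain ⟨g, hg, hg'⟩ := hf.exists_normalizer_mor hS h₁ h₂
  refine ⟨_, hg.toHom_mem, fun x => hg'.normalizer_maps hg x x.2, ?_⟩
  rw [map_subgroupOf_eq_img (f := g) _ (fun _ => rfl) (le_normalizerIn hf.le_left), hg'.img_eq]

end Cfsg.Agent.S5079
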