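import Cfsg.Statements.S5081
import Cfsg.Agent.Fus.Alperin

set_option autoImplicit false
open Cfsg

namespace Cfsg.Agent.S5081

open Cfsg.Lib.Fus Cfsg.FusionSystem


/-- Let F be a saturated fusion system over a finite p-group S, P a proper subgroup of S that is fully normalized, and H the subgroup of Aut_F(P) generated by the automorphisms that extend to maps of the system defined on strictly larger subgroups of S. Then either P is not essential and H is all of Aut_F(P), or P is essential and the image of H in Out_F(P) = Aut_F(P)/Inn(P) is strongly p-embedded there. -/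
theorem result {Ω : Type*} [Group Ω] {S : Subgroup Ω} [Finite S] (p : ℕ) [Fact p.Prime] (hS : IsPGroup p S) (F : Cfsg.FusionSystem S) (hF : F.IsSaturated p) (P : Subgroup Ω) (hPS : P < S) (hPn : F.IsFullyNormalized P) (H : Subgroup (MulAut P)) (hH : H = Subgroup.closure {α : MulAut P | ∃ (Q : Subgroup Ω) (hPQ : P < Q) (φ : Q →* Ω), φ ∈ F.Hom Q ∧ ∀ x : P, φ (Subgroup.inclusion hPQ.le x) = α x}) : (¬ F.IsEssential p P ∧ H = F.autGroup P) ∨ (F.IsEssential p P ∧ ∃ _ : ((Cfsg.Inn P).subgroupOf (F.autGroup P)).Normal, Cfsg.IsStronglyPEmbedded p ((H.subgroupOf (F.autGroup P)).map (QuotientGroup.mk' ((Cfsg.Inn P).subgroupOf (F.autGroup P))))) := by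
  have hH' : H = Subgroup.closure {α | Extendable F P α} := by
    rw [hH]
    congr 1
    ext α
    constructor
    · rintro ⟨Q, hPQ, φ, hφ, e⟩
      obtain ⟨g, hg, e'⟩ := exists_perm_of_mem hφ
      exact ⟨Q, g, hPQ, hg, fun x hx => by
        rw [pext_of_mem _ hx, ← e ⟨x, hx⟩, e']; rfl⟩
    · rintro ⟨Q, g, hPQ, hg, e⟩
      exact ⟨Q, hPQ, _, hg.toHom_mem, fun x => (e x x.2).trans (pext_coe α x)⟩
  rw [hH']
  by_cases he : F.IsEssential p P
  · exact Or.inr ⟨he, inferInstance, (stronglyPEmbedded_of_closure_extendable_ne hS hF hPS hPn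
      (closure_extendable_ne_of_isEssential hS hF he)).2⟩
  · exact Or.inl ⟨he, closure_extendable_eq_of_not_isEssential hS hF hPS hPn he⟩

end Cfsg.Agent.S5081
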