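import Cfsg.Statements.S5087
import Cfsg.Agent.Fus.Normal

set_option autoImplicit false
open Cfsg

namespace Cfsg.Agent.S5087

open Cfsg.Lib.Fus Cfsg.FusionSystem


/-- In a saturated fusion system over a finite p-group S, a subgroup Q is normal in the system if and only if every subgroup P that equals S or is essential contains Q and every element of Aut_F(P) maps Q onto itself. -/
theorem result {Ω : Type*} [Group Ω] {S : Subgroup Ω} [Finite S] (p : ℕ) [Fact p.Prime] (hS : IsPGroup p S) (F : Cfsg.FusionSystem S) (hF : F.IsSaturated p) (Q : Subgroup Ω) : F.IsNormal Q ↔ ∀ P : Subgroup Ω, (P = S ∨ F.IsEssential p P) → (Q ≤ P ∧ ∀ α ∈ F.autGroup P, (Q.subgroupOf P).map α.toMonoidHom = Q.subgroupOf P) := by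
  constructor
  · intro h P hP
    obtain ⟨-, h1, h2⟩ := cr_of_top_or_essential hS hF hP
    have hQP := IsNormal.le_of_radical hS h (isCentric_self h1) h2
    refine ⟨hQP, fun α hα => (img_autFun_eq_iff α hQP).1 ?_⟩
    exact (weaklyClosed_iff.1 (weaklyClosed_of_stronglyClosed (stronglyClosed_of_isNormal h))).2 _
      ((mor_of_mem_autGroup h1.1 hα).restrict hQP)
  · intro h
    refine isNormal_of_essential hS hF fun P hP => ⟨(h P hP).1, fun f hf x hx => ?_⟩
    have h1 := (img_autFun_eq_iff hf.aut (h P hP).1).2 ((h P hP).2 _ hf.aut_mem)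
    rw [← hf.pext_aut ((h P hP).1 hx), pext_eq_autFun _ ((h P hP).1 hx), ← h1]
    exact mem_img_of_mem _ hx

end Cfsg.Agent.S5087
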