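import Cfsg.Statements.S5088
import Cfsg.Agent.Fus.Normal

set_option autoImplicit false
open Cfsg

namespace Cfsg.Agent.S5088

open Cfsg.Lib.Fus Cfsg.FusionSystem


/-- In a saturated fusion system over a finite p-group, a subgroup Q is normal in the system if and only if there is a chain of subgroups 1 = Q₀ ≤ Q₁ ≤ ⋯ ≤ Qₙ = Q such that each Qᵢ with i ≥ 1 is strongly closed in the system and [Q, Qᵢ] ≤ Qᵢ₋₁. -/
theorem result {Ω : Type*} [Group Ω] {S : Subgroup Ω} [Finite S] (p : ℕ) [Fact p.Prime] (hS : IsPGroup p S) (F : Cfsg.FusionSystem S) (hF : F.IsSaturated p) (Q : Subgroup Ω) : F.IsNormal Q ↔ ∃ (n : ℕ) (Qs : Fin (n + 1) → Subgroup Ω), Qs 0 = ⊥ ∧ Qs (Fin.last n) = Q ∧ Monotone Qs ∧ ∀ i : Fin n, F.StronglyClosed (Qs i.succ) ∧ ⁅Q, Qs i.succ⁆ ≤ Qs (Fin.castSucc i) := by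
  constructor
  · intro h
    have := finite_of_le h.1
    obtain ⟨n, hn⟩ := exists_zIn_eq (hS.to_le h.1)
    refine ⟨n, fun i => zIn Q i, zIn_zero Q, hn, fun _ _ h => zIn_mono Q h, fun i => ⟨?_, ?_⟩⟩
    · exact stronglyClosed_of_isNormal (isNormal_of_characteristic h (zIn_le _ _) (zIn_characteristic _ _))
    · rw [Subgroup.commutator_comm]; exact commutator_zIn_le Q i
  · rintro ⟨n, C, h0, hn, hm, h⟩
    have hs : ∀ i, F.StronglyClosed (C i) := by
      intro i
      induction i using Fin.induction with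
      | zero => rw [h0]; exact stronglyClosed_bot F
      | succ i _ => exact (h i).1
    exact isNormal_of_chain hS hF (hn ▸ hs _) C h0 hn hm
      (fun i => by rw [Subgroup.commutator_comm]; exact (h i).2) fun i => weaklyClosed_of_stronglyClosed (hs i)

end Cfsg.Agent.S5088
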