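import Cfsg.Statements.S5089
import Cfsg.Agent.Fus.Normal

set_option autoImplicit false
open Cfsg

namespace Cfsg.Agent.S5089

open Cfsg.Lib.Fus Cfsg.FusionSystem


/-- A saturated fusion system over a finite p-group has a nontrivial subgroup that is normal in the system (O_p(F) ≠ 1) if and only if some nontrivial abelian subgroup is strongly closed in the system. -/
theorem result {Ω : Type*} [Group Ω] {S : Subgroup Ω} [Finite S] (p : ℕ) [Fact p.Prime] (hS : IsPGroup p S) (F : Cfsg.FusionSystem S) (hF : F.IsSaturated p) : F.core ≠ ⊥ ↔ ∃ Q : Subgroup Ω, Q ≠ ⊥ ∧ IsMulCommutative Q ∧ F.StronglyClosed Q := by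
  constructor
  · intro h
    have hn := isNormal_core F
    have := finite_of_le hn.1
    have hp := hS.to_le hn.1
    refine ⟨zIn F.core 1, fun e => ?_, ⟨⟨fun a b => Subtype.ext ?_⟩⟩,
      stronglyClosed_of_isNormal (isNormal_of_characteristic hn (zIn_le _ _) (zIn_characteristic _ _))⟩
    · have : Nontrivial F.core := (Subgroup.nontrivial_iff_ne_bot _).2 h
      have := hp.center_nontrivial
      obtain ⟨z, hz⟩ := exists_ne (1 : Subgroup.center F.core)
      apply hz
      have h1 : ((z : F.core) : Ω) ∈ zIn F.core 1 :=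
        ⟨z, by rw [Subgroup.upperCentralSeries_one]; exact z.2, rfl⟩
      rw [e, Subgroup.mem_bot] at h1
      exact Subtype.ext (Subtype.ext h1)
    · exact (mem_centralizerIn.1 (mem_zIn_one.1 b.2)).2 a (zIn_le _ _ a.2)
  · rintro ⟨Q, h1, h2, h3⟩ e
    have := le_core (isNormal_of_stronglyClosed_of_comm hS hF h3 fun x hx y hy =>
      congrArg Subtype.val (h2.1.comm ⟨x, hx⟩ ⟨y, hy⟩))
    exact h1 (le_bot_iff.1 (e ▸ this))

end Cfsg.Agent.S5089
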