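import Cfsg.Statements.S5094
import Cfsg.Agent.Block.ZStarElt
import Cfsg.Agent.Fus.Normalizer
import Cfsg.Agent.Fus.Normal
import Cfsg.Agent.Fus.GroupFusion

set_option autoImplicit false
open Cfsg

open Cfsg Cfsg.Lib.Block.Princ Cfsg.Lib.Fus

namespace Cfsg.Agent.S5094

/-- Glauberman's Z*-Theorem in fusion language: for a finite group G with Sylow 2-subgroup S, the centre of the fusion system of G on S is the set of elements of S whose image in G/O(G) is central, O(G) being the largest normal subgroup of odd order. -/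
theorem result {G : Type*} [Group G] [Finite G] (S : Sylow 2 G) : (Cfsg.groupFusionSystem (S : Subgroup G)).center = (S : Subgroup G) ⊓ (Subgroup.center (G ⧸ Cfsg.oddCore G)).comap (QuotientGroup.mk' (Cfsg.oddCore G)) := by
  apply le_antisymm
  · intro x hx
    have hc := isCentral_center (groupFusionSystem (S : Subgroup G))
    have hxS : x ∈ (S : Subgroup G) := hc.1 hx
    refine ⟨hxS, ?_⟩
    refine zstar_elt_quotient S hxS fun g hg => ?_
    have hm : Mor (groupFusionSystem (S : Subgroup G)) (Subgroup.zpowers x)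
        (fun y => g * y * g⁻¹) := by
      refine mor_group.2 ⟨Subgroup.zpowers_le.2 hxS, ?_, g, fun _ _ => rfl⟩
      rintro y ⟨n, rfl⟩
      show g * x ^ n * g⁻¹ ∈ _
      rw [← conj_zpow]
      exact Subgroup.zpow_mem _ hg n
    exact hm.apply_of_isCentral hc (Subgroup.mem_zpowers x) hx
  · refine le_center (isCentral_of_fixed S.isPGroup' (Grp.groupFusionSystem_isSaturated S)
      inf_le_left ?_)
    intro P k hk x hxP hx
    obtain ⟨-, hS, g, hg⟩ := mor_group.1 hk
    have h1 : k x * x⁻¹ ∈ pPrimeCore 2 G := by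
      have := Subgroup.mem_center_iff.1 hx.2 (QuotientGroup.mk g)
      refine (QuotientGroup.eq_one_iff (N := oddCore G) _).1 ?_
      rw [hg x hxP]
      simp only [QuotientGroup.mk_mul, QuotientGroup.mk_inv]
      rw [QuotientGroup.mk'_apply] at this
      rw [this]
      group
    have h2 : k x * x⁻¹ ∈ (S : Subgroup G) :=
      Subgroup.mul_mem _ (hS x hxP) (Subgroup.inv_mem _ hx.1)
    have h3 := not_dvd_orderOf_of_mem_pPrimeCore h1
    obtain ⟨m, hm⟩ := orderOf_eq_pow_of_mem S.isPGroup' h2
    rw [hm] at h3
    have : m = 0 := by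
      by_contra h0
      exact h3 (dvd_pow_self 2 h0)
    rw [this, pow_zero, orderOf_eq_one_iff, mul_inv_eq_one] at hm
    exact hm

end Cfsg.Agent.S5094
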