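import Cfsg.Statements.S5102
import Cfsg.Agent.Fus.GroupFusion

set_option autoImplicit false
open Cfsg

namespace Cfsg.Agent.S5102

/-- A normal p-subgroup of a finite group G is normal in the fusion system of G on a Sylow p-subgroup. -/
theorem result {G : Type*} [Group G] [Finite G] (p : ℕ) [Fact p.Prime] (S : Sylow p G) (R : Subgroup G) [R.Normal] (hR : IsPGroup p R) : (Cfsg.groupFusionSystem (S : Subgroup G)).IsNormal R := by
  have hRS : R ≤ (S : Subgroup G) := hR.le_sylow_of_normal S
  refine ⟨hRS, ?_⟩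
  rintro P φ ⟨hP, hφS, g, hg⟩
  refine ⟨conjHom (P ⊔ R) g, ⟨sup_le hP hRS, ?_, g, fun _ => rfl⟩, fun x => (hg x).symm, ?_⟩
  · have h1 : P ⊔ R ≤ (S : Subgroup G).comap (MulAut.conj g).toMonoidHom := by
      refine sup_le (fun x hx => ?_) (fun x hx => ?_)
      · have := hφS ⟨x, hx⟩
        rw [hg] at this
        exact this
      · exact hRS (Subgroup.Normal.conj_mem inferInstance x hx g)
    exact fun x => h1 x.2
  · ext y
    constructor
    · rintro ⟨x, hx, rfl⟩
      exact Subgroup.Normal.conj_mem (inferInstance : R.Normal) (x : G) hx g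
    · intro hy
      have h2 : g⁻¹ * y * g ∈ R := by
        simpa using Subgroup.Normal.conj_mem (inferInstance : R.Normal) y hy g⁻¹
      exact ⟨⟨g⁻¹ * y * g, (le_sup_right : R ≤ P ⊔ R) h2⟩, h2, by simp [mul_assoc]⟩

end Cfsg.Agent.S5102
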