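import Cfsg.Statements.S5107
import Cfsg.Agent.Fus.SmallCtl

set_option autoImplicit false
open Cfsg

namespace Cfsg.Agent.S5107

open Cfsg.Lib.Fus Cfsg.FusionSystem

/-- If a Sylow p-subgroup S of a finite group G has nilpotency class at most two and its centre is strongly closed in S with respect to G, then every map of the fusion system of G on S is conjugation by an element of N_G(S), and S is the largest subgroup normal in that fusion system. -/
theorem result {G : Type*} [Group G] [Finite G] (p : ℕ) [Fact p.Prime] (S : Sylow p G) (hcl : ⁅(S : Subgroup G), (S : Subgroup G)⁆ ≤ (S : Subgroup G) ⊓ Subgroup.centralizer ((S : Subgroup G) : Set G)) (hZ : Cfsg.IsStronglyClosed ((S : Subgroup G) ⊓ Subgroup.centralizer ((S : Subgroup G) : Set G)) (S : Subgroup G)) : (∀ (P : Subgroup G) (φ : P →* G), φ ∈ (Cfsg.groupFusionSystem (S : Subgroup G)).Hom P → ∃ g ∈ Subgroup.normalizer ((S : Subgroup G) : Set G), ∀ x : P, φ x = g * (x : G) * g⁻¹) ∧ (Cfsg.groupFusionSystem (S : Subgroup G)).core = S := by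
  have hS := S.isPGroup'
  have hF := Grp.groupFusionSystem_isSaturated S
  have hZ' : (Cfsg.groupFusionSystem (S : Subgroup G)).StronglyClosed
      (centralizerIn (S : Subgroup G) S) :=
    Grp.stronglyClosed_group_iff.2 ⟨inf_le_left, fun x hx g hg => hZ.2 x hx g hg⟩
  have hn : (Cfsg.groupFusionSystem (S : Subgroup G)).IsNormal S := by
    refine isNormal_top_of_cr hS hF fun P h1 h2 _ s hs hn => ?_
    have hZP := (centralizerIn_anti h1.1).trans (isCentric_self h2)
    refine mem_pCoreIn_of_fix (hS.to_le h1.1) hZP (fun a ha x hx =>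
      (piso_pext_of_mem h1.1 ha).mor.mem_of_stronglyClosed hZ' (hZP hx) hx)
      (conjAut_mem_autGroup _ h1.1 hs hn) (fun x hx => ?_) fun x hx => ?_
    · rw [pext_conjAut hn (hZP hx), (mem_centralizerIn.1 hx).2 s hs, mul_inv_cancel_right]
    · have := hcl (Subgroup.commutator_mem_commutator (inv_mem (h1.1 hx)) hs)
      rwa [commutatorElement_def, inv_inv, mul_assoc, mul_assoc, ← mul_assoc s,
        ← pext_conjAut hn hx] at this
  refine ⟨fun P φ hφ => ?_, le_antisymm core_le (le_core hn)⟩
  obtain ⟨g, hg, e, -⟩ := (isNormal_iff.1 hn).2 P _ (mor_of_mem hφ)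
  obtain ⟨-, h1, s, h2⟩ := mor_group.1 hg
  refine ⟨s, mem_normalizer_of_finite fun y hy => ?_, fun x => ?_⟩
  · exact h2 y (Subgroup.mem_sup_right hy) ▸ h1 y (Subgroup.mem_sup_right hy)
  · rw [← h2 x (Subgroup.mem_sup_left x.2), e x x.2, extFun_coe]

end Cfsg.Agent.S5107
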