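import Cfsg.Statements.S5112
import Cfsg.Agent.Fus.EssInner
import Cfsg.Agent.Trans.OddAutCyclic
import Cfsg.Agent.Solv.Quaternion

set_option autoImplicit false
open Cfsg

namespace Cfsg.Agent.S5112

open Cfsg.Lib.Fus Cfsg.Lib.Fus.Ess Cfsg.FusionSystem Subgroup Cfsg.Lib.Solv
open scoped commutatorElement

theorem aux {G : Type*} [Group G] [Finite G] {r s : G} {m : ℕ} (hm : 3 ≤ m)
    (hr : orderOf r = 2 ^ m) (hc : Nat.card G = 2 ^ (m + 1)) : IsPGroup 2 (MulAut G) := by
  refine Cfsg.Lib.Trans.isPGroup_mulAut_of_index_two (IsPGroup.of_card hc) (a := r) ?_ ?_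
  · exact PG.index_eq_of_card_eq_mul (by rw [Nat.card_zpowers, hr, hc, pow_succ'])
  · intro h
    have h1 := orderOf_dvd_of_pow_eq_one h
    rw [hr] at h1
    have h2 := Nat.le_of_dvd (by norm_num) h1
    have h3 : 2 ^ 3 ≤ 2 ^ m := Nat.pow_le_pow_right (by norm_num) hm
    omega

/-- If S is a dihedral or generalized quaternion 2-group of order at least 16, then in every saturated fusion system over S (at the prime 2) the automorphism group Aut_F(S) consists of the inner automorphisms of S. -/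
theorem result {Ω : Type*} [Group Ω] {S : Subgroup Ω} [Finite S] (n : ℕ) (hn : 4 ≤ n) (hshape : Nonempty (S ≃* DihedralGroup (2 ^ (n - 1))) ∨ Nonempty (S ≃* QuaternionGroup (2 ^ (n - 2)))) (F : Cfsg.FusionSystem S) (hF : F.IsSaturated 2) : F.autGroup S = Cfsg.Inn S := by
  obtain ⟨m, rfl⟩ : ∃ m, n = m + 2 := ⟨n - 2, by omega⟩
  have key : Nat.card S = 2 ^ (m + 1 + 1) ∧ ∃ r : S, orderOf r = 2 ^ (m + 1) := by
    rcases hshape with ⟨⟨e⟩⟩ | ⟨⟨e⟩⟩
    · obtain ⟨r, s, h1, -⟩ := PG.exists_gens_of_mulEquiv_dihedralGroup e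
      refine ⟨?_, r, h1⟩
      rw [Nat.card_congr e.toEquiv, DihedralGroup.nat_card]
      show 2 * 2 ^ (m + 1) = _
      ring
    · obtain ⟨r, s, h1, -⟩ := PG.exists_gens_of_mulEquiv_quaternionGroup e
      refine ⟨?_, r, h1.trans (by show 2 * 2 ^ m = _; ring)⟩
      have : NeZero (2 ^ (m + 2 - 2)) := ⟨by positivity⟩
      rw [Nat.card_congr e.toEquiv, Nat.card_eq_fintype_card, QuaternionGroup.card]
      show 4 * 2 ^ m = _
      ring
  obtain ⟨hc, r, hr⟩ := key
  exact autGroup_eq_inn (IsPGroup.of_card hc) hF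
    ((aux (s := r) (by omega) hr hc).to_subgroup _)

end Cfsg.Agent.S5112
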