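import Cfsg.Statements.S5123
import Cfsg.Agent.Fus.GroupFusion

set_option autoImplicit false
open Cfsg

namespace Cfsg.Agent.S5123

/-- Let G be a finite group with Sylow p-subgroup S, P, Q ≤ S and g ∈ G with gPg⁻¹ = Q, and suppose N_S(Q) is a Sylow p-subgroup of N_G(Q). Let N be the set of x ∈ N_S(P) with gxg⁻¹ ∈ N_S(Q)C_G(Q). Then some h ∈ C_G(Q) satisfies (hg)N(hg)⁻¹ ≤ S. -/
theorem result {G : Type*} [Group G] [Finite G] (p : ℕ) [Fact p.Prime] (S : Sylow p G) (P Q : Subgroup G) (hP : P ≤ S) (hQ : Q ≤ S) (g : G) (hg : P.map (MulAut.conj g).toMonoidHom = Q) (hN : (∃ R : Sylow p ↥(Subgroup.normalizer (Q : Set G)), (R : Subgroup ↥(Subgroup.normalizer (Q : Set G))) = (Cfsg.FusionSystem.normalizerIn (S : Subgroup G) Q).subgroupOf (Subgroup.normalizer (Q : Set G)))) : ∃ h ∈ Subgroup.centralizer (Q : Set G), ((Cfsg.FusionSystem.normalizerIn (S : Subgroup G) P) ⊓ (Cfsg.FusionSystem.normalizerIn (S : Subgroup G) Q ⊔ Subgroup.centralizer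 (Q : Set G)).comap (MulAut.conj g).toMonoidHom).map (MulAut.conj (h * g)).toMonoidHom ≤ S := by
  have hS := Cfsg.Lib.Fus.isSylowIn_top S
  have h1 := Cfsg.Lib.Fus.isSylowIn_of_exists inf_le_right hN
  have h2 : Cfsg.Lib.Fus.IsSylowIn p ((S : Subgroup G) ⊓ Subgroup.normalizer (Q : Set G))
      (⊤ ⊓ Subgroup.normalizer (Q : Set G)) := by rw [top_inf_eq]; exact h1
  have h3 := Cfsg.Lib.Fus.Grp.sylow_centralizer_of_normalizer le_top h2
  obtain ⟨c, -, hc, h4⟩ := Cfsg.Lib.Fus.Grp.exists_centralizer_conj_le hS h3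
    (N := (Cfsg.FusionSystem.normalizerIn (S : Subgroup G) P ⊓ (Cfsg.FusionSystem.normalizerIn (S : Subgroup G) Q ⊔ Subgroup.centralizer (Q : Set G)).comap (MulAut.conj g).toMonoidHom).map (MulAut.conj g).toMonoidHom)
    ((S.isPGroup'.to_le (inf_le_left.trans inf_le_left)).map _) le_top (by
      rintro _ ⟨x, hx, rfl⟩
      have h5 : (MulAut.conj g).toMonoidHom x ∈
        Cfsg.FusionSystem.normalizerIn (S : Subgroup G) Q ⊔ Subgroup.centralizer (Q : Set G) := hx.2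
      have hAC : Cfsg.FusionSystem.normalizerIn (S : Subgroup G) Q ≤
          Subgroup.normalizer ((Subgroup.centralizer (Q : Set G) : Subgroup G) : Set G) :=
        Subgroup.le_normalizer_iff.mpr fun a ha c hc =>
          Cfsg.Lib.Fus.Grp.conj_mem_centralizer ha.2 hc
      rw [← SetLike.mem_coe, Subgroup.coe_mul_of_left_le_normalizer_right _ _ hAC] at h5
      obtain ⟨a, ha, c, hc, h6⟩ := h5
      refine ⟨a, ha.1, ha.2, ?_⟩
      rw [← h6]
      simpa using hc)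
  refine ⟨c, hc, ?_⟩
  rintro _ ⟨x, hx, rfl⟩
  have := h4 _ ⟨x, hx, rfl⟩
  simpa [mul_assoc] using this

end Cfsg.Agent.S5123
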