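import Cfsg.Statements.S5128
import Cfsg.Agent.Fus.FactorSat

set_option autoImplicit false
open Cfsg

namespace Cfsg.Agent.S5128

open Cfsg.Lib.Fus

/-- In a saturated fusion system over a finite p-group S, the product of two strongly closed subgroups is strongly closed. -/
theorem result {Ω : Type*} [Group Ω] {S : Subgroup Ω} [Finite S] (p : ℕ) [Fact p.Prime] (hS : IsPGroup p S) (F : Cfsg.FusionSystem S) (hF : F.IsSaturated p) (T₁ T₂ : Subgroup Ω) (h₁ : F.StronglyClosed T₁) (h₂ : F.StronglyClosed T₂) : F.StronglyClosed (T₁ ⊔ T₂) := by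
  exact stronglyClosed_sup hS hF h₁ h₂

end Cfsg.Agent.S5128
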