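import Cfsg.Statements.S5130
import Cfsg.Agent.Fus.DirFac

set_option autoImplicit false
open Cfsg

namespace Cfsg.Agent.S5130

open Cfsg.Lib.Fus Cfsg.FusionSystem

/-- Let F be a saturated fusion system over a finite p-group S that is the direct product of two subgroups S₁ and S₂, each strongly closed in F. Let R be the full subsystem of F over S₁ (all maps of F between subgroups of S₁) and R′ the subsystem over S₁ of those maps that extend to the subgroup generated with S₂ fixing S₂ elementwise. Then R and R′ are saturated, R′ is normal in F and in R, and R is weakly normal in F. -/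
theorem result {Ω : Type*} [Group Ω] {S : Subgroup Ω} [Finite S] (p : ℕ) [Fact p.Prime] (hS : IsPGroup p S) (F : Cfsg.FusionSystem S) (hF : F.IsSaturated p) (S₁ S₂ : Subgroup Ω) (hprod : Cfsg.IsInternalDirectProduct S₁ S₂ S) (h₁ : F.StronglyClosed S₁) (h₂ : F.StronglyClosed S₂) (R R' : Cfsg.FusionSystem S₁) (hR : ∀ P : Subgroup Ω, P ≤ S₁ → R.Hom P = F.Hom P) (hR' : ∀ P : Subgroup Ω, P ≤ S₁ → R'.Hom P = F.centralizerHom S₂ P) : R.IsSaturated p ∧ R'.IsSaturated p ∧ R'.IsNormalIn F p ∧ R'.IsNormalIn R p ∧ R.IsWeaklyNormalIn F p := by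
  have hc := dirProd_le_centralizerIn hprod
  have := finite_of_le h₁.1
  have hS₁ := hS.to_le h₁.1
  have e : ∀ P f, P ≤ S₁ → (Mor R P f ↔ Mor F P f) := fun P f hP => by
    unfold Mor; rw [hR P hP]
  have e' : ∀ P f, P ≤ S₁ → (Mor R' P f ↔ Mor (centSys F S₂ h₂.1) P f) := fun P f hP => by
    unfold Mor; rw [hR' P hP, isCentralizerSystem_centSys F S₂ h₂.1 P]
  have e'' : ∀ P f, P ≤ S₁ → (Mor R' P f ↔ ExtFix F S₂ P f) := fun P f hP => by
    rw [e' P f hP, mor_centSys_iff, and_iff_right (hP.trans hc)]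
  have s := saturated_of_dirProd hS hprod h₁ h₂ hF (fun _ => le_rfl) h₁.1 e
  have s' := saturated_of_dirProd hS hprod h₁ h₂ (centSys_saturated hS hF (sat_centralized hS hF
    (isFullyNormalized_of_le_normalizer h₂.1 (le_normalizer_of_stronglyClosed h₂))))
    centSys_sub hc e'
  have hRF : R.IsSubsystemOf F := isSubsystemOf_iff.2 fun P f hf => (e P f hf.le).1 hf
  have hRF' : R'.IsSubsystemOf F := isSubsystemOf_iff.2 fun P f hf => ((e'' P f hf.le).1 hf).mor
  have hi := strongInv_of_dirProd hS hprod h₁ h₂ hF e''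
  refine ⟨s, s', isNormalIn_iff_locExt.2 ⟨⟨s', hF, isInvariantIn_of_strongInv hS hF hRF' h₁ hi⟩,
    fun α hα => ?_⟩, isNormalIn_of_top ⟨s', s, isInvariantIn_of_strongInv hS₁ s
      (isSubsystemOf_iff.2 fun P f hf => (e P f hf.le).2 (hf.of_sub hRF')) (stronglyClosed_top R)
      fun Q g P f hg => hi Q g P f (hg.of_sub hRF)⟩, s, hF,
    isInvariantIn_of_strongInv hS hF hRF h₁ fun Q g P f hg hQ hP hf hm => ?_⟩
  · obtain ⟨g, hg, e₁, e₂⟩ := (e'' _ _ le_rfl).1 hα.mor
    rw [hprod.2.2.2.2] at hg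
    have h3 : pc S S₁ = S := le_antisymm (pc_le h₁.1) (hprod.2.2.2.2.ge.trans
      (sup_le_sup_left (le_centralizerIn_comm hc h₂.1) _))
    refine ⟨g, h3.symm ▸ hg.piso_top, e₁, fun x hx => ?_⟩
    obtain ⟨a, ha, b, hb, rfl⟩ := dirProd_exists_mul hprod (h3.le hx)
    rw [hg.map_mul (h₁.1 ha) (h₂.1 hb), e₂ b hb, mul_inv_rev, mul_assoc, ← mul_assoc a⁻¹,
      hprod.2.2.1 _ (S₁.mul_mem (S₁.inv_mem ha) (hg.mem_of_stronglyClosed h₁ (h₁.1 ha) ha)) b hb,
      inv_mul_cancel_left]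
    exact S₁.mul_mem (S₁.inv_mem ha) (hg.mem_of_stronglyClosed h₁ (h₁.1 ha) ha)
  · have h3 := (hg.restrict hP).piso
    exact (e _ _ ((hg.restrict hP).img_le_of_stronglyClosed h₁ (hP.trans hQ))).2
      ((h3.symm.mor.comp (hf.of_sub hRF) fun x hx => h3.inv_maps hx).comp hg
        fun x hx => hm _ (h3.inv_maps hx))

end Cfsg.Agent.S5130
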