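import Cfsg.Statements.S5139
import Cfsg.Agent.Fus.PRes

set_option autoImplicit false
open Cfsg

namespace Cfsg.Agent.S5139

open Cfsg.Lib.Fus Cfsg.FusionSystem


/-- Let G be a finite group with Sylow p-subgroup S and O^p(G) the subgroup generated by the elements of order prime to p. Then the p-residual subsystem of the fusion system of G on S — the saturated subsystem of p-power index over the hyperfocal subgroup — is the fusion system of O^p(G) on S ∩ O^p(G): its maps are exactly the conjugation maps by elements of O^p(G) between subgroups of S ∩ O^p(G). -/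
theorem result {G : Type*} [Group G] [Finite G] (p : ℕ) [Fact p.Prime] (S : Sylow p G) (E : Cfsg.FusionSystem ((Cfsg.groupFusionSystem (S : Subgroup G)).hyperfocalSubgroup p)) (hE : (Cfsg.groupFusionSystem (S : Subgroup G)).IsPResidual p E) : ∃ h : (S : Subgroup G) ⊓ Cfsg.pResidual p G ≤ Cfsg.pResidual p G, ∀ P : Subgroup G, E.Hom P = (Cfsg.fusionSystemOfSubgroup (Cfsg.pResidual p G) ((S : Subgroup G) ⊓ Cfsg.pResidual p G) h).Hom P := by
  refine ⟨inf_le_right, ?_⟩
  have hs := sylIn_top S
  have hT := hs.inf_normal (resIn_le (p := p) ⊤)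
    (Subgroup.le_normalizer.trans normalizer_le_normalizer_resIn)
  have h1 := pPowerIndex_ofSubgroup (S := S) (H := pResidual p G) (T := S ⊓ pResidual p G) le_top
    resIn_top.le le_top inf_le_right inf_le_left (by rw [resIn_top]) hs
  have e := hs.hyperfocal_eq
  rw [← Grp.groupFusionSystem_eq] at h1 e
  rw [resIn_top] at hT e
  exact fun P => (HasPPowerIndexIn.sub hs.pgroup h1 hE.1 hE.2.1 e.le P).antisymm
    (HasPPowerIndexIn.sub hs.pgroup hE.2 (Grp.isSaturated hT.isSylowIn) h1.1 e.ge P)

end Cfsg.Agent.S5139
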