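import Cfsg.Statements.S5147
import Cfsg.Agent.Fus.ConstrQuot

set_option autoImplicit false
open Cfsg

namespace Cfsg.Agent.S5147

open Cfsg.Lib.Fus

/-- Let G be a finite group with Sylow 2-subgroup S whose 2-fusion system on S is constrained, and L a component of G (a subnormal quasisimple subgroup). Then the 2-fusion system of L/Z(L) on the image of S ∩ L is constrained. -/
theorem result {G : Type*} [Group G] [Finite G] (S : Sylow 2 G) (hF : (Cfsg.groupFusionSystem (S : Subgroup G)).IsConstrained 2) (L : Subgroup G) (hL : Cfsg.IsComponent L) : (Cfsg.groupFusionSystem (((S : Subgroup G).subgroupOf L).map (QuotientGroup.mk' (Subgroup.center L)))).IsConstrained 2 := by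
  obtain ⟨h1, h2⟩ := constrained_ofSubgroup_of_isSubnormal S hF hL.1
  have ht := mulOn_extFun (QuotientGroup.mk' (Subgroup.center L))
  have hD := fImg_ofSubgroup h1 ht fun y => by
    obtain ⟨x, rfl⟩ := QuotientGroup.mk'_surjective _ y
    exact ⟨x, x.2, extFun_coe _ x⟩
  have key := hD.isConstrained_of_central h1.pgroup h2 (isCentral_iff.2 ⟨pre_le, fun P f hf => ?_⟩)
  · rwa [img_extFun_eq_map _ inf_le_right, Subgroup.inf_subgroupOf_right] at key
  obtain ⟨hP, hm, s, hs, e⟩ := mor_ofSubgroup.1 hf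
  have hz : ∀ z ∈ pre ((S : Subgroup G) ⊓ L) (extFun (QuotientGroup.mk' (Subgroup.center L))) ⊥,
      s * z * s⁻¹ = z := fun z hz => by
    obtain ⟨hz1, hz2⟩ := (ht.mono inf_le_right).mem_ker_iff.1 hz
    rw [extFun_of_mem _ hz1.2, QuotientGroup.mk'_apply, QuotientGroup.eq_one_iff] at hz2
    have := congrArg Subtype.val (Subgroup.mem_center_iff.1 hz2 ⟨s, hs⟩)
    exact mul_inv_eq_iff_eq_mul.2 this
  refine ⟨cj s, mor_ofSubgroup.2 ⟨sup_le hP pre_le, ?_, s, hs, fun x _ => cj_apply _ _⟩,
    fun x hx => (e x hx).symm, hz⟩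
  have : P ⊔ pre ((S : Subgroup G) ⊓ L) (extFun (QuotientGroup.mk' (Subgroup.center L))) ⊥ ≤
      ((S : Subgroup G) ⊓ L).comap (MulAut.conj s).toMonoidHom :=
    sup_le (fun x hx => by
      change s * x * s⁻¹ ∈ (S : Subgroup G) ⊓ L
      exact e x hx ▸ hm x hx) fun x hx => by
      change s * x * s⁻¹ ∈ (S : Subgroup G) ⊓ L
      rw [hz x hx]; exact pre_le hx
  exact fun x hx => this hx

end Cfsg.Agent.S5147
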