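import Cfsg.Statements.S5156
import Cfsg.Agent.Fus.PSolvSys

set_option autoImplicit false
universe u
open Cfsg

namespace Cfsg.Agent.S5156

open Cfsg.Lib.Fus Cfsg.FusionSystem

/-- A saturated fusion system over a finite p-group has a terminating alternating chain of p'-residual and p-residual subsystems (the chain reaches the trivial system — the notion of solvability adapted to fusion systems of p-solvable groups) if and only if it is constrained and its models are p-solvable (a model is a finite group realizing the system on a Sylow p-subgroup with self-centralizing largest normal p-subgroup; it exists and is unique up to isomorphism for constrained systems). -/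
theorem result {Ω : Type u} [Group Ω] {S : Subgroup Ω} [Finite S] (p : ℕ) [Fact p.Prime] (hS : IsPGroup p S) (F : Cfsg.FusionSystem S) (hF : F.IsSaturated p) : F.HasTerminatingResidualSeries p ↔ (F.IsConstrained p ∧ ∀ (G : Type u) [Group G] (ι : S →* G), F.IsModel p G ι → Cfsg.IsPSolvable p G) := by
  refine ⟨fun h => ?_, fun ⟨h1, h2⟩ => ?_⟩
  · have h1 := pSolvSys_of_terminating h hS hF
    exact ⟨isConstrained_of_isNormal hF (isNormal_core F) h1.1, fun G _ ι hG =>
      (model_isPSolvable_iff hG).2 h1.2⟩
  · obtain ⟨G, _, ι, hG⟩ := exists_model hS h1
    exact PSolvSys.terminating hS hF ⟨model_centralizerIn_core_le hG,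
      (model_isPSolvable_iff hG).1 (h2 G ι hG)⟩

end Cfsg.Agent.S5156
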