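import Cfsg.Statements.S5163
import Cfsg.Agent.Fus.SLFusion

set_option autoImplicit false
open Cfsg

namespace Cfsg.Agent.S5163

/-- For a finite field K of characteristic p and n ≥ 3, the p-fusion system of the projective special linear group PSL_n(K) on a Sylow p-subgroup is simple. -/
theorem result {K : Type*} [Field K] [Fintype K] (p : ℕ) [Fact p.Prime] [CharP K p] (n : ℕ) (hn : 3 ≤ n) (S : Sylow p (Matrix.ProjectiveSpecialLinearGroup (Fin n) K)) : (Cfsg.groupFusionSystem (S : Subgroup (Matrix.ProjectiveSpecialLinearGroup (Fin n) K))).IsSimple p := by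
  have h : Cfsg.Lib.Fus.Grp.SLRep
      (Matrix.SpecialLinearGroup.toLin' : Matrix.SpecialLinearGroup (Fin n) K →* _) := by
    refine ⟨Matrix.SpecialLinearGroup.toLin'_injective, fun g => ?_, fun φ v h => ?_⟩
    · rw [Matrix.SpecialLinearGroup.toLin'_to_linearMap, LinearMap.det_toLin', g.2]
    · refine ⟨⟨LinearMap.toMatrix' (LinearMap.transvection φ v), ?_⟩, fun x => ?_⟩
      · rw [LinearMap.det_toMatrix', LinearMap.transvection.det, h, add_zero]
      · change Matrix.toLin' (LinearMap.toMatrix' (LinearMap.transvection φ v)) x = _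
        rw [Matrix.toLin'_toMatrix', LinearMap.transvection.apply]
  have : Finite (Matrix.SpecialLinearGroup (Fin n) K) := Subtype.finite
  exact h.isSimple_quotient_center (by simpa using hn) S

end Cfsg.Agent.S5163
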