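import Cfsg.Statements.S5164
import Cfsg.Agent.Known.SymSylowAb

set_option autoImplicit false
open Cfsg

namespace Cfsg.Agent.S5164

open Cfsg.Lib.Known

/-- For n ≥ 6 and a prime p, a nontrivial Sylow p-subgroup of the alternating group of degree n is abelian if and only if n < p². -/
theorem result (n p : ℕ) (hn : 6 ≤ n) [Fact p.Prime] (S : Sylow p (alternatingGroup (Fin n))) (hS : (S : Subgroup (alternatingGroup (Fin n))) ≠ ⊥) : IsMulCommutative S ↔ n < p ^ 2 := by
  have hp : p.Prime := Fact.out
  constructor
  · intro h
    by_contra h1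
    have hp2 : p ≠ 2 := by
      rintro rfl
      exact not_comm_sylow_two_alt hn S h
    have h2 := card_le_pow_div_of_comm (Ω := Fin n) (comm_of_isMulCommutative h) S.isPGroup'
    change Nat.card (S : Subgroup (alternatingGroup (Fin n))) ≤ _ at h2
    rw [card_sylow_alt_of_ne_two hp2, Nat.card_fin, Fintype.card_fin,
      Nat.pow_le_pow_iff_right hp.one_lt] at h2
    exact absurd (lt_factorization_factorial hp (not_lt.1 h1)) (not_lt.2 h2)
  · intro h
    have hp2 : p ≠ 2 := by
      rintro rfl
      omega
    obtain ⟨C, h1, h2⟩ := ((abS_pow_div hp.ne_zero n).abA_of_odd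
      (hp.odd_of_ne_two hp2).pow).exists_subgroup
    let Q : Sylow p (alternatingGroup (Fin n)) := Sylow.ofCard C (by
      rw [h2, factorization_card_alt_of_ne_two hp2, Fintype.card_fin,
        factorization_factorial_of_lt_sq hp h])
    exact isMulCommutative_of_equiv (S.equiv Q) (comm_of_isMulCommutative h1)

end Cfsg.Agent.S5164
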