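import Cfsg.Statements.S5171
import Cfsg.Agent.Fus.FormFusion
import Cfsg.Agent.Class.StdForms

set_option autoImplicit false
open Cfsg

namespace Cfsg.Agent.S5171

/-- For a finite field K of characteristic p and m ≥ 2, excluding the case m = 2 with K of two elements, the p-fusion system of the projective symplectic group PSp_{2m}(K) on a Sylow p-subgroup is simple. -/
theorem result {K : Type*} [Field K] [Fintype K] (p : ℕ) [Fact p.Prime] [CharP K p] (m : ℕ) (hm : 2 ≤ m) (hex : m = 2 → 3 ≤ Fintype.card K) (S : Sylow p (Cfsg.PSp m K)) : (Cfsg.groupFusionSystem (S : Subgroup (Cfsg.PSp m K))).IsSimple p := by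
  classical
  have hg := Cfsg.Lib.Class.Form.good_of_isAlt (Cfsg.Lib.Class.sympBilin m K)
    (Cfsg.Lib.Class.sympBilin_nondegenerate m) (Cfsg.Lib.Class.sympBilin_isAlt m)
  have halt : ∀ v, Cfsg.Lib.Class.sympBilin m K v v = 0 := Cfsg.Lib.Class.sympBilin_isAlt m
  have hdet : ∀ g : Cfsg.Lib.Class.Form.isomGroup (Cfsg.Lib.Class.sympBilin m K),
      LinearEquiv.det g.1 = 1 := by
    intro g
    have hm : g ∈ Subgroup.closure hg.reflSet := by rw [hg.closure_reflSet]; trivial
    induction hm using Subgroup.closure_induction with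
    | mem x hx =>
      obtain ⟨d, c, hc, rfl⟩ := hx
      refine Units.ext ?_
      have := Cfsg.Lib.Class.Form.det_reflEquiv _ d c (hg.one_add_ne hc)
      rw [halt, mul_zero, add_zero] at this
      exact this
    | one => simp
    | mul a b _ _ ha hb => simp [ha, hb]
    | inv a _ ha => simp [ha]
  have h : Cfsg.Lib.Fus.Grp.FormRep ((Cfsg.Lib.Class.Isom (sympForm m K)).subtype.comp
      (Cfsg.Lib.Class.spEquivIsom m K).toMonoidHom) (Cfsg.Lib.Class.sympBilin m K) (-1) := by
    refine ⟨hg, by simp, by simp, fun w => ⟨0, by simp [halt]⟩,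
      fun U _ _ s => ⟨0, U.zero_mem, by simp⟩,
      Subtype.val_injective.comp (Cfsg.Lib.Class.spEquivIsom m K).injective, fun g u v => ?_,
      fun g => ?_, fun f hf _ => ?_⟩
    · simpa using (Cfsg.Lib.Class.spEquivIsom m K g).2 u v
    · rw [← LinearEquiv.coe_det]
      exact congrArg Units.val (hdet ⟨_, fun u v => by
        simpa using (Cfsg.Lib.Class.spEquivIsom m K g).2 u v⟩)
    · exact ⟨(Cfsg.Lib.Class.spEquivIsom m K).symm ⟨f, fun u v => by simpa using hf u v⟩, by simp⟩
  have : Finite (Matrix.symplecticGroup (Fin m) K) := Subtype.finite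
  refine h.isSimple_quotient_center (by simp; omega) (fun _ => ?_) S
  by_cases h2 : m = 2
  · left
    obtain ⟨a, ha⟩ : ∃ a : K, a ∉ ({0, 1} : Finset K) := by
      by_contra hc
      push Not at hc
      have h1 := Finset.card_le_card (fun a _ => hc a : (Finset.univ : Finset K) ⊆ {0, 1})
      have h3 := hex h2
      have h4 : ({0, 1} : Finset K).card ≤ 2 := Finset.card_le_two
      rw [Finset.card_univ] at h1
      omega
    exact ⟨a, by simpa using ha⟩
  · right
    simp
    omega

end Cfsg.Agent.S5171
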