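import Cfsg.Statements.S5172
import Cfsg.Agent.Fus.FormFusion
import Cfsg.Agent.Class.HermBasis

set_option autoImplicit false
open Cfsg

namespace Cfsg.Agent.S5172

/-- For a finite field K with q² elements of characteristic p and n ≥ 4, the p-fusion system of the projective special unitary group PSU_n(q) (realised over K) on a Sylow p-subgroup is simple. -/
theorem result {K : Type*} [Field K] [Fintype K] (p q : ℕ) [Fact p.Prime] [CharP K p] (hK : Fintype.card K = q ^ 2) (n : ℕ) (hn : 4 ≤ n) (S : Sylow p (Cfsg.PSU n K q)) : (Cfsg.groupFusionSystem (S : Subgroup (Cfsg.PSU n K q))).IsSimple p := by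
  have hh := Cfsg.Lib.Class.Form.herm_hermSesq hK n
  have h : Cfsg.Lib.Fus.Grp.FormRep ((Cfsg.Lib.Class.Form.isomGroup _).subtype.comp
      ((Cfsg.Lib.Class.Form.sIsom _).subtype.comp
        (Cfsg.Lib.Class.Form.suEquivSIsom hK n).toMonoidHom)) (Cfsg.Lib.Class.hermSesq hK n) 1 := by
    refine ⟨hh.toGood, by simp, by simp, fun w => ?_, fun U hU hU0 s => ?_,
      Subtype.val_injective.comp (Subtype.val_injective.comp
        (Cfsg.Lib.Class.Form.suEquivSIsom hK n).injective), fun g u v => ?_,
      fun g => ?_, fun f hf hd => ?_⟩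
    · simpa using hh.exists_trace_eq (hh.conj w w)
    · exact hh.exists_norm_of_nondegOn hU hU0 (by rw [one_mul, map_add, hh.invol, add_comm])
    · exact (Cfsg.Lib.Class.Form.suEquivSIsom hK n g).1.2 u v
    · rw [← LinearEquiv.coe_det]
      exact Cfsg.Lib.Class.Form.mem_sIsom'.1 (Cfsg.Lib.Class.Form.suEquivSIsom hK n g).2
    · exact ⟨(Cfsg.Lib.Class.Form.suEquivSIsom hK n).symm ⟨⟨f, hf⟩,
        Cfsg.Lib.Class.Form.mem_sIsom'.2 (by rwa [LinearEquiv.coe_det])⟩, by simp⟩
  have : Finite (Matrix.SpecialLinearGroup (Fin n) K) := Subtype.finite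
  exact h.isSimple_quotient_center (by simpa using hn)
    (fun hσ => absurd (RingHom.ext hσ) hh.ne_id) S

end Cfsg.Agent.S5172
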