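import Cfsg.Statements.S5311
import Cfsg.Agent.Fus.Layer

set_option autoImplicit false
open Cfsg

namespace Cfsg.Agent.S5311

open Cfsg.Lib.Fus Cfsg.FusionSystem


/-- The layer of a saturated fusion system F over a finite p-group S is characteristic in F: for every automorphism α of S that is an automorphism of F (α and its inverse are morphisms from F to F) and every layer E of F over T, α carries T onto T and, for every map φ of E with source P, the map induced by α on α(P) (that is, α ∘ φ ∘ α⁻¹) is a map of E. -/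
theorem result {Ω : Type*} [Group Ω] {S : Subgroup Ω} [Finite S] (p : ℕ) [Fact p.Prime] (hS : IsPGroup p S) (F : Cfsg.FusionSystem S) (hF : F.IsSaturated p)
    (α : ↥S ≃* ↥S) (hα : F.IsMorphism F (S.subtype.comp α.toMonoidHom))
    (hα' : F.IsMorphism F (S.subtype.comp α.symm.toMonoidHom))
    {T : Subgroup Ω} (E : Cfsg.FusionSystem T) (hE : E.IsLayerOf F p) :
    Cfsg.FusionSystem.imageAlong (S.subtype.comp α.toMonoidHom) T = T ∧
      ∀ (P : Subgroup Ω) (φ : ↥P →* Ω), φ ∈ E.Hom P →
        ∀ φ' : ↥(Cfsg.FusionSystem.imageAlong (S.subtype.comp α.toMonoidHom) P) →* Ω,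
          Cfsg.FusionSystem.InducedAlong (S.subtype.comp α.toMonoidHom) φ φ' →
            φ' ∈ E.Hom (Cfsg.FusionSystem.imageAlong (S.subtype.comp α.toMonoidHom) P) := by
  have hT := hE.1.1.2.2.2.1.1
  have := finite_of_le hT
  have e : ∀ β : MulAut S, ∀ x ∈ S, extFun (S.subtype.comp β.toMonoidHom) x = pext S β x :=
    fun β x hx => by rw [extFun_of_mem _ hx, pext_of_mem _ hx]; rfl
  have key : ∀ β : MulAut S, F.IsMorphism F (S.subtype.comp β.toMonoidHom) → Carries F F (pext S β) :=
    fun β hβ P k hk => by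
      obtain ⟨k', h1, h2⟩ := (isMorphism_iff.1 hβ).2 P k hk
      rw [img_congr fun x hx => e β x (hk.le hx)] at h1
      refine h1.congr fun y hy => ?_
      have h3 := ((gIso_pext β).restrict hk.le).inv_maps hy
      rw [← e β _ (hk.maps h3), ← h2 _ h3, e β _ (hk.le h3), perm_apply_inv]
  obtain ⟨h1, h2⟩ := IsLayerOf.conjInv hS hE
    ⟨gIso_pext α, key α hα, (pext_inv_eq (P := S) α).symm ▸ key α.symm hα'⟩
  have e1 : ∀ P, P ≤ S → imageAlong (S.subtype.comp α.toMonoidHom) P = img P (pext S α) := fun P hP =>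
    (imageAlong_eq_img _ hP).trans (img_congr fun x hx => e α x (hP hx))
  refine ⟨(e1 T hT).trans (img_eq_of_le_of_card ((mulOn_pext α).mono hT) (pext S α).injective.injOn h1 le_rfl),
    fun P φ hφ φ' h => ?_⟩
  obtain ⟨a, b, -, d⟩ := (inducedAlong_iff _).1 h
  refine mem_hom_iff.2 ?_
  have h3 := h2.mor ((mulOn_pext α).mono hT) (mor_of_mem hφ) (k := extFun φ') fun x hx => by
    rw [← e α x (a hx), d x hx, e α _ (b x hx)]
  rwa [← e1 P a] at h3

end Cfsg.Agent.S5311
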