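import Cfsg.Statements.S5346
import Cfsg.Agent.Spor.TTCore

set_option autoImplicit false
open Cfsg

namespace Cfsg.Agent.S5346

/-- Let D be a conjugation-invariant generating set of 3-transpositions of a finite group G and d a member of D. Then D has width 1 (no two different members of D commute) if and only if G is the product of the subgroup generated by d with the largest normal 3-subgroup of G. -/
theorem result {G : Type*} [Group G] [Finite G] {D : Set G} (hD : Cfsg.IsThreeTranspositionGroup D) {d : G} (hd : d ∈ D) : Cfsg.commutingWidth D = 1 ↔ Subgroup.zpowers d ⊔ Cfsg.pCore 3 G = ⊤ := by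
  open Cfsg.Lib.Spor in
  have := IsTT.of_group hD
  rw [width_eq_one_iff ⟨d, hd⟩]
  refine ⟨fun h => sup_pCore_three_of_narrow hD.2.2 h hd, fun h a ha b hb hc => ?_⟩
  have key : ∀ a ∈ D, d * a ∈ Cfsg.pCore 3 G := by
    intro a ha
    have h1 : a ∈ Subgroup.zpowers d ⊔ Cfsg.pCore 3 G := h ▸ Subgroup.mem_top a
    rw [← SetLike.mem_coe, Subgroup.mul_normal] at h1
    obtain ⟨x, ⟨k, rfl⟩, y, hy, hxy⟩ := h1
    simp only at hxy
    have hd2 : d ^ (2 : ℤ) = 1 := by rw [zpow_two, tt_mul_self hD.1 hd]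
    rcases Int.even_or_odd' k with ⟨m, rfl | rfl⟩
    · rw [zpow_mul, hd2, one_zpow, one_mul] at hxy
      rw [hxy] at hy
      exact absurd (eq_one_of_isPGroup_of_pow (q := 2) (by norm_num)
        (Cfsg.Lib.Solv.pCore_isPGroup 3 G) hy (by rw [pow_two, tt_mul_self hD.1 ha]))
        (tt_ne_one hD.1 ha)
    · rw [zpow_add, zpow_mul, hd2, one_zpow, one_mul, zpow_one] at hxy
      rw [← hxy, tt_cancel hD.1 hd]; exact hy
  refine tt_eq_of_mem (by norm_num) hD.1 (Cfsg.Lib.Solv.pCore_isPGroup 3 G) ha hb ?_ hc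
  have := mul_mem (inv_mem (key a ha)) (key b hb)
  rwa [mul_inv_rev, tt_inv hD.1 ha, tt_inv hD.1 hd, mul_assoc, tt_cancel hD.1 hd] at this

end Cfsg.Agent.S5346
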