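import Cfsg.Statements.S5349
import Cfsg.Agent.Spor.TTCore

set_option autoImplicit false
open Cfsg

namespace Cfsg.Agent.S5349

/-- Let D be a conjugacy class of 3-transpositions generating the finite group G, with at least two members, and d a member of D. Then the set of members of D commuting with exactly the same members of D as d coincides with the set of members of D lying in the coset of d modulo the largest normal 2-subgroup of G, and also with the orbit of d under conjugation by that normal 2-subgroup. -/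
theorem result {G : Type*} [Group G] [Finite G] {D : Set G} (hD : Cfsg.IsThreeTranspositionClass D) (hD2 : ∃ a ∈ D, ∃ b ∈ D, a ≠ b) {d : G} (hd : d ∈ D) : {v : G | v ∈ D ∧ ∀ e ∈ D, Commute v e ↔ Commute d e} = {v : G | v ∈ D ∧ d⁻¹ * v ∈ Cfsg.pCore 2 G} ∧ {v : G | v ∈ D ∧ ∀ e ∈ D, Commute v e ↔ Commute d e} = {v : G | ∃ g ∈ Cfsg.pCore 2 G, v = g * d * g⁻¹} := by
  open Cfsg.Lib.Spor Cfsg.Lib.Spor.TQ in
  have := IsTT.of_class hD
  have := nontrivial_coe_of hD2
  have hgen := hD.2.2
  constructor
  · ext v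
    refine and_congr_right fun hv => ?_
    rw [tt_inv hD.1 hd]
    exact (vr_iff_coe (d := ⟨d, hd⟩) (v := ⟨v, hv⟩)).symm.trans (vr_iff_mem_pCore hgen)
  · ext v
    constructor
    · rintro ⟨hv, h⟩
      have h1 := (vr_iff_coe (d := ⟨d, hd⟩) (v := ⟨v, hv⟩)).2 h
      obtain ⟨a, ha⟩ := (conn_of_class hD).exists_ncom ⟨d, hd⟩
      refine ⟨_, mul_mem_pCore_two_of_VR hgen (isCong_VR.act a h1), ?_⟩
      set d' : D := ⟨d, hd⟩
      set v' : D := ⟨v, hv⟩
      have hv2 : ¬ v' ⫫ a := mt (h1 a).2 ha
      have h3 : (a ▹ d') ▹ (a ▹ v') ▹ d' = v' := by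
        have h4 : (a ▹ d') ▹ (a ▹ v') = a ▹ v' := by
          rw [← act_distrib, h1.com.eq]
        have h5 : (a ▹ d') ▹ d' = a := by rw [act_comm (ncom_symm ha), act_act_left ha]
        rw [act_distrib, h4, h5, act_act_left (ncom_symm hv2)]
      have := congrArg Subtype.val h3
      simp only [IsTT.coe_act] at this
      change (v' : G) = _ * (d' : G) * _
      refine this.symm.trans ?_
      simp only [IsTT.coe_act]; group
    · rintro ⟨g, hg, rfl⟩
      have h1 := IsTT.conj_of_class hD g d hd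
      exact ⟨h1, (vr_iff_coe (d := ⟨d, hd⟩) (v := ⟨_, h1⟩)).1
        ((vr_iff_mem_pCore hgen).2 (mul_conj_mem hg ⟨d, hd⟩))⟩

end Cfsg.Agent.S5349
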