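import Cfsg.Statements.S5350
import Cfsg.Agent.Spor.TTCore

set_option autoImplicit false
open Cfsg

namespace Cfsg.Agent.S5350

/-- Let D be a conjugacy class of 3-transpositions generating the finite group G, with at least two members, and d a member of D. Then the set of members w of D whose commuting partners in D (other than w) are exactly those of d (other than d) coincides with the set of members of D lying in the coset of d modulo the largest normal 3-subgroup of G, and also with the orbit of d under conjugation by that normal 3-subgroup. -/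
theorem result {G : Type*} [Group G] [Finite G] {D : Set G} (hD : Cfsg.IsThreeTranspositionClass D) (hD2 : ∃ a ∈ D, ∃ b ∈ D, a ≠ b) {d : G} (hd : d ∈ D) : {w : G | w ∈ D ∧ {y : G | y ∈ D ∧ y ≠ d ∧ Commute d y} = {y : G | y ∈ D ∧ y ≠ w ∧ Commute w y}} = {w : G | w ∈ D ∧ d⁻¹ * w ∈ Cfsg.pCore 3 G} ∧ {w : G | w ∈ D ∧ {y : G | y ∈ D ∧ y ≠ d ∧ Commute d y} = {y : G | y ∈ D ∧ y ≠ w ∧ Commute w y}} = {w : G | ∃ g ∈ Cfsg.pCore 3 G, w = g * d * g⁻¹} := by
  open Cfsg.Lib.Spor Cfsg.Lib.Spor.TQ in
  have := IsTT.of_class hD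
  have hgen := hD.2.2
  constructor
  · ext v
    refine and_congr_right fun hv => ?_
    rw [tt_inv hD.1 hd]
    exact (wr_iff_coe (d := ⟨d, hd⟩) (w := ⟨v, hv⟩)).symm.trans (wr_iff_mem_pCore hgen)
  · ext v
    constructor
    · rintro ⟨hv, h⟩
      have h1 := (wr_iff_coe (d := ⟨d, hd⟩) (w := ⟨v, hv⟩)).2 h
      refine ⟨_, mul_mem_pCore_three_of_WR hgen h1, ?_⟩
      set d' : D := ⟨d, hd⟩
      set v' : D := ⟨v, hv⟩
      have h3 : d' ▹ v' ▹ d' = v' := by
        by_cases hc : d' ⫫ v'
        · rw [h1.eq_of_com hc]; simp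
        · exact act_act_of_ncom hc
      have := congrArg Subtype.val h3
      simp only [IsTT.coe_act] at this
      change (v' : G) = _ * (d' : G) * _
      refine this.symm.trans ?_
      group
    · rintro ⟨g, hg, rfl⟩
      have h1 := IsTT.conj_of_class hD g d hd
      exact ⟨h1, (wr_iff_coe (d := ⟨d, hd⟩) (w := ⟨_, h1⟩)).1
        ((wr_iff_mem_pCore hgen).2 (mul_conj_mem hg ⟨d, hd⟩))⟩

end Cfsg.Agent.S5350
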