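import Cfsg.Statements.S5351
import Cfsg.Agent.Spor.TTStruct

set_option autoImplicit false
open Cfsg

namespace Cfsg.Agent.S5351

/-- Let D be a conjugacy class of 3-transpositions generating the finite group G, with at least two members. Then for every prime p > 3 the largest normal p-subgroup of G is central, and exactly one of the following holds: the largest normal 2-subgroup of G is not central; the largest normal 3-subgroup of G is not central; the layer of G (the product of its components) is non-trivial. -/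
theorem result {G : Type*} [Group G] [Finite G] {D : Set G} (hD : Cfsg.IsThreeTranspositionClass D) (hD2 : ∃ a ∈ D, ∃ b ∈ D, a ≠ b) : (∀ p : ℕ, p.Prime → 3 < p → Cfsg.pCore p G ≤ Subgroup.center G) ∧ ((¬ Cfsg.pCore 2 G ≤ Subgroup.center G ∧ Cfsg.pCore 3 G ≤ Subgroup.center G ∧ Cfsg.layer G = ⊥) ∨ (Cfsg.pCore 2 G ≤ Subgroup.center G ∧ ¬ Cfsg.pCore 3 G ≤ Subgroup.center G ∧ Cfsg.layer G = ⊥) ∨ (Cfsg.pCore 2 G ≤ Subgroup.center G ∧ Cfsg.pCore 3 G ≤ Subgroup.center G ∧ Cfsg.layer G ≠ ⊥)) := by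
  open Cfsg.Lib.Spor Cfsg.Lib.Spor.TQ in
  have := IsTT.of_class hD
  have := nontrivial_coe_of hD2
  have hgen := hD.2.2
  have hX := conn_of_class hD
  refine ⟨fun p hp hp3 => pCore_le_center_of_three_lt hgen hp hp3, ?_⟩
  rw [← vTriv_iff hgen hX, ← wTriv_iff hgen hX]
  by_cases hV : VTriv D
  · by_cases hW : WTriv D
    · exact Or.inr (Or.inr ⟨hV, hW, layer_ne_bot_of_cores hgen hX ((vTriv_iff hgen hX).1 hV)
        ((wTriv_iff hgen hX).1 hW)⟩)
    · exact Or.inr (Or.inl ⟨hV, hW, layer_eq_bot_of_not_wTriv hgen hX hW⟩)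
  · exact Or.inl ⟨hV, (vTriv_or_wTriv hX).resolve_left hV, layer_eq_bot_of_not_vTriv hgen hX hV⟩

end Cfsg.Agent.S5351
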