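import Cfsg.Statements.S5352
import Cfsg.Agent.Spor.TTStruct

set_option autoImplicit false
open Cfsg

namespace Cfsg.Agent.S5352

/-- Let D be a conjugacy class of 3-transpositions generating the finite group G, with at least two members, and suppose the largest normal 2-subgroup and the largest normal 3-subgroup of G are both central. Then G has a quasisimple normal subgroup L such that the generalized Fitting subgroup of G is the product of L and the centre; and either L = G or the image of D in G/L has width 1, in the sense that two members of D whose commutator lies in L have the same image modulo L. -/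
theorem result {G : Type*} [Group G] [Finite G] {D : Set G} (hD : Cfsg.IsThreeTranspositionClass D) (hD2 : ∃ a ∈ D, ∃ b ∈ D, a ≠ b) (h2 : Cfsg.pCore 2 G ≤ Subgroup.center G) (h3 : Cfsg.pCore 3 G ≤ Subgroup.center G) : ∃ L : Subgroup G, L.Normal ∧ Cfsg.IsQuasisimple L ∧ Cfsg.generalizedFittingSubgroup G = L ⊔ Subgroup.center G ∧ (L = ⊤ ∨ ∀ a ∈ D, ∀ b ∈ D, a * b * a⁻¹ * b⁻¹ ∈ L → a⁻¹ * b ∈ L) := by
  open Cfsg.Lib.Spor Cfsg.Lib.Spor.TQ in
  have := IsTT.of_class hD
  have := nontrivial_coe_of hD2
  have hgen := hD.2.2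
  have hX := conn_of_class hD
  rw [← vTriv_iff hgen hX] at h2
  rw [← wTriv_iff hgen hX] at h3
  refine ⟨Cfsg.layer G, inferInstance, layer_quasisimple hgen hX h2 h3,
    genFitting_eq_layer_sup hgen hX h2 h3, Or.inr fun a ha b hb hab => ?_⟩
  rw [tt_inv hD.1 ha]
  by_cases hc : (⟨a, ha⟩ : D) ⫫ ⟨b, hb⟩
  · exact mul_mem_of_com_of_normal hgen hX h2 h3 (layer_not_le_center hgen hX h2 h3) hc
  · refine mul_mem_of_sq_mem hc ?_
    rw [tt_inv hD.1 ha, tt_inv hD.1 hb] at hab
    simpa [pow_two, mul_assoc] using hab

end Cfsg.Agent.S5352
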