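import Cfsg.Statements.S5354
import Cfsg.Agent.Spor.TTStruct

set_option autoImplicit false
open Cfsg

namespace Cfsg.Agent.S5354

/-- Let D be a conjugation-invariant generating set of 3-transpositions of the finite group G on which G acts primitively by conjugation, and suppose two different members of D commute (width at least 2). Then G has a quasisimple normal subgroup L of index at most 2 with the generalized Fitting subgroup of G equal to L times the centre, the commuting graph of D is connected, and for d in D the subgroup generated by the members of D commuting with d is a maximal D-subgroup: it is proper, and every subgroup generated by members of D that contains it is either it or G. -/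
theorem result {G : Type*} [Group G] [Finite G] {D : Set G} (hD : Cfsg.IsThreeTranspositionGroup D) (hprim : Cfsg.IsPrimitiveUnderConj D) (hw : ∃ a ∈ D, ∃ b ∈ D, a ≠ b ∧ Commute a b) : (∃ L : Subgroup G, L.Normal ∧ Cfsg.IsQuasisimple L ∧ L.index ≤ 2 ∧ Cfsg.generalizedFittingSubgroup G = L ⊔ Subgroup.center G) ∧ (Cfsg.commutingGraph D).Connected ∧ ∀ d ∈ D, Subgroup.closure {y : G | y ∈ D ∧ Commute d y} ≠ ⊤ ∧ ∀ H : Subgroup G, Cfsg.IsDSubgroup D H → Subgroup.closure {y : G | y ∈ D ∧ Commute d y} ≤ H → H = Subgroup.closure {y : G | y ∈ D ∧ Commute d y} ∨ H = ⊤ := by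
  open Cfsg.Lib.Spor Cfsg.Lib.Spor.TQ in
  have := IsTT.of_group hD
  have hgen := hD.2.2
  rw [← prim_iff hgen] at hprim
  rw [← wide_iff] at hw
  have := hprim.nontrivial
  have hX := hprim.conn
  have h2 := hprim.vTriv
  have h3 := hprim.wTriv hw
  have hc := hprim.comConn hw
  refine ⟨⟨Cfsg.layer G, inferInstance, layer_quasisimple hgen hX h2 h3, ?_,
    genFitting_eq_layer_sup hgen hX h2 h3⟩, comConn_iff.1 hc, fun d hd => ⟨fun h => ?_, ?_⟩⟩
  · rcases index_le_two_of_mul_mem hgen (mul_mem_of_comConn hgen hX h2 h3 hc
      (layer_not_le_center hgen hX h2 h3)) with h | h <;> omega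
  · obtain ⟨a, ha⟩ := hX.exists_ncom ⟨d, hd⟩
    have : Subgroup.closure {y : G | y ∈ D ∧ Commute d y} ≤ Subgroup.centralizer {d} := by
      rw [Subgroup.closure_le]
      intro y hy
      exact Subgroup.mem_centralizer_singleton_iff.2 hy.2.symm
    exact ha (IsTT.com_iff.2 (Subgroup.mem_centralizer_singleton_iff.1
      (this (h ▸ Subgroup.mem_top (a : G)))).symm)
  · intro H hH hle
    by_cases hex : ∃ a : D, ¬ (⟨d, hd⟩ : D) ⫫ a ∧ (a : G) ∈ H
    · right
      obtain ⟨a, ha, haH⟩ := hex
      rw [eq_top_iff, ← hgen, Subgroup.closure_le]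
      intro b hb
      by_cases hdb : Commute d b
      · exact hle (Subgroup.subset_closure ⟨hb, hdb⟩)
      · obtain ⟨k, hk, hab⟩ := hprim.exists_ncom_trans hw (b := ⟨b, hb⟩) ha
          (mt IsTT.com_iff.1 hdb)
        obtain ⟨g, hg, hgk⟩ := exists_closure_of_innOn hD.2.1 hk
        rw [coe_image_perp] at hg
        have := hgk a
        rw [hab] at this
        change b ∈ H
        rw [← show g * a * g⁻¹ = b from this]
        exact mul_mem (mul_mem (hle hg) haH) (inv_mem (hle hg))
    · left
      push Not at hex
      refine le_antisymm ?_ hle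
      rw [← hH]
      refine Subgroup.closure_mono fun y hy => ⟨hy.1, ?_⟩
      by_contra hn
      exact hex ⟨y, hy.1⟩ (mt IsTT.com_iff.1 hn) hy.2

end Cfsg.Agent.S5354
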