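import Cfsg.Statements.S5355
import Cfsg.Agent.Spor.FsConf
import Cfsg.Agent.Spor.TTStruct
import Cfsg.Agent.Spor.TQSym

set_option autoImplicit false
open Cfsg

namespace Cfsg.Agent.S5355

/-- Let D be a conjugacy class of 3-transpositions generating the finite group G, with at least two members, and d a member of D. Suppose that every member of D commuting with d commutes with exactly the same members of D as d does, and that exactly one member of D other than d commutes with d. Then G is isomorphic to the symmetric group of degree 4. -/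
theorem result {G : Type*} [Group G] [Finite G] {D : Set G} (hD : Cfsg.IsThreeTranspositionClass D) (hD2 : ∃ a ∈ D, ∃ b ∈ D, a ≠ b) {d : G} (hd : d ∈ D) (hV : {y : G | y ∈ D ∧ Commute d y} = {v : G | v ∈ D ∧ ∀ e ∈ D, Commute v e ↔ Commute d e}) (hm : {y : G | y ∈ D ∧ Commute d y}.ncard = 2) : Nonempty (G ≃* Equiv.Perm (Fin 4)) := by
  open Cfsg.Lib.Spor Cfsg.Lib.Spor.TQ in
  have hT := IsTT.of_class hD
  have hX := conn_of_class hD
  have hN := nontrivial_coe_of hD2
  have hgen := (IsTT.group_of_class hD).2.2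
  obtain ⟨d, rfl⟩ : ∃ x : D, (x : G) = d := ⟨⟨d, hd⟩, rfl⟩
  have h1 : (dperp d).ncard = 1 := by
    rw [← coe_image_perp, Set.ncard_image_of_injective _ Subtype.val_injective] at hm
    have : perp d = insert d (dperp d) := by
      ext y
      simp only [mem_perp, Set.mem_insert_iff, mem_dperp]
      constructor
      · intro h; by_cases h' : y = d; exacts [Or.inl h', Or.inr ⟨h', h⟩]
      · rintro (rfl | h); exacts [com_refl _, h.2]
    rw [this, Set.ncard_insert_of_notMem (fun h => h.1 rfl)] at hm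
    omega
  have huniq : ∀ x y z : D, y ∈ dperp x → z ∈ dperp x → y = z := by
    intro x y z hy hz
    obtain ⟨a, ha⟩ := Set.ncard_eq_one.1 ((hX.ncard_dperp x d).trans h1)
    rw [ha] at hy hz
    exact hy.trans hz.symm
  obtain ⟨e, he⟩ := Set.ncard_eq_one.1 h1
  have hde : e ∈ dperp d := by rw [he]; rfl
  have hvr : VR d e := by
    rw [vr_iff_coe]
    have : (e : G) ∈ {y : G | y ∈ D ∧ Commute (d : G) y} := ⟨e.2, IsTT.com_iff.1 hde.2⟩
    rw [hV] at this
    exact this.2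
  obtain ⟨c, hc⟩ := hX.exists_ncom d
  have hec : ¬ e ⫫ c := fun h => hc ((hvr c).2 h)
  obtain ⟨φ, hφ, e1, e2, e3⟩ := exists_hom_perm4 hT.set d.2 c.2 e.2
    (fun h => hde.1 (Subtype.ext h).symm) (IsTT.com_iff.1 hde.2) (mt IsTT.com_iff.2 hc)
    (mt IsTT.com_iff.2 (ncom_symm hec))
  have hnoag : ∀ y, ¬ AGT d c y := by
    intro y hy
    have key : ∀ q, ¬ d ⫫ q → ¬ e ⫫ q := fun q hq h => hq ((hvr q).2 h)
    obtain ⟨k1, k2⟩ := hy.l36 hde.2.symm hde.1 hec (key _ hy.ac) (key _ hy.a_bc)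
      (key _ hy.flip3.a_bc)
    have k3 := huniq e d _ ⟨hde.1.symm, hde.2.symm⟩ ⟨k1, k2⟩
    exact hde.1 ((agG d c y).injective (hy.agG_left.trans k3)).symm
  refine ⟨(MulEquiv.ofBijective φ ⟨hφ, ?_⟩).symm⟩
  rw [← MonoidHom.range_eq_top, eq_top_iff, ← hgen, Subgroup.closure_le]
  have hd' : (d : G) ∈ φ.range := ⟨_, e1⟩
  have hc' : (c : G) ∈ φ.range := ⟨_, e2⟩
  have he' : (e : G) ∈ φ.range := ⟨_, e3⟩
  have hact : ∀ x y : D, (x : G) ∈ φ.range → (y : G) ∈ φ.range → ((x ▹ y : D) : G) ∈ φ.range :=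
    fun x y hx hy => mul_mem (mul_mem hx hy) (inv_mem hx)
  intro y hy
  obtain ⟨y, rfl⟩ : ∃ x : D, (x : G) = y := ⟨⟨y, hy⟩, rfl⟩
  have key : ∀ s s' : D, s' ∈ dperp s → (s : G) ∈ φ.range → (s' : G) ∈ φ.range → s ⫫ y →
      (y : G) ∈ φ.range := by
    intro s s' h1 h2 h3 h4
    by_cases h5 : y = s
    · rw [h5]; exact h2
    · rw [huniq s y s' ⟨h5, h4⟩ h1]; exact h3
  by_contra hn
  apply hnoag y
  refine ⟨hc, fun h => hn (key d e hde hd' he' h), fun h => hn (key c (d ▹ e ▹ c) ⟨?_, ?_⟩ hc'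
    (hact _ _ hd' (hact _ _ he' hc')) h), fun h => hn (key (d ▹ c) (e ▹ c) ⟨?_, ?_⟩
    (hact _ _ hd' hc') (hact _ _ he' hc') h)⟩
  · intro h
    rw [act_eq_iff] at h
    exact hde.1 (eq_of_act_eq_act hec h)
  · exact string_com' hde.2 hc hec
  · exact fun h => hde.1 (eq_of_act_eq_act hec h)
  · exact string_com hde.2 hc hec

end Cfsg.Agent.S5355
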