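import Cfsg.Statements.S5356
import Cfsg.Agent.Spor.FsConf
import Cfsg.Agent.Spor.TTStruct
import Cfsg.Agent.Spor.TQSym

set_option autoImplicit false
open Cfsg

namespace Cfsg.Agent.S5356

/-- Let D be a conjugacy class of 3-transpositions generating the finite group G, with at least two members, and d a member of D such that every member of D commuting with d commutes with exactly the same members of D as d. Then there is a Sylow 3-subgroup P of G normalized by d such that G is generated by d, P and the largest normal 2-subgroup of G. -/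
theorem result {G : Type*} [Group G] [Finite G] {D : Set G} (hD : Cfsg.IsThreeTranspositionClass D) (hD2 : ∃ a ∈ D, ∃ b ∈ D, a ≠ b) {d : G} (hd : d ∈ D) (hV : {y : G | y ∈ D ∧ Commute d y} = {v : G | v ∈ D ∧ ∀ e ∈ D, Commute v e ↔ Commute d e}) : ∃ P : Sylow 3 G, d ∈ Subgroup.normalizer (P : Set G) ∧ Subgroup.zpowers d ⊔ (P : Subgroup G) ⊔ Cfsg.pCore 2 G = ⊤ := by
  open Cfsg.Lib.Spor Cfsg.Lib.Spor.TQ in
  have hT := IsTT.of_class hD
  have hX := conn_of_class hD
  have hN := nontrivial_coe_of hD2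
  have hgen := (IsTT.group_of_class hD).2.2
  have hconj := (IsTT.group_of_class hD).2.1
  have h3 : Fact (Nat.Prime 3) := ⟨Nat.prime_three⟩
  obtain ⟨d, rfl⟩ : ∃ x : D, (x : G) = d := ⟨⟨d, hd⟩, rfl⟩
  have hvr0 : ∀ y, d ⫫ y → VR d y := by
    intro y hy
    rw [vr_iff_coe]
    have : (y : G) ∈ {y : G | y ∈ D ∧ Commute (d : G) y} := ⟨y.2, IsTT.com_iff.1 hy⟩
    rw [hV] at this
    exact this.2
  have hvr : ∀ x y : D, x ⫫ y → VR x y := by
    intro x y hxy
    obtain ⟨g, hg, rfl⟩ := hX d x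
    obtain ⟨y, rfl⟩ := g.surjective y
    exact (hvr0 y ((Aut.com_iff (Inn_le_Aut hg)).1 hxy)).aut (Inn_le_Aut hg)
  have hO2 : ∀ x y : D, x ⫫ y → (x : G) * y ∈ pCore 2 G := fun x y h =>
    mul_mem_pCore_two_of_VR hgen (hvr x y h)
  obtain ⟨a, ha⟩ := hX.exists_ncom d
  have hcube : ((d : G) * a) ^ 3 = 1 := tt_cube hT.set d.2 a.2 (mt IsTT.com_iff.2 ha)
  -- a maximal `d`-invariant 3-subgroup containing `d a`
  obtain ⟨R, ⟨hR3, hRd, hRa⟩, hRmax⟩ := Set.Finite.exists_maximal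
    (s := {R : Subgroup G | IsPGroup 3 R ∧ (d : G) ∈ Subgroup.normalizer (R : Set G) ∧ (d : G) * a ∈ R})
    (Set.toFinite _) ⟨Subgroup.zpowers ((d : G) * a), by
      refine ⟨isPGroup_closure_of_commute (E := {(d : G) * a}) (p := 3) (by rintro _ rfl; exact hcube)
        (by rintro _ rfl _ rfl; exact Commute.refl _) |>.of_equiv
          (MulEquiv.subgroupCongr (Subgroup.zpowers_eq_closure _).symm), ?_, Subgroup.mem_zpowers _⟩
      have key : ∀ x ∈ Subgroup.zpowers ((d : G) * a), (d : G) * x * (d : G)⁻¹ ∈ Subgroup.zpowers ((d : G) * a) := by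
        rintro _ ⟨n, rfl⟩
        rw [← conj_zpow]
        refine zpow_mem ?_ n
        have : (d : G) * (d * a) * (d : G)⁻¹ = ((d : G) * a)⁻¹ := by
          rw [tt_cancel hT.set d.2, mul_inv_rev, IsTT.inv a]
        rw [this]
        exact inv_mem (Subgroup.mem_zpowers _)
      rw [Subgroup.mem_normalizer_iff]
      intro x
      refine ⟨key x, fun h => ?_⟩
      have := key _ h
      rwa [IsTT.inv d, ← mul_assoc, ← mul_assoc, IsTT.mul_self, one_mul, mul_assoc, IsTT.mul_self,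
        mul_one] at this⟩
  let M := Subgroup.normalizer (R : Set G)
  let E : Set G := {x | ∃ m ∈ M, x = m * d * m⁻¹}
  have hED : E ⊆ D := by rintro _ ⟨m, -, rfl⟩; exact hconj _ _ d.2
  have hEM : ∀ x ∈ E, x ∈ M := by
    rintro _ ⟨m, hm, rfl⟩; exact mul_mem (mul_mem hm hRd) (inv_mem hm)
  have hEc : ∀ m ∈ M, ∀ x ∈ E, m * x * m⁻¹ ∈ E := by
    rintro m hm _ ⟨m', hm', rfl⟩
    exact ⟨m * m', mul_mem hm hm', by group⟩
  have hTE : IsTT E := IsTT.sub hED fun a ha b hb => hEc a (hEM a ha) b hb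
  have hnar : ∀ x ∈ E, ∀ y ∈ E, Commute x y → x = y := by
    rintro _ ⟨m, hm, rfl⟩ y hy hxy
    set x := m * (d : G) * m⁻¹ with hx
    have hxD : x ∈ D := hconj _ _ d.2
    have hbD : m * (a : G) * m⁻¹ ∈ D := hconj _ _ a.2
    set b := m * (a : G) * m⁻¹ with hb
    have hr : x * b ∈ R := by
      have := (Subgroup.mem_normalizer_iff.1 hm _).1 hRa
      convert this using 1
      rw [hx, hb]; group
    have hxb : ¬ Commute x b := fun h => ha (IsTT.com_iff.2 (by
      have := h.map (MulAut.conj m⁻¹)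
      simpa [hx, hb, mul_assoc] using this))
    have h2 : x * y ∈ pCore 2 G := hO2 ⟨x, hxD⟩ ⟨y, hED hy⟩ (IsTT.com_iff.2 hxy)
    have hxyM : x * y ∈ M := mul_mem (hEM _ ⟨m, hm, rfl⟩) (hEM y hy)
    have hcomm : Commute (x * y) (x * b) := by
      have c1 : x * y * (x * b) * (x * y)⁻¹ * (x * b)⁻¹ ∈ R :=
        mul_mem ((Subgroup.mem_normalizer_iff.1 hxyM _).1 hr) (inv_mem hr)
      have c2 : x * y * (x * b) * (x * y)⁻¹ * (x * b)⁻¹ ∈ pCore 2 G := by
        have := (inferInstance : (pCore 2 G).Normal).conj_mem _ (inv_mem h2) (x * b)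
        have := mul_mem h2 this
        convert this using 1; group
      obtain ⟨k, hk⟩ := Cfsg.Lib.Solv.pCore_isPGroup 2 G ⟨_, c2⟩
      have c3 := eq_one_of_isPGroup_of_pow (p := 3) (q := 2 ^ k) (Nat.Coprime.pow_right k (by norm_num)) hR3 c1
        (congrArg Subtype.val hk)
      rw [mul_inv_eq_one, mul_inv_eq_iff_eq_mul] at c3
      exact c3
    have hyb : ¬ Commute y b := fun h => hxb (IsTT.com_iff.1
      (((hvr ⟨x, hxD⟩ ⟨y, hED hy⟩ (IsTT.com_iff.2 hxy)) ⟨b, hbD⟩).2 (IsTT.com_iff.2 h)))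
    have e1 : y * b = (x * y) * (x * b) := by
      rw [hxy.eq, mul_assoc, tt_cancel hT.set hxD]
    have e2 := tt_cube hT.set (hED hy) hbD hyb
    rw [e1, hcomm.mul_pow, tt_cube hT.set hxD hbD hxb, mul_one, pow_succ,
      sq_of_commute (tt_mul_self hT.set hxD) (tt_mul_self hT.set (hED hy)) hxy, one_mul] at e2
    rw [← tt_inv hT.set hxD, inv_mul_eq_one] at e2
    exact e2
  have hQ := isPGroup_closure_mul_of_width_one hnar
  set Q := Subgroup.closure {g : G | ∃ a ∈ E, ∃ b ∈ E, g = a * b} with hQdef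
  have hQM : Q ≤ M := by
    rw [hQdef, Subgroup.closure_le]
    rintro _ ⟨x, hx, y, hy, rfl⟩
    exact mul_mem (hEM x hx) (hEM y hy)
  have hdQ : (d : G) ∈ Subgroup.normalizer (Q : Set G) := by
    have key : ∀ x ∈ Q, (d : G) * x * (d : G)⁻¹ ∈ Q := by
      intro x hx
      induction hx using Subgroup.closure_induction with
      | mem x hx =>
        obtain ⟨x, hx, y, hy, rfl⟩ := hx
        exact Subgroup.subset_closure ⟨_, hEc _ hRd x hx, _, hEc _ hRd y hy, by group⟩
      | one => simpa using one_mem Q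
      | mul x y _ _ h1 h2 => convert mul_mem h1 h2 using 1; group
      | inv x _ h1 => convert inv_mem h1 using 1; group
    rw [Subgroup.mem_normalizer_iff]
    intro x
    refine ⟨key x, fun h => ?_⟩
    have := key _ h
    rwa [IsTT.inv d, ← mul_assoc, ← mul_assoc, IsTT.mul_self, one_mul, mul_assoc, IsTT.mul_self,
      mul_one] at this
  have hQR : Q ≤ R := by
    have h1 : IsPGroup 3 ↥(Q ⊔ R) := hQ.to_sup_of_normal_right' hR3 hQM
    have h2 : (d : G) ∈ Subgroup.normalizer ((Q ⊔ R : Subgroup G) : Set G) :=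
      Subgroup.normalizer_inf_normalizer_le_normalizer_sup Q R ⟨hdQ, hRd⟩
    exact le_sup_left.trans (hRmax ⟨h1, h2, (le_sup_right : R ≤ Q ⊔ R) hRa⟩ le_sup_right)
  obtain ⟨P, hRP⟩ := hR3.exists_le_sylow
  have hPR : (P : Subgroup G) ≤ R := by
    by_contra hn
    have hnil : Group.IsNilpotent P := P.isPGroup'.isNilpotent
    have hlt : R.subgroupOf P < ⊤ := lt_top_iff_ne_top.2 fun h =>
      hn (Subgroup.subgroupOf_eq_top.1 h)
    have hlt2 := Group.normalizerCondition_of_isNilpotent _ hlt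
    obtain ⟨s, hs1, hs2⟩ := SetLike.exists_of_lt hlt2
    rw [← Subgroup.subgroupOf_normalizer_eq hRP, Subgroup.mem_subgroupOf] at hs1
    apply hs2
    rw [Subgroup.mem_subgroupOf]
    have hS : R ≤ M ⊓ P := le_inf Subgroup.le_normalizer hRP
    refine hRmax (y := M ⊓ P) ⟨P.isPGroup'.to_inf_right, ?_, hS hRa⟩ hS ⟨hs1, s.2⟩
    have key : ∀ x ∈ M ⊓ (P : Subgroup G), (d : G) * x * (d : G)⁻¹ ∈ M ⊓ (P : Subgroup G) := by
      intro x hx
      have h1 : (d : G) * (x * d * x⁻¹) ∈ Q :=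
        Subgroup.subset_closure ⟨_, ⟨1, one_mem _, by group⟩, _, ⟨x, hx.1, rfl⟩, rfl⟩
      have := mul_mem (hS (hQR h1)) hx
      convert this using 1
      rw [IsTT.inv d]; group
    rw [Subgroup.mem_normalizer_iff]
    intro x
    refine ⟨key x, fun h => ?_⟩
    have := key _ h
    rwa [IsTT.inv d, ← mul_assoc, ← mul_assoc, IsTT.mul_self, one_mul, mul_assoc, IsTT.mul_self,
      mul_one] at this
  have hPe : (P : Subgroup G) = R := le_antisymm hPR hRP
  refine ⟨P, by rw [show (P : Set G) = R from congrArg SetLike.coe hPe]; exact hRd, ?_⟩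
  let π := QuotientGroup.mk' (pCore 2 G)
  have hπ : Function.Surjective π := QuotientGroup.mk'_surjective _
  have hne : ∀ x ∈ D, π x ≠ 1 := by
    intro x hx h1
    obtain ⟨y, hy⟩ := hX.exists_ncom ⟨x, hx⟩
    have h2 : x ∈ pCore 2 G := (QuotientGroup.eq_one_iff x).1 h1
    have h3 : x * (y * x * (y : G)⁻¹) ∈ pCore 2 G :=
      mul_mem h2 ((inferInstance : (pCore 2 G).Normal).conj_mem _ h2 y)
    have h4 := tt_commute_of_mem (p := 2) (by norm_num) hT.set (Cfsg.Lib.Solv.pCore_isPGroup 2 G) hx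
      (hconj _ _ hx) h3
    have h5 : (⟨x, hx⟩ : D) ⫫ (y ▹ ⟨x, hx⟩) := IsTT.com_iff.2 h4
    rw [com_act_right'] at h5
    exact hy h5.symm
  have hT' : IsTT (π '' D) := IsTT.image π hne
  have hgen' : Subgroup.closure (π '' D) = ⊤ := by
    rw [← MonoidHom.map_closure, hgen, Subgroup.map_top_of_surjective _ hπ]
  have hnar' : ∀ a ∈ π '' D, ∀ b ∈ π '' D, Commute a b → a = b := by
    rintro _ ⟨x, hx, rfl⟩ _ ⟨y, hy, rfl⟩ hxy
    have h1 : (x * y) ^ 2 ∈ pCore 2 G := by
      rw [← QuotientGroup.eq_one_iff]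
      change π ((x * y) ^ 2) = 1
      rw [map_pow, map_mul]
      exact sq_of_commute (tt_mul_self hT'.set ⟨x, hx, rfl⟩) (tt_mul_self hT'.set ⟨y, hy, rfl⟩) hxy
    have h2 : (⟨x, hx⟩ : D) ⫫ ⟨y, hy⟩ := by
      by_contra hn
      exact hn (IsTT.com_iff.2 (tt_commute_of_mem (p := 2) (by norm_num) hT.set
        (Cfsg.Lib.Solv.pCore_isPGroup 2 G) hx hy (mul_mem_of_sq_mem hn h1)))
    have h3 := hO2 _ _ h2
    change (x : G ⧸ pCore 2 G) = y
    rw [QuotientGroup.eq, tt_inv hT.set hx]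
    exact h3
  have h4 := sup_pCore_three_of_narrow hgen' hnar' ⟨d, d.2, rfl⟩
  have h5 : pCore 3 (G ⧸ pCore 2 G) ≤ (P : Subgroup G).map π :=
    (Cfsg.Lib.Solv.pCore_isPGroup 3 _).le_sylow_of_normal (P.mapSurjective hπ)
  have h6 : (Subgroup.zpowers (d : G) ⊔ P).map π = ⊤ := by
    rw [Subgroup.map_sup, MonoidHom.map_zpowers, eq_top_iff, ← h4]
    exact sup_le_sup_left h5 _
  have h7 := congrArg (Subgroup.comap π) h6
  rwa [Subgroup.comap_map_eq, QuotientGroup.ker_mk', Subgroup.comap_top] at h7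

end Cfsg.Agent.S5356
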