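import Cfsg.Statements.S5358
import Cfsg.Agent.Class.OrthMat

set_option autoImplicit false
open scoped MatrixGroups
open Cfsg

namespace Cfsg.Agent.S5358

/-- Let Q be a non-degenerate quadratic form on the n-dimensional coordinate space over the field with three elements and u, v vectors of the same non-zero norm Q(u) = Q(v) spanning different lines (v ≠ u and v ≠ −u). Then the reflection matrices of u and v commute if and only if u and v are orthogonal for the polar form of Q. -/
theorem result (n : ℕ) (Q : QuadraticForm (ZMod 3) (Fin n → ZMod 3)) (hQ : (QuadraticMap.polarBilin Q).Nondegenerate) (u v : Fin n → ZMod 3) (hu : Q u ≠ 0) (huv : Q u = Q v) (h1 : v ≠ u) (h2 : v ≠ -u) : Commute (Cfsg.reflectionMatrix (⇑Q) u) (Cfsg.reflectionMatrix (⇑Q) v) ↔ QuadraticMap.polar (⇑Q) u v = 0 := by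
  have hc := QuadraticMap.polar_comm Q
  constructor
  · intro h
    by_contra hb
    have h3 := congrArg (fun M => Matrix.mulVec M u) h.eq
    simp only [← Matrix.mulVec_mulVec, Lib.Class.Orth.reflectionMatrix_mulVec,
      Lib.Class.Orth.refl_apply, QuadraticMap.polar_sub_left, QuadraticMap.polar_smul_left,
      QuadraticMap.polar_self, hc v u, ← huv] at h3
    have h4 : ∀ c : ZMod 3, c ≠ 0 → c = 1 ∨ c = -1 := by decide
    have h5 : (3 : ZMod 3) = 0 := rfl
    rcases h4 _ hu with h6 | h6 <;> rcases h4 _ hb with h7 | h7 <;> rw [h6, h7] at h3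
    all_goals simp only [inv_one, inv_neg, nsmul_eq_mul, smul_eq_mul, Nat.cast_ofNat] at h3
    · exact h2 (by linear_combination (norm := module) h3 + h5 • v)
    · exact h1 (by linear_combination (norm := module) -h3 + h5 • v)
    · exact h1 (by linear_combination (norm := module) -h3 + h5 • v)
    · exact h2 (by linear_combination (norm := module) h3 + h5 • v)
  · intro h
    refine Matrix.toLin'.injective (LinearMap.ext fun x => ?_)
    simp only [Matrix.toLin'_apply, ← Matrix.mulVec_mulVec, Lib.Class.Orth.reflectionMatrix_mulVec,
      Lib.Class.Orth.refl_apply, QuadraticMap.polar_sub_left, QuadraticMap.polar_smul_left, hc v u,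
      h]
    module

end Cfsg.Agent.S5358
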