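import Cfsg.Statements.S5360
import Cfsg.Agent.Class.ReflThree
import Cfsg.Agent.S5353
import Cfsg.Agent.Solv.NilpotentHall

set_option autoImplicit false
open scoped MatrixGroups
open Cfsg

namespace Cfsg.Agent.S5360

open Cfsg.Lib Cfsg.Lib.Class Cfsg.Lib.Class.Orth

/-- Let Q be a non-degenerate quadratic form on the n-dimensional coordinate space over the field with three elements, n ≥ 5, c a non-zero scalar, and R the subgroup of the isometry group generated by the reflections of norm c. Then the commutator subgroup of R is quasisimple of index at most 2, the generalized Fitting subgroup of R is the product of the centre and the commutator subgroup, and R acts primitively by conjugation on its reflections of norm c. -/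
theorem result (n : ℕ) (hn : 5 ≤ n) (Q : QuadraticForm (ZMod 3) (Fin n → ZMod 3)) (hQ : (QuadraticMap.polarBilin Q).Nondegenerate) (c : ZMod 3) (hc : c ≠ 0) : Cfsg.IsQuasisimple (commutator ↥(Cfsg.reflectionSubgroup (⇑Q) c)) ∧ (commutator ↥(Cfsg.reflectionSubgroup (⇑Q) c)).index ≤ 2 ∧ Cfsg.generalizedFittingSubgroup ↥(Cfsg.reflectionSubgroup (⇑Q) c) = Subgroup.center ↥(Cfsg.reflectionSubgroup (⇑Q) c) ⊔ commutator ↥(Cfsg.reflectionSubgroup (⇑Q) c) ∧ Cfsg.IsPrimitiveUnderConj {g : ↥(Cfsg.reflectionSubgroup (⇑Q) c) | (g : ↥(Cfsg.isometryGroup (ZMod 3) (⇑Q))) ∈ Cfsg.reflectionsOfNorm (⇑Q) c} := by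
  obtain ⟨h1, h2, h3⟩ := RG_structure hQ (by decide) (by simpa) hc (reflHom_injective Q c)
    (range_reflHom Q c)
  obtain ⟨h4, h5⟩ := genFitting_eq_of_normal h1 h3
  obtain ⟨h6, h7⟩ := RG_isThreeTranspositionClass hQ (by simpa) hc (reflHom_injective Q c)
    (range_reflHom Q c)
  have : Fact (Nat.Prime 3) := ⟨Nat.prime_three⟩
  refine ⟨h1, h2.le, h4.trans (sup_comm _ _), ?_⟩
  rw [reflSet_eq]
  exact (S5353.result h6 h7 ((Solv.pCore_le_fitting 2 _).trans h5)
    ((Solv.pCore_le_fitting 3 _).trans h5) _ h1 h4).1 h2.le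

end Cfsg.Agent.S5360
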