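import Cfsg.Statements.S5361
import Cfsg.Agent.Spor.TTStruct

set_option autoImplicit false
open Cfsg

namespace Cfsg.Agent.S5361

/-- Let D be a conjugacy class of 3-transpositions generating the finite group G, and suppose the centre of G is trivial and some two different members of D commute. Then the following are equivalent: (1) the commutator subgroup of G is simple (possibly of prime order); (2) G acts primitively on D by conjugation; (3) the largest normal 2-subgroup and the largest normal 3-subgroup of G are trivial and the commuting graph of D is connected. -/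
theorem result {G : Type*} [Group G] [Finite G] {D : Set G} (hD : Cfsg.IsThreeTranspositionClass D) (hZ : Subgroup.center G = ⊥) (hw : ∃ a ∈ D, ∃ b ∈ D, a ≠ b ∧ Commute a b) : (IsSimpleGroup (commutator G) ↔ Cfsg.IsPrimitiveUnderConj D) ∧ (Cfsg.IsPrimitiveUnderConj D ↔ (Cfsg.pCore 2 G = ⊥ ∧ Cfsg.pCore 3 G = ⊥ ∧ (Cfsg.commutingGraph D).Connected)) := by
  open Cfsg.Lib.Spor Cfsg.Lib.Spor.TQ in
  have := IsTT.of_class hD
  have hgen := hD.2.2
  have hX := conn_of_class hD
  rw [← wide_iff] at hw
  have := hw.nontrivial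
  rw [← prim_iff hgen, ← comConn_iff, ← le_bot_iff, ← le_bot_iff, ← hZ, ← vTriv_iff hgen hX,
    ← wTriv_iff hgen hX]
  refine ⟨⟨prim_of_simple_commutator hgen hX, fun h => ?_⟩,
    fun h => ⟨h.vTriv, h.wTriv hw, h.comConn hw⟩, fun h => prim_of hX h.1 h.2.1 h.2.2⟩
  rw [commutator_eq_layer hgen h hw]
  refine Cfsg.Lib.Trans.IsQuasisimple.isSimpleGroup_of_center_eq_bot
    (layer_quasisimple hgen hX h.vTriv (h.wTriv hw)) ?_
  have h1 := fitting_le_center hgen ((vTriv_iff hgen hX).1 h.vTriv)
    ((wTriv_iff hgen hX).1 (h.wTriv hw))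
  have h2 := ((Subgroup.map_mono (Cfsg.Lib.Solv.center_le_fitting (Cfsg.layer G))).trans
    (Cfsg.Lib.Solv.map_fitting_le_of_normal (Cfsg.layer G))).trans h1
  rwa [hZ, le_bot_iff, Subgroup.map_eq_bot_iff_of_injective _ (Subgroup.subtype_injective _)] at h2

end Cfsg.Agent.S5361
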