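import Cfsg.Statements.S5364
import Cfsg.Agent.Spor.Invol

set_option autoImplicit false
open Cfsg

namespace Cfsg.Agent.S5364

/-- Let D be a conjugation-invariant set of involutions of a finite group G and t an involution in the centre of G such that d t does not lie in D for any d in D. If the images of the members of D in G modulo the subgroup generated by t satisfy the 3-transposition order conditions (each has order 2 and any two have product of order at most 3), then so do the members of D. -/
theorem result {G : Type*} [Group G] [Finite G] {D : Set G} (hinv : ∀ d ∈ D, orderOf d = 2) (hconj : ∀ g : G, ∀ d ∈ D, g * d * g⁻¹ ∈ D) (t : G) (ht : orderOf t = 2) (htZ : t ∈ Subgroup.center G) (hDt : ∀ d ∈ D, d * t ∉ D) [(Subgroup.zpowers t).Normal] (himg : Cfsg.IsThreeTranspositionSet ((QuotientGroup.mk : G → G ⧸ Subgroup.zpowers t) '' D)) : Cfsg.IsThreeTranspositionSet D := by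
  open Cfsg.Lib.Spor in
  have hs : ∀ d ∈ D, d * d = 1 := fun d hd => invol_mul_self (hinv d hd)
  have hmem : ∀ x : G, (QuotientGroup.mk x : G ⧸ Subgroup.zpowers t) = 1 → x = 1 ∨ x = t := by
    intro x hx
    rw [QuotientGroup.eq_one_iff] at hx
    obtain ⟨n, rfl⟩ := Subgroup.mem_zpowers_iff.1 hx
    rcases Int.even_or_odd' n with ⟨j, rfl | rfl⟩
    · left; rw [zpow_mul, zpow_two, invol_mul_self ht, one_zpow]
    · right; rw [zpow_add, zpow_mul, zpow_two, invol_mul_self ht, one_zpow, one_mul, zpow_one]
  have hc : ∀ g : G, t * g = g * t := fun g => (Subgroup.mem_center_iff.1 htZ g).symm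
  refine ⟨hinv, fun a ha b hb => ?_⟩
  rcases himg.2 _ ⟨a, ha, rfl⟩ _ ⟨b, hb, rfl⟩ with h | h
  · rw [← QuotientGroup.mk_mul, ← QuotientGroup.mk_pow] at h
    rcases hmem _ h with h | h
    · exact Or.inl h
    · exfalso
      apply hDt b hb
      have : b * t = a * b * a⁻¹ := by
        rw [← hc, ← h, invol_inv (hs a ha), pow_two]
        calc a * b * (a * b) * b = a * b * a * (b * b) := by group
          _ = a * b * a := by rw [hs b hb, mul_one]
      rw [this]; exact hconj _ _ hb
  · rw [← QuotientGroup.mk_mul, ← QuotientGroup.mk_pow] at h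
    rcases hmem _ h with h | h
    · exact Or.inr h
    · exfalso
      apply hDt b hb
      have : b * t = (a * b) * a * (a * b)⁻¹ := by
        rw [← hc, ← h, mul_inv_rev, invol_inv (hs a ha), invol_inv (hs b hb), pow_three]
        calc a * b * (a * b * (a * b)) * b = a * b * a * (b * a) * (b * b) := by group
          _ = a * b * a * (b * a) := by rw [hs b hb, mul_one]
      rw [this]; exact hconj _ _ ha

end Cfsg.Agent.S5364
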