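import Cfsg.Statements.S5365
import Cfsg.Agent.Spor.FsConf
import Cfsg.Agent.Spor.TTStruct
import Cfsg.Agent.Spor.TQSym

set_option autoImplicit false
open Cfsg

namespace Cfsg.Agent.S5365

open Cfsg.Lib.Spor Cfsg.Lib.Spor.TQ

theorem isPGroup_relSet_WR' {G : Type*} [Group G] [Finite G] {D : Set G} [h : IsTT D]
    (hconj : ∀ g : G, ∀ d ∈ D, g * d * g⁻¹ ∈ D) :
    (Subgroup.closure (relSet D WR)).Normal ∧ IsPGroup 3 (Subgroup.closure (relSet D WR)) := by
  have : Fact (Nat.Prime 3) := ⟨Nat.prime_three⟩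
  have hc : ∀ x ∈ relSet D WR, ∀ g : G, g * x * g⁻¹ ∈ relSet D WR := by
    rintro _ ⟨a, b, hab, rfl⟩ g
    refine ⟨_, _, hab.aut (conjPerm_mem_Aut hconj g), ?_⟩
    simp only [coe_conjPerm]; group
  refine ⟨closure_normal_of_conj hc, ?_⟩
  apply Cfsg.Lib.Local.baer_suzuki_closure hc
  rintro _ ⟨a, b, hab, rfl⟩ _ ⟨c, e, hce, rfl⟩
  have key : ∀ (L : Set D) [IsSub L], (∀ a ∈ L, ∀ b ∈ L, a ⫫ b → a = b) →
      a ∈ {u | ∃ l ∈ L, WR l u} → c ∈ {u | ∃ l ∈ L, WR l u} →
      IsPGroup 3 (Subgroup.closure ({(a : G) * b, (c : G) * e} : Set G)) := by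
    rintro L _ hL ⟨l, hl, ha⟩ ⟨l', hl', hc⟩
    have := isCong_WR.isSub_sat L
    refine (isPGroup_of_isSub _ (wr_sat_narrow hL)).to_le (Subgroup.closure_mono ?_)
    rintro _ (rfl | rfl)
    · exact ⟨a, ⟨l, hl, ha⟩, b, ⟨l, hl, isCong_WR.trans ha hab⟩, rfl⟩
    · exact ⟨c, ⟨l', hl', hc⟩, e, ⟨l', hl', isCong_WR.trans hc hce⟩, rfl⟩
  by_cases hac : WR a c
  · have : IsSub ({a} : Set D) := ⟨by rintro _ rfl _ rfl; simp⟩
    exact key {a} (by rintro _ rfl _ rfl _; rfl) ⟨a, rfl, rfl⟩ ⟨a, rfl, hac⟩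
  by_cases hc : a ⫫ c
  · have cube : ∀ {a b : D}, WR a b → ((a : G) * b) ^ 3 = 1 := fun {a b} hab => by
      by_cases hc : a ⫫ b
      · rw [hab.eq_of_com hc, IsTT.mul_self, one_pow]
      · exact tt_cube h.set a.2 b.2 (mt IsTT.com_iff.2 hc)
    have hcc : ∀ {x y : D}, WR a x → WR c y → Commute (x : G) y := fun hx hy =>
      IsTT.com_iff.1 ((isCong_WR.com_iff₂ hac hx hy).1 hc)
    have h1 : Commute ((a : G) * b) (c * e) :=
      ((hcc rfl rfl).mul_right (hcc rfl hce)).mul_left ((hcc hab rfl).mul_right (hcc hab hce))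
    apply isPGroup_closure_of_commute
    · rintro _ (rfl | rfl)
      · exact cube hab
      · exact cube hce
    · rintro _ (rfl | rfl) _ (rfl | rfl)
      exacts [Commute.refl _, h1, h1.symm, Commute.refl _]
  · have := isSub_line hc
    exact key _ (line_narrow hc) ⟨a, by simp, rfl⟩ ⟨c, by simp, rfl⟩

set_option synthInstance.maxSize 2000 in
theorem s3_a : ∀ σ τ : Equiv.Perm (Fin 3), σ * σ = 1 → τ * τ = 1 → σ ≠ 1 → τ ≠ 1 → σ * τ = τ * σ →
    σ = τ := by decide

set_option synthInstance.maxSize 2000 in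
theorem s3_b : ∀ σ τ ρ : Equiv.Perm (Fin 3), σ * σ = 1 → τ * τ = 1 → ρ * ρ = 1 → σ ≠ 1 → τ ≠ 1 →
    ρ ≠ 1 → σ ≠ τ → ρ = σ ∨ ρ = τ ∨ ρ = σ * τ * σ⁻¹ := by decide

theorem s3_c : ∀ σ : Equiv.Perm (Fin 3), σ * Equiv.swap 0 1 = Equiv.swap 0 1 * σ →
    σ * Equiv.swap 1 2 = Equiv.swap 1 2 * σ → σ = 1 := by decide

theorem loc_line {G : Type*} [Group G] {D : Set G} [h : IsTT D] (d : D)
    (hloc : Nonempty (↥(Subgroup.closure {y : G | y ∈ D ∧ y ≠ d ∧ Commute (d : G) y}) ≃* Equiv.Perm (Fin 3))) :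
    (∀ x ∈ dperp d, ∀ y ∈ dperp d, x ⫫ y → x = y) ∧ (∃ x ∈ dperp d, ∃ y ∈ dperp d, x ≠ y) ∧
      ∀ x ∈ dperp d, ∀ y ∈ dperp d, x ≠ y → ∀ z ∈ dperp d, z = x ∨ z = y ∨ z = x ▹ y := by
  obtain ⟨e⟩ := hloc
  rw [← coe_image_dperp] at e
  let f : dperp d → Equiv.Perm (Fin 3) := fun x => e ⟨x.1.1, Subgroup.subset_closure ⟨x.1, x.2, rfl⟩⟩
  have finj : Function.Injective f := fun x y hxy =>
    Subtype.ext (Subtype.ext (Subtype.mk.inj (e.injective hxy)))
  have fsq : ∀ x, f x * f x = 1 := fun x => by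
    simp only [f]; rw [← map_mul, ← map_one e]; congr 1; exact Subtype.ext (IsTT.mul_self x.1)
  have fne : ∀ x, f x ≠ 1 := fun x hx => by
    simp only [f] at hx
    rw [← map_one e] at hx
    exact tt_ne_one h.set x.1.2 (congrArg Subtype.val (e.injective hx))
  have fact : ∀ x y, f (x ▹ y) = f x * f y * (f x)⁻¹ := fun x y => by
    simp only [f]; rw [← map_inv, ← map_mul, ← map_mul]; rfl
  refine ⟨fun x hx y hy hxy => ?_, ?_, fun x hx y hy hxy z hz => ?_⟩
  · have := s3_a (f ⟨x, hx⟩) (f ⟨y, hy⟩) (fsq _) (fsq _) (fne _) (fne _) (by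
      have h1 : (⟨x, hx⟩ : dperp d) ▹ ⟨y, hy⟩ = ⟨y, hy⟩ := Subtype.ext hxy
      have h2 := fact ⟨x, hx⟩ ⟨y, hy⟩
      rw [h1, eq_mul_inv_iff_mul_eq] at h2
      exact h2.symm)
    exact congrArg Subtype.val (finj this)
  · by_contra hn
    push Not at hn
    have hc : ∀ a b : Subgroup.closure (Subtype.val '' dperp d), Commute a b := fun a b =>
      Subtype.ext (commute_of_mem_closure (by
        rintro _ ⟨x, hx, rfl⟩ _ ⟨y, hy, rfl⟩
        rw [hn x hx y hy]) a.2 b.2)
    have := (hc (e.symm (Equiv.swap 0 1)) (e.symm (Equiv.swap 1 2))).map e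
    simp only [MulEquiv.apply_symm_apply] at this
    exact absurd this.eq (by decide)
  · rcases s3_b (f ⟨x, hx⟩) (f ⟨y, hy⟩) (f ⟨z, hz⟩) (fsq _) (fsq _) (fsq _) (fne _) (fne _) (fne _)
      (fun h1 => hxy (congrArg Subtype.val (finj h1))) with h1 | h1 | h1
    · exact Or.inl (congrArg Subtype.val (finj h1))
    · exact Or.inr (Or.inl (congrArg Subtype.val (finj h1)))
    · rw [← fact] at h1
      exact Or.inr (Or.inr (congrArg Subtype.val (finj h1)))

/-- Let D be a non-empty conjugation-invariant set of involutions of a finite group G satisfying the 3-transposition order conditions, and suppose that for every d in D the members of D other than d commuting with d generate a subgroup isomorphic to the symmetric group of degree 3, and the largest normal 3-subgroup of the centralizer of d has order 3. Then the subgroup generated by D is isomorphic to the symmetric group of degree 5 or to the direct product of two symmetric groups of degree 3.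 -/
theorem result {G : Type*} [Group G] [Finite G] {D : Set G} (hD : Cfsg.IsThreeTranspositionSet D) (hconj : ∀ g : G, ∀ d ∈ D, g * d * g⁻¹ ∈ D) (hne : D.Nonempty) (hloc : ∀ d ∈ D, Nonempty (↥(Subgroup.closure {y : G | y ∈ D ∧ y ≠ d ∧ Commute d y}) ≃* Equiv.Perm (Fin 3)) ∧ Nat.card (Cfsg.pCore 3 ↥(Subgroup.centralizer ({d} : Set G))) = 3) : Nonempty (↥(Subgroup.closure D) ≃* Equiv.Perm (Fin 5)) ∨ Nonempty (↥(Subgroup.closure D) ≃* Equiv.Perm (Fin 3) × Equiv.Perm (Fin 3)) := by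
  have hT := IsTT.of_conj hD hconj
  have hL := fun d : D => loc_line d (hloc d d.2).1
  have hnar := fun d => (hL d).1
  have hother : ∀ d x : D, x ∈ dperp d → ∃ y ∈ dperp d, ¬ x ⫫ y := by
    intro d x hx
    obtain ⟨u, hu, w, hw, huw⟩ := (hL d).2.1
    by_cases h : x = u
    · exact ⟨w, hw, fun h1 => huw (h.symm.trans (hnar d x hx w hw h1))⟩
    · exact ⟨u, hu, fun h1 => h (hnar d x hx u hu h1)⟩
  obtain ⟨d, hd⟩ := hne
  obtain ⟨d, rfl⟩ : ∃ x : D, (x : G) = d := ⟨⟨d, hd⟩, rfl⟩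
  obtain ⟨x1, hx1, -⟩ := (hL d).2.1
  obtain ⟨x2, hx2, h12⟩ := hother d x1 hx1
  have hd1 : d ∈ dperp x1 := ⟨hx1.1.symm, hx1.2.symm⟩
  obtain ⟨a, ha, hda⟩ := hother x1 d hd1
  have hact : ∀ (K : Subgroup G) (x y : D), (x : G) ∈ K → (y : G) ∈ K → ((x ▹ y : D) : G) ∈ K :=
    fun K x y hx hy => mul_mem (mul_mem hx hy) (inv_mem hx)
  have hact' : ∀ (K : Subgroup G) (x y : D), (x : G) ∈ K → ((x ▹ y : D) : G) ∈ K → (y : G) ∈ K :=
    fun K x y hx hy => by simpa only [act_act] using hact K x _ hx hy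
  by_cases ha2 : x2 ⫫ a
  · by_cases hall : ∀ v : D, v ∈ dperp d ∨ v ∈ dperp x1
    · right
      obtain ⟨φ1, i1, e1, e2⟩ := exists_hom_perm3 hD x1.2 x2.2 (mt IsTT.com_iff.2 h12)
      obtain ⟨φ2, i2, e3, e4⟩ := exists_hom_perm3 hD d.2 a.2 (mt IsTT.com_iff.2 hda)
      have hgen3 : ∀ (φ : Equiv.Perm (Fin 3) →* G) (σ : Equiv.Perm (Fin 3)),
          φ σ ∈ Subgroup.closure ({φ (Equiv.swap 0 1), φ (Equiv.swap 1 2)} : Set G) := by
        intro φ σ
        have : φ σ ∈ φ.range := ⟨σ, rfl⟩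
        rw [range_perm_hom] at this
        refine Subgroup.closure_mono ?_ this
        rintro _ ⟨i, rfl⟩
        fin_cases i
        · exact Or.inl rfl
        · exact Or.inr rfl
      have hcomm : ∀ σ τ, Commute (φ1 σ) (φ2 τ) := by
        intro σ τ
        have h1 := hgen3 φ1 σ
        have h2 := hgen3 φ2 τ
        rw [e1, e2] at h1
        rw [e3, e4] at h2
        have k1 : Subgroup.closure ({(d : G), (a : G)} : Set G) ≤
            Subgroup.centralizer ({(x1 : G), (x2 : G)} : Set G) := by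
          rw [Subgroup.closure_le]
          rintro y (rfl | rfl) x (rfl | rfl)
          exacts [IsTT.com_iff.1 hd1.2, IsTT.com_iff.1 hx2.2.symm, IsTT.com_iff.1 ha.2,
            IsTT.com_iff.1 ha2]
        have k2 := k1 h2
        rw [← Subgroup.centralizer_closure] at k2
        exact k2 _ h1
      let ψ := φ1.noncommCoprod φ2 hcomm
      have hψ : Function.Injective ψ := by
        rw [injective_iff_map_eq_one]
        rintro ⟨σ, τ⟩ h
        have h1 : φ1 σ = φ2 τ⁻¹ := by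
          rw [map_inv, eq_inv_iff_mul_eq_one]; exact h
        have h2 : σ = 1 := s3_c σ (i1 (by rw [map_mul, map_mul, h1]; exact (hcomm _ _).symm.eq))
          (i1 (by rw [map_mul, map_mul, h1]; exact (hcomm _ _).symm.eq))
        rw [h2, map_one, eq_comm, ← map_one φ2] at h1
        rw [h2, inv_eq_one.1 (i2 h1)]; rfl
      have hr : ψ.range = Subgroup.closure D := by
        apply le_antisymm
        · rintro _ ⟨⟨σ, τ⟩, rfl⟩
          refine mul_mem (Subgroup.closure_mono ?_ (hgen3 φ1 σ)) (Subgroup.closure_mono ?_ (hgen3 φ2 τ))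
          · rw [e1, e2]; rintro _ (rfl | rfl); exacts [x1.2, x2.2]
          · rw [e3, e4]; rintro _ (rfl | rfl); exacts [d.2, a.2]
        · rw [Subgroup.closure_le]
          intro v hv
          have m1 : (x1 : G) ∈ ψ.range := ⟨(Equiv.swap 0 1, 1), by simp [ψ, e1]⟩
          have m2 : (x2 : G) ∈ ψ.range := ⟨(Equiv.swap 1 2, 1), by simp [ψ, e2]⟩
          have m3 : (d : G) ∈ ψ.range := ⟨(1, Equiv.swap 0 1), by simp [ψ, e3]⟩
          have m4 : (a : G) ∈ ψ.range := ⟨(1, Equiv.swap 1 2), by simp [ψ, e4]⟩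
          rcases hall ⟨v, hv⟩ with h | h
          · rcases (hL d).2.2 x1 hx1 x2 hx2 (ne_of_ncom h12) _ h with h | h | h <;>
              rw [show v = _ from congrArg Subtype.val h]
            exacts [m1, m2, hact _ _ _ m1 m2]
          · rcases (hL x1).2.2 d hd1 a ha (ne_of_ncom hda) _ h with h | h | h <;>
              rw [show v = _ from congrArg Subtype.val h]
            exacts [m3, m4, hact _ _ _ m3 m4]
      exact ⟨(MulEquiv.subgroupCongr hr.symm).trans (MonoidHom.ofInjective hψ).symm⟩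
    · exfalso
      push Not at hall
      obtain ⟨v, hv1, hv2⟩ := hall
      have ha1 : x1 ∈ dperp a := ⟨ha.1.symm, ha.2.symm⟩
      have ha2' : x2 ∈ dperp a := ⟨fun h => hda (h ▸ hx2.2), ha2.symm⟩
      have hd2 : d ∈ dperp x2 := ⟨hx2.1.symm, hx2.2.symm⟩
      have ha2'' : a ∈ dperp x2 := ⟨ha2'.1.symm, ha2⟩
      have eqL : ∀ p q x y : D, x ∈ dperp p → y ∈ dperp p → x ∈ dperp q → y ∈ dperp q → x ≠ y →
          dperp p ⊆ dperp q := by
        intro p q x y h1 h2 h3 h4 h5 z hz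
        rcases (hL p).2.2 x h1 y h2 h5 z hz with rfl | rfl | rfl
        exacts [h3, h4, IsSub.act_mem _ h3 _ h4]
      have w1 : WR d a := Set.Subset.antisymm (eqL _ _ _ _ hx1 hx2 ha1 ha2' (ne_of_ncom h12))
        (eqL _ _ _ _ ha1 ha2' hx1 hx2 (ne_of_ncom h12))
      have w2 : WR x1 x2 := Set.Subset.antisymm (eqL _ _ _ _ hd1 ha hd2 ha2'' (ne_of_ncom hda))
        (eqL _ _ _ _ hd2 ha2'' hd1 ha (ne_of_ncom hda))
      have hda' : d ▹ a ∈ dperp x1 := IsSub.act_mem _ hd1 _ ha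
      have w3 : WR d (d ▹ a) := by simpa using isCong_WR.act d w1
      have nv : ∀ p q : D, WR p q → q ∈ dperp x1 ∨ q ∈ dperp d → v ∉ dperp p → ¬ q ⫫ v := by
        intro p q h1 h2 h3 h4
        apply h3
        rw [h1]
        refine ⟨?_, h4⟩
        rintro rfl
        rcases h2 with h2 | h2
        exacts [hv2 h2, hv1 h2]
      have hP : AGT d a v := ⟨hda, nv d d rfl (Or.inl hd1) hv1, nv d a w1 (Or.inl ha) hv1,
        nv d _ w3 (Or.inl hda') hv1⟩
      have hv1' : ¬ x1 ⫫ v := nv x1 x1 rfl (Or.inr hx1) hv2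
      obtain ⟨hNn, hN3⟩ := isPGroup_relSet_WR' hconj
      set N := Subgroup.closure (relSet D WR) with hN
      let h : G := d * ((a ▹ v : D) * (d ▹ v : D) * a)
      have hh : ∀ y : D, h * y * h⁻¹ = (d ▹ agG d a v y : D) := by
        intro y
        simp only [h, agG_apply, IsTT.coe_act]; group
      have hhN : h ∈ N := by
        have h1 : ((a ▹ v : D) : G) * (d ▹ v : D) ∈ N :=
          Subgroup.subset_closure ⟨_, _, isCong_WR.act_left (isCong_WR.symm w1) v, rfl⟩
        have h2 : (d : G) * a ∈ N := Subgroup.subset_closure ⟨_, _, w1, rfl⟩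
        have := mul_mem (hNn.conj_mem _ h1 d) h2
        convert this using 1
        simp only [h]; group
      have hρN : (x1 : G) * x2 ∈ N := Subgroup.subset_closure ⟨_, _, w2, rfl⟩
      have hcomm : ∀ y : D, d ▹ agG d a v y = y → Commute h y := by
        intro y hy
        have := hh y
        rw [hy, mul_inv_eq_iff_eq_mul] at this
        exact this
      let C := Subgroup.centralizer ({(d : G)} : Set G)
      have hhC : h ∈ C := Subgroup.mem_centralizer_singleton_iff.2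
        (hcomm d (by rw [hP.agG_left, act_self])).eq
      have hρC : (x1 : G) * x2 ∈ C := Subgroup.mem_centralizer_singleton_iff.2
        ((IsTT.com_iff.1 hx1.2).mul_right (IsTT.com_iff.1 hx2.2)).symm.eq
      have hle : N.subgroupOf C ≤ pCore 3 C :=
        Cfsg.Lib.Solv.le_pCore inferInstance (hN3.comap_subtype)
      have hne1 : h ≠ 1 := by
        intro h1
        have := hh x1
        rw [h1, one_mul, inv_one, mul_one] at this
        have h2 := hP.ncom_agG hd1.2 ha.2 hv1'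
        apply h2
        rw [← hd1.2.act_iff, ← Subtype.ext this]
        exact com_refl _
      have : Fact (Nat.Prime 3) := ⟨Nat.prime_three⟩
      have hmem := mem_zpowers_of_prime_card (hloc d d.2).2
        (g := ⟨⟨h, hhC⟩, hle hhN⟩) (g' := ⟨⟨_, hρC⟩, hle hρN⟩)
        (fun h1 => hne1 (congrArg (fun t => (t.1.1 : G)) h1))
      obtain ⟨n, hn⟩ := Subgroup.mem_zpowers_iff.1 hmem
      have hn' : h ^ n = x1 * x2 := by
        simpa using congrArg (fun t => (t.1.1 : G)) hn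
      have hc : Commute ((x1 : G) * x2) v := hn' ▸ (hcomm v (by rw [hP.agG_right, act_act])).zpow_left n
      have h3 : x1 ▹ x2 ▹ v = v := Subtype.ext (by
        simp only [IsTT.coe_act]
        calc (x1 : G) * (x2 * v * (x2 : G)⁻¹) * (x1 : G)⁻¹ = x1 * x2 * v * ((x1 : G) * x2)⁻¹ := by group
          _ = v := by rw [hc.eq]; group)
      rw [act_eq_iff] at h3
      exact ne_of_ncom h12 (eq_of_act_eq_act hv1' h3.symm)
  · left
    obtain ⟨φ, hφ, e1, e2, e3, e4⟩ := exists_hom_perm5 hD x1.2 x2.2 a.2 d.2 (IsTT.com_iff.1 ha.2)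
      (IsTT.com_iff.1 hd1.2) (IsTT.com_iff.1 hx2.2.symm) (mt IsTT.com_iff.2 h12)
      (mt IsTT.com_iff.2 ha2) (mt IsTT.com_iff.2 (ncom_symm hda))
    have m1 : (x1 : G) ∈ φ.range := ⟨_, e1⟩
    have m2 : (x2 : G) ∈ φ.range := ⟨_, e2⟩
    have m3 : (a : G) ∈ φ.range := ⟨_, e3⟩
    have m4 : (d : G) ∈ φ.range := ⟨_, e4⟩
    have hr : φ.range = Subgroup.closure D := by
      apply le_antisymm
      · rw [range_perm_hom, Subgroup.closure_le]
        rintro _ ⟨i, rfl⟩
        refine Subgroup.subset_closure ?_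
        fin_cases i
        · exact Set.mem_of_eq_of_mem e1 x1.2
        · exact Set.mem_of_eq_of_mem e2 x2.2
        · exact Set.mem_of_eq_of_mem e3 a.2
        · exact Set.mem_of_eq_of_mem e4 d.2
      · rw [Subgroup.closure_le]
        intro v hv
        obtain ⟨v, rfl⟩ : ∃ x : D, (x : G) = v := ⟨⟨v, hv⟩, rfl⟩
        by_contra hn
        let good : D → Prop := fun s => (s : G) ∈ φ.range ∧ ∀ y, s ⫫ y → (y : G) ∈ φ.range
        have g1 : good x1 := ⟨m1, fun y hy => by
          by_cases h : y = x1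
          · rw [h]; exact m1
          rcases (hL x1).2.2 d hd1 a ha (ne_of_ncom hda) y ⟨h, hy⟩ with rfl | rfl | rfl
          exacts [m4, m3, hact _ _ _ m4 m3]⟩
        have gact : ∀ x s : D, (x : G) ∈ φ.range → good s → good (x ▹ s) := fun x s hx hs =>
          ⟨hact _ _ _ hx hs.1, fun y hy => hact' _ x y hx (hs.2 _ (com_act_iff.1 hy))⟩
        have gstep : ∀ s t : D, good s → (t : G) ∈ φ.range → ¬ s ⫫ t → good t := fun s t hs ht hst => by
          have := gact _ s (hact _ _ _ hs.1 ht) hs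
          rwa [act_act_left hst] at this
        have g2 := gstep _ _ g1 m2 h12
        have g3 := gstep _ _ g2 m3 ha2
        have hP : AGT x1 x2 v := ⟨h12, fun h => hn (g1.2 _ h), fun h => hn (g2.2 _ h),
          fun h => hn ((gact _ _ m1 g2).2 _ h)⟩
        obtain ⟨k1, k2⟩ := hP.l36 ha.2.symm ha.1 (ncom_symm ha2) (fun h => hn (g3.2 _ h))
          (fun h => hn (hact' _ _ _ m2 (g3.2 _ h)))
          (fun h => hn (hact' _ _ _ m1 (hact' _ _ _ m2 (g3.2 _ h))))
        have k3 := hnar a x1 ⟨ha.1.symm, ha.2.symm⟩ _ ⟨k1, k2⟩ (by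
          have := (Aut.com_iff (agG_mem_Aut x1 x2 v)).2 ha.2
          rwa [hP.agG_left] at this)
        exact ha.1 ((agG x1 x2 v).injective (hP.agG_left.trans k3)).symm
    exact ⟨(MulEquiv.subgroupCongr hr.symm).trans (MonoidHom.ofInjective hφ).symm⟩

end Cfsg.Agent.S5365
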