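import Cfsg.Statements.S5366
import Cfsg.Agent.Spor.TQPlane

set_option autoImplicit false
open Cfsg

namespace Cfsg.Agent.S5366

open Cfsg.Lib.Spor Cfsg.Lib.Spor.TQ Cfsg.LineSystem

/-- `a, b, c` are the three points of a line -/
def Tri {X : Type*} (L : Set (Set X)) (a b c : X) : Prop :=
  c ≠ a ∧ c ≠ b ∧ a ≠ b ∧ ({a, b, c} : Set X) ∈ L

theorem Tri.swap {X : Type*} {L : Set (Set X)} {a b c : X} (h : Tri L a b c) : Tri L b a c :=
  ⟨h.2.1, h.1, h.2.2.1.symm, by rw [Set.insert_comm]; exact h.2.2.2⟩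

theorem Tri.swap' {X : Type*} {L : Set (Set X)} {a b c : X} (h : Tri L a b c) : Tri L a c b :=
  ⟨h.2.2.1.symm, h.2.1.symm, h.1.symm, by rw [Set.pair_comm]; exact h.2.2.2⟩

theorem Tri.unique {X : Type*} {L : Set (Set X)} (hL : IsPartialLinear L) {a b c c' : X}
    (h : Tri L a b c) (h' : Tri L a b c') : c = c' := by
  have e := hL _ h.2.2.2 _ h'.2.2.2 a b h.2.2.1 (by simp) (by simp) (by simp) (by simp)
  have : c ∈ ({a, b, c'} : Set X) := by rw [← e]; simp
  rcases this with h1 | h1 | h1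
  · exact absurd h1 h.1
  · exact absurd h1 h.2.1
  · exact h1

theorem lineMap_of_tri {X : Type*} {L : Set (Set X)} (hL : IsPartialLinear L) {a b c : X}
    (h : Tri L a b c) : lineMap L a b = c := by
  have h1 : ∃ z : X, z ≠ a ∧ z ≠ b ∧ a ≠ b ∧ ({a, b, z} : Set X) ∈ L := ⟨c, h⟩
  unfold lineMap
  rw [dif_pos h1]
  exact Tri.unique hL h1.choose_spec h

theorem lineMap_of_not {X : Type*} {L : Set (Set X)} {a b : X}
    (h : ¬ ∃ c, Tri L a b c) : lineMap L a b = b := by
  unfold lineMap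
  exact dif_neg h

theorem tri_lines {Y : Type*} [TQ Y] {a b c : Y} : Tri (lines Y) a b c ↔ ¬ a ⫫ b ∧ c = a ▹ b := by
  constructor
  · rintro ⟨h1, h2, h3, x, y, hxy, e⟩
    obtain ⟨h4, h5⟩ := line_eq hxy (a := a) (b := b) (by rw [← e]; simp) (by rw [← e]; simp) h3
    refine ⟨h4, ?_⟩
    have : c ∈ ({a, b, a ▹ b} : Set Y) := by rw [h5, ← e]; simp
    rcases this with h | h | h
    · exact absurd h h1
    · exact absurd h h2
    · exact h
  · rintro ⟨h, rfl⟩
    exact ⟨act_ne_left h, act_ne_right h, ne_of_ncom h, a, b, h, rfl⟩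

theorem exists_tri {X : Type*} {L : Set (Set X)} (h3 : ∀ l ∈ L, l.ncard = 3) {l : Set X}
    (hl : l ∈ L) {a b : X} (ha : a ∈ l) (hb : b ∈ l) (hab : a ≠ b) :
    ∃ c, Tri L a b c ∧ l = {a, b, c} := by
  obtain ⟨x, y, z, hxy, hxz, hyz, rfl⟩ := Set.ncard_eq_three.1 (h3 l hl)
  have hT : Tri L x y z := ⟨hxz.symm, hyz.symm, hxy, hl⟩
  rcases ha with rfl | rfl | rfl <;> rcases hb with rfl | rfl | rfl
  · exact absurd rfl hab
  · exact ⟨z, hT, rfl⟩
  · exact ⟨y, hT.swap', by rw [Set.pair_comm]⟩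
  · exact ⟨z, hT.swap, by rw [Set.insert_comm]⟩
  · exact absurd rfl hab
  · exact ⟨x, hT.swap.swap', by rw [Set.insert_comm, Set.pair_comm]⟩
  · exact ⟨y, hT.swap'.swap, by rw [Set.pair_comm, Set.insert_comm]⟩
  · exact ⟨x, hT.swap.swap'.swap, by
      ext; simp only [Set.mem_insert_iff, Set.mem_singleton_iff]; tauto⟩
  · exact absurd rfl hab

theorem map_line_of_iso {X Y : Type*} [TQ Y] {L : Set (Set X)} (hL : IsPartialLinear L)
    {S : Set X} (hS : IsSubspace L S) (h : Isomorphic (restrict L S) (lines Y)) {x : X}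
    (hx : x ∈ S) {p q r : X} (hp : p ∈ S) (hq : q ∈ S) (hT : Tri L p q r) :
    Tri L (lineMap L x p) (lineMap L x q) (lineMap L x r) := by
  obtain ⟨e, he⟩ := h
  have hmem : ∀ {a b c : X}, a ∈ S → b ∈ S → Tri L a b c → c ∈ S := fun ha hb h =>
    hS _ h.2.2.2 _ ha _ hb h.2.2.1 (by simp) (by simp) (by simp)
  have htri : ∀ a b c : S, Tri L a.1 b.1 c.1 ↔ ¬ e a ⫫ e b ∧ e c = e a ▹ e b := by
    intro a b c
    rw [← tri_lines]
    have e1 : ({e a, e b, e c} : Set Y) = e '' {a, b, c} := by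
      rw [Set.image_insert_eq, Set.image_pair]
    unfold Tri
    rw [e1, ← he]
    simp only [ne_eq, e.injective.eq_iff, Subtype.ext_iff]
    refine and_congr_right fun _ => and_congr_right fun _ => and_congr_right fun _ => ?_
    constructor
    · intro h
      refine ⟨_, h, ?_, ?_⟩
      · rintro _ (rfl | rfl | rfl)
        exacts [a.2, b.2, c.2]
      · ext z
        simp only [Set.mem_insert_iff, Set.mem_singleton_iff, Subtype.ext_iff, Set.mem_ofPred_eq]
    · rintro ⟨l, hl, hsub, h⟩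
      convert hl using 1
      ext z
      constructor
      · rintro (rfl | rfl | rfl)
        · exact (show a ∈ {x : S | (x : X) ∈ l} by rw [← h]; simp)
        · exact (show b ∈ {x : S | (x : X) ∈ l} by rw [← h]; simp)
        · exact (show c ∈ {x : S | (x : X) ∈ l} by rw [← h]; simp)
      · intro hz
        have : (⟨z, hsub hz⟩ : S) ∈ ({a, b, c} : Set S) := by rw [h]; exact hz
        simpa only [Set.mem_insert_iff, Set.mem_singleton_iff, Subtype.ext_iff] using this
  have hmap : ∀ a b : S, lineMap L a.1 b.1 = (e.symm (e a ▹ e b) : S) := by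
    intro a b
    by_cases h : e a ⫫ e b
    · rw [h.eq, e.symm_apply_apply]
      refine lineMap_of_not ?_
      rintro ⟨c, hc⟩
      exact ((htri a b ⟨c, hmem a.2 b.2 hc⟩).1 hc).1 h
    · exact lineMap_of_tri hL ((htri a b _).2 ⟨h, by simp⟩)
  have hr := hmem hp hq hT
  have h1 := (htri ⟨p, hp⟩ ⟨q, hq⟩ ⟨r, hr⟩).1 hT
  rw [hmap ⟨x, hx⟩ ⟨p, hp⟩, hmap ⟨x, hx⟩ ⟨q, hq⟩, hmap ⟨x, hx⟩ ⟨r, hr⟩, htri]
  simp only [Equiv.apply_symm_apply, com_act_act, h1.2, act_distrib (e ⟨x, hx⟩)]
  exact ⟨h1.1, trivial⟩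

theorem span_isSubspace {X : Type*} (L : Set (Set X)) (T : Set X) : IsSubspace L (span L T) :=
  fun l hl x hx y hy hxy hxl hyl z hz S hS => hS.2 l hl x (hx S hS) y (hy S hS) hxy hxl hyl hz

theorem subset_span {X : Type*} (L : Set (Set X)) (T : Set X) : T ⊆ span L T :=
  fun _ hz _ hS => hS.1 hz

theorem lineMap_self {X : Type*} (L : Set (Set X)) (x : X) : lineMap L x x = x :=
  lineMap_of_not fun ⟨_, h⟩ => h.2.2.1 rfl

theorem lineMap_tri {X : Type*} {L : Set (Set X)} (hL : Cfsg.IsFischerSpace L) (x : X) {p q r : X}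
    (hT : Tri L p q r) : Tri L (lineMap L x p) (lineMap L x q) (lineMap L x r) := by
  have key : ∀ {p q r : X}, Tri L p q r → (∃ c, Tri L x p c) →
      Tri L (lineMap L x p) (lineMap L x q) (lineMap L x r) := by
    rintro p q r hT ⟨c, hc⟩
    by_cases he : ({p, q, r} : Set X) = {x, p, c}
    · have hx : x ∈ ({p, q, r} : Set X) := by rw [he]; simp
      rcases hx with rfl | rfl | rfl
      · exact absurd rfl hc.2.2.1
      · rw [lineMap_self, lineMap_of_tri hL.1 hT.swap, lineMap_of_tri hL.1 hT.swap.swap']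
        exact hT.swap'.swap.swap'
      · rw [lineMap_self, lineMap_of_tri hL.1 hT.swap'.swap,
          lineMap_of_tri hL.1 hT.swap.swap'.swap]
        exact hT.swap
    · have hS := span_isSubspace L ({p, q, r} ∪ {x, p, c})
      have hsub := subset_span L ({p, q, r} ∪ {x, p, c})
      rcases hL.2.2 _ hT.2.2.2 _ hc.2.2.2 he ⟨p, by simp, by simp⟩ with h | h
      · obtain ⟨e, he⟩ := isomorphic_T4
        have h' : Isomorphic dualAffinePlaneTwo (lines T4) :=
          ⟨e.symm, fun l => by rw [he, Equiv.image_symm_image]⟩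
        exact map_line_of_iso hL.1 hS (isomorphic_trans h h') (hsub (by simp)) (hsub (by simp))
          (hsub (by simp)) hT
      · rw [← lines_AG9] at h
        exact map_line_of_iso (Y := AG9) hL.1 hS h (hsub (by simp)) (hsub (by simp))
          (hsub (by simp)) hT
  by_cases h1 : ∃ c, Tri L x p c
  · exact key hT h1
  by_cases h2 : ∃ c, Tri L x q c
  · exact (key hT.swap h2).swap
  by_cases h3 : ∃ c, Tri L x r c
  · exact (key hT.swap'.swap h3).swap.swap'
  rwa [lineMap_of_not h1, lineMap_of_not h2, lineMap_of_not h3]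

theorem lineMap_lineMap {X : Type*} {L : Set (Set X)} (hL : IsPartialLinear L) (x y : X) :
    lineMap L x (lineMap L x y) = y := by
  by_cases h : ∃ c, Tri L x y c
  · obtain ⟨c, hc⟩ := h
    rw [lineMap_of_tri hL hc, lineMap_of_tri hL hc.swap']
  · rw [lineMap_of_not h, lineMap_of_not h]

/-- the quandle of a Fischer space -/
@[reducible] noncomputable def fischerTQ {X : Type*} {L : Set (Set X)}
    (hL : Cfsg.IsFischerSpace L) : TQ X where
  act := lineMap L
  act_act := lineMap_lineMap hL.1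
  act_self := lineMap_self L
  act_distrib x y z := by
    by_cases h : ∃ c, Tri L y z c
    · obtain ⟨c, hc⟩ := h
      rw [lineMap_of_tri hL.1 hc, lineMap_of_tri hL.1 (lineMap_tri hL x hc)]
    · rw [lineMap_of_not h, lineMap_of_not (a := lineMap L x y)]
      rintro ⟨c, hc⟩
      have := lineMap_tri hL x hc
      rw [lineMap_lineMap hL.1, lineMap_lineMap hL.1] at this
      exact h ⟨_, this⟩
  three x y := by
    by_cases h : ∃ c, Tri L x y c
    · obtain ⟨c, hc⟩ := h
      rw [lineMap_of_tri hL.1 hc, lineMap_of_tri hL.1 hc.swap]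
      exact Or.inr rfl
    · exact Or.inl (lineMap_of_not h)

/-- Let L be a nondegenerate Fischer space on the point type X (every point on a line). Then for every point x the map t(x) — sending a point collinear with x to the third point of their common line and fixing every other point — is a permutation of X of order 2 and an automorphism of the line system; and the set of all t(x) satisfies the 3-transposition order conditions in the permutation group of X (any two have product of order at most 3). -/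
theorem result {X : Type*} (L : Set (Set X)) (hL : Cfsg.IsFischerSpace L) (hnd : Cfsg.LineSystem.IsNondegenerate L) : (∀ x : X, ∃ σ : Equiv.Perm X, ⇑σ = Cfsg.LineSystem.lineMap L x ∧ orderOf σ = 2 ∧ Cfsg.LineSystem.IsIso L L σ) ∧ Cfsg.IsThreeTranspositionSet {σ : Equiv.Perm X | ∃ x : X, ⇑σ = Cfsg.LineSystem.lineMap L x} := by
  letI : TQ X := fischerTQ hL
  have hord : ∀ x : X, orderOf (toPerm x) = 2 := by
    intro x
    refine orderOf_eq_prime (by rw [pow_two, toPerm_mul_self]) fun h => ?_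
    obtain ⟨l, hl, hx⟩ := hnd x
    obtain ⟨y, hy, hxy⟩ : ∃ y ∈ l, y ≠ x :=
      Set.exists_ne_of_one_lt_ncard (by rw [hL.2.1 l hl]; norm_num) x
    obtain ⟨c, hc, -⟩ := exists_tri hL.2.1 hl hx hy hxy.symm
    have h1 : toPerm x y = c := lineMap_of_tri hL.1 hc
    rw [h] at h1
    exact hc.2.1 h1.symm
  have hline : ∀ x : X, ∀ l ∈ L, toPerm x '' l ∈ L := by
    intro x l hl
    obtain ⟨p, q, r, h1, h2, h3, rfl⟩ := Set.ncard_eq_three.1 (hL.2.1 l hl)
    rw [Set.image_insert_eq, Set.image_pair]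
    exact (lineMap_tri hL x (p := p) (q := q) (r := r) ⟨h2.symm, h3.symm, h1, hl⟩).2.2.2
  refine ⟨fun x => ⟨toPerm x, rfl, hord x, fun l => ⟨hline x l, fun h => ?_⟩⟩, ?_, ?_⟩
  · have := hline x _ h
    rwa [← Set.image_comp, ← Equiv.Perm.coe_mul, toPerm_mul_self, Equiv.Perm.coe_one,
      Set.image_id] at this
  · rintro σ ⟨x, hx⟩
    obtain rfl : σ = toPerm x := DFunLike.coe_injective hx
    exact hord x
  · rintro σ ⟨x, hx⟩ τ ⟨y, hy⟩
    obtain rfl : σ = toPerm x := DFunLike.coe_injective hx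
    obtain rfl : τ = toPerm y := DFunLike.coe_injective hy
    by_cases h : x ⫫ y
    · exact Or.inl (toPerm_mul_sq_of_com h)
    · exact Or.inr (toPerm_mul_cube_of_ncom h)

end Cfsg.Agent.S5366
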