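import Cfsg.Statements.S5367
import Cfsg.Agent.Spor.TQPlane

set_option autoImplicit false
open Cfsg

namespace Cfsg.Agent.S5367

/-- Let D be a conjugation-invariant generating set of 3-transpositions of a finite group G. Then the line system on D whose lines are the triples {x, y, y x y⁻¹} for non-commuting members x, y of D is a Fischer space: two points lie on at most one line, lines have three points, and two different meeting lines generate a subspace isomorphic to the dual affine plane of order two or to the affine plane of order three. -/
theorem result {G : Type*} [Group G] [Finite G] {D : Set G} (hD : Cfsg.IsThreeTranspositionGroup D) : Cfsg.IsFischerSpace (Cfsg.threeTranspositionLines D) := by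
  open Cfsg.Lib.Spor Cfsg.Lib.Spor.TQ in
  have : IsTT D := IsTT.of_group hD
  have e : Cfsg.threeTranspositionLines D = lines D := by
    have key : ∀ x y : D, ¬ x ⫫ y → {z : D | (z : G) = x ∨ (z : G) = y ∨
        (z : G) = (y : G) * (x : G) * (y : G)⁻¹} = {x, y, x ▹ y} := by
      intro x y hxy
      ext z
      rw [act_comm hxy]
      simp only [Set.mem_ofPred_eq, Set.mem_insert_iff, Set.mem_singleton_iff, Subtype.ext_iff,
        IsTT.coe_act]
    ext l
    constructor
    · rintro ⟨x, y, hxy, rfl⟩
      have h : ¬ x ⫫ y := fun h => hxy (IsTT.com_iff.1 h)
      exact ⟨x, y, h, key x y h⟩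
    · rintro ⟨x, y, hxy, rfl⟩
      exact ⟨x, y, fun h => hxy (IsTT.com_iff.2 h), (key x y hxy).symm⟩
  rw [e]
  exact isFischerSpace_lines

end Cfsg.Agent.S5367
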