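import Cfsg.Statements.S5368
import Cfsg.Agent.Spor.FsMain

set_option autoImplicit false
open scoped MatrixGroups
open Cfsg

namespace Cfsg.Agent.S5368

/-- Fischer's Theorem on 3-transposition groups. Let D be a conjugacy class of 3-transpositions generating the finite group G, and suppose the centre of G is trivial and the commutator subgroup of G is simple (possibly of prime order). Then one of the following holds: (1) G is isomorphic to a symmetric group with D going to the transpositions; (2) G is isomorphic to a symplectic group over the field with two elements with D going to the transvections (elements g with g − 1 of rank one); (3) G is isomorphic to a projective special unitary group over the field with four elements with D going to the images of the unitary transvections; (4) G is isomorphic to the full isometry group of a hyperbolic or elliptic quadratic form over the field with two elements with D going to the orthogonal transvections;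 (5) G is isomorphic to the subgroup of the isometry group of a non-degenerate quadratic form over the field with three elements generated by the reflections in vectors of a fixed non-zero norm, taken modulo its centre, with D going to the images of those reflections; (6) G with D is of type M(22), M(23) or M(24). -/
theorem result {G : Type*} [Group G] [Finite G] {D : Set G} (hD : Cfsg.IsThreeTranspositionClass D) (hZ : Subgroup.center G = ⊥) (hsimple : IsSimpleGroup (commutator G)) : (∃ n : ℕ, ∃ e : G ≃* Equiv.Perm (Fin n), e '' D = {σ : Equiv.Perm (Fin n) | σ.IsSwap}) ∨ (∃ m : ℕ, ∃ e : G ≃* Matrix.symplecticGroup (Fin m) (ZMod 2), e '' D = {g : Matrix.symplecticGroup (Fin m) (ZMod 2) | ((g : Matrix (Fin m ⊕ Fin m) (Fin m ⊕ Fin m) (ZMod 2)) - 1).rank = 1}) ∨ (∃ (n : ℕ) (F : Type) (_ : Field F) (_ : Fintype F), Fintype.card F = 4 ∧ ∃ e : G ≃* Cfsg.PSU n F 2, e '' D = (QuotientGroup.mk : ↥(Cfsg.SU n F 2) → Cfsg.PSU n F 2) '' {g : ↥(Cfsg.SU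 n F 2) | (((g : Matrix.SpecialLinearGroup (Fin n) F) : Matrix (Fin n) (Fin n) F) - 1).rank = 1}) ∨ ((∃ m : ℕ, ∃ e : G ≃* ↥(Cfsg.isometryGroup (ZMod 2) (Cfsg.quadFormPlus m (ZMod 2))), e '' D = {g : ↥(Cfsg.isometryGroup (ZMod 2) (Cfsg.quadFormPlus m (ZMod 2))) | (((g : GL (Fin m ⊕ Fin m) (ZMod 2)) : Matrix (Fin m ⊕ Fin m) (Fin m ⊕ Fin m) (ZMod 2)) - 1).rank = 1}) ∨ (∃ m : ℕ, ∃ e : G ≃* ↥(Cfsg.isometryGroup (ZMod 2) (Cfsg.quadFormMinus m (ZMod 2) 1 1)), e '' D = {g : ↥(Cfsg.isometryGroup (ZMod 2) (Cfsg.quadFormMinus m (ZMod 2) 1 1)) | (((g : GL ((Fin m ⊕ Fin m) ⊕ Fin 2) (ZMod 2)) : Matrix ((Fin m ⊕ Fin m) ⊕ Fin 2) ((Fin m ⊕ Fin m) ⊕ Fin 2) (ZMod 2)) - 1).rank = 1})) ∨ (∃ n : ℕ, ∃ Q : QuadraticForm (ZMod 3) (Fin n → ZMod 3), (QuadraticMap.polarBilin Q).Nondegenerate ∧ ∃ c : ZMod 3, c ≠ 0 ∧ ∃ e : G ≃* ↥(Cfsg.reflectionSubgroup (⇑Q) c) ⧸ Subgroup.center ↥(Cfsg.reflectionSubgroup (⇑Q) c), e '' D = (QuotientGroup.mk : ↥(Cfsg.reflectionSubgroup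 (⇑Q) c) → _) '' {g : ↥(Cfsg.reflectionSubgroup (⇑Q) c) | (g : ↥(Cfsg.isometryGroup (ZMod 3) (⇑Q))) ∈ Cfsg.reflectionsOfNorm (⇑Q) c}) ∨ (Cfsg.IsOfTypeM22 G D ∨ Cfsg.IsOfTypeM23 G D ∨ Cfsg.IsOfTypeM24 G D) := by
  open Cfsg.Lib.Spor Cfsg.Lib.Spor.TQ in
  have := IsTT.of_class hD
  have hG := IsTT.group_of_class hD
  have hX := conn_of_class hD
  have : Nontrivial D := by
    by_contra hn
    rw [not_nontrivial_iff_subsingleton] at hn
    obtain ⟨-, ⟨d, hd, -⟩, hgen⟩ := hD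
    have : d ∈ Subgroup.center G := mem_center_of_commute hgen fun e he => by
      rw [show e = d from congrArg Subtype.val (hn.elim ⟨e, he⟩ ⟨d, hd⟩)]
    rw [hZ] at this
    exact tt_ne_one hG.1 hd this
  have hP := prim_of_simple_commutator hG.2.2 hX hsimple
  by_cases hw : Wide D
  swap
  · obtain ⟨n, h1, h2⟩ := isSymT_of_narrow hG.2.2 hX hsimple hw
    exact Or.inl ⟨n, h2.exists_equiv hG.2.2 hZ h1⟩
  rcases hP.classify hw with ⟨-, ⟨-, n, h⟩ | ⟨-, n, hn, h⟩⟩ | ⟨-, ⟨n, -, h⟩ | ⟨n, hn, h⟩ | ⟨n, -, h⟩ | h⟩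
  · obtain ⟨m, -, h⟩ := h.exists_equiv hG.2.2 hZ
    exact Or.inr (Or.inl ⟨m, h⟩)
  · exact Or.inr (Or.inr (Or.inl ⟨n, GF4, inferInstance, inferInstance, rfl, h.exists_equiv hG.2.2 hZ hn⟩))
  · exact Or.inl ⟨n, h.exists_equiv hG.2.2 hZ h.three_le⟩
  · exact Or.inr (Or.inr (Or.inr (Or.inl ((h.exists_equiv hG.2.2 hZ (by omega)).imp
      (fun ⟨m, _, h⟩ => ⟨m, h⟩) fun ⟨m, _, h⟩ => ⟨m, h⟩))))
  · obtain ⟨Q, h1, h2⟩ := h.exists_equiv hG.2.2 hZ
    exact Or.inr (Or.inr (Or.inr (Or.inr (Or.inl ⟨n, Q, h1, 1, one_ne_zero, h2⟩))))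
  · exact Or.inr (Or.inr (Or.inr (Or.inr (Or.inr (type_of_t h hG hZ)))))

end Cfsg.Agent.S5368
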