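import Cfsg.Statements.S5369
import Cfsg.Agent.Spor.FsMain

set_option autoImplicit false
open scoped MatrixGroups
open Cfsg

namespace Cfsg.Agent.S5369

/-- Let D be a conjugation-invariant generating set of 3-transpositions of the finite group G on which G acts primitively by conjugation, with trivial centre; let d be a member of D commuting with some other member of D (width at least 2), and let H be the subgroup generated by the members of D other than d commuting with d; suppose the largest normal 3-subgroup and the largest normal 2-subgroup of H are central in H. Then one of the following holds: G is isomorphic to a symmetric group of degree at least 7 with D going to the transpositions; G is isomorphic to the full isometry group of a hyperbolic or elliptic quadratic form in dimension at least 6 over the field with two elements with D going to the orthogonal transvections; G is isomorphic to the reflection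 group of a non-degenerate quadratic form in dimension at least 5 over the field with three elements for one non-zero norm, modulo its centre, with D going to the images of those reflections; or G with D is of type M(22), M(23) or M(24). -/
theorem result {G : Type*} [Group G] [Finite G] {D : Set G} (hD : Cfsg.IsThreeTranspositionGroup D) (hprim : Cfsg.IsPrimitiveUnderConj D) (hZ : Subgroup.center G = ⊥) (d : G) (hd : d ∈ D) (hw : ∃ b ∈ D, b ≠ d ∧ Commute d b) (h3 : Cfsg.pCore 3 ↥(Subgroup.closure {y : G | y ∈ D ∧ y ≠ d ∧ Commute d y}) ≤ Subgroup.center ↥(Subgroup.closure {y : G | y ∈ D ∧ y ≠ d ∧ Commute d y})) (h2 : Cfsg.pCore 2 ↥(Subgroup.closure {y : G | y ∈ D ∧ y ≠ d ∧ Commute d y}) ≤ Subgroup.center ↥(Subgroup.closure {y : G | y ∈ D ∧ y ≠ d ∧ Commute d y})) : (∃ n : ℕ, 7 ≤ n ∧ ∃ e : G ≃* Equiv.Perm (Fin n), e '' D = {σ : Equiv.Perm (Fin n) | σ.IsSwap}) ∨ ((∃ m : ℕ, 3 ≤ m ∧ ∃ e : G ≃* ↥(Cfsg.isometryGroup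 (ZMod 2) (Cfsg.quadFormPlus m (ZMod 2))), e '' D = {g : ↥(Cfsg.isometryGroup (ZMod 2) (Cfsg.quadFormPlus m (ZMod 2))) | (((g : GL (Fin m ⊕ Fin m) (ZMod 2)) : Matrix (Fin m ⊕ Fin m) (Fin m ⊕ Fin m) (ZMod 2)) - 1).rank = 1}) ∨ (∃ m : ℕ, 2 ≤ m ∧ ∃ e : G ≃* ↥(Cfsg.isometryGroup (ZMod 2) (Cfsg.quadFormMinus m (ZMod 2) 1 1)), e '' D = {g : ↥(Cfsg.isometryGroup (ZMod 2) (Cfsg.quadFormMinus m (ZMod 2) 1 1)) | (((g : GL ((Fin m ⊕ Fin m) ⊕ Fin 2) (ZMod 2)) : Matrix ((Fin m ⊕ Fin m) ⊕ Fin 2) ((Fin m ⊕ Fin m) ⊕ Fin 2) (ZMod 2)) - 1).rank = 1})) ∨ (∃ n : ℕ, 5 ≤ n ∧ ∃ Q : QuadraticForm (ZMod 3) (Fin n → ZMod 3), (QuadraticMap.polarBilin Q).Nondegenerate ∧ ∃ c : ZMod 3, c ≠ 0 ∧ ∃ e : G ≃* ↥(Cfsg.reflectionSubgroup (⇑Q) c) ⧸ Subgroup.center ↥(Cfsg.reflectionSubgroup (⇑Q) c), e '' D = (QuotientGroup.mk : ↥(Cfsg.reflectionSubgroup (⇑Q) c) → _) '' {g : ↥(Cfsg.reflectionSubgroup (⇑Q) c) | (g : ↥(Cfsg.isometryGroup (ZMod 3) (⇑Q)))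 ∈ Cfsg.reflectionsOfNorm (⇑Q) c}) ∨ (Cfsg.IsOfTypeM22 G D ∨ Cfsg.IsOfTypeM23 G D ∨ Cfsg.IsOfTypeM24 G D) := by
  open Cfsg.Lib.Spor Cfsg.Lib.Spor.TQ in
  have := IsTT.of_group hD
  have hP := (prim_iff hD.2.2).2 hprim
  have := hP.nontrivial
  have hW : Wide D := by
    obtain ⟨b, hb, h1, h2⟩ := hw
    exact wide_iff.2 ⟨d, hd, b, hb, h1.symm, h2⟩
  have e : {y : G | y ∈ D ∧ y ≠ d ∧ Commute d y} = _ := (coe_image_dperp (⟨d, hd⟩ : D)).symm
  rw [e] at h2 h3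
  have hV := (sub_vTriv_iff _ (hP.conn_dperp _)).2 h2
  obtain ⟨p1, p2⟩ := hP.prim_dperp hW hV ((sub_wTriv_iff _ (hP.conn_dperp _)).2 h3)
  rcases hP.classify hW with ⟨⟨d', h⟩, -⟩ | ⟨-, ⟨n, -, h⟩ | ⟨n, hn, h⟩ | ⟨n, hn, h⟩ | h⟩
  · obtain ⟨k⟩ := hP.conn.nonempty_iso ⟨d, hd⟩ d'
    exact absurd (hV.of_iso k) h
  · exact Or.inl ⟨n, h.seven_le p1 p2, h.exists_equiv hD.2.2 hZ h.three_le⟩
  · exact Or.inr (Or.inl ((h.exists_equiv hD.2.2 hZ (by omega)).imp
      (fun ⟨m, _, h⟩ => ⟨m, by omega, h⟩) fun ⟨m, _, h⟩ => ⟨m, by omega, h⟩))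
  · obtain ⟨Q, h1, h2⟩ := h.exists_equiv hD.2.2 hZ
    exact Or.inr (Or.inr (Or.inl ⟨n, hn, Q, h1, 1, one_ne_zero, h2⟩))
  · exact Or.inr (Or.inr (Or.inr (type_of_t h hD hZ)))

end Cfsg.Agent.S5369
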