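import Cfsg.Statements.S5376
import Cfsg.Agent.Spor.Fi22H

set_option autoImplicit false
set_option linter.unusedVariables false
set_option maxRecDepth 100000
open Cfsg

namespace Cfsg.Agent.S5376

open Cfsg.Lib.Spor Cfsg.Lib.Spor.F22

/-- Let G be a finite group with trivial centre generated by a conjugation-invariant set D of 3-transpositions on which it acts primitively, of type M(22), and suppose some finite primitive 3-transposition group of type M(23) exists. Then G is simple, and for every d in D the subgroup generated by the members of D other than d commuting with d contains d and is quasisimple with centre generated by d. -/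
theorem result {G : Type*} [Group G] [Finite G] {D : Set G} (hD : Cfsg.IsThreeTranspositionGroup D) (hprim : Cfsg.IsPrimitiveUnderConj D) (ht : Cfsg.IsOfTypeM22 G D) (hex : ∃ (X : Type) (_ : Group X) (_ : Finite X) (E : Set X), Cfsg.IsThreeTranspositionClass E ∧ Cfsg.IsPrimitiveUnderConj E ∧ Cfsg.IsOfTypeM23 X E) : IsSimpleGroup G ∧ ∀ d ∈ D, d ∈ Subgroup.closure {y : G | y ∈ D ∧ y ≠ d ∧ Commute d y} ∧ Cfsg.IsQuasisimple ↥(Subgroup.closure {y : G | y ∈ D ∧ y ≠ d ∧ Commute d y}) ∧ Subgroup.center ↥(Subgroup.closure {y : G | y ∈ D ∧ y ≠ d ∧ Commute d y}) = (Subgroup.zpowers d).subgroupOf (Subgroup.closure {y : G | y ∈ D ∧ y ≠ d ∧ Commute d y}) := by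
  obtain ⟨M⟩ := exists_mdl hD hprim ht
  refine ⟨isSimple hD hprim ht, fun d hd => ?_⟩
  obtain ⟨h1, h2⟩ := card_center_nbr M ht hd
  have h3 : d ∈ Subgroup.closure (nbr D d) :=
    (M.closure_nbr hd).ge (Subgroup.mem_centralizer_singleton_iff.2 rfl)
  refine ⟨h3, ⟨M.perfect_nbr hd, h1⟩, (Subgroup.eq_of_le_of_card_ge (fun x hx => ?_) ?_).symm⟩
  · obtain ⟨k, e⟩ := hx
    refine Subgroup.mem_center_iff.2 fun y => Subtype.ext ?_
    have h4 : Commute (y : G) d := Subgroup.mem_centralizer_singleton_iff.1 ((M.closure_nbr hd).le y.2)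
    have h5 : d ^ k = (x : G) := e
    exact (h5 ▸ h4.zpow_right k : Commute (y : G) x).eq
  · rw [h2, Fis.card_subgroupOf_of_le (Subgroup.zpowers_le.2 h3), Nat.card_zpowers, hD.1.1 d hd]

end Cfsg.Agent.S5376
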