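import Cfsg.Statements.S5377
import Cfsg.Agent.SporChar.FiT22G
import Cfsg.Agent.Known.Fi22Type

set_option autoImplicit false
open Cfsg

namespace Cfsg.Agent.S5377

/-- Let G be a finite group with an involution d whose centralizer C is quasisimple with C modulo the subgroup generated by d isomorphic to the projective special unitary group of dimension 6 over the field with four elements, and suppose some conjugate of d other than d commutes with d. Then the conjugacy class of d is a class of 3-transpositions generating G, and G with this class is of type M(22). -/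
theorem result {G : Type*} [Group G] [Finite G] (d : G) (hd : orderOf d = 2) (hq : Cfsg.IsQuasisimple (Subgroup.centralizer ({d} : Set G))) [((Subgroup.zpowers d).subgroupOf (Subgroup.centralizer ({d} : Set G))).Normal] (K : Type) [Field K] [Fintype K] (hK : Fintype.card K = 4) (e : (Subgroup.centralizer ({d} : Set G)) ⧸ (Subgroup.zpowers d).subgroupOf (Subgroup.centralizer ({d} : Set G)) ≃* Cfsg.PSU 6 K 2) (hnwc : ∃ g : G, g * d * g⁻¹ ∈ Subgroup.centralizer ({d} : Set G) ∧ g * d * g⁻¹ ≠ d) : Cfsg.IsThreeTranspositionClass (conjugatesOf d) ∧ Cfsg.IsOfTypeM22 G (conjugatesOf d) := by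
  obtain ⟨ι⟩ := Cfsg.Lib.Spor.FT.nonempty_psu_inn hK
  obtain ⟨H, h1, h2, -, f, hf⟩ := (Cfsg.Lib.Spor.FT.pre_of_equiv hd hq.1 (e.trans ι)).eq22 hnwc
  refine ⟨⟨h1 ▸ H.tt.set, ⟨d, IsConj.refl d, rfl⟩, h1 ▸ h2⟩, ?_⟩
  have h3 := hf Cfsg.Spor.Fi22.Gen.a
  rw [show PresentedGroup.of Cfsg.Spor.Fi22.Gen.a = Cfsg.Lib.Spor.Fi22P.g0 1 from
    (Cfsg.Lib.Spor.Fi22P.ok.g0_lt Cfsg.Spor.Fi22.Gen.a).symm] at h3
  convert Cfsg.Lib.Known.typeM22_congr f Cfsg.Lib.Known.f22_type using 1
  ext x
  obtain ⟨x, rfl⟩ := f.surjective x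
  rw [f.injective.mem_set_image]
  exact ⟨fun h => isConj_iff.2 (by simpa using f.symm.toMonoidHom.map_isConj (IsConj.trans (IsConj.symm h3) h)),
    fun h => IsConj.trans h3 (f.toMonoidHom.map_isConj h)⟩

end Cfsg.Agent.S5377
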