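import Cfsg.Statements.S5378
import Cfsg.Agent.SporChar.Co1Loc

set_option autoImplicit false
open Cfsg Cfsg.Lib.Spor Cfsg.Lib.SporChar.Co Cfsg.Lib.Local

namespace Cfsg.Agent.S5378

/-- Let G be a finite group of Conway type: it has an involution z whose centralizer C has generalized Fitting subgroup Q extraspecial of order 2^9 with C/Q isomorphic to the commutator subgroup of the isometry group of the hyperbolic quadratic form in dimension 8 over the field with two elements, and some conjugate of z other than z lies in Q. Then G has exactly three conjugacy classes of involutions. -/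
theorem result {G : Type*} [Group G] [Finite G] (z : G) (hz : orderOf z = 2) (Q : Subgroup (Subgroup.centralizer ({z} : Set G))) [Q.Normal] (hF : Cfsg.generalizedFittingSubgroup (Subgroup.centralizer ({z} : Set G)) = Q) (hQ : Cfsg.IsExtraspecial 2 Q) (hcard : Nat.card Q = 2 ^ 9) (e : (Subgroup.centralizer ({z} : Set G)) ⧸ Q ≃* Cfsg.Omega (ZMod 2) (Cfsg.quadFormPlus 4 (ZMod 2))) (hnwc : ∃ g : G, (∃ hq : g * z * g⁻¹ ∈ Subgroup.centralizer ({z} : Set G), (⟨g * z * g⁻¹, hq⟩ : Subgroup.centralizer ({z} : Set G)) ∈ Q) ∧ g * z * g⁻¹ ≠ z) : ∃ a b c : G, orderOf a = 2 ∧ orderOf b = 2 ∧ orderOf c = 2 ∧ ¬ IsConj a b ∧ ¬ IsConj a c ∧ ¬ IsConj b c ∧ ∀ x : G, orderOf x = 2 → IsConj x a ∨ IsConj x b ∨ IsConj x c := by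
  obtain ⟨F, h, rfl, g, hg⟩ := exists_typ z hz Q hF hQ hcard e hnwc
  obtain ⟨e, -⟩ := h.exists_equiv hg
  have k : ∀ {x y}, IsConj (e x) (e y) → IsConj x y := fun h => by
    simpa using e.symm.toMonoidHom.map_isConj h
  refine ⟨e F1.z, e (CK.toCo1 u0), e (CK.toCo1 v0), by rw [e.orderOf_eq, F1.orderOf_z],
    by rw [e.orderOf_eq, orderOf_u1], by rw [e.orderOf_eq, orderOf_v1], fun c => not_conj_u1 (k c),
    fun c => not_conj_v1 F0.zz (k c), fun c => not_conj_v1 u0_sq (k c), fun x hx => ?_⟩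
  obtain ⟨x, rfl⟩ := e.surjective x
  rw [e.orderOf_eq] at hx
  have m : ∀ {y}, IsConj y x → IsConj (e x) (e y) := fun h => e.toMonoidHom.map_isConj h.symm
  exact (invol_cases (mul_self_of_orderOf_two hx) (ne_one_of_orderOf_two hx)).imp m (Or.imp m m)

end Cfsg.Agent.S5378
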