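import Cfsg.Statements.S5381
import Cfsg.Agent.Inst.S1718
import Cfsg.Agent.Cond.S5381

set_option autoImplicit false
open Cfsg

namespace Cfsg.Agent.S5381

/-- Let G be a finite group of Conway type (involution z with generalized Fitting subgroup Q of its centralizer C extraspecial of order 2^9, C/Q the commutator subgroup of the isometry group of the hyperbolic quadratic form in dimension 8 over the field with two elements, z not weakly closed in Q), and let X be a subgroup of C of order 3 whose commutator subgroup with Q is non-abelian of order 8, contained in an elementary abelian subgroup Y of C of order 9 whose centralizer in Q is extraspecial of order 32 containing an elementary abelian subgroup of order 8. Then the centralizer of X in G is quasisimple and its quotient by X is isomorphic to the presented sporadic Suzuki group. -/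
theorem result {G : Type*} [Group G] [Finite G] (z : G) (hz : orderOf z = 2) (Q : Subgroup (Subgroup.centralizer ({z} : Set G))) [Q.Normal] (hF : Cfsg.generalizedFittingSubgroup (Subgroup.centralizer ({z} : Set G)) = Q) (hQ : Cfsg.IsExtraspecial 2 Q) (hcard : Nat.card Q = 2 ^ 9) (e : (Subgroup.centralizer ({z} : Set G)) ⧸ Q ≃* Cfsg.Omega (ZMod 2) (Cfsg.quadFormPlus 4 (ZMod 2))) (hnwc : ∃ g : G, (∃ hq : g * z * g⁻¹ ∈ Subgroup.centralizer ({z} : Set G), (⟨g * z * g⁻¹, hq⟩ : Subgroup.centralizer ({z} : Set G)) ∈ Q) ∧ g * z * g⁻¹ ≠ z) (X : Subgroup (Subgroup.centralizer ({z} : Set G))) (hX : Nat.card X = 3) (hQX : Nat.card ↥⁅Q, X⁆ = 8) (hQXna : ¬ IsMulCommutative ↥⁅Q, X⁆) (Y₉ : Subgroup (Subgroup.centralizer ({z} : Set G))) (hXY : X ≤ Y₉) (hY₉ : Nat.card Y₉ = 9) (hY₉e : ∀ y ∈ Y₉, y ^ 3 = 1) (hCQ₉ : Cfsg.IsExtraspecial 2 ↥(Q ⊓ Subgroup.centralizer (Y₉ : Set (Subgroup.centralizer ({z} : Set G))))) (hCQ₉c : Nat.card ↥(Q ⊓ Subgroup.centralizer (Y₉ : Set (Subgroup.centralizer ({z} : Set G))))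 = 32) (hCQ₉p : ∃ A : Subgroup (Subgroup.centralizer ({z} : Set G)), A ≤ Q ⊓ Subgroup.centralizer (Y₉ : Set (Subgroup.centralizer ({z} : Set G))) ∧ Cfsg.IsElementaryAbelian 2 A ∧ Nat.card A = 8) [((X.map (Subgroup.subtype (Subgroup.centralizer ({z} : Set G)))).subgroupOf (Subgroup.centralizer ((X.map (Subgroup.subtype (Subgroup.centralizer ({z} : Set G)))) : Set G))).Normal] : Cfsg.IsQuasisimple ↥(Subgroup.centralizer ((X.map (Subgroup.subtype (Subgroup.centralizer ({z} : Set G)))) : Set G)) ∧ Cfsg.Spor.IsoSuz (↥(Subgroup.centralizer ((X.map (Subgroup.subtype (Subgroup.centralizer ({z} : Set G)))) : Set G)) ⧸ (X.map (Subgroup.subtype (Subgroup.centralizer ({z} : Set G)))).subgroupOf (Subgroup.centralizer ((X.map (Subgroup.subtype (Subgroup.centralizer ({z} : Set G)))) : Set G))) := by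
  revert G z hz Q hF hQ hcard e hnwc X hX hQX hQXna Y₉ hXY hY₉ hY₉e hCQ₉ hCQ₉c hCQ₉p
  exact @Cfsg.Agent.Gate.S5381.out Cfsg.Agent.Cond.S5381

end Cfsg.Agent.S5381
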