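import Cfsg.Statements.S5382
import Cfsg.Agent.SporChar.HJConj
import Cfsg.Agent.SporChar.HJInv

set_option autoImplicit false
open Cfsg

namespace Cfsg.Agent.S5382

open scoped Pointwise commutatorElement

open Subgroup Cfsg.Lib.Spor Cfsg.Lib.Spor.HJ Cfsg.Lib.Spor.WF Cfsg.Lib.Local Cfsg.Lib.Solv

/-- Let G be a finite group of Hall–Janko type: it has more than one class of involutions and an involution z whose centralizer C has generalized Fitting subgroup Q extraspecial of order 32 with C/Q isomorphic to the commutator subgroup of the isometry group of the elliptic quadratic form in dimension 4 over the field with two elements (the alternating group of degree 5), with z not weakly closed in Q. Then for every involution t not conjugate to z, the centralizer of t is isomorphic to the direct product of an elementary abelian group of order 4 and the alternating group of degree 5, and the normalizer of the largest normal 2-subgroup of that centralizer is isomorphic to the direct product of the alternating groups of degrees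 4 and 5. -/
theorem result {G : Type*} [Group G] [Finite G] (z : G) (hz : orderOf z = 2) (Q : Subgroup (Subgroup.centralizer ({z} : Set G))) [Q.Normal] (hF : Cfsg.generalizedFittingSubgroup (Subgroup.centralizer ({z} : Set G)) = Q) (hQ : Cfsg.IsExtraspecial 2 Q) (hcard : Nat.card Q = 2 ^ 5) (e : (Subgroup.centralizer ({z} : Set G)) ⧸ Q ≃* Cfsg.Omega (ZMod 2) (Cfsg.quadFormMinus 1 (ZMod 2) 1 1)) (hnwc : ∃ g : G, (∃ hq : g * z * g⁻¹ ∈ Subgroup.centralizer ({z} : Set G), (⟨g * z * g⁻¹, hq⟩ : Subgroup.centralizer ({z} : Set G)) ∈ Q) ∧ g * z * g⁻¹ ≠ z) (hcl : ∃ x y : G, orderOf x = 2 ∧ orderOf y = 2 ∧ ¬ IsConj x y) (t : G) (ht : orderOf t = 2) (htz : ¬ IsConj t z) : Nonempty (↥(Subgroup.centralizer ({t} : Set G)) ≃* (Multiplicative (ZMod 2) × Multiplicative (ZMod 2)) × alternatingGroup (Fin 5)) ∧ Nonempty (↥(Subgroup.normalizer (((Cfsg.pCore 2 ↥(Subgroup.centralizer ({t} : Set G))).map (Subgroup.subtype (Subgroup.centralizer ({t} : Set G))) : Subgroup G) : Set G)) ≃* alternatingGroup (Fin 4) × alternatingGroup (Fin 5)) := by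
  obtain ⟨T, -, h, -, -, h3⟩ := j2_of_genFitting hz hF hQ hcard e hnwc hcl
  obtain ⟨c, rfl⟩ := isConj_iff.1 (h3 t ht htz)
  replace h := h.conj c
  change orderOf (T.map (MulAut.conj c).toMonoidHom).t = 2 at ht
  change Nonempty (centralizer {(T.map (MulAut.conj c).toMonoidHom).t} ≃* _) ∧
    Nonempty (normalizer (((pCore 2 (centralizer {(T.map (MulAut.conj c).toMonoidHom).t})).map
      (centralizer {(T.map (MulAut.conj c).toMonoidHom).t}).subtype : Subgroup G) : Set G) ≃* _)
  generalize T.map (MulAut.conj c).toMonoidHom = T at h ht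
  have hL := (h.cent_eq _).symm.trans (cent_t_eq h.emb)
  obtain ⟨⟨_, hf, rfl⟩, v1⟩ := v_mem h.emb
  have hV : ∀ x ∈ sub T.gM wL, ∀ y ∈ sub T.gM wV, y * x = x * y := fun x hx y hy =>
    mem_centralizer_singleton_iff.1 (sub_le (H := centralizer {x}) (fun L hL =>
      mem_centralizer_singleton_iff.2 (by
        rcases List.mem_pair.1 hL with rfl | rfl
        exacts [by simpa using (j_cent h.emb x hx).1.symm, (j_cent h.emb x hx).2.symm])) hy)
  have hO : (pCore 2 (sub T.gM wL)).map (sub T.gM wL).subtype = sub T.gM wV := by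
    refine le_antisymm ?_ (le_map_pCore (fun x hx => by obtain ⟨_, a, rfl⟩ := (v1 x hx).2; exact a)
      (fun x hx => centralizer_le_normalizer _ fun y hy => hV x hx y hy)
      (IsPGroup.of_card (n := 2) (card_wV h.emb)))
    intro x hx
    have k : ∀ y ∈ (pCore 2 (sub T.gM wL)).map (sub T.gM wL).subtype,
        ¬ (¬ y = 1 ∧ (y * y * y = 1 ∨ y * y * y * y * y = 1)) := fun y hy a => by
      obtain ⟨n, hn⟩ := isPGroup_map_pCore 2 _ ⟨y, hy⟩
      have b := orderOf_dvd_of_pow_eq_one (congrArg Subtype.val hn : y ^ 2 ^ n = 1)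
      refine a.1 (orderOf_eq_one_iff.1 (Nat.eq_one_of_dvd_coprimes
        (Nat.Coprime.pow_left n (by norm_num : Nat.Coprime 2 15)) b (orderOf_dvd_of_pow_eq_one ?_)))
      rcases a.2 with a | a
      · rw [show 15 = 3 * 5 from rfl, pow_mul, pow_succ y, sq, a, one_pow]
      · rw [show 15 = 5 * 3 from rfl, pow_mul]; simp only [pow_succ y, pow_zero, one_mul, a, one_pow]
    rcases v_core h.emb x (map_subtype_le _ hx) with ⟨_, a, rfl⟩ | a | a
    · exact a
    · exact absurd a (k _ (mul_mem hx hx))
    · refine absurd a (k _ ?_)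
      convert mul_mem hx ((mem_normalizer_iff.1 (le_normalizer_map_subtype _ hf) x).1 hx) using 1
      simp only [inv_eq_of_mul_eq_one_left (j_basic h.emb).1, mul_assoc]
  rw [hL, hO, normalizer_eq_of (nV_le h.emb) (a := T.t)
    (one_mul T.t ▸ wv_mem_sub T.gM (L := [10]) (by decide))
    (fun x hx a => (v_fus h.emb x hx).resolve_left fun b => ne_one_of_orderOf_two ht
      (isConj_one_left.1 (b ▸ a))) fun x _ a => sub_le (fun L hL => wv_mem_sub _
        (List.mem_append_left _ hL)) (hL.le (mem_centralizer_singleton_iff.2 a))]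
  exact ⟨iso_L h.emb, iso_NV h.emb⟩

end Cfsg.Agent.S5382
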