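import Cfsg.Statements.S5385
import Cfsg.Agent.Inst.S1718
import Cfsg.Agent.Cond.S5385

set_option autoImplicit false
open Cfsg

namespace Cfsg.Agent.S5385

/-- Let G be a finite group of Conway type (involution z with generalized Fitting subgroup Q of its centralizer C extraspecial of order 2^9, C/Q the commutator subgroup of the isometry group of the hyperbolic quadratic form in dimension 8 over the field with two elements, z not weakly closed in Q), and let B be a subgroup of C of order 5 such that the centralizer of B in Q is extraspecial of order 32 containing no elementary abelian subgroup of order 8 (the quaternion-times-dihedral type). Then the layer L of the centralizer of B in G is isomorphic to the Hall–Janko group and the centralizer of L is isomorphic to the alternating group of degree 5. -/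
theorem result {G : Type*} [Group G] [Finite G] (z : G) (hz : orderOf z = 2) (Q : Subgroup (Subgroup.centralizer ({z} : Set G))) [Q.Normal] (hF : Cfsg.generalizedFittingSubgroup (Subgroup.centralizer ({z} : Set G)) = Q) (hQ : Cfsg.IsExtraspecial 2 Q) (hcard : Nat.card Q = 2 ^ 9) (e : (Subgroup.centralizer ({z} : Set G)) ⧸ Q ≃* Cfsg.Omega (ZMod 2) (Cfsg.quadFormPlus 4 (ZMod 2))) (hnwc : ∃ g : G, (∃ hq : g * z * g⁻¹ ∈ Subgroup.centralizer ({z} : Set G), (⟨g * z * g⁻¹, hq⟩ : Subgroup.centralizer ({z} : Set G)) ∈ Q) ∧ g * z * g⁻¹ ≠ z) (B : Subgroup (Subgroup.centralizer ({z} : Set G))) (hB : Nat.card B = 5) (hCQ : Cfsg.IsExtraspecial 2 ↥(Q ⊓ Subgroup.centralizer (B : Set (Subgroup.centralizer ({z} : Set G))))) (hCQcard : Nat.card ↥(Q ⊓ Subgroup.centralizer (B : Set (Subgroup.centralizer ({z} : Set G)))) = 32) (hminus : ∀ A : Subgroup (Subgroup.centralizer ({z} : Set G)), A ≤ Q ⊓ Subgroup.centralizer (B : Set (Subgroup.centralizer ({z} : Set G))) → Cfsg.IsElementaryAbelian 2 A → Nat.card A ≤ 4) : Cfsg.Spor.IsoJ2 ↥(Cfsg.layer ↥(Subgroup.centralizer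 ((B.map (Subgroup.subtype (Subgroup.centralizer ({z} : Set G)))) : Set G))) ∧ Nonempty (↥(Subgroup.centralizer (((Cfsg.layer ↥(Subgroup.centralizer ((B.map (Subgroup.subtype (Subgroup.centralizer ({z} : Set G)))) : Set G))).map (Subgroup.subtype _)) : Set G)) ≃* alternatingGroup (Fin 5)) := by
  revert G z hz Q hF hQ hcard e hnwc B hB hCQ hCQcard hminus
  exact @Cfsg.Agent.Gate.S5385.out Cfsg.Agent.Cond.S5385

end Cfsg.Agent.S5385
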