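import Cfsg.Statements.S5386
import Cfsg.Agent.SporChar.CoA9
import Cfsg.Agent.S1718

set_option autoImplicit false
open Cfsg

namespace Cfsg.Agent.S5386

open Cfsg.Lib.SporChar.CL

theorem transfer {G H A B : Type*} [Group G] [Group H] [Group A] [Group B] (f : H ≃* G)
    (h1 : ∃ V : Subgroup H, Nat.card V = 7 ∧ Nonempty (Subgroup.centralizer (V : Set H) ≃* A))
    (h2 : ∃ W : Subgroup H, Nat.card W = 3 ∧ Nonempty (Subgroup.normalizer (W : Set H) ≃* B)) :
    (∃ V : Subgroup G, Nat.card V = 7 ∧ Nonempty (Subgroup.centralizer (V : Set G) ≃* A)) ∧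
      ∃ W : Subgroup G, Nat.card W = 3 ∧ Nonempty (Subgroup.normalizer (W : Set G) ≃* B) := by
  obtain ⟨V, h1, ⟨a⟩⟩ := h1
  obtain ⟨W, h2, ⟨b⟩⟩ := h2
  exact ⟨⟨V.map (f : H →* G), (Subgroup.card_map_of_injective f.injective).trans h1,
      ⟨((f.subgroupMap _).trans (MulEquiv.subgroupCongr (map_cent f V))).symm.trans a⟩⟩,
    W.map (f : H →* G), (Subgroup.card_map_of_injective f.injective).trans h2,
      ⟨((f.subgroupMap _).trans
        (MulEquiv.subgroupCongr (Subgroup.map_equiv_normalizer_eq W f))).symm.trans b⟩⟩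


/-- Let G be a finite group of Conway type (involution z with generalized Fitting subgroup Q of its centralizer C extraspecial of order 2^9, C/Q the commutator subgroup of the isometry group of the hyperbolic quadratic form in dimension 8 over the field with two elements, z not weakly closed in Q). Then G has a subgroup V of order 7 whose centralizer is isomorphic to the direct product of a cyclic group of order 7 and the alternating group of degree 7, and a subgroup W of order 3 whose normalizer is isomorphic to the direct product of the symmetric group of degree 3 and the alternating group of degree 9. -/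
theorem result {G : Type*} [Group G] [Finite G] (z : G) (hz : orderOf z = 2) (Q : Subgroup (Subgroup.centralizer ({z} : Set G))) [Q.Normal] (hF : Cfsg.generalizedFittingSubgroup (Subgroup.centralizer ({z} : Set G)) = Q) (hQ : Cfsg.IsExtraspecial 2 Q) (hcard : Nat.card Q = 2 ^ 9) (e : (Subgroup.centralizer ({z} : Set G)) ⧸ Q ≃* Cfsg.Omega (ZMod 2) (Cfsg.quadFormPlus 4 (ZMod 2))) (hnwc : ∃ g : G, (∃ hq : g * z * g⁻¹ ∈ Subgroup.centralizer ({z} : Set G), (⟨g * z * g⁻¹, hq⟩ : Subgroup.centralizer ({z} : Set G)) ∈ Q) ∧ g * z * g⁻¹ ≠ z) : (∃ V : Subgroup G, Nat.card V = 7 ∧ Nonempty (↥(Subgroup.centralizer (V : Set G)) ≃* Multiplicative (ZMod 7) × alternatingGroup (Fin 7))) ∧ ∃ W : Subgroup G, Nat.card W = 3 ∧ Nonempty (↥(Subgroup.normalizer (W : Set G)) ≃* Equiv.Perm (Fin 3) × alternatingGroup (Fin 9)) := by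
  obtain ⟨f⟩ := Cfsg.Agent.S1718.result z hz Q hF hQ hcard e hnwc
  exact transfer f.symm cent_seven norm_three_A9

end Cfsg.Agent.S5386
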