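import Cfsg.Statements.S5387
import Cfsg.Agent.S2088
import Cfsg.Agent.Solv.Schur2

set_option autoImplicit false
open Cfsg

namespace Cfsg.Agent.S5387

open Cfsg.Lib.Solv

/-- A quotient of the universal cover with elementary abelian kernel of order four. -/
theorem exists_hom {Q L : Type*} [Group Q] [Finite Q] [Group L] [Finite L]
    (h : HasSchurMultiplier Q (Multiplicative (ZMod 3 × ZMod 4 × ZMod 4))) (hL : Group.IsPerfect L)
    (hc : Nat.card (Subgroup.center L) = 4) (he : ∀ x ∈ Subgroup.center L, x * x = 1)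
    (e : L ⧸ Subgroup.center L ≃* Q) : ∃ ψ : commutator (HopfE (freePres Q)) →* L, Function.Surjective ψ ∧
      ∀ x, ψ x = 1 ↔ ∃ y ∈ hopfM (freePres Q), y ^ 2 = x := by
  let σ := e.toMonoidHom.comp (QuotientGroup.mk' _)
  have h1 : σ.ker = Subgroup.center L := by
    rw [← MonoidHom.comap_ker, (MonoidHom.ker_eq_bot_iff _).2 e.injective, MonoidHom.comap_bot, QuotientGroup.ker_mk']
  have h2 : Function.Surjective σ := e.surjective.comp (QuotientGroup.mk'_surjective _)
  obtain ⟨φ, hφ⟩ := exists_hopf_lift' (freePres Q) σ h2 h1.le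
  have h3 : ∀ x, σ (φ x) = hopfπ _ x := DFunLike.congr_fun hφ
  obtain ⟨ρ, h4, h5⟩ := exists_surjective_of_map_eq φ
    ((map_hopfM_eq (freePres_surjective Q) σ h1.le φ hφ).trans (by rw [hL.commutator_eq_top, inf_top_eq, h1]))
  obtain ⟨f⟩ := (hasSchurMultiplier_iff_hopfM (freePres_surjective Q)).1 h
  have h6 : (powMonoidHom 2).range = (ρ.comp f.symm.toMonoidHom).ker := by
    refine Subgroup.eq_of_le_of_card_ge ?_ ?_
    · rintro _ ⟨a, rfl⟩
      exact Subtype.ext (by simpa [sq] using he _ (ρ (f.symm a)).2)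
    have := Subgroup.card_mul_index (ρ.comp f.symm.toMonoidHom).ker
    rw [Subgroup.index_ker, (MonoidHom.range_eq_top (f := ρ.comp f.symm.toMonoidHom)).2
      (h4.comp f.symm.surjective), Subgroup.card_top, hc, Nat.card_eq_fintype_card (α := Multiplicative _),
      show Fintype.card _ = 48 by simp] at this
    rw [Nat.card_eq_fintype_card (α := MonoidHom.range _), show Fintype.card _ = 12 by decide +kernel]
    omega
  refine ⟨φ.comp (Subgroup.subtype _), fun g => ?_, fun x => ⟨fun hx => ?_, ?_⟩⟩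
  · obtain ⟨x, hx, rfl⟩ := (map_commutator_eq_of_central σ h1.le φ fun x =>
      (hopfπ_surjective (freePres_surjective Q) (σ x)).imp fun y hy => (h3 y).trans hy).ge (hL.mem_commutator (g := g))
    exact ⟨⟨x, hx⟩, rfl⟩
  · have h7 : (x : HopfE _) ∈ hopfM (freePres Q) := ⟨(h3 _).symm.trans ((congrArg σ hx).trans (map_one σ)), x.2⟩
    obtain ⟨a, ha⟩ := h6.ge (show ρ (f.symm (f ⟨x, h7⟩)) = 1 from Subtype.ext (by rw [f.symm_apply_apply, h5]; exact hx))
    exact ⟨f.symm a, (f.symm a).2, by simpa using congrArg (fun a => (f.symm a).1) ha⟩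
  · rintro ⟨y, hy, e⟩
    rw [MonoidHom.comp_apply, Subgroup.subtype_apply, ← e, map_pow, ← h5 ⟨y, hy⟩, sq]
    exact he _ (ρ _).2

/-- Up to isomorphism there is at most one quasisimple group whose centre is elementary abelian of order 4 and whose central quotient is isomorphic to the projective special linear group of dimension 3 over the field with four elements: any two such groups are isomorphic. -/
theorem result {L₁ L₂ : Type*} [Group L₁] [Finite L₁] [Group L₂] [Finite L₂] (F : Type) [Field F] [Fintype F] (hF : Fintype.card F = 4) (h₁ : Cfsg.IsQuasisimple L₁) (h₂ : Cfsg.IsQuasisimple L₂) (hc₁ : Nat.card (Subgroup.center L₁) = 4) (hc₂ : Nat.card (Subgroup.center L₂) = 4) (he₁ : ∀ x ∈ Subgroup.center L₁, x * x = 1) (he₂ : ∀ x ∈ Subgroup.center L₂, x * x = 1) (e₁ : L₁ ⧸ Subgroup.center L₁ ≃* Matrix.ProjectiveSpecialLinearGroup (Fin 3) F) (e₂ : L₂ ⧸ Subgroup.center L₂ ≃* Matrix.ProjectiveSpecialLinearGroup (Fin 3) F) : Nonempty (L₁ ≃* L₂) := by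
  obtain ⟨ψ₁, h1, h2⟩ := exists_hom (S2088.result hF) h₁.1 hc₁ he₁ e₁
  obtain ⟨ψ₂, h3, h4⟩ := exists_hom (S2088.result hF) h₂.1 hc₂ he₂ e₂
  exact ⟨(QuotientGroup.quotientKerEquivOfSurjective ψ₁ h1).symm.trans ((QuotientGroup.quotientMulEquivOfEq
    (Subgroup.ext fun x => (h2 x).trans (h4 x).symm)).trans (QuotientGroup.quotientKerEquivOfSurjective ψ₂ h3))⟩

end Cfsg.Agent.S5387
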