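import Cfsg.Statements.S5392
import Cfsg.Agent.Spor.Co0Simple

set_option autoImplicit false
open Cfsg

namespace Cfsg.Agent.S5392

open Cfsg.Lib.Spor Cfsg.Lib.Spor.CK Cfsg.Lib.Spor.Orb MulAction

/-- The Leech lattice modulo twice itself is a faithful irreducible module for the first Conway group: an automorphism of the rank-24 lattice built from the length-24 code that moves every lattice vector only by twice a lattice vector lies in the centre of the automorphism group (the centre consists of ±1, which act trivially there, so the kernel is exactly the centre), and an additive subgroup lying between twice the lattice and the lattice that is invariant under all lattice automorphisms is one of the two. -/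
theorem result : (∀ g : ↥Cfsg.Co0, (∀ v : ↥Cfsg.leechLattice, ∃ w : ↥Cfsg.leechLattice, ((g • v : ↥Cfsg.leechLattice) : Cfsg.GolayPt → ℤ) - (v : Cfsg.GolayPt → ℤ) = 2 • (w : Cfsg.GolayPt → ℤ)) → g ∈ Subgroup.center ↥Cfsg.Co0) ∧ ∀ M : AddSubgroup (Cfsg.GolayPt → ℤ), (∀ v ∈ Cfsg.leechLattice, (2 : ℤ) • v ∈ M) → M ≤ Cfsg.leechLattice → (∀ g : ↥Cfsg.Co0, ∀ v : ↥Cfsg.leechLattice, (v : Cfsg.GolayPt → ℤ) ∈ M → ((g • v : ↥Cfsg.leechLattice) : Cfsg.GolayPt → ℤ) ∈ M) → (∀ x ∈ M, ∃ w ∈ Cfsg.leechLattice, x = (2 : ℤ) • w) ∨ M = Cfsg.leechLattice := by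
  refine ⟨fun g hg => pmSub_eq_center ▸ fun x hx => ?_, fun M h2 hM hinv => ?_⟩
  · by_contra h
    rw [not_or] at h
    obtain ⟨w, hw⟩ := hg x
    have := leech_short_congr (g • x).2 x.2 (((nm_smul g x).trans hx).trans_le (by norm_num))
      (hx.trans_le (by norm_num)) ⟨w, w.2, hw⟩ (fun e => h.1 (Subtype.ext e.symm))
      (fun e => h.2 (Subtype.ext (by rw [AddSubgroup.coe_neg, e, neg_neg])))
    have h1 := this.2.1
    unfold nm at hx
    omega
  · by_cases h : ∀ x ∈ M, ∃ w ∈ leechLattice, x = (2 : ℤ) • w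
    · exact Or.inl h
    right
    push Not at h
    obtain ⟨x, hx, hx2⟩ := h
    obtain ⟨y, hy, hyn, z, hz, e⟩ := exists_short_congr (hM hx)
    have e' : x - y = (2 : ℤ) • z := by rw [e]; norm_cast
    have hyM : y ∈ M := by
      have := M.sub_mem hx (h2 z hz)
      rwa [← e', sub_sub_cancel] at this
    have key : ∀ a : leechLattice, (a : GolayPt → ℤ) ∈ M → nm a = 32 → M = leechLattice := by
      intro a ha hn
      refine le_antisymm hM ?_
      rw [← closure_minimal_eq, AddSubgroup.closure_le]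
      intro b hb
      obtain ⟨g, hg⟩ := trans_32 hn (y := ⟨b, hb.1⟩) hb.2
      have := hinv g a ha
      rwa [hg] at this
    have key2 : ∀ a b : leechLattice, (∃ g : Co0, g • (⟨y, hy⟩ : leechLattice) = a) →
        (∃ g : Co0, g • (⟨y, hy⟩ : leechLattice) = b) → nm (a - b) = 32 → M = leechLattice := by
      rintro _ _ ⟨g, rfl⟩ ⟨k, rfl⟩ hn
      exact key _ (M.sub_mem (hinv g _ hyM) (hinv k _ hyM)) hn
    rcases sqNorm_cases hy with h | h | h | h | h
    · exact absurd (by rw [← e', h, sub_zero]) (hx2 z hz)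
    · exact key ⟨y, hy⟩ hyM h
    · exact key2 vv (vv - u2) (trans_48 h nm_vv) (trans_48 h nm_vv_sub_u2)
        (by rw [sub_sub_cancel, nm_u2])
    · refine key2 (e8 none) (e8 none - lv p_77) (trans_64 h (sqNorm_e8 _)) (trans_64 h ?_)
        (by rw [sub_sub_cancel, lv_77.2.2])
      rw [nm_sub, lv_77.2.2, dt_of_ip (sh_e8 none) lv_77.1 (pk_e8 none) lv_77.2.1 (n := 16)
        (by decide +kernel), show nm (e8 none) = 64 from sqNorm_e8 _]
      rfl
    · omega

end Cfsg.Agent.S5392
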