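import Cfsg.Statements.S5395
import Cfsg.Agent.SporChar.LargeX
import Cfsg.Agent.Solv.ExtraSub

set_option autoImplicit false
open Cfsg

namespace Cfsg.Agent.S5395

open scoped Pointwise commutatorElement

open Subgroup Cfsg.Lib.Local Cfsg.Lib.Solv SemidirectProduct

/-- For a finite extraspecial 2-group E, an automorphism of E that induces the identity on E modulo its centre is inner (so these automorphisms form exactly the inner automorphism group, an elementary abelian 2-group of order |E|/2). -/
theorem result {E : Type*} [Group E] [Finite E] (hE : Cfsg.IsExtraspecial 2 E) (φ : E ≃* E) (hφ : ∀ x : E, φ x * x⁻¹ ∈ Subgroup.center E) : ∃ g : E, ∀ x : E, φ x = g * x * g⁻¹ := by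
  have hE' : IsExtraspecial 2 (⊤ : Subgroup E) := PG.isExtraspecial_of_mulEquiv topEquiv.symm hE
  obtain ⟨z, h, e⟩ := sympPair_of_isExtraspecial hE'
  have hc : center E = zpowers z := by
    rw [← e, top_inf_eq, coe_top, centralizer_univ]
  have : Finite (E ⋊[MonoidHom.id (MulAut E)] MulAut E) := Finite.of_equiv _ equivProd.symm
  let f : E →* E ⋊[MonoidHom.id (MulAut E)] MulAut E := inl
  have h' := h.map f fun q _ hq => inl_injective (hq.trans (map_one _).symm)
  have key : ∀ x : E, inr φ * f x * (inr φ)⁻¹ = f (φ x) := fun x => by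
    rw [← map_inv]; exact (inl_aut (φ := MonoidHom.id (MulAut E)) φ x).symm
  have hfix : φ z = z := by
    have : φ z ∈ zpowers z := by
      rw [← hc]; exact (MulEquivClass.apply_mem_center_iff φ).mpr (show z ∈ center E from hc ▸ mem_zpowers z)
    exact (h.mem_iff.mp this).resolve_left fun e => h.ne_one (by simpa using e)
  obtain ⟨_, ⟨g, -, rfl⟩, hg⟩ := h'.exists_inner (t := inr φ) (by
    rintro _ ⟨q, -, rfl⟩
    rw [key, ← map_inv, ← map_mul, ← MonoidHom.map_zpowers]
    exact ⟨_, hc ▸ hφ q, rfl⟩) (by
    rintro _ ⟨⟨c, -, rfl⟩, hcc⟩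
    have h1 : c ∈ zpowers z := by
      rw [← hc, mem_center_iff]
      intro y
      exact inl_injective (by rw [map_mul, map_mul]; exact hcc _ ⟨y, mem_top _, rfl⟩)
    have h2 : φ c = c := by
      rcases h.mem_iff.mp h1 with rfl | rfl
      exacts [map_one _, hfix]
    rw [← mul_inv_eq_iff_eq_mul, key, h2])
  refine ⟨g, fun x => inl_injective (φ := MonoidHom.id (MulAut E)) ?_⟩
  have := hg _ ⟨x, mem_top _, rfl⟩
  rw [key] at this
  rw [map_mul, map_mul, map_inv]; exact this

end Cfsg.Agent.S5395
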