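import Cfsg.Statements.S5396
import Cfsg.Agent.Solv.QExtStd

set_option autoImplicit false
open Cfsg

namespace Cfsg.Agent.S5396

open Cfsg.Lib.QExt Cfsg.Lib.Solv.PG Cfsg.Lib.Trans.ES in
theorem sSup_eq {E : Type*} [Group E] [Finite E] (h : IsPre 2 E) {n r : ℕ}
    (hn : Nat.card E = 2 ^ (2 * n + 1))
    (hr : (r = n + 1 ∧ defect E = 2 ^ (n + 1)) ∨ (r = n ∧ defect E = -2 ^ (n + 1))) :
    sSup {k : ℕ | ∃ A : Subgroup E, Cfsg.IsElementaryAbelian 2 A ∧ Nat.card A = 2 ^ k} = r := by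
  have key : ∀ A : Subgroup E, IsElementaryAbelian 2 A →
      ∃ M : Subgroup E, A ≤ M ∧ IsElementaryAbelian 2 M ∧ Nat.card M = 2 ^ r := by
    intro A hA
    obtain ⟨M, hAM, hM, hmax⟩ := exists_maximal_elementary_ge hA
    refine ⟨M, hAM, hM, ?_⟩
    have hpos : (0 : ℤ) < 2 ^ (n + 1) := by positivity
    rcases card_of_maximal_elementary h hn hM hmax with ⟨h1, h2⟩ | ⟨h1, h2⟩ <;>
      rcases hr with ⟨rfl, h3⟩ | ⟨rfl, h3⟩
    · exact h1
    · omega
    · omega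
    · exact h1
  apply IsGreatest.csSup_eq
  constructor
  · obtain ⟨M, -, hM, hc⟩ := key ⊥ (isElementaryAbelian_bot 2)
    exact ⟨M, hM, hc⟩
  · rintro k ⟨A, hA, hc⟩
    obtain ⟨M, hAM, -, hc'⟩ := key A hA
    have := Subgroup.card_le_of_le hAM
    rw [hc, hc'] at this
    exact (Nat.pow_le_pow_iff_right (by norm_num)).1 this

/-- For every n ≥ 1 there exist finite extraspecial 2-groups of order 2^(2n+1) whose 2-rank (the largest rank of an elementary abelian subgroup) is n, and ones whose 2-rank is n + 1 (so for each such order there are two non-isomorphic extraspecial 2-groups, told apart by their 2-rank). -/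
theorem result (n : ℕ) (hn : 1 ≤ n) : ∀ r ∈ ({n, n + 1} : Set ℕ), ∃ (E : Type) (_ : Group E) (_ : Finite E), Cfsg.IsExtraspecial 2 E ∧ Nat.card E = 2 ^ (2 * n + 1) ∧ sSup {k : ℕ | ∃ A : Subgroup E, Cfsg.IsElementaryAbelian 2 A ∧ Nat.card A = 2 ^ k} = r := by
  obtain ⟨m, rfl⟩ : ∃ m, n = m + 1 := ⟨n - 1, by omega⟩
  rintro r (rfl | rfl)
  · exact ⟨Lib.QExt.QE (Lib.QExt.bMinus m), inferInstance, inferInstance,
      (Lib.QExt.nd_bMinus m).isExtraspecial, Lib.QExt.card_minus m,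
      sSup_eq (Lib.QExt.nd_bMinus m).isPre (Lib.QExt.card_minus m)
        (Or.inr ⟨rfl, Lib.QExt.defect_minus m⟩)⟩
  · exact ⟨Lib.QExt.QE (Lib.QExt.bPlus (m + 1)), inferInstance, inferInstance,
      (Lib.QExt.nd_bPlus _).isExtraspecial, Lib.QExt.card_plus _,
      sSup_eq (Lib.QExt.nd_bPlus _).isPre (Lib.QExt.card_plus _)
        (Or.inl ⟨rfl, Lib.QExt.defect_plus _⟩)⟩

end Cfsg.Agent.S5396
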