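import Cfsg.Statements.S5397
import Cfsg.Agent.SporChar.Co1Loc

set_option autoImplicit false
open Cfsg Cfsg.Lib.Spor Cfsg.Lib.Spor.CK Cfsg.Lib.SporChar.Co Cfsg.Lib.Local Subgroup

namespace Cfsg.Agent.S5397

/-- Let G be a finite group of Conway type (involution z with generalized Fitting subgroup Q of its centralizer C extraspecial of order 2^9, C/Q the commutator subgroup of the isometry group of the hyperbolic quadratic form in dimension 8 over the field with two elements, z not weakly closed in Q). Then G has an elementary abelian subgroup A of order 2^11 containing z whose normalizer N is a split extension of A with N/A isomorphic to the automorphism group of the length-24 code built from the squares modulo 23, and N has exactly two orbits on the non-identity elements of A. -/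
theorem result {G : Type*} [Group G] [Finite G] (z : G) (hz : orderOf z = 2) (Q : Subgroup (Subgroup.centralizer ({z} : Set G))) [Q.Normal] (hF : Cfsg.generalizedFittingSubgroup (Subgroup.centralizer ({z} : Set G)) = Q) (hQ : Cfsg.IsExtraspecial 2 Q) (hcard : Nat.card Q = 2 ^ 9) (e : (Subgroup.centralizer ({z} : Set G)) ⧸ Q ≃* Cfsg.Omega (ZMod 2) (Cfsg.quadFormPlus 4 (ZMod 2))) (hnwc : ∃ g : G, (∃ hq : g * z * g⁻¹ ∈ Subgroup.centralizer ({z} : Set G), (⟨g * z * g⁻¹, hq⟩ : Subgroup.centralizer ({z} : Set G)) ∈ Q) ∧ g * z * g⁻¹ ≠ z) : ∃ A : Subgroup G, Cfsg.IsElementaryAbelian 2 A ∧ Nat.card A = 2 ^ 11 ∧ z ∈ A ∧ ∃ _ : (A.subgroupOf (Subgroup.normalizer (A : Set G))).Normal, Nonempty (↥(Subgroup.normalizer (A : Set G)) ⧸ A.subgroupOf (Subgroup.normalizer (A : Set G)) ≃* ↥Cfsg.M24) ∧ (∃ K : Subgroup ↥(Subgroup.normalizer (A : Set G)), (A.subgroupOf (Subgroup.normalizer (A : Set G))).IsComplement' K) ∧ ∃ a ∈ A, ∃ b ∈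 A, a ≠ 1 ∧ b ≠ 1 ∧ (∀ n ∈ Subgroup.normalizer (A : Set G), n * a * n⁻¹ ≠ b) ∧ ∀ c ∈ A, c ≠ 1 → ∃ n ∈ Subgroup.normalizer (A : Set G), n * c * n⁻¹ = a ∨ n * c * n⁻¹ = b := by
  obtain ⟨F, h, rfl, g, hg⟩ := exists_typ z hz Q hF hQ hcard e hnwc
  obtain ⟨e, ez⟩ := h.exists_equiv hg
  let φ : Co0 →* G := e.toMonoidHom.comp toCo1
  have hφ : ∀ x, φ x = e (toCo1 x) := fun _ => rfl
  have hN : ∀ g ∈ monoSub, φ g ∈ normalizer (A0.map φ : Set G) := fun g hg =>
    mem_normalizer_fintype (by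
      rintro _ ⟨a, ha, rfl⟩
      exact ⟨_, conj_mem_A0 hg ha, by simp only [map_mul, map_inv]⟩)
  let ρ : M24 →* normalizer (A0.map φ : Set G) :=
    (φ.comp permCo0).codRestrict _ fun σ => hN _ (perm_mem σ)
  have k1 : ∀ σ, φ (permCo0 σ) ∈ A0.map φ → σ = 1 := by
    rintro σ ⟨a, ha, c⟩
    refine perm_eq_one_of_mem_A0 ?_
    rcases toCo1_eq_iff.1 (e.injective c).symm with c | c <;> rw [c]
    exacts [ha, mul_mem neg_mem_A0 ha]
  have hc : ((A0.map φ).subgroupOf (normalizer (A0.map φ : Set G))).IsComplement' ρ.range := by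
    refine isComplement'_of_disjoint_and_mul_eq_univ (disjoint_def.2 ?_) (Set.eq_univ_of_forall ?_)
    · rintro _ a ⟨σ, rfl⟩
      rw [k1 σ a, map_one]
    · rintro ⟨x, hx⟩
      obtain ⟨y, rfl⟩ := e.surjective x
      obtain ⟨y, rfl⟩ := toCo1_surjective y
      obtain ⟨a, ha, c⟩ := (mem_normalizer_iff.1 hx (φ u0)).1 ⟨_, sg_mem _, rfl⟩
      obtain ⟨σ, d, rfl⟩ := mem_monoSub.1 (mono_of_norm (g := y) ⟨a, ha, e.injective (by
        simp only [map_mul, map_inv]; exact c)⟩)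
      exact ⟨⟨φ (sg d), hN _ (A0_le (sg_mem d))⟩, ⟨_, sg_mem d, rfl⟩, ρ σ, ⟨σ, rfl⟩,
        Subtype.ext ((φ.map_mul _ _).symm.trans (congrArg φ (mono_eq σ d).symm))⟩
  refine ⟨A0.map φ, ⟨⟨⟨?_⟩⟩, ?_⟩, ?_, ⟨F0.z, z0_mem_A0, ez⟩, inferInstance,
    ⟨hc.symm.QuotientMulEquiv.trans (MonoidHom.ofInjective ((injective_iff_map_eq_one ρ).2
      fun σ c => k1 σ (by rw [show φ (permCo0 σ) = 1 from congrArg Subtype.val c]; exact one_mem _))).symm⟩,
    ⟨_, hc⟩, e F1.z, ⟨F0.z, z0_mem_A0, rfl⟩, φ u0, ⟨_, sg_mem _, rfl⟩,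
    ne_one_of_orderOf_two (by rw [e.orderOf_eq, F1.orderOf_z]),
    ne_one_of_orderOf_two (by rw [hφ, e.orderOf_eq, orderOf_u1]), fun n _ c => not_conj_u1 ?_, ?_⟩
  · rintro ⟨_, a, ha, rfl⟩ ⟨_, b, hb, rfl⟩
    exact Subtype.ext (by simp only [coe_mul, ← map_mul, A0_comm ha hb])
  · rintro _ ⟨a, ha, rfl⟩
    rw [pow_two, ← map_mul, A0_sq ha, map_one]
  · rw [← map_map, card_map_of_injective e.injective, card_A1]
  · simpa [hφ] using e.symm.toMonoidHom.map_isConj (isConj_iff.2 ⟨n, c⟩)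
  · rintro _ ⟨_, ⟨c, rfl⟩, rfl⟩ a
    obtain ⟨σ, s⟩ := exists_perm_conj (c := c) fun c => a (by rw [hφ, c, map_one])
    refine ⟨_, hN _ (perm_mem σ), ?_⟩
    rw [← map_inv, ← map_mul, ← map_mul]
    exact s.imp (congrArg e) (congrArg φ)

end Cfsg.Agent.S5397
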