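import Cfsg.Statements.S5400
import Cfsg.Agent.Spor.Fi24Inv
-- import your own Cfsg.Agent.* helpers here

set_option autoImplicit false
open Cfsg

namespace Cfsg.Agent.S5400

/-- Let G be a finite group with trivial centre generated by a conjugation-invariant set D of 3-transpositions on which it acts primitively, such that for some d in D the subgroup generated by the members of D other than d commuting with d has central largest normal 2- and 3-subgroups, and suppose G with D is of type M(24). Then G has exactly 4 conjugacy classes of involutions: every involution is a product of m distinct pairwise commuting members of D for some m between 1 and 4; for each such m these products form one non-empty conjugacy class; and the value of m is determined by the involution. -/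
theorem result {G : Type*} [Group G] [Finite G] {D : Set G} (hD : Cfsg.IsThreeTranspositionGroup D) (hprim : Cfsg.IsPrimitiveUnderConj D) (d : G) (hd : d ∈ D) (h3 : Cfsg.pCore 3 ↥(Subgroup.closure {y : G | y ∈ D ∧ y ≠ d ∧ Commute d y}) ≤ Subgroup.center ↥(Subgroup.closure {y : G | y ∈ D ∧ y ≠ d ∧ Commute d y})) (h2 : Cfsg.pCore 2 ↥(Subgroup.closure {y : G | y ∈ D ∧ y ≠ d ∧ Commute d y}) ≤ Subgroup.center ↥(Subgroup.closure {y : G | y ∈ D ∧ y ≠ d ∧ Commute d y})) (ht : Cfsg.IsOfTypeM24 G D) : (∀ x : G, orderOf x = 2 → ∃ m : ℕ, 1 ≤ m ∧ m ≤ 4 ∧ (∃ l : List G, l.Nodup ∧ l.length = m ∧ (∀ a ∈ l, a ∈ D) ∧ (∀ a ∈ l, ∀ b ∈ l, Commute a b) ∧ l.prod = x)) ∧ (∀ m : ℕ, 1 ≤ m → m ≤ 4 → (∃ x : G, orderOf x = 2 ∧ (∃ l : List G, l.Nodup ∧ l.length = m ∧ (∀ a ∈ l, a ∈ D) ∧ (∀ a ∈ l, ∀ b ∈ l, Commute a b) ∧ l.prod = x)) ∧ ∀ x y : G, (∃ l : List G, l.Nodup ∧ l.length = m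 ∧ (∀ a ∈ l, a ∈ D) ∧ (∀ a ∈ l, ∀ b ∈ l, Commute a b) ∧ l.prod = x) → (∃ l : List G, l.Nodup ∧ l.length = m ∧ (∀ a ∈ l, a ∈ D) ∧ (∀ a ∈ l, ∀ b ∈ l, Commute a b) ∧ l.prod = y) → IsConj x y) ∧ ∀ (m m' : ℕ) (x : G), 1 ≤ m → m ≤ 4 → 1 ≤ m' → m' ≤ 4 → (∃ l : List G, l.Nodup ∧ l.length = m ∧ (∀ a ∈ l, a ∈ D) ∧ (∀ a ∈ l, ∀ b ∈ l, Commute a b) ∧ l.prod = x) → (∃ l : List G, l.Nodup ∧ l.length = m' ∧ (∀ a ∈ l, a ∈ D) ∧ (∀ a ∈ l, ∀ b ∈ l, Commute a b) ∧ l.prod = x) → m = m' := by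
  
  open Cfsg.Lib.Spor Cfsg.Lib.Spor.Fm Cfsg.Lib.Spor.F24 in
  obtain ⟨⟨M⟩, -⟩ := setup hD hprim ht
  have k : ∀ {m : ℕ} {l : List G} {x : G}, CT D m l ∧ l.prod = x → ∃ l : List G, l.Nodup ∧ l.length = m ∧
      (∀ a ∈ l, a ∈ D) ∧ (∀ a ∈ l, ∀ b ∈ l, Commute a b) ∧ l.prod = x :=
    fun h => ⟨_, h.1.1, h.1.2.1, h.1.2.2.1, h.1.2.2.2, h.2⟩
  refine ⟨fun x hx => ?_, fun m h1 h4 => ⟨?_, ?_⟩, ?_⟩
  · obtain ⟨m, h1, h4, l, h⟩ := inv_ct hD hprim ht hx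
    exact ⟨m, h1, h4, k h⟩
  · interval_cases m
    exacts [⟨d, hD.1.1 d hd, k ⟨CT.one hd, by simp⟩⟩, ⟨_, M.ord_el Nat.prime_two (by decide +kernel), k (ct2 M)⟩,
      ⟨_, M.ord_el Nat.prime_two (by decide +kernel), k (ct3 M)⟩,
      ⟨_, M.ord_el Nat.prime_two (by decide +kernel), k (ct4 M)⟩]
  · rintro _ _ ⟨l, a1, a2, a3, a4, rfl⟩ ⟨l', b1, b2, b3, b4, rfl⟩
    exact (tt M h1 h4).isConj ⟨a1, a2, a3, a4⟩ ⟨b1, b2, b3, b4⟩
  · rintro m m' x h1 h2 h3 h4 ⟨l, a1, a2, a3, a4, rfl⟩ ⟨l', b1, b2, b3, b4, e⟩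
    rcases h2.eq_or_lt with rfl | h2 <;> rcases h4.eq_or_lt with rfl | h4
    · rfl
    · exact absurd e (ne_four M h3 (by omega) ⟨b1, b2, b3, b4⟩ ⟨a1, a2, a3, a4⟩)
    · exact absurd e.symm (ne_four M h1 (by omega) ⟨a1, a2, a3, a4⟩ ⟨b1, b2, b3, b4⟩)
    · exact (uf M h1 (by omega)).eq (uf M h3 (by omega)) ⟨a1, a2, a3, a4⟩ ⟨b1, b2, b3, b4⟩ e.symm

end Cfsg.Agent.S5400
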