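import Cfsg.Statements.S5402
import Cfsg.Agent.SporChar.FiT23G
import Cfsg.Agent.Known.Fi23Type

set_option autoImplicit false
open Cfsg

namespace Cfsg.Agent.S5402

/-- Let G be a finite group with an involution d whose centralizer C is quasisimple, such that C modulo the subgroup generated by d is of type M(22) with respect to some conjugacy class of 3-transpositions generating it, and also has an involution whose own centralizer is quasisimple with quotient by it isomorphic to the projective special unitary group of dimension 6 over the field with four elements and which is not weakly closed in its centralizer; and suppose some conjugate of d other than d commutes with d. Then the conjugacy class of d is a class of 3-transpositions generating G, and G with this class is of type M(23). -/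
theorem result {G : Type*} [Group G] [Finite G] (d : G) (hd : orderOf d = 2) (hq : Cfsg.IsQuasisimple (Subgroup.centralizer ({d} : Set G))) [((Subgroup.zpowers d).subgroupOf (Subgroup.centralizer ({d} : Set G))).Normal] (htype : ∃ E : Set ((Subgroup.centralizer ({d} : Set G)) ⧸ (Subgroup.zpowers d).subgroupOf (Subgroup.centralizer ({d} : Set G))), Cfsg.IsThreeTranspositionClass E ∧ Cfsg.IsOfTypeM22 _ E) (hinvol : ∃ d' : (Subgroup.centralizer ({d} : Set G)) ⧸ (Subgroup.zpowers d).subgroupOf (Subgroup.centralizer ({d} : Set G)), orderOf d' = 2 ∧ Cfsg.IsQuasisimple (Subgroup.centralizer ({d'} : Set _)) ∧ (∃ (K : Type) (_ : Field K) (_ : Fintype K), Fintype.card K = 4 ∧ ∃ _ : ((Subgroup.zpowers d').subgroupOf (Subgroup.centralizer ({d'} : Set _))).Normal, Nonempty ((Subgroup.centralizer ({d'} : Set _)) ⧸ (Subgroup.zpowers d').subgroupOf (Subgroup.centralizer ({d'} : Set _)) ≃* Cfsg.PSU 6 K 2)) ∧ ∃ g, g * d' * g⁻¹ ∈ Subgroup.centralizer ({d'} : Set _) ∧ g * d' * g⁻¹ ≠ d') (hnwc :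 ∃ g : G, g * d * g⁻¹ ∈ Subgroup.centralizer ({d} : Set G) ∧ g * d * g⁻¹ ≠ d) : Cfsg.IsThreeTranspositionClass (conjugatesOf d) ∧ Cfsg.IsOfTypeM23 G (conjugatesOf d) := by
  obtain ⟨d', h1, h2, ⟨K, _, _, hK, _, ⟨e⟩⟩, h3⟩ := hinvol
  obtain ⟨ι⟩ := Cfsg.Lib.Spor.FT.nonempty_psu_inn hK
  obtain ⟨_, f, _, x0, _, _, _, M⟩ := (Cfsg.Lib.Spor.FT.pre_of_equiv h1 h2.1 (e.trans ι)).exists_m22 h3
  obtain ⟨h4, g, hg⟩ := M.eq23 (Cfsg.Lib.Spor.FT.pre_of_equiv hd hq.1 f) hnwc
  refine ⟨h4, ?_⟩
  have h5 := hg Cfsg.Spor.Fi23.Gen.a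
  rw [show PresentedGroup.of Cfsg.Spor.Fi23.Gen.a = Cfsg.Lib.Spor.Fi23P.g0 1 from
    (Cfsg.Lib.Spor.Fi23P.ok.g0_lt Cfsg.Spor.Fi23.Gen.a).symm] at h5
  have h6 := IsConj.trans h5 (g.toMonoidHom.map_isConj Cfsg.Lib.Known.f23_a).symm
  convert Cfsg.Lib.Known.typeM23_congr g Cfsg.Lib.Known.f23_type using 1
  rw [Cfsg.Lib.Known.image_conjugatesOf]
  exact Set.ext fun x => ⟨IsConj.trans h6.symm, IsConj.trans h6⟩

end Cfsg.Agent.S5402
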