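import Cfsg.Statements.S5413
import Cfsg.Agent.SporChar.Fix5A

set_option autoImplicit false
open Cfsg Subgroup Cfsg.Lib.SporChar Cfsg.Lib.SporChar.Fx Cfsg.Lib.Spor

namespace Cfsg.Agent.S5413

/-- Let G be a finite group of Monster type at the involution z with Q the extraspecial normal subgroup of order 2^25 of C = C_G(z) (so C/Q is identified with the first Conway group with Q modulo its centre the Leech lattice modulo 2, and z is not weakly closed in Q). Let s be a conjugate of z in Q other than z and let B be a Sylow 5-subgroup of the joint centralizer of z and s. Then the centralizer of B modulo B is a group of Harada–Norton type (an involution whose centralizer D has generalized Fitting subgroup R extraspecial of order 2^9 with D/R the wreath product of the alternating group of degree 5 by a group of order 2, the involution not weakly closed in R). -/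
theorem result {G : Type*} [Group G] [Finite G] (z : G) (Q : Subgroup (Subgroup.centralizer ({z} : Set G))) [Q.Normal] (hM : Cfsg.IsOfMonsterType z Q) (s : G) (hsQ : ∃ hsc : s ∈ Subgroup.centralizer ({z} : Set G), (⟨s, hsc⟩ : Subgroup.centralizer ({z} : Set G)) ∈ Q) (hs : IsConj z s) (hs1 : s ≠ z) (B : Subgroup G) (hB : B ≤ Subgroup.centralizer ({z, s} : Set G)) (hBp : Nat.card B = 5 ^ (Nat.card ↥(Subgroup.centralizer ({z, s} : Set G))).factorization 5) [hn : (B.subgroupOf (Subgroup.centralizer (B : Set G))).Normal] : Cfsg.IsOfHaradaNortonType (↥(Subgroup.centralizer (B : Set G)) ⧸ B.subgroupOf (Subgroup.centralizer (B : Set G))) := by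
  obtain ⟨Q', π, r, R, h, hp, hr⟩ := exists_monPair hM hsQ hs hs1
  rw [h.sylow_card hr (by decide), show Nat.factorization 244823040 5 = 1 by decide +kernel] at hBp
  obtain ⟨b, hb, ho⟩ := exists_gen_of_card_prime Nat.prime_five hBp
  have hbL := hB (hb.le (mem_zpowers b))
  obtain ⟨σ, h1, h2⟩ := h.exists_twist_perm hr hbL Nat.prime_five (by decide) ho
  obtain ⟨k, hk, e⟩ := MP.M24_order_five σ.2 h1
  obtain ⟨π', r', h', hr', hπ⟩ := h2 k hk s5A e
  obtain ⟨φ, D⟩ := cent5A
  obtain ⟨z', Q', hQ, a1, ⟨ν, a2, a3⟩, -⟩ := h'.descent_quot hp hB hb ho hπ D basis5A (w := 4) rfl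
  exact ⟨z', Q', hQ, a1, ⟨QuotientGroup.liftEquiv Q' a2 a3⟩⟩

end Cfsg.Agent.S5413
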