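import Cfsg.Statements.S5414
import Cfsg.Agent.SporChar.Fix3B

set_option autoImplicit false
open Cfsg Subgroup Cfsg.Lib.SporChar Cfsg.Lib.SporChar.Fx Cfsg.Lib.Spor

namespace Cfsg.Agent.S5414

/-- Let G be a finite group of Monster type at the involution z with Q the extraspecial normal subgroup of order 2^25 of C = C_G(z) (so C/Q is identified with the first Conway group with Q modulo its centre the Leech lattice modulo 2, and z is not weakly closed in Q). Let s be a conjugate of z in Q other than z and let Y be a subgroup of order 3 of the joint centralizer L of z and s that is not 3-central in L (Y lies in the centre of no Sylow 3-subgroup of L). Then the centralizer of Y modulo Y is a group of Thompson type (an involution whose centralizer D has generalized Fitting subgroup R extraspecial of order 2^9 with D/R the alternating group of degree 9, the involution not weakly closed in R). -/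
theorem result {G : Type*} [Group G] [Finite G] (z : G) (Q : Subgroup (Subgroup.centralizer ({z} : Set G))) [Q.Normal] (hM : Cfsg.IsOfMonsterType z Q) (s : G) (hsQ : ∃ hsc : s ∈ Subgroup.centralizer ({z} : Set G), (⟨s, hsc⟩ : Subgroup.centralizer ({z} : Set G)) ∈ Q) (hs : IsConj z s) (hs1 : s ≠ z) (Y : Subgroup G) (hY : Y ≤ Subgroup.centralizer ({z, s} : Set G)) (hY3 : Nat.card Y = 3) (hnc : ∀ P : Sylow 3 ↥(Subgroup.centralizer ({z, s} : Set G)), ¬ Y.subgroupOf (Subgroup.centralizer ({z, s} : Set G)) ≤ (Subgroup.center ↥(P : Subgroup ↥(Subgroup.centralizer ({z, s} : Set G)))).map (P : Subgroup ↥(Subgroup.centralizer ({z, s} : Set G))).subtype) [hn : (Y.subgroupOf (Subgroup.centralizer (Y : Set G))).Normal] : Cfsg.IsOfThompsonType (↥(Subgroup.centralizer (Y : Set G)) ⧸ Y.subgroupOf (Subgroup.centralizer (Y : Set G))) := by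
  obtain ⟨Q', π, r, R, h, hp, hr⟩ := exists_monPair hM hsQ hs hs1
  obtain ⟨b, hb, ho⟩ := exists_gen_of_card_prime Nat.prime_three hY3
  have hbL := hY (hb.le (mem_zpowers b))
  obtain ⟨σ, h1, h2⟩ := h.exists_twist_perm hr hbL Nat.prime_three (by decide) ho
  obtain ⟨k, hk, e | e⟩ := MP.M24_order_three σ.2 h1
  · obtain ⟨π', r', h', hr', hπ⟩ := h2 k hk ⟨_, MP.inSub_r3A.2⟩ e
    obtain ⟨θ, a1, a2, a3⟩ := h'.exists_theta hr'
    obtain ⟨P, hP⟩ := exists_sylow_central (p := 3) (y := ⟨b, hbL⟩) a1 a2 (by decide)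
      ((orderOf_mk _ _).trans ho) (by
        rw [a3 _ _ hπ, card_cent_M24, MP.card_M24]
        exact MP.card_cent_r3A ▸ (by decide +kernel))
    refine absurd (le_trans ?_ hP) (hnc P)
    rintro y hy
    obtain ⟨n, hn⟩ := hb.ge hy
    exact ⟨n, Subtype.ext (by simpa using hn)⟩
  · obtain ⟨π', r', h', hr', hπ⟩ := h2 k hk s3B e
    obtain ⟨φ, D⟩ := cent3B
    obtain ⟨z', Q', hQ, a1, ⟨ν, a2, a3⟩, -⟩ := h'.descent_quot hp hY hb ho hπ D basis3B (w := 4) rfl
    exact ⟨z', Q', hQ, a1, ⟨QuotientGroup.liftEquiv Q' a2 a3⟩⟩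

end Cfsg.Agent.S5414
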