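import Cfsg.Statements.S5415
import Cfsg.Agent.SporChar.Fix3A

set_option autoImplicit false
open Cfsg Subgroup Cfsg.Lib.SporChar Cfsg.Lib.SporChar.Fx Cfsg.Lib.Spor

namespace Cfsg.Agent.S5415

/-- Let G be a finite group of Monster type at the involution z with Q the extraspecial normal subgroup of order 2^25 of C = C_G(z) (so C/Q is identified with the first Conway group with Q modulo its centre the Leech lattice modulo 2, and z is not weakly closed in Q). Let s be a conjugate of z in Q other than z and let Y be a subgroup of order 3 of the joint centralizer L of z and s that is 3-central in L (Y lies in the centre of some Sylow 3-subgroup of L). Then the centralizer of Y modulo Y is a group of large Fischer type (an involution whose centralizer D has generalized Fitting subgroup R extraspecial of order 2^13 and normal subgroups R ≤ N ≤ M with N/R of order 3, M/N the projective special unitary group of dimension 4 over the field with nine elements and M of index 2 in D; the involution not weakly closed in R).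 -/
theorem result {G : Type*} [Group G] [Finite G] (z : G) (Q : Subgroup (Subgroup.centralizer ({z} : Set G))) [Q.Normal] (hM : Cfsg.IsOfMonsterType z Q) (s : G) (hsQ : ∃ hsc : s ∈ Subgroup.centralizer ({z} : Set G), (⟨s, hsc⟩ : Subgroup.centralizer ({z} : Set G)) ∈ Q) (hs : IsConj z s) (hs1 : s ≠ z) (Y : Subgroup G) (hY : Y ≤ Subgroup.centralizer ({z, s} : Set G)) (hY3 : Nat.card Y = 3) (hc : ∃ P : Sylow 3 ↥(Subgroup.centralizer ({z, s} : Set G)), Y.subgroupOf (Subgroup.centralizer ({z, s} : Set G)) ≤ (Subgroup.center ↥(P : Subgroup ↥(Subgroup.centralizer ({z, s} : Set G)))).map (P : Subgroup ↥(Subgroup.centralizer ({z, s} : Set G))).subtype) [hn : (Y.subgroupOf (Subgroup.centralizer (Y : Set G))).Normal] : Cfsg.IsOfLargeFischerType (↥(Subgroup.centralizer (Y : Set G)) ⧸ Y.subgroupOf (Subgroup.centralizer (Y : Set G))) := by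
  obtain ⟨Q', π, r, R, h, hp, hr⟩ := exists_monPair hM hsQ hs hs1
  obtain ⟨b, hb, ho⟩ := exists_gen_of_card_prime Nat.prime_three hY3
  have hbL := hY (hb.le (mem_zpowers b))
  obtain ⟨σ, h1, h2⟩ := h.exists_twist_perm hr hbL Nat.prime_three (by decide) ho
  obtain ⟨k, hk, e | e⟩ := MP.M24_order_three σ.2 h1
  swap
  · obtain ⟨π', r', h', hr', hπ⟩ := h2 k hk ⟨_, MP.inSub_r3B.2⟩ e
    obtain ⟨θ, a1, a2, a3⟩ := h'.exists_theta hr'
    obtain ⟨P, hP⟩ := hc
    have := dvd_card_cent_of_central (y := ⟨b, hbL⟩) a1 a2 (by decide) P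
      (hP (hb.le (mem_zpowers b)))
    rw [a3 _ _ hπ, card_cent_M24, MP.card_M24] at this
    exact absurd (MP.card_cent_r3B ▸ this) (by decide +kernel)
  obtain ⟨π', r', h', hr', hπ⟩ := h2 k hk s3A e
  obtain ⟨D, ψ, b1, b2⟩ := cent3A
  obtain ⟨z', Q', hQ, a1, ⟨ν, a2, rfl⟩, -⟩ := h'.descent_quot hp hY hb ho hπ D basis3A (w := 6) rfl
  have b3 : Function.Surjective (ψ.comp ν) := b1.comp a2
  set U := (PK.gen U4.psU).subgroupOf (PK.gen ps3A)
  have i := subgroupOfEquivOfLe U_le
  have c1 : (U.comap (ψ.comp ν)).index = 2 := by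
    have := U.card_mul_index
    rw [Nat.card_congr i.toEquiv, U4.card_U, card_ps3A] at this
    rw [index_comap_of_surjective _ b3]
    omega
  obtain ⟨j⟩ := U4.nonempty_equiv_PSU Cfsg.Lib.Class.card_GF9
  refine ⟨z', _, hQ, a1, (ψ.comp ν).ker, U.comap (ψ.comp ν), inferInstance,
    normal_of_index_eq_two c1, fun x hx => ?_, ker_le_comap _ _, ?_, ⟨_, _, _, Cfsg.Lib.Class.card_GF9,
      ⟨((QuotientGroup.liftEquiv _ ((ψ.comp ν).subgroupComap_surjective_of_surjective U b3)
        ?_).trans i).trans j⟩⟩, c1⟩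
  · rw [MonoidHom.mem_ker, MonoidHom.comp_apply, MonoidHom.mem_ker.mp hx, map_one]
  · have d1 := (ψ.comp ν).ker.card_mul_index
    have d2 := ν.ker.card_mul_index
    have d3 := ψ.ker.card_mul_index
    rw [index_ker, MonoidHom.range_eq_top.mpr b3, card_top, card_ps3A] at d1
    rw [index_ker, MonoidHom.range_eq_top.mpr b1, card_top, card_ps3A, b2] at d3
    rw [index_ker, MonoidHom.range_eq_top.mpr a2, card_top, ← d3] at d2
    omega
  · ext x
    exact ⟨fun h => Subtype.ext h, fun h => congrArg Subtype.val h⟩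

end Cfsg.Agent.S5415
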