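import Cfsg.Statements.S5416
import Cfsg.Agent.SporChar.Fix7A

set_option autoImplicit false
open Cfsg Subgroup Cfsg.Lib.SporChar Cfsg.Lib.SporChar.Fx Cfsg.Lib.Spor

namespace Cfsg.Agent.S5416

/-- Let G be a finite group of Monster type at the involution z with Q the extraspecial normal subgroup of order 2^25 of C = C_G(z) (so C/Q is identified with the first Conway group with Q modulo its centre the Leech lattice modulo 2, and z is not weakly closed in Q). Let s be a conjugate of z in Q other than z and let B be a Sylow 7-subgroup of the joint centralizer of z and s. Then the centralizer of B modulo B is a group of Held type (an involution whose centralizer D has generalized Fitting subgroup R extraspecial of order 2^7 with D/R isomorphic to SL(3, 2), exactly 29 of its conjugates lying in R, and the involution not weakly closed in R). -/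
theorem result {G : Type*} [Group G] [Finite G] (z : G) (Q : Subgroup (Subgroup.centralizer ({z} : Set G))) [Q.Normal] (hM : Cfsg.IsOfMonsterType z Q) (s : G) (hsQ : ∃ hsc : s ∈ Subgroup.centralizer ({z} : Set G), (⟨s, hsc⟩ : Subgroup.centralizer ({z} : Set G)) ∈ Q) (hs : IsConj z s) (hs1 : s ≠ z) (B : Subgroup G) (hB : B ≤ Subgroup.centralizer ({z, s} : Set G)) (hBp : Nat.card B = 7 ^ (Nat.card ↥(Subgroup.centralizer ({z, s} : Set G))).factorization 7) [hn : (B.subgroupOf (Subgroup.centralizer (B : Set G))).Normal] : Cfsg.IsOfHeldType (↥(Subgroup.centralizer (B : Set G)) ⧸ B.subgroupOf (Subgroup.centralizer (B : Set G))) := by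
  obtain ⟨Q', π, r, R, h, hp, hr⟩ := exists_monPair hM hsQ hs hs1
  rw [h.sylow_card hr (by decide), show Nat.factorization 244823040 7 = 1 by decide +kernel] at hBp
  obtain ⟨b, hb, ho⟩ := exists_gen_of_card_prime Nat.prime_seven hBp
  have hbL := hB (hb.le (mem_zpowers b))
  obtain ⟨σ, h1, h2⟩ := h.exists_twist_perm hr hbL Nat.prime_seven (by decide) ho
  obtain ⟨π', r', h', hπ⟩ : ∃ π' r', MonData z Q' π' r' ∧
      π' ⟨b, (mem_cent_pair.mp hbL).1⟩ = pCo (permHom s7A) := by
    obtain ⟨k, hk, e | e⟩ := MP.M24_order_seven σ.2 h1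
    · obtain ⟨π', r', h', -, hπ⟩ := h2 k hk s7A e
      exact ⟨_, _, h', hπ⟩
    · obtain ⟨π', r', h', -, hπ⟩ := h2 k hk s7B e
      refine ⟨_, _, h'.twist (CK.el A7)⁻¹, ?_⟩
      change (pCo _)⁻¹ * π' _ * (pCo _)⁻¹⁻¹ = _
      rw [hπ, inv_inv, ← map_inv, inv_inv, ← map_mul, conj7, ← map_mul, mul_inv_cancel_right]
  obtain ⟨φ, D⟩ := cent7A
  obtain ⟨z', Q'', hQ, a1, ⟨ν, a2, a3⟩, a4⟩ := h'.descent_quot hp hB hb ho hπ D basis7A (w := 3) rfl
  exact ⟨z', Q'', hQ, a1, ⟨QuotientGroup.liftEquiv Q'' a2 a3⟩, by rw [a4, card_four7A]⟩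

end Cfsg.Agent.S5416
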