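import Cfsg.Statements.S5423
import Cfsg.Agent.Class.AffLX
import Cfsg.Agent.Solv.ElemAb

set_option autoImplicit false
open Cfsg

namespace Cfsg.Agent.S5423

/-- Let G be a finite group that is the split extension of an elementary abelian normal subgroup U of order 2^(n+1), n ≥ 1, by its full automorphism group: U has a complement M in G whose conjugation action on U is faithful and realizes every automorphism of U. Let Z be a subgroup of U of order 2 and Q the largest normal 2-subgroup of the centralizer C of Z. Then Q is extraspecial of order 2^(2n+1) with an elementary abelian subgroup of order 2^(n+1) (plus type), Q is a large extraspecial 2-subgroup of G, and C is the split extension of Q by the general linear group of degree n over the field with two elements. -/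
theorem result {G : Type*} [Group G] [Finite G] (n : ℕ) (hn : 1 ≤ n) (U M : Subgroup G) [U.Normal] (hU : Cfsg.IsElementaryAbelian 2 U) (hUcard : Nat.card ↥U = 2 ^ (n + 1)) (hUM : U ⊓ M = ⊥) (hUM' : U ⊔ M = ⊤) (hfaith : ∀ m ∈ M, (∀ u ∈ U, m * u * m⁻¹ = u) → m = 1) (hfull : ∀ φ : ↥U ≃* ↥U, ∃ m ∈ M, ∀ u : ↥U, ((φ u : ↥U) : G) = m * u * m⁻¹) (Z : Subgroup G) (hZU : Z ≤ U) (hZ : Nat.card ↥Z = 2) (Q : Subgroup G) (hQ : Q = (Cfsg.pCore 2 ↥(Subgroup.centralizer (Z : Set G))).map (Subgroup.centralizer (Z : Set G)).subtype) : Cfsg.IsExtraspecial 2 ↥Q ∧ Nat.card ↥Q = 2 ^ (2 * n + 1) ∧ (∃ E : Subgroup G, E ≤ Q ∧ Cfsg.IsElementaryAbelian 2 E ∧ Nat.card ↥E = 2 ^ (n + 1)) ∧ Cfsg.IsLargeExtraspecial Q ∧ ∃ K : Subgroup G, K ≤ Subgroup.centralizer (Z : Set G) ∧ Q ⊓ K = ⊥ ∧ Q ⊔ K = Subgroup.centralizer (Z : Set G) ∧ Nonempty (↥K ≃* Matrix.GeneralLinearGroup (Fin n) (ZMod 2)) := by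
  have := Lib.Solv.ElemAb.of_isElementaryAbelian hU
  have hF : Nat.card (ZMod 2) = 2 := by simp
  have : Nonempty (Fin n) := ⟨⟨0, hn⟩⟩
  let b : ((Fin n → ZMod 2) × ZMod 2) ≃ₗ[ZMod 2] Lib.Solv.Vec 2 U := .ofFinrankEq _ _ (by
    have := Module.natCard_eq_pow_finrank (K := ZMod 2) (V := Lib.Solv.Vec 2 U)
    rw [Lib.Solv.Vec.card_vec, hUcard, hF] at this
    simpa using Nat.pow_right_injective le_rfl this)
  let u : (Fin n → ZMod 2) × ZMod 2 → G := fun x => (Lib.Solv.Vec.toMul (b x) : U)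
  have hu : ∀ x y, u (x + y) = u x * u y := fun x y => by simp only [u, map_add]; rfl
  have hui : Function.Injective u := fun x y h =>
    b.injective (Lib.Solv.Vec.toMul.injective (Subtype.ext h))
  have hus : ∀ g ∈ U, ∃ x, u x = g := fun g hg =>
    ⟨b.symm (Lib.Solv.Vec.ofMul 2 ⟨g, hg⟩), by simp [u]⟩
  have hm : ∀ A : _ ≃ₗ[ZMod 2] _, ∃ m ∈ M, ∀ x, u (A x) = m * u x * m⁻¹ := fun A => by
    obtain ⟨m, h1, h2⟩ := hfull ((Lib.Solv.Vec.autEquiv 2 U).symm (b.symm ≪≫ₗ A ≪≫ₗ b))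
    exact ⟨m, h1, fun x => by rw [← h2]; simp [u]⟩
  choose m hm hm' using hm
  have huq : ∀ A, ∀ k ∈ M, (∀ x, u (A x) = k * u x * k⁻¹) → m A = k := fun A k hk h =>
    (inv_mul_eq_one.1 (hfaith _ (mul_mem (inv_mem hk) (hm A)) fun g hg => by
      obtain ⟨x, rfl⟩ := hus g hg
      calc _ = k⁻¹ * (m A * u x * (m A)⁻¹) * k := by group
        _ = _ := by rw [← hm', h]; group)).symm
  obtain ⟨z, hz1, hz⟩ : ∃ z, z ≠ 1 ∧ Subgroup.zpowers z = Z := by
    have : Nontrivial Z := Finite.one_lt_card_iff_nontrivial.1 (by omega)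
    obtain ⟨⟨z, hz⟩, h1⟩ := exists_ne (1 : Z)
    have h2 : z ≠ 1 := fun e => h1 (Subtype.ext e)
    refine ⟨z, h2, Subgroup.eq_of_le_of_card_ge (Subgroup.zpowers_le.2 hz) ?_⟩
    rw [hZ]
    exact Finite.one_lt_card_iff_nontrivial.2 ((Subgroup.nontrivial_iff_ne_bot _).2 (by simpa))
  obtain ⟨v, rfl⟩ := hus z (hZU (hz ▸ Subgroup.mem_zpowers z))
  have h0 : u 0 = 1 := by simpa using hu 0 0
  have key := Lib.Class.splitLX_aff' hF (fun x A => u x * m A) (fun x A y B => by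
      rw [hu, hm', huq (A * B) _ (mul_mem (hm A) (hm B)) fun x => by
        rw [LinearEquiv.mul_apply, hm', hm']; group]
      group) (fun x A y B h => by
      have h1 : (u y)⁻¹ * u x ∈ U ⊓ M := ⟨U.mul_mem (U.inv_mem (Subtype.property _)) (Subtype.property _),
        (show m B * (m A)⁻¹ = (u y)⁻¹ * u x by
          rw [eq_inv_mul_iff_mul_eq, ← mul_assoc, ← h]; group) ▸ M.mul_mem (hm B) (M.inv_mem (hm A))⟩
      rw [hUM, Subgroup.mem_bot, inv_mul_eq_one] at h1
      rw [h1, mul_right_inj] at h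
      exact ⟨(hui h1).symm, LinearEquiv.ext fun y => hui (by rw [hm', hm', h])⟩)
    (v := v) (fun e => hz1 (e ▸ h0)) (fun g _ => by
      have hg : g ∈ ((U ⊔ M : Subgroup G) : Set G) := hUM' ▸ Subgroup.mem_top g
      rw [Subgroup.normal_mul] at hg
      obtain ⟨a, ha, k, hk, rfl⟩ := hg
      obtain ⟨x, rfl⟩ := hus a ha
      exact ⟨x, b ≪≫ₗ Lib.Solv.Vec.autEquiv 2 U (MulAut.conjNormal k) ≪≫ₗ b.symm, by
        rw [huq _ k hk fun x => by simp [u]]⟩)
    (Matrix.GeneralLinearGroup.toLin.trans (LinearMap.GeneralLinearGroup.generalLinearEquiv _ _)).symm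
  rw [huq 1 1 (one_mem _) (by simp), mul_one, Module.finrank_fin_fun] at key
  rw [← hz, Lib.Local.centralizer_zpowers_eq_sing] at hQ ⊢
  exact key.result ((Lib.Solv.pCore_eq_bot_congr (Matrix.GeneralLinearGroup.toLin.trans
    (LinearMap.GeneralLinearGroup.generalLinearEquiv _ _))).2
      (Lib.Class.pCore_linearEquiv_eq_bot 2 (by simp; omega))) hQ

end Cfsg.Agent.S5423
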