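import Cfsg.Statements.S5425
import Cfsg.Agent.Spor.M24Tools
import Cfsg.Agent.Spor.LXSplit

set_option autoImplicit false
open Cfsg

namespace Cfsg.Agent.S5425

open Cfsg.Lib.Spor Cfsg.Lib.Spor.MP Cfsg.Lib.Local Subgroup

/-- Generators of `Q`. -/
def gQ : List ℕ := [70568071819676001186373189022846693, 51041059419018832436920001172147941,
  220977589308001799884448871958922241, 109513110510265898181131339353349230,
  610972855239753370621941044088046114, 65439320909816303528382406653447909]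
/-- Certificate. -/
def cQ : List Cfsg.Lib.Spor.PK.Cert :=
  [⟨0, [320, 66, 899, 132, 1474, 1091, 196], [[0, 1], [0, 4, 3, 2], [0, 2, 5, 2], [0, 2, 0, 2]]⟩,
   ⟨4, [384, 833, 450, 963, 1217, 1410, 1155, 1346, 579, 515, 1026, 771, 1283, 707, 643], []⟩]
/-- Generators of `E`. -/
def gE : List ℕ := [976448692869377735270425038196672544, 979121071158219704299181131031480352,
  968708902336673183175954409307867168, 970499966350631336865513127433832480]
/-- Certificate. -/
def cE : List Cfsg.Lib.Spor.PK.Cert :=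
  [⟨4, [832, 513, 578, 771, 705, 962, 1155, 1346, 1027, 387, 450, 1411, 1219, 1283, 643], []⟩]
/-- Generators of `K`. -/
def gK : List ℕ := [152781698281340596083793344578950609, 963843763976469762186228634115642414]
/-- Certificate. -/
def cK : List Cfsg.Lib.Spor.PK.Cert :=
  [⟨0, [1088, 193, 321, 1472, 897, 128, 64], [[1, 1, 0, 1, 0, 1], [0, 1, 0, 1, 0]]⟩,
   ⟨1, [320, 129, 1472, 192, 897, 1088], [[1, 0, 1]]⟩,
   ⟨2, [896, 320], []⟩]
/-- Certificate. -/
def cI : List Cfsg.Lib.Spor.PK.Cert :=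
  [⟨0, [1088, 193, 321, 1472, 897, 128, 64], [[0, 1, 0, 1, 0], [1, 0, 1, 0, 1, 1]]⟩,
   ⟨1, [128, 320, 1473, 1089, 896, 192], [[0, 0, 0, 1]]⟩,
   ⟨2, [320, 896], []⟩]
/-- Certificate. -/
def cI' : List Cfsg.Lib.Spor.PK.Cert :=
  [⟨27, [1920, 1537, 1793, 1665, 1856, 1601], [[0, 1, 0, 1, 0, 1, 1, 0], [0, 1, 1, 0, 1, 0]]⟩,
   ⟨25, [1920, 1793, 1536, 1856, 1664], [[0, 1, 0, 0], [1, 0, 1, 0]]⟩,
   ⟨24, [1664, 1793, 1921], []⟩]
/-- Certificate. -/
def cC : List Cfsg.Lib.Spor.PK.Cert :=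
  [⟨0, [1088, 193, 322, 68, 901, 134, 1472], [[6, 7, 1, 1], [1, 0, 4, 2]]⟩,
   ⟨1, [192, 129, 896, 321, 1088, 1473], [[0, 0, 1, 0, 0], [1, 1, 1, 1, 0]]⟩,
   ⟨4, [448, 769, 1344, 1025, 384, 577, 832, 1153, 705, 1280, 513, 960, 1409, 641, 1217], [[1, 0, 1, 0, 0, 0, 1,
    1, 0], [0, 0, 0, 1, 1]]⟩,
   ⟨2, [320, 1089, 193, 1472, 896], [[1, 1], [1, 0, 0]]⟩,
   ⟨3, [896, 321, 1473], []⟩]

theorem chQ : Nat.card (pclosure gQ) = 128 ∧
    PK.Chain 9 24 idxPt (pclosure gQ) (PK.lvls 9 24 cQ (gQ.map toPK)) :=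
  pk_chain_full (cert := cQ) (by decide +kernel) (by decide +kernel)

theorem chE : Nat.card (pclosure gE) = 16 ∧
    PK.Chain 9 24 idxPt (pclosure gE) (PK.lvls 9 24 cE (gE.map toPK)) :=
  pk_chain_full (cert := cE) (by decide +kernel) (by decide +kernel)

theorem chK : Nat.card (pclosure gK) = 168 :=
  (pk_chain_full (cert := cK) (by decide +kernel) (by decide +kernel)).1

theorem inC : ∀ t ∈ gK ++ gQ, InSub (M24 ⊓ centralizer {toPerm r2A}) t :=
  forall_of_all (f := fun t => isM24 t && Nat.beq (pmul t r2A) (pmul r2A t))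
    (fun h => inSub_cent inSub_r2A.1 (inSub_M24 (Bool.and_eq_true_iff.1 h).1)
      (Bool.and_eq_true_iff.1 h).2) (by decide +kernel)

theorem chC : pclosure (gK ++ gQ) = M24 ⊓ centralizer {toPerm r2A} ∧
    PK.Chain 9 24 idxPt (M24 ⊓ centralizer {toPerm r2A}) (PK.lvls 9 24 cC ((gK ++ gQ).map toPK)) :=
  pk_chain_low inC (by decide +kernel) (by rw [card_cent_r2A]; decide +kernel)

theorem isoK : Nonempty (pclosure gK ≃* Matrix.SpecialLinearGroup (Fin 3) (ZMod 2)) := by
  let a : Matrix.SpecialLinearGroup (Fin 3) (ZMod 2) := ⟨!![1, 0, 1; 0, 1, 1; 0, 0, 1],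
    by rw [Matrix.det_fin_three]; decide +kernel⟩
  let b : Matrix.SpecialLinearGroup (Fin 3) (ZMod 2) := ⟨!![0, 1, 1; 0, 0, 1; 1, 1, 0],
    by rw [Matrix.det_fin_three]; decide +kernel⟩
  obtain ⟨e, -⟩ := iso_of_graph PK.ptsOk_SL32 (H := pclosure gK) (gens := gK)
    (inSub_pclosure (by decide +kernel)) (ls := [[0, 1, 2, 6, 5, 4, 3], [3, 4, 0, 2, 6, 5, 1]])
    (gs := [a, b]) (.cons (PK.actL_iff_fin.2 (by decide +kernel))
      (.cons (PK.actL_iff_fin.2 (by decide +kernel)) .nil))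
    (w := 10) (cert := cI) (cert' := cI') (by decide +kernel)
    (by rw [chK]; decide +kernel) (by rw [PK.card_SL32]; decide +kernel)
  exact ⟨e⟩

theorem Q_le : pclosure gQ ≤ M24 ⊓ centralizer {toPerm r2A} :=
  pclosure_le.2 fun t ht => (inC t (List.mem_append_right _ ht)).2

theorem K_le : pclosure gK ≤ M24 ⊓ centralizer {toPerm r2A} :=
  pclosure_le.2 fun t ht => (inC t (List.mem_append_left _ ht)).2

theorem E_le : pclosure gE ≤ pclosure gQ :=
  pclosure_le.2 fun t ht => (pk_mem chQ.2 (by decide +kernel) t ht).2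

theorem z_mem : toPerm r2A ∈ pclosure gQ :=
  (pk_mem chQ.2 (xs := [r2A]) (by decide +kernel) _ List.mem_cons_self).2

theorem sup_eq : pclosure gQ ⊔ pclosure gK = M24 ⊓ centralizer {toPerm r2A} := by
  refine le_antisymm (sup_le Q_le K_le) (chC.1 ▸ pclosure_le.2 fun t ht => ?_)
  rcases List.mem_append.1 ht with ht | ht
  · exact mem_sup_right (subset_closure ⟨t, ht, rfl⟩)
  · exact mem_sup_left (subset_closure ⟨t, ht, rfl⟩)

theorem norm_Q : M24 ⊓ centralizer {toPerm r2A} ≤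
    normalizer (pclosure gQ : Set (Equiv.Perm GolayPt)) := by
  rw [← sup_eq]
  refine sup_le le_normalizer (pclosure_le.2 fun t ht => mem_normalizer_fintype fun q hq => ?_)
  have : pclosure gQ ≤ (pclosure gQ).comap (MulAut.conj (toPerm t)).toMonoidHom :=
    pclosure_le.2 fun s hs => by
      have h := pk_mem chQ.2 (xs := gK.flatMap fun t => gQ.map (pconj t)) (by decide +kernel)
        (pconj t s) (List.mem_flatMap.2 ⟨t, ht, List.mem_map_of_mem hs⟩)
      have e := ((inC t (List.mem_append_left _ ht)).rep.conj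
        (inC s (List.mem_append_right _ hs)).rep).toPerm_eq
      exact mem_comap.2 (show toPerm t * toPerm s * (toPerm t)⁻¹ ∈ _ from e ▸ h.2)
  exact this hq

theorem cent_Q {c : Equiv.Perm GolayPt} (hc : c ∈ M24) (h : ∀ q ∈ pclosure gQ, q * c = c * q) :
    c ∈ zpowers (toPerm r2A) := by
  have h2 : Nat.card ↥((M24 ⊓ centralizer {toPerm r2A}) ⊓ centralizer {a | a ∈ gQ.map toPerm}) = 2 :=
    (pk_card_centralizer chC.2 (by decide +kernel)).trans (by decide +kernel)
  have hm : ∀ c ∈ M24, (∀ q ∈ pclosure gQ, q * c = c * q) →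
      c ∈ (M24 ⊓ centralizer {toPerm r2A}) ⊓ centralizer {a | a ∈ gQ.map toPerm} := fun c hc h =>
    ⟨⟨hc, mem_centralizer_singleton_iff.2 (h _ z_mem).symm⟩, fun q hq => by
      obtain ⟨t, ht, rfl⟩ := List.mem_map.1 hq
      exact h _ (subset_closure ⟨t, ht, rfl⟩)⟩
  have := eq_of_le_of_card_ge (zpowers_le.2 (hm _ inSub_r2A.2 fun q hq =>
    mem_centralizer_singleton_iff.1 (Q_le hq).2)) (by rw [h2, Nat.card_zpowers, orderOf_r2A])
  exact this ▸ hm c hc h

theorem sq_Q {q : Equiv.Perm GolayPt} (hq : q ∈ pclosure gQ) : q * q ∈ zpowers (toPerm r2A) := by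
  have := pk_forall chQ.2 (f := fun t => peq (pmul t t) pid || peq (pmul t t) r2A)
    (by decide +kernel) hq
  rcases Bool.or_eq_true_iff.1 this with h | h
  · rw [((rep_pack q).mul (rep_pack q)).eq_of_peq rep_one h]; exact one_mem _
  · rw [((rep_pack q).mul (rep_pack q)).eq_of_peq inSub_r2A.rep h]; exact mem_zpowers _

theorem sq_E {q : Equiv.Perm GolayPt} (hq : q ∈ pclosure gE) : q * q = 1 :=
  ((rep_pack q).mul (rep_pack q)).eq_of_peq rep_one
    (pk_forall chE.2 (f := fun t => peq (pmul t t) pid) (by decide +kernel) hq)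

/-- The standard involution. -/
noncomputable def z0 : M24 := ⟨toPerm r2A, inSub_r2A.2⟩

theorem split0 : SplitLX z0 (2 ^ 7) (2 ^ 4) (Matrix.SpecialLinearGroup (Fin 3) (ZMod 2)) := by
  have hc : ∀ c : M24, (∀ q ∈ (pclosure gQ).subgroupOf M24, q * c = c * q) → c ∈ zpowers z0 :=
    fun c h => mem_zpowers_coe_iff.2 (cent_Q c.2 fun q hq =>
      congrArg Subtype.val (h ⟨q, (Q_le hq).1⟩ hq))
  have hC : centralizer ({z0} : Set M24) = (M24 ⊓ centralizer {toPerm r2A}).subgroupOf M24 := by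
    ext x
    rw [mem_subgroupOf, mem_inf, and_iff_right x.2, mem_centralizer_singleton_iff,
      mem_centralizer_singleton_iff, ← Subtype.coe_inj]
    rfl
  have hk := inSub_M24 (p := 972691937915700359877603517874607150) (by decide +kernel)
  have hy := pk_mem chQ.2 (xs := [pconj 972691937915700359877603517874607150 r2A])
    (by decide +kernel) _ List.mem_cons_self
  obtain ⟨e⟩ := isoK
  refine ⟨(pclosure gQ).subgroupOf M24, (pclosure gE).subgroupOf M24, (pclosure gK).subgroupOf M24,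
    ⟨⟨z_mem, by rw [← orderOf_coe]; exact orderOf_r2A,
      fun q hq => Subtype.ext (mem_centralizer_singleton_iff.1 (Q_le hq).2),
      fun q hq => mem_zpowers_coe_iff.2 (sq_Q hq), fun c _ h _ => hc c h⟩, hc, fun x hx => ?_,
      fun h => ?_⟩, ⟨⟨_, hk.2⟩, fun h => ?_, ?_⟩, ?_, comap_mono E_le, ⟨⟨⟨fun x y => ?_⟩⟩,
      fun x hx => Subtype.ext (by rw [sq]; exact sq_E hx)⟩, ?_, ?_,
    ⟨(subgroupOfEquivOfLe (K_le.trans inf_le_left)).trans e⟩⟩
  · rw [hC] at hx
    exact mem_normalizer_fintype fun q hq => (mem_normalizer_iff.1 (norm_Q hx) _).1 hq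
  · have := card_le_of_le h
    rw [Nat.card_congr (subgroupOfEquivOfLe (Q_le.trans inf_le_left)).toEquiv, chQ.1,
      Nat.card_zpowers, ← orderOf_coe] at this
    exact absurd (orderOf_r2A ▸ this) (by norm_num)
  · exact (hk.rep.conj inSub_r2A.rep).ne_of_peq inSub_r2A.rep (by decide +kernel)
      (congrArg Subtype.val h)
  · exact mem_subgroupOf.2 (show toPerm _ * toPerm r2A * (toPerm _)⁻¹ ∈ _ from
      (hk.rep.conj inSub_r2A.rep).toPerm_eq ▸ hy.2)
  · rw [Nat.card_congr (subgroupOfEquivOfLe (Q_le.trans inf_le_left)).toEquiv, chQ.1]; rfl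
  · have h1 : x.1.1⁻¹ = x.1.1 := inv_eq_of_mul_eq_one_right (sq_E x.2)
    have h2 : y.1.1⁻¹ = y.1.1 := inv_eq_of_mul_eq_one_right (sq_E y.2)
    have h3 : (x.1.1 * y.1.1)⁻¹ = x.1.1 * y.1.1 := inv_eq_of_mul_eq_one_right (sq_E (x * y).2)
    rw [mul_inv_rev, h1, h2] at h3
    exact Subtype.ext (Subtype.ext h3.symm)
  · rw [Nat.card_congr (subgroupOfEquivOfLe (E_le.trans (Q_le.trans inf_le_left))).toEquiv, chE.1]
    rfl
  · rw [hC, ← sup_eq, subgroupOf_sup (Q_le.trans inf_le_left) (K_le.trans inf_le_left)]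

/-- In the Mathieu group of degree 24 (the automorphism group of the length-24 binary Golay code, acting on the 24 coordinates), let z be an involution whose fixed points form an octad (the support of a code word of weight 8), and let Q be the largest normal 2-subgroup of the centralizer C of z. Then Q is extraspecial of order 2^7 with an elementary abelian subgroup of order 16 (plus type), Q is a large extraspecial 2-subgroup, and C is the split extension of Q by the special linear group of degree 3 over the field with two elements. -/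
theorem result (z : ↥Cfsg.M24) (hz : orderOf z = 2) (hfix : (Finset.univ.filter fun p : Cfsg.GolayPt => (z : Equiv.Perm Cfsg.GolayPt) p = p) ∈ Cfsg.octads) (Q : Subgroup ↥Cfsg.M24) (hQ : Q = (Cfsg.pCore 2 ↥(Subgroup.centralizer ({z} : Set ↥Cfsg.M24))).map (Subgroup.centralizer ({z} : Set ↥Cfsg.M24)).subtype) : Cfsg.IsExtraspecial 2 ↥Q ∧ Nat.card ↥Q = 2 ^ 7 ∧ (∃ E : Subgroup ↥Cfsg.M24, E ≤ Q ∧ Cfsg.IsElementaryAbelian 2 E ∧ Nat.card ↥E = 2 ^ 4) ∧ Cfsg.IsLargeExtraspecial Q ∧ ∃ K : Subgroup ↥Cfsg.M24, K ≤ Subgroup.centralizer ({z} : Set ↥Cfsg.M24) ∧ Q ⊓ K = ⊥ ∧ Q ⊔ K = Subgroup.centralizer ({z} : Set ↥Cfsg.M24) ∧ Nonempty (↥K ≃* Matrix.SpecialLinearGroup (Fin 3) (ZMod 2)) := by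
  obtain ⟨p, hp⟩ : ∃ p, (z : Equiv.Perm GolayPt) p = p := by
    have : (Finset.univ.filter fun p : GolayPt => (z : Equiv.Perm GolayPt) p = p).Nonempty :=
      Finset.card_pos.1 (by rw [hfix.2]; norm_num)
    obtain ⟨p, hp⟩ := this
    exact ⟨p, (Finset.mem_filter.1 hp).2⟩
  obtain ⟨k, hk, e⟩ := M24_conj_2A z.2 (by rw [orderOf_coe, hz]) hp
  obtain rfl : z = ⟨k, hk⟩ * z0 * ⟨k, hk⟩⁻¹ := Subtype.ext e.symm
  have := isSimpleGroup_SL_two (ι := Fin 3) (by simp)
  exact (split0.conj ⟨k, hk⟩).result (pCore_eq_bot_of_simple (center_SL_two_eq_bot _)) hQ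

end Cfsg.Agent.S5425
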