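import Cfsg.Statements.S5426
import Cfsg.Agent.SporChar.LargeXStruct
import Cfsg.Agent.Solv.ExtraSub

set_option autoImplicit false
open Cfsg

namespace Cfsg.Agent.S5426

open scoped Pointwise commutatorElement

open Subgroup Cfsg.Lib.Local Cfsg.Lib.Solv Cfsg.Lib.Trans

/-- Let Q be a large extraspecial 2-subgroup of the finite group G (extraspecial; centralizer equal to its centre; normal in the centralizer of its centre; normalizing no non-trivial subgroup of odd order) with centre generated by z, and let M be the normal closure of z in G. Then one of the following holds: Q is normal in G; or M is abelian and the generalized Fitting subgroup of G is its largest normal 2-subgroup; or M is the generalized Fitting subgroup of G and is a non-abelian simple group; or M is the generalized Fitting subgroup of G and is the direct product of a non-abelian simple subgroup L and its conjugate u L u⁻¹ by some u in Q (the two meet trivially and commute elementwise), with z = z₁ (u z₁ u⁻¹) for some z₁ in L whose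 centralizer in L is a Sylow 2-subgroup of L with Frattini subgroup inside the subgroup generated by z₁, and Q is not the largest normal 2-subgroup of the centralizer of z. -/
theorem result {G : Type*} [Group G] [Finite G] (Q : Subgroup G) (hQ : Cfsg.IsLargeExtraspecial Q) (z : G) (hz : ((Subgroup.center ↥Q).map Q.subtype) = Subgroup.zpowers z) (M : Subgroup G) (hM : M = Subgroup.normalClosure ({z} : Set G)) : Q.Normal ∨ (IsMulCommutative ↥M ∧ Cfsg.generalizedFittingSubgroup G = Cfsg.pCore 2 G) ∨ (M = Cfsg.generalizedFittingSubgroup G ∧ IsSimpleGroup ↥M ∧ ¬ IsMulCommutative ↥M) ∨ (M = Cfsg.generalizedFittingSubgroup G ∧ ∃ (L : Subgroup G) (u : G), u ∈ Q ∧ IsSimpleGroup ↥L ∧ ¬ IsMulCommutative ↥L ∧ L ⊓ (L).map (MulAut.conj u).toMonoidHom = ⊥ ∧ (∀ x ∈ L, ∀ y ∈ (L).map (MulAut.conj u).toMonoidHom, x * y = y * x) ∧ L ⊔ (L).map (MulAut.conj u).toMonoidHom = M ∧ ∃ z₁ ∈ L, z = z₁ * (u * z₁ * u⁻¹) ∧ (∃ R : Sylow 2 ↥L, (R : Subgroup ↥L) = (Subgroup.centralizer ({z₁} : Set G)).subgroupOf L ∧ (frattini ↥(R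 : Subgroup ↥L)).map ((L.subtype).comp (R : Subgroup ↥L).subtype) ≤ Subgroup.zpowers z₁) ∧ Q ≠ (Cfsg.pCore 2 ↥(Subgroup.centralizer ({z} : Set G))).map (Subgroup.centralizer ({z} : Set G)).subtype) := by
  have h := preLX_of hQ.1 hQ.2.1 hQ.2.2.1 hz
  subst hM
  refine Or.inr ?_
  by_cases hE : layer G = ⊥
  · obtain ⟨h1, h2⟩ := h.abelian_of_layer_eq_bot hQ hE
    exact Or.inl ⟨⟨⟨fun a b => Subtype.ext (h1 b.2 a a.2)⟩⟩, h2⟩
  refine Or.inr ?_
  obtain ⟨K, hK⟩ := exists_isComponent_of_layer_ne_bot hE
  have hs := h.isSimpleGroup_of_component hQ hK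
  rw [h.normalClosure_eq_layer hQ hE, genFitting_eq_layer_of_fitting_eq_bot (h.fitting_eq_bot hQ hE)]
  by_cases hn : ∀ u ∈ Q, MulAut.conj u • K = K
  · rw [h.layer_eq_of_normalizes hQ hK hn]; exact Or.inl ⟨rfl, hs⟩
  push Not at hn
  obtain ⟨u, hu, hne⟩ := hn
  obtain ⟨h1, a, ha, h2, h3, h4, h5⟩ := h.wreathed hQ hK hu hne
  have hc := IsComponent.commutator_eq_bot_of_ne hK (IsComponent.conj_smul hK u) hne.symm
  refine Or.inr ⟨rfl, K, u, hu, hs.1, hs.2, ?_, fun x hx y hy => commute_of_commutator_eq_bot hc hx hy,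
    h1, a, ha, h2, ⟨h3.toSylow, by rw [h3.coe_toSylow, inf_subgroupOf_left], ?_⟩, h5⟩
  · rw [eq_bot_iff, ← h.fitting_eq_bot hQ hE]
    refine le_trans ?_ ((IsComponent.center_le_center_layer hK).trans (center_layer_le_fitting G))
    exact inf_le_inf_left _ fun y hy x hx => commute_of_commutator_eq_bot hc hx hy
  · rw [frattini_eq_closure_sq h3.toSylow.isPGroup', map_le_iff_le_comap, closure_le]
    rintro _ ⟨r, rfl⟩
    have := h4 r.1 r.2
    rw [← sq] at this
    exact this

end Cfsg.Agent.S5426
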