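import Cfsg.Statements.S5427
import Cfsg.Agent.SporChar.LargeXStruct
import Cfsg.Agent.Solv.ExtraSub

set_option autoImplicit false
open Cfsg

namespace Cfsg.Agent.S5427

open scoped Pointwise commutatorElement

open Subgroup Cfsg.Lib.Local Cfsg.Lib.Solv

/-- Let z be an involution of the finite group G whose centralizer C has generalized Fitting subgroup Q, an extraspecial 2-group of width at least 2 (order 2^(2w+1), w ≥ 2). Let K be a subgroup of G such that the subgroup U generated by the K-conjugates of z is abelian and C is generated by the C-conjugates of U. Suppose that either some K-conjugate of z other than z lies in Q, or some element u of U ∩ Q outside the subgroup generated by z has z in the largest normal 2-subgroup of its centralizer. Then G is simple and Q is a large extraspecial 2-subgroup of G. -/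
theorem result {G : Type*} [Group G] [Finite G] (z : G) (hz : orderOf z = 2) (Q : Subgroup G) (hQC : Q ≤ Subgroup.centralizer ({z} : Set G)) (hF : (Cfsg.generalizedFittingSubgroup ↥(Subgroup.centralizer ({z} : Set G))).map (Subgroup.centralizer ({z} : Set G)).subtype = Q) (hQ : Cfsg.IsExtraspecial 2 ↥Q) (w : ℕ) (hw : 2 ≤ w) (hcard : Nat.card ↥Q = 2 ^ (2 * w + 1)) (K U : Subgroup G) (hU : U = Subgroup.closure {x : G | ∃ k ∈ K, x = k * z * k⁻¹}) (hUab : IsMulCommutative ↥U) (hgen : Subgroup.closure {x : G | ∃ c ∈ Subgroup.centralizer ({z} : Set G), ∃ u ∈ U, x = c * u * c⁻¹} = Subgroup.centralizer ({z} : Set G)) (h3 : (∃ k ∈ K, k * z * k⁻¹ ∈ Q ∧ k * z * k⁻¹ ≠ z) ∨ ∃ u ∈ U ⊓ Q, u ∉ Subgroup.zpowers z ∧ (∃ hz' : z ∈ Subgroup.centralizer ({u} : Set G), (⟨z, hz'⟩ : ↥(Subgroup.centralizer ({u} : Set G))) ∈ Cfsg.pCore 2 ↥(Subgroup.centralizer ({u} : Set G)))) : IsSimpleGroup G ∧ Cfsg.IsLargeExtraspecial Q := by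
  obtain ⟨h, hq⟩ := preLX_of_genFitting hz hF hQ
  have hl : IsLargeExtraspecial Q := by
    rcases h3 with ⟨k, -, h1, h2⟩ | ⟨u, hu, h1, hz', h2⟩
    · exact h.large_of_conj_mem h2 h1
    · refine h.large_of_mem_pCore_centralizer hu.2 h1 ?_ ⟨_, h2, rfl⟩
      have key : ∀ x ∈ closure {x : G | ∃ k ∈ K, x = k * z * k⁻¹}, x * x = 1 := by
        intro x hx
        induction hx using closure_induction with
        | mem x hx => obtain ⟨k, -, rfl⟩ := hx; exact (h.conj k).mul_self
        | one => simp
        | mul a b ha hb iha ihb =>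
          have : a * b = b * a := congrArg Subtype.val
            (hUab.is_comm.comm (⟨a, hU ▸ ha⟩ : U) ⟨b, hU ▸ hb⟩)
          rw [mul_assoc, ← mul_assoc b, ← this, mul_assoc, ihb, mul_one, iha]
        | inv a _ ih => rw [← mul_inv_rev, ih, inv_one]
      exact key u (hU ▸ hu.1)
  refine ⟨?_, hl⟩
  have hC : centralizer ({z} : Set G) ≤ normalClosure ({z} : Set G) := by
    have hUM : U ≤ normalClosure ({z} : Set G) := by
      rw [hU, closure_le]
      rintro _ ⟨k, -, rfl⟩
      exact Normal.conj_mem inferInstance _ (subset_normalClosure (Set.mem_singleton z)) k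
    rw [← hgen, closure_le]
    rintro _ ⟨c, -, u, hu, rfl⟩
    exact Normal.conj_mem inferInstance _ (hUM hu) c
  rcases h.abelian_or_simple hl hq with e | e
  · exact absurd ((hQC.trans hC).trans (e.trans ((centralizer_le (hQC.trans hC)).trans h.cent))) h.nab
  · have := h.sup_centralizer_eq_top (hQC.trans hC)
    rw [sup_eq_left.mpr hC] at this
    rw [this] at e
    exact topEquiv.symm.isSimpleGroup

end Cfsg.Agent.S5427
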