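import Cfsg.Statements.S5428
import Cfsg.Agent.SporChar.LargeXQuot

set_option autoImplicit false
open Cfsg

namespace Cfsg.Agent.S5428

open scoped Pointwise commutatorElement

open Subgroup Cfsg.Lib.Local Cfsg.Lib.Solv

/-- Let z be an involution of the finite group G whose centralizer C has generalized Fitting subgroup Q extraspecial (as a 2-group), let A be a subgroup of C of odd order, and let R be the centralizer of A in Q; suppose R has order at least 32, the largest normal subgroup of odd order of the centralizer of the subgroup generated by A and R lies in A, the order of that centralizer is not divisible by 4, and g is an element of G with g z g⁻¹ in R but outside the centre Z of Q. Let M be the subgroup generated by A and the centralizer of A (A is normal in it). Then: the centralizer in M of the subgroup generated by R and A, joined with A, equals the subgroup generated by A and Z; the image of R in M/A is a large extraspecial 2-subgroup of M/A; and g z g⁻¹ is conjugate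 to z inside the subgroup generated by R and the centralizer of A in g Q g⁻¹. -/
theorem result {G : Type*} [Group G] [Finite G] (z : G) (hz : orderOf z = 2) (Q : Subgroup G) (hQC : Q ≤ Subgroup.centralizer ({z} : Set G)) (hF : (Cfsg.generalizedFittingSubgroup ↥(Subgroup.centralizer ({z} : Set G))).map (Subgroup.centralizer ({z} : Set G)).subtype = Q) (hQ : Cfsg.IsExtraspecial 2 ↥Q) (A : Subgroup G) (hA : A ≤ Subgroup.centralizer ({z} : Set G)) (hAodd : Odd (Nat.card ↥A)) (R : Subgroup G) (hR : R = Q ⊓ Subgroup.centralizer (A : Set G)) (hR32 : 32 ≤ Nat.card ↥R) (hO : (Cfsg.oddCore ↥(Subgroup.centralizer ((A ⊔ R : Subgroup G) : Set G))).map (Subgroup.centralizer ((A ⊔ R : Subgroup G) : Set G)).subtype ≤ A) (h4 : ¬ 4 ∣ Nat.card ↥(Subgroup.centralizer ((A ⊔ R : Subgroup G) : Set G))) (g : G) (hgR : g * z * g⁻¹ ∈ R) (hgZ : g * z * g⁻¹ ∉ ((Subgroup.center ↥Q).map Q.subtype)) (M : Subgroup G) (hM : M = Subgroup.centralizer (A : Set G) ⊔ A) [hn : (A.subgroupOf M).Normal] : (M ⊓ Subgroup.centralizer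 ((R ⊔ A : Subgroup G) : Set G)) ⊔ A = A ⊔ ((Subgroup.center ↥Q).map Q.subtype) ∧ Cfsg.IsLargeExtraspecial ((R.subgroupOf M).map (QuotientGroup.mk' (A.subgroupOf M))) ∧ ∃ x ∈ R ⊔ ((Q).map (MulAut.conj g).toMonoidHom ⊓ Subgroup.centralizer (A : Set G)), x * (g * z * g⁻¹) * x⁻¹ = z := by
  obtain ⟨h, -⟩ := preLX_of_genFitting hz hF hQ
  rw [h.map_center_eq] at hgZ ⊢
  subst hR
  have hzA : z ∈ centralizer (A : Set G) := fun a ha => mem_centralizer_singleton_iff.mp (hA ha)
  have hAR : A ⊔ (Q ⊓ centralizer (A : Set G)) ≤ centralizer ({z} : Set G) :=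
    sup_le hA (inf_le_left.trans h.le_cent)
  have hzD : z ∈ centralizer ((A ⊔ (Q ⊓ centralizer (A : Set G)) : Subgroup G) : Set G) :=
    fun a ha => mem_centralizer_singleton_iff.mp (hAR ha)
  have hD := (le_pPrimeCore_sup_zpowers hz hzD (centralizer_le (Set.singleton_subset_iff.mpr
    (mem_sup_right ⟨h.mem, hzA⟩))) h4).trans (sup_le_sup_right hO _)
  have h1 : centralizer (A : Set G) ≤ M := hM ▸ le_sup_left
  have hne : g * z * g⁻¹ ≠ z := fun e => hgZ (e.symm ▸ mem_zpowers z)
  have hp := h.pair hne hgR.1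
  obtain ⟨y, hy, e⟩ := hp.exists_conj_odd hA
    (fun a ha => mem_centralizer_singleton_iff.mpr (hgR.2 a ha)) hAodd
  refine ⟨le_antisymm (sup_le (inf_le_right.trans (by rw [sup_comm]; exact hD)) le_sup_left)
    (sup_le le_sup_right (Subgroup.zpowers_le.mpr (mem_sup_left ⟨h1 hzA, by
      rw [sup_comm]; exact hzD⟩))), ?_, y, hy, e⟩
  have hq := h.quot_odd hA hAodd h1 hM.le hD (fun hle => hgZ (hle hgR))
    (QuotientGroup.mk' (A.subgroupOf M)) (QuotientGroup.mk'_surjective _)
    (QuotientGroup.ker_mk' _) (h1 hzA)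
  have hyM : y ∈ M := h1 ((sup_le (α := Subgroup G) inf_le_right inf_le_right) hy)
  have e2 : (QuotientGroup.mk' (A.subgroupOf M)) (⟨y, hyM⟩ : M)⁻¹ *
      (QuotientGroup.mk' (A.subgroupOf M)) ⟨z, h1 hzA⟩ *
      ((QuotientGroup.mk' (A.subgroupOf M)) (⟨y, hyM⟩ : M)⁻¹)⁻¹ =
      (QuotientGroup.mk' (A.subgroupOf M)) ⟨g * z * g⁻¹, h1 hgR.2⟩ := by
    rw [← map_inv, ← map_mul, ← map_mul]; congr 1
    refine Subtype.ext ?_
    change y⁻¹ * z * y⁻¹⁻¹ = g * z * g⁻¹
    nth_rewrite 1 [← e]; group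
  refine hq.large_of_conj_mem (g := (QuotientGroup.mk' (A.subgroupOf M)) (⟨y, hyM⟩ : M)⁻¹)
    (fun e3 => ?_) (e2 ▸ ⟨_, hgR, rfl⟩)
  rw [e2, QuotientGroup.mk'_apply, QuotientGroup.mk'_apply, QuotientGroup.eq] at e3
  have : (g * z * g⁻¹)⁻¹ * z ∈ A ⊓ Q := ⟨e3, Q.mul_mem (Q.inv_mem hgR.1) h.mem⟩
  rw [inf_eq_bot_of_coprime_card (coprime_card_of_isPGroup h.isPGroup
    (Nat.coprime_two_right.mpr hAodd)).symm, mem_bot, inv_mul_eq_one] at this
  exact hne this

end Cfsg.Agent.S5428
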