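import Cfsg.Statements.S5429
import Cfsg.Agent.SporChar.LargeXQuot

set_option autoImplicit false
open Cfsg

namespace Cfsg.Agent.S5429

open scoped Pointwise commutatorElement

open Subgroup Cfsg.Lib.Local Cfsg.Lib.Solv

/-- Let z be an involution of the finite group G with centralizer C whose generalized Fitting subgroup Q is extraspecial of width at least 3 (order 2^(2w+1), w ≥ 3); let g be an element of G with g z g⁻¹ in Q but outside the centre Z of Q, and t an involution lying in both Q and g Q g⁻¹ that is not conjugate to z; write P for the centralizer of t in Q and suppose that the elements of C acting trivially by conjugation on P modulo the subgroup generated by t and z are exactly the elements of Q. Then the image of P in the centralizer of t modulo the subgroup generated by t is a large extraspecial 2-subgroup there, and g z g⁻¹ is conjugate to z inside the subgroup generated by P and the centralizer of t in g Q g⁻¹. -/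
theorem result {G : Type*} [Group G] [Finite G] (z : G) (hz : orderOf z = 2) (Q : Subgroup G) (hQC : Q ≤ Subgroup.centralizer ({z} : Set G)) (hF : (Cfsg.generalizedFittingSubgroup ↥(Subgroup.centralizer ({z} : Set G))).map (Subgroup.centralizer ({z} : Set G)).subtype = Q) (hQ : Cfsg.IsExtraspecial 2 ↥Q) (w : ℕ) (hw : 3 ≤ w) (hcard : Nat.card ↥Q = 2 ^ (2 * w + 1)) (g : G) (hgQ : g * z * g⁻¹ ∈ Q) (hgZ : g * z * g⁻¹ ∉ ((Subgroup.center ↥Q).map Q.subtype)) (t : G) (ht : orderOf t = 2) (htQ : t ∈ Q ⊓ (Q).map (MulAut.conj g).toMonoidHom) (htz : ¬ IsConj z t) (P : Subgroup G) (hP : P = Q ⊓ Subgroup.centralizer ({t} : Set G)) (hCP : ∀ c ∈ Subgroup.centralizer ({z} : Set G), (∀ x ∈ P, ∃ y ∈ Subgroup.closure ({t, z} : Set G), c * x * c⁻¹ = x * y) ↔ c ∈ Q) [hn : ((Subgroup.zpowers t).subgroupOf (Subgroup.centralizer ({t} : Set G))).Normal] : Cfsg.IsLargeExtraspecial ((P.subgroupOf (Subgroup.centralizer ({t} : Set G))).map (QuotientGroup.mk' ((Subgroup.zpowers t).subgroupOf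 (Subgroup.centralizer ({t} : Set G))))) ∧ ∃ x ∈ P ⊔ ((Q).map (MulAut.conj g).toMonoidHom ⊓ Subgroup.centralizer ({t} : Set G)), x * (g * z * g⁻¹) * x⁻¹ = z := by
  obtain ⟨h, -⟩ := preLX_of_genFitting hz hF hQ
  rw [h.map_center_eq] at hgZ
  subst hP
  have hne : g * z * g⁻¹ ≠ z := fun e => hgZ (e.symm ▸ mem_zpowers z)
  have hp := h.pair hne hgQ
  obtain ⟨y, hy, e⟩ := hp.exists_conj_inv htQ.1 htQ.2 ht htz
  refine ⟨?_, y, hy, e⟩
  have hzt : z ∈ centralizer ({t} : Set G) := mem_cent_symm (h.le_cent htQ.1)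
  have hxt : g * z * g⁻¹ ∈ centralizer ({t} : Set G) := mem_cent_symm (hp.hR.le_cent htQ.2)
  have hx : g * z * g⁻¹ ∉ zpowers z ⊔ zpowers t := fun hu =>
    hne (h.eq_of_mem_sup_zpowers htQ.1 ht htz hu (isConj_iff.mpr ⟨g, rfl⟩))
  have hq := h.quot_inv htQ.1 ht htz (fun c hc h1 => (hCP c hc).mp fun x hx =>
      ⟨c * x * c⁻¹ * x⁻¹, Subgroup.zpowers_le.mpr (LXPair.z_mem_V t z) (h1 x hx), by
        have := ((centralizer_zpowers_eq_sing t).ge hx.2) _ (h1 x hx)
        rw [← this]; group⟩)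
    (fun hle => hx (hle ⟨hgQ, hxt⟩)) rfl (QuotientGroup.mk' _) (QuotientGroup.mk'_surjective _)
    (QuotientGroup.ker_mk' _) hzt
  have hyM : y ∈ centralizer ({t} : Set G) := (sup_le (α := Subgroup G) inf_le_right inf_le_right) hy
  set f := QuotientGroup.mk' ((zpowers t).subgroupOf (centralizer ({t} : Set G))) with hf
  have e2 : f (⟨y, hyM⟩ : centralizer ({t} : Set G))⁻¹ * f ⟨z, hzt⟩ *
      (f (⟨y, hyM⟩ : centralizer ({t} : Set G))⁻¹)⁻¹ = f ⟨g * z * g⁻¹, hxt⟩ := by
    rw [← map_inv, ← map_mul, ← map_mul]; congr 1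
    refine Subtype.ext ?_
    change y⁻¹ * z * y⁻¹⁻¹ = g * z * g⁻¹
    nth_rewrite 1 [← e]; group
  refine hq.large_of_conj_mem (g := f (⟨y, hyM⟩ : centralizer ({t} : Set G))⁻¹)
    (fun e3 => hx ?_) (e2 ▸ ⟨_, ⟨hgQ, hxt⟩, rfl⟩)
  rw [e2, eq_comm, hf, QuotientGroup.mk'_apply, QuotientGroup.mk'_apply, QuotientGroup.eq] at e3
  simpa using mul_mem (mem_sup_left (T := zpowers t) (mem_zpowers z)) (mem_sup_right e3)

end Cfsg.Agent.S5429
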