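import Cfsg.Statements.S5431
import Cfsg.Agent.SporChar.LargeXR

set_option autoImplicit false
open Cfsg

namespace Cfsg.Agent.S5431

open scoped Pointwise commutatorElement

open Subgroup Cfsg.Lib.Local Cfsg.Lib.Solv

/-- Let Q be a large extraspecial 2-subgroup of the finite group G (extraspecial; centralizer equal to its centre; normal in the centralizer of its centre; normalizing no non-trivial subgroup of odd order) with centre generated by z, an involution, of width w ≥ 2 (order 2^(2w+1)); let g be an element outside the centralizer H of z with g z g⁻¹ in Q; write V for the subgroup generated by z and g z g⁻¹, X for the subgroup generated by Q and g Q g⁻¹, R for the subgroup generated by the centralizer of z in g Q g⁻¹ and the centralizer of g z g⁻¹ in Q, and E for the intersection of Q and g Q g⁻¹. Then V is the centre of R, E lies in the second centre of R, R is nilpotent of class at most 3, E and R/E are elementary abelian, R/E is the direct product of the images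 of the centralizer of g z g⁻¹ in Q and of the centralizer of z in g Q g⁻¹ (R is their product and they meet in E), and the commutator subgroup of X and E lies in V. -/
theorem result {G : Type*} [Group G] [Finite G] (Q : Subgroup G) (hQ : Cfsg.IsLargeExtraspecial Q) (z : G) (hz : ((Subgroup.center ↥Q).map Q.subtype) = Subgroup.zpowers z) (hz2 : orderOf z = 2) (w : ℕ) (hw : 2 ≤ w) (hcard : Nat.card ↥Q = 2 ^ (2 * w + 1)) (g : G) (hgH : g ∉ Subgroup.centralizer ({z} : Set G)) (hgQ : g * z * g⁻¹ ∈ Q) (V X R E : Subgroup G) (hV : V = Subgroup.closure ({z, g * z * g⁻¹} : Set G)) (hX : X = Q ⊔ (Q).map (MulAut.conj g).toMonoidHom) (hR : R = ((Q).map (MulAut.conj g).toMonoidHom ⊓ Subgroup.centralizer ({z} : Set G)) ⊔ (Q ⊓ Subgroup.centralizer ({g * z * g⁻¹} : Set G))) (hE : E = Q ⊓ (Q).map (MulAut.conj g).toMonoidHom) : (Subgroup.center ↥R).map R.subtype = V ∧ E ≤ (Subgroup.upperCentralSeries ↥R 2).map R.subtype ∧ Subgroup.upperCentralSeries ↥R 3 = ⊤ ∧ Cfsg.IsElementaryAbelian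 2 E ∧ (∀ x ∈ R, ∀ y ∈ R, x * y * x⁻¹ * y⁻¹ ∈ E ∧ x ^ 2 ∈ E) ∧ ((Q).map (MulAut.conj g).toMonoidHom ⊓ Subgroup.centralizer ({z} : Set G)) ⊓ (Q ⊓ Subgroup.centralizer ({g * z * g⁻¹} : Set G)) = E ∧ ⁅X, E⁆ ≤ V := by
  have h0 := preLX_of hQ.1 hQ.2.1 hQ.2.2.1 hz
  have h := h0.pair (fun e => hgH (mem_cent_iff_conj.mpr e)) hgQ
  simp only [← conj_smul_eq_map] at hX hR hE ⊢
  have h1 : (center R).map R.subtype = V := by
    rw [map_subtype_center, hR, h.centralizer_T, hV]; exact inf_eq_right.mpr h.V_le_T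
  have hRX : R ≤ X := hR ▸ hX ▸ LXPair.T_le_X _ _ _ _
  have hER : E ≤ R := by rw [hE, hR]; exact h.E_le_P.trans le_sup_right
  have hXE : ∀ a ∈ X, ∀ c ∈ E, a * c * a⁻¹ * c⁻¹ ∈ V := by rw [hX, hE, hV]; exact h.comm_X_E
  have h2 : ∀ c : R, (c : G) ∈ E → c ∈ Subgroup.upperCentralSeries R 2 := by
    intro c hc
    rw [Subgroup.mem_upperCentralSeries_succ_iff]
    intro y
    rw [Subgroup.upperCentralSeries_one]
    have := V.inv_mem (hXE y (hRX y.2) c hc)
    rw [← h1] at this
    obtain ⟨w, hw, e⟩ := this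
    have e2 : ⁅c, y⁆ = w := Subtype.ext (by simpa [mul_assoc, commutatorElement_def] using e.symm)
    exact e2 ▸ hw
  have h3 : ∀ x ∈ R, ∀ y ∈ R, x * y * x⁻¹ * y⁻¹ ∈ E := by rw [hR, hE]; exact h.comm_T_T
  refine ⟨h1, fun c hc => ⟨⟨c, hER hc⟩, h2 _ hc, rfl⟩, eq_top_iff.mpr fun a _ => ?_,
    hE ▸ h.isElementaryAbelian_E, fun x hx y hy => ⟨h3 x hx y hy, ?_⟩, hE ▸ h.P_inf_P,
    commutator_le.mpr hXE⟩
  · rw [Subgroup.mem_upperCentralSeries_succ_iff]
    exact fun y => h2 _ (h3 a a.2 y y.2)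
  · rw [sq, hE]; exact h.sq_T (hR ▸ hx)

end Cfsg.Agent.S5431
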