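import Cfsg.Statements.S5432
import Cfsg.Agent.Solv.QExtStd

set_option autoImplicit false
open Cfsg

namespace Cfsg.Agent.S5432

/-- Let E be an extraspecial 2-group of order 2^(2n+1), n ≥ 1. If E contains an elementary abelian subgroup of order 2^(n+1) (plus type), then its outer automorphism group is isomorphic to the full isometry group of the hyperbolic quadratic form in dimension 2n over the field with two elements; otherwise (minus type) it is isomorphic to the full isometry group of the elliptic quadratic form in dimension 2n over that field. -/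
theorem result {E : Type*} [Group E] [Finite E] (hE : Cfsg.IsExtraspecial 2 E) (n : ℕ) (hn : 1 ≤ n) (hcard : Nat.card E = 2 ^ (2 * n + 1)) : ((∃ A : Subgroup E, Cfsg.IsElementaryAbelian 2 A ∧ Nat.card ↥A = 2 ^ (n + 1)) → Nonempty (Cfsg.Out E ≃* Cfsg.isometryGroup (ZMod 2) (Cfsg.quadFormPlus n (ZMod 2)))) ∧ ((¬ ∃ A : Subgroup E, Cfsg.IsElementaryAbelian 2 A ∧ Nat.card ↥A = 2 ^ (n + 1)) → Nonempty (Cfsg.Out E ≃* Cfsg.isometryGroup (ZMod 2) (Cfsg.quadFormMinus (n - 1) (ZMod 2) 1 1))) := by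
  have hP := Lib.Trans.ES.IsPre.of_isExtraspecial hE
  constructor
  · rintro ⟨A, hA, hc⟩
    obtain ⟨e⟩ := Lib.Solv.PG.nonempty_mulEquiv_of_defect_eq hP (Lib.QExt.nd_bPlus n).isPre
      (hcard.trans (Lib.QExt.card_plus n).symm)
      ((Lib.Solv.PG.defect_of_plus hP hcard hA hc.ge).trans (Lib.QExt.defect_plus n).symm)
    obtain ⟨e₁⟩ := Lib.QExt.nonempty_out_congr e
    obtain ⟨e₂⟩ := (Lib.QExt.nd_bPlus n).nonempty_out_equiv _ (Lib.QExt.bPlus_self n)
    exact ⟨e₁.trans e₂⟩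
  · intro hA
    obtain ⟨m, rfl⟩ : ∃ m, n = m + 1 := ⟨n - 1, by omega⟩
    obtain ⟨M, -, hM, hmax⟩ := Lib.Solv.PG.exists_maximal_elementary_ge
      (Lib.Solv.PG.isElementaryAbelian_bot (G := E) 2)
    have hd : Lib.Solv.PG.defect E = -2 ^ (m + 1 + 1) := by
      rcases Lib.Solv.PG.card_of_maximal_elementary hP hcard hM hmax with h | h
      · exact absurd ⟨M, hM, h.1⟩ hA
      · exact h.2
    obtain ⟨e⟩ := Lib.Solv.PG.nonempty_mulEquiv_of_defect_eq hP (Lib.QExt.nd_bMinus m).isPre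
      (hcard.trans (Lib.QExt.card_minus m).symm) (hd.trans (Lib.QExt.defect_minus m).symm)
    obtain ⟨e₁⟩ := Lib.QExt.nonempty_out_congr e
    obtain ⟨e₂⟩ := (Lib.QExt.nd_bMinus m).nonempty_out_equiv _ (Lib.QExt.bMinus_self m)
    exact ⟨e₁.trans e₂⟩

end Cfsg.Agent.S5432
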