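import Cfsg.Statements.S5434
import Cfsg.Agent.SporChar.LargeX

set_option autoImplicit false
open Cfsg

namespace Cfsg.Agent.S5434

open scoped Pointwise commutatorElement

open Subgroup Cfsg.Lib.Local Cfsg.Lib.Solv

/-- Let Q be a large extraspecial 2-subgroup of the finite group G (extraspecial; centralizer equal to its centre; normal in the centralizer of its centre; normalizing no non-trivial subgroup of odd order), and A a non-trivial subgroup of odd order of the normalizer of Q. Then Q is the central product of the centralizer of A in Q and the commutator subgroup [Q, A] (they generate Q and commute elementwise), [Q, A] is extraspecial, and the centralizer of A in Q is either the centre of Q or extraspecial. -/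
theorem result {G : Type*} [Group G] [Finite G] (Q : Subgroup G) (hQ : Cfsg.IsLargeExtraspecial Q) (A : Subgroup G) (hA : A ≤ Subgroup.normalizer (Q : Set G)) (hAodd : Odd (Nat.card ↥A)) (hA1 : A ≠ ⊥) : (Q ⊓ Subgroup.centralizer (A : Set G)) ⊔ ⁅Q, A⁆ = Q ∧ (∀ x ∈ Q ⊓ Subgroup.centralizer (A : Set G), ∀ y ∈ ⁅Q, A⁆, x * y = y * x) ∧ Cfsg.IsExtraspecial 2 ↥⁅Q, A⁆ ∧ (Q ⊓ Subgroup.centralizer (A : Set G) = ((Subgroup.center ↥Q).map Q.subtype) ∨ Cfsg.IsExtraspecial 2 ↥(Q ⊓ Subgroup.centralizer (A : Set G))) := by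
  obtain ⟨z, h, e⟩ := exists_preLX hQ.1 hQ.2.1 hQ.2.2.1
  obtain ⟨h1, h2⟩ := h.coprime_decomp hA hAodd
  have hcop : (Nat.card A).Coprime (Nat.card Q) :=
    (coprime_card_of_isPGroup h.isPGroup (Nat.coprime_two_right.mpr hAodd)).symm
  have hle : ⁅Q, A⁆ ≤ Q := le_sup_right.trans h1.le
  have hzA : zpowers z ≤ centralizer (A : Set G) := fun w hw a ha => by
    nth_rewrite 2 [← h.conj_eq_of_mem (hA ha) hw]; group
  have hne : ¬ ⁅Q, A⁆ ≤ zpowers z := by
    intro hz
    have h3 : ⁅Q, A⁆ = ⊥ := by
      rw [← Coprime.commutator_commutator hA hcop, commutator_eq_bot_iff_le_centralizer]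
      exact hz.trans hzA
    rw [commutator_comm, commutator_eq_bot_iff_le_centralizer] at h3
    refine hA1 (eq_bot_iff.mpr ?_)
    rw [← inf_eq_bot_of_coprime_card hcop]
    exact le_inf le_rfl (h3.trans (h.cent.trans h.zpowers_le))
  have hzm : z ∈ ⁅Q, A⁆ := h.mem_of_normal hle (normalizer_commutator_ge_left _ _)
    fun e => hne (by rw [e]; exact bot_le)
  have hc : ⁅Q, A⁆ ⊓ centralizer ((⁅Q, A⁆ : Subgroup G) : Set G) ≤ zpowers z := by
    intro c hc
    refine h.cent ?_
    have : Q ≤ centralizer ({c} : Set G) := by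
      rw [← h1]
      exact sup_le (fun y hy => mem_centralizer_singleton_iff.mpr (h2 hy c hc.1).symm)
        fun y hy => mem_centralizer_singleton_iff.mpr (hc.2 y hy)
    exact fun q hq => mem_centralizer_singleton_iff.mp (this hq)
  refine ⟨h1, fun x hx y hy => (h2 hx y hy).symm, (h.of_le hle hzm hc).isExtraspecial hc hne, ?_⟩
  have hc2 := (h.center_inf_centralizer_le hA hAodd).trans h.center_eq.le
  by_cases hz : Q ⊓ centralizer (A : Set G) ≤ zpowers z
  · exact Or.inl (by rw [e]; exact le_antisymm hz (le_inf h.zpowers_le hzA))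
  · exact Or.inr ((h.of_le inf_le_left ⟨h.mem, hzA (mem_zpowers z)⟩ hc2).isExtraspecial hc2 hz)

end Cfsg.Agent.S5434
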