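import Cfsg.Statements.S5435
import Cfsg.Agent.Local.Dihedral
import Cfsg.Agent.Local.InvCent
import Cfsg.Agent.Solv.FrattiniP
import Cfsg.Agent.S0012
import Cfsg.Agent.S0215

set_option autoImplicit false
open Cfsg

namespace Cfsg.Agent.S5435

open Subgroup Cfsg.Lib.Local Cfsg.Lib.Solv

/-- Let L be a finite non-abelian simple group with an involution z whose centralizer R is a Sylow 2-subgroup of L whose Frattini subgroup is the subgroup generated by z. Then R is dihedral of order 8. -/
theorem result {L : Type*} [Group L] [Finite L] [IsSimpleGroup L] (hL : ¬ IsMulCommutative L) (z : L) (hz : orderOf z = 2) (R : Sylow 2 L) (hR : (R : Subgroup L) = Subgroup.centralizer ({z} : Set L)) (hΦ : (frattini ↥(R : Subgroup L)).map (R : Subgroup L).subtype = Subgroup.zpowers z) : Nonempty (↥(R : Subgroup L) ≃* DihedralGroup 4) := by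
  classical
  set T : Subgroup L := (R : Subgroup L) with hT
  have z2 : z * z = 1 := by rw [← pow_two, ← hz, pow_orderOf_eq_one]
  have z1 : z ≠ 1 := fun h => by rw [h, orderOf_one] at hz; omega
  have mT : ∀ x, x ∈ T ↔ x * z = z * x := fun x => by rw [hR, mem_centralizer_singleton_iff]
  have zT : z ∈ T := (mT z).2 rfl
  have hzp : ∀ x, x ∈ zpowers z ↔ x = 1 ∨ x = z := by
    intro x
    rw [mem_zpowers_iff_mem_range_orderOf, hz]
    simp [Finset.range_add_one, eq_comm, or_comm]
  have hfr : ∀ x : T, x ∈ frattini T ↔ (x : L) = 1 ∨ (x : L) = z := by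
    intro x
    rw [← hzp, ← hΦ]
    exact (mem_map_iff_mem T.subtype_injective).symm
  obtain ⟨f1, f2⟩ := Cfsg.Agent.S0012.result 2 R.isPGroup'
  have hsq : ∀ x ∈ T, x * x = 1 ∨ x * x = z := fun x hx => by
    simpa [pow_two] using (hfr _).1 (f2 ⟨x, hx⟩)
  have hcomm : ∀ x ∈ T, ∀ y ∈ T, x * y = y * x ∨ x * y = z * (y * x) := fun x hx y hy => by
    rcases (hfr _).1 (f1 (commutator_mem_commutator (mem_top (⟨x, hx⟩ : T)) (mem_top ⟨y, hy⟩))) with h | h
    · exact Or.inl (commutatorElement_eq_one_iff_mul_comm.1 h)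
    · right
      rw [← h]
      change _ = x * y * x⁻¹ * y⁻¹ * (y * x)
      group
  obtain ⟨a, ha, haz⟩ : ∃ a ∈ T, a * a = z := by
    by_contra hc
    push Not at hc
    have h1 : ∀ x : T, x * x = 1 := fun x => Subtype.ext ((hsq x x.2).resolve_right (hc x x.2))
    have h2 : ∀ x : T, x⁻¹ = x := fun x => inv_eq_of_mul_eq_one_right (h1 x)
    have : ElemAb 2 T := ⟨fun x y => by rw [← h2 (x * y), mul_inv_rev, h2, h2], fun x => by rw [pow_two, h1]⟩
    have h3 := (hfr ⟨z, zT⟩).2 (Or.inr rfl)
    rw [ElemAb.frattini_eq_bot 2, mem_bot] at h3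
    exact z1 (congrArg Subtype.val h3)
  have hZ : z ∉ center L := by
    intro h
    rcases (center L).normal_of_characteristic.eq_bot_or_eq_top with h1 | h1
    · exact z1 (by rwa [h1, mem_bot] at h)
    · exact hL ⟨⟨fun x y => (mem_center_iff.1 (h1 ▸ mem_top y) x)⟩⟩
  obtain ⟨g, tT, tz⟩ : ∃ g : L, g * z * g⁻¹ ∈ T ∧ g * z * g⁻¹ ≠ z := by
    by_contra hc
    push Not at hc
    obtain ⟨N, hN, ho, h⟩ := Cfsg.Agent.S0215.result R z hz zT hc
    rcases hN.eq_bot_or_eq_top with rfl | rfl
    · exact hZ (mem_center_iff.2 fun x => by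
        have := mem_bot.1 (h x)
        rw [mul_inv_eq_one, mul_inv_eq_iff_eq_mul] at this
        exact this.symm)
    · exact absurd (ho.of_dvd_nat (hz ▸ Subgroup.orderOf_dvd_natCard ⊤ (mem_top z))) (by decide)
  set t := g * z * g⁻¹ with ht
  have t2 : t * t = 1 := by rw [ht, conj_mul, z2]; group
  have t1 : t ≠ 1 := fun h => z1 (by simpa [ht] using h)
  have hD : ∀ x ∈ T, x * t = t * x → x * x = 1 := by
    intro x hx h
    have h1 : g⁻¹ * x * g ∈ T := (mT _).2 (by
      calc g⁻¹ * x * g * z = g⁻¹ * (x * t) * g := by rw [ht]; group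
        _ = z * (g⁻¹ * x * g) := by rw [h, ht]; group)
    have h2 : x * x = g * (g⁻¹ * x * g * (g⁻¹ * x * g)) * g⁻¹ := by group
    rcases hsq _ h1 with h3 | h3
    · rw [h2, h3]; group
    · rw [h3] at h2
      exact (hsq x hx).resolve_right fun h4 => tz (h2.symm.trans h4)
  have hat : a * t = z * (t * a) := (hcomm a ha t tT).resolve_left fun h => z1 (haz ▸ hD a ha h)
  have hcen : ∀ w ∈ T, (∀ x ∈ T, x * w = w * x) → w = 1 ∨ w = z := by
    intro w hw hc
    by_contra hn
    have w2 : w * w = 1 := hD w hw (hc t tT).symm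
    have ho : orderOf w = 2 := orderOf_eq_prime (by rw [pow_two, w2]) fun h => hn (Or.inl h)
    have h1 := mt (hfr ⟨w, hw⟩).1 hn
    rw [mem_frattini_iff] at h1
    push Not at h1
    obtain ⟨M, hM, hwM⟩ := h1
    have h2 := index_eq_of_isCoatom_of_isPGroup R.isPGroup' hM
    obtain ⟨k, -, k2, k3⟩ := thompson_idx (index_ne_two_of_isSimpleGroup hZ) R (M := M.map T.subtype)
      (fun s hs u hu h3 h4 => ⟨⟨s, hs⟩ * ⟨u, hu⟩, (mul_mem_iff_of_index_two h2).2
        (iff_of_false (fun h => h3 ⟨_, h, rfl⟩) (fun h => h4 ⟨_, h, rfl⟩)), rfl⟩) ho T R.isPGroup' hc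
    have h5 : k * z * k⁻¹ = z := by
      have := hsq _ (k3 a ha)
      rw [conj_mul, haz] at this
      exact this.resolve_left fun h => z1 (by simpa using h)
    have h6 : k ∈ T := (mT k).2 (mul_inv_eq_iff_eq_mul.1 h5)
    rw [hc k h6, mul_inv_cancel_right] at k2
    exact hwM ((mem_map_iff_mem T.subtype_injective (x := ⟨w, hw⟩)).1 k2)
  have zc : ∀ x ∈ T, ∀ y, z * (x * y) = x * (z * y) := fun x hx y => by
    rw [← mul_assoc, ← (mT x).1 hx, mul_assoc]
  have zz : ∀ y, z * (z * y) = y := fun y => by rw [← mul_assoc, z2, one_mul]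
  have hsplit : ∀ x ∈ T, x * t = t * x ∨ x * a * t = t * (x * a) := by
    intro x hx
    refine (hcomm x hx t tT).imp_right fun h => ?_
    rw [mul_assoc, hat, ← zc x hx, ← mul_assoc x, h, mul_assoc z, zz, mul_assoc]
  have hcen' : ∀ w ∈ T, w * t = t * w → a * w = w * a → w = 1 ∨ w = z := by
    intro w hw h1 h2
    have key : ∀ x ∈ T, x * t = t * x → x * w = w * x := by
      intro x hx h
      have e1 := hD _ (mul_mem hx hw) (by rw [mul_assoc, h1, ← mul_assoc, h, mul_assoc])
      rw [← inv_eq_of_mul_eq_one_right e1, mul_inv_rev, inv_eq_of_mul_eq_one_right (hD x hx h),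
        inv_eq_of_mul_eq_one_right (hD w hw h1)]
    refine hcen w hw fun x hx => ?_
    rcases hsplit x hx with h | h
    · exact key x hx h
    · have := key _ (mul_mem hx ha) h
      rw [mul_assoc, h2, ← mul_assoc, ← mul_assoc] at this
      exact mul_right_cancel this
  have x2 : a * t * (a * t) = 1 := by
    nth_rewrite 1 [hat]
    rw [mul_assoc z, mul_assoc t, ← mul_assoc a, haz, ← zc t tT, zz, t2]
  have ho : orderOf a = 4 := by
    have := orderOf_eq_prime_pow (p := 2) (n := 1) (x := a) (by rw [pow_one, pow_two, haz]; exact z1)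
      (by rw [show 2 ^ (1 + 1) = 2 * 2 by rfl, pow_mul, pow_two a, haz, pow_two, z2])
    simpa using this
  have x1 : a * t ≠ 1 := fun h => by
    rw [eq_inv_of_mul_eq_one_left h, inv_eq_of_mul_eq_one_right t2, t2] at haz
    exact z1 haz.symm
  obtain ⟨e⟩ := dih_closure_mulEquiv (x := a * t) (y := t) (orderOf_eq_prime (by rw [pow_two, x2]) x1)
    (orderOf_eq_prime (by rw [pow_two, t2]) t1)
  rw [mul_assoc, t2, mul_one, ho] at e
  refine ⟨(MulEquiv.subgroupCongr (le_antisymm ?_ ?_)).trans e⟩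
  · have c1 : t ∈ closure {a * t, t} := subset_closure (by simp)
    have c2 : a ∈ closure {a * t, t} := by
      have := mul_mem (subset_closure (by simp) : a * t ∈ closure {a * t, t}) c1
      rwa [mul_assoc, t2, mul_one] at this
    have c3 : ∀ w, w = 1 ∨ w = z → w ∈ closure {a * t, t} := by
      rintro w (rfl | rfl)
      · exact one_mem _
      · exact haz ▸ mul_mem c2 c2
    have key : ∀ x ∈ T, x * t = t * x → x ∈ closure {a * t, t} := by
      intro x hx h
      rcases hcomm a ha x hx with h1 | h1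
      · exact c3 x (hcen' x hx h h1)
      · have := c3 _ (hcen' (x * t) (mul_mem hx tT) (by rw [h, mul_assoc, h]) (by
          rw [← mul_assoc, h1, mul_assoc z, mul_assoc x, hat, ← zc x hx, zz, mul_assoc x t a]))
        exact (mul_mem_cancel_right c1).1 this
    intro x hx
    rcases hsplit x hx with h | h
    · exact key x hx h
    · exact (mul_mem_cancel_right c2).1 (key _ (mul_mem hx ha) h)
  · rw [closure_le]
    rintro x (rfl | rfl)
    · exact mul_mem ha tT
    · exact tT

end Cfsg.Agent.S5435
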