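import Cfsg.Statements.S5436
import Cfsg.Agent.SporChar.LargeXStruct
import Cfsg.Agent.Solv.ExtraSub

set_option autoImplicit false
open Cfsg

namespace Cfsg.Agent.S5436

open scoped Pointwise commutatorElement

open Subgroup Cfsg.Lib.Local Cfsg.Lib.Solv

/-- Let z be an involution of the finite group G with centralizer H whose generalized Fitting subgroup Q is extraspecial of width at least 2 (order 2^(2w+1), w ≥ 2); suppose some conjugate of z other than z lies in Q, H/Q is a non-abelian simple group, H acts irreducibly by conjugation on Q modulo the subgroup generated by z (the only H-invariant subgroups of Q containing z are that subgroup and Q), and Q is not the subgroup generated by the conjugates of z lying in H. Then G is simple. -/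
theorem result {G : Type*} [Group G] [Finite G] (z : G) (hz : orderOf z = 2) (Q : Subgroup (Subgroup.centralizer ({z} : Set G))) [Q.Normal] (hF : Cfsg.generalizedFittingSubgroup ↥(Subgroup.centralizer ({z} : Set G)) = Q) (hQ : Cfsg.IsExtraspecial 2 ↥Q) (w : ℕ) (hw : 2 ≤ w) (hcard : Nat.card ↥Q = 2 ^ (2 * w + 1)) (hnwc : ∃ g : G, (∃ hq : g * z * g⁻¹ ∈ Subgroup.centralizer ({z} : Set G), (⟨g * z * g⁻¹, hq⟩ : Subgroup.centralizer ({z} : Set G)) ∈ Q) ∧ g * z * g⁻¹ ≠ z) (hsimp : IsSimpleGroup (↥(Subgroup.centralizer ({z} : Set G)) ⧸ Q)) (hna : ¬ IsMulCommutative (↥(Subgroup.centralizer ({z} : Set G)) ⧸ Q)) (hirr : ∀ W : Subgroup (Subgroup.centralizer ({z} : Set G)), W.Normal → W ≤ Q → (W = Q ∨ ∀ x ∈ W, (x : G) ∈ Subgroup.zpowers z)) (hwcl : Subgroup.closure {x : Subgroup.centralizer ({z} : Set G) | IsConj z (x : G)} ≠ Q) : IsSimpleGroup G := by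
  obtain ⟨h, hq⟩ := preLX_of_genFitting hz (congrArg (Subgroup.map (Subgroup.subtype _)) hF)
    (PG.isExtraspecial_of_mulEquiv (equivMapOfInjective _ _ (subtype_injective _)) hQ)
  obtain ⟨g, ⟨hx, hxQ⟩, hne⟩ := hnwc
  have hl := h.large_of_conj_mem hne ⟨_, hxQ, rfl⟩
  have hxz : g * z * g⁻¹ ∉ zpowers z := fun e => (h.mem_iff.mp e).elim (h.conj g).ne_one hne
  have hzM : ∀ x, IsConj z x → x ∈ normalClosure ({z} : Set G) := fun x hx => by
    obtain ⟨k, rfl⟩ := isConj_iff.mp hx
    exact Normal.conj_mem inferInstance _ (subset_normalClosure (Set.mem_singleton z)) k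
  have hW : (closure {x : centralizer ({z} : Set G) | IsConj z (x : G)}).Normal := by
    refine ⟨fun x hx c => ?_⟩
    have : closure {x : centralizer ({z} : Set G) | IsConj z (x : G)} ≤
        (closure {x : centralizer ({z} : Set G) | IsConj z (x : G)}).comap
          (MulAut.conj c).toMonoidHom := by
      rw [closure_le]
      exact fun y hy => subset_closure (hy.trans (isConj_iff.mpr ⟨c, rfl⟩))
    exact this hx
  have hWM : closure {x : centralizer ({z} : Set G) | IsConj z (x : G)} ≤
      (normalClosure ({z} : Set G)).subgroupOf _ := (closure_le _).mpr fun x hx => hzM x hx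
  have hQW : Q ≤ closure {x : centralizer ({z} : Set G) | IsConj z (x : G)} := by
    rcases hirr (Q ⊓ closure {x : centralizer ({z} : Set G) | IsConj z (x : G)}) inferInstance
      inf_le_left with e | e
    · exact inf_eq_left.mp e
    · exact absurd (e _ ⟨hxQ, subset_closure (isConj_iff.mpr ⟨g, rfl⟩)⟩) hxz
  have hQM : Q.map (Subgroup.subtype _) ≤ normalClosure ({z} : Set G) :=
    map_le_iff_le_comap.mpr (hQW.trans hWM)
  rcases h.abelian_or_simple hl hq with e | e
  · exact absurd (hQM.trans (e.trans ((centralizer_le hQM).trans h.cent))) h.nab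
  have hC : centralizer ({z} : Set G) ≤ normalClosure ({z} : Set G) := by
    rcases (hW.map (QuotientGroup.mk' Q) (QuotientGroup.mk'_surjective Q)).eq_bot_or_eq_top
      with e1 | e1
    · rw [Subgroup.map_eq_bot_iff, QuotientGroup.ker_mk'] at e1
      exact absurd (le_antisymm e1 hQW) hwcl
    · have := congrArg (comap (QuotientGroup.mk' Q)) e1
      rw [comap_map_eq, QuotientGroup.ker_mk', sup_eq_left.mpr hQW, comap_top] at this
      exact subgroupOf_eq_top.mp (top_le_iff.mp (this ▸ hWM))
  have := h.sup_centralizer_eq_top hQM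
  rw [sup_eq_left.mpr hC] at this
  rw [this] at e
  exact topEquiv.symm.isSimpleGroup

end Cfsg.Agent.S5436
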