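import Cfsg.Statements.S5437
import Cfsg.Agent.SporChar.UniqueFix

set_option autoImplicit false
open Cfsg

namespace Cfsg.Agent.S5437

open scoped Pointwise commutatorElement

open Subgroup Cfsg.Lib.Local

/-- Let I be a set of involutions of the finite group G closed under conjugation, and H a subgroup of G. The following are equivalent: (1) for every member x of I lying in H, the conjugates of x lying in H form a single H-class and the centralizer of x lies in H; (2) for every g outside H, no member of I lies in both H and g H g⁻¹; (3) every member of I lying in H fixes exactly one coset in the action of G on the cosets of H. -/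
theorem result {G : Type*} [Group G] [Finite G] (I : Set G) (hI : ∀ x ∈ I, orderOf x = 2) (hIc : ∀ g : G, ∀ x ∈ I, g * x * g⁻¹ ∈ I) (H : Subgroup G) : ((∀ x ∈ I, x ∈ H → (∀ g : G, g * x * g⁻¹ ∈ H → ∃ h ∈ H, h * x * h⁻¹ = g * x * g⁻¹) ∧ Subgroup.centralizer ({x} : Set G) ≤ H) ↔ (∀ g : G, g ∉ H → ∀ x ∈ I, ¬ (x ∈ H ∧ x ∈ (H : Subgroup G).map (MulAut.conj g).toMonoidHom))) ∧ ((∀ g : G, g ∉ H → ∀ x ∈ I, ¬ (x ∈ H ∧ x ∈ (H : Subgroup G).map (MulAut.conj g).toMonoidHom)) ↔ ∀ x ∈ I, x ∈ H → ∃! c : G ⧸ H, x • c = c) := by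
  simp only [mem_map_conj]
  refine ⟨⟨fun h g hg x hx h2 => hg (uniqueFix_of_fusion (h x hx h2.1).1 (h x hx h2.1).2 g h2.2),
    fun h x hx hxH => ?_⟩, fun h x hx hxH => (existsUnique_fix_iff hxH).mpr fun g hg => ?_,
    fun h g hg x hx h2 => hg ((existsUnique_fix_iff h2.1).mp (h x hx h2.1) g h2.2)⟩
  · have key : ∀ g : G, g⁻¹ * x * g ∈ H → g ∈ H := fun g hg => by
      by_contra hn
      exact h g hn x hx ⟨hxH, hg⟩
    exact ⟨fun g hg => ⟨g, by simpa using key g⁻¹ (by simpa using hg), rfl⟩,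
      centralizer_le_of_uniqueFix hxH key⟩
  · by_contra hn
    exact h g hn x hx ⟨hxH, hg⟩

end Cfsg.Agent.S5437
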