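import Cfsg.Statements.S5438
import Cfsg.Agent.SporChar.UniqueFix

set_option autoImplicit false
open Cfsg

namespace Cfsg.Agent.S5438

open scoped Pointwise commutatorElement

open Subgroup Cfsg.Lib.Local

/-- Let z be a 2-central involution of the finite group G (an involution central in some Sylow 2-subgroup) and H a subgroup containing z such that the coset H is the only coset of H fixed by z (in the action of G on the cosets of H). Then H has odd index in G, and for every 2-element x of H the conjugates of x lying in H form a single H-class. -/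
theorem result {G : Type*} [Group G] [Finite G] (z : G) (hz : Cfsg.IsTwoCentralInvolution z) (H : Subgroup G) (hzH : z ∈ H) (hfix : ∀ g : G, g⁻¹ * z * g ∈ H → g ∈ H) : Odd H.index ∧ ∀ x ∈ H, (∃ k : ℕ, orderOf x = 2 ^ k) → ∀ g : G, g * x * g⁻¹ ∈ H → ∃ h ∈ H, h * x * h⁻¹ = g * x * g⁻¹ := by
  obtain ⟨h2, P, hzP, hP⟩ := hz
  refine ⟨?_, fun x hx ⟨k, hk⟩ g hg => fusion_of_uniqueFix h2 P hzP hP hzH hfix hx hk hg⟩
  have hPH : (P : Subgroup G) ≤ H := fun y hy =>
    centralizer_le_of_uniqueFix hzH hfix (mem_centralizer_singleton_iff.mpr (hP y hy))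
  exact Nat.not_even_iff_odd.mp fun h =>
    P.not_dvd_index ((even_iff_two_dvd.mp h).trans (index_dvd_of_le hPH))

end Cfsg.Agent.S5438
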