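import Cfsg.Statements.S5439
import Cfsg.Agent.SporChar.UniqueFix

set_option autoImplicit false
open Cfsg

namespace Cfsg.Agent.S5439

open scoped Pointwise commutatorElement

open Subgroup Cfsg.Lib.Local

/-- Let I and J be two different conjugacy classes of involutions of the finite group G and H a subgroup such that every member of I ∪ J fixes exactly one coset in the action on the cosets of H, and such that for every a in I ∩ H and every b in (I ∪ J) ∩ H different from a and commuting with it, the centralizer of a b lies in H. Then H = G. -/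
theorem result {G : Type*} [Group G] [Finite G] (I J : Set G) (a₀ b₀ : G) (ha₀ : orderOf a₀ = 2) (hb₀ : orderOf b₀ = 2) (hI : I = {x | IsConj a₀ x}) (hJ : J = {x | IsConj b₀ x}) (hIJ : I ≠ J) (H : Subgroup G) (hfix : ∀ x ∈ I ∪ J, ∃! c : G ⧸ H, x • c = c) (hcent : ∀ a ∈ I, a ∈ H → ∀ b ∈ I ∪ J, b ∈ H → a ≠ b → a * b = b * a → Subgroup.centralizer ({a * b} : Set G) ≤ H) : H = ⊤ := by
  have hab : ¬ IsConj a₀ b₀ := fun h => hIJ (by
    rw [hI, hJ]; exact Set.ext fun x => ⟨fun e => h.symm.trans e, fun e => h.trans e⟩)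
  have conj : ∀ x g : G, IsConj x (g⁻¹ * x * g) := fun x g => isConj_iff.mpr ⟨g⁻¹, by simp⟩
  obtain ⟨c, hc, -⟩ := hfix a₀ (Or.inl (hI ▸ IsConj.refl a₀))
  obtain ⟨k, rfl⟩ := QuotientGroup.mk_surjective c
  have haH := smul_coe_eq_iff.mp hc
  have haI : k⁻¹ * a₀ * k ∈ I := hI ▸ conj a₀ k
  have hJH : ∀ g : G, g⁻¹ * b₀ * g ∈ H := fun g => by
    refine mem_of_uniqueFix (by rw [orderOf_conj', ha₀]) (by rw [orderOf_conj', hb₀])
      (fun h => hab ((conj a₀ k).trans (h.trans (conj b₀ g).symm)))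
      (centralizer_le_of_uniqueFix haH ((existsUnique_fix_iff haH).mp (hfix _ (Or.inl haI)))) haH
      fun b hb h1 => hcent _ haI haH b ?_ hb
    rcases h1 with h1 | h1
    · exact Or.inl (hI ▸ (conj a₀ k).trans h1)
    · exact Or.inr (hJ ▸ (conj b₀ g).trans h1)
  exact eq_top_iff.mpr fun g _ => (existsUnique_fix_iff (by simpa using hJH 1)).mp
    (hfix b₀ (Or.inr (hJ ▸ IsConj.refl b₀))) g (hJH g)

end Cfsg.Agent.S5439
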