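import Cfsg.Statements.S5440
import Cfsg.Agent.SporChar.FiPair

set_option autoImplicit false
open Cfsg

namespace Cfsg.Agent.S5440

open Subgroup Cfsg.Lib Cfsg.Lib.SporChar Cfsg.Lib.SporChar.Fi Cfsg.Lib.Local


/-- Let G be a finite group of large Fischer type at the involution z: the generalized Fitting subgroup Q of H = C_G(z) is extraspecial of order 2^13, H has normal subgroups Q ≤ H₁ ≤ H₂ with H₁/Q of order 3, H₂/H₁ the projective special unitary group of dimension 4 over the field with nine elements and H₂ of index 2 in H, and some conjugate of z other than z lies in Q. Then H has exactly two orbits, under conjugation, on the involutions of Q other than z. -/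
theorem result {G : Type*} [Group G] [Finite G] (z : G) (Q : Subgroup (Subgroup.centralizer ({z} : Set G))) [Q.Normal] (hF : Cfsg.IsOfLargeFischerTypeAt z Q) : ∃ s t : Subgroup.centralizer ({z} : Set G), s ∈ Q ∧ t ∈ Q ∧ orderOf s = 2 ∧ orderOf t = 2 ∧ (s : G) ≠ z ∧ (t : G) ≠ z ∧ (¬ ∃ h : Subgroup.centralizer ({z} : Set G), h * s * h⁻¹ = t) ∧ ∀ x : Subgroup.centralizer ({z} : Set G), x ∈ Q → orderOf x = 2 → (x : G) ≠ z → (∃ h : Subgroup.centralizer ({z} : Set G), h * s * h⁻¹ = x) ∨ ∃ h : Subgroup.centralizer ({z} : Set G), h * t * h⁻¹ = x := by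
  obtain ⟨π, ν, h⟩ := exists_fd hF
  have h1 : ∀ v : V0, v ≠ 0 → q0 v = 0 → ∃ s ∈ Q, orderOf s = 2 ∧ (s : G) ≠ z ∧ ν s = v :=
    fun v h1 h2 => by
      obtain ⟨_, ⟨s, hs, rfl⟩, rfl⟩ := h.surj v
      have h3 := mt (h.zero ⟨s, hs, rfl⟩).2 h1
      exact ⟨s, hs, orderOf_eq_prime (Subtype.ext ((sq _).trans ((h.sq_iff ⟨s, hs, rfl⟩).2 h2)))
        fun e => h3 (by simp [e]), fun e => h3 (mem_zpowers_iff.2 ⟨1, (zpow_one z).trans e.symm⟩), rfl⟩
  obtain ⟨s, a1, a2, a3, a4⟩ := h1 (vec 5) (by decide) (by decide)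
  obtain ⟨t, b1, b2, b3, b4⟩ := h1 (vec 85) (by decide) (by decide)
  have s0 : ν s ∈ S0 := a4 ▸ by decide +kernel
  have s1 : ν t ∈ S1 := b4 ▸ ⟨by decide, by decide, by decide +kernel⟩
  refine ⟨s, t, a1, b1, a2, b2, a3, b3, ?_, fun x hx h2 hne => ?_⟩
  · rintro ⟨g, rfl⟩
    exact s1.2.2 ((h.conj g ⟨s, a1, rfl⟩).symm ▸ (N0_smul (L0_le (h.mem g))).2 s0)
  · exact (h.cases ⟨x, hx, rfl⟩ (by rw [← map_mul, ← sq, ← h2, pow_orderOf_eq_one]; rfl) fun e =>
      (h.pre.mem_iff.1 e).elim (fun e => by simp [show x = 1 from Subtype.ext e] at h2) hne).imp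
      (fun e => (h.conj_S0 ⟨s, a1, rfl⟩ ⟨x, hx, rfl⟩ s0 e).imp fun _ => Subtype.ext)
      fun e => (h.conj_S1 ⟨t, b1, rfl⟩ ⟨x, hx, rfl⟩ s1 e).imp fun _ => Subtype.ext

end Cfsg.Agent.S5440
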