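import Cfsg.Statements.S5442
import Cfsg.Agent.SporChar.FiPair

set_option autoImplicit false
open Cfsg

namespace Cfsg.Agent.S5442

open Subgroup Cfsg.Lib Cfsg.Lib.SporChar Cfsg.Lib.SporChar.Fi Cfsg.Lib.Local


/-- Let G be a finite group of large Fischer type at the involution z: the generalized Fitting subgroup Q of H = C_G(z) is extraspecial of order 2^13, H has normal subgroups Q ≤ H₁ ≤ H₂ with H₁/Q of order 3, H₂/H₁ the projective special unitary group of dimension 4 over the field with nine elements and H₂ of index 2 in H, and some conjugate of z other than z lies in Q. Let s = g z g⁻¹ be a conjugate of z lying in Q and different from z. Then the intersection of Q and g Q g⁻¹ (as subgroups of G) is elementary abelian of order 2^7; and in H/Q, writing X for the image of the centralizer of s in H and E for the image of the intersection of g Q g⁻¹ with H, E is a normal subgroup of X, elementary abelian of order 32, with X/E isomorphic to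 the alternating group of degree 6. -/
theorem result {G : Type*} [Group G] [Finite G] (z : G) (Q : Subgroup (Subgroup.centralizer ({z} : Set G))) [Q.Normal] (hF : Cfsg.IsOfLargeFischerTypeAt z Q) (s : G) (hsQ : ∃ hsc : s ∈ Subgroup.centralizer ({z} : Set G), (⟨s, hsc⟩ : Subgroup.centralizer ({z} : Set G)) ∈ Q) (hs : IsConj z s) (hs1 : s ≠ z) (g : G) (hg : g * z * g⁻¹ = s) (X E : Subgroup ((Subgroup.centralizer ({z} : Set G)) ⧸ Q)) (hX : X = ((Subgroup.centralizer ({z} : Set G) ⊓ Subgroup.centralizer ({s} : Set G)).subgroupOf (Subgroup.centralizer ({z} : Set G))).map (QuotientGroup.mk' Q)) (hE : E = ((((Q.map (Subgroup.centralizer ({z} : Set G)).subtype)).map (MulAut.conj g).toMonoidHom ⊓ Subgroup.centralizer ({z} : Set G)).subgroupOf (Subgroup.centralizer ({z} : Set G))).map (QuotientGroup.mk' Q)) : Cfsg.IsElementaryAbelian 2 ((Q.map (Subgroup.centralizer ({z} : Set G)).subtype) ⊓ ((Q.map (Subgroup.centralizer ({z} : Set G)).subtype)).map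 (MulAut.conj g).toMonoidHom) ∧ Nat.card ↥((Q.map (Subgroup.centralizer ({z} : Set G)).subtype) ⊓ ((Q.map (Subgroup.centralizer ({z} : Set G)).subtype)).map (MulAut.conj g).toMonoidHom) = 2 ^ 7 ∧ E ≤ X ∧ (∀ x ∈ X, ∀ y ∈ E, x * y * x⁻¹ ∈ E) ∧ Cfsg.IsElementaryAbelian 2 E ∧ Nat.card E = 32 ∧ ∃ _ : (E.subgroupOf X).Normal, Nonempty (↥X ⧸ E.subgroupOf X ≃* alternatingGroup (Fin 6)) := by
  obtain ⟨π, ν, h⟩ := exists_fd hF
  have h1 := mem_map_of_exists hsQ
  obtain ⟨π, ν, h, e⟩ := h.exists_std (trans_S1 ((h.isConj_iff h1 hs1).1 hs))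
  subst hg
  have hp := h.pre.pair hs1 h1
  obtain ⟨ι, h2, rfl⟩ := h.toQD.exists_lift
  obtain ⟨h3, h4⟩ := h.A_eq hp e
  have h5 := h.map_centralizer h1 hp.x_not_mem
  rw [inf_subgroupOf_left] at hX
  rw [inf_subgroupOf_right] at hE
  rw [h.range, e, ← map_map, ← hX] at h5
  replace h3 : E.map ι = E5 := by rw [hE, map_map]; exact h3
  have h6 : ∀ {y}, y ∈ E ↔ ι y ∈ E5 := by rw [← h3]; exact (mem_map_iff_mem h2).symm
  have h7 : ∀ {y}, y ∈ X ↔ ι y ∈ L0 ⊓ MulAction.stabilizer GV (vec 85) := by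
    rw [← h5]; exact (mem_map_iff_mem h2).symm
  obtain ⟨ρ, r1, r2, -⟩ := quot_alt
  let σ := ρ.comp ((ι.domRestrict X).codRestrict _ fun x => h7.1 x.2)
  have h8 : σ.ker = E.subgroupOf X := Subgroup.ext fun x => (SetLike.ext_iff.1 r2 _).trans h6.symm
  have h9 : ∀ y ∈ E, y ^ 2 = 1 := by
    rw [hE]
    rintro _ ⟨a, ha, rfl⟩
    rw [sq, ← map_mul]
    exact h2 (((h.ker _).2 (zpowers_le.mpr hp.xQ (hp.hR.sq_mem _ ha))).trans ι.map_one.symm)
  have hn : (E.subgroupOf X).Normal := h8 ▸ σ.normal_ker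
  have hi : ∀ y ∈ E, y⁻¹ = y := fun y hy => inv_eq_of_mul_eq_one_right ((sq y).symm.trans (h9 y hy))
  refine ⟨hp.isElementaryAbelian_E, h4, fun y hy => h7.2 (E5_le (h6.1 hy)), fun x hx y hy => ?_,
    ⟨⟨⟨fun a b => Subtype.ext ?_⟩⟩, h9⟩, by rw [← card_map_of_injective h2, h3, card_E5], hn,
      ⟨QuotientGroup.liftEquiv _ (φ := σ) ?_ h8.symm⟩⟩
  · exact hn.conj_mem ⟨y, h7.2 (E5_le (h6.1 hy))⟩ hy ⟨x, hx⟩
  · rw [coe_mul, ← hi _ (mul_mem a.2 b.2), mul_inv_rev, hi _ a.2, hi _ b.2, coe_mul]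
  · refine r1.comp fun y => ?_
    obtain ⟨x, hx, e⟩ := h5.ge y.2
    exact ⟨⟨x, hx⟩, Subtype.ext e⟩

end Cfsg.Agent.S5442
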