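import Cfsg.Statements.S5444
import Cfsg.Agent.SporChar.FiThom

set_option autoImplicit false
open Cfsg

namespace Cfsg.Agent.S5444

open Subgroup Cfsg.Lib.SporChar Cfsg.Lib.Spor Cfsg.Lib.Solv
open scoped Pointwise

/-- Let G be a finite group of large Fischer type at the involution z: the generalized Fitting subgroup Q of H = C_G(z) is extraspecial of order 2^13, H has normal subgroups Q ≤ H₁ ≤ H₂ with H₁/Q of order 3, H₂/H₁ the projective special unitary group of dimension 4 over the field with nine elements and H₂ of index 2 in H, and some conjugate of z other than z lies in Q. Let T be a Sylow 2-subgroup of H. Then T has exactly one elementary abelian subgroup A of largest order; A has order 2^11, it meets Q in a subgroup of order 2^7, and its image in H/Q has order 16. -/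
theorem result {G : Type*} [Group G] [Finite G] (z : G) (Q : Subgroup (Subgroup.centralizer ({z} : Set G))) [Q.Normal] (hF : Cfsg.IsOfLargeFischerTypeAt z Q) (T : Sylow 2 ↥(Subgroup.centralizer ({z} : Set G))) : ∃ A : Subgroup ↥(T : Subgroup (Subgroup.centralizer ({z} : Set G))), Cfsg.maxElementaryAbelianSubgroups 2 ↥(T : Subgroup (Subgroup.centralizer ({z} : Set G))) = {A} ∧ Nat.card A = 2 ^ 11 ∧ Nat.card ↥(A.map (T : Subgroup (Subgroup.centralizer ({z} : Set G))).subtype ⊓ Q) = 2 ^ 7 ∧ Nat.card ↥((A.map (T : Subgroup (Subgroup.centralizer ({z} : Set G))).subtype).map (QuotientGroup.mk' Q)) = 16 := by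
  obtain ⟨π, ν, h⟩ := Fi.exists_fd hF
  obtain ⟨x, h⟩ := h.exists_fx
  obtain ⟨_, v, ρ, h0, h⟩ := h.out
  have i := subtype_injective (centralizer ({z} : Set G))
  obtain ⟨g, hg, v, ρ, h, h1, h2⟩ := h.exists_thom h0.YH (map_subtype_le _) (T.isPGroup'.map _)
    fun S h1 h2 h3 => by
      rw [← T.is_maximal' (h2.comap_subtype (K := centralizer {z})) (map_le_iff_le_comap.1 h3),
        map_comap_eq_self (h1.trans (range_subtype _).ge)]
  have h3 := (card_conj_smul g _).trans h0.cardW
  rw [le_antisymm (le_inf Hex.W_le_V Hex.W_le) fun a ha => h0.mem_W_of_mem_V ha.1 ha.2, smul_inf,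
    conj_smul_eq_of_mem_normalizer (h0.pre.norm hg)] at h3
  generalize MulAut.conj g • hexV (G := G) _ _ = V at *
  have h4 : ((V.comap (centralizer ({z} : Set G)).subtype).comap (T : Subgroup _).subtype).map
      (T : Subgroup _).subtype = V.comap (centralizer ({z} : Set G)).subtype :=
    map_comap_eq_self (((comap_mono h1).trans (comap_map_eq_self_of_injective i _).le).trans
      (range_subtype _).ge)
  have h5 := map_comap_eq_self (h1.trans (map_le_range _ _))
  have h6 : Nat.card (V.comap (centralizer ({z} : Set G)).subtype) = 2 ^ 11 := by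
    rw [← card_map_of_injective i, h5, h.coc.cardV]
  have h7 : Nat.card ↥(V.comap (centralizer ({z} : Set G)).subtype ⊓ Q) = 2 ^ 7 := by
    rw [← card_map_of_injective i, map_inf _ _ _ i, h5, h3]; rfl
  rw [← range_subtype (T : Subgroup (centralizer {z})), ← MonoidHom.range_comp] at h1 h2
  refine ⟨_, h.max_eq (i.comp (subtype_injective _)) h1 h2, ?_, ?_, ?_⟩
  · rw [← card_subtype, ← comap_comap, h4, h6]
  · rw [← comap_comap, h4, h7]
  · have := (Q.subgroupOf (V.comap (centralizer ({z} : Set G)).subtype)).card_mul_index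
    rw [← card_subtype, subgroupOf_map_subtype, inf_comm, h6, h7] at this
    rw [← comap_comap, h4, ← relIndex_ker, QuotientGroup.ker_mk', relIndex]
    omega

end Cfsg.Agent.S5444
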