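import Cfsg.Statements.S5445
import Cfsg.Agent.SporChar.FiPair
import Cfsg.Agent.SporChar.SingEight

set_option autoImplicit false
open Cfsg

namespace Cfsg.Agent.S5445

open Subgroup Cfsg.Lib Cfsg.Lib.SporChar Cfsg.Lib.SporChar.Fi Cfsg.Lib.Spor Cfsg.Lib.Spor.PK
  Cfsg.Lib.Solv Cfsg.Lib.Local MulAction GF4
open scoped commutatorElement

theorem card_B1 : Nat.card ↥(E5 ⊓ K0) = 16 := by
  have h1 := ((words_spec (reps_el (Rs := RE.take 4) (by decide +kernel)) (ws := subs 4)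
    (by decide +kernel)).1).trans (card_le_of_le (K := E5 ⊓ K0) ((closure_le _).2 fun g hg => by
      obtain ⟨R, hR, rfl⟩ := List.mem_map.1 hg
      exact ⟨subset_closure (List.mem_map_of_mem (List.mem_of_mem_take hR)),
        (memK_spec memK_two (by simp [hR])).2.2⟩))
  obtain ⟨c, hc⟩ := card_dvd_of_le (inf_le_left : E5 ⊓ K0 ≤ E5)
  have h2 : Nat.card ↥(E5 ⊓ K0) ≠ 32 := fun e => absurd (((rep_el (R := RE.getD 4 0)
    (by decide +kernel)).comm_iff rep_wV).1 (mem_centralizer_singleton_iff.1 (K0_le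
      ((eq_of_le_of_card_ge inf_le_left (card_E5.trans e.symm).le).ge (subset_closure
        (List.mem_map_of_mem (by decide +kernel)))).2).2)) (by decide +kernel)
  rw [card_E5] at hc
  change 16 ≤ _ at h1
  generalize Nat.card ↥(E5 ⊓ K0) = n at *
  have : c < 3 := by nlinarith
  interval_cases c <;> omega

theorem hm_iff {c : ℕ} (hc : c < 4096) : hm (vec 85) (vec c) = 0 ↔ U6.ip 85 c = 0 := by
  rw [← hm_vec (by decide) hc, ← val_zero, val_injective.eq_iff]

theorem E5_triv {g : GV} (hg : g ∈ E5) (h : g ∈ K0) : ∀ u, hm (vec 85) u = 0 →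
    ∃ c : GF4, g • u + u = c • vec 85 := forall_vec fun c hc h1 => by
  obtain ⟨wd, h2, r⟩ := exists_word_E5 hg
  have := ((by decide +kernel : ∀ wd ∈ subs 5, ap (evalW mm I0 RE wd) 170 ≠ 170 ∨
    force (evalW mm I0 RE wd) (fun R => allN 4096 fun c => !Nat.beq (U6.ip 85 c) 0 ||
      Nat.beq (Nat.mod (Nat.xor (ap R c) c) 85) 0 && Nat.blt (Nat.xor (ap R c) c) 256) = true)
        wd h2).resolve_left (not_not.2 (vec_inj (ap_lt _ _) (by decide) (by
      rw [← r.smul (by decide), show vec 170 = w • vec 85 by decide, lin_smul (K0_le h).2,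
        (E5_le hg).2])))
  rw [force_eq, allN_iff] at this
  replace this := this c hc
  rw [r.smul hc, ← vec_xor]
  simp only [(hm_iff hc).1 h1, Nat.beq_refl, Bool.not_true, Bool.false_or, Bool.and_eq_true,
    Nat.beq_eq, Nat.blt_eq] at this
  exact (by decide +kernel : ∀ n < 256, Nat.mod n 85 = 0 → ∃ c : GF4, vec n = c • vec 85) _ this.2 this.1

theorem E5_faith {g : GV} (hg : g ∈ E5) (h : ∀ u, hm (vec 85) u = 0 → g • u = u) : g = 1 := by
  obtain ⟨wd, h2, r⟩ := exists_word_E5 hg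
  refine (r.eq_iff rep_one).2 (((by decide +kernel : ∀ wd ∈ subs 5,
    Nat.beq (evalW mm I0 RE wd) I0 = true ∨ ∃ c ∈ [5, 10, 17, 34, 65, 130, 256, 512, 1024, 2048],
      c < 4096 ∧ U6.ip 85 c = 0 ∧ ap (evalW mm I0 RE wd) c ≠ c) wd h2).resolve_right ?_)
  rintro ⟨c, -, h3, h4, h5⟩
  exact h5 (vec_inj (ap_lt _ _) h3 ((r.smul h3).symm.trans (h _ ((hm_iff h3).2 h4))))

variable {G : Type*} [Group G] {z s t : G} {Q : Subgroup G} {π : centralizer ({z} : Set G) →* GV}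
  {ν : G → V0}

theorem comm_iff (h : FD z Q π ν) (hs : s ∈ Q) (ht : t ∈ Q) :
    s * t = t * s ↔ tr (hm (ν s) (ν t)) = 0 := by
  rw [h.comm_iff hs ht, pol, q0_add]
  generalize q0 (ν s) = a, q0 (ν t) = b, tr _ = c
  revert a b c; decide

/-- The preimage of the line. -/
def V8 (h : FD z Q π ν) : Subgroup G where
  carrier := {g | g ∈ Q ∧ ∃ c : GF4, ν g = c • vec 85}
  one_mem' := ⟨one_mem _, 0, ((h.zero (one_mem _)).2 (one_mem _)).trans (zero_smul _ _).symm⟩
  mul_mem' := fun ⟨ha, c, e⟩ ⟨hb, d, f⟩ => ⟨mul_mem ha hb, c + d, by rw [h.mul ha hb, e, f, add_smul]⟩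
  inv_mem' := fun ⟨ha, c, e⟩ => ⟨inv_mem ha, c, (h.inv ha).trans e⟩

theorem z_mem (h : FD z Q π ν) : z ∈ V8 h :=
  ⟨h.pre.mem, 0, ((h.zero h.pre.mem).2 (mem_zpowers z)).trans (zero_smul _ _).symm⟩

theorem V8_le (h : FD z Q π ν) {S : Subgroup G} (hz : z ∈ S) (hs : s ∈ Q ⊓ S) (ht : t ∈ Q ⊓ S)
    (e1 : ν s = vec 85) (e2 : ν t = w • vec 85) : V8 h ≤ S := fun a ⟨ha, c, e⟩ => by
  obtain ⟨b, hb, e3⟩ : ∃ b ∈ Q ⊓ S, ν b = ν a := by
    rw [e]
    rcases GF4.cases c with rfl | rfl | rfl | rfl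
    exacts [⟨1, one_mem _, ((h.zero (one_mem _)).2 (one_mem _)).trans (zero_smul _ _).symm⟩,
      ⟨s, hs, e1.trans (one_smul _ _).symm⟩, ⟨t, ht, e2⟩,
      ⟨t * s, mul_mem ht hs, by rw [h.mul ht.1 hs.1, e1, e2, add_smul, one_smul]⟩]
  rcases (h.eq_iff hb.1 ha).1 e3 with rfl | rfl
  exacts [hb.2, S.mul_mem hz hb.2]

theorem mem_cent (h : FD z Q π ν) (hs : s ∈ Q) :
    s ∈ centralizer (V8 h : Set G) ↔ hm (vec 85) (ν s) = 0 := by
  refine ⟨fun hc => ?_, fun e a ⟨ha, c, e1⟩ => (comm_iff h ha hs).2 (by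
    rw [e1, hm_smul_left, e, mul_zero, tr_zero])⟩
  have k := fun c : GF4 => let ⟨a, ha, e⟩ := h.surj (c • vec 85)
    hm_smul_left c _ _ ▸ e ▸ (comm_iff h ha hs).1 (hc a ⟨ha, c, e⟩)
  exact (by decide : ∀ a : GF4, (∀ c : GF4, tr (c ^ 2 * a) = 0) → a = 0) _ k

theorem card_V8 [Finite G] (h : FD z Q π ν) : Nat.card (V8 h) = 2 ^ 3 := by
  let f : V8 h →* Multiplicative GF4 := MonoidHom.mk' (fun a => Multiplicative.ofAdd (ν a 0))
    fun a b => congrArg (fun v => Multiplicative.ofAdd (v 0)) (h.mul a.2.1 b.2.1)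
  have e : ∀ c : GF4, (c • vec 85) 0 = c := by decide
  have h1 : f.ker = (zpowers z).subgroupOf _ := Subgroup.ext fun ⟨a, ha, c, e1⟩ => by
    change ν a 0 = 0 ↔ a ∈ zpowers z
    rw [← h.zero ha, e1, e]
    exact ⟨fun e => by rw [e, zero_smul], fun e1 => (e c).symm.trans (congrFun e1 0)⟩
  have h2 : f.range = ⊤ := (eq_top_iff' _).2 fun c => let ⟨a, ha, e1⟩ := h.surj (c.toAdd • vec 85)
    ⟨⟨a, ha, _, e1⟩, congrArg Multiplicative.ofAdd ((congrFun e1 0).trans (e _))⟩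
  rw [← f.ker.card_mul_index, index_ker, h1, h2, card_top, Nat.card_congr (subgroupOfEquivOfLe
    (zpowers_le.2 (z_mem h))).toEquiv, Nat.card_zpowers, h.pre.ord, Nat.card_eq_fintype_card]
  rfl

theorem le_qOf [Finite G] (h : FD z (qOf z) π ν) (hs : s ∈ qOf z) (e : ν s = vec 85) :
    V8 h ≤ qOf s := by
  have hne : s ≠ z := fun e1 => absurd (e.symm.trans (e1 ▸ (h.zero h.pre.mem).2 (mem_zpowers z)))
    (by decide)
  have hp := h.pre.pair_qOf (isConj_iff.1 ((h.isConj_iff hs hne).2 (e ▸ (vec_mem_S1 (by decide)).2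
    (by decide +kernel)))) hne hs
  obtain ⟨a, ha, e1⟩ := (h.A_eq hp e).1.ge (subset_closure List.mem_cons_self)
  obtain ⟨u, hu, e2⟩ := h.surj (vec 34)
  have h1 := h.conj_mem a.2 hu
  refine V8_le h hp.zR ⟨hs, hp.hR.mem⟩ (hp.comm_P_P (a := a) ⟨ha, a.2⟩ ⟨hu, mem_centralizer_singleton_iff.2
    ((comm_iff h hu hs).2 (by rw [e, e2]; decide))⟩) e ?_
  rw [h.mul h1 (inv_mem hu), h.conj a hu, h.inv hu, e2, e1,
    (List.forall₂_cons.1 repsE).1.smul (by decide)]
  decide +kernel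

theorem singular [Finite G] (h : FD z (qOf z) π ν) : Singular (V8 h) := by
  refine singular_of h.pre (fun u ⟨hu, c, e⟩ => (h.sq_iff hu).2 (by rw [e]; clear e; revert c; decide))
    (fun u ⟨hu, c, e⟩ h1 => ?_) fun u ⟨hu, c, e⟩ v ⟨hv, d, e1⟩ h1 _ => ?_ <;> by_cases h2 : u = z
  · exact ⟨1, by simp [h2]⟩
  · refine isConj_iff.1 ((h.isConj_iff hu h2).2 (e ▸ (by decide +kernel : ∀ c : GF4, c • vec 85 ≠ 0 →
      c • vec 85 ≠ 0 ∧ q0 (c • vec 85) = 0 ∧ c • vec 85 ∉ S0) c fun e1 => ?_))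
    exact (h.pre.mem_iff.1 ((h.zero hu).1 (e.trans e1))).elim h1 h2
  · exact h2 ▸ hv
  obtain ⟨a, rfl⟩ := exists_om (c := c) fun e1 => (h.pre.mem_iff.1 ((h.zero hu).1
    (e.trans (e1 ▸ zero_smul _ _)))).elim h1 h2
  exact le_qOf (h.twist (zpowers_le.2 wV_mem (mem_zpowers_wV.2 ⟨a, rfl⟩))) hu (inv_smul_eq_iff.2 e)
    ⟨hv, (om a)⁻¹ * d, inv_smul_eq_iff.2 (e1.trans (by
      change _ = om a • ((om a)⁻¹ * d) • vec 85
      rw [smul_smul, mul_inv_cancel_left₀ (om_ne a)]))⟩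

theorem lift (h : FD z Q π ν) {k : GV} (hk : k ∈ K0) (e : k • vec 85 = vec 85) :
    ∃ c, π c = k ∧ (c : G) ∈ centralizer (V8 h : Set G) := by
  obtain ⟨s, hs, e1⟩ := h.surj (vec 85)
  obtain ⟨t, ht, e2⟩ := h.surj (w • vec 85)
  obtain ⟨q, hq, e3⟩ := h.surj (vec 1)
  obtain ⟨y, rfl, e4⟩ := h.exists_conj hs hs (fun e3 => absurd (e1.symm.trans ((h.zero hs).2 e3))
    (by decide)) (h.fi.K0_le hk) (e1 ▸ e)
  have key : ∀ c : centralizer ({z} : Set G), c * s * (c : G)⁻¹ = s → c * t * (c : G)⁻¹ = t →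
      (c : G) ∈ centralizer (V8 h : Set G) := fun c h1 h2 a ha => mem_centralizer_singleton_iff.1
    (V8_le h (mem_cent_symm c.2) ⟨hs, mem_cent_symm (mem_cent_iff_conj.2 h1)⟩
      ⟨ht, mem_cent_symm (mem_cent_iff_conj.2 h2)⟩ e1 e2 ha)
  rcases (h.eq_iff ht (h.conj_mem y.2 ht)).1 (by
    rw [h.conj y ht, e2, lin_smul (K0_le hk).2, e]) with e5 | e5
  · exact ⟨y, rfl, key y e4 e5⟩
  have e6 := (comm_iff h hq hs).2 (by rw [e1, e3]; decide)
  have e7 := (h.pre.comm_or hq ht).resolve_left (mt (comm_iff h hq ht).1 (by rw [e2, e3]; decide))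
  refine ⟨⟨q, h.pre.le_cent hq⟩⁻¹ * y, by rw [map_mul, map_inv, (h.ker ⟨q, _⟩).2 hq, inv_one, one_mul],
    key _ ?_ ?_⟩
  · calc q⁻¹ * y * s * (q⁻¹ * y)⁻¹ = q⁻¹ * (y * s * (y : G)⁻¹ * q) := by group
      _ = s := by rw [e4, ← e6, inv_mul_cancel_left]
  · calc q⁻¹ * y * t * (q⁻¹ * y)⁻¹ = q⁻¹ * (y * t * (y : G)⁻¹) * q := by group
      _ = t := by rw [e5, ← e7]; group

theorem mem_K0 (h : FD z Q π ν) {c : centralizer ({z} : Set G)}
    (hc : (c : G) ∈ centralizer (V8 h : Set G)) : π c ∈ K0 ⊓ stabilizer GV (vec 85) := by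
  have k : ∀ d : GF4, π c • d • vec 85 = d • vec 85 := fun d => by
    obtain ⟨s, hs, e⟩ := h.surj (d • vec 85)
    rw [← e, ← h.conj c hs, ← hc s ⟨hs, d, e⟩, mul_inv_cancel_right]
  have k1 : π c • vec 85 = vec 85 := by simpa using k 1
  refine ⟨(mem_L0.1 (h.mem c)).resolve_right fun e => ?_, k1⟩
  have := smul_left_cancel (π c * a0) (show _ • a0 • w • vec 85 = _ • w • a0 • vec 85 by
    rw [lin_smul (K0_le e).2, ← mul_smul, ← mul_smul _ a0, mul_assoc, a0_sq, mul_one, k, k1])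
  rw [rep_a0.smul (by decide), show w • vec 85 = vec 170 by decide, rep_a0.smul (by decide)] at this
  exact absurd this (by decide +kernel)

/-- Let G be a finite group of large Fischer type at the involution z: the generalized Fitting subgroup Q of H = C_G(z) is extraspecial of order 2^13, H has normal subgroups Q ≤ H₁ ≤ H₂ with H₁/Q of order 3, H₂/H₁ the projective special unitary group of dimension 4 over the field with nine elements and H₂ of index 2 in H, and some conjugate of z other than z lies in Q. Then G has an elementary abelian subgroup V of order 8 containing z whose normalizer L has the following structure: the largest normal 2-subgroup R of L is special of order 2^15 with centre V, and L/R is isomorphic to the direct product of SL(3, 2) and the alternating group of degree 6. -/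
theorem result {G : Type*} [Group G] [Finite G] (z : G) (Q : Subgroup (Subgroup.centralizer ({z} : Set G))) [Q.Normal] (hF : Cfsg.IsOfLargeFischerTypeAt z Q) : ∃ V : Subgroup G, Cfsg.IsElementaryAbelian 2 V ∧ Nat.card V = 8 ∧ z ∈ V ∧ ∃ R : Subgroup G, R = (Cfsg.pCore 2 ↥(Subgroup.normalizer (V : Set G))).map (Subgroup.normalizer (V : Set G)).subtype ∧ Cfsg.IsSpecial 2 ↥R ∧ Nat.card R = 2 ^ 15 ∧ (Subgroup.center ↥R).map R.subtype = V ∧ ∃ _ : (R.subgroupOf (Subgroup.normalizer (V : Set G))).Normal, Nonempty (↥(Subgroup.normalizer (V : Set G)) ⧸ R.subgroupOf (Subgroup.normalizer (V : Set G)) ≃* Matrix.SpecialLinearGroup (Fin 3) (ZMod 2) × ↥(alternatingGroup (Fin 6))) := by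
  obtain ⟨π, ν, h⟩ := exists_fd hF
  have hq : Q.map (centralizer ({z} : Set G)).subtype = qOf z := (preLX_of_genFitting hF.1.1
    (congrArg (map (centralizer ({z} : Set G)).subtype) hF.1.2.1) h.pre.isExtraspecial).2
  rw [hq] at h
  have hs := singular h
  have hz := z_mem h
  have hH : centralizer (V8 h : Set G) ≤ centralizer {z} := fun c hc =>
    mem_centralizer_singleton_iff.2 (hc z hz).symm
  obtain ⟨ρ, -, h1, h2⟩ := quot_alt
  let σ := ρ.comp ((π.comp (inclusion hH)).codRestrict (L0 ⊓ stabilizer GV (vec 85))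
    fun c => ⟨h.mem _, (mem_K0 h (c := inclusion hH c) c.2).2⟩)
  have h3 : ∀ c, c ∈ σ.ker ↔ π (inclusion hH c) ∈ E5 := fun c => SetLike.ext_iff.1 h1 _
  set R := σ.ker.map (centralizer (V8 h : Set G)).subtype
  have hR : ∀ {c : centralizer ({z} : Set G)}, (c : G) ∈ R ↔
      (c : G) ∈ centralizer (V8 h : Set G) ∧ π c ∈ E5 :=
    ⟨by rintro ⟨d, hd, e⟩; exact ⟨e ▸ d.2, (congrArg π (Subtype.ext e)).subst (motive := (· ∈ E5))
      ((h3 d).1 hd)⟩, fun ⟨h1, h2⟩ => ⟨⟨_, h1⟩, (h3 _).2 h2, rfl⟩⟩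
  have hRH : R ≤ centralizer {z} := (map_subtype_le _).trans hH
  have h4 : qOf z ⊓ R = qOf z ⊓ centralizer (V8 h : Set G) := le_antisymm
    (inf_le_inf_left _ (map_subtype_le _)) fun q hq => ⟨hq.1, (hR (c := ⟨q, hH hq.2⟩)).2
      ⟨hq.2, ((h.ker ⟨q, _⟩).2 hq.1).symm ▸ one_mem _⟩⟩
  have hV : V8 h ≤ qOf z := fun _ => And.left
  have hZ := h.pre.center_eq.le.trans (zpowers_le.2 hz)
  have hc : Nat.card R = 2 ^ 15 := by
    have h5 := h.pre.card_centralizer_mul hZ hV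
    have h6 := h.card_map R
    rw [h4, inf_eq_left.2 hRH, show (R.subgroupOf _).map π = E5 ⊓ K0 from le_antisymm
      (map_le_iff_le_comap.2 fun c hc => ⟨(hR.1 hc).2, (mem_K0 h (hR.1 hc).1).1⟩) fun k hk =>
        (lift h hk.2 (E5_le hk.1).2).imp fun c ⟨e, hc⟩ => ⟨hR.2 ⟨hc, e ▸ hk.1⟩, e⟩, card_B1] at h6
    rw [h.pre.center_eq, Nat.card_zpowers, h.pre.ord, h.card, card_V8] at h5
    omega
  have hp : IsPGroup 2 R := IsPGroup.of_card hc
  have := alternatingGroup.isSimpleGroup (α := Fin 6) (by simp)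
  obtain ⟨θ, h5, h6, h7⟩ := hs.quot_prod (ρ := σ) (fun e => h.pre.ne_one (e.le hz)) (fun N hN h2 =>
    hN.eq_bot_or_eq_top.resolve_right fun e => by
      obtain ⟨n, h⟩ := h2.exists_card_eq
      rw [e, card_top, card_alt] at h
      exact absurd ((Nat.prime_three.dvd_of_dvd_pow (m := 2) (n := n) (h ▸ by decide))) (by decide))
    (alternatingGroup.center_eq_bot (by simp)) (fun a => by
      obtain ⟨k, hk, rfl⟩ := h2.ge (mem_top a)
      obtain ⟨c, e, hc⟩ := lift h hk k.2.2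
      exact ⟨⟨c, hc⟩, congrArg ρ (Subtype.ext e)⟩)
    (hp.of_equiv (equivMapOfInjective _ _ (subtype_injective _)).symm)
  obtain ⟨e⟩ := hs.nonempty_aut_equiv (card_V8 h)
  have h8 : R.subgroupOf (normalizer (V8 h : Set G)) = θ.ker := by
    rw [← show _ = R from h7]; exact comap_map_eq_self_of_injective (subtype_injective _) _
  have h9 : (R.subgroupOf (normalizer (V8 h : Set G))).Normal := by rw [h8]; infer_instance
  have hP : ∀ r ∈ R, ∀ u ∈ qOf z ⊓ centralizer (V8 h : Set G), r * u * r⁻¹ * u⁻¹ ∈ V8 h :=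
    fun r hr u hu => by
      have k := (hR (c := ⟨r, hRH hr⟩)).1 hr
      have k1 := h.conj_mem (hRH hr) hu.1
      exact ⟨mul_mem k1 (inv_mem hu.1), (E5_triv k.2 (mem_K0 h k.1).1 _ ((mem_cent h hu.1).1 hu.2)).imp
        fun c e => by rw [h.mul k1 (inv_mem hu.1), h.inv hu.1, ← e]; exact congrArg (· + ν u) (h.conj ⟨r, _⟩ hu.1)⟩
  have hC : ∀ r ∈ R, r ∈ centralizer ((qOf z ⊓ centralizer (V8 h : Set G) : Subgroup G) : Set G) →
      r ∈ V8 h := fun r hr hc => (h.pre.centralizer_centralizer hZ hV).le ⟨(h.ker ⟨r, hRH hr⟩).1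
    (E5_faith ((hR (c := ⟨r, hRH hr⟩)).1 hr).2 fun u hu => by
      obtain ⟨q, hq, rfl⟩ := h.surj u
      rw [← h.conj _ hq, ← hc q ⟨hq, (mem_cent h hq).2 hu⟩, mul_inv_cancel_right]), hc⟩
  have hVR : V8 h ≤ R := fun a ha => (h4.ge ⟨hV ha, fun b hb => hs.comm hb ha⟩).2
  have hcen : (center R).map R.subtype = V8 h := by
    rw [map_subtype_center]
    exact le_antisymm (fun r hr => hC r hr.1 (centralizer_le (h4.ge.trans inf_le_right) hr.2))
      (le_inf hVR (le_centralizer_iff.1 (map_subtype_le _)))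
  have hsq : ∀ r : R, r * r ∈ center R := fun r => (mem_map_iff_mem (subtype_injective _)).1
    (hcen.ge (hC _ (r * r).2 fun u hu => by
      have k := hP r r.2 u hu
      calc u * (r * r) = (r * u * (r : G)⁻¹ * u⁻¹) * (r * u * (r : G)⁻¹ * u⁻¹) * u * (r * r) := by
            rw [hs.sq _ k, one_mul]
        _ = (r * u * (r : G)⁻¹ * u⁻¹) * r * u * r := by group
        _ = r * r * u := by rw [map_subtype_le _ r.2 _ k]; group))
  have hf : frattini R ≤ center R := by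
    have : ElemAb 2 (R ⧸ center R) := by
      have k : ∀ a : R ⧸ center R, a * a = 1 := fun a => by
        induction a using QuotientGroup.induction_on
        exact (QuotientGroup.eq_one_iff (_ * _)).2 (hsq _)
      exact ⟨fun a b => by
        rw [← inv_eq_of_mul_eq_one_right (k (a * b)), mul_inv_rev, inv_eq_of_mul_eq_one_right (k a),
          inv_eq_of_mul_eq_one_right (k b)], fun a => (sq a).trans (k a)⟩
    exact frattini_le_of_frattini_quotient_eq_bot _ (ElemAb.frattini_eq_bot 2 _)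
  have hd : center R ≤ commutator R := by
    rw [← map_subtype_le_map_subtype, hcen]
    obtain ⟨a, ha, e1⟩ := h.surj (vec 256)
    obtain ⟨b, hb, e2⟩ := h.surj (vec 512)
    have k : z ∈ (commutator R).map R.subtype := by
      rw [Subgroup.map_subtype_commutator, ← mul_inv_eq_iff_eq_mul.2 ((h.pre.comm_or ha hb).resolve_left
        (mt (comm_iff h ha hb).1 (by rw [e1, e2]; decide)))]
      exact commutator_mem_commutator (h4.ge ⟨ha, (mem_cent h ha).2 (by rw [e1]; decide)⟩).2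
        (h4.ge ⟨hb, (mem_cent h hb).2 (by rw [e2]; decide)⟩).2
    intro v hv
    by_cases e : v = 1
    · exact e ▸ one_mem _
    obtain ⟨g, hg, rfl⟩ := hs.trans hz hv h.pre.ne_one e
    exact conj_mem_of_mem_normalizer (normalizer_le_normalizer_map_subtype_of_char _
      (le_normalizer_of_normal_subgroupOf ((map_subtype_le _).trans (centralizer_le_normalizer _)) hg)) k
  have := hp.isNilpotent
  exact ⟨V8 h, ⟨⟨⟨fun a b => Subtype.ext (hs.comm a.2 b.2)⟩⟩, fun a ha => (sq a).trans (hs.sq a ha)⟩,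
    card_V8 h, hz, R, h6 ▸ h7.symm, ⟨hp, le_antisymm hf (hd.trans commutator_le_frattini_of_isNilpotent),
      le_antisymm (commutator_le_frattini_of_isNilpotent.trans hf) hd⟩, hc, hcen, h9,
    ⟨((QuotientGroup.quotientMulEquivOfEq h8).trans (QuotientGroup.quotientKerEquivOfSurjective θ h5)).trans
      (e.prodCongr (MulEquiv.refl _))⟩⟩

end Cfsg.Agent.S5445
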