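import Cfsg.Statements.S5446
import Cfsg.Agent.SporChar.FiThom

set_option autoImplicit false
open Cfsg

namespace Cfsg.Agent.S5446

open Subgroup Cfsg.Lib.SporChar Cfsg.Lib.Spor Cfsg.Lib.Solv

/-- Let G be a finite group of large Fischer type at the involution z: the generalized Fitting subgroup Q of H = C_G(z) is extraspecial of order 2^13, H has normal subgroups Q ≤ H₁ ≤ H₂ with H₁/Q of order 3, H₂/H₁ the projective special unitary group of dimension 4 over the field with nine elements and H₂ of index 2 in H, and some conjugate of z other than z lies in Q. Let T be a Sylow 2-subgroup of G, A its Thompson subgroup (generated by the elementary abelian subgroups of T of largest order) and M = N_G(A) its normalizer. Then A is elementary abelian of order 2^11 and M/A is isomorphic to the Mathieu group of degree 24 (the automorphism group of the length-24 binary Golay code). -/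
theorem result {G : Type*} [Group G] [Finite G] (z : G) (Q : Subgroup (Subgroup.centralizer ({z} : Set G))) [Q.Normal] (hF : Cfsg.IsOfLargeFischerTypeAt z Q) (T : Sylow 2 G) (A M : Subgroup G) (hA : A = Cfsg.thompsonSubgroupOf 2 (T : Subgroup G)) (hM : M = Subgroup.normalizer (A : Set G)) : Cfsg.IsElementaryAbelian 2 A ∧ Nat.card A = 2 ^ 11 ∧ ∃ _ : (A.subgroupOf M).Normal, Nonempty (↥M ⧸ A.subgroupOf M ≃* ↥Cfsg.M24) := by
  obtain ⟨v, ρ, h⟩ := Fi.exists_thom hF T
  subst hM
  rw [← hA] at h
  exact ⟨h.elem, h.coc.cardV, h.coc.quot le_rfl fun σ =>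
    ⟨h.coc.ρ_surj σ, fun ⟨k, _, e⟩ => e ▸ h.coc.ρ_mem k⟩⟩

end Cfsg.Agent.S5446
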