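import Cfsg.Statements.S5447
import Cfsg.Agent.SporChar.FiThom

set_option autoImplicit false
open Cfsg

namespace Cfsg.Agent.S5447

open Subgroup Cfsg.Lib.SporChar Cfsg.Lib.Spor Cfsg.Lib.Solv

/-- Let G be a finite group of large Fischer type at the involution z: the generalized Fitting subgroup Q of H = C_G(z) is extraspecial of order 2^13, H has normal subgroups Q ≤ H₁ ≤ H₂ with H₁/Q of order 3, H₂/H₁ the projective special unitary group of dimension 4 over the field with nine elements and H₂ of index 2 in H, and some conjugate of z other than z lies in Q. Let T be a Sylow 2-subgroup of G, A its Thompson subgroup and M = N_G(A) its normalizer. Then M controls fusion in A (elements of A conjugate in G are conjugate in M), and M has exactly two orbits on the non-identity elements of A: those conjugate to z in G and those not. -/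
theorem result {G : Type*} [Group G] [Finite G] (z : G) (Q : Subgroup (Subgroup.centralizer ({z} : Set G))) [Q.Normal] (hF : Cfsg.IsOfLargeFischerTypeAt z Q) (T : Sylow 2 G) (A M : Subgroup G) (hA : A = Cfsg.thompsonSubgroupOf 2 (T : Subgroup G)) (hM : M = Subgroup.normalizer (A : Set G)) : (∀ a ∈ A, ∀ g : G, g * a * g⁻¹ ∈ A → ∃ m ∈ M, m * a * m⁻¹ = g * a * g⁻¹) ∧ (∃ a ∈ A, a ≠ 1 ∧ IsConj z a) ∧ (∃ a ∈ A, a ≠ 1 ∧ ¬ IsConj z a) ∧ ∀ a ∈ A, ∀ b ∈ A, a ≠ 1 → b ≠ 1 → (IsConj z a ↔ IsConj z b) → ∃ m ∈ M, m * a * m⁻¹ = b := by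
  obtain ⟨v, ρ, h⟩ := Fi.exists_thom hF T
  subst hM
  rw [← hA] at h
  have e4 : (maskSet 15).card = 4 := by decide +kernel
  have e2 : (maskSet 3).card = 2 := by decide +kernel
  refine ⟨fun a ha g hg => ?_, ⟨_, h.coc.v_mem (e4 ▸ by decide), h.coc.v_ne_one (e4 ▸ by decide)
    (by omega) (by omega), h.four _ e4⟩, ⟨_, h.coc.v_mem (e2 ▸ by decide), h.coc.v_ne_one
    (e2 ▸ by decide) (by omega) (by omega), h.two _ e2⟩, fun a ha b hb => h.trans ha hb⟩
  by_cases e : a = 1
  · exact ⟨1, one_mem _, by simp [e]⟩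
  have c : IsConj a (g * a * g⁻¹) := isConj_iff.2 ⟨g, rfl⟩
  exact h.trans ha hg e (mt conj_eq_one_iff.1 e) ⟨fun e => e.trans c, fun e => e.trans c.symm⟩

end Cfsg.Agent.S5447
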