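import Cfsg.Statements.S5448
import Cfsg.Agent.SporChar.FiThom

set_option autoImplicit false
open scoped Pointwise
open Cfsg

namespace Cfsg.Agent.S5448

open Subgroup Cfsg.Lib.SporChar Cfsg.Lib.Spor Cfsg.Lib.Solv

/-- Let G be a finite group of large Fischer type at the involution z: the generalized Fitting subgroup Q of H = C_G(z) is extraspecial of order 2^13, H has normal subgroups Q ≤ H₁ ≤ H₂ with H₁/Q of order 3, H₂/H₁ the projective special unitary group of dimension 4 over the field with nine elements and H₂ of index 2 in H, and some conjugate of z other than z lies in Q. Let T be a Sylow 2-subgroup of G, A its Thompson subgroup, M = N_G(A) its normalizer, and t an involution of A not conjugate to z in G. Then the centralizer of t in M, modulo A, is isomorphic to the setwise stabilizer of a two-element subset of the 24 points in the Mathieu group of degree 24 (the automorphism group of the smaller Mathieu group on 22 points). -/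
theorem result {G : Type*} [Group G] [Finite G] (z : G) (Q : Subgroup (Subgroup.centralizer ({z} : Set G))) [Q.Normal] (hF : Cfsg.IsOfLargeFischerTypeAt z Q) (T : Sylow 2 G) (A M : Subgroup G) (hA : A = Cfsg.thompsonSubgroupOf 2 (T : Subgroup G)) (hM : M = Subgroup.normalizer (A : Set G)) (t : G) (htA : t ∈ A) (ht2 : orderOf t = 2) (ht : ¬ IsConj z t) : ∃ _ : (A.subgroupOf (M ⊓ Subgroup.centralizer ({t} : Set G))).Normal, Nonempty (↥(M ⊓ Subgroup.centralizer ({t} : Set G)) ⧸ A.subgroupOf (M ⊓ Subgroup.centralizer ({t} : Set G)) ≃* ↥(Cfsg.M24 ⊓ MulAction.stabilizer (Equiv.Perm Cfsg.GolayPt) ({none, some 0} : Set Cfsg.GolayPt))) := by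
  obtain ⟨v, ρ, h⟩ := Fi.exists_thom hF T
  subst hM
  rw [← hA] at h
  obtain ⟨D, hD, rfl⟩ := ((h.coc.cases htA).resolve_left fun e => by simp [e] at ht2).resolve_right
    fun ⟨D, hD, e⟩ => ht (e ▸ h.four D hD)
  obtain ⟨σ, hσ, e⟩ := MP.M24_trans_finset (t := {none, some 0}) (hD.trans_le (by decide)) hD
  obtain ⟨_, ⟨f⟩⟩ := h.coc.quot (K := _ ⊓ centralizer {v D}) (S := M24 ⊓ MulAction.stabilizer _ D)
    inf_le_left fun τ => ⟨fun ⟨h1, h2⟩ => by
      obtain ⟨n, hn, rfl⟩ := h.coc.ρ_surj τ h1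
      exact ⟨n, ⟨hn, mem_centralizer_singleton_iff.2 (mul_inv_eq_iff_eq_mul.1
        ((h.coc.conj n hn D (hD ▸ by decide)).trans (congrArg v h2)))⟩, rfl⟩,
    fun ⟨n, hn, e⟩ => e ▸ ⟨h.coc.ρ_mem n, h.coc.smul_eq_of_comm hn.1 hD
      (mul_inv_eq_iff_eq_mul.2 (mem_centralizer_singleton_iff.1 hn.2))⟩⟩
  refine ⟨‹_›, ⟨f.trans (((MulAut.conj σ).subgroupMap _).trans (MulEquiv.subgroupCongr ?_))⟩⟩
  rw [map_inf _ _ _ (MulAut.conj σ).injective, mem_normalizer_iff_map_conj_eq.1 (le_normalizer hσ),
    ← Finset.coe_pair, MulAction.stabilizer_coe_finset, ← e,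
    MulAction.stabilizer_smul_eq_stabilizer_map_conj]
  rfl

end Cfsg.Agent.S5448
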