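import Cfsg.Statements.S5449
import Cfsg.Agent.SporChar.FiE

set_option autoImplicit false
open Cfsg

namespace Cfsg.Agent.S5449

open Subgroup Cfsg.Lib Cfsg.Lib.SporChar.Fi

/-- Let G be a finite group of large Fischer type at the involution z: the generalized Fitting subgroup Q of H = C_G(z) is extraspecial of order 2^13, H has normal subgroups Q ≤ H₁ ≤ H₂ with H₁/Q of order 3, H₂/H₁ the projective special unitary group of dimension 4 over the field with nine elements and H₂ of index 2 in H, and some conjugate of z other than z lies in Q. Then Q contains a four-group E, not containing z and containing an involution not conjugate to z in G, whose centralizer in G is quasisimple with quotient by E isomorphic to the projective special unitary group of dimension 6 over the field with four elements. -/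
theorem result {G : Type*} [Group G] [Finite G] (z : G) (Q : Subgroup (Subgroup.centralizer ({z} : Set G))) [Q.Normal] (hF : Cfsg.IsOfLargeFischerTypeAt z Q) : ∃ E : Subgroup G, E ≤ (Q.map (Subgroup.centralizer ({z} : Set G)).subtype) ∧ Cfsg.IsElementaryAbelian 2 E ∧ Nat.card E = 4 ∧ z ∉ E ∧ (∃ t ∈ E, orderOf t = 2 ∧ ¬ IsConj z t) ∧ Cfsg.IsQuasisimple ↥(Subgroup.centralizer (E : Set G)) ∧ ∃ (_ : (E.subgroupOf (Subgroup.centralizer (E : Set G))).Normal) (K : Type) (_ : Field K) (_ : Fintype K), Fintype.card K = 4 ∧ Nonempty (↥(Subgroup.centralizer (E : Set G)) ⧸ E.subgroupOf (Subgroup.centralizer (E : Set G)) ≃* Cfsg.PSU 6 K 2) := by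
  obtain ⟨π, ν, h⟩ := exists_fd hF
  obtain ⟨π, ν, t, s, h, -, h2, ⟨n, hn, q, h3, h4, -⟩, h5⟩ := h.exists_fe
  set E := closure ({t, s} : Set G)
  have hc : E.subgroupOf (centralizer (E : Set G)) ≤ center _ := fun a ha =>
    mem_center_iff.2 fun b => Subtype.ext (b.2 a ha).symm
  have hN : (E.subgroupOf (centralizer (E : Set G))).Normal := ⟨fun a ha b => by
    rwa [mem_center_iff.1 (hc ha), mul_inv_cancel_right]⟩
  have k := h.qe rfl (QuotientGroup.mk'_surjective (E.subgroupOf _)) QuotientGroup.eq_one_iff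
  obtain ⟨⟨e⟩, -⟩ := h.u62 rfl k.sur k.ker (n := ⟨n, hn⟩) h3 h4 Spor.GF4.card
  have := Class.Form.isSimpleGroup_PSU (q := 2) Spor.GF4.card 6 (by decide) (by decide)
  have hs := e.isSimpleGroup
  have hz : center (centralizer (E : Set G) ⧸ E.subgroupOf _) ≠ ⊤ := fun e => h4 (k.conj_eq (c := ⟨n, hn⟩)
    (by rw [map_mul, map_mul, ← mem_center_iff.1 (e.ge (mem_top _)), map_inv, inv_mul_cancel_left]))
  have h6 : center (centralizer (E : Set G)) = E.subgroupOf _ := le_antisymm (by
    rw [← QuotientGroup.ker_mk' (E.subgroupOf _), ← Subgroup.map_eq_bot_iff, eq_bot_iff,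
      ← (hs.eq_bot_or_eq_top_of_normal (center _) inferInstance).resolve_right hz]
    rintro _ ⟨a, ha, rfl⟩
    exact mem_center_iff.2 (k.sur.forall.2 fun b => by rw [← map_mul, mem_center_iff.1 ha, map_mul])) hc
  refine ⟨E, h.le, ⟨⟨⟨fun a b => Subtype.ext (k.ab b.2 a a.2)⟩⟩, fun a ha => ?_⟩, h.card_E, h.nz,
    ⟨t, subset_closure (by simp), orderOf_eq_prime ((sq t).trans h.t2) h.t1, h2⟩,
    ⟨⟨?_⟩, (QuotientGroup.quotientMulEquivOfEq h6).isSimpleGroup⟩, hN, _, _, _, Spor.GF4.card, ⟨e⟩⟩
  · rcases h.mem_E.1 ha with rfl | rfl | rfl | rfl <;> rw [sq]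
    exacts [mul_one _, h.t2, h.s2, by rw [Commute.mul_mul_mul_comm h.ts.symm, h.t2, h.s2, mul_one]]
  · rw [← comap_map_eq_self (f := QuotientGroup.mk' (E.subgroupOf _)) (H := commutator _) (by
      rw [QuotientGroup.ker_mk']
      exact fun a ha => (mem_map_iff_mem (subtype_injective _)).1 ((map_subtype_commutator _).ge (h5 ha))),
      _root_.commutator_def, map_commutator, map_top_of_surjective _ k.sur, ← _root_.commutator_def,
      (hs.eq_bot_or_eq_top_of_normal _ inferInstance).resolve_left
        (mt (commutator_eq_bot_iff_center_eq_top _).1 hz), comap_top]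

end Cfsg.Agent.S5449
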