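import Cfsg.Statements.S5450
import Cfsg.Agent.SporChar.FiH

set_option autoImplicit false
open Cfsg

namespace Cfsg.Agent.S5450

open Cfsg.Lib.Known Cfsg.Lib.Spor Cfsg.Lib.Spor.FG

/-- Let G be a finite group of large Fischer type at the involution z: the generalized Fitting subgroup Q of H = C_G(z) is extraspecial of order 2^13, H has normal subgroups Q ≤ H₁ ≤ H₂ with H₁/Q of order 3, H₂/H₁ the projective special unitary group of dimension 4 over the field with nine elements and H₂ of index 2 in H, and some conjugate of z other than z lies in Q. Let t be an involution of Q not conjugate to z in G, and K the generalized Fitting subgroup of the centralizer of t. Then K is quasisimple of index 2 in the centralizer of t, contains t, and the centralizer of t modulo the subgroup generated by t is isomorphic to the full automorphism group of the Fischer group Fi₂₂ (as presented). -/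
theorem result {G : Type*} [Group G] [Finite G] (z : G) (Q : Subgroup (Subgroup.centralizer ({z} : Set G))) [Q.Normal] (hF : Cfsg.IsOfLargeFischerTypeAt z Q) (t : G) (htQ : ∃ htc : t ∈ Subgroup.centralizer ({z} : Set G), (⟨t, htc⟩ : Subgroup.centralizer ({z} : Set G)) ∈ Q) (ht2 : orderOf t = 2) (ht : ¬ IsConj z t) (K : Subgroup ↥(Subgroup.centralizer ({t} : Set G))) (hK : K = Cfsg.generalizedFittingSubgroup ↥(Subgroup.centralizer ({t} : Set G))) [hn : ((Subgroup.zpowers t).subgroupOf (Subgroup.centralizer ({t} : Set G))).Normal] : Cfsg.IsQuasisimple ↥K ∧ K.index = 2 ∧ (∃ htc : t ∈ Subgroup.centralizer ({t} : Set G), (⟨t, htc⟩ : ↥(Subgroup.centralizer ({t} : Set G))) ∈ K) ∧ Nonempty (↥(Subgroup.centralizer ({t} : Set G)) ⧸ (Subgroup.zpowers t).subgroupOf (Subgroup.centralizer ({t} : Set G)) ≃* MulAut Cfsg.Spor.Fi22) := by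
    obtain ⟨_, _, _, h, -, hc⟩ := Cfsg.Lib.SporChar.Fi.exists_f24 hF
    obtain ⟨f, a, b, c, d, z, -, q, rfl, -, h1, -⟩ := h.exists_equiv hc.le
    obtain ⟨t, rfl⟩ := f.surjective t
    rw [f.orderOf_eq] at ht2
    obtain ⟨x, hx, y, hy, e⟩ := (q.inv t (by rw [← pow_two, ← ht2, pow_orderOf_eq_one]) fun e => by
      simp [e] at ht2).resolve_right fun ⟨k, e⟩ => ht (f.toMonoidHom.map_isConj (isConj_iff.2 ⟨k, Subtype.ext (by
        simpa [h1] using e)⟩))
    let φ : G →* FF := (commutator FF).subtype.comp f.symm.toMonoidHom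
    have h2 : Function.Injective φ := Subtype.val_injective.comp f.symm.injective
    have h3 : φ (f t) = x * y := (congrArg Subtype.val (f.symm_apply_apply t)).trans e
    obtain ⟨k1, k2, ⟨u, k3, k4⟩, n, ⟨j⟩⟩ := cent_two (IsTT.group_of_class f24_tt) f24_prim f24_type hx hy
      (CL := (Subgroup.centralizer {f t}).map φ) (Subgroup.ext fun g => by
        rw [Subgroup.mem_inf, Subgroup.mem_centralizer_singleton_iff, ← h3]
        refine ⟨?_, fun ⟨g1, g2⟩ => ⟨f ⟨g, g1⟩, Subgroup.mem_centralizer_singleton_iff.2 (h2 ?_), by simp [φ]⟩⟩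
        · rintro ⟨g, g1, rfl⟩
          exact ⟨Subtype.prop _, by rw [← map_mul, ← map_mul, Subgroup.mem_centralizer_singleton_iff.1 g1]⟩
        · simpa [φ] using g2)
    let i := (Subgroup.centralizer {f t}).equivMapOfInjective φ h2
    have m : f t ∈ Subgroup.centralizer {f t} := Subgroup.mem_centralizer_singleton_iff.2 rfl
    obtain rfl : u = i ⟨_, m⟩ := Subtype.ext (k4.trans h3.symm)
    subst hK
    rw [← Cfsg.Lib.Trans.map_genFitting_equiv i] at k1 k2 k3
    refine ⟨(Cfsg.Lib.Trans.isQuasisimple_map_iff_of_injective _ _ i.injective).1 k1,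
      (Subgroup.index_map_of_bijective i.bijective _).symm.trans k2,
      ⟨m, (Subgroup.mem_map_iff_mem i.injective).1 k3⟩, ⟨(QuotientGroup.congr _ _ i ?_).trans j⟩⟩
    ext g
    obtain ⟨g, rfl⟩ := i.surjective g
    rw [← h3, ← MonoidHom.map_zpowers]
    exact (Subgroup.mem_map_iff_mem (f := i.toMonoidHom) i.injective).trans 
      (Subgroup.mem_map_iff_mem (K := Subgroup.zpowers (f t)) (x := (g : G)) h2).symm

end Cfsg.Agent.S5450
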