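import Cfsg.Statements.S5454
import Cfsg.Agent.SporChar.FiT22F

set_option autoImplicit false
open Cfsg

namespace Cfsg.Agent.S5454

/-- Let G be a finite group with an involution d whose centralizer C is quasisimple with C modulo the subgroup generated by d isomorphic to the projective special unitary group of dimension 6 over the field with four elements, and suppose some conjugate of d other than d commutes with d. Let S be a Sylow 2-subgroup of C and A the Thompson subgroup of S (generated by the elementary abelian subgroups of S of largest order), regarded as a subgroup of G. Then A is elementary abelian of order 2^10, exactly 22 conjugates of d lie in A, and the normalizer of A permutes them transitively. -/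
theorem result {G : Type*} [Group G] [Finite G] (d : G) (hd : orderOf d = 2) (hq : Cfsg.IsQuasisimple ↥(Subgroup.centralizer ({d} : Set G))) [hzn : ((Subgroup.zpowers d).subgroupOf (Subgroup.centralizer ({d} : Set G))).Normal] (K : Type) [Field K] [Fintype K] (hK : Fintype.card K = 4) (e : ↥(Subgroup.centralizer ({d} : Set G)) ⧸ (Subgroup.zpowers d).subgroupOf (Subgroup.centralizer ({d} : Set G)) ≃* Cfsg.PSU 6 K 2) (hnwc : ∃ g : G, g * d * g⁻¹ ∈ Subgroup.centralizer ({d} : Set G) ∧ g * d * g⁻¹ ≠ d) (S : Sylow 2 ↥(Subgroup.centralizer ({d} : Set G))) (A : Subgroup G) (hA : A = (Cfsg.thompsonSubgroupOf 2 (S : Subgroup ↥(Subgroup.centralizer ({d} : Set G)))).map (Subgroup.centralizer ({d} : Set G)).subtype) : Cfsg.IsElementaryAbelian 2 A ∧ Nat.card A = 2 ^ 10 ∧ Set.ncard {x : G | x ∈ A ∧ IsConj d x} = 22 ∧ ∀ x ∈ A, ∀ y ∈ A, IsConj d x → IsConj d y → ∃ n ∈ Subgroup.normalizer (A : Set G), n * x * n⁻¹ = y := by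
  obtain ⟨ι⟩ := Cfsg.Lib.Spor.FT.nonempty_psu_inn hK
  obtain ⟨π, a, h⟩ := (Cfsg.Lib.Spor.FT.pre_of_equiv hd hq.1 (e.trans ι)).exists_n22
  have e1 := fun m => Cfsg.Lib.Spor.FT.map_el' (Subgroup.centralizer ({d} : Set G)).subtype
    (Cfsg.Lib.Spor.FT.gk 9 (Cfsg.Lib.Spor.FT.dC d) a) 10 m
  have ed := (e1 512).symm.trans (congrArg Subtype.val Cfsg.Lib.Spor.FT.Pl.el_d)
  exact h.fus.final (fun m hm => by rw [ed, ← e1]; exact h.delta hnwc hm) ed S hA

end Cfsg.Agent.S5454
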