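import Cfsg.Statements.S5457
import Cfsg.Agent.Inst.Fi23Y
import Cfsg.Agent.Spor.F23Tup

set_option autoImplicit false
open Cfsg

namespace Cfsg.Agent.S5457

/-- Let G be a finite group with trivial centre generated by a conjugation-invariant set D of 3-transpositions on which it acts primitively, of type M(23), and suppose G also has an involution whose centralizer C is quasisimple, with C modulo the subgroup generated by that involution both of type M(22) (for some generating class of 3-transpositions) and possessing an involution whose own centralizer is quasisimple with quotient by it the projective special unitary group of dimension 6 over the field with four elements and which is not weakly closed in that centralizer, and with the first involution not weakly closed in C. Then D is the only conjugacy class of 3-transpositions generating G. -/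
theorem result {G : Type*} [Group G] [Finite G] {D : Set G} (hD : Cfsg.IsThreeTranspositionGroup D) (hprim : Cfsg.IsPrimitiveUnderConj D) (h23 : Cfsg.IsOfTypeM23 G D) (hM : ∃ d : G, orderOf d = 2 ∧ Cfsg.IsQuasisimple ↥(Subgroup.centralizer ({d} : Set G)) ∧ (∃ (_ : ((Subgroup.zpowers d).subgroupOf (Subgroup.centralizer ({d} : Set G))).Normal), (∃ E : Set (↥(Subgroup.centralizer ({d} : Set G)) ⧸ (Subgroup.zpowers d).subgroupOf (Subgroup.centralizer ({d} : Set G))), Cfsg.IsThreeTranspositionClass E ∧ Cfsg.IsOfTypeM22 _ E) ∧ ∃ d' : ↥(Subgroup.centralizer ({d} : Set G)) ⧸ (Subgroup.zpowers d).subgroupOf (Subgroup.centralizer ({d} : Set G)), orderOf d' = 2 ∧ Cfsg.IsQuasisimple ↥(Subgroup.centralizer ({d'} : Set _)) ∧ (∃ (K : Type) (_ : Field K) (_ : Fintype K), Fintype.card K = 4 ∧ ∃ _ : ((Subgroup.zpowers d').subgroupOf (Subgroup.centralizer ({d'} : Set _))).Normal, Nonempty (↥(Subgroup.centralizer ({d'} : Set _)) ⧸ (Subgroup.zpowers d').subgroupOf (Subgroup.centralizer ({d'} : Set _)) ≃* Cfsg.PSU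 6 K 2)) ∧ ∃ g, g * d' * g⁻¹ ∈ Subgroup.centralizer ({d'} : Set _) ∧ g * d' * g⁻¹ ≠ d') ∧ ∃ g : G, g * d * g⁻¹ ∈ Subgroup.centralizer ({d} : Set G) ∧ g * d * g⁻¹ ≠ d) (D' : Set G) (hD' : Cfsg.IsThreeTranspositionClass D') : D' = D := by
  open Cfsg.Lib.Spor Cfsg.Lib.Spor.Fm in
  obtain ⟨-, M, -⟩ := F23.exists_model hD hprim h23
  obtain ⟨⟨h1, h2⟩, ⟨d, hd, rfl⟩, -⟩ := hD'
  obtain ⟨W, hW, y, rfl⟩ := M.exists_inv (F23.good2 M) (by decide +kernel) (h1 d hd)
  have k : ∀ {a c : G}, (∀ d ∈ conjugatesOf a, ∀ e ∈ conjugatesOf a, (d * e) ^ 2 = 1 ∨ (d * e) ^ 3 = 1) →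
      (a * (c * a * c⁻¹)) ^ 6 = 1 := fun {a c} h => by
    rcases h a mem_conjugatesOf_self _ (isConj_iff.2 ⟨c, rfl⟩) with h | h
    · rw [show 6 = 2 * 3 from rfl, pow_mul, h, one_pow]
    · rw [show 6 = 3 * 2 from rfl, pow_mul, h, one_pow]
  simp only [F23.d2R, List.mem_cons, List.not_mem_nil, or_false] at hW
  rcases hW with rfl | rfl | rfl
  · have h3 : (M.conj y).el [1] ∈ D := by
      simpa [(M.conj y).t_root] using (M.conj y).t_mem M.ok.root_lt
    ext x
    exact ⟨fun h => (isConj_iff.1 h).elim fun c hc => hc ▸ hD.2.1 c _ h3, fun h => isConj_iff.2 (hprim.1 _ h3 _ h)⟩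
  · exact absurd (k h2) (F23.not_tt _ F23.nt2)
  · exact absurd (k h2) (F23.not_tt _ F23.nt3)

end Cfsg.Agent.S5457
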