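import Cfsg.Statements.S5458
import Cfsg.Agent.Spor.Fi22J

set_option autoImplicit false
set_option linter.unusedVariables false
set_option maxRecDepth 100000
open Cfsg

namespace Cfsg.Agent.S5458

open Cfsg.Lib.Spor Cfsg.Lib.Spor.F22 Cfsg.Lib.Spor.Fis

/-- Let G be a finite group with trivial centre generated by a conjugation-invariant set D of 3-transpositions on which it acts primitively, of type M(22), and suppose G also has an involution whose centralizer is quasisimple with quotient by it the projective special unitary group of dimension 6 over the field with four elements and which is not weakly closed in that centralizer. Let T be a Sylow 2-subgroup of G. Then the subgroup generated by the members of D lying in T is the Thompson subgroup of T (generated by the elementary abelian subgroups of T of largest order). -/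
theorem result {G : Type*} [Group G] [Finite G] {D : Set G} (hD : Cfsg.IsThreeTranspositionGroup D) (hprim : Cfsg.IsPrimitiveUnderConj D) (h22 : Cfsg.IsOfTypeM22 G D) (hM : ∃ d : G, orderOf d = 2 ∧ Cfsg.IsQuasisimple ↥(Subgroup.centralizer ({d} : Set G)) ∧ (∃ (_ : ((Subgroup.zpowers d).subgroupOf (Subgroup.centralizer ({d} : Set G))).Normal) (K : Type) (_ : Field K) (_ : Fintype K), Fintype.card K = 4 ∧ Nonempty (↥(Subgroup.centralizer ({d} : Set G)) ⧸ (Subgroup.zpowers d).subgroupOf (Subgroup.centralizer ({d} : Set G)) ≃* Cfsg.PSU 6 K 2)) ∧ ∃ g : G, g * d * g⁻¹ ∈ Subgroup.centralizer ({d} : Set G) ∧ g * d * g⁻¹ ≠ d) (T : Sylow 2 G) : Subgroup.closure {x : G | x ∈ D ∧ x ∈ (T : Subgroup G)} = Cfsg.thompsonSubgroupOf 2 (T : Subgroup G) := by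
  obtain ⟨M⟩ := exists_mdl hD hprim h22
  obtain ⟨c, hc, h1⟩ := exists_conj_le_of_card (p := 2) (H := Inv.Q.pcG 72 18 1) (K := F22.Q.A) (a := 492567075)
    (Inv.Q.pcG_le _ _ _) (P := (T : Subgroup G).map M.ρ) (by rintro _ ⟨x, -, rfl⟩; exact (M.ρ_mem x).1)
    (T.2.map _) (card_A.trans (by norm_num)) Inv.card_S.ge Inv.card_S.dvd (by norm_num)
  obtain ⟨M, h2, -⟩ := M.conj hc
  have hV : Inv.Q.pcG 72 18 9 ≤ Inv.Q.pcG 72 18 1 := Subgroup.map_mono (Fm.pcT_anti (by norm_num))
  have hG : Inv.Q.pcG 72 18 9 ≤ G0 := Inv.V_le.trans ((Subgroup.closure_le _).2 fun _ ⟨p, _, e⟩ => e ▸ t_mem p)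
  have hT : M.pb (Inv.Q.pcG 72 18 1) = T := T.is_maximal'
    ((IsPGroup.of_card Inv.card_S).comap_of_injective _ M.inj) fun x hx => by
      rw [Subgroup.mem_comap, h2]; exact h1 _ ⟨x, hx, rfl⟩
  have cV : Nat.card (M.pb (Inv.Q.pcG 72 18 9)) = 2 ^ 10 := (M.card_pb_of_le hG).trans Inv.card_V
  have key : ∀ A ≤ (T : Subgroup G), (∀ a ∈ A, a * a = 1) → 2 ^ 10 ≤ Nat.card A →
      A = M.pb (Inv.Q.pcG 72 18 9) := fun A a1 a2 a3 => by
    rw [← Inv.j_uniq (A := A.map M.ρ) (by rintro _ ⟨x, hx, rfl⟩; exact ⟨hT.ge (a1 hx), (M.ρ_mem x).2⟩)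
      (by rintro _ ⟨x, hx, rfl⟩; rw [← map_mul, a2 x hx, map_one]) (by rwa [M.card_map]), M.pb_map]
  rw [thompson_eq (V := M.pb (Inv.Q.pcG 72 18 9)) (hT ▸ Subgroup.comap_mono hV)
    ⟨Subgroup.le_centralizer_iff_isMulCommutative.1 fun x hx y hy => M.inj (by
      rw [← Inv.j_sub] at hx hy
      rw [map_mul, map_mul, (Inv.j_ci.sub_comm hx hy).eq]), fun x hx => M.inj (by
      rw [← Inv.j_sub] at hx
      rw [sq, map_mul, Inv.j_ci.sub_sq hx, map_one])⟩
    fun A a1 a2 a3 => key A a1 (fun a ha => sq a ▸ a2.2 a ha) (cV ▸ a3)]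
  have sq : ∀ d ∈ D, d * d = 1 := fun d hd => by rw [← pow_two, ← hD.1.1 d hd, pow_orderOf_eq_one]
  have com : Subgroup.closure {x : G | x ∈ D ∧ x ∈ (T : Subgroup G)} ≤
      Subgroup.centralizer (Subgroup.closure {x : G | x ∈ D ∧ x ∈ (T : Subgroup G)} : Set G) := by
    rw [Subgroup.centralizer_closure, Subgroup.closure_le]
    intro x hx y hy
    obtain ⟨k, hk⟩ := T.2 ⟨y * x, mul_mem hy.2 hx.2⟩
    have h3 : (y * x) ^ 2 ^ k = 1 := congrArg Subtype.val hk
    have h4 : (y * x) ^ 2 = 1 := (hD.1.2 y hy.1 x hx.1).elim id fun h => by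
      rw [pow_eq_one_iff_of_coprime (Nat.Coprime.pow_left k (by norm_num : Nat.Coprime 2 3)) |>.1 ⟨h3, h⟩,
        one_pow]
    rw [← inv_eq_of_mul_eq_one_right ((pow_two _).symm.trans h4), mul_inv_rev,
      inv_eq_of_mul_eq_one_right (sq x hx.1), inv_eq_of_mul_eq_one_right (sq y hy.1)]
  refine key _ ((Subgroup.closure_le _).2 fun _ h => h.2) (fun a ha => ?_) (cV ▸ Subgroup.card_le_of_le ?_)
  · induction ha using Subgroup.closure_induction with
    | mem x hx => exact sq x hx.1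
    | one => exact mul_one 1
    | mul x y hx hy a b => rw [mul_assoc, ← mul_assoc y, com hx y hy, mul_assoc, b, mul_one, a]
    | inv x hx a => rw [← mul_inv_rev, a, inv_one]
  · rw [← M.pb_closure]
    refine Subgroup.comap_mono (Inv.V_le.trans (Subgroup.closure_mono ?_))
    rintro _ ⟨p, hp, rfl⟩
    exact ⟨M.τ p, ⟨M.τ_mem p, hT.le (by rw [Subgroup.mem_comap, M.ρτ]; exact hV hp)⟩, M.ρτ p⟩

end Cfsg.Agent.S5458
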