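import Cfsg.Statements.S5459
import Cfsg.Agent.Spor.Invol

set_option autoImplicit false
open Cfsg

namespace Cfsg.Agent.S5459
open scoped commutatorElement

/-- Let G be a finite group with a quasisimple normal subgroup L and an involution d such that G is generated by L and d, the centre of L has odd order, and d inverts every element of the centre of L. If the commuting graph on the conjugacy class of the image of d in G modulo the centre of L is connected, then the commuting graph on the conjugacy class of d is connected. -/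
theorem result {G : Type*} [Group G] [Finite G] (L : Subgroup G) [L.Normal] (hL : Cfsg.IsQuasisimple ↥L) (d : G) (hd : orderOf d = 2) (hgen : L ⊔ Subgroup.zpowers d = ⊤) (hodd : Odd (Nat.card ↥(Subgroup.center ↥L))) (hinv : ∀ c ∈ (Subgroup.center ↥L).map L.subtype, d * c * d⁻¹ = c⁻¹) [hn : ((Subgroup.center ↥L).map L.subtype).Normal] (hconn : (Cfsg.commutingGraph (conjugatesOf (QuotientGroup.mk d : G ⧸ (Subgroup.center ↥L).map L.subtype))).Connected) : (Cfsg.commutingGraph (conjugatesOf d)).Connected := by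
  open Cfsg.Lib.Spor in
  set Z := (Subgroup.center ↥L).map L.subtype with hZ
  have hdd := invol_mul_self hd
  have hZL : Z ≤ L := Subgroup.map_subtype_le _
  have hZcard : Odd (Nat.card Z) := by
    rw [hZ, Subgroup.card_map_of_injective L.subtype_injective]; exact hodd
  have hZc : ∀ z ∈ Z, ∀ l ∈ L, l * z = z * l := by
    rintro _ ⟨z, hz, rfl⟩ l hl
    exact congrArg Subtype.val (Subgroup.mem_center_iff.1 hz ⟨l, hl⟩)
  have hinv' : ∀ a ∈ conjugatesOf d, ∀ c ∈ Z, a * c * a⁻¹ = c⁻¹ := by
    intro a ha c hc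
    obtain ⟨g, rfl⟩ := isConj_iff.1 ha
    have := hinv _ (hn.conj_mem c hc g⁻¹)
    calc g * d * g⁻¹ * c * (g * d * g⁻¹)⁻¹ = g * (d * (g⁻¹ * c * g⁻¹⁻¹) * d⁻¹) * g⁻¹ := by group
      _ = c⁻¹ := by rw [this]; group
  -- the component of `d`
  let dd : conjugatesOf d := ⟨d, IsConj.refl d⟩
  let R : G → Prop := fun a => ∃ ha : a ∈ conjugatesOf d,
    (Cfsg.commutingGraph (conjugatesOf d)).Reachable dd ⟨a, ha⟩
  have hstep : ∀ a b, R a → b ∈ conjugatesOf d → Commute a b → R b := by
    rintro a b ⟨ha, hr⟩ hb hab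
    refine ⟨hb, ?_⟩
    by_cases h : (⟨a, ha⟩ : conjugatesOf d) = ⟨b, hb⟩
    · exact h ▸ hr
    · exact hr.trans (SimpleGraph.Adj.reachable ((SimpleGraph.fromRel_adj _ _ _).2 ⟨h, Or.inl hab⟩))
  -- conjugation preserves reachability
  have hconjR : ∀ g : G, ∀ a b : conjugatesOf d,
      (Cfsg.commutingGraph (conjugatesOf d)).Reachable a b →
      (Cfsg.commutingGraph (conjugatesOf d)).Reachable ⟨_, mem_conjugatesOf_conj a.2 g⟩
        ⟨_, mem_conjugatesOf_conj b.2 g⟩ := by
    intro g a b hab
    let f : Cfsg.commutingGraph (conjugatesOf d) →g Cfsg.commutingGraph (conjugatesOf d) :=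
      { toFun := fun x => ⟨_, mem_conjugatesOf_conj x.2 g⟩
        map_rel' := by
          intro x y hxy
          obtain ⟨h1, h2⟩ := (SimpleGraph.fromRel_adj _ _ _).1 hxy
          refine (SimpleGraph.fromRel_adj _ _ _).2 ⟨fun h => h1 (Subtype.ext ?_), ?_⟩
          · have := congrArg Subtype.val h
            simpa using this
          · rcases h2 with h2 | h2
            · exact Or.inl (h2.map (MulAut.conj g))
            · exact Or.inr (h2.map (MulAut.conj g)) }
    exact hab.map f
  -- lifting commuting pairs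
  have hlift : ∀ a b, R a → b ∈ conjugatesOf d →
      Commute (QuotientGroup.mk a : G ⧸ Z) (QuotientGroup.mk b) →
      ∃ z ∈ Z, R (z * b * z⁻¹) := by
    intro a b hRa hb hab
    have ha := hRa.1
    have haa := mul_self_of_mem_conjugatesOf hdd ha
    have hbb := mul_self_of_mem_conjugatesOf hdd hb
    have h2 : a * b * (a * b) ∈ Z := by
      rw [← QuotientGroup.eq_one_iff, QuotientGroup.mk_mul, QuotientGroup.mk_mul]
      refine invol_mul_self_of_commute ?_ ?_ hab
      · rw [← QuotientGroup.mk_mul, haa, QuotientGroup.mk_one]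
      · rw [← QuotientGroup.mk_mul, hbb, QuotientGroup.mk_one]
    obtain ⟨j, hj⟩ := hZcard
    have h3 : (a * b) ^ (2 * j + 1) * (a * b) ^ (2 * j + 1) = 1 := by
      rw [← pow_two, ← pow_mul, mul_comm, pow_mul, pow_two, ← hj]
      have := pow_card_eq_one' (G := Z) (x := ⟨_, h2⟩)
      exact congrArg Subtype.val this
    obtain ⟨c1, -⟩ := invol_commute_pow haa hbb h3
    have h4 : a * (a * b) ^ (2 * j + 1) = b * (a * b * (a * b)) ^ j := by
      rw [pow_succ', ← mul_assoc, ← mul_assoc, haa, one_mul, pow_mul, pow_two]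
    -- `b w` with `w ∈ Z` is a `Z`-conjugate of `b`
    have h5 : ∀ w ∈ Z, ∃ z ∈ Z, b * w = z * b * z⁻¹ := by
      intro w hw
      have hw1 : w ^ (2 * j + 1) = 1 := by
        rw [← hj]
        exact congrArg Subtype.val (pow_card_eq_one' (G := Z) (x := ⟨w, hw⟩))
      refine ⟨w ^ j, Z.pow_mem hw j, ?_⟩
      have h6 := hinv' b hb _ (Z.inv_mem (Z.pow_mem hw j))
      rw [inv_inv] at h6
      have h7 : w ^ j * b = b * (w ^ j)⁻¹ := by
        conv_lhs => rw [← h6]
        group
      rw [h7, mul_assoc, ← mul_inv_rev, ← pow_add, ← two_mul]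
      congr 1
      rw [pow_succ] at hw1
      exact eq_inv_of_mul_eq_one_right hw1
    obtain ⟨z, hz, e⟩ := h5 _ (Z.pow_mem h2 j)
    refine ⟨z, hz, hstep a _ hRa (mem_conjugatesOf_conj hb z) ?_⟩
    rw [← e, ← h4]
    exact (Commute.refl a).mul_right c1
  have hsurj : ∀ x : conjugatesOf (QuotientGroup.mk d : G ⧸ Z), ∀ b ∈ conjugatesOf d,
      (QuotientGroup.mk b : G ⧸ Z) = x → ∃ z ∈ Z, R (z * b * z⁻¹) := by
    intro x
    have hr := (SimpleGraph.reachable_iff_reflTransGen _ _).1
      (hconn.1 ⟨QuotientGroup.mk d, IsConj.refl _⟩ x)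
    induction hr with
    | refl =>
      intro b hb e
      refine hlift d b ⟨IsConj.refl d, SimpleGraph.Reachable.refl _⟩ hb ?_
      rw [e]
    | @tail x y _ hxy ih =>
      intro b hb e
      obtain ⟨g, hg⟩ := isConj_iff.1 x.2
      obtain ⟨g, rfl⟩ := QuotientGroup.mk_surjective g
      obtain ⟨z, hz, hR⟩ := ih (g * d * g⁻¹) (mem_conjugatesOf_conj (IsConj.refl d) g) (by
        rw [← hg]; rfl)
      refine hlift _ b hR hb ?_
      have : (QuotientGroup.mk (z * (g * d * g⁻¹) * z⁻¹) : G ⧸ Z) = x := by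
        rw [QuotientGroup.mk_mul, QuotientGroup.mk_mul, (QuotientGroup.eq_one_iff z).2 hz,
          (QuotientGroup.eq_one_iff z⁻¹).2 (Z.inv_mem hz), one_mul, mul_one, ← hg]
        rfl
      rw [this, e]
      rcases ((SimpleGraph.fromRel_adj _ _ _).1 hxy).2 with h | h
      · exact h
      · exact h.symm
  -- the stabilizer of the component
  let H : Subgroup G :=
    { carrier := {g | R (g * d * g⁻¹)}
      one_mem' := by
        refine ⟨mem_conjugatesOf_conj (IsConj.refl d) _, ?_⟩
        have : (⟨1 * d * 1⁻¹, mem_conjugatesOf_conj (IsConj.refl d) _⟩ : conjugatesOf d) = dd := by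
          apply Subtype.ext; simp [dd]
        rw [this]
      mul_mem' := by
        rintro g h ⟨hg, hg'⟩ ⟨hh, hh'⟩
        refine ⟨mem_conjugatesOf_conj (IsConj.refl d) _, hg'.trans ?_⟩
        have := hconjR g _ _ hh'
        convert this using 2
        simp [mul_assoc]
      inv_mem' := by
        rintro g ⟨hg, hg'⟩
        refine ⟨mem_conjugatesOf_conj (IsConj.refl d) _, ?_⟩
        have := (hconjR g⁻¹ _ _ hg').symm
        convert this using 2
        simp [dd, mul_assoc] }
  have hZH : ∀ g : G, ∃ z ∈ Z, z * g ∈ H := by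
    intro g
    obtain ⟨z, hz, hR⟩ := hsurj ⟨QuotientGroup.mk (g * d * g⁻¹), isConj_iff.2
      ⟨QuotientGroup.mk g, rfl⟩⟩ _ (mem_conjugatesOf_conj (IsConj.refl d) g) rfl
    refine ⟨z, hz, ?_⟩
    change R _
    convert hR using 1
    group
  have hLH : L ≤ H := by
    have hp : ⁅L, L⁆ = L := by
      have := hL.1
      exact Subgroup.isPerfect_iff.1 this
    rw [← hp, Subgroup.commutator_le]
    intro x hx y hy
    obtain ⟨z, hz, hzx⟩ := hZH x
    obtain ⟨w, hw, hwy⟩ := hZH y
    have e : ⁅x, y⁆ = ⁅z * x, w * y⁆ := by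
      have c1 := hZc z hz x hx
      have c2 := hZc z hz y hy
      have c3 := hZc w hw x hx
      have c4 := hZc w hw y hy
      have c5 := hZc z hz w (hZL hw)
      have k1 : Commute z x := c1.symm
      have k2 : Commute z y := c2.symm
      have k3 : Commute w x := c3.symm
      have k4 : Commute w y := c4.symm
      have k5 : Commute z w := c5.symm
      rw [commutatorElement_def, commutatorElement_def]
      have k6 : Commute z (x * (w * y) * x⁻¹) :=
        (k1.mul_right (k5.mul_right k2)).mul_right k1.inv_right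
      have k7 : Commute w (x * y * x⁻¹ * y⁻¹) :=
        ((k3.mul_right k4).mul_right k3.inv_right).mul_right k4.inv_right
      symm
      calc z * x * (w * y) * (z * x)⁻¹ * (w * y)⁻¹
          = z * (x * (w * y) * x⁻¹) * z⁻¹ * (w * y)⁻¹ := by group
        _ = (x * w) * y * x⁻¹ * (w * y)⁻¹ := by rw [k6.eq]; group
        _ = w * (x * y * x⁻¹ * y⁻¹) * w⁻¹ := by rw [c3]; group
        _ = x * y * x⁻¹ * y⁻¹ := by rw [k7.eq]; group
    rw [e, commutatorElement_def]
    exact H.mul_mem (H.mul_mem (H.mul_mem hzx hwy) (H.inv_mem hzx)) (H.inv_mem hwy)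
  have hall : ∀ a : conjugatesOf d, (Cfsg.commutingGraph (conjugatesOf d)).Reachable dd a := by
    rintro ⟨a, ha⟩
    obtain ⟨g, rfl⟩ := isConj_iff.1 ha
    obtain ⟨z, hz, hzg⟩ := hZH g
    have : g ∈ H := by
      have := H.mul_mem (H.inv_mem (hLH (hZL hz))) hzg
      simpa using this
    exact this.2
  have : Nonempty (conjugatesOf d) := ⟨dd⟩
  exact ⟨fun a b => (hall a).symm.trans (hall b)⟩

end Cfsg.Agent.S5459
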