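import Cfsg.Statements.S5460
import Cfsg.Agent.SporChar.FiH

set_option autoImplicit false
open Cfsg

namespace Cfsg.Agent.S5460

open Cfsg.Lib.Known Cfsg.Lib.Spor Cfsg.Lib.Spor.FG

/-- Let X be a finite group with a subgroup G₀ of index 2 that is of large Fischer type at an involution z central in some Sylow 2-subgroup of G₀ (the generalized Fitting subgroup Q of the centralizer C of z in G₀ is extraspecial of order 2^13, C has normal subgroups Q ≤ H₁ ≤ H₂ with H₁/Q of order 3, H₂/H₁ isomorphic to the projective special unitary group of dimension 4 over the field with nine elements and H₂ of index 2 in C, and some G₀-conjugate of z other than z lies in Q), and suppose the generalized Fitting subgroup of the centralizer of z in X is Q as well. Then there is an involution d of X outside G₀ commuting with z, and an involution t of the centralizer Y of d in G₀, such that: the centralizer of t in Y is quasisimple; its quotient by the subgroup generated by t is of type M(22) for some generating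 conjugacy class of 3-transpositions and has an involution whose own centralizer is quasisimple, with quotient by it the projective special unitary group of dimension 6 over the field with four elements, and which is not weakly closed in that centralizer; t is not weakly closed in its centralizer in Y; and the conjugacy class of t in Y is a class of 3-transpositions generating Y with respect to which Y is of type M(23). -/
theorem result {X : Type*} [Group X] [Finite X] (G₀ : Subgroup X) (hidx : G₀.index = 2) (z : ↥G₀) (Q : Subgroup (Subgroup.centralizer ({z} : Set ↥G₀))) [Q.Normal] (hF : Cfsg.IsOfLargeFischerTypeAt z Q) (hcentral : ∃ P : Sylow 2 ↥G₀, z ∈ (P : Subgroup ↥G₀) ∧ ∀ x ∈ (P : Subgroup ↥G₀), Commute x z) (hFX : (Cfsg.generalizedFittingSubgroup ↥(Subgroup.centralizer ({(z : X)} : Set X))).map (Subgroup.subtype _) = ((Q.map (Subgroup.subtype _)).map G₀.subtype)) : ∃ d : X, orderOf d = 2 ∧ d ∉ G₀ ∧ Commute d (z : X) ∧ ∃ t : ↥(G₀ ⊓ Subgroup.centralizer ({d} : Set X)), orderOf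 t = 2 ∧ Cfsg.IsQuasisimple ↥(Subgroup.centralizer ({t} : Set ↥(G₀ ⊓ Subgroup.centralizer ({d} : Set X)))) ∧ (∃ (_ : ((Subgroup.zpowers t).subgroupOf (Subgroup.centralizer ({t} : Set ↥(G₀ ⊓ Subgroup.centralizer ({d} : Set X))))).Normal), (∃ E : Set (↥(Subgroup.centralizer ({t} : Set ↥(G₀ ⊓ Subgroup.centralizer ({d} : Set X)))) ⧸ (Subgroup.zpowers t).subgroupOf (Subgroup.centralizer ({t} : Set ↥(G₀ ⊓ Subgroup.centralizer ({d} : Set X))))), Cfsg.IsThreeTranspositionClass E ∧ Cfsg.IsOfTypeM22 _ E) ∧ ∃ d' : ↥(Subgroup.centralizer ({t} : Set ↥(G₀ ⊓ Subgroup.centralizer ({d} : Set X)))) ⧸ (Subgroup.zpowers t).subgroupOf (Subgroup.centralizer ({t} : Set ↥(G₀ ⊓ Subgroup.centralizer ({d} : Set X)))), orderOf d' = 2 ∧ Cfsg.IsQuasisimple ↥(Subgroup.centralizer ({d'} : Set _)) ∧ (∃ (K : Type) (_ : Field K) (_ : Fintype K), Fintype.card K = 4 ∧ ∃ _ : ((Subgroup.zpowers d').subgroupOf (Subgroup.centralizer ({d'} : Set _))).Normal, Nonempty (↥(Subgroup.centralizer ({d'} : Set _)) ⧸ (Subgroup.zpowers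 d').subgroupOf (Subgroup.centralizer ({d'} : Set _)) ≃* Cfsg.PSU 6 K 2)) ∧ ∃ g, g * d' * g⁻¹ ∈ Subgroup.centralizer ({d'} : Set _) ∧ g * d' * g⁻¹ ≠ d') ∧ (∃ g : ↥(G₀ ⊓ Subgroup.centralizer ({d} : Set X)), g * t * g⁻¹ ∈ Subgroup.centralizer ({t} : Set ↥(G₀ ⊓ Subgroup.centralizer ({d} : Set X))) ∧ g * t * g⁻¹ ≠ t) ∧ Cfsg.IsThreeTranspositionClass (conjugatesOf t) ∧ Cfsg.IsOfTypeM23 ↥(G₀ ⊓ Subgroup.centralizer ({d} : Set X)) (conjugatesOf t) := by
    obtain ⟨e, a, b, c, d, q, h1, rfl⟩ := exists_over' hidx hF hFX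
    obtain ⟨g, rfl⟩ := isConj_iff.1 q.ha
    have T := tri_of_equiv ((MulAut.conj g).trans e)
    let ψ := (MonoidHom.ofInjective T.inj).trans (MulEquiv.subgroupCongr T.range)
    have := Fi22P.simple
    have := Cfsg.Lib.Class.Form.isSimpleGroup_PSU (q := 2) Cfsg.Lib.Class.card_GF4 6 (by decide) (by decide)
    obtain ⟨k1, n1, ⟨i⟩⟩ := (cq23.map ψ).out f22_cen
    obtain ⟨k2, k3⟩ := (cq22.map i.symm).out u62_cen
    refine ⟨((MulAut.conj g).trans e) (Fi24P.g0 12), (e.orderOf_eq _).trans (f24_tt.1.1 _ q.ha),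
      fun h => Fi24P.l_notMem (Subgroup.commutator_mono le_top le_top ((map_commutator_eq X
      ((MulAut.conj g).trans e).symm.toMonoidHom).le ⟨_, h, MulEquiv.symm_apply_apply _ _⟩)),
      h1 ▸ ((((Commute.refl _).mul_right q.hb.2.2).mul_right q.hc.1.2.2).mul_right q.hd.1.2.2).map e, ψ Fi23P.z,
      (ψ.orderOf_eq _).trans (Fi23P.threeTransp.1.1 _ (IsConj.refl _)), k1, ⟨n1, ⟨_, class_congr i.symm f22_tt,
        image_conjugatesOf i.symm _ ▸ typeM22_congr i.symm f22_type⟩, i.symm (Fi22P.g0 1),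
        (i.symm.orderOf_eq _).trans (f22_tt.1.1 _ (IsConj.refl _)), k2,
        ⟨_, _, _, Cfsg.Lib.Class.card_GF4, k3⟩, nwc i.symm (f6_D 4 (by decide))⟩, nwc ψ (f23_Dz 1 (by decide)),
      class_congr ψ Fi23P.threeTransp, image_conjugatesOf ψ _ ▸ typeM23_congr ψ f23_type⟩

end Cfsg.Agent.S5460
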