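import Cfsg.Statements.S5462
import Cfsg.Agent.Spor.Fi22Two

set_option autoImplicit false
set_option linter.unusedVariables false
set_option maxRecDepth 100000
open Cfsg

namespace Cfsg.Agent.S5462

open Cfsg.Lib.Spor Cfsg.Lib.Spor.F22 Cfsg.Lib.Spor.Fis

/-- Let G be a finite group with trivial centre generated by a conjugation-invariant set D of 3-transpositions on which it acts primitively, such that for some d in D the subgroup generated by the members of D other than d commuting with d has central largest normal 2- and 3-subgroups, and suppose G with D is of type M(22). Then every automorphism of G of order 2 fixes some member of D. -/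
theorem result {G : Type*} [Group G] [Finite G] {D : Set G} (hD : Cfsg.IsThreeTranspositionGroup D) (hprim : Cfsg.IsPrimitiveUnderConj D) (d₀ : G) (hd₀ : d₀ ∈ D) (h3 : Cfsg.pCore 3 ↥(Subgroup.closure {y : G | y ∈ D ∧ y ≠ d₀ ∧ Commute d₀ y}) ≤ Subgroup.center ↥(Subgroup.closure {y : G | y ∈ D ∧ y ≠ d₀ ∧ Commute d₀ y})) (h2 : Cfsg.pCore 2 ↥(Subgroup.closure {y : G | y ∈ D ∧ y ≠ d₀ ∧ Commute d₀ y}) ≤ Subgroup.center ↥(Subgroup.closure {y : G | y ∈ D ∧ y ≠ d₀ ∧ Commute d₀ y})) (h22 : Cfsg.IsOfTypeM22 G D) (φ : MulAut G) (hφ : orderOf φ = 2) : ∃ d ∈ D, φ d = d := by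
  obtain ⟨M⟩ := exists_mdl hD hprim h22
  obtain ⟨M', -, -, -, h4⟩ := M.exists_aut hD
  have h1 : (M'.ρ φ) ^ 2 = 1 := by rw [← map_pow, ← hφ, pow_orderOf_eq_one, map_one]
  have h5 : M'.ρ φ ≠ 1 := fun e => by rw [← M'.orderOf_ρ, e] at hφ; simp at hφ
  obtain ⟨c, hc, h⟩ := Inv.inv_A (M'.ρ_mem φ) h1 h5
  have a1 := t_self (pp 0)
  have a2 := t_comm c0_6
  have a3 := t_comm c0_40
  refine ⟨M.τ (c (pp 0)), M.τ_mem _, ?_⟩
  have a4 : c⁻¹ (c (pp 0)) = pp 0 := by simp
  rw [h4]
  rcases h with h | h | h | h | h | h <;> rw [h] <;>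
    simp only [Equiv.Perm.mul_apply, a4, a1, a2, a3, Inv.s_0]

end Cfsg.Agent.S5462
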