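import Cfsg.Statements.S5465
import Cfsg.Agent.Known.Fi24Cent

set_option autoImplicit false
open Cfsg

namespace Cfsg.Agent.S5465

open Cfsg.Lib.Known Cfsg.Lib.Spor Cfsg.Lib.Spor.Fm

/-- Let G be a finite group with trivial centre generated by a conjugation-invariant set D of 3-transpositions on which it acts primitively, such that for some d in D the subgroup generated by the members of D other than d commuting with d has central largest normal 2- and 3-subgroups, and suppose G with D is of type M(24), and let L be the commutator subgroup of G. Let d₁, d₂ be distinct commuting members of D and j = d₁ d₂. Then K, the joint centralizer of d₁ and d₂ in L, is quasisimple, is the generalized Fitting subgroup of the centralizer of j in L, has index 2 in it and contains j, and the centralizer of j in L modulo the subgroup generated by j is isomorphic to the full automorphism group of the Fischer group Fi₂₂ (as presented). -/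
theorem result {G : Type*} [Group G] [Finite G] {D : Set G} (hD : Cfsg.IsThreeTranspositionGroup D) (hprim : Cfsg.IsPrimitiveUnderConj D) (d₀ : G) (hd₀ : d₀ ∈ D) (h3 : Cfsg.pCore 3 ↥(Subgroup.closure {y : G | y ∈ D ∧ y ≠ d₀ ∧ Commute d₀ y}) ≤ Subgroup.center ↥(Subgroup.closure {y : G | y ∈ D ∧ y ≠ d₀ ∧ Commute d₀ y})) (h2 : Cfsg.pCore 2 ↥(Subgroup.closure {y : G | y ∈ D ∧ y ≠ d₀ ∧ Commute d₀ y}) ≤ Subgroup.center ↥(Subgroup.closure {y : G | y ∈ D ∧ y ≠ d₀ ∧ Commute d₀ y})) (h24 : Cfsg.IsOfTypeM24 G D) (L : Subgroup G) (hL : L = commutator G) (d₁ d₂ : G) (h₁ : d₁ ∈ D) (h₂ : d₂ ∈ D) (hne : d₁ ≠ d₂) (hc : Commute d₁ d₂) (K CL : Subgroup G) (hK : K = L ⊓ Subgroup.centralizer ({d₁, d₂} : Set G)) (hCL : CL = L ⊓ Subgroup.centralizer ({d₁ * d₂} : Set G)) [hn : ((Subgroup.zpowers (d₁ * d₂)).subgroupOf CL).Normal] : Cfsg.IsQuasisimple ↥K ∧ K = (Cfsg.generalizedFittingSubgroup ↥CL).map CL.subtype ∧ K ≤ CL ∧ (K.subgroupOf CL).index = 2 ∧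 d₁ * d₂ ∈ K ∧ Nonempty (↥CL ⧸ (Subgroup.zpowers (d₁ * d₂)).subgroupOf CL ≃* MulAut Cfsg.Spor.Fi22) := by
  subst hL
  obtain ⟨⟨M⟩, F⟩ := F24.setup hD hprim h24
  obtain ⟨a, b, c, h, k⟩ := exists_tri hD hprim h24
  obtain ⟨g, hg⟩ := (F24.tup2 M).tt _ _ (CT.three_iff h).1 (CT.two h₁ h₂ hne hc)
  obtain ⟨rfl, rfl, -⟩ : d₁ = g * a * g⁻¹ ∧ d₂ = g * b * g⁻¹ ∧ True := by simpa using hg
  obtain ⟨φ, T⟩ := k g
  obtain ⟨c1, c2, -, -, -, n⟩ :=
    CT.three_iff (a := g * a * g⁻¹) (b := g * b * g⁻¹) (c := g * c * g⁻¹) (h.conj hD.2.1 g)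
  generalize g * a * g⁻¹ = a, g * b * g⁻¹ = b, g * c * g⁻¹ = c at *
  have hK' : ∀ x, x ∈ K ↔ x ∈ commutator G ∧ Commute x a ∧ Commute x b := fun x => by
    simp only [hK, Subgroup.mem_inf, Subgroup.mem_centralizer_iff, Set.mem_insert_iff,
      Set.mem_singleton_iff, forall_eq_or_imp, forall_eq]
    exact and_congr_right fun _ => and_congr eq_comm eq_comm
  obtain ⟨k0, k1, k2, θ, k3, k4, -⟩ := T.theta hK'
  obtain ⟨l1, π, l2, l3, -⟩ := perm_L hD.2.1 (f24_uf2 M) (F24.tup2 M).tt ![a, b] c1 F.index (i₀ := 0)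
    (F.odd a h₁) (K := K) (C := CL) (fun x => by simp [hK', Fin.forall_fin_two]) (by simpa using hCL)
  have i2 : (K.subgroupOf CL).index = 2 := by
    rw [l3, Subgroup.index_ker, MonoidHom.range_eq_top.2 l2, Subgroup.card_top, Nat.card_eq_fintype_card]
    decide
  have : (K.subgroupOf CL).Normal := l3 ▸ inferInstance
  have := Fi22P.simple
  obtain ⟨q, -, q1, -, _, q2⟩ := aut_ext l1 k3 k4 (Subgroup.zpowers_le.2 ⟨k1, fun y hy =>
      ((hK' y).1 hy).2.1.mul_right ((hK' y).1 hy).2.2⟩) f22_cen k0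
    (fun x hx => (hK' x).2 ⟨(hCL.le hx.1).1, by
      have := fix_of_two hD.2.1 (f24_uf2 M) c1 c2 n (hx.2 _ k1).symm (hx.2 _ k2).symm
      exact ⟨this.1, this.2.1⟩⟩) (F22.card_out.trans i2.symm)
  exact ⟨q, q1, l1, i2, k1, q2⟩

end Cfsg.Agent.S5465
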