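import Cfsg.Statements.S5466
import Cfsg.Agent.Known.Fi24Cent

set_option autoImplicit false
open Cfsg

namespace Cfsg.Agent.S5466

open Cfsg.Lib.Known Cfsg.Lib.Spor Cfsg.Lib.Spor.Fm
open scoped commutatorElement

/-- Let G be a finite group with trivial centre generated by a conjugation-invariant set D of 3-transpositions on which it acts primitively, such that for some d in D the subgroup generated by the members of D other than d commuting with d has central largest normal 2- and 3-subgroups, and suppose G with D is of type M(24), and let L be the commutator subgroup of G. Let d₁, d₂, d₃ be distinct pairwise commuting members of D, j their product, E the subgroup generated by d₁ d₂ and d₁ d₃ (a four-group lying in L), CL the centralizer of j in L and K its generalized Fitting subgroup. Then K is quasisimple with centre E, K is the centralizer of E in L, K modulo E is isomorphic to the projective special unitary group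 of dimension 6 over the field with four elements, CL/K is isomorphic to the symmetric group of degree 3, and CL modulo E is isomorphic to the full automorphism group of that unitary group. -/
theorem result {G : Type*} [Group G] [Finite G] {D : Set G} (hD : Cfsg.IsThreeTranspositionGroup D) (hprim : Cfsg.IsPrimitiveUnderConj D) (d₀ : G) (hd₀ : d₀ ∈ D) (h3 : Cfsg.pCore 3 ↥(Subgroup.closure {y : G | y ∈ D ∧ y ≠ d₀ ∧ Commute d₀ y}) ≤ Subgroup.center ↥(Subgroup.closure {y : G | y ∈ D ∧ y ≠ d₀ ∧ Commute d₀ y})) (h2 : Cfsg.pCore 2 ↥(Subgroup.closure {y : G | y ∈ D ∧ y ≠ d₀ ∧ Commute d₀ y}) ≤ Subgroup.center ↥(Subgroup.closure {y : G | y ∈ D ∧ y ≠ d₀ ∧ Commute d₀ y})) (h24 : Cfsg.IsOfTypeM24 G D) (L : Subgroup G) (hL : L = commutator G) (d₁ d₂ d₃ : G) (h₁ : d₁ ∈ D) (h₂ : d₂ ∈ D) (h₃ : d₃ ∈ D) (h12 : d₁ ≠ d₂) (h13 : d₁ ≠ d₃) (h23 : d₂ ≠ d₃) (c12 : Commute d₁ d₂) (c13 : Commute d₁ d₃) (c23 : Commute d₂ d₃) (E CL K : Subgroup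 G) (hE : E = Subgroup.closure ({d₁ * d₂, d₁ * d₃} : Set G)) (hCL : CL = L ⊓ Subgroup.centralizer ({d₁ * d₂ * d₃} : Set G)) (hK : K = (Cfsg.generalizedFittingSubgroup ↥CL).map CL.subtype) : Cfsg.IsQuasisimple ↥K ∧ (Subgroup.center ↥K).map K.subtype = E ∧ K = L ⊓ Subgroup.centralizer (E : Set G) ∧ (∃ (_ : (E.subgroupOf K).Normal) (F : Type) (_ : Field F) (_ : Fintype F), Fintype.card F = 4 ∧ Nonempty (↥K ⧸ E.subgroupOf K ≃* Cfsg.PSU 6 F 2)) ∧ ∃ _ : (K.subgroupOf CL).Normal, Nonempty (↥CL ⧸ K.subgroupOf CL ≃* Equiv.Perm (Fin 3)) ∧ E ≤ CL ∧ ∃ (_ : (E.subgroupOf CL).Normal) (F : Type) (_ : Field F) (_ : Fintype F), Fintype.card F = 4 ∧ Nonempty (↥CL ⧸ E.subgroupOf CL ≃* MulAut (Cfsg.PSU 6 F 2)) := by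
  subst hL
  obtain ⟨⟨M⟩, F⟩ := F24.setup hD hprim h24
  obtain ⟨a, b, c, h, k⟩ := exists_tri hD hprim h24
  have ct := CT.three h₁ h₂ h₃ h12 h13 h23 c12 c13 c23
  obtain ⟨g, hg⟩ := (F24.tup3 M).tt _ _ h ct
  obtain ⟨rfl, rfl, rfl⟩ : d₁ = g * a * g⁻¹ ∧ d₂ = g * b * g⁻¹ ∧ d₃ = g * c * g⁻¹ := by simpa using hg
  obtain ⟨φ, T⟩ := k g
  generalize g * a * g⁻¹ = a, g * b * g⁻¹ = b, g * c * g⁻¹ = c at *
  obtain ⟨c1, c2, -⟩ := CT.three_iff ct
  obtain ⟨K', hK'⟩ : ∃ K', K' = commutator G ⊓ Subgroup.centralizer (E : Set G) := ⟨_, rfl⟩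
  have hK'' : ∀ x, x ∈ K' ↔ x ∈ commutator G ∧ Commute x a ∧ Commute x b ∧ Commute x c := fun x => by
    simp only [hK', hE, Subgroup.centralizer_closure, Subgroup.mem_inf, Subgroup.mem_centralizer_iff,
      Set.mem_insert_iff, Set.mem_singleton_iff, forall_eq_or_imp, forall_eq]
    exact and_congr_right fun _ => ⟨fun h => fix_of_two hD.2.1 (f24_uf2 M) c1 c2 h23 h.1.symm h.2.symm,
      fun h => ⟨(h.1.mul_right h.2.1).symm, (h.1.mul_right h.2.2).symm⟩⟩
  obtain ⟨k0, k5, k1, k2, θ, k3, k4⟩ := T.theta3 hD.2.1 (f24_uf2 M) ct (fun _ => M.sq_of_mem) hK''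
  obtain ⟨l1, π, l2, l3, l4⟩ := perm_L hD.2.1 (f24_uf3 M) (F24.tup3 M).tt ![a, b, c] ct F.index (i₀ := 0)
    (F.odd a h₁) (K := K') (C := CL) (fun x => by simp [hK'', Fin.forall_fin_succ])
    (by simpa [mul_assoc] using hCL)
  have i6 : (K'.subgroupOf CL).index = 6 := by
    rw [l3, Subgroup.index_ker, MonoidHom.range_eq_top.2 l2, Subgroup.card_top, Nat.card_eq_fintype_card]
    decide
  have hn : (K'.subgroupOf CL).Normal := l3 ▸ inferInstance
  have hc : ∀ (σ : Equiv.Perm (Fin 3)) i j, ![a, b, c] i * ![a, b, c] j ∈ ⁅K', K'⁆ →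
      ![a, b, c] (σ i) * ![a, b, c] (σ j) ∈ ⁅K', K'⁆ := fun σ i j h => by
    obtain ⟨x, rfl⟩ := l2 σ
    have h1 : K'.map (MulAut.conj (x : G)).toMonoidHom ≤ K' := by
      rintro _ ⟨y, hy, rfl⟩
      exact hn.conj_mem ⟨y, l1 hy⟩ hy x
    rw [← l4, ← l4, conj_mul]
    exact Subgroup.commutator_mono h1 h1 ((Subgroup.map_commutator _ _ _).le
      (Subgroup.mem_map_of_mem (MulAut.conj (x : G)).toMonoidHom h))
  have EK : E ≤ K' := hE ▸ (Subgroup.closure_le _).2 (Set.pair_subset k1 k2)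
  have := Lib.Class.Form.isSimpleGroup_PSU (q := 2) Lib.Class.card_GF4 6 (by decide) (by decide)
  obtain ⟨q, q0, q1, ⟨n1, q2⟩, n2, q3⟩ := aut_ext (Z := E) l1 k3 (hE ▸ k4)
    (le_inf EK (Subgroup.le_centralizer_iff.1 (hK'.le.trans inf_le_right))) u62_cen
    (k0 (k5.elim (hc (Equiv.swap 1 2) 0 2) fun h => hc (Equiv.swap 1 2) 0 2 (hc (Equiv.swap 0 1) 1 2 h)))
    (fun x hx => hK'.ge ⟨(hCL.le hx.1).1, Subgroup.centralizer_le EK hx.2⟩) (u62_out.trans i6.symm)
  obtain rfl : K = K' := hK.trans q1.symm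
  exact ⟨q, q0, hK', ⟨n1, _, _, _, Lib.Class.card_GF4, q2⟩, hn,
    ⟨(QuotientGroup.quotientMulEquivOfEq l3).trans (QuotientGroup.quotientKerEquivOfSurjective π l2)⟩,
    EK.trans l1, n2, _, _, _, Lib.Class.card_GF4, q3⟩

end Cfsg.Agent.S5466
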