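import Cfsg.Statements.S5469
import Cfsg.Agent.Spor.Fi22C06
import Cfsg.Agent.Spor.FisO68
import Cfsg.Agent.Trans.Quasisimple

set_option autoImplicit false
set_option linter.unusedVariables false
set_option maxRecDepth 100000
open Cfsg

namespace Cfsg.Agent.S5469

open Cfsg.Lib.Spor Cfsg.Lib.Spor.F22 Cfsg.Lib.Spor.Fis

/-- Let G be a finite group with trivial centre generated by a conjugation-invariant set D of 3-transpositions on which it acts primitively, such that for some d in D the subgroup generated by the members of D other than d commuting with d has central largest normal 2- and 3-subgroups, and suppose G with D is of type M(22). Let d₁, d₂ be distinct commuting members of D, j = d₁ d₂, K the joint centralizer of d₁ and d₂, C the centralizer of j and V the subgroup generated by d₁ and d₂. Then K has index 2 in C, V is the centre of K, and C has a normal subgroup E containing V with E/V elementary abelian of order 2^8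 and C/E isomorphic to the full automorphism group of the projective special unitary group of dimension 4 over the field with four elements. -/
theorem result {G : Type*} [Group G] [Finite G] {D : Set G} (hD : Cfsg.IsThreeTranspositionGroup D) (hprim : Cfsg.IsPrimitiveUnderConj D) (d₀ : G) (hd₀ : d₀ ∈ D) (h3 : Cfsg.pCore 3 ↥(Subgroup.closure {y : G | y ∈ D ∧ y ≠ d₀ ∧ Commute d₀ y}) ≤ Subgroup.center ↥(Subgroup.closure {y : G | y ∈ D ∧ y ≠ d₀ ∧ Commute d₀ y})) (h2 : Cfsg.pCore 2 ↥(Subgroup.closure {y : G | y ∈ D ∧ y ≠ d₀ ∧ Commute d₀ y}) ≤ Subgroup.center ↥(Subgroup.closure {y : G | y ∈ D ∧ y ≠ d₀ ∧ Commute d₀ y})) (h22 : Cfsg.IsOfTypeM22 G D) (d₁ d₂ : G) (h₁ : d₁ ∈ D) (h₂ : d₂ ∈ D) (hne : d₁ ≠ d₂) (hc : Commute d₁ d₂) (K C V : Subgroup G) (hK : K = Subgroup.centralizer ({d₁, d₂} : Set G)) (hC : C = Subgroup.centralizer ({d₁ * d₂} : Set G)) (hV : V = Subgroup.closure ({d₁, d₂} : Set G)) : K ≤ C ∧ (K.subgroupOf C).index = 2 ∧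 (Subgroup.center ↥K).map K.subtype = V ∧ ∃ E : Subgroup G, V ≤ E ∧ E ≤ C ∧ (∀ c ∈ C, ∀ x ∈ E, c * x * c⁻¹ ∈ E) ∧ Nat.card E = 2 ^ 10 ∧ (∀ x ∈ E, ∀ y ∈ E, x * y * x⁻¹ * y⁻¹ ∈ V ∧ x ^ 2 ∈ V) ∧ ∃ (_ : (E.subgroupOf C).Normal) (F : Type) (_ : Field F) (_ : Fintype F), Fintype.card F = 4 ∧ Nonempty (↥C ⧸ E.subgroupOf C ≃* MulAut (Cfsg.PSU 4 F 2)) := by
  obtain ⟨M⟩ := exists_mdl hD hprim h22
  obtain ⟨M, rfl, rfl⟩ := M.at2 h₁ h₂ hne hc
  have e : M.ρ (M.τ (pp 0) * M.τ (pp 6)) = C06.j := by rw [map_mul, M.ρτ, M.ρτ, C06.j_eq]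
  have c1 : C = M.pb (C06.AC0 ⊓ E) := by rw [hC, ← M.pb_centralizer_one, e]; exact (M.pb_AE _).symm
  have hle : C06.AC0 ⊓ E ≤ G0 := AE_le _
  have c2 : K = C ⊓ Subgroup.centralizer {M.τ (pp 0)} := by
    rw [hK, hC]
    ext x
    simp only [Subgroup.mem_inf, Subgroup.mem_centralizer_iff, Set.mem_insert_iff, Set.mem_singleton_iff,
      forall_eq_or_imp, forall_eq]
    refine ⟨fun h => ⟨by rw [mul_assoc, h.2, ← mul_assoc, h.1, mul_assoc], h.1⟩, fun h => ⟨h.2, ?_⟩⟩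
    refine mul_left_cancel (a := M.τ (pp 0)) ?_
    rw [← mul_assoc, h.1, ← mul_assoc, ← mul_assoc, h.2]
  have c3 : K = M.pb (C06.AC0 ⊓ E ⊓ ptStab 3510 0) := by
    rw [c2, c1, ← M.pb_ptStab]; rfl
  have c4 : V = M.pb (Subgroup.closure {t (pp 0), t (pp 6)}) := by
    rw [hV, ← M.pb_closure, Set.image_pair, M.ρτ, M.ρτ]
  have hE : C06.E10 ≤ G0 := C06.E_le.trans hle
  have c5 : Subgroup.centralizer (M.pb C06.E10 : Set G) ≤ V := by
    rw [M.centralizer_pb hE, c4, ← C06.cen_E]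
    exact Subgroup.comap_mono (inf_le_inf_right _ inf_le_left)
  have c6 : M.pb C06.E10 ≤ K := c3 ▸ Subgroup.comap_mono (le_inf C06.E_le C06.E_fix)
  have c7 : K ≤ C := c2 ▸ inf_le_left
  have c8 : V ≤ Subgroup.centralizer (K : Set G) := by
    rw [Subgroup.le_centralizer_iff, hV, Subgroup.centralizer_closure, hK]
  have c9 : V ≤ K := by
    rw [hV, hK, Subgroup.closure_le]
    rintro x (rfl | rfl) y (rfl | rfl)
    exacts [rfl, hc.symm, hc, rfl]
  have c10 : Subgroup.zpowers C06.j ≤ Subgroup.closure {t (pp 0), t (pp 6)} := by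
    rw [Subgroup.zpowers_le, C06.j_eq]
    exact mul_mem (Subgroup.subset_closure (by simp)) (Subgroup.subset_closure (by simp))
  obtain ⟨φ, d1, d2, d3⟩ := C06.hom_G
  obtain ⟨ψ, d4, d5⟩ := M.exists_hom hle φ d1 d2 c1
  obtain ⟨hn, ⟨i⟩⟩ := quot_iso_of_ker ψ d4 d5
  obtain ⟨F, _, _, hF, ⟨i'⟩⟩ := O6_aut
  refine ⟨c7, ?_, ?_, M.pb C06.E10, ?_, c6.trans c7, fun c hc x hx => hn.conj_mem ⟨x, c7 (c6 hx)⟩ hx ⟨c, hc⟩,
    (M.card_pb_of_le hE).trans d3, fun x hx y hy => ?_, hn, F, _, _, hF, ⟨i.trans i'⟩⟩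
  · have := (K.subgroupOf C).card_mul_index
    rw [card_subgroupOf_of_le c7, c3, M.card_pb_of_le (inf_le_left.trans hle), C06.card_K, ← c3] at this
    have h : Nat.card C = 53084160 := by rw [c1, M.card_pb_of_le hle, C06.ActlE.2]
    omega
  · rw [Lib.Trans.map_subtype_center]
    exact le_antisymm (inf_le_right.trans ((Subgroup.centralizer_le c6).trans c5)) (le_inf c9 c8)
  · rw [c4]
    refine Subgroup.comap_mono ((Subgroup.closure_le _).2 ?_)
    have h0 : t (pp 0) ∈ C06.E10 := C06.ev_1 ▸ Mem.gen _ _ List.mem_cons_self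
    rintro x (rfl | rfl)
    · exact h0
    · have := mul_mem (inv_mem h0) (C06.R_le C06.j_mem)
      rwa [C06.j_eq, inv_mul_cancel_left] at this
  · have := C06.sq_Q _ (C06.E_le_Q hx) _ (C06.E_le_Q hy)
    rw [c4]
    simp only [Subgroup.mem_comap, map_mul, map_inv, map_pow]
    exact ⟨c10 this.1, c10 this.2⟩

end Cfsg.Agent.S5469
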