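import Cfsg.Statements.S5470
import Cfsg.Agent.Spor.Fi22U
import Cfsg.Agent.Spor.Fi22C2c

set_option autoImplicit false
open Cfsg

namespace Cfsg.Agent.S5470

open Cfsg.Lib.Spor Cfsg.Lib.Spor.F22

/-- Let G be a finite group with trivial centre generated by a conjugation-invariant set D of 3-transpositions on which it acts primitively, such that for some d in D the subgroup generated by the members of D other than d commuting with d has central largest normal 2- and 3-subgroups, and suppose G with D is of type M(22). Then the centralizer of a product of three distinct pairwise commuting members of D has order 2^16 · 3^3. -/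
theorem result {G : Type*} [Group G] [Finite G] {D : Set G} (hD : Cfsg.IsThreeTranspositionGroup D) (hprim : Cfsg.IsPrimitiveUnderConj D) (d₀ : G) (hd₀ : d₀ ∈ D) (h3 : Cfsg.pCore 3 ↥(Subgroup.closure {y : G | y ∈ D ∧ y ≠ d₀ ∧ Commute d₀ y}) ≤ Subgroup.center ↥(Subgroup.closure {y : G | y ∈ D ∧ y ≠ d₀ ∧ Commute d₀ y})) (h2 : Cfsg.pCore 2 ↥(Subgroup.closure {y : G | y ∈ D ∧ y ≠ d₀ ∧ Commute d₀ y}) ≤ Subgroup.center ↥(Subgroup.closure {y : G | y ∈ D ∧ y ≠ d₀ ∧ Commute d₀ y})) (h22 : Cfsg.IsOfTypeM22 G D) (d₁ d₂ d₃ : G) (h₁ : d₁ ∈ D) (h₂ : d₂ ∈ D) (h₃ : d₃ ∈ D) (h12 : d₁ ≠ d₂) (h13 : d₁ ≠ d₃) (h23 : d₂ ≠ d₃) (c12 : Commute d₁ d₂) (c13 : Commute d₁ d₃) (c23 : Commute d₂ d₃) : Nat.card ↥(Subgroup.centralizer ({d₁ * d₂ * d₃} : Set G)) = 2 ^ 16 * 3 ^ 3 := by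
  obtain ⟨M⟩ := exists_mdl hD hprim h22
  obtain ⟨M, rfl, rfl, rfl⟩ := MD.at3 M h₁ h₂ h₃ h12 h13 h23 c12 c13 c23
  rw [M.card_centralizer (x := C2c.Q.ev [5, 3, 1]) (by
    rw [map_mul, map_mul, M.ρτ, M.ρτ, M.ρτ, t0640]; exact (Fis.wv_ext (by decide +kernel)).symm)]
  exact C2c.ActlE.2

end Cfsg.Agent.S5470
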