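import Cfsg.Statements.S5473
import Cfsg.Agent.Spor.Fi22C06
import Cfsg.Agent.SporChar.LargeX
import Cfsg.Agent.Spor.FisO68

set_option autoImplicit false
set_option linter.unusedVariables false
set_option maxRecDepth 100000
open Cfsg

namespace Cfsg.Agent.S5473

open Cfsg.Lib.Spor Cfsg.Lib.Spor.F22 Cfsg.Lib.Spor.Fis

/-- Let G be a finite group with trivial centre generated by a conjugation-invariant set D of 3-transpositions on which it acts primitively, such that for some d in D the subgroup generated by the members of D other than d commuting with d has central largest normal 2- and 3-subgroups, and suppose G with D is of type M(22), and let A be the automorphism group of G. Let d₁, d₂ be distinct commuting members of D and j the inner automorphism of their product. Then the generalized Fitting subgroup Q of the centralizer of j in A is a large extraspecial 2-subgroup of A of order 2^11 (extraspecial; centralizer equal to its centre; normal in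 the centralizer of its centre; normalizing no non-trivial odd-order subgroup), and the centralizer of j modulo Q is isomorphic to the full automorphism group of the projective special unitary group of dimension 4 over the field with four elements. -/
theorem result {G : Type*} [Group G] [Finite G] {D : Set G} (hD : Cfsg.IsThreeTranspositionGroup D) (hprim : Cfsg.IsPrimitiveUnderConj D) (d₀ : G) (hd₀ : d₀ ∈ D) (h3 : Cfsg.pCore 3 ↥(Subgroup.closure {y : G | y ∈ D ∧ y ≠ d₀ ∧ Commute d₀ y}) ≤ Subgroup.center ↥(Subgroup.closure {y : G | y ∈ D ∧ y ≠ d₀ ∧ Commute d₀ y})) (h2 : Cfsg.pCore 2 ↥(Subgroup.closure {y : G | y ∈ D ∧ y ≠ d₀ ∧ Commute d₀ y}) ≤ Subgroup.center ↥(Subgroup.closure {y : G | y ∈ D ∧ y ≠ d₀ ∧ Commute d₀ y})) (h22 : Cfsg.IsOfTypeM22 G D) (d₁ d₂ : G) (h₁ : d₁ ∈ D) (h₂ : d₂ ∈ D) (hne : d₁ ≠ d₂) (hc : Commute d₁ d₂) (j : MulAut G) (hj : j = MulAut.conj (d₁ * d₂)) (Q : Subgroup (MulAut G)) (hQ : Q = (Cfsg.generalizedFittingSubgroup ↥(Subgroup.centralizer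 ({j} : Set (MulAut G)))).map (Subgroup.centralizer ({j} : Set (MulAut G))).subtype) : Cfsg.IsLargeExtraspecial Q ∧ Nat.card Q = 2 ^ 11 ∧ Q ≤ Subgroup.centralizer ({j} : Set (MulAut G)) ∧ ∃ (_ : (Q.subgroupOf (Subgroup.centralizer ({j} : Set (MulAut G)))).Normal) (F : Type) (_ : Field F) (_ : Fintype F), Fintype.card F = 4 ∧ Nonempty (↥(Subgroup.centralizer ({j} : Set (MulAut G))) ⧸ Q.subgroupOf (Subgroup.centralizer ({j} : Set (MulAut G))) ≃* MulAut (Cfsg.PSU 4 F 2)) := by
  obtain ⟨M⟩ := exists_mdl hD hprim h22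
  obtain ⟨M, rfl, rfl⟩ := M.at2 h₁ h₂ hne hc
  obtain ⟨M', -, a2, -, -⟩ := M.exists_aut hD
  have e : M'.ρ j = C06.j := by rw [hj, a2, map_mul, M.ρτ, M.ρτ, C06.j_eq]
  have c1 : Subgroup.centralizer {j} = M'.pb C06.AC0 := by
    rw [← M'.pb_centralizer_one, e, ← M'.pb_inf_G₀, inf_comm]; rfl
  have hQ' : C06.Q11 ≤ F22.Q.A := C06.Q_le.trans C06.Aa0
  have c5 : Subgroup.centralizer (M'.pb C06.Q11 : Set (MulAut G)) = Subgroup.zpowers j := by
    rw [M'.centralizer_pb hQ', ← M'.pb_zpowers, e, ← C06.cen_Q]; rfl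
  have hjQ : j ∈ M'.pb C06.Q11 := by
    rw [Subgroup.mem_comap, e]; exact C06.E_le_Q (C06.R_le C06.j_mem)
  have c6 : M'.pb C06.Q11 ≤ Subgroup.centralizer {j} := c1 ▸ Subgroup.comap_mono C06.Q_le
  obtain ⟨φ, d1, d2, d3⟩ := C06.hom_A
  obtain ⟨ψ, d4, d5⟩ := M'.exists_hom C06.Aa0 φ d1 d2 c1
  have d7 : Nat.card (M'.pb C06.Q11) = 2 ^ 11 := (M'.card_pb_of_le hQ').trans d3
  have d6 : Q = M'.pb C06.Q11 := by
    rw [hQ, genFit_eq_ker (p := 2) ψ d4 pCore_O6 (IsPGroup.of_card (n := 11)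
      (by rw [d5, card_subgroupOf_of_le c6, d7]))
      (d5 ▸ centralizer_subgroupOf_le c6 (c5.le.trans (Subgroup.zpowers_le.2 hjQ))), d5,
      Subgroup.map_subgroupOf_eq_of_le c6]
  obtain ⟨hn, ⟨i⟩⟩ := quot_iso_of_ker ψ d4 d5
  obtain ⟨F, _, _, hF, ⟨i'⟩⟩ := O6_aut
  have hj2 : orderOf j = 2 := by rw [← orderOf_injective M'.ρ M'.inj, e, C06.j_ord]
  have d8 : Lib.Local.PreLX (M'.pb C06.Q11) j := by
    refine ⟨⟨hjQ, hj2, fun q hq => Subgroup.mem_centralizer_singleton_iff.1 (c6 hq), fun q hq => ?_,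
      fun c _ h2 _ => c5.le h2⟩, c5.le, fun c hc => Subgroup.mem_normalizer_fintype fun x hx =>
        hn.conj_mem ⟨x, c6 hx⟩ hx ⟨c, hc⟩, fun h => ?_⟩
    · rw [← M'.pb_zpowers, Subgroup.mem_comap, e, map_mul, ← sq]
      exact (C06.sq_Q _ hq _ (one_mem _)).2
    · have := Subgroup.card_le_of_le h
      rw [d7, Nat.card_zpowers, hj2] at this
      omega
  obtain ⟨c, hc, b1, b2⟩ := C06.j_conj
  obtain ⟨c, rfl⟩ := M'.exists_ρ hc
  subst d6
  refine ⟨d8.large_of_conj_mem (g := c) (fun h => b2 ?_) ?_, d7, c6, hn, F, _, _, hF, ⟨i.trans i'⟩⟩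
  · rw [← e, ← map_inv, ← map_mul, ← map_mul, h]
  · rwa [Subgroup.mem_comap, map_mul, map_mul, map_inv, e]

end Cfsg.Agent.S5473
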