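import Cfsg.Statements.S5474
import Cfsg.Agent.Spor.Fi24Inv
-- import your own Cfsg.Agent.* helpers here

set_option autoImplicit false
open Cfsg

namespace Cfsg.Agent.S5474

/-- Let G be a finite group with trivial centre generated by a conjugation-invariant set D of 3-transpositions on which it acts primitively, such that for some d in D the subgroup generated by the members of D other than d commuting with d has central largest normal 2- and 3-subgroups, and suppose G with D is of type M(24). Then D is the only conjugacy class of 3-transpositions generating G. -/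
theorem result {G : Type*} [Group G] [Finite G] {D : Set G} (hD : Cfsg.IsThreeTranspositionGroup D) (hprim : Cfsg.IsPrimitiveUnderConj D) (d₀ : G) (hd₀ : d₀ ∈ D) (h3 : Cfsg.pCore 3 ↥(Subgroup.closure {y : G | y ∈ D ∧ y ≠ d₀ ∧ Commute d₀ y}) ≤ Subgroup.center ↥(Subgroup.closure {y : G | y ∈ D ∧ y ≠ d₀ ∧ Commute d₀ y})) (h2 : Cfsg.pCore 2 ↥(Subgroup.closure {y : G | y ∈ D ∧ y ≠ d₀ ∧ Commute d₀ y}) ≤ Subgroup.center ↥(Subgroup.closure {y : G | y ∈ D ∧ y ≠ d₀ ∧ Commute d₀ y})) (h24 : Cfsg.IsOfTypeM24 G D) (D' : Set G) (hD' : Cfsg.IsThreeTranspositionClass D') : D' = D := by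
  
  open Cfsg.Lib.Spor Cfsg.Lib.Spor.Fm Cfsg.Lib.Spor.F24 in
  obtain ⟨⟨M⟩, -⟩ := setup hD hprim h24
  obtain ⟨h1, ⟨d, hd, rfl⟩, -⟩ := hD'
  obtain ⟨m, k1, k4, l, h, rfl⟩ := inv_ct hD hprim h24 (h1.1 d hd)
  have h5 : l.prod ∈ D := by
    rcases k1.eq_or_lt with rfl | k2
    · obtain ⟨a, rfl⟩ := List.length_eq_one_iff.1 h.2.1
      simpa using h.2.2.1
    · obtain ⟨g, hg⟩ := exists_not_six M k2 k4 h
      exact absurd (F22.six_of_three h1 hd (isConj_iff.2 ⟨g, rfl⟩)) hg
  ext x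
  refine ⟨fun hx => ?_, fun hx => isConj_iff.2 (hprim.1 _ h5 x hx)⟩
  obtain ⟨g, rfl⟩ := isConj_iff.1 hx
  exact hD.2.1 g _ h5

end Cfsg.Agent.S5474
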