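import Cfsg.Statements.S5514
import Cfsg.Agent.Spor.O7Cl
-- import your own Cfsg.Agent.* helpers here

set_option autoImplicit false
open Cfsg

namespace Cfsg.Agent.S5514

open Cfsg.Lib.Spor Cfsg.Lib.Spor.Bulk Cfsg.Lib.Spor.Fm Subgroup

theorem classes_of {G P α : Type*} [Group G] [Group P] [Finite G] (e : G ≃* P) {k : ℕ} {r : Fin k → G}
    (ho : ∀ i, orderOf (r i) = 3) (hg : ∀ y, Good 3 (Set.range r) y) (f : G → α)
    (h1 : ∀ g x, f (g * x * g⁻¹) = f x) (h2 : ∀ x, f x⁻¹ = f x) (h3 : Function.Injective fun i => f (r i)) :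
    ∃ Y : Fin k → Subgroup P, (∀ i, Nat.card (Y i) = 3) ∧
      (∀ i j, (∃ g : P, (Y i).map (MulAut.conj g).toMonoidHom = Y j) → i = j) ∧
      (∀ X : Subgroup P, Nat.card X = 3 → ∃ i, ∃ g : P, X.map (MulAut.conj g).toMonoidHom = Y i) := by
  refine ⟨fun i => zpowers (e (r i)), fun i => by rw [Nat.card_zpowers, MulEquiv.orderOf_eq, ho],
    fun i j ⟨g, h⟩ => h3 ?_, fun X hX => ?_⟩
  · obtain ⟨g, rfl⟩ := e.surjective g
    have h4 : e (g * r i * g⁻¹) ∈ zpowers (e (r j)) := by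
      have h := h.le ⟨e (r i), mem_zpowers _, rfl⟩
      simpa using h
    obtain ⟨m, hm⟩ := h4
    have h5 : r j ^ m = g * r i * g⁻¹ := e.injective (by simpa using hm)
    have h6 : r j ^ (3 : ℤ) = 1 := by
      have := pow_orderOf_eq_one (r j); rw [ho] at this; exact_mod_cast this
    have h7 : r j ^ m = r j ^ (m % 3) := by
      conv_lhs => rw [← Int.mul_ediv_add_emod m 3, zpow_add, zpow_mul, h6, one_zpow, one_mul]
    show f (r i) = f (r j)
    rw [← h1 g (r i), ← h5, h7]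
    have h8 : m % 3 = 0 ∨ m % 3 = 1 ∨ m % 3 = 2 := by omega
    rcases h8 with h8 | h8 | h8
    · rw [h7, h8, zpow_zero] at h5
      have h9 : r i = 1 := by simpa using h5.symm
      have := ho i
      rw [h9, orderOf_one] at this
      omega
    · rw [h8, zpow_one]
    · rw [h8, ← h2 (r j)]
      congr 1
      rw [eq_inv_iff_mul_eq_one, ← zpow_add_one]; exact h6
  · obtain ⟨_, ⟨i, rfl⟩, g, hX⟩ := exists_zpowers_of_good Nat.prime_three hg (by rintro _ ⟨i, rfl⟩; exact ho i)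
      (X := X.map e.symm.toMonoidHom) (by rw [card_map_of_injective e.symm.injective, hX])
    refine ⟨i, (e g)⁻¹, ?_⟩
    have h4 : X = zpowers (e (g * r i * g⁻¹)) := by
      have := congrArg (Subgroup.map e.toMonoidHom) hX
      rw [map_map, MonoidHom.map_zpowers] at this
      simpa using this
    rw [h4, MonoidHom.map_zpowers]
    simp [mul_assoc]

theorem ncard_conj {G : Type*} [Group G] {D : Set G} (hD : ∀ y d : G, y * d * y⁻¹ ∈ D ↔ d ∈ D) (g : G)
    {P Q : G → Prop} (h : ∀ d, P (g * d * g⁻¹) ↔ Q d) :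
    {d | d ∈ D ∧ P d}.ncard = {d | d ∈ D ∧ Q d}.ncard := by
  rw [← Set.ncard_image_of_injective {d | d ∈ D ∧ Q d} (MulAut.conj g).injective]
  congr 1
  ext d
  obtain ⟨d, rfl⟩ := (MulAut.conj g).surjective d
  rw [(MulAut.conj g).injective.mem_set_image]
  simp only [MulAut.conj_apply, Set.mem_ofPred_eq, hD, h]

/-- the representatives -/
def rp : Fin 7 → List ℕ := ![[3,8,5,4,9,3,2,15,4], [1,7,5,1,4,2,8,13,6,9], [3,6,8,5,1,7], [5,8,7,1],
  [4,5,15,4,5,15], [4,3,2,3,7,9], [3,6]]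

/-- the values of the invariants -/
def cv : Fin 7 → ℕ × ℕ := ![(81, 27), (243, 27), (243, 324), (171, 135), (27, 324), (279, 135), (45, 351)]

noncomputable def invB (W : List ℕ) (c : ℕ × ℕ) : Bool :=
  band (band (F23.O7.C.eqW (pwr W 3) []) (bnot (F23.O7.C.eqW W [])))
    (band (Nat.beq (F23.O7.C.cn ((Cell.fa .all .v (.im 0 .v)).ev F23.O7.C [W] [] F23.O7.C.root)) c.1)
      (Nat.beq (F23.C.cn (F23.C.fixW (mapL F23.O7.lΛ.gw W).flatten)) c.2))

theorem inv_ok (i : Fin 7) : invB (rp i) (cv i) = true := by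
  fin_cases i <;> decide +kernel

/-- The commutator subgroup of the isometry group of a non-degenerate 7-dimensional quadratic form over the field with three elements, modulo its (trivial) centre — the simple group Ω(7, 3) — has exactly seven conjugacy classes of subgroups of order 3. -/
theorem result : ∃ Y : Fin 7 → Subgroup (Cfsg.POmega (ZMod 3) (Cfsg.quadFormOdd 3 (ZMod 3))), (∀ i, Nat.card (Y i) = 3) ∧ (∀ i j, (∃ g : Cfsg.POmega (ZMod 3) (Cfsg.quadFormOdd 3 (ZMod 3)), (Y i).map (MulAut.conj g).toMonoidHom = Y j) → i = j) ∧ (∀ X : Subgroup (Cfsg.POmega (ZMod 3) (Cfsg.quadFormOdd 3 (ZMod 3))), Nat.card X = 3 → ∃ i, ∃ g : Cfsg.POmega (ZMod 3) (Cfsg.quadFormOdd 3 (ZMod 3)), X.map (MulAut.conj g).toMonoidHom = Y i) := by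
  have := Fact.mk Nat.prime_three
  obtain ⟨M, -⟩ := F23.exists_mdl0
  obtain ⟨M', S⟩ := F23.O7.exists_sub M
  obtain ⟨e⟩ := F23.isoK M
  have := M'.fin
  refine classes_of (G := F23.O7.H M) e (r := fun i => M'.el (rp i)) (fun i => M'.orderOf_el (band_left (inv_ok i)))
    (fun y => ?_) (fun x => ({d | d ∈ M.subD F23.O7.lΛ (MonoidHom.id _) ∧ Commute d (x * d * x⁻¹)}.ncard,
      {d | d ∈ {d | IsConj (F23.g1 1) d} ∧ Commute x.1 d}.ncard)) (fun g x => Prod.ext ?_ ?_)
      (fun x => Prod.ext ?_ ?_) ?_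
  · convert F23.O7.good3 M' (F23.cK M).1 y using 1
    ext z
    constructor
    · rintro ⟨i, rfl⟩
      exact ⟨rp i, by fin_cases i <;> simp [rp, F23.O7.d3R], rfl⟩
    · rintro ⟨W, hW, rfl⟩
      simp only [F23.O7.d3R, List.mem_cons, List.not_mem_nil, or_false, Set.mem_ofPred_eq] at hW
      rcases hW with rfl | rfl | rfl | rfl | rfl | rfl | rfl
      exacts [⟨0, rfl⟩, ⟨1, rfl⟩, ⟨2, rfl⟩, ⟨3, rfl⟩, ⟨4, rfl⟩, ⟨5, rfl⟩, ⟨6, rfl⟩]
  · refine ncard_conj M'.conj_mem_iff g fun d => ?_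
    rw [show g * x * g⁻¹ * (g * d * g⁻¹) * (g * x * g⁻¹)⁻¹ = g * (x * d * x⁻¹) * g⁻¹ by group]
    exact Commute.conj_iff g
  · exact ncard_conj M.conj_mem_iff g.1 fun d => Commute.conj_iff g.1
  · show Set.ncard _ = Set.ncard _
    congr 1
    ext d
    refine and_congr_right fun _ => ?_
    rw [← Commute.conj_iff x, show x * (x⁻¹ * d * x⁻¹⁻¹) * x⁻¹ = d by group]
    exact Commute.symm_iff
  · show Set.ncard _ = Set.ncard _
    congr 1
    ext d
    exact and_congr_right fun _ => Commute.inv_left_iff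
  · have key : ∀ i, ({d | d ∈ M.subD F23.O7.lΛ (MonoidHom.id _) ∧
        Commute d (M'.el (rp i) * d * (M'.el (rp i))⁻¹)}.ncard,
        {d | d ∈ {d | IsConj (F23.g1 1) d} ∧ Commute (M'.el (rp i)).1 d}.ncard) = cv i := fun i => by
      have h := band_right (inv_ok i)
      refine Prod.ext ((M'.ncard_eq fun q hq => ?_).trans (Nat.eq_of_beq_eq_true (band_left h)))
        ((M.ncard_eq fun q hq => ?_).trans (Nat.eq_of_beq_eq_true (band_right h)))
      · rw [M'.testBit_ev _ _ (F := []) rfl M'.ok.root_lt hq, ← M'.t_act _ _ hq, M'.act_el _ hq]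
        exact and_iff_right trivial
      · rw [M.testBit_fixW _ hq, S.el, ← M.wv_lg]; rfl
    intro i j h
    have h1 : cv i = cv j := (key i).symm.trans (h.trans (key j))
    clear h
    revert i j
    decide


end Cfsg.Agent.S5514
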