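import Cfsg.Statements.S5515
import Cfsg.Agent.Spor.O8pS3

set_option autoImplicit false
open Cfsg

namespace Cfsg.Agent.S5515

open Cfsg.Lib.Spor.O8

/-- Let G and G′ be finite groups whose generalized Fitting subgroups are isomorphic to PΩ⁺(8, 3) (the commutator subgroup of the isometry group of the hyperbolic quadratic form in dimension 8 over the field with three elements, modulo its centre) with quotients isomorphic to the symmetric group of degree 3. Then G and G′ are isomorphic. -/
theorem result {G G' : Type*} [Group G] [Finite G] [Group G'] [Finite G'] (hF : Nonempty (↥(Cfsg.generalizedFittingSubgroup G) ≃* Cfsg.POmega (ZMod 3) (Cfsg.quadFormPlus 4 (ZMod 3)))) (hF' : Nonempty (↥(Cfsg.generalizedFittingSubgroup G') ≃* Cfsg.POmega (ZMod 3) (Cfsg.quadFormPlus 4 (ZMod 3)))) [hn : (Cfsg.generalizedFittingSubgroup G).Normal] [hn' : (Cfsg.generalizedFittingSubgroup G').Normal] (hq : Nonempty (G ⧸ Cfsg.generalizedFittingSubgroup G ≃* Equiv.Perm (Fin 3))) (hq' : Nonempty (G' ⧸ Cfsg.generalizedFittingSubgroup G' ≃* Equiv.Perm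 (Fin 3))) : Nonempty (G ≃* G') := by
  obtain ⟨f, -⟩ := exists_equiv _ (centralizer_eq_bot hF.some) hF.some (index_eq_six hq) _
    (centralizer_eq_bot hF'.some) hF'.some (index_eq_six hq')
  exact ⟨f⟩

end Cfsg.Agent.S5515
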