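import Cfsg.Statements.S5516
import Cfsg.Agent.Spor.O8pCl
import Cfsg.Agent.S5514
-- import your own Cfsg.Agent.* helpers here

set_option autoImplicit false
open Cfsg

namespace Cfsg.Agent.S5516

/-- PΩ⁺(8, 3) (the commutator subgroup of the isometry group of the hyperbolic quadratic form in dimension 8 over the field with three elements, modulo its centre) has exactly 13 conjugacy classes of subgroups of order 3; and a finite group G whose generalized Fitting subgroup L is isomorphic to PΩ⁺(8, 3) with G/L the symmetric group of degree 3 has exactly 7 orbits, under conjugation, on the subgroups of L of order 3. -/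
theorem result {G : Type*} [Group G] [Finite G] (L : Subgroup G) (hL : L = Cfsg.generalizedFittingSubgroup G) (hF : Nonempty (↥L ≃* Cfsg.POmega (ZMod 3) (Cfsg.quadFormPlus 4 (ZMod 3)))) [hn : L.Normal] (hq : Nonempty (G ⧸ L ≃* Equiv.Perm (Fin 3))) : (∃ Y : Fin 13 → Subgroup (Cfsg.POmega (ZMod 3) (Cfsg.quadFormPlus 4 (ZMod 3))), (∀ i, Nat.card (Y i) = 3) ∧ (∀ i j, (∃ g : Cfsg.POmega (ZMod 3) (Cfsg.quadFormPlus 4 (ZMod 3)), (Y i).map (MulAut.conj g).toMonoidHom = Y j) → i = j) ∧ (∀ X : Subgroup (Cfsg.POmega (ZMod 3) (Cfsg.quadFormPlus 4 (ZMod 3))), Nat.card X = 3 → ∃ i, ∃ g : Cfsg.POmega (ZMod 3) (Cfsg.quadFormPlus 4 (ZMod 3)), X.map (MulAut.conj g).toMonoidHom = Y i)) ∧ ∃ Y : Fin 7 → Subgroup G, (∀ i, Y i ≤ L ∧ Nat.card (Y i) = 3) ∧ (∀ i j, (∃ g : G, (Y i).map (MulAut.conj g).toMonoidHom = Y j) → i = j) ∧ ∀ X : Subgroup G, X ≤ L → Nat.card X = 3 → ∃ i, ∃ g : G, X.map (MulAut.conj g).toMonoidHom = Y i := by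
  open Cfsg.Lib.Spor Cfsg.Lib.Spor.Bulk Cfsg.Lib.Spor.Fm Cfsg.Lib.Spor.F24 in
  obtain ⟨M₀, -⟩ := F24.exists_mdl0
  obtain ⟨M, -⟩ := LL.exists_sub M₀
  have := M.fin
  obtain ⟨e⟩ := LL.iso_N M
  refine ⟨S5514.classes_of e (r := fun j => ⟨M.el (LL.cq j), LL.q_mem M j⟩)
    (fun j => by rw [← Subgroup.orderOf_coe]; exact LL.q_ord M j) (LL.goodN M) (fun x => LL.fv M x.1)
    (fun g x => LL.fv_conj M g.2 x.1) (fun x => LL.fv_inv M x.1) (fun i j h => ?_), ?_⟩
  · simp only [LL.fv_q] at h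
    exact (by decide : Function.Injective LL.cv) h
  · subst hL
    obtain ⟨f, hf⟩ := O8.exists_equiv _ (O8.centralizer_eq_bot hF.some) hF.some (O8.index_eq_six hq) _
      (LL.cent_N M) e (LL.index_N M)
    obtain ⟨Y, h1, h2, h3⟩ := LL.orbits M
    have key : ∀ (g) (X : Subgroup G), (X.map (MulAut.conj g).toMonoidHom).map f.toMonoidHom =
        (X.map f.toMonoidHom).map (MulAut.conj (f g)).toMonoidHom := fun g X => by
      rw [Subgroup.map_map, Subgroup.map_map]
      congr 1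
      ext x
      simp
    have k2 : ∀ Z, Subgroup.map f.toMonoidHom (Subgroup.map f.symm.toMonoidHom Z) = Z := fun Z => by
      rw [Subgroup.map_map]; simp
    refine ⟨fun i => (Y i).map f.symm.toMonoidHom, fun i => ⟨?_, ?_⟩, fun i j ⟨g, h⟩ => h2 i j ⟨f g, ?_⟩,
      fun X hX hc => ?_⟩
    · rintro _ ⟨y, hy, rfl⟩
      exact (hf _).1 (by simpa using (h1 i).1 hy)
    · rw [Subgroup.card_map_of_injective f.symm.injective, (h1 i).2]
    · have := congrArg (Subgroup.map f.toMonoidHom) h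
      rwa [key, k2, k2] at this
    · obtain ⟨i, g, h⟩ := h3 (X.map f.toMonoidHom) (by rintro _ ⟨x, hx, rfl⟩; exact (hf x).2 (hX hx))
        (by rw [Subgroup.card_map_of_injective f.injective, hc])
      obtain ⟨g, rfl⟩ := f.surjective g
      refine ⟨i, g, Subgroup.map_injective (f := f.toMonoidHom) f.injective ?_⟩
      rw [key, k2, h]


end Cfsg.Agent.S5516
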