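import Cfsg.Statements.S5517
import Cfsg.Agent.Known.Fi22O7
import Cfsg.Agent.Spor.Fi22T

set_option autoImplicit false
open Cfsg

namespace Cfsg.Agent.S5517

open Cfsg.Lib.Spor.Bulk Cfsg.Lib.Spor.Fi22P

/-- Let G be a finite group with trivial centre generated by a conjugation-invariant set D of 3-transpositions on which it acts primitively, such that for some d in D the subgroup generated by the members of D other than d commuting with d has central largest normal 2- and 3-subgroups, and suppose G with D is of type M(22). Then G has a subgroup L generated by the members of D it contains and isomorphic to Ω(7, 3) (the commutator subgroup of the isometry group of a non-degenerate 7-dimensional quadratic form over the field with three elements, modulo its centre), and every Sylow 3-subgroup of L is a Sylow 3-subgroup of G. -/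
theorem result {G : Type*} [Group G] [Finite G] {D : Set G} (hD : Cfsg.IsThreeTranspositionGroup D) (hprim : Cfsg.IsPrimitiveUnderConj D) (d₀ : G) (hd₀ : d₀ ∈ D) (h3 : Cfsg.pCore 3 ↥(Subgroup.closure {y : G | y ∈ D ∧ y ≠ d₀ ∧ Commute d₀ y}) ≤ Subgroup.center ↥(Subgroup.closure {y : G | y ∈ D ∧ y ≠ d₀ ∧ Commute d₀ y})) (h2 : Cfsg.pCore 2 ↥(Subgroup.closure {y : G | y ∈ D ∧ y ≠ d₀ ∧ Commute d₀ y}) ≤ Subgroup.center ↥(Subgroup.closure {y : G | y ∈ D ∧ y ≠ d₀ ∧ Commute d₀ y})) (h22 : Cfsg.IsOfTypeM22 G D) : ∃ L : Subgroup G, Cfsg.IsDSubgroup D L ∧ Nonempty (↥L ≃* Cfsg.POmega (ZMod 3) (Cfsg.quadFormOdd 3 (ZMod 3))) ∧ ∀ P : Sylow 3 ↥L, ∃ P' : Sylow 3 G, (P : Subgroup ↥L).map L.subtype = (P' : Subgroup G) := by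
  obtain ⟨f, hf⟩ := Lib.Spor.F22.exists_equiv hD hprim h22
  obtain ⟨e⟩ := Lib.Known.fi22_o73
  have := Fact.mk Nat.prime_three
  refine ⟨(gL g0 [2,3,4,5,6,7,8,9]).map f.toMonoidHom, le_antisymm ((Subgroup.closure_le _).2 fun _ h => h.2) ?_,
    ⟨(f.subgroupMap _).symm.trans e⟩, Lib.Known.exists_sylow_map ?_⟩
  · rw [Subgroup.map_le_iff_le_comap]
    refine gL_le fun l hl => Subgroup.subset_closure ⟨?_, Subgroup.mem_map_of_mem _ (mem_gL hl)⟩
    have k : ∀ x, f (g0 (Lib.Spor.Fi22P.D.lt x)) ∈ D := fun x =>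
      (congrArg (f · ∈ D) (ok.g0_lt x)).mpr (hf x)
    simp only [List.mem_cons, List.not_mem_nil, or_false] at hl
    rcases hl with rfl | rfl | rfl | rfl | rfl | rfl | rfl | rfl
    exacts [k .b, k .c, k .d, k .e, k .f, k .g, k .h, k .i]
  · rw [MulEquiv.toMonoidHom_eq_coe, Subgroup.index_map_equiv, ← gW_sing]
    exact fun h => absurd (h.trans (dvd_of_eq model.index)) (by decide)

end Cfsg.Agent.S5517
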