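import Cfsg.Statements.S5518
import Cfsg.Agent.Spor.F24P13
-- import your own Cfsg.Agent.* helpers here

set_option autoImplicit false
open Cfsg

namespace Cfsg.Agent.S5518

/-- Let G be a finite group with trivial centre generated by a conjugation-invariant set D of 3-transpositions on which it acts primitively, such that for some d in D the subgroup generated by the members of D other than d commuting with d has central largest normal 2- and 3-subgroups, and suppose G with D is of type M(24). Then any two subgroups of order 13 are conjugate; and there are members a, b, c, d of D generating the direct product T of two symmetric groups of degree 3 (a, d non-commuting; b, c non-commuting; b and c commuting with a and d) whose centralizer K is isomorphic to the Chevalley group G₂(3), such that for every subgroup B of K of order 13: the normalizer of B lies in the normalizer of K, the normalizer F of B in K is a Frobenius group of order 78 with kernel B (order 78, centralizer of B in it equal to B), and the subgroup generated by F and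 T has index 2 in the normalizer of B. -/
theorem result {G : Type*} [Group G] [Finite G] {D : Set G} (hD : Cfsg.IsThreeTranspositionGroup D) (hprim : Cfsg.IsPrimitiveUnderConj D) (d₀ : G) (hd₀ : d₀ ∈ D) (h3 : Cfsg.pCore 3 ↥(Subgroup.closure {y : G | y ∈ D ∧ y ≠ d₀ ∧ Commute d₀ y}) ≤ Subgroup.center ↥(Subgroup.closure {y : G | y ∈ D ∧ y ≠ d₀ ∧ Commute d₀ y})) (h2 : Cfsg.pCore 2 ↥(Subgroup.closure {y : G | y ∈ D ∧ y ≠ d₀ ∧ Commute d₀ y}) ≤ Subgroup.center ↥(Subgroup.closure {y : G | y ∈ D ∧ y ≠ d₀ ∧ Commute d₀ y})) (h24 : Cfsg.IsOfTypeM24 G D) : (∀ X Y : Subgroup G, Nat.card X = 13 → Nat.card Y = 13 → ∃ g : G, X.map (MulAut.conj g).toMonoidHom = Y) ∧ ∃ (a b c d : G) (T K : Subgroup G), (∀ x ∈ [a, b, c, d], x ∈ D) ∧ ¬ Commute a d ∧ ¬ Commute b c ∧ Commute a b ∧ Commute a c ∧ Commute d b ∧ Commute d c ∧ T = Subgroup.closure ({a, b, c, d} : Set G) ∧ K = Subgroup.centralizer (T : Set G) ∧ Nonempty (↥K ≃* ↥(Cfsg.Lie.chevG2.group (ZMod 3))) ∧ ∀ B : Subgroup G, B ≤ K → Nat.card B = 13 → Subgroup.normalizer ((B : Subgroup G) : Set G) ≤ Subgroup.normalizer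 ((K : Subgroup G) : Set G) ∧ Nat.card ↥(K ⊓ Subgroup.normalizer ((B : Subgroup G) : Set G)) = 78 ∧ K ⊓ Subgroup.centralizer ((B : Subgroup G) : Set G) = B ∧ (((K ⊓ Subgroup.normalizer ((B : Subgroup G) : Set G)) ⊔ T).subgroupOf (Subgroup.normalizer ((B : Subgroup G) : Set G))).index = 2 := by
  open Cfsg.Lib.Spor Cfsg.Lib.Spor.Bulk Cfsg.Lib.Spor.Fm Cfsg.Lib.Spor.F24 Cfsg.Lib.Spor.F24.G2 in
  obtain ⟨⟨M⟩, hF⟩ := setup hD hprim h24
  have : Fact (Nat.Prime 13) := ⟨by norm_num⟩
  have ad : ∀ {p q : ℕ}, p < C.n → q < C.n → bnot (C.adj p q) = true → ¬ Commute (M.t p) (M.t q) :=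
    fun hp hq h h1 => by rw [← M.adj_iff hp hq, bnot_eq h] at h1; exact absurd h1 (by simp)
  refine ⟨fun X Y hX hY => exists_conj_of_prime (a := 193108570644717187891200) (by rw [hF.card]) (by norm_num) hX hY,
    M.t 0, M.t 12, M.t 302287, M.t 2, TT M, KK M, fun x hx => ?_,
    ad (by decide) (by decide) (band_left (band_left adjs)), ad (by decide) (by decide) (band_right (band_left adjs)),
    (M.adj_iff (by decide) (by decide)).1 (band_left (band_left (band_right adjs))),
    (M.adj_iff (by decide) (by decide)).1 (band_right (band_left (band_right adjs))),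
    (M.adj_iff (by decide) (by decide)).1 (band_left (band_right (band_right adjs))),
    (M.adj_iff (by decide) (by decide)).1 (band_right (band_right (band_right adjs))),
    rfl, (cen_T M).symm, isoG2 M, fun B hB hc => ?_⟩
  · simp only [List.mem_cons, List.not_mem_nil, or_false] at hx
    rcases hx with rfl | rfl | rfl | rfl <;> exact M.t_mem (by decide)
  · obtain ⟨k, hk, rfl⟩ := exists_conj M hB hc
    have e : ∀ p ∈ [0,2,12,302287], (M.conj k).t p = M.t p := fun p hp => by
      rw [M.conj_t, ((M.mem_grp_F (by decide)).1 hk p hp).eq, mul_inv_cancel_right]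
    have eT : TT (M.conj k) = TT M := by
      rw [G2.TT, e 0 (by simp), e 2 (by simp), e 12 (by simp), e 302287 (by simp)]
    have eK : KK (M.conj k) = KK M := by rw [← cen_T, eT, cen_T]
    rw [← eT, ← eK]
    exact ⟨norm_le _, card_F _, cen_B _, index_F _⟩


end Cfsg.Agent.S5518
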