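import Cfsg.Statements.S5519
import Cfsg.Agent.Spor.Fi22C06
import Cfsg.Agent.SporChar.LargeX

set_option autoImplicit false
set_option linter.unusedVariables false
set_option maxRecDepth 100000
open Cfsg

namespace Cfsg.Agent.S5519

open Cfsg.Lib.Spor Cfsg.Lib.Spor.F22 Cfsg.Lib.Spor.Fis

/-- Let G be a finite group with trivial centre generated by a conjugation-invariant set D of 3-transpositions on which it acts primitively, such that for some d in D the subgroup generated by the members of D other than d commuting with d has central largest normal 2- and 3-subgroups, and suppose G with D is of type M(22). Let d₁, d₂ be distinct commuting members of D and C the centralizer of their product. Then the generalized Fitting subgroup of C is the direct product of a group of order 2 and an extraspecial 2-group of order 2^9, and C modulo it is isomorphic to the full isometry group of the elliptic quadratic form in dimension 6 over the field with two elements.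 -/
theorem result {G : Type*} [Group G] [Finite G] {D : Set G} (hD : Cfsg.IsThreeTranspositionGroup D) (hprim : Cfsg.IsPrimitiveUnderConj D) (d₀ : G) (hd₀ : d₀ ∈ D) (h3 : Cfsg.pCore 3 ↥(Subgroup.closure {y : G | y ∈ D ∧ y ≠ d₀ ∧ Commute d₀ y}) ≤ Subgroup.center ↥(Subgroup.closure {y : G | y ∈ D ∧ y ≠ d₀ ∧ Commute d₀ y})) (h2 : Cfsg.pCore 2 ↥(Subgroup.closure {y : G | y ∈ D ∧ y ≠ d₀ ∧ Commute d₀ y}) ≤ Subgroup.center ↥(Subgroup.closure {y : G | y ∈ D ∧ y ≠ d₀ ∧ Commute d₀ y})) (h22 : Cfsg.IsOfTypeM22 G D) (d₁ d₂ : G) (h₁ : d₁ ∈ D) (h₂ : d₂ ∈ D) (hne : d₁ ≠ d₂) (hc : Commute d₁ d₂) (C : Subgroup G) (hC : C = Subgroup.centralizer ({d₁ * d₂} : Set G)) [hn : (Cfsg.generalizedFittingSubgroup ↥C).Normal] : (∃ (E : Type) (_ : Group E) (_ : Finite E), Cfsg.IsExtraspecial 2 E ∧ Nat.card E = 2 ^ 9 ∧ Nonempty (↥(Cfsg.generalizedFittingSubgroup ↥C) ≃* Multiplicative (ZMod 2) × E)) ∧ Nonempty (↥C ⧸ Cfsg.generalizedFittingSubgroup ↥C ≃* Cfsg.isometryGroup (ZMod 2)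 (Cfsg.quadFormMinus 2 (ZMod 2) 1 1)) := by
  obtain ⟨M⟩ := exists_mdl hD hprim h22
  obtain ⟨M, rfl, rfl⟩ := M.at2 h₁ h₂ hne hc
  have e : M.ρ (M.τ (pp 0) * M.τ (pp 6)) = C06.j := by rw [map_mul, M.ρτ, M.ρτ, C06.j_eq]
  have c1 : C = M.pb (C06.AC0 ⊓ E) := by rw [hC, ← M.pb_centralizer_one, e]; exact (M.pb_AE _).symm
  have hle : C06.AC0 ⊓ E ≤ G0 := AE_le _
  have hE : C06.E10 ≤ G0 := C06.E_le.trans hle
  have h0 : t (pp 0) ∈ C06.E10 := C06.ev_1 ▸ Mem.gen _ _ List.mem_cons_self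
  have c5 : Subgroup.centralizer (M.pb C06.E10 : Set G) ≤ M.pb C06.E10 := by
    rw [M.centralizer_pb hE]
    refine Subgroup.comap_mono ((inf_le_inf_right _ inf_le_left).trans (C06.cen_E.le.trans ?_))
    rw [Subgroup.closure_le]
    rintro x (rfl | rfl)
    · exact h0
    · have := mul_mem (inv_mem h0) (C06.R_le C06.j_mem)
      rwa [C06.j_eq, inv_mul_cancel_left] at this
  have c6 : M.pb C06.E10 ≤ C := c1 ▸ Subgroup.comap_mono C06.E_le
  obtain ⟨φ, d1, d2, d3⟩ := C06.hom_G
  obtain ⟨ψ, d4, d5⟩ := M.exists_hom hle φ d1 d2 c1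
  have d6 : generalizedFittingSubgroup C = (M.pb C06.E10).subgroupOf C := by
    rw [genFit_eq_ker (p := 2) ψ d4 pCore_O6 (IsPGroup.of_card (n := 10)
      (by rw [d5, card_subgroupOf_of_le c6, M.card_pb_of_le hE, d3]; rfl))
      (d5 ▸ centralizer_subgroupOf_le c6 c5), d5]
  obtain ⟨i⟩ := C06.iso_E
  have d7 : Nat.card C06.R = 2 ^ 9 := by
    have := Nat.card_congr i.toEquiv
    rw [d3, Nat.card_prod, Nat.card_eq_fintype_card (α := Multiplicative (ZMod 2))] at this
    simp only [Fintype.card_multiplicative, ZMod.card] at this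
    omega
  have d8 : Lib.Local.SympPair C06.R C06.j :=
    ⟨C06.j_mem, C06.j_ord, fun q hq => Subgroup.mem_centralizer_singleton_iff.1
      (C06.Q_le (C06.E_le_Q (C06.R_le hq))).2, fun q hq => sq q ▸
      (C06.sq_Q _ (C06.E_le_Q (C06.R_le hq)) _ (one_mem _)).2, fun c h1 h2 _ => C06.R_cen ⟨h1, h2⟩⟩
  refine ⟨⟨C06.R, inferInstance, inferInstance, d8.isExtraspecial C06.R_cen fun h => ?_, d7,
    ⟨(((MulEquiv.subgroupCongr d6).trans (Subgroup.subgroupOfEquivOfLe c6)).trans (M.pbEquiv hE)).trans i⟩⟩, ?_⟩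
  · have := Subgroup.card_le_of_le h
    rw [d7, Nat.card_zpowers, C06.j_ord] at this
    omega
  · obtain ⟨_, h⟩ := quot_iso_of_ker ψ d4 (d5.trans d6.symm)
    exact h

end Cfsg.Agent.S5519
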