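import Cfsg.Statements.S5520
import Cfsg.Agent.SporChar.FiNorm

set_option autoImplicit false
open Cfsg

namespace Cfsg.Agent.S5520

open Subgroup Cfsg.Lib Cfsg.Lib.SporChar Cfsg.Lib.SporChar.Fi Cfsg.Lib.Spor Cfsg.Lib.Spor.PK Matrix

/-- The matrix of a linear map. -/
noncomputable def mat (g : GV) : Matrix (Fin 6) (Fin 6) GF4 := Matrix.of fun i j => (g • e j) i

theorem mat_mulVec {g : GV} (hg : g ∈ GU0) (v : V0) : mat g *ᵥ v = g • v := by
  conv_rhs => rw [← sum_e v, Finset.smul_sum]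
  exact funext fun i => by simp [lin_smul hg.2, mat, mulVec, dotProduct, mul_comm]

theorem det_mul {g : GV} (hg : g ∈ GU0) (k : GV) :
    (mat (g * k)).det = (mat g).det * (mat k).det := by
  rw [← Matrix.det_mul]
  exact congrArg _ (Matrix.ext fun i j => (congrFun (mat_mulVec hg (k • e j)) i).symm)

theorem det_one : (mat 1).det = 1 := by decide +kernel

/-- The special unitary group. -/
noncomputable def SU0 : Subgroup GV where
  carrier := {g | g ∈ GU0 ∧ (mat g).det = 1}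
  one_mem' := ⟨one_mem _, det_one⟩
  mul_mem' := fun ha hb => ⟨mul_mem ha.1 hb.1, by rw [det_mul ha.1, ha.2, hb.2, one_mul]⟩
  inv_mem' := fun {a} ha => ⟨inv_mem ha.1, by
    simpa [ha.2, det_one] using (det_mul ha.1 a⁻¹).symm⟩

theorem det_pow {g : GV} (hg : g ∈ GU0) (n : ℕ) : (mat (g ^ n)).det = (mat g).det ^ n := by
  induction n with
  | zero => exact det_one
  | succ n ih => rw [pow_succ', det_mul hg, ih, pow_succ']

theorem K0_le_SU : K0 ≤ SU0 := (closure_le _).2 fun g hg => by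
  have h := fun wd => (repsK.evalW wd).eq_iff rep_one
  have h1 := K0_le (subset_closure hg)
  refine ⟨h1, (by decide : ∀ x : GF4, x ^ 40 = 1 → x = 1) _ ?_⟩
  rw [← det_pow h1, ← det_one]
  congr 2
  rcases List.mem_pair.mp hg with rfl | rfl
  · rw [show 40 = 8 * 5 from rfl, pow_mul, show el Ra ^ 8 = 1 by
      simpa [evalG, gsK, pow_succ, mul_assoc] using (h [0, 0, 0, 0, 0, 0, 0, 0]).2 (by decide +kernel),
      one_pow]
  · rw [show 40 = 5 * 8 from rfl, pow_mul, show el Rb ^ 5 = 1 by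
      simpa [evalG, gsK, pow_succ, mul_assoc] using (h [1, 1, 1, 1, 1]).2 (by decide +kernel), one_pow]

theorem exists_hom : ∃ ι : SU 6 GF4 2 →* GV, Function.Injective ι ∧ ι.range = SU0 := by
  let ι : SU 6 GF4 2 →* GV := MonoidHom.mk' (fun A => mkG (mulVecLin A.1.1).toAddMonoidHom
    (mulVec_injective_of_isUnit ((isUnit_iff_isUnit_det _).2 (by rw [A.1.2]; exact isUnit_one))))
      fun A B => gv_ext fun v => (mulVec_mulVec v A.1.1 B.1.1).symm
  have h1 : ∀ A (v : V0), ι A • v = A.1.1 *ᵥ v := fun _ _ => rfl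
  have h2 : ∀ u v, hermForm 6 GF4 2 u v = hm v u := fun u v =>
    Finset.sum_congr rfl fun _ _ => mul_comm _ _
  have h3 : ∀ A, mat (ι A) = A.1.1 := fun A => Matrix.ext fun i j => by simp [mat, h1, e]
  refine ⟨ι, fun A B h => Subtype.ext (Subtype.ext (by rw [← h3, h, h3])), le_antisymm ?_ ?_⟩
  · rintro _ ⟨A, rfl⟩
    exact ⟨⟨fun v => by rw [q0_eq, q0_eq, ← h2, ← h2]; exact congrArg _ (congrArg _ (A.2 v v)),
      mem_lin fun v => by rw [h1, h1, mulVec_smul]⟩, h3 A ▸ A.1.2⟩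
  · exact fun g hg => ⟨⟨⟨mat g, hg.2⟩, fun u v => by
      change hermForm _ _ _ (mat g *ᵥ u) (mat g *ᵥ v) = _
      rw [h2, h2, mat_mulVec hg.1, mat_mulVec hg.1, hm_smul hg.1]⟩, gv_ext (mat_mulVec hg.1)⟩

/-- The diagonal elements. -/
noncomputable def dg (i : ZMod 3) : GV := mono (Pi.single 0 i) 1

theorem det_dg : ∀ i, (mat (dg i)).det = om i := by decide +kernel

theorem conj_le {f : GV} (hf : f ∈ GU0) : K0.map (MulAut.conj f).toMonoidHom ≤ SU0 := by
  rintro _ ⟨k, hk, rfl⟩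
  refine ⟨mul_mem (mul_mem hf (K0_le hk)) (inv_mem hf), ?_⟩
  change (mat (f * k * f⁻¹)).det = 1
  rw [det_mul (mul_mem hf (K0_le hk)), det_mul hf, (K0_le_SU hk).2, mul_one, ← det_mul hf,
    mul_inv_cancel, det_one]

theorem map_conj (f g : GV) : (K0.map (MulAut.conj f).toMonoidHom).map (MulAut.conj g).toMonoidHom =
    K0.map (MulAut.conj (g * f)).toMonoidHom := by rw [Subgroup.map_map, map_mul]; rfl

theorem det_eq {f g : GV} (hf : f ∈ GU0) (hg : g ∈ GU0) (h : K0.map (MulAut.conj f).toMonoidHom =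
    K0.map (MulAut.conj g).toMonoidHom) : (mat f).det = (mat g).det := by
  have h1 := mul_mem (inv_mem hg) hf
  have h2 : g⁻¹ * f ∈ normalizer (K0 : Set GV) := mem_normalizer_fintype fun k hk => by
    obtain ⟨l, hl, e⟩ := h.le ⟨k, hk, rfl⟩
    change g * l * g⁻¹ = f * k * f⁻¹ at e
    rwa [show g⁻¹ * f * k * (g⁻¹ * f)⁻¹ = g⁻¹ * (f * k * f⁻¹) * g by group, ← e,
      show g⁻¹ * (g * l * g⁻¹) * g = l by group]
  have h3 : g⁻¹ * f ∈ SU0 := (mem_or_of_lin ⟨h1.1, h2⟩ h1.2).elim (fun a => K0_le_SU a) fun a =>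
    (mul_mem_cancel_right (show tau ∈ SU0 from ⟨mono_mem _ _, by decide +kernel⟩)).1 (K0_le_SU a)
  rw [← mul_inv_cancel_left g f, det_mul hg, h3.2, mul_one]

/-- In the special unitary group of dimension 6 over the field with four elements (determinant-one matrices preserving the standard Hermitian form), the subgroups K whose centre has order 3 with K modulo its centre isomorphic to the projective special unitary group of dimension 4 over the field with nine elements fall into exactly three conjugacy classes. -/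
theorem result (F : Type) [Field F] [Fintype F] (hF : Fintype.card F = 4) (F9 : Type) [Field F9] [Fintype F9] (hF9 : Fintype.card F9 = 9) : ∃ K₁ K₂ K₃ : Subgroup ↥(Cfsg.SU 6 F 2), (∀ K ∈ [K₁, K₂, K₃], Nat.card ↥(Subgroup.center ↥K) = 3 ∧ Nonempty (↥K ⧸ Subgroup.center ↥K ≃* Cfsg.PSU 4 F9 3)) ∧ (¬ ∃ g : ↥(Cfsg.SU 6 F 2), K₁.map (MulAut.conj g).toMonoidHom = K₂) ∧ (¬ ∃ g : ↥(Cfsg.SU 6 F 2), K₁.map (MulAut.conj g).toMonoidHom = K₃) ∧ (¬ ∃ g : ↥(Cfsg.SU 6 F 2), K₂.map (MulAut.conj g).toMonoidHom = K₃) ∧ ∀ K : Subgroup ↥(Cfsg.SU 6 F 2), Nat.card ↥(Subgroup.center ↥K) = 3 → Nonempty (↥K ⧸ Subgroup.center ↥K ≃* Cfsg.PSU 4 F9 3) → ∃ g : ↥(Cfsg.SU 6 F 2), K.map (MulAut.conj g).toMonoidHom = K₁ ∨ K.map (MulAut.conj g).toMonoidHom = K₂ ∨ K.map (MulAut.conj g).toMonoidHom = K₃ := by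
  obtain ⟨ε⟩ := Class.nonempty_ringEquiv_of_card_eq (hF.trans GF4.card.symm)
  obtain ⟨ι₀, a, b⟩ := exists_hom
  obtain ⟨ι, h1, h2⟩ : ∃ ι : SU 6 F 2 →* GV, Function.Injective ι ∧ ι.range = SU0 :=
    ⟨ι₀.comp (Class.suEquiv 6 2 ε).toMonoidHom, a.comp (Class.suEquiv 6 2 ε).injective, by
      rw [MonoidHom.range_comp, MonoidHom.range_eq_top.2 (Class.suEquiv 6 2 ε).surjective,
        ← MonoidHom.range_eq_map, b]⟩
  let C : ZMod 3 → Subgroup (SU 6 F 2) := fun i =>
    (K0.map (MulAut.conj (dg i)).toMonoidHom).comap ι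
  have h3 : ∀ i, (C i).map ι = K0.map (MulAut.conj (dg i)).toMonoidHom := fun i =>
    map_comap_eq_self (h2 ▸ conj_le (mono_mem _ _))
  have h4 : ∀ (K : Subgroup (SU 6 F 2)) g, (K.map (MulAut.conj g).toMonoidHom).map ι =
      (K.map ι).map (MulAut.conj (ι g)).toMonoidHom := fun K g => by
    rw [Subgroup.map_map, Subgroup.map_map]; congr 1; ext1; simp
  have h5 : ∀ i j, i ≠ j → ¬ ∃ g, (C i).map (MulAut.conj g).toMonoidHom = C j := by
    rintro i j hij ⟨g, e⟩
    have h6 : ι g ∈ SU0 := h2 ▸ ⟨g, rfl⟩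
    have := congrArg (map ι) e
    rw [h4, h3, h3, map_conj] at this
    have := det_eq (mul_mem h6.1 (mono_mem _ _)) (mono_mem _ _) this
    rw [det_mul h6.1, h6.2, one_mul] at this
    exact hij (om_inj ((det_dg i).symm.trans (this.trans (det_dg j))))
  have h6 : ∀ i, Nat.card (center (C i)) = 3 ∧ Nonempty (C i ⧸ center (C i) ≃* PSU 4 F9 3) := fun i => by
    have e := (((C i).equivMapOfInjective ι h1).trans (MulEquiv.subgroupCongr (h3 i))).trans
      (K0.equivMapOfInjective _ (MulAut.conj (dg i)).injective).symm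
    exact ⟨by rw [Nat.card_congr (centerCongr e).toEquiv, center_K0, Nat.card_congr
      (subgroupOfEquivOfLe (zpowers_le.2 wV_mem)).toEquiv, Nat.card_zpowers, orderOf_wV],
      (quot_K0 hF9).map (Class.quotCenterEquiv e).trans⟩
  refine ⟨C 0, C 1, C 2, by simp only [List.mem_cons, List.not_mem_nil, or_false, forall_eq_or_imp,
    forall_eq, h6, and_self], h5 _ _ (by decide), h5 _ _ (by decide), h5 _ _ (by decide), ?_⟩
  rintro K hc ⟨e⟩
  obtain ⟨e'⟩ := U4.nonempty_equiv_PSU hF9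
  obtain ⟨x, hx⟩ := isCyclic_iff_exists_zpowers_eq_top.1 (isCyclic_of_prime_card hc)
  obtain ⟨f, f1, f2, f3⟩ := frame_of_hom (ι.comp K.subtype) ((e.trans e'.symm).toMonoidHom.comp
    (QuotientGroup.mk' _)) ((e.trans e'.symm).surjective.comp (QuotientGroup.mk'_surjective _))
    (x := x) (by
      rw [orderOf_injective (ι.comp K.subtype) (h1.comp K.subtype_injective), orderOf_coe,
        ← Nat.card_zpowers, hx, card_top, hc]) (fun m => by
      rw [← MonoidHom.map_zpowers, mem_map_iff_mem (f := ι.comp K.subtype) (h1.comp K.subtype_injective),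
        ← (center K).subtype_apply, ← MonoidHom.map_zpowers, hx, ← MonoidHom.range_eq_map,
        range_subtype, ← QuotientGroup.eq_one_iff]
      exact (e.trans e'.symm).map_eq_one_iff) qf_q0 fun m => (h2.le ⟨_, rfl⟩).1.1
  rw [MonoidHom.range_comp, range_subtype] at f3
  obtain ⟨f, f1, f3⟩ : ∃ f ∈ GU0, K.map ι = K0.map (MulAut.conj f).toMonoidHom := by
    have h7 : f⁻¹ * wV * f ∈ zpowers wV := cent_K0 fun k hk => by
      obtain ⟨l, -, e⟩ := f3.ge ⟨k, hk, rfl⟩
      have := mem_centralizer_singleton_iff.1 (h2.le ⟨l, rfl⟩).1.2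
      change ι l = f * k * f⁻¹ at e
      calc _ = f⁻¹ * (ι l * wV) * f := by rw [e]; group
        _ = _ := by rw [this, e]; group
    rcases (mem_zpowers_three orderOf_wV).1 h7 with e | e | e
    · exact absurd (orderOf_wV.symm.trans (orderOf_eq_one_iff.2 (by
        simpa [mul_assoc, inv_mul_eq_iff_eq_mul] using e))) (by decide)
    · exact ⟨f, ⟨f1, mem_centralizer_singleton_iff.2 (by nth_rewrite 1 [← e]; group)⟩, f3⟩
    · refine ⟨f * cjV, ⟨mul_mem f1 cjV_mem, mem_centralizer_singleton_iff.2 (by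
        rw [mul_assoc, cjV_wV, ← e]; group)⟩, ?_⟩
      rw [← map_conj, f3]
      exact congrArg _ (mem_normalizer_iff_map_conj_eq.1 cjV_norm).symm
  obtain ⟨i, hi⟩ := exists_om (c := (mat f).det) fun h => by
    have := det_mul f1 f⁻¹
    rw [mul_inv_cancel, det_one, h, zero_mul] at this
    exact one_ne_zero this
  obtain ⟨g, hg⟩ := h2.ge (show dg i * f⁻¹ ∈ SU0 from ⟨mul_mem (mono_mem _ _) (inv_mem f1), by
    rw [det_mul (g := dg i) (mono_mem _ _), det_dg, hi, ← det_mul f1, mul_inv_cancel, det_one]⟩)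
  have h7 : K.map (MulAut.conj g).toMonoidHom = C i := map_injective h1 (by
    rw [h4, h3, f3, map_conj, hg, inv_mul_cancel_right])
  refine ⟨g, ?_⟩
  rw [h7]
  fin_cases i
  exacts [.inl rfl, .inr (.inl rfl), .inr (.inr rfl)]

end Cfsg.Agent.S5520
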