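import Cfsg.Statements.S5541


set_option autoImplicit false
open Cfsg

namespace Cfsg.Agent.S5541

/-- Let ρ be a representation of a group H on a finite-dimensional real vector space U whose only ρ-invariant subspaces are the zero subspace and U, and suppose U carries a non-zero ρ-invariant symmetric bilinear form. Then the following are equivalent: (1) there is a non-zero ρ-equivariant commutative bilinear product on U of which every ρ-equivariant bilinear product is a scalar multiple; (2) there is a non-zero ρ-invariant trilinear form on U that is symmetric under all permutations of its arguments and of which every ρ-invariant trilinear form is a scalar multiple. -/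
theorem result {H : Type*} [Group H] {U : Type*} [AddCommGroup U] [Module ℝ U] [FiniteDimensional ℝ U] (ρ : Representation ℝ H U) (hirr : ∀ W : Submodule ℝ U, (∀ g : H, W.map (ρ g) ≤ W) → W = ⊥ ∨ W = ⊤) (B : LinearMap.BilinForm ℝ U) (hB0 : B ≠ 0) (hBs : ∀ u v, B u v = B v u) (hBi : ∀ (g : H) (u v : U), B (ρ g u) (ρ g v) = B u v) : (∃ m : U →ₗ[ℝ] U →ₗ[ℝ] U, m ≠ 0 ∧ (∀ u v, m u v = m v u) ∧ (∀ (g : H) (u v : U), m (ρ g u) (ρ g v) = ρ g (m u v)) ∧ ∀ m' : U →ₗ[ℝ] U →ₗ[ℝ] U, (∀ (g : H) (u v : U), m' (ρ g u) (ρ g v) = ρ g (m' u v)) → ∃ c : ℝ, m' = c • m) ↔ (∃ t : U →ₗ[ℝ] U →ₗ[ℝ] U →ₗ[ℝ] ℝ, t ≠ 0 ∧ (∀ u v w, t u v w = t v u w ∧ t u v w = t u w v) ∧ (∀ (g : H) (u v w : U), t (ρ g u) (ρ g v) (ρ g w) = t u v w) ∧ ∀ t' : U →ₗ[ℝ] U →ₗ[ℝ] U →ₗ[ℝ] ℝ, (∀ (g : H) (u v w : U), t' (ρ g u) (ρ g v) (ρ g w) = t' u v w) → ∃ c : ℝ, t' = c • t) := by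
  have hker : LinearMap.ker B = ⊥ := by
    refine (hirr _ fun g => ?_).resolve_right fun h => hB0 (LinearMap.ker_eq_top.1 h)
    rintro _ ⟨u, hu, rfl⟩
    refine LinearMap.mem_ker.2 (LinearMap.ext fun v => ?_)
    rw [← ρ.self_inv_apply g v, hBi, LinearMap.mem_ker.1 hu]
    rfl
  have hinj : Function.Injective B := LinearMap.ker_eq_bot.1 hker
  have hsurj : Function.Surjective B :=
    (LinearMap.injective_iff_surjective_of_finrank_eq_finrank
      (Subspace.dual_finrank_eq (K := ℝ) (V := U)).symm).1 hinj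
  let e := LinearEquiv.ofBijective B ⟨hinj, hsurj⟩
  have he : ∀ x, B (e.symm x) = x := e.apply_symm_apply
  have h1 : ∀ m : U →ₗ[ℝ] U →ₗ[ℝ] U, (∀ (g : H) (u v : U), m (ρ g u) (ρ g v) = ρ g (m u v)) →
      ∀ (g : H) (u v w : U), m.compr₂ B (ρ g u) (ρ g v) (ρ g w) = m.compr₂ B u v w :=
    fun m hm g u v w => by simp [hm, hBi]
  have h2 : ∀ t : U →ₗ[ℝ] U →ₗ[ℝ] U →ₗ[ℝ] ℝ,
      (∀ (g : H) (u v w : U), t (ρ g u) (ρ g v) (ρ g w) = t u v w) → ∀ (g : H) (u v : U),
      t.compr₂ e.symm.toLinearMap (ρ g u) (ρ g v) = ρ g (t.compr₂ e.symm.toLinearMap u v) :=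
    fun t ht g u v => hinj (LinearMap.ext fun w => by
      rw [← ρ.self_inv_apply g w, hBi]
      simp only [LinearMap.compr₂_apply, LinearEquiv.coe_coe, he, ht])
  constructor
  · rintro ⟨m, hm0, hc, hm, hu⟩
    have h3 : ∀ t' : U →ₗ[ℝ] U →ₗ[ℝ] U →ₗ[ℝ] ℝ,
        (∀ (g : H) (u v w : U), t' (ρ g u) (ρ g v) (ρ g w) = t' u v w) →
        ∃ c : ℝ, t' = c • m.compr₂ B := fun t ht => by
      obtain ⟨c, hc⟩ := hu _ (h2 t ht)
      refine ⟨c, LinearMap.ext₂ fun u v => ?_⟩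
      have := congrArg B (LinearMap.congr_fun₂ hc u v)
      simpa [he] using this
    have h0 : m.compr₂ B ≠ 0 := fun h => hm0 (LinearMap.ext₂ fun u v => hinj (by
      simpa using LinearMap.congr_fun₂ h u v))
    refine ⟨m.compr₂ B, h0, fun u v w => ⟨by simp [hc u v], ?_⟩, h1 m hm, h3⟩
    obtain ⟨c, h4⟩ := h3 (LinearMap.lflip.toLinearMap ∘ₗ m.compr₂ B) fun g u v w => h1 m hm g u w v
    have h5 : ∀ u v w, B (m u w) v = c * B (m u v) w := fun u v w =>
      LinearMap.congr_fun (LinearMap.congr_fun₂ h4 u v) w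
    by_cases h6 : c = 1
    · simpa [h6] using (h5 u v w).symm
    refine (h0 (LinearMap.ext₂ fun a b => LinearMap.ext fun d => ?_)).elim
    have h7 := h5 a d b
    have h8 := h5 a b d
    have h9 := h5 d b a
    have h10 := h5 b a d
    rw [hc d a, hc d b] at h9
    rw [hc b a] at h10
    refine mul_left_cancel₀ (sub_ne_zero.2 h6) ?_
    change _ * B (m a b) d = _ * 0
    linear_combination (c - 1) * h7 + (c ^ 2 - c) * h8 - c ^ 2 * h8 + c * h8 - c * h7 +
      h7 + c * h7 + c ^ 2 * h8 - h7 - c * h9 - c ^ 2 * h10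
  · rintro ⟨t, ht0, hs, ht, hu⟩
    refine ⟨t.compr₂ e.symm.toLinearMap, fun h => ht0 (LinearMap.ext₂ fun u v => ?_),
      fun u v => congrArg e.symm (LinearMap.ext fun w => (hs u v w).1), h2 t ht, fun m hm => ?_⟩
    · simpa using LinearMap.congr_fun₂ h u v
    · obtain ⟨c, hc⟩ := hu _ (h1 m hm)
      refine ⟨c, LinearMap.ext₂ fun u v => hinj ?_⟩
      simpa [he] using LinearMap.congr_fun₂ hc u v

end Cfsg.Agent.S5541
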