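import Cfsg.Statements.S5543


set_option autoImplicit false
open Cfsg

namespace Cfsg.Agent.S5543

/-- Let V be a finite-dimensional real vector space with a commutative bilinear product and a positive-definite symmetric bilinear form that associates with the product and satisfies the Norton inequality (the Majorana setting of the definitions). Let X be a group of linear automorphisms of V in which every element squares to the identity, and suppose every non-identity element x of X is a Majorana involution with an axial vector a(x) of squared length 1, such that for any two distinct non-identity x, y the product a(x) ∘ a(y) equals (1/8)(a(x) + a(y) − a(xy)) (the dihedral subalgebra of type 2A whose third axis belongs to the involution xy). Then X has order at most 4. -/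
theorem result {V : Type*} [AddCommGroup V] [Module ℝ V] [FiniteDimensional ℝ V] (mul : V →ₗ[ℝ] V →ₗ[ℝ] V) (B : LinearMap.BilinForm ℝ V) (hV : Cfsg.Axial.IsMajoranaAmbient mul B) (X : Subgroup (V ≃ₗ[ℝ] V)) (hX : ∀ x ∈ X, x * x = 1) (ax : (V ≃ₗ[ℝ] V) → V) (hax : ∀ x ∈ X, x ≠ 1 → Cfsg.Axial.IsMajoranaPair mul B x (ax x)) (h1 : ∀ x ∈ X, x ≠ 1 → B (ax x) (ax x) = 1) (h2A : ∀ x ∈ X, ∀ y ∈ X, x ≠ 1 → y ≠ 1 → x ≠ y → mul (ax x) (ax y) = (1 / 8 : ℝ) • (ax x + ax y - ax (x * y))) : Nat.card ↥X ≤ 4 := by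
  classical
  by_contra hc
  have hfin : Finite X := Nat.finite_of_card_ne_zero (by omega)
  have := Fintype.ofFinite X
  have hex : ∀ s : Finset X, s.card ≤ 4 → ∃ x, x ∉ s := fun s hs => by
    by_contra h
    push Not at h
    rw [Finset.eq_univ_of_forall h, Finset.card_univ, ← Nat.card_eq_fintype_card] at hs
    exact hc hs
  have hsq : ∀ x : X, x * x = 1 := fun x => Subtype.ext (hX x x.2)
  have hcomm : ∀ x y : X, x * y = y * x := fun x y => by
    rw [← inv_eq_of_mul_eq_one_right (hsq (x * y)), mul_inv_rev,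
      inv_eq_of_mul_eq_one_right (hsq x), inv_eq_of_mul_eq_one_right (hsq y)]
  have hsq' : ∀ x y : X, x * (x * y) = y := fun x y => by rw [← mul_assoc, hsq, one_mul]
  have hne : ∀ x y : X, x * y = 1 ↔ x = y := fun x y =>
    ⟨fun h => by rw [← hsq' x y, h, mul_one], fun h => h ▸ hsq x⟩
  obtain ⟨t, ht⟩ := hex {1} (by simp)
  obtain ⟨s, hs⟩ := hex {1, t} (Finset.card_le_two.trans (by norm_num))
  obtain ⟨r, hr⟩ := hex {1, t, s, t * s} Finset.card_le_four
  simp only [Finset.mem_insert, Finset.mem_singleton, not_or] at ht hs hr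
  have h2 : ∀ x y : X, x ≠ 1 → y ≠ 1 → x ≠ y →
      mul (ax x) (ax y) = (1 / 8 : ℝ) • (ax x + ax y - ax (x * y : X)) := fun x y h1 h2 h3 =>
    h2A x x.2 y y.2 (by simpa using h1) (by simpa using h2) (by simpa using h3)
  have heig : ∀ x : X, x ≠ 1 → x ≠ t →
      ax x - ax (t * x : X) ∈ Axial.eigen mul (ax t) (1 / 4) := fun x h1 h3 => by
    rw [Axial.eigen, Module.End.mem_eigenspace_iff, map_sub, h2 t x ht h1 h3.symm,
      h2 t (t * x) ht (mt (hne _ _).1 h3.symm) (by simpa using h1), hsq']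
    module
  have h3 := (hax t t.2 (by simpa using ht)).2.2.1.1.2.2.2 (1 / 4) (by simp [Axial.majoranaSpectrum])
    (1 / 4) (by simp [Axial.majoranaSpectrum]) _ (heig s hs.1 hs.2) _ (heig r hr.1 hr.2.1)
  have h4 : ∀ v ∈ Axial.eigenSum mul (ax t) {1, 0}, mul (ax t) (mul (ax t) v) = mul (ax t) v := by
    intro v hv
    rw [Axial.eigenSum, iSup_insert, iSup_singleton] at hv
    obtain ⟨a, ha, b, hb, rfl⟩ := Submodule.mem_sup.1 hv
    rw [Axial.eigen, Module.End.mem_eigenspace_iff] at ha hb
    simp [ha, hb]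
  have hts : t * s ≠ 1 := mt (hne _ _).1 (Ne.symm hs.2)
  have htr : t * r ≠ 1 := mt (hne _ _).1 (Ne.symm hr.2.1)
  have hsr : s * r ≠ 1 := mt (hne _ _).1 (Ne.symm hr.2.2.1)
  have hsrt : s * r ≠ t := fun h => hr.2.2.2 (by rw [← hsq' s r, h, hcomm])
  have h5 : mul (ax s - ax (t * s : X)) (ax r - ax (t * r : X)) =
      (-1 / 4 : ℝ) • (ax (s * r : X) - ax (t * (s * r) : X)) := by
    simp only [map_sub, LinearMap.sub_apply]
    rw [h2 s r hs.1 hr.1 (Ne.symm hr.2.2.1), h2 (t * s) r hts hr.1 (Ne.symm hr.2.2.2),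
      h2 s (t * r) hs.1 htr (fun h => hr.2.2.2 (by rw [h, hsq'])),
      h2 (t * s) (t * r) hts htr (by simpa using Ne.symm hr.2.2.1),
      show s * (t * r) = t * (s * r) by rw [← mul_assoc, hcomm s, mul_assoc],
      show t * s * (t * r) = s * r by rw [hcomm t, mul_assoc, hsq'], mul_assoc]
    module
  rw [show Axial.monsterLaw (1 / 4 : ℝ) (1 / 32) (1 / 4) (1 / 4) = {1, 0} by
    simp [Axial.monsterLaw]] at h3
  have h6 := h4 _ h3
  have h7 := heig _ hsr hsrt
  rw [Axial.eigen, Module.End.mem_eigenspace_iff] at h7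
  rw [h5, map_smul, map_smul, h7, map_smul, h7] at h6
  have h8 : ax (t * (s * r) : X) = ax (s * r : X) := by
    linear_combination (norm := module) (-64 / 3 : ℝ) • h6
  have h9 := h2 (s * r) (t * (s * r)) hsr (mt (hne _ _).1 hsrt.symm) (by simpa using ht)
  rw [h8, (hax _ (s * r).2 (fun h => hsr (Subtype.ext h))).2.2.1.1.2.1, hcomm t, hsq'] at h9
  have h10 := h1 t t.2 (by simpa using ht)
  rw [show ax t = (-6 : ℝ) • ax (s * r : X) by linear_combination (norm := module) (8 : ℝ) • h9]
    at h10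
  simp only [map_smul, LinearMap.smul_apply, h1 _ (s * r).2 (fun h => hsr (Subtype.ext h))] at h10
  norm_num at h10

end Cfsg.Agent.S5543
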