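import Cfsg.Statements.S5544
import Cfsg.Agent.Solv.Majorana

set_option autoImplicit false
open Cfsg

namespace Cfsg.Agent.S5544

open Cfsg.Lib.Solv.Maj Cfsg.Axial in
theorem rel {V : Type*} [AddCommGroup V] [Module ℝ V] {mul : V →ₗ[ℝ] V →ₗ[ℝ] V}
    {B : LinearMap.BilinForm ℝ V} (hV : IsMajoranaAmbient mul B) {μ₀ μ₁ : V ≃ₗ[ℝ] V} {a₀ a₁ : V}
    (h₀ : IsMajoranaPair mul B μ₀ a₀) (h₁ : IsMajoranaPair mul B μ₁ a₁) (hn₀ : B a₀ a₀ = 1)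
    (hn₁ : B a₁ a₁ = 1) : ∃ y z : ℝ, (1 : ℝ) • (μ₀ (μ₁ a₀) - μ₁ (μ₀ (μ₁ a₀))) +
      y • (μ₀ a₁ - μ₁ (μ₀ a₁)) + z • (a₀ - μ₁ a₀) = 0 := by
  have i0 := idem h₀
  have i1 := idem h₁
  have t0 := tau_self h₀
  have t1 := tau_self h₁
  obtain ⟨l, hl⟩ : ∃ l, B a₀ a₁ = l := ⟨_, rfl⟩
  have hl' : B a₁ a₀ = l := by rw [hV.2.1, hl]
  obtain ⟨b₁, hb₁⟩ : ∃ b, μ₀ a₁ = b := ⟨_, rfl⟩
  obtain ⟨a₂, ha₂⟩ : ∃ b, μ₁ a₀ = b := ⟨_, rfl⟩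
  obtain ⟨b₂, hb₂⟩ : ∃ b, μ₀ a₂ = b := ⟨_, rfl⟩
  have ha₂' : μ₁ a₂ = a₀ := by rw [← ha₂, tau_tau h₁]
  obtain ⟨σ, p01⟩ : ∃ σ, mul a₀ a₁ = σ + (1 / 32 : ℝ) • (a₀ + a₁) := ⟨_, (sub_add_cancel _ _).symm⟩
  obtain ⟨σ₀, p02⟩ : ∃ σ, mul a₀ a₂ = σ + (1 / 32 : ℝ) • (a₀ + a₂) := ⟨_, (sub_add_cancel _ _).symm⟩
  obtain ⟨σ₁, p11⟩ : ∃ σ, mul a₁ b₁ = σ + (1 / 32 : ℝ) • (a₁ + b₁) := ⟨_, (sub_add_cancel _ _).symm⟩
  have p10 : mul a₁ a₀ = σ + (1 / 32 : ℝ) • (a₀ + a₁) := by rw [hV.1, p01]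
  have fix : ∀ {μ : V ≃ₗ[ℝ] V} {a b s : V}, IsMajoranaPair mul B μ a →
      mul a b = s + (1 / 32 : ℝ) • (a + b) → μ s = s := fun {μ a b s} h e => by
    have := tau_sigma h b
    rw [e, show s + (1 / 32 : ℝ) • (a + b) - (1 / 32 : ℝ) • b = s + (1 / 32 : ℝ) • a by module,
      map_add, map_smul, tau_self h] at this
    exact add_right_cancel this
  have s0 : μ₀ σ = σ := fix h₀ p01
  have s1 : μ₁ σ = σ := fix h₁ (p10.trans (by rw [add_comm a₀]))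
  have s00 : μ₀ σ₀ = σ₀ := fix h₀ p02
  have s11 : μ₁ σ₁ = σ₁ := fix h₁ p11
  have s10 : μ₁ σ₀ = σ₀ := by
    have := h₁.1 a₀ a₂
    rw [ha₂, ha₂', hV.1 a₂, p02, map_add, map_smul, map_add, ha₂, ha₂', add_comm a₂] at this
    exact add_right_cancel this
  have q01 : mul a₀ b₁ = σ + (1 / 32 : ℝ) • (a₀ + b₁) := by
    have := h₀.1 a₀ a₁
    rwa [p01, map_add, map_smul, map_add, t0, hb₁, s0, eq_comm] at this
  have q02 : mul a₀ b₂ = σ₀ + (1 / 32 : ℝ) • (a₀ + b₂) := by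
    have := h₀.1 a₀ a₂
    rwa [p02, map_add, map_smul, map_add, t0, hb₂, s00, eq_comm] at this
  have p12 : mul a₁ a₂ = σ + (1 / 32 : ℝ) • (a₂ + a₁) := by
    have := h₁.1 a₁ a₀
    rwa [p10, map_add, map_smul, map_add, t1, ha₂, s1, eq_comm] at this
  have ib : mul b₁ b₁ = b₁ := by rw [← hb₁, ← h₀.1, i1]
  obtain ⟨hβ, hα⟩ := comps hV h₀ hn₀ a₁
  have hβ' := (comps hV h₁ hn₁ a₀).1
  rw [hl, hb₁, p01] at hβ hα
  rw [hl', ha₂, p10] at hβ'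
  have r0 : mul a₀ σ = (7 / 32 : ℝ) • σ + (3 * l / 4 - 25 / 1024) • a₀ +
      (7 / 2048 : ℝ) • (a₁ + b₁) := by
    simp only [map_sub, map_add, map_smul, i0, p01, q01] at hβ
    linear_combination (norm := module) (1 / 4 : ℝ) • hβ
  have r1 : mul a₁ σ = (7 / 32 : ℝ) • σ + (3 * l / 4 - 25 / 1024) • a₁ +
      (7 / 2048 : ℝ) • (a₀ + a₂) := by
    simp only [map_sub, map_add, map_smul, i1, p10, p12] at hβ'
    linear_combination (norm := module) (1 / 4 : ℝ) • hβ'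
  have r2 : mul b₁ σ = (7 / 32 : ℝ) • σ + (3 * l / 4 - 25 / 1024) • b₁ +
      (7 / 2048 : ℝ) • (a₀ + b₂) := by
    have := h₀.1 a₁ σ
    rw [r1] at this
    simp only [map_add, map_smul, s0, hb₁, t0, hb₂] at this
    rw [← this]
  have hα' : mul a₀ ((-4 : ℝ) • σ + (3 * l - 1 / 8) • a₀ + (7 / 16 : ℝ) • (a₁ + b₁)) = 0 := by
    rw [← hα]; congr 1; module
  have e : (4 : ℝ) • (σ + (1 / 32 : ℝ) • (a₀ + a₁)) - (4 * l) • a₀ - (1 / 16 : ℝ) • (a₁ - b₁) =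
    (4 : ℝ) • σ + (1 / 8 - 4 * l) • a₀ + (1 / 16 : ℝ) • (a₁ + b₁) := by module
  rw [e] at hβ
  have e1 := fus00 h₀ hα' hα'
  have e3 := fus0q h₀ hα' hβ
  obtain ⟨m, e2⟩ := fusqq h₀ hβ hβ
  have c0 := (hV.1 σ a₀).trans r0
  have c1 := (hV.1 σ a₁).trans r1
  have c2 := (hV.1 σ b₁).trans r2
  have c3 := (hV.1 b₁ a₀).trans q01
  have c4 := (hV.1 b₁ a₁).trans p11
  have aa : mul ((-4 : ℝ) • σ + (3 * l - 1 / 8) • a₀ + (7 / 16 : ℝ) • (a₁ + b₁))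
      ((-4 : ℝ) • σ + (3 * l - 1 / 8) • a₀ + (7 / 16 : ℝ) • (a₁ + b₁)) =
      (16 : ℝ) • mul σ σ + (-49 / 32 : ℝ) • σ + (-81 / 2048 + 3 / 4 * l - 9 * l ^ 2) • a₀ +
      (1183 / 4096 - 21 / 8 * l) • (a₁ + b₁) + (-49 / 4096 : ℝ) • (a₂ + b₂) +
      (49 / 128 : ℝ) • σ₁ := by
    simp only [map_add, map_smul, LinearMap.add_apply, LinearMap.smul_apply, i0, i1, ib, p01, p10,
      q01, p11, r0, r1, r2, c0, c1, c2, c3, c4]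
    module
  have bb : mul ((4 : ℝ) • σ + (1 / 8 - 4 * l) • a₀ + (1 / 16 : ℝ) • (a₁ + b₁))
      ((4 : ℝ) • σ + (1 / 8 - 4 * l) • a₀ + (1 / 16 : ℝ) • (a₁ + b₁)) =
      (16 : ℝ) • mul σ σ + (15 / 32 - 8 * l) • σ + (-9 / 2048 + 1 / 2 * l - 8 * l ^ 2) • a₀ +
      (-17 / 4096 + 1 / 4 * l) • (a₁ + b₁) + (7 / 4096 : ℝ) • (a₂ + b₂) +
      (1 / 128 : ℝ) • σ₁ := by
    simp only [map_add, map_smul, LinearMap.add_apply, LinearMap.smul_apply, i0, i1, ib, p01, p10,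
      q01, p11, r0, r1, r2, c0, c1, c2, c3, c4]
    module
  have ab : mul ((-4 : ℝ) • σ + (3 * l - 1 / 8) • a₀ + (7 / 16 : ℝ) • (a₁ + b₁))
      ((4 : ℝ) • σ + (1 / 8 - 4 * l) • a₀ + (1 / 16 : ℝ) • (a₁ + b₁)) =
      (-16 : ℝ) • mul σ σ + (17 / 32 + 3 * l) • σ + (45 / 2048 - 21 / 32 * l + 9 * l ^ 2) • a₀ +
      (-39 / 4096 + 75 / 64 * l) • (a₁ + b₁) + (21 / 4096 : ℝ) • (a₂ + b₂) +
      (7 / 128 : ℝ) • σ₁ := by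
    simp only [map_add, map_smul, LinearMap.add_apply, LinearMap.smul_apply, i0, i1, ib, p01, p10,
      q01, p11, r0, r1, r2, c0, c1, c2, c3, c4]
    module
  rw [aa] at e1
  rw [bb] at e2
  rw [ab] at e3
  simp only [map_add, map_smul, i0, p01, q01, p02, q02, r0] at e1 e2 e3
  have F : (4 : ℝ) • mul σ σ + (13 / 384 + 5 / 3 * l) • σ +
      (-147 / 8192 - 7 / 6 * m + 119 / 96 * l - 35 / 6 * l ^ 2) • a₀ +
      (245 / 49152 - 49 / 192 * l) • (a₁ + b₁) + (7 / 384 : ℝ) • σ₀ +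
      (-49 / 49152 : ℝ) • (a₂ + b₂) + (-7 / 512 : ℝ) • σ₁ = 0 := by
    linear_combination (norm := module) e3 - (1 / 6 : ℝ) • e1 + (7 / 6 : ℝ) • e2
  have F' := congrArg μ₁ F
  simp only [map_add, map_smul, h₁.1, s1, s10, s11, ha₂, ha₂', t1, map_zero] at F'
  rw [ha₂, hb₂, hb₁]
  refine ⟨-49152 / 49 * (245 / 49152 - 49 / 192 * l),
    -49152 / 49 * (-147 / 8192 - 7 / 6 * m + 119 / 96 * l - 35 / 6 * l ^ 2) - 1, ?_⟩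
  linear_combination (norm := module) (-49152 / 49 : ℝ) • F - (-49152 / 49 : ℝ) • F'

/-- Let V be a finite-dimensional real vector space with a commutative bilinear product and a positive-definite symmetric bilinear form that associates with the product and satisfies the Norton inequality (the Majorana setting of the definitions). Let μ₀ and μ₁ be Majorana involutions with axial vectors a₀ and a₁ of squared length 1, each involution having no other axial vector. Then the product μ₀μ₁ has order at most 6: some power (μ₀μ₁)^n with 1 ≤ n ≤ 6 is the identity (so the two involutions generate a dihedral group of order at most 12). This is the 6-transposition property of Majorana involutions. -/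
theorem result {V : Type*} [AddCommGroup V] [Module ℝ V] [FiniteDimensional ℝ V] (mul : V →ₗ[ℝ] V →ₗ[ℝ] V) (B : LinearMap.BilinForm ℝ V) (hV : Cfsg.Axial.IsMajoranaAmbient mul B) (μ₀ μ₁ : V ≃ₗ[ℝ] V) (a₀ a₁ : V) (h₀ : Cfsg.Axial.IsMajoranaPair mul B μ₀ a₀) (h₁ : Cfsg.Axial.IsMajoranaPair mul B μ₁ a₁) (hu₀ : ∀ a : V, Cfsg.Axial.IsMajoranaPair mul B μ₀ a → a = a₀) (hu₁ : ∀ a : V, Cfsg.Axial.IsMajoranaPair mul B μ₁ a → a = a₁) (hn₀ : B a₀ a₀ = 1) (hn₁ : B a₁ a₁ = 1) : ∃ n : ℕ, 1 ≤ n ∧ n ≤ 6 ∧ (μ₀ * μ₁) ^ n = 1 := by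
  open Cfsg.Lib.Solv.Maj Cfsg.Axial in
  by_contra hc
  push Not at hc
  have m0 := tau_mul_self h₀
  have m1 := tau_mul_self h₁
  have i0 : μ₀⁻¹ = μ₀ := inv_eq_of_mul_eq_one_right m0
  have i1 : μ₁⁻¹ = μ₁ := inv_eq_of_mul_eq_one_right m1
  obtain ⟨ρ, hρ⟩ : ∃ ρ, μ₀ * μ₁ = ρ := ⟨_, rfl⟩
  rw [hρ] at hc
  have e1 : μ₁ = μ₀ * ρ := by rw [← hρ, ← mul_assoc, m0, one_mul]
  have cj : ∀ i : ℤ, ρ ^ i * μ₀ = μ₀ * ρ ^ (-i) := fun i => by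
    have : μ₀ * ρ⁻¹ * μ₀⁻¹ = ρ := by
      rw [← hρ, mul_inv_rev, i0, i1, mul_assoc, mul_assoc, m0, mul_one]
    rw [zpow_neg, ← inv_zpow]
    conv_lhs => rw [← this, conj_zpow]
    simp
  have st0 : ∀ (i : ℤ) (u : V), IsMajoranaPair mul B (μ₀ * ρ ^ i) u →
      IsMajoranaPair mul B (μ₀ * ρ ^ (-i)) (μ₀ u) := fun i u h => by
    have := conj h₀.1 h₀.2.1 h
    rwa [i0, ← mul_assoc, m0, one_mul, cj] at this
  have st1 : ∀ (i : ℤ) (u : V), IsMajoranaPair mul B (μ₀ * ρ ^ i) u →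
      IsMajoranaPair mul B (μ₀ * ρ ^ (2 - i)) (μ₁ u) := fun i u h => by
    have := conj h₁.1 h₁.2.1 h
    have e : μ₁ * (μ₀ * ρ ^ i) * μ₁⁻¹ = μ₀ * ρ ^ (2 - i) := by
      have c1 := cj 1
      rw [zpow_one] at c1
      rw [i1, e1, mul_assoc μ₀ ρ, ← mul_assoc ρ, c1, ← mul_assoc, ← mul_assoc, ← mul_assoc, m0,
        one_mul, ← zpow_add, cj, mul_assoc, ← zpow_add_one]
      congr 2; ring
    rwa [e] at this
  have bd : ∀ (i j : ℤ) (u v : V), IsMajoranaPair mul B (μ₀ * ρ ^ i) u →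
      IsMajoranaPair mul B (μ₀ * ρ ^ j) v → i < j → j ≤ i + 6 → B u u = 1 → B v v = 1 →
      0 ≤ B u v ∧ B u v ≤ 1 / 3 := fun i j u v hu hv h1 h2 nu nv => by
    refine ip_bounds hV hu nu (idem hv) nv ?_
    rintro rfl
    have := mul_left_cancel (tau_unique hu hv)
    refine hc (j - i).toNat (by omega) (by omega) ?_
    rw [← zpow_natCast, Int.toNat_of_nonneg (by omega), zpow_sub, this, mul_inv_cancel]
  have P0 : IsMajoranaPair mul B (μ₀ * ρ ^ (0 : ℤ)) a₀ := by simpa using h₀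
  have P1 : IsMajoranaPair mul B (μ₀ * ρ ^ (1 : ℤ)) a₁ := by rw [zpow_one, ← e1]; exact h₁
  have Pm1 := st0 _ _ P1
  have P2 := st1 _ _ P0
  have Pm2 := st0 _ _ P2
  have P3 := st1 _ _ Pm1
  have P4 := st1 _ _ Pm2
  have b0 := h₀.2.1
  have b1 := h₁.2.1
  have t0 := tau_self h₀
  have t1 := tau_self h₁
  have tt0 := tau_tau h₀
  have tt1 := tau_tau h₁
  have nm1 : B (μ₀ a₁) (μ₀ a₁) = 1 := by rw [b0, hn₁]
  have n2 : B (μ₁ a₀) (μ₁ a₀) = 1 := by rw [b1, hn₀]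
  have nm2 : B (μ₀ (μ₁ a₀)) (μ₀ (μ₁ a₀)) = 1 := by rw [b0, n2]
  have n3 : B (μ₁ (μ₀ a₁)) (μ₁ (μ₀ a₁)) = 1 := by rw [b1, nm1]
  have n4 : B (μ₁ (μ₀ (μ₁ a₀))) (μ₁ (μ₀ (μ₁ a₀))) = 1 := by rw [b1, nm2]
  obtain ⟨y, z, R⟩ := rel hV h₀ h₁ hn₀ hn₁
  have gl := bd _ _ _ _ P0 P1 (by norm_num) (by norm_num) hn₀ hn₁
  have g2 := bd _ _ _ _ P0 P2 (by norm_num) (by norm_num) hn₀ n2
  have g3 := bd _ _ _ _ P0 P3 (by norm_num) (by norm_num) hn₀ n3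
  have g4 := bd _ _ _ _ P0 P4 (by norm_num) (by norm_num) hn₀ n4
  have g4' := bd _ _ _ _ Pm1 P3 (by norm_num) (by norm_num) nm1 n3
  have g5 := bd _ _ _ _ Pm1 P4 (by norm_num) (by norm_num) nm1 n4
  have g6 := bd _ _ _ _ Pm2 P4 (by norm_num) (by norm_num) nm2 n4
  have Q := quad_pos (x := 1) (y := y) (z := z) gl g2 g3 g4 g4' g5 g6 one_ne_zero
  have k1 : B (μ₀ (μ₁ a₀)) (μ₀ a₁) = B a₀ a₁ := by rw [b0, ← b1, tt1, t1]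
  have k2 : B (μ₀ (μ₁ a₀)) (μ₁ (μ₀ a₁)) = B (μ₀ a₁) (μ₁ (μ₀ (μ₁ a₀))) := by
    rw [← b1, tt1, hV.2.1]
  have k3 : B (μ₀ (μ₁ a₀)) a₀ = B a₀ (μ₁ a₀) := by rw [← b0, tt0, t0, hV.2.1]
  have k4 : B (μ₀ (μ₁ a₀)) (μ₁ a₀) = B a₀ (μ₁ (μ₀ (μ₁ a₀))) := by rw [← b1, tt1, hV.2.1]
  have k5 : B (μ₀ a₁) (μ₀ (μ₁ a₀)) = B a₀ a₁ := by rw [hV.2.1, k1]
  have k6 : B (μ₀ a₁) a₀ = B a₀ a₁ := by rw [← b0, tt0, t0, hV.2.1]
  have k7 : B (μ₀ a₁) (μ₁ a₀) = B a₀ (μ₁ (μ₀ a₁)) := by rw [← b1, tt1, hV.2.1]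
  have k8 : B a₀ (μ₀ (μ₁ a₀)) = B a₀ (μ₁ a₀) := by rw [hV.2.1, k3]
  have k9 : B a₀ (μ₀ a₁) = B a₀ a₁ := by rw [hV.2.1, k6]
  have R1 := congrArg (B (μ₀ (μ₁ a₀))) R
  have R2 := congrArg (B (μ₀ a₁)) R
  have R3 := congrArg (B a₀) R
  simp only [map_add, map_sub, map_smul, smul_eq_mul, map_zero, nm1, nm2, hn₀, k1, k2, k3, k4, k5,
    k6, k7, k8, k9] at R1 R2 R3
  apply Q.ne'
  linear_combination R1 + y * R2 + z * R3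
end Cfsg.Agent.S5544
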