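import Cfsg.Statements.S5545
import Cfsg.Agent.Solv.Majorana

set_option autoImplicit false
open Cfsg

namespace Cfsg.Agent.S5545

open Cfsg.Lib.Solv.Maj Cfsg.Axial in
theorem key {V : Type*} [AddCommGroup V] [Module ℝ V] {mul : V →ₗ[ℝ] V →ₗ[ℝ] V}
    {B : LinearMap.BilinForm ℝ V} (hV : IsMajoranaAmbient mul B) {μ₀ : V ≃ₗ[ℝ] V} {a₀ a₁ p : V}
    {l : ℝ} (h₀ : IsMajoranaPair mul B μ₀ a₀) (hn₀ : B a₀ a₀ = 1) (hl : B a₀ a₁ = l)
    (hp : mul a₀ a₁ = p) (h1 : mul a₁ a₁ = a₁) (ht : μ₀ a₁ = a₁)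
    (hq : mul a₁ p = (1 / 4 : ℝ) • p + (3 * l / 4) • a₁) :
    (l = 1 / 8 ∨ p = l • a₀) ∧ (l = 1 / 8 → (16 : ℝ) • mul p p =
      (-1 / 2 : ℝ) • p + (3 / 8 : ℝ) • (a₀ + a₁)) := by
  obtain ⟨hb, ha⟩ := comps hV h₀ hn₀ a₁
  rw [ht, hl, hp] at hb ha
  have h0 := idem h₀
  have hp0 : mul a₀ p = (1 / 4 : ℝ) • p + (3 * l / 4) • a₀ := by
    simp only [map_sub, map_smul, h0, sub_self, smul_zero, sub_zero, map_zero] at hb
    linear_combination (norm := module) (1 / 4 : ℝ) • hb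
  have e1 := fus00 h₀ ha ha
  have e2 := fus0q h₀ ha hb
  obtain ⟨m, e3⟩ := fusqq h₀ hb hb
  have c1 : mul a₁ a₀ = p := by rw [hV.1, hp]
  have c2 : mul p a₀ = (1 / 4 : ℝ) • p + (3 * l / 4) • a₀ := by rw [hV.1, hp0]
  have c3 : mul p a₁ = (1 / 4 : ℝ) • p + (3 * l / 4) • a₁ := by rw [hV.1, hq]
  simp only [map_sub, map_add, map_smul, LinearMap.sub_apply, LinearMap.add_apply,
    LinearMap.smul_apply, h0, hp0, hp, h1, hq, c1, c2, c3, sub_self, smul_zero, sub_zero,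
    map_zero] at e1 e2 e3
  have e4 : (16 : ℝ) • mul p p = (8 * l) • p + (8 * l ^ 2) • a₀ + (1 - 4 * l) • p + (3 * l) • a₁
      - (l / 4 + 3 / 4 * (1 - 3 * l)) • ((4 : ℝ) • p - (4 * l) • a₀) := by
    linear_combination (norm := module) (4 : ℝ) • e1 + (4 : ℝ) • e2
  refine ⟨?_, fun h => ?_⟩
  · have e5 := congrArg (mul a₀) e4
    simp only [map_sub, map_add, map_smul, h0, hp0, hp] at e5
    have e6 : (1 / 2 - 4 * l) • p = (-m + 3 * l / 2 - 5 * l ^ 2) • a₀ := by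
      linear_combination (norm := module) e5 - e3
    have e7 := congrArg (mul a₀) e6
    simp only [map_smul, h0, hp0] at e7
    have e8 : (1 / 2 - 4 * l) • (p - l • a₀) = 0 := by
      linear_combination (norm := module) (4 / 3 : ℝ) • e6 - (4 / 3 : ℝ) • e7
    rcases smul_eq_zero.1 e8 with h | h
    · left; linarith
    · right; exact sub_eq_zero.1 h
  · rw [e4, h]; module

/-- Let V be a finite-dimensional real vector space with a commutative bilinear product and a positive-definite symmetric bilinear form that associates with the product and satisfies the Norton inequality (the Majorana setting of the definitions). Let μ₀, μ₁ be commuting Majorana involutions with distinct axial vectors a₀ ≠ a₁ of squared length 1, each involution having no other axial vector. Then either a₀ and a₁ are orthogonal with a₀ ∘ a₁ = 0 (type 2B), or their inner product is 1/8 and, with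 a₂ = a₀ + a₁ − 8 a₀ ∘ a₁, the vector a₂ is an idempotent and a₀ ∘ a₂ = (1/8)(a₀ + a₂ − a₁), a₁ ∘ a₂ = (1/8)(a₁ + a₂ − a₀) (type 2A: the three idempotents span a subalgebra with aᵢ ∘ aⱼ = (1/8)(aᵢ + aⱼ − aₖ)). -/
theorem result {V : Type*} [AddCommGroup V] [Module ℝ V] [FiniteDimensional ℝ V] (mul : V →ₗ[ℝ] V →ₗ[ℝ] V) (B : LinearMap.BilinForm ℝ V) (hV : Cfsg.Axial.IsMajoranaAmbient mul B) (μ₀ μ₁ : V ≃ₗ[ℝ] V) (a₀ a₁ : V) (h₀ : Cfsg.Axial.IsMajoranaPair mul B μ₀ a₀) (h₁ : Cfsg.Axial.IsMajoranaPair mul B μ₁ a₁) (hu₀ : ∀ a : V, Cfsg.Axial.IsMajoranaPair mul B μ₀ a → a = a₀) (hu₁ : ∀ a : V, Cfsg.Axial.IsMajoranaPair mul B μ₁ a → a = a₁) (hn₀ : B a₀ a₀ = 1) (hn₁ : B a₁ a₁ = 1) (hc : μ₀ * μ₁ = μ₁ * μ₀) (hne : a₀ ≠ a₁) : (B a₀ a₁ = 0 ∧ mul a₀ a₁ = 0) ∨ (B a₀ a₁ = 1 / 8 ∧ mul (a₀ + a₁ - (8 : ℝ) • mul a₀ a₁) (a₀ + a₁ - (8 : ℝ) • mul a₀ a₁) = a₀ + a₁ - (8 : ℝ) • mul a₀ a₁ ∧ mul a₀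 (a₀ + a₁ - (8 : ℝ) • mul a₀ a₁) = (1 / 8 : ℝ) • (a₀ + (a₀ + a₁ - (8 : ℝ) • mul a₀ a₁) - a₁) ∧ mul a₁ (a₀ + a₁ - (8 : ℝ) • mul a₀ a₁) = (1 / 8 : ℝ) • (a₁ + (a₀ + a₁ - (8 : ℝ) • mul a₀ a₁) - a₀)) := by
  open Cfsg.Lib.Solv.Maj in
  have t0 : μ₀ a₁ = a₁ := hu₁ _ (by
    have := conj h₀.1 h₀.2.1 h₁
    rwa [hc, mul_inv_cancel_right] at this)
  open Cfsg.Lib.Solv.Maj in
  have t1 : μ₁ a₀ = a₀ := hu₀ _ (by
    have := conj h₁.1 h₁.2.1 h₀
    rwa [← hc, mul_inv_cancel_right] at this)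
  have i0 := Cfsg.Lib.Solv.Maj.idem h₀
  have i1 := Cfsg.Lib.Solv.Maj.idem h₁
  obtain ⟨l, hl⟩ : ∃ l, B a₀ a₁ = l := ⟨_, rfl⟩
  obtain ⟨p, hp⟩ : ∃ p, mul a₀ a₁ = p := ⟨_, rfl⟩
  have hl' : B a₁ a₀ = l := by rw [hV.2.1, hl]
  have hp' : mul a₁ a₀ = p := by rw [hV.1, hp]
  have q0 : mul a₀ p = (1 / 4 : ℝ) • p + (3 * l / 4) • a₀ := by
    have hb := (Cfsg.Lib.Solv.Maj.comps hV h₀ hn₀ a₁).1
    rw [t0, hl, hp] at hb
    simp only [map_sub, map_smul, i0, sub_self, smul_zero, sub_zero, map_zero] at hb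
    linear_combination (norm := module) (1 / 4 : ℝ) • hb
  have q1 : mul a₁ p = (1 / 4 : ℝ) • p + (3 * l / 4) • a₁ := by
    have hb := (Cfsg.Lib.Solv.Maj.comps hV h₁ hn₁ a₀).1
    rw [t1, hl', hp'] at hb
    simp only [map_sub, map_smul, i1, sub_self, smul_zero, sub_zero, map_zero] at hb
    linear_combination (norm := module) (1 / 4 : ℝ) • hb
  obtain ⟨k0, k0'⟩ := key hV h₀ hn₀ hl hp i1 t0 q1
  obtain ⟨k1, -⟩ := key hV h₁ hn₁ hl' hp' i0 t1 q0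
  have c2 : mul p a₀ = (1 / 4 : ℝ) • p + (3 * l / 4) • a₀ := by rw [hV.1, q0]
  have c3 : mul p a₁ = (1 / 4 : ℝ) • p + (3 * l / 4) • a₁ := by rw [hV.1, q1]
  rw [hl, hp]
  by_cases h8 : l = 1 / 8
  · right
    have k := k0' h8
    subst h8
    simp only [map_sub, map_add, map_smul, LinearMap.sub_apply, LinearMap.add_apply,
      LinearMap.smul_apply, i0, i1, hp, hp', q0, q1, c2, c3]
    refine ⟨trivial, ?_, ?_, ?_⟩
    · linear_combination (norm := module) (4 : ℝ) • k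
    · module
    · module
  · left
    have k0 := k0.resolve_left h8
    have k1 := k1.resolve_left h8
    have : l • (a₀ - a₁) = 0 := by linear_combination (norm := module) k1 - k0
    have hl0 : l = 0 := (smul_eq_zero.1 this).resolve_right (sub_ne_zero.2 hne)
    exact ⟨hl0, by rw [k0, hl0, zero_smul]⟩
end Cfsg.Agent.S5545
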