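import Cfsg.Statements.S5546
import Cfsg.Agent.Spor.Co0Simple

set_option autoImplicit false
open Cfsg

namespace Cfsg.Agent.S5546

open Cfsg.Lib.Spor Cfsg.Lib.Spor.CK Cfsg.Lib.Spor.Orb MulAction

instance instFact13 : Fact (Nat.Prime 13) := ⟨by norm_num⟩

/-- The matrix of an element modulo 13. -/
noncomputable def rho : Co0 →* Matrix GolayPt GolayPt (ZMod 13) where
  toFun g := Matrix.of fun i j => 5 * (co0Mat g i j : ZMod 13)
  map_one' := by
    ext i j
    simp only [Matrix.of_apply, co0Mat_one, Matrix.one_apply]
    split_ifs <;> rfl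
  map_mul' g h := by
    ext i k
    have := congrArg (Int.cast (R := ZMod 13)) (co0Mat_mul g h i k)
    push_cast at this
    simp only [Matrix.of_apply, Matrix.mul_apply]
    rw [Finset.sum_congr rfl fun j _ => mul_mul_mul_comm _ _ _ _, ← Finset.mul_sum, ← this,
      ← mul_assoc]
    rfl

/-- Reduction modulo 13. -/
def red (x : leechLattice) : GolayPt → ZMod 13 := fun i => ((x : GolayPt → ℤ) i : ZMod 13)

theorem rho_red (g : Co0) (x : leechLattice) : (rho g).mulVec (red x) = red (g • x) := by
  funext i
  have := congrArg (Int.cast (R := ZMod 13)) (co0_coord g x i)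
  push_cast at this
  simp only [Matrix.mulVec, dotProduct, rho, MonoidHom.coe_mk, OneHom.coe_mk, Matrix.of_apply, red,
    mul_assoc]
  rw [← Finset.mul_sum, ← this, ← mul_assoc, show (5 * 8 : ZMod 13) = 1 from rfl, one_mul]

/-- The line of the fixed vector. -/
def U : Submodule (ZMod 13) (GolayPt → ZMod 13) := Submodule.span (ZMod 13) {red uu}

theorem U_le (g : sCo2) : U ≤ U.comap (Matrix.toLin' (rho g)) := by
  rw [U, Submodule.span_singleton_le_iff_mem, Submodule.mem_comap, Matrix.toLin'_apply, rho_red, g.2]
  exact Submodule.mem_span_singleton_self _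

/-- The action on the quotient. -/
noncomputable def rhoQ : sCo2 →* Module.End (ZMod 13) ((GolayPt → ZMod 13) ⧸ U) where
  toFun g := U.mapQ U (Matrix.toLin' (rho g)) (U_le g)
  map_one' := Submodule.linearMap_qext _ (by ext x; simp)
  map_mul' g h := Submodule.linearMap_qext _ (by ext x; simp)

theorem finrank_Q : Module.finrank (ZMod 13) ((GolayPt → ZMod 13) ⧸ U) = 23 := by
  have := U.finrank_quotient_add_finrank
  rw [U, finrank_span_singleton (by decide +kernel), Module.finrank_fintype_fun_eq_card] at this
  exact Nat.add_right_cancel (m := 1) this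

theorem rhoQ_ne : rhoQ.ker ≠ ⊤ := by
  intro h
  obtain ⟨g, hg, e⟩ := mem_orbit_sub.1 (show xx - u2 ∈ orbit sCo2 xx by
    rw [orbit_stab_32 nm_uu nm_xx]
    exact ⟨by decide +kernel, by decide +kernel⟩)
  have h1 : rhoQ ⟨g, hg⟩ = 1 := h.ge (Subgroup.mem_top _)
  have h2 := LinearMap.congr_fun h1 (U.mkQ (red xx))
  change U.mkQ ((rho g).mulVec (red xx)) = U.mkQ (red xx) at h2
  rw [rho_red, e, Submodule.mkQ_apply, Submodule.mkQ_apply, Submodule.Quotient.eq, U,
    Submodule.mem_span_singleton] at h2
  revert h2
  decide +kernel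

/-- The second Conway group (the stabilizer in the Leech lattice automorphism group of the short vector fixed in the definitions) is isomorphic to a subgroup of the general linear group of degree 23 over the field with 13 elements: there is an injective homomorphism into it. -/
theorem result : ∃ f : ↥Cfsg.Spor.Co2 →* GL (Fin 23) (ZMod 13), Function.Injective f := by
  let b := Module.finBasisOfFinrankEq _ _ finrank_Q
  have h : Function.Injective rhoQ :=
    (MonoidHom.ker_eq_bot_iff _).1 (rhoQ.normal_ker.eq_bot_or_eq_top.resolve_right rhoQ_ne)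
  refine ⟨(((LinearMap.toMatrixAlgEquiv b).toMulEquiv.toMonoidHom.comp rhoQ).comp
    sCo2Equiv.symm.toMonoidHom).toHomUnits, fun x y e => ?_⟩
  exact sCo2Equiv.symm.injective (h ((LinearMap.toMatrixAlgEquiv b).injective
    (congrArg Units.val e)))

end Cfsg.Agent.S5546
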