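import Cfsg.Statements.S5549
import Cfsg.Agent.Spor.GolaySub
import Cfsg.Agent.S0362

set_option autoImplicit false
set_option linter.unusedVariables false
set_option maxRecDepth 100000
open Cfsg

namespace Cfsg.Agent.S5549

open Cfsg.Lib.Spor Cfsg.Lib.Spor.GSub
open scoped Pointwise

theorem star {ι α : Type*} [Fintype ι] [DecidableEq α] (D : ι → Finset α) (h2 : ∀ i, (D i).card = 2)
    (h : ∀ i j, i ≠ j → (D i ∩ D j).card = 1) (hn : 3 < Fintype.card ι) : ∃ p, ∀ i, p ∈ D i := by
  obtain ⟨i0⟩ : Nonempty ι := Fintype.card_pos_iff.1 (by omega)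
  have m : ∀ i j, ∃ x ∈ D i, x ∈ D j := fun i j => by
    obtain ⟨x, hx⟩ : (D i ∩ D j).Nonempty := Finset.card_pos.1 (by
      by_cases e : i = j
      · rw [e, Finset.inter_self, h2]; omega
      · rw [h i j e]; omega)
    exact ⟨x, Finset.mem_inter.1 hx⟩
  have two : ∀ i, ∀ x ∈ D i, ∀ y ∈ D i, x ≠ y → D i = {x, y} := fun i x hx y hy e =>
    (Finset.eq_of_subset_of_card_le (by simp [Finset.insert_subset_iff, hx, hy])
      (by rw [h2, Finset.card_pair e])).symm
  obtain ⟨p, q, hpq, e0⟩ := Finset.card_eq_two.1 (h2 i0)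
  by_contra hc
  push Not at hc
  obtain ⟨b, hb⟩ := hc p
  obtain ⟨c, hc⟩ := hc q
  obtain ⟨r, r1, r2⟩ := m b c
  have q1 : q ∈ D b := by
    obtain ⟨x, x1, x2⟩ := m i0 b
    rw [e0, Finset.mem_insert, Finset.mem_singleton] at x1
    rcases x1 with rfl | rfl <;> tauto
  have p1 : p ∈ D c := by
    obtain ⟨x, x1, x2⟩ := m i0 c
    rw [e0, Finset.mem_insert, Finset.mem_singleton] at x1
    rcases x1 with rfl | rfl <;> tauto
  have e1 := two b q q1 r r1 fun e => hc (e ▸ r2)
  have e2 := two c p p1 r r2 fun e => hb (e ▸ r1)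
  have := Finset.card_le_card_of_injOn (s := Finset.univ) (t := {D i0, D b, D c}) D (fun i _ => by
    obtain ⟨x, x1, x2⟩ := m i0 i
    obtain ⟨y, y1, y2⟩ := m b i
    obtain ⟨z, z1, z2⟩ := m c i
    have pr : p ≠ r := fun e => hb (e ▸ r1)
    have qr : q ≠ r := fun e => hc (e ▸ r2)
    simp only [e0, e1, e2, Finset.mem_insert, Finset.mem_singleton, Finset.coe_insert, Finset.coe_singleton,
      Set.mem_insert_iff, Set.mem_singleton_iff] at x1 y1 z1 ⊢
    rcases x1 with rfl | rfl
    · rcases y1 with rfl | rfl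
      exacts [Or.inl (two i _ x2 _ y2 hpq), Or.inr (Or.inr (two i _ x2 _ y2 pr))]
    · rcases z1 with rfl | rfl
      exacts [Or.inl (two i _ z2 _ x2 hpq), Or.inr (Or.inl (two i _ x2 _ z2 qr))]) fun i _ j _ e => by
      by_contra hne
      have := h i j hne
      rw [e, Finset.inter_self, h2] at this
      omega
  have h3 := Finset.card_le_three (a := D i0) (b := D b) (c := D c)
  rw [Finset.card_univ] at this
  omega

theorem sum_supp (v c : GolayPt → ZMod 2) : ∑ p, v p * c p = ∑ p ∈ support₂ v, c p := by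
  rw [support₂, Finset.sum_filter]
  refine Finset.sum_congr rfl fun p _ => ?_
  generalize v p = a
  generalize c p = b
  revert a b; decide

theorem sum_card (t : Finset GolayPt) (c : GolayPt → ZMod 2) : ∑ p ∈ t, c p = ((t ∩ support₂ c).card : ZMod 2) := by
  rw [support₂, Finset.inter_filter, Finset.inter_univ, Finset.card_filter, Nat.cast_sum]
  refine Finset.sum_congr rfl fun p _ => ?_
  generalize c p = b
  revert b; decide

/-- the number of words of weight 8 or 16 meeting `t` oddly -/
noncomputable def N (t : Finset GolayPt) : ℕ :=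
  {s | s ∈ golaySets ∧ ((s.card = 8 ∨ s.card = 16) ∧ Odd (t ∩ s).card)}.ncard

theorem N_eq (t : Finset GolayPt) : N t = {c : golayCode | ((support₂ c.1).card = 8 ∨ (support₂ c.1).card = 16) ∧
    ∑ p ∈ t, c.1 p = 1}.ncard := by
  symm
  refine Set.ncard_congr (fun c _ => support₂ c.1) (fun c h => ⟨support_mem_golaySets_iff.2 c.2, h.1, ?_⟩)
    (fun a b _ _ h => Subtype.ext (support₂_injective h)) ?_
  · exact ZMod.natCast_eq_one_iff_odd.1 (sum_card t c ▸ h.2)
  · rintro _ ⟨⟨c, hc, rfl⟩, h1, h2⟩
    exact ⟨⟨c, hc⟩, ⟨h1, (sum_card t c).trans (ZMod.natCast_eq_one_iff_odd.2 h2)⟩, rfl⟩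

theorem N_val {t : Finset GolayPt} {m : ℕ} (h : t.card = popc m) (h5 : popc m ≤ 5) : N t = countLT 4096 fun k =>
    forceN (enc k) fun x => (Nat.beq (popc x) 8 || Nat.beq (popc x) 16) &&
      Nat.beq (Nat.mod (popc (Nat.land m x)) 2) 1 := by
  obtain ⟨σ, h1, h2⟩ := MP.M24_trans_finset (h ▸ h5) (h.trans (card_maskSet m).symm)
  rw [← ncard_golaySets_filter (fun s => (s.card = 8 ∨ s.card = 16) ∧ Odd (maskSet m ∩ s).card)
    (fun x => forceN x fun x => (Nat.beq (popc x) 8 || Nat.beq (popc x) 16) &&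
      Nat.beq (Nat.mod (popc (Nat.land m x)) 2) 1) fun x _ => by
    simp [forceN_eq, ← maskSet_and, card_maskSet, Nat.odd_iff]; exact fun _ => Iff.rfl]
  refine (ncard_sep_smul σ fun s => ?_).symm
  rw [smul_mem_golaySets_iff h1, ← h2, ← perm_smul_finset_inter, card_perm_smul_finset, card_perm_smul_finset]

theorem rep (φ : golayCode →ₗ[ZMod 2] ZMod 2) :
    ∃ v : GolayPt → ZMod 2, (support₂ v).card ≤ 4 ∧ ∀ c, φ c = ∑ p, v p * c.1 p := by
  obtain ⟨g, rfl⟩ := φ.exists_extend
  obtain ⟨s, h1, h2⟩ := exists_small_symmDiff_mem (support₂ fun p => g (Pi.single p 1))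
  rw [← maskSet_setMask s, ← support_maskWord] at h1 h2
  rw [← support_add, support_mem_golaySets_iff] at h2
  refine ⟨_, h1, fun c => ?_⟩
  have := S0362.result _ _ h2 c.2
  simp only [Pi.add_apply, add_mul, Finset.sum_add_distrib, CharTwo.add_eq_zero] at this
  rw [← this, LinearMap.comp_apply, Submodule.subtype_apply]
  conv_lhs => rw [pi_eq_sum_univ' c.1, map_sum]
  exact Finset.sum_congr rfl fun p _ => by rw [map_smul, smul_eq_mul, mul_comm]

/-- Let X be a group of linear automorphisms of the length-24 binary Golay code of the definitions that fix the all-ones word, containing the coordinate-permutation action of every element of the code's automorphism group (the Mathieu group of degree 24), and such that every element of X sends each codeword into its orbit under that Mathieu group up to adding the all-ones word (X has the same orbits as the Mathieu group on the code modulo the all-ones word). Then every element of X agrees, modulo the all-ones word, with the action of a single element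 of the Mathieu group: X induces exactly the Mathieu group on the code modulo the all-ones word. -/
theorem result (X : Subgroup (↥Cfsg.golayCode ≃ₗ[ZMod 2] ↥Cfsg.golayCode)) (h1 : ∀ x ∈ X, ∀ e : ↥Cfsg.golayCode, (e : (Cfsg.GolayPt → ZMod 2)) = (fun _ => (1 : ZMod 2)) → x e = e) (hM : ∀ σ ∈ Cfsg.M24, ∃ x ∈ X, ∀ c : ↥Cfsg.golayCode, ((x c : ↥Cfsg.golayCode) : (Cfsg.GolayPt → ZMod 2)) = fun p => (c : (Cfsg.GolayPt → ZMod 2)) (σ.symm p)) (horb : ∀ x ∈ X, ∀ c : ↥Cfsg.golayCode, ∃ σ ∈ Cfsg.M24, ((x c : ↥Cfsg.golayCode) : (Cfsg.GolayPt → ZMod 2)) = (fun p => (c : (Cfsg.GolayPt → ZMod 2)) (σ.symm p)) ∨ ((x c : ↥Cfsg.golayCode) : (Cfsg.GolayPt → ZMod 2)) = (fun p => (c : (Cfsg.GolayPt → ZMod 2)) (σ.symm p)) + fun _ => (1 : ZMod 2)) (x : ↥Cfsg.golayCode ≃ₗ[ZMod 2] ↥Cfsg.golayCode) (hx : x ∈ X) : ∃ σ ∈ Cfsg.M24, ∀ c : ↥Cfsg.golayCode, ((x c : ↥Cfsg.golayCode) : (Cfsg.GolayPt → ZMod 2)) = (fun p => (c : (Cfsg.GolayPt → ZMod 2)) (σ.symm p)) ∨ ((x c : ↥Cfsg.golayCode) : (Cfsg.GolayPt → ZMod 2)) = (fun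 p => (c : (Cfsg.GolayPt → ZMod 2)) (σ.symm p)) + fun _ => (1 : ZMod 2) := by
  clear hM
  have hT : ∀ c : golayCode, ((support₂ (x c).1).card = 8 ∨ (support₂ (x c).1).card = 16) ↔
      ((support₂ c.1).card = 8 ∨ (support₂ c.1).card = 16) := fun c => by
    obtain ⟨σ, -, h | h⟩ := horb x hx c
    · rw [h, support₂_comp_symm, card_perm_smul_finset]
    · have := card_symmDiff_add (σ • support₂ c.1) Finset.univ
      rw [Finset.inter_univ, card_perm_smul_finset, Finset.card_univ, card_golayPt] at this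
      rw [h, support_add, support₂_comp_symm, support_one]
      omega
  have key : ∀ a b, a ≠ b → ∀ v : GolayPt → ZMod 2, (support₂ v).card ≤ 4 →
      (∀ c, (x c).1 a + (x c).1 b = ∑ p, v p * c.1 p) → (support₂ v).card = 2 := fun a b hab v h4 h => by
    have e : N {a, b} = N (support₂ v) := by
      rw [N_eq, N_eq, ← Set.ncard_preimage_of_injective_subset_range x.injective
        (x.surjective.range_eq ▸ Set.subset_univ _)]
      congr 1
      ext c
      simp only [Set.mem_preimage, Set.mem_ofPred_eq, Finset.sum_pair hab, ← sum_supp, ← h]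
      exact and_congr_left' (hT c)
    have e2 := h ⟨_, one_mem_code⟩
    rw [h1 x hx _ rfl, sum_supp, sum_card, support_one, Finset.inter_univ, eq_comm] at e2
    have e3 := ZMod.natCast_eq_zero_iff_even.1 e2
    rw [N_val (m := 3) (Finset.card_pair hab) (by decide)] at e
    by_contra h2
    rcases (by rw [Nat.even_iff] at e3; omega : (support₂ v).card = 0 ∨ (support₂ v).card = 4) with h3 | h3
    · rw [N_val (m := 0) h3 (by decide)] at e
      revert e; decide +kernel
    · rw [N_val (m := 15) h3 (by decide)] at e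
      revert e; decide +kernel
  choose v v1 v2 using fun b : ZMod 23 => rep ((LinearMap.proj (R := ZMod 2) (φ := fun _ : GolayPt => ZMod 2) none +
    LinearMap.proj (R := ZMod 2) (φ := fun _ : GolayPt => ZMod 2) (some b)) ∘ₗ golayCode.subtype ∘ₗ x.toLinearMap)
  replace v2 : ∀ b c, (x c).1 none + (x c).1 (some b) = ∑ p, v b p * c.1 p := v2
  have d1 : ∀ b, (support₂ (v b)).card = 2 := fun b => key _ _ (by simp) _ (v1 b) (v2 b)
  have d2 : ∀ b b', b ≠ b' → (support₂ (v b) ∩ support₂ (v b')).card = 1 := fun b b' h => by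
    have e := card_symmDiff_add (support₂ (v b)) (support₂ (v b'))
    rw [d1, d1, ← support_add] at e
    have := key (some b) (some b') (by simpa using h) (v b + v b') (by omega) fun c => by
      simp only [Pi.add_apply, add_mul, Finset.sum_add_distrib, ← v2]
      rw [add_add_add_comm, CharTwo.add_self_eq_zero, zero_add]
    omega
  obtain ⟨p, hp⟩ := star _ d1 d2 (by simp)
  have : ∀ b, ∃ q, p ≠ q ∧ support₂ (v b) = {p, q} := fun b => by
    obtain ⟨r, s, h1, h2⟩ := Finset.card_eq_two.1 (d1 b)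
    have := hp b
    rw [h2, Finset.mem_insert, Finset.mem_singleton] at this
    rcases this with rfl | rfl
    exacts [⟨s, h1, h2⟩, ⟨r, h1.symm, h2.trans (Finset.pair_comm _ _)⟩]
  choose q q1 q2 using this
  have inj : Function.Injective fun b : GolayPt => b.elim p q := by
    rintro (_ | b) (_ | b') h
    · rfl
    · exact absurd h (q1 _)
    · exact absurd h.symm (q1 _)
    · by_contra hne
      have := d2 b b' fun e => hne (e ▸ rfl)
      rw [q2 b', ← show q b = q b' from h, ← q2, Finset.inter_self, d1] at this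
      omega
  have fin : ∀ c : golayCode, (x c).1 = (fun b : GolayPt => c.1 (b.elim p q)) ∨
      (x c).1 = (fun b : GolayPt => c.1 (b.elim p q)) + fun _ => 1 := fun c => by
    have k : ∀ b : GolayPt, (x c).1 b = c.1 (b.elim p q) + ((x c).1 none + c.1 p) := by
      rintro (_ | b)
      · rw [add_left_comm]; exact (add_eq_left.2 (CharTwo.add_self_eq_zero _)).symm
      · have := v2 b c
        rw [sum_supp, q2, Finset.sum_pair (q1 b)] at this
        rw [add_left_comm, add_comm (c.1 _), show c.1 p + c.1 ((some b).elim p q) = _ from this.symm,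
          ← add_assoc, CharTwo.add_self_eq_zero, zero_add]
    generalize (x c).1 none + c.1 p = a at k
    fin_cases a
    exacts [Or.inl (funext fun b => (k b).trans (add_zero _)), Or.inr (funext k)]
  refine ⟨(Equiv.ofBijective _ (Finite.injective_iff_bijective.1 inj)).symm,
    mem_M24_iff_word.2 fun w hw => ?_, fin⟩
  rcases fin ⟨w, hw⟩ with h | h
  · exact (congrArg (· ∈ golayCode) h).mp (x ⟨w, hw⟩).2
  · exact (golayCode.add_mem_iff_left one_mem_code).1 ((congrArg (· ∈ golayCode) h).mp (x ⟨w, hw⟩).2)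

end Cfsg.Agent.S5549
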