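import Cfsg.Statements.S5550
import Cfsg.Agent.Spor.GolaySub

set_option autoImplicit false
set_option linter.unusedVariables false
set_option maxRecDepth 100000
open Cfsg

namespace Cfsg.Agent.S5550

open Cfsg.Lib.Spor Cfsg.Lib.Spor.GSub
open scoped Pointwise

theorem base {m : ℕ} {l : List ℕ} (h1 : ∀ g ∈ l, pkM24 g = true ∧ permMask (pkGet g) m = m)
    (h2 : allLT 4096 (fun j => Nat.beq j 0 || l.any fun g => forceN (Nat.shiftLeft j 12) fun x =>
      forceN (Nat.xor (permMask (pkGet g) x) x) fun y => !isGolay y) = true) {s : Finset GolayPt}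
    (hs : s ∉ golaySets) : ∃ σ ∈ M24, σ • maskSet m = maskSet m ∧ symmDiff (σ • s) s ∉ golaySets := by
  obtain ⟨x, hx, rfl⟩ := exists_maskSet s
  have k : x &&& 4095 < 4096 := Nat.and_lt_two_pow x (n := 12) (by norm_num)
  have h3 := Nat.xor_lt_two_pow hx (enc_lt k)
  have h4 : (x ^^^ enc (x &&& 4095)) % 4096 = 0 := by
    rw [← Nat.and_two_pow_sub_one_eq_mod _ 12, Nat.and_xor_distrib_right]
    exact (congrArg _ (enc_and k)).trans (Nat.xor_self _)
  have h5 : ((x ^^^ enc (x &&& 4095)) / 4096) <<< 12 = x ^^^ enc (x &&& 4095) := by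
    rw [Nat.shiftLeft_eq]; omega
  have h6 := allLT_iff.1 h2 ((x ^^^ enc (x &&& 4095)) / 4096) (by omega)
  have hc := maskSet_mem_golaySets (isGolay_enc k)
  simp only [Bool.or_eq_true, Nat.beq_eq, List.any_eq_true, forceN_eq, Nat.shiftLeft_eq', h5,
    Bool.not_eq_true'] at h6
  rcases h6 with h6 | ⟨g, hg, h6⟩
  · rw [h6, Nat.zero_shiftLeft] at h5
    exact absurd (Nat.eq_of_xor_eq_zero h5.symm ▸ hc) hs
  have ok := pkOk_of_pkM24 (h1 g hg).1
  have hm := pkPerm_mem_M24 (h1 g hg).1
  refine ⟨_, hm, by rw [pkPerm_smul_maskSet ok, (h1 g hg).2], fun h => ?_⟩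
  have := symmDiff_mem_golaySets h (symmDiff_mem_golaySets (smul_mem_golaySets hm hc) hc)
  rw [symmDiff_symmDiff_symmDiff_comm, ← perm_smul_finset_symmDiff, ← maskSet_xor, pkPerm_smul_maskSet ok,
    ← maskSet_xor, maskSet_mem_golaySets_iff (Nat.xor_lt_two_pow (permMask_lt (ptIdx_pkPerm ok) _) h3)] at this
  exact Bool.false_ne_true (h6.symm.trans this)

theorem tr {c : Finset GolayPt} (h : ∀ s ∉ golaySets, ∃ σ ∈ M24, σ • c = c ∧ symmDiff (σ • s) s ∉ golaySets)
    {τ : Equiv.Perm GolayPt} (hτ : τ ∈ M24) {s : Finset GolayPt} (hs : s ∉ golaySets) :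
    ∃ σ ∈ M24, σ • τ • c = τ • c ∧ symmDiff (σ • s) s ∉ golaySets := by
  obtain ⟨σ, h1, h2, h3⟩ := h (τ⁻¹ • s) (mt (smul_mem_golaySets_iff (inv_mem hτ)).1 hs)
  refine ⟨τ * σ * τ⁻¹, mul_mem (mul_mem hτ h1) (inv_mem hτ), by simp [mul_smul, h2], fun h => h3 ?_⟩
  simpa [perm_smul_finset_symmDiff, mul_smul] using smul_mem_golaySets (inv_mem hτ) h

theorem oct {c s : Finset GolayPt} (hc : c ∈ octads) (hs : s ∉ golaySets) :
    ∃ σ ∈ M24, σ • c = c ∧ symmDiff (σ • s) s ∉ golaySets := by
  obtain ⟨τ, h, rfl⟩ := exists_smul_base_octad hc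
  exact tr (fun _ => base (l := [665149292548273198672738042168715630, 935472996401993017979893677229975584])
    (by decide +kernel) (by decide +kernel)) h hs

/-- Let u be a word of the length-24 binary Golay code of the definitions (possibly zero or all-ones) and w any binary word of length 24 outside the code. Then some automorphism of the code (a coordinate permutation preserving it) fixes u but moves w to a word not congruent to w modulo the code: the stabilizer of a codeword fixes no non-zero element of the quotient of the space of all words by the code. -/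
theorem result (u : (Cfsg.GolayPt → ZMod 2)) (hu : u ∈ Cfsg.golayCode) (w : (Cfsg.GolayPt → ZMod 2)) (hw : w ∉ Cfsg.golayCode) : ∃ σ ∈ Cfsg.M24, (fun p => u (σ.symm p)) = u ∧ (fun p => w (σ.symm p)) - w ∉ Cfsg.golayCode := by
  suffices h : ∃ σ ∈ M24, σ • support₂ u = support₂ u ∧ symmDiff (σ • support₂ w) (support₂ w) ∉ golaySets by
    obtain ⟨σ, h1, h2, h3⟩ := h
    refine ⟨σ, h1, support₂_injective (by rwa [support₂_comp_symm]), fun h => h3 ?_⟩
    rwa [← support₂_comp_symm, ← support_add, support_mem_golaySets_iff, ← CharTwo.sub_eq_add]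
  rw [← support_mem_golaySets_iff] at hu hw
  have h0 : maskSet 13062145 ∈ octads := mem_octads_iff.2 ⟨_, by decide +kernel, by decide +kernel, rfl⟩
  rcases card_of_mem_golaySets hu with h | h | h | h | h
  · obtain ⟨σ, h1, -, h2⟩ := oct h0 hw
    exact ⟨σ, h1, by rw [Finset.card_eq_zero.1 h, Finset.smul_finset_empty], h2⟩
  · exact oct ⟨hu, h⟩ hw
  · obtain ⟨τ, h1, h2⟩ := exists_smul_base_dodecad ⟨hu, h⟩
    rw [← h2]
    exact tr (fun _ => base (l := [265682398949488802020037540758149664, 401773539699311457419823195022809298])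
      (by decide +kernel) (by decide +kernel)) h1 hw
  · obtain ⟨σ, h1, h2, h3⟩ := oct (c := (support₂ u)ᶜ) ⟨compl_mem_golaySets hu, by
      rw [Finset.card_compl, h]; rfl⟩ hw
    exact ⟨σ, h1, compl_injective (by rwa [← perm_smul_finset_compl]), h3⟩
  · obtain ⟨σ, h1, -, h2⟩ := oct h0 hw
    exact ⟨σ, h1, by rw [Finset.eq_univ_of_card _ h, Finset.smul_finset_univ], h2⟩

end Cfsg.Agent.S5550
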