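import Cfsg.Statements.S5553
import Cfsg.Agent.Spor.LeechIndex

set_option autoImplicit false
open Cfsg

namespace Cfsg.Agent.S5553

open Cfsg.Lib.Spor

theorem two_mem : (fun _ => (2 : ZMod 4)) ∈ leechLattice.map redFour :=
  ⟨_, two_ind_mem_leechLattice univ_mem_golaySets, funext fun i => by
    rw [redFour_apply, ind_univ]; rfl⟩

theorem card_zm : Nat.card (AddSubgroup.zmultiples (fun _ : GolayPt => (2 : ZMod 4))) = 2 := by
  rw [Nat.card_zmultiples]
  exact addOrderOf_eq_prime (by decide) (by decide)

/-- The Leech lattice of the definitions has an additive subgroup A containing twice the lattice, of index 2^12 in the lattice, all of whose vectors have squared length divisible by 32: the invariant quadratic form 'squared length over 16 modulo 2' on the lattice modulo twice the lattice (a 24-dimensional space over the field with two elements) vanishes on a 12-dimensional subspace, so it is of plus type. -/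
theorem result : ∃ A : AddSubgroup (Cfsg.GolayPt → ℤ), A ≤ Cfsg.leechLattice ∧ (∀ v ∈ Cfsg.leechLattice, (2 : ℤ) • v ∈ A) ∧ (A.addSubgroupOf Cfsg.leechLattice).index = 2 ^ 12 ∧ ∀ v ∈ A, (32 : ℤ) ∣ Cfsg.sqNorm v := by
  set H := AddSubgroup.zmultiples (fun _ : GolayPt => (2 : ZMod 4)) with hH
  have hmem : ∀ v, v ∈ H.comap redFour ↔ ∃ m : ℤ, ∀ i, v i % 4 = (2 * m) % 4 := by
    intro v
    rw [AddSubgroup.mem_comap, hH, AddSubgroup.mem_zmultiples_iff]
    refine exists_congr fun m => ?_
    have : m • (fun _ : GolayPt => (2 : ZMod 4)) = redFour (fun _ => 2 * m) := by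
      funext i
      rw [redFour_apply]; simp [mul_comm]
    rw [this, eq_comm, redFour_eq_iff]
  refine ⟨H.comap redFour ⊓ leechLattice, inf_le_right, fun v hv => ⟨?_, leechLattice.zsmul_mem hv 2⟩,
    ?_, ?_⟩
  · refine (hmem _).2 ⟨v none, fun i => ?_⟩
    have := leech_parity hv i none
    simp only [Pi.smul_apply, smul_eq_mul]
    omega
  · rw [AddSubgroup.inf_addSubgroupOf_right]
    change (H.comap redFour).relIndex leechLattice = _
    rw [AddSubgroup.relIndex_comap]
    have hle : H ≤ leechLattice.map redFour := by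
      rw [hH, AddSubgroup.zmultiples_le]; exact two_mem
    have h1 := AddSubgroup.card_mul_index (H.addSubgroupOf (leechLattice.map redFour))
    rw [card_map_redFour, Nat.card_congr (AddSubgroup.addSubgroupOfEquivOfLe hle).toEquiv, card_zm] at h1
    unfold AddSubgroup.relIndex
    omega
  · rintro v ⟨h1, h2⟩
    obtain ⟨m, hm⟩ := (hmem v).1 h1
    have h3 : ∀ i, v i = 2 * m + 4 * ((v i - 2 * m) / 4) := fun i => by have := hm i; omega
    obtain ⟨y, hy⟩ : ∃ y : GolayPt → ℤ, ∀ i, v i = 2 * m + 4 * y i := ⟨_, h3⟩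
    have h4 := leech_sum_mod h2 none
    have h5 : sqNorm v = 96 * m ^ 2 + 16 * m * (∑ i, y i) + 16 * ∑ i, y i ^ 2 := by
      unfold sqNorm
      rw [Finset.sum_congr rfl (g := fun i => 4 * m ^ 2 + 16 * m * y i + 16 * y i ^ 2)
        fun i _ => by rw [hy i]; ring]
      simp only [Finset.sum_add_distrib, ← Finset.mul_sum, sum_const_golayPt]; ring
    simp only [hy, Finset.sum_add_distrib, ← Finset.mul_sum, sum_const_golayPt] at h4
    obtain ⟨a, ha⟩ : (2 : ℤ) ∣ ∑ i, y i := by omega
    obtain ⟨d, hd⟩ := sum_sq_sub_sum_even y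
    have hd' : ∑ i, y i ^ 2 = 2 * (a + d) := by omega
    rw [h5, ha, hd']
    exact ⟨3 * m ^ 2 + m * a + (a + d), by ring⟩

end Cfsg.Agent.S5553
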