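import Cfsg.Statements.S5565
import Cfsg.Agent.SporChar.J4BThree
import Cfsg.Agent.Fus.EssSmall

set_option autoImplicit false
open Cfsg

namespace Cfsg.Agent.S5565

open Cfsg.Lib.SporChar Cfsg.Lib.SporChar.J4 Cfsg.Lib.SporChar.J4B Cfsg.Lib.Solv Cfsg.Lib.Spor
  Cfsg.Lib.Fus.Ess Subgroup
open scoped Pointwise commutatorElement

section

variable {G : Type*} [Group G] [Finite G] {z x : G} {Q : Subgroup G} {p ρ : G → Equiv.Perm GolayPt}
  {v : Finset GolayPt → G} {κ : M24 →* G} (h : Sp z x Q p v ρ κ)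
include h

omit [Finite G] in
theorem x_ne : x ≠ 1 := fun e => absurd h.x3 (by rw [e, orderOf_one]; norm_num)

theorem exists_S : ∃ S : Sylow 3 G, (S : Subgroup G) ≤ centralizer ({x} : Set G) ∧
    (∀ s ∈ (S : Subgroup G), p s ∈ T3) ∧ x ∈ (S : Subgroup G) ∧ ¬ ∀ a b : S, a * b = b * a := by
  have : Fact (Nat.Prime 3) := ⟨Nat.prime_three⟩
  obtain ⟨R, hR, hp, hx⟩ := h.ab.exists_R ((mem_comm_iff _).2 h.comm)
  have hp' := hp.map (centralizer ({z} : Set G)).subtype
  obtain ⟨S, hS⟩ := hp'.exists_le_sylow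
  have h1 : x ∈ ⁅R.map (centralizer ({z} : Set G)).subtype, R.map (centralizer ({z} : Set G)).subtype⁆ := by
    rw [← map_commutator]; exact ⟨_, hx, rfl⟩
  have hn : ¬ ∀ a b : R.map (centralizer ({z} : Set G)).subtype, a * b = b * a := fun e =>
    x_ne h (mem_bot.1 (commutator_le.2 (fun a ha b hb => mem_bot.2
      (commutatorElement_eq_one_iff_mul_comm.2 (congrArg Subtype.val (e ⟨a, ha⟩ ⟨b, hb⟩)))) h1))
  have h2 := sq_mul_card_center_le hp' hn
  have h3 := prime_le_card (hp'.to_subgroup _) (center_ne_bot hp' (by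
    have := Nat.card_pos (α := center (R.map (centralizer ({z} : Set G)).subtype)); omega))
  have e := eq_of_le_of_card_ge hS (by rw [h.card_sylow]; omega)
  refine ⟨S, ?_, ?_, hS (commutator_le_left_of_le_normalizer le_normalizer h1), fun e' =>
    hn fun a b => Subtype.ext (congrArg Subtype.val (e' ⟨a, hS a.2⟩ ⟨b, hS b.2⟩) :)⟩ <;> rw [← e] <;>
    rintro _ ⟨r, hr, rfl⟩
  · exact mem_centralizer_singleton_iff.2
      (congrArg Subtype.val (mem_centralizer_singleton_iff.1 (hR hr).1))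
  · exact (hR hr).2

variable {S : Subgroup G} (hc : Nat.card S = 27) (h1 : S ≤ centralizer ({x} : Set G))
  (h2 : ∀ s ∈ S, p s ∈ T3) (hx : x ∈ S)
include hc

omit h [Finite G] in
theorem pow_S {s : G} (hs : s ∈ S) : s ^ 27 = 1 :=
  congrArg Subtype.val (hc ▸ pow_card_eq_one' (x := (⟨s, hs⟩ : S)))

include h1 h2

theorem lift_T3 {τ : Equiv.Perm GolayPt} (hτ : τ ∈ T3) : ∃ s ∈ S, p s = τ := by
  let ψ := h.hom.comp (inclusion (h1.trans h.cent_x))
  have h3 : Nat.card ψ.ker ≤ 3 := by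
    rw [← h.x3, ← Nat.card_zpowers, ← card_map_subtype]
    refine card_le_of_le ?_
    rintro _ ⟨s, hs, rfl⟩
    obtain ⟨y, hy, e⟩ := h.eq_mul_of_p_eq (h1 s.2) (one_mem _) (Eq.trans hs h.p_one.symm)
      (pow_S hc s.2) (one_pow _)
    rwa [coe_subtype, e, one_mul]
  have h4 := ψ.ker.card_mul_index
  rw [index_ker, hc] at h4
  have h5 : ψ.range = T3 := eq_of_le_of_card_ge (by rintro _ ⟨s, rfl⟩; exact h2 s s.2) (by
    rw [card_T3]; nlinarith)
  obtain ⟨s, e⟩ := h5.ge hτ
  exact ⟨s, s.2, e⟩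

include hx

omit h2 in
theorem or_of_norm (hn : ¬ ∀ a b : S, a * b = b * a) {n : G} (h3 : n ∈ normalizer (S : Set G)) :
    n * x * n⁻¹ = x ∨ n * x * n⁻¹ = x⁻¹ := by
  have : Fact (Nat.Prime 3) := ⟨Nat.prime_three⟩
  have h4 : zpowers (⟨x, hx⟩ : S) = center S := eq_of_le_of_card_ge (zpowers_le.2 (mem_center_iff.2
    fun s => Subtype.ext (mem_centralizer_singleton_iff.1 (h1 s.2)))) (by
    rw [(isExtraspecial_of_card_cube (p := 3) hc hn).2, Nat.card_zpowers, ← orderOf_coe, h.x3])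
  have h5 : (⟨n * x * n⁻¹, conj_mem_of_mem_normalizer h3 hx⟩ : S) ∈ center S :=
    mem_center_iff.2 fun s => Subtype.ext (by
      have := mem_centralizer_singleton_iff.1 (h1 (inv_conj_mem_of_mem_normalizer h3 s.2))
      calc (s : G) * (n * x * n⁻¹) = n * (n⁻¹ * s * n * x) * n⁻¹ := by group
        _ = n * x * n⁻¹ * s := by rw [this]; group)
  exact (mem_zpowers_three h.x3 (mem_zpowers_coe.1 (h4.ge h5))).resolve_left fun e =>
    x_ne h (conj_eq_one_iff.1 e)

theorem card_norm (hn : ¬ ∀ a b : S, a * b = b * a) : Nat.card (normalizer (S : Set G)) = 864 := by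
  have hN : normalizer (S : Set G) ≤ centralizer ({z} : Set G) := fun n h3 =>
    h.mem_H_of_or (or_of_norm h hc h1 hx hn h3)
  let ψ := h.hom.comp (inclusion hN)
  have h3 : ψ.ker = (zpowers (z * x)).subgroupOf _ := by
    ext c
    rw [mem_subgroupOf, h.mem_zx]
    exact ⟨fun e => ⟨mem_cent_iff.2 ((or_of_norm h hc h1 hx hn c.2).resolve_right fun e' =>
      h.outer c (hN c.2) e' (by rw [show p c = 1 from e]; exact one_mem _)), e⟩, fun e => e.2⟩
  have h4 : zpowers (z * x) ≤ normalizer (S : Set G) := zpowers_le.2 (mul_mem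
    (mem_normalizer_of_conj_mem fun s hs => by
      rw [← mem_centralizer_singleton_iff.1 (h.cent_x (h1 hs)), mul_inv_cancel_right]; exact hs)
    (le_normalizer hx))
  have h5 : ψ.range = D22 ⊓ normalizer (T3 : Set (Equiv.Perm GolayPt)) := by
    refine le_antisymm ?_ fun σ hσ => ?_
    · rintro _ ⟨n, rfl⟩
      refine ⟨h.p_mem n, mem_normalizer_of_conj_mem fun τ hτ => ?_⟩
      obtain ⟨s, hs, rfl⟩ := lift_T3 h hc h1 h2 hτ
      exact h.p_conj (hN n.2) (h.cent_x (h1 hs)) ▸ h2 _ (conj_mem_of_mem_normalizer n.2 hs)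
    · obtain ⟨k, hk, e, rfl⟩ := h.p_surj σ hσ.1
      refine ⟨⟨k, mem_normalizer_of_conj_mem fun s hs => ?_⟩, rfl⟩
      obtain ⟨s', hs', e'⟩ := lift_T3 h hc h1 h2 (conj_mem_of_mem_normalizer hσ.2 (h2 s hs))
      obtain ⟨y, hy, e''⟩ := h.eq_mul_of_p_eq
        (mem_cent_iff.2 (conj_cent_of_or e (mem_cent_iff.1 (h1 hs)))) (h1 hs')
        (by rw [h.p_conj hk (h.cent_x (h1 hs)), e'])
        (by rw [conj_pow, pow_S hc hs, mul_one, mul_inv_cancel]) (pow_S hc hs')
      exact e'' ▸ mul_mem hs' (zpowers_le.2 hx hy)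
  rw [← ψ.ker.card_mul_index, index_ker, h5, card_norm_T3, h3, card_subgroupOf_of_le h4,
    Nat.card_zpowers, h.ord_zx]

end

/-- Let G be a finite non-abelian simple group of Janko-four type (an involution z whose centralizer H has an extraspecial largest normal 2-subgroup E of order 2^13 containing its centralizer in H, a normal subgroup N ≥ E of H with N/E of order 3 and H/N the automorphism group of M₂₂, and a subgroup P ≤ N of order 3 with C_E(P) = ⟨z⟩, N_H(P) ≠ C_H(P) and P ≤ C_H(P)′). Then a Sylow 3-subgroup R of G contained in H is extraspecial of order 27 and exponent 3, its normalizer in G lies in H, and that normalizer has order 864. -/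
theorem result {G : Type*} [Group G] [Finite G] [IsSimpleGroup G] (hG : ¬ IsMulCommutative G) (z : G) (hJ : Cfsg.IsOfJankoFourTypeAt z) (R : Sylow 3 G) (hR : (R : Subgroup G) ≤ Subgroup.centralizer ({z} : Set G)) :
    Cfsg.IsExtraspecial 3 ↥(R : Subgroup G) ∧ Nat.card ↥(R : Subgroup G) = 27 ∧ Monoid.exponent ↥(R : Subgroup G) = 3 ∧
    Subgroup.normalizer ((R : Subgroup G) : Set G) ≤ Subgroup.centralizer ({z} : Set G) ∧ Nat.card ↥(Subgroup.normalizer ((R : Subgroup G) : Set G)) = 864 := by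
  have : Fact (Nat.Prime 3) := ⟨Nat.prime_three⟩
  obtain ⟨P, hJ⟩ := hJ
  obtain ⟨x, p, v, ρ, κ, -, ⟨h, -⟩⟩ := J4B.exists_out hJ
  obtain ⟨S, h1, h2, hx, hn⟩ := exists_S h
  have hc := h.card_sylow S
  obtain ⟨g, e⟩ := MulAction.exists_smul_eq (centralizer ({z} : Set G)) (S.subtype (h1.trans h.cent_x)) (R.subtype hR)
  have e' : (R : Subgroup G) = MulAut.conj (g : G) • (S : Subgroup G) := by
    have := congrArg (fun T : Sylow 3 _ => (T : Subgroup _).map (centralizer ({z} : Set G)).subtype) e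
    simp only [coe_sylow_smul, map_subtype_conj_smul, Sylow.coe_subtype] at this
    rw [map_subgroupOf_eq_of_le hR, map_subgroupOf_eq_of_le (h1.trans h.cent_x)] at this
    exact this.symm
  have : Nontrivial S := ⟨⟨x, hx⟩, 1, fun e => x_ne h (congrArg Subtype.val e)⟩
  refine ⟨isExtraspecial_of_card_cube (h.card_sylow R) fun e => hn fun a b =>
    (S.equiv R).injective (by rw [map_mul, map_mul, e]), h.card_sylow R, ?_, ?_, ?_⟩
  · rw [← Monoid.exponent_eq_of_mulEquiv (S.equiv R), Monoid.exponent_eq_prime_iff Nat.prime_three]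
    intro s hs
    obtain ⟨k, e⟩ := isConj_iff.1 (h.conj_of_three (h1 s.2) (cube_T3 (h2 s s.2)) (pow_S hc s.2)
      fun e => hs (Subtype.ext e))
    rw [← orderOf_coe, ← e]
    exact ((MulAut.conj k).orderOf_eq x).trans h.x3
  · rw [e', ← conj_smul_normalizer, conj_smul_le_iff]
    exact fun n h3 => mul_mem (mul_mem g.2 (h.mem_H_of_or (or_of_norm h hc h1 hx hn h3))) (inv_mem g.2)
  · rw [e', ← conj_smul_normalizer, card_conj_smul, card_norm h hc h1 h2 hx hn]

end Cfsg.Agent.S5565
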