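import Cfsg.Statements.S5568
import Cfsg.Agent.SporChar.J4BOut

set_option autoImplicit false
open Cfsg

namespace Cfsg.Agent.S5568

open Cfsg.Lib.SporChar Cfsg.Lib.Solv Cfsg.Lib.Solv.Count Cfsg.Lib.Spor Cfsg.Lib.Spor.MP Subgroup
open scoped Pointwise

theorem ncard_cj {G : Type*} [Group G] (g a : G) (N : Subgroup G) :
    {y | ∃ n ∈ MulAut.conj g • N, n * (g * a * g⁻¹) * n⁻¹ = y}.ncard =
      cnt fun y => ∃ n ∈ N, n * a * n⁻¹ = y := by
  rw [← Nat.card_coe_set_eq]
  refine (cnt_congr_equiv (MulAut.conj g).toEquiv fun y => ?_).symm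
  constructor
  · rintro ⟨n, hn, rfl⟩
    exact ⟨_, conj_mem_conj_smul g hn, by simp [mul_assoc]⟩
  · rintro ⟨_, hn, e⟩
    obtain ⟨n, hn', rfl⟩ := mem_conj_smul_iff_exists.1 hn
    refine ⟨n, hn', (MulAut.conj g).injective (Eq.trans ?_ e)⟩
    simp [mul_assoc]

/-- Let G be a finite non-abelian simple group of Janko-four type (an involution z whose centralizer H has an extraspecial largest normal 2-subgroup E of order 2^13 containing its centralizer in H, a normal subgroup N ≥ E of H with N/E of order 3 and H/N the automorphism group of M₂₂, and a subgroup P ≤ N of order 3 with C_E(P) = ⟨z⟩, N_H(P) ≠ C_H(P) and P ≤ C_H(P)′). Let V be an elementary abelian subgroup of G of order 2^11. Then under conjugation by the normalizer of V the non-identity elements of V fall into an orbit of length 1771 consisting of conjugates of z and an orbit of length 276 consisting of involutions t not conjugate to z, and for such t the centralizer of t in G lies in the normalizer of V. -/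
theorem result {G : Type*} [Group G] [Finite G] [IsSimpleGroup G] (hG : ¬ IsMulCommutative G) (z : G) (hJ : Cfsg.IsOfJankoFourTypeAt z) (V : Subgroup G) (hV : Cfsg.IsElementaryAbelian 2 V) (hcard : Nat.card ↥V = 2 ^ 11) :
    ∃ z' t : G, z' ∈ V ∧ t ∈ V ∧ t ≠ 1 ∧ IsConj z z' ∧ ¬ IsConj z t ∧
    Set.ncard {v : G | ∃ n ∈ Subgroup.normalizer (V : Set G), n * z' * n⁻¹ = v} = 1771 ∧
    Set.ncard {v : G | ∃ n ∈ Subgroup.normalizer (V : Set G), n * t * n⁻¹ = v} = 276 ∧
    Subgroup.centralizer ({t} : Set G) ≤ Subgroup.normalizer (V : Set G) := by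
  obtain ⟨P, hJ⟩ := hJ
  obtain ⟨x, p, v, ρ, κ, -, h⟩ := J4B.exists_out hJ
  obtain ⟨g, rfl⟩ : ∃ g : G, V = MulAut.conj g • h.V :=
    h.out.exists_conj (fun a ha => by rw [← sq, hV.2 a ha]) hcard.ge
  have hab : (none : GolayPt) ≠ some 0 := by simp
  have hD := Finset.card_pair hab
  obtain ⟨h1, h2, h3⟩ := h.toSp.t_spec hab
  rw [← conj_smul_normalizer]
  refine ⟨g * z * g⁻¹, g * v {none, some 0} * g⁻¹, conj_mem_conj_smul g h.zV,
    conj_mem_conj_smul g h1, by simpa using h2, (J4B.isConj_cj _ _ _).2 (IsConj.refl z),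
    fun e => h3 ((J4B.isConj_cj _ _ _).1 e), ?_, ?_, ?_⟩
  · have e := J4B.cnt_conj_mul (normalizer (h.V : Set G)) z
    rw [inf_comm, h.coc.cardN, show _ ⊓ normalizer (h.V : Set G) = h.hexY from h.out.inf_eq,
      h.hex.cardY] at e
    rw [ncard_cj]
    omega
  · rw [ncard_cj, h.coc.cnt_w (F := J4B.isDu) ?_ fun s hs => ?_]
    · decide +kernel
    · rintro _ ⟨n, hn, rfl⟩
      exact (mem_normalizer_iff.1 hn _).1 h1
    · rw [h.coc.w_duad hs]
      constructor
      · rintro ⟨n, hn, e⟩
        exact ⟨ρ n • {none, some 0}, by rw [Finset.card_smul_finset, hD], by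
          rw [← h.coc.conj n hn _ (by rw [hD]; decide), e]⟩
      · rintro ⟨A, hA, e⟩
        rw [← e]
        exact h.coc.trans (by omega) (by rw [hD]; decide) (by rw [hD, hA])
  · rw [← conj_smul_centralizer_singleton]
    exact conj_smul_mono g (h.cent_duad _ hD)

end Cfsg.Agent.S5568
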