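import Cfsg.Statements.S5572
import Cfsg.Agent.SporChar.J4CF
import Cfsg.Agent.SporChar.J4BOut

set_option autoImplicit false
open Cfsg

namespace Cfsg.Agent.S5572

/-- Let G be a finite non-abelian simple group of Janko-four type (an involution z whose centralizer H has an extraspecial largest normal 2-subgroup E of order 2^13 containing its centralizer in H, a normal subgroup N ≥ E of H with N/E of order 3 and H/N the automorphism group of M₂₂, and a subgroup P ≤ N of order 3 with C_E(P) = ⟨z⟩, N_H(P) ≠ C_H(P) and P ≤ C_H(P)′). Let Q ≤ H have order 5. Then Q is a Sylow 5-subgroup of G; its centralizer is Q × J with J a non-split extension of an elementary abelian group of order 8 by L₃(2); its normalizer contains a subgroup of order 20 containing Q in which Q is self-centralizing (a Frobenius group of order 20); and the normalizer of Q has order 2^8·3·5·7. -/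
theorem result {G : Type*} [Group G] [Finite G] [IsSimpleGroup G] (hG : ¬ IsMulCommutative G) (z : G) (hJ : Cfsg.IsOfJankoFourTypeAt z) (Q : Subgroup G) (hQ : Nat.card ↥Q = 5) (hQz : Q ≤ Subgroup.centralizer ({z} : Set G)) :
    ¬ (25 ∣ Nat.card G) ∧
    (∃ J : Subgroup G, Cfsg.IsInternalDirectProduct Q J (Subgroup.centralizer (Q : Set G)) ∧
      ∃ (E : Subgroup ↥J) (_ : E.Normal), Cfsg.IsElementaryAbelian 2 E ∧ Nat.card ↥E = 8 ∧
        Nonempty (↥J ⧸ E ≃* Matrix.SpecialLinearGroup (Fin 3) (ZMod 2)) ∧ ∀ K : Subgroup ↥J, ¬ E.IsComplement' K) ∧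
    (∃ R : Subgroup G, Q ≤ R ∧ R ≤ Subgroup.normalizer (Q : Set G) ∧ Nat.card ↥R = 20 ∧ R ⊓ Subgroup.centralizer (Q : Set G) = Q) ∧
    Nat.card ↥(Subgroup.normalizer (Q : Set G)) = 2 ^ 8 * 3 * 5 * 7 := by
  obtain ⟨P, hP⟩ := hJ
  obtain ⟨x, p, v, ρ, κ, -, h⟩ := Lib.SporChar.J4B.exists_out hP
  obtain ⟨φ, h⟩ := (Lib.SporChar.J4C.fw_of_out h).exists_pw
  exact h.five' hQ

end Cfsg.Agent.S5572
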