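import Cfsg.Statements.S5574
import Cfsg.Agent.SporChar.J4CL
import Cfsg.Agent.SporChar.J4BOut

set_option autoImplicit false
open Cfsg

namespace Cfsg.Agent.S5574

/-- Let G be a finite non-abelian simple group of Janko-four type (an involution z whose centralizer H has an extraspecial largest normal 2-subgroup E of order 2^13 containing its centralizer in H, a normal subgroup N ≥ E of H with N/E of order 3 and H/N the automorphism group of M₂₂, and a subgroup P ≤ N of order 3 with C_E(P) = ⟨z⟩, N_H(P) ≠ C_H(P) and P ≤ C_H(P)′). Then G has a special 2-subgroup L of order 2^15 with centre of order 8 whose normalizer M satisfies: M/L is isomorphic to the direct product of the symmetric group of degree 5 and L₃(2); L has no complement in M; M nevertheless contains subgroups isomorphic to the symmetric group of degree 5 and to L₃(2); and M contains the normalizer of some Sylow 5-subgroup and of some Sylow 7-subgroup of G. -/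
theorem result {G : Type*} [Group G] [Finite G] [IsSimpleGroup G] (hG : ¬ IsMulCommutative G) (hJ : Cfsg.IsOfJankoFourType G) :
    ∃ L : Subgroup G, Cfsg.IsSpecial 2 ↥L ∧ Nat.card ↥L = 2 ^ 15 ∧ Nat.card ↥(Subgroup.center ↥L) = 8 ∧
    Nonempty (↥(Subgroup.normalizer (L : Set G)) ⧸ L.subgroupOf (Subgroup.normalizer (L : Set G)) ≃* Equiv.Perm (Fin 5) × Matrix.SpecialLinearGroup (Fin 3) (ZMod 2)) ∧
    (∀ K : Subgroup ↥(Subgroup.normalizer (L : Set G)), ¬ (L.subgroupOf (Subgroup.normalizer (L : Set G))).IsComplement' K) ∧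
    (∃ K₁ : Subgroup G, K₁ ≤ Subgroup.normalizer (L : Set G) ∧ Nonempty (↥K₁ ≃* Equiv.Perm (Fin 5))) ∧
    (∃ K₂ : Subgroup G, K₂ ≤ Subgroup.normalizer (L : Set G) ∧ Nonempty (↥K₂ ≃* Matrix.SpecialLinearGroup (Fin 3) (ZMod 2))) ∧
    (∃ Q : Sylow 5 G, Subgroup.normalizer ((Q : Subgroup G) : Set G) ≤ Subgroup.normalizer (L : Set G)) ∧
    (∃ S : Sylow 7 G, Subgroup.normalizer ((S : Subgroup G) : Set G) ≤ Subgroup.normalizer (L : Set G)) := by
  obtain ⟨z, P, hP⟩ := hJ
  obtain ⟨x, p, v, ρ, κ, -, h⟩ := Lib.SporChar.J4B.exists_out hP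
  obtain ⟨φ, h⟩ := (Lib.SporChar.J4C.fw_of_out h).exists_pw
  exact h.pentad

end Cfsg.Agent.S5574
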