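import Cfsg.Statements.S5575
import Cfsg.Agent.Inst.S1703
import Cfsg.Agent.Inst.S5629
import Cfsg.Agent.Cond.S5575

set_option autoImplicit false
open Cfsg

namespace Cfsg.Agent.S5575

/-- Let G be a finite non-abelian simple group of Janko-four type (an involution z whose centralizer H has an extraspecial largest normal 2-subgroup E of order 2^13 containing its centralizer in H, a normal subgroup N ≥ E of H with N/E of order 3 and H/N the automorphism group of M₂₂, and a subgroup P ≤ N of order 3 with C_E(P) = ⟨z⟩, N_H(P) ≠ C_H(P) and P ≤ C_H(P)′). Then a Sylow 11-subgroup of G is extraspecial of order 11^3 and exponent 11, and its normalizer has order 2^4·3·5·11^3 and contains a subgroup isomorphic to GL₂(3). -/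
theorem result {G : Type*} [Group G] [Finite G] [IsSimpleGroup G] (hG : ¬ IsMulCommutative G) (hJ : Cfsg.IsOfJankoFourType G) (U : Sylow 11 G) :
    Cfsg.IsExtraspecial 11 ↥(U : Subgroup G) ∧ Nat.card ↥(U : Subgroup G) = 11 ^ 3 ∧ Monoid.exponent ↥(U : Subgroup G) = 11 ∧
    Nat.card ↥(Subgroup.normalizer ((U : Subgroup G) : Set G)) = 2 ^ 4 * 3 * 5 * 11 ^ 3 ∧
    ∃ K : Subgroup G, K ≤ Subgroup.normalizer ((U : Subgroup G) : Set G) ∧ Nonempty (↥K ≃* GL (Fin 2) (ZMod 3)) := by
  revert G hG hJ U
  exact @Cfsg.Agent.Gate.S5575.out Cfsg.Agent.Cond.S5575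

end Cfsg.Agent.S5575
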