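import Cfsg.Statements.S5577
import Cfsg.Agent.Inst.S1703
import Cfsg.Agent.Inst.S5629
import Cfsg.Agent.Cond.S5577

set_option autoImplicit false
open Cfsg

namespace Cfsg.Agent.S5577

/-- Let G be a finite non-abelian simple group of Janko-four type (an involution z whose centralizer H has an extraspecial largest normal 2-subgroup E of order 2^13 containing its centralizer in H, a normal subgroup N ≥ E of H with N/E of order 3 and H/N the automorphism group of M₂₂, and a subgroup P ≤ N of order 3 with C_E(P) = ⟨z⟩, N_H(P) ≠ C_H(P) and P ≤ C_H(P)′). Then for p = 23, 29, 31, 37 and 43 every Sylow p-subgroup of G is self-centralizing, with normalizer of order 23·22, 29·28, 31·10, 37·12 and 43·14 respectively. -/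
theorem result {G : Type*} [Group G] [Finite G] [IsSimpleGroup G] (hG : ¬ IsMulCommutative G) (hJ : Cfsg.IsOfJankoFourType G) :
    (∀ U : Sylow 23 G, Subgroup.centralizer ((U : Subgroup G) : Set G) = (U : Subgroup G) ∧ Nat.card ↥(Subgroup.normalizer ((U : Subgroup G) : Set G)) = 23 * 22) ∧
    (∀ U : Sylow 29 G, Subgroup.centralizer ((U : Subgroup G) : Set G) = (U : Subgroup G) ∧ Nat.card ↥(Subgroup.normalizer ((U : Subgroup G) : Set G)) = 29 * 28) ∧
    (∀ U : Sylow 31 G, Subgroup.centralizer ((U : Subgroup G) : Set G) = (U : Subgroup G) ∧ Nat.card ↥(Subgroup.normalizer ((U : Subgroup G) : Set G)) = 31 * 10) ∧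
    (∀ U : Sylow 37 G, Subgroup.centralizer ((U : Subgroup G) : Set G) = (U : Subgroup G) ∧ Nat.card ↥(Subgroup.normalizer ((U : Subgroup G) : Set G)) = 37 * 12) ∧
    (∀ U : Sylow 43 G, Subgroup.centralizer ((U : Subgroup G) : Set G) = (U : Subgroup G) ∧ Nat.card ↥(Subgroup.normalizer ((U : Subgroup G) : Set G)) = 43 * 14) := by
  revert G hG hJ
  exact @Cfsg.Agent.Gate.S5577.out Cfsg.Agent.Cond.S5577

end Cfsg.Agent.S5577
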