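import Cfsg.Statements.S5578
import Cfsg.Agent.S5577
import Cfsg.Agent.S0813
import Cfsg.Agent.Inst.S5563
import Cfsg.Agent.Inst.S5564
import Cfsg.Agent.SporChar.J4PMain
import Cfsg.Agent.Spor.J4Type
import Cfsg.Agent.Known.PSL2Recog
import Cfsg.Agent.Class.PGL2Sub
import Cfsg.Agent.Class.PSLCenter
import Cfsg.Agent.Class.FieldIso

set_option autoImplicit false
open Cfsg

namespace Cfsg.Agent.S5578

open Cfsg.Lib Cfsg.Lib.Spor Cfsg.Lib.Spor.J4P Cfsg.Lib.Spor.Bulk Cfsg.Lib.Spor.MP Cfsg.Lib.Spor.JD Subgroup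
open scoped Pointwise

instance fact23 : Fact (Nat.Prime 23) := ⟨by norm_num⟩

/-- the action on the projective line -/
noncomputable def μ : Matrix.SpecialLinearGroup (Fin 2) (ZMod 23) →* Equiv.Perm GolayPt :=
  Known.sl2Perm (ZMod 23)

/-- the Moebius relation -/
def mob (m : ZMod 23 × ZMod 23 × ZMod 23 × ZMod 23) (x y : ℕ) : Prop :=
  if x = 23 then (if y = 23 then m.2.2.1 = 0 else m.2.2.1 ≠ 0 ∧ y * m.2.2.1 = m.1) else
    if y = 23 then m.2.2.1 * x + m.2.2.2 = 0 else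
      m.2.2.1 * x + m.2.2.2 ≠ 0 ∧ y * (m.2.2.1 * x + m.2.2.2) = m.1 * x + m.2.1

instance (m : ZMod 23 × ZMod 23 × ZMod 23 × ZMod 23) (x y : ℕ) : Decidable (mob m x y) := by
  unfold mob; infer_instance

theorem mem_μ {σ : Equiv.Perm GolayPt} {p : ℕ} (h : Rep σ p) {m : ZMod 23 × ZMod 23 × ZMod 23 × ZMod 23}
    (h1 : m.1 * m.2.2.2 - m.2.1 * m.2.2.1 = 1 ∧ ∀ x < 24, mob m x (ap p x)) : σ ∈ μ.range := by
  obtain ⟨g, e1, e2, e3, e4⟩ := Known.exists_sl2 _ _ _ _ h1.1
  refine ⟨g, Equiv.ext fun x => ?_⟩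
  have h2 := h1.2 _ (ptIdx_lt x)
  rw [h.apply, idxPt]
  generalize ap p (ptIdx x) = y at h2
  cases x with
  | none =>
    refine (Known.sl2Perm_infty g).trans ?_
    simp only [mob, ptIdx, if_true] at h2
    rw [e1, e3]
    split_ifs at h2 ⊢ with a b b
    exacts [rfl, absurd a h2.1, absurd h2 a, congrArg some (div_eq_of_eq_mul h2.1 h2.2.symm)]
  | some k =>
    refine (Known.sl2Perm_coe g k).trans ?_
    simp only [mob, ptIdx, if_neg (ZMod.val_lt k).ne, ZMod.natCast_val, ZMod.cast_id', id] at h2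
    rw [e1, e2, e3, e4]
    split_ifs at h2 ⊢ with a b b
    exacts [rfl, absurd a h2.1, absurd h2 a, congrArg some (div_eq_of_eq_mul h2.1 h2.2.symm)]

theorem card_L : Nat.card (Matrix.ProjectiveSpecialLinearGroup (Fin 2) (ZMod 23)) = 6072 := by
  have h := Class.gcd_mul_card_PSL2 (F := ZMod 23)
  rw [Nat.card_zmod] at h
  have h2 : 2 * Nat.card (Matrix.ProjectiveSpecialLinearGroup (Fin 2) (ZMod 23)) = 12144 := h
  omega

theorem card_K : Nat.card (KK 6) = 6072 := by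
  have h := len_mul 6
  rw [len_eq.2.2.2.2.2] at h
  omega

theorem iso_K : Nonempty (KK 6 ≃* Matrix.ProjectiveSpecialLinearGroup (Fin 2) (ZMod 23)) := by
  have h1 := (low_parts in6 low6).1
  have h2 := card_split (K := KK 6) inf_le_left
  have h3 : 0 < Nat.card ↥(KK 6 ⊓ VV) := have := finite_J4; Nat.card_pos
  rw [(by decide +kernel : PK.certOrder sc6 = 6072)] at h1
  rw [card_K] at h2
  have h4 : Nat.card (img (KK 6)) = 6072 := le_antisymm (h2 ▸ Nat.le_mul_of_pos_right _ h3) h1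
  have h5 := (pk_chain_low (H := img (KK 6)) (cert := sc6) (fun c hc => (in6 c hc).img)
    (band_left low6) (by rw [h4]; decide +kernel)).1
  have hγ : Rep (toPerm (nat_lit 0x92dca00ccd4bc2c15ea83d2d1240b3)) (nat_lit 0x92dca00ccd4bc2c15ea83d2d1240b3) := rep_toPerm (by decide +kernel)
  let f := ((MulAut.conj (toPerm (nat_lit 0x92dca00ccd4bc2c15ea83d2d1240b3))⁻¹).toMonoidHom.comp ρ).comp
    (inclusion (inf_le_left : KK 6 ≤ HH))
  have h6 : f.range = (img (KK 6)).map (MulAut.conj (toPerm (nat_lit 0x92dca00ccd4bc2c15ea83d2d1240b3))⁻¹).toMonoidHom := by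
    ext σ
    exact ⟨by rintro ⟨g, rfl⟩; exact ⟨_, ⟨g, g.2, over_ρ ⟨g, g.2.1⟩⟩, rfl⟩,
      fun ⟨τ, ⟨g, hg, h⟩, e⟩ => ⟨⟨g, hg⟩, (congrArg (MulAut.conj (toPerm (nat_lit 0x92dca00ccd4bc2c15ea83d2d1240b3))⁻¹)
        ((over_ρ ⟨g, hg.1⟩).unique h)).trans e⟩⟩
  have h7 : Nat.card f.range = 6072 := by rw [h6, card_map_of_injective (MulEquiv.injective _), h4]
  have e := Known.psl2EquivRange (ZMod 23)
  have h8 : f.range = μ.range := eq_of_le_of_card_ge (by
    rw [h6, map_le_iff_le_comap, ← h5, pclosure_le]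
    intro c hc
    obtain ⟨m, hm⟩ := (by decide +kernel : ∀ c ∈ sg6.map Prod.snd,
      ∃ m ∈ ([(1, 15, 6, 22), (2, 9, 21, 3), (0, 3, 15, 18), (10, 16, 21, 13)] : List (ZMod 23 × ZMod 23 × ZMod 23 × ZMod 23)),
      m.1 * m.2.2.2 - m.2.1 * m.2.2.1 = 1 ∧
        ∀ x < 24, mob m x (ap (pmul (pmul (pinv (nat_lit 0x92dca00ccd4bc2c15ea83d2d1240b3)) c) (pinv (pinv (nat_lit 0x92dca00ccd4bc2c15ea83d2d1240b3)))) x)) c hc
    exact mem_μ ((hγ.inv.mul (in6 c hc).1.1.rep).mul hγ.inv.inv) hm.2)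
    (by rw [h7, ← card_L]; exact (Nat.card_congr e.toEquiv).ge)
  exact ⟨(MulEquiv.ofBijective f.rangeRestrict ((Function.Surjective.bijective_of_nat_card_le
    f.rangeRestrict_surjective (card_K.trans h7.symm).le))).trans ((MulEquiv.subgroupCongr h8).trans e.symm)⟩

theorem exists_swap : ∃ h ∈ HH, gg 6 * h * gg 6 ∈ HH := by
  obtain ⟨a, i, b, k1, -, -, e⟩ := allC.walk (x := (.mul (.mul .u (.el (nat_lit 0xb9c54ada217aa00625c6910a81cdab))) (.mul (.mul .u (.el (nat_lit 0xa90ea93829b4685035f79ac5019988))) .u))) (W := [nat_lit 1, nat_lit 65, nat_lit 269]) (i := 0)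
    (k := fun a i b => band (Nat.beq i 6) (band (Nat.beq a pid) (Nat.beq b pid))) (by decide +kernel)
  obtain ⟨a', i', b', k2, va, vb, e'⟩ := allC.walk (x := .mul (.mul (.mul .u (.el (nat_lit 0xb9c54ada217aa00625c6910a81cdab))) (.mul (.mul .u (.el (nat_lit 0xa90ea93829b4685035f79ac5019988))) .u)) (.el (nat_lit 0xe8694c31151b5740ef48caa05ec623168))) (W := [nat_lit 287, nat_lit 135, nat_lit 5]) (i := 6)
    (k := fun _ i _ => Nat.beq i 0) (by decide +kernel)
  have e1 : WX.ev SC (.mul (.mul .u (.el (nat_lit 0xb9c54ada217aa00625c6910a81cdab))) (.mul (.mul .u (.el (nat_lit 0xa90ea93829b4685035f79ac5019988))) .u)) * gg 0 = hval a * gg i * hval b := e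
  have e2 : WX.ev SC (.mul (.mul .u (.el (nat_lit 0xb9c54ada217aa00625c6910a81cdab))) (.mul (.mul .u (.el (nat_lit 0xa90ea93829b4685035f79ac5019988))) .u)) * hval (nat_lit 0xe8694c31151b5740ef48caa05ec623168) * gg 6 = hval a' * gg i' * hval b' := e'
  rw [beq (band_left k1), beq (band_left (band_right k1)), beq (band_right (band_right k1)), gg_zero,
    hval_pid, mul_one, mul_one, one_mul] at e1
  rw [e1, beq k2, gg_zero, mul_one] at e2
  exact ⟨_, HV.mem (hv_of_ok (a := nat_lit 0xe8694c31151b5740ef48caa05ec623168) (by decide +kernel)), e2 ▸ HH.mul_mem (HV.mem va) (HV.mem vb)⟩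

theorem cent_K : centralizer (KK 6 : Set Spor.J4) ≤ KK 6 := by
  have := simple_J4
  obtain ⟨v, h⟩ := inK_hw in6 [1, 3, 2, 0, 3]
  have h1 : hval (hw (sg6.map Prod.snd) [1, 3, 2, 0, 3]) ≠ 1 := fun e =>
    v.1.rep.ne_of_peq rep_one (by decide +kernel) (v.over.unique (e ▸ VV.one_mem))
  have h2 : orderOf (hval (hw (sg6.map Prod.snd) [1, 3, 2, 0, 3])) = 23 := by
    refine orderOf_eq_prime ?_ h1
    have h3 : ∀ n, HV (hw [hw (sg6.map Prod.snd) [1, 3, 2, 0, 3]] (List.replicate n 0)) ∧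
        hval (hw [hw (sg6.map Prod.snd) [1, 3, 2, 0, 3]] (List.replicate n 0)) =
          hval (hw (sg6.map Prod.snd) [1, 3, 2, 0, 3]) ^ n := fun n => by
      induction n with
      | zero => exact ⟨SC.v_one, hval_pid.trans (pow_zero _).symm⟩
      | succ n ih => exact ⟨(ih.1.mul v).1, (ih.1.mul v).2.1.trans (by rw [ih.2, pow_succ])⟩
    rw [← (h3 23).2, ← hval_pid]
    exact congrArg hval (by decide +kernel)
  let U := Sylow.ofCard (p := 23) (zpowers (hval (hw (sg6.map Prod.snd) [1, 3, 2, 0, 3]))) (by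
    rw [Nat.card_zpowers, h2, card_J4, Nat.factorization_def _ (by norm_num)]; decide +kernel)
  have h4 := ((Cfsg.Agent.S5577.result (fun hc => ?_) jankoFour).1 U).1
  · exact (centralizer_le (zpowers_le.2 h : (U : Subgroup Spor.J4) ≤ KK 6)).trans
      (h4.le.trans (zpowers_le.2 h))
  · have h5 := Group.is_simple_iff_prime_card.1 this
    rw [card_J4] at h5
    exact absurd h5 (by norm_num)

theorem main : ∃ K : Subgroup Spor.J4, Nonempty (↥K ≃* GL (Fin 2) (ZMod 23) ⧸ center (GL (Fin 2) (ZMod 23))) := by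
  obtain ⟨e⟩ := iso_K
  obtain ⟨h, hh, hw⟩ := exists_swap
  let a : Spor.J4 ⧸ HH := (1 : Spor.J4)
  let b : Spor.J4 ⧸ HH := gg 6
  let K := MulAction.stabilizer Spor.J4 ({a, b} : Set (Spor.J4 ⧸ HH))
  have hK : ∀ g, g ∈ K ↔ g • a = a ∧ g • b = b ∨ g • a = b ∧ g • b = a := fun g => by
    rw [MulAction.mem_stabilizer_iff, Set.smul_set_insert, Set.smul_set_singleton, Set.pair_eq_pair_iff]
  have h6 : ∀ g, g ∈ KK 6 ↔ g • a = a ∧ g • b = b := fun g => by
    simp only [a, b, MulAction.Quotient.smul_mk, eq_comm (a := QuotientGroup.mk (g • _)), QuotientGroup.eq]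
    simp [KK, MG.mem_conjIn, mul_assoc]
  have hab : a ≠ b := fun e => by
    have h1 := card_le_of_le (show HH ≤ KK 6 from fun g hg => (h6 g).2 (by
      rw [← e, and_self]; exact QuotientGroup.eq.2 (by simpa using hg)))
    rw [card_K, card_HH] at h1
    omega
  have wa : (gg 6 * h) • a = b := QuotientGroup.eq.2 (by simpa using hh)
  have wb : (gg 6 * h) • b = a := (QuotientGroup.eq.2 (by simpa using hw)).symm
  have h2 : ((KK 6).subgroupOf K).index = 2 := index_eq_two_iff.2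
    ⟨⟨_, (hK _).2 (Or.inr ⟨wa, wb⟩)⟩, fun g => by
      simp only [mem_subgroupOf, h6, coe_mul, mul_smul (g : Spor.J4), wa, wb]
      rcases (hK g).1 g.2 with ⟨e1, e2⟩ | ⟨e1, e2⟩ <;> simp [e1, e2, hab, hab.symm]⟩
  have hn := normal_of_index_eq_two h2
  have e2 := (subgroupOfEquivOfLe (fun g hg => (hK g).2 (Or.inl ((h6 g).1 hg)) : KK 6 ≤ K)).trans e
  have h3 := Agent.S0813.result (F := ZMod 23) 23 1 le_rfl (by simp) 2 le_rfl (by norm_num)
  have h4 : (Known.innD (Fin 2) (ZMod 23)).range = ⊤ :=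
    eq_top_of_card_eq _ (by rw [Known.card_range_innD, h3]; simp)
  have ψ := ((Class.quotCenterEquivRange _ Known.ker_innD).trans
    ((MulEquiv.subgroupCongr h4).trans topEquiv)).symm
  refine ⟨K, ⟨Class.mulEquivOfInjectiveOfCardLe (((MulAut.congr e2).trans ψ).toMonoidHom.comp
    MulAut.conjNormal) (((MulAut.congr e2).trans ψ).injective.comp
      ((injective_iff_map_eq_one _).2 fun g hg => ?_)) ?_⟩⟩
  · have h5 : ∀ k : (KK 6).subgroupOf K, g * k = k * g := fun k =>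
      mul_inv_eq_iff_eq_mul.1 (congrArg Subtype.val (MulEquiv.congr_fun hg k))
    have h7 : g ∈ (KK 6).subgroupOf K := cent_K fun k hk =>
      congrArg Subtype.val (h5 ⟨⟨k, (hK k).2 (Or.inl ((h6 k).1 hk))⟩, hk⟩).symm
    have h8 : e2 ⟨g, h7⟩ ∈ center _ := mem_center_iff.2 fun y => by
      obtain ⟨k, rfl⟩ := e2.surjective y
      rw [← map_mul, ← map_mul]; exact congrArg _ (Subtype.ext (h5 k).symm)
    rw [Class.center_PSL_eq_bot, mem_bot, map_eq_one_iff _ e2.injective] at h8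
    exact congrArg Subtype.val h8
  · have h5 := Class.card_PGL2 (F := ZMod 23)
    rw [Nat.card_zmod] at h5
    rw [← ((KK 6).subgroupOf K).index_mul_card, h2, Nat.card_congr e2.toEquiv, card_L]
    exact h5.le


/-- Let G be a finite non-abelian simple group of Janko-four type (an involution z whose centralizer H has an extraspecial largest normal 2-subgroup E of order 2^13 containing its centralizer in H, a normal subgroup N ≥ E of H with N/E of order 3 and H/N the automorphism group of M₂₂, and a subgroup P ≤ N of order 3 with C_E(P) = ⟨z⟩, N_H(P) ≠ C_H(P) and P ≤ C_H(P)′). Then G has a subgroup isomorphic to PGL₂(23) (the general linear group of degree 2 over the integers modulo 23, modulo its centre). -/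
theorem result {G : Type*} [Group G] [Finite G] [IsSimpleGroup G] (hG : ¬ IsMulCommutative G) (hJ : Cfsg.IsOfJankoFourType G) :
    ∃ K : Subgroup G, Nonempty (↥K ≃* GL (Fin 2) (ZMod 23) ⧸ Subgroup.center (GL (Fin 2) (ZMod 23))) := by
  have := simple_J4
  obtain ⟨z, P, hP⟩ := hJ
  obtain ⟨e⟩ := Cfsg.Lib.SporChar.J4P.iso hP
  obtain ⟨K, ⟨f⟩⟩ := main
  exact ⟨K.map e.symm.toMonoidHom, ⟨(e.symm.subgroupMap K).symm.trans f⟩⟩

end Cfsg.Agent.S5578
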