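import Cfsg.Statements.S5579
import Cfsg.Agent.Inst.S1703
import Cfsg.Agent.Inst.S5629
import Cfsg.Agent.Inst.S5563
import Cfsg.Agent.Inst.S5564
import Cfsg.Agent.SporChar.J4DZ
import Cfsg.Agent.Spor.J4Two

set_option autoImplicit false
open Cfsg

namespace Cfsg.Agent.S5579

/-- Let G be a finite non-abelian simple group of Janko-four type (an involution z whose centralizer H has an extraspecial largest normal 2-subgroup E of order 2^13 containing its centralizer in H, a normal subgroup N ≥ E of H with N/E of order 3 and H/N the automorphism group of M₂₂, and a subgroup P ≤ N of order 3 with C_E(P) = ⟨z⟩, N_H(P) ≠ C_H(P) and P ≤ C_H(P)′). Then G has exactly 62 conjugacy classes. -/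
theorem result {G : Type*} [Group G] [Finite G] [IsSimpleGroup G] (hG : ¬ IsMulCommutative G) (hJ : Cfsg.IsOfJankoFourType G) :
    Nat.card (ConjClasses G) = 62 := by
  obtain ⟨z, x, g, w, U, p, v, ρ, κ, t, -, h⟩ := Cfsg.Lib.SporChar.J4D.exists_el hJ
  obtain ⟨z', P, hP⟩ := hJ
  have := Cfsg.Lib.Spor.J4P.simple_J4
  obtain ⟨e⟩ := Cfsg.Lib.SporChar.J4P.iso hP
  obtain ⟨L, h1, h2⟩ := Cfsg.Lib.Spor.J4T.ncl_two
  have h3 := h2.map (P := fun a => a ^ (2 ^ 21) = 1) (f := e.symm.toMonoidHom) e.symm.injective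
    fun a => by rw [← map_pow]; exact (map_eq_one_iff _ e.symm.injective).symm
  rw [Subgroup.map_top_of_surjective _ e.symm.surjective] at h3
  exact h.classes62 ⟨_, (List.length_map _).trans h1, h3⟩

end Cfsg.Agent.S5579
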