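import Cfsg.Statements.S5594
import Cfsg.Agent.Spor.Co0Simple

set_option autoImplicit false
open Cfsg

namespace Cfsg.Agent.S5594

open Cfsg.Lib.Spor Cfsg.Lib.Spor.CK Cfsg.Lib.Spor.Orb MulAction

/-- The automorphism group of the Leech lattice contains the negation map, and the subgroup of order 2 it generates has no complement: the automorphism group is a non-split extension of its quotient by that subgroup (it is not the direct product of a group of order 2 with the first Conway group). -/
theorem result :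
    ∃ n : ↥Cfsg.Co0, (∀ v : ↥Cfsg.leechLattice, ((n • v : ↥Cfsg.leechLattice) : Cfsg.GolayPt → ℤ) = -(v : Cfsg.GolayPt → ℤ)) ∧
    ∀ K : Subgroup ↥Cfsg.Co0, ¬ (Subgroup.zpowers n).IsComplement' K := by
  refine ⟨co0Neg, fun v => by rw [co0Neg_smul]; rfl, fun K hK => ?_⟩
  have hz : Subgroup.zpowers co0Neg ≤ Subgroup.center Co0 :=
    Subgroup.zpowers_le.2 co0Neg_mem_center
  have hN : K.Normal := by
    refine ⟨fun k hk g => ?_⟩
    obtain ⟨⟨z, h⟩, rfl⟩ := hK.2 g
    have e := Subgroup.mem_center_iff.1 (hz z.2)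
    have : (z : Co0) * h * k * ((z : Co0) * h)⁻¹ = h * k * (h : Co0)⁻¹ := by
      rw [mul_inv_rev, mul_assoc (z : Co0), mul_assoc (z : Co0), ← e]; group
    exact this ▸ K.mul_mem (K.mul_mem h.2 hk) (K.inv_mem h.2)
  rcases normal_Co0 K with h | rfl
  · have h1 := Subgroup.card_le_of_le (sup_le hz h)
    rw [hK.sup_eq_top, card_center_Co0, Subgroup.card_top, card_Co0] at h1
    omega
  · have h1 := hK.disjoint
    rw [disjoint_top, Subgroup.zpowers_eq_bot] at h1
    exact co0Neg_ne_one h1

end Cfsg.Agent.S5594
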