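import Cfsg.Statements.S5600
import Cfsg.Agent.Spor.M24Six

set_option autoImplicit false
open scoped Pointwise
open Cfsg

namespace Cfsg.Agent.S5600

open Cfsg.Lib.Spor Cfsg.Lib.Spor.MP

/-- Although the group of the length-24 code is only 5-transitive on the 24 points, it induces the full symmetric group on every 6-element subset: every permutation of a 6-set E is the restriction of an element of the group mapping E to itself. The pointwise stabiliser of E has order 16 when E lies in an octad and order 3 otherwise; in the latter case the setwise stabiliser of E has order 2160. -/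
theorem result (E : Finset Cfsg.GolayPt) (hE : E.card = 6) : (∀ σ : Equiv.Perm ↥E, ∃ g ∈ Cfsg.M24, ∀ p : ↥E, g p = σ p) ∧ ((∃ o ∈ Cfsg.octads, E ⊆ o) → Nat.card {g : Equiv.Perm Cfsg.GolayPt // g ∈ Cfsg.M24 ∧ ∀ p ∈ E, g p = p} = 16) ∧ ((¬ ∃ o ∈ Cfsg.octads, E ⊆ o) → Nat.card {g : Equiv.Perm Cfsg.GolayPt // g ∈ Cfsg.M24 ∧ ∀ p ∈ E, g p = p} = 3 ∧ Nat.card ↥(MulAction.stabilizer Cfsg.M24 E) = 2160) := by
  refine ⟨M24_six_perm hE, ?_, fun h => ?_⟩
  · rintro ⟨o, ho, h⟩
    obtain ⟨g, hg, e⟩ := M24_hexad_special hE ho h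
    rw [card_fixing_conj hg e, card_fix6]
  · obtain ⟨g, hg, e⟩ := M24_hexad_umbral hE h
    have h3 := (card_fixing_conj hg e).trans card_fix6'
    refine ⟨h3, ?_⟩
    have hs : Function.Surjective (restrHom M24 E) := fun σ => by
      obtain ⟨k, hk, e⟩ := M24_six_perm hE σ
      exact ⟨⟨⟨k, hk⟩, smul_finset_eq_of_forall fun p hp =>
        (show k p ∈ E from e ⟨p, hp⟩ ▸ (σ ⟨p, hp⟩).2)⟩, Equiv.ext fun p => Subtype.ext (e p)⟩
    have h4 : Nat.card (restrHom M24 E).ker = 3 := by
      rw [card_ker_restrHom, ← h3]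
      exact Nat.card_congr ⟨fun x => ⟨x.1.1, x.1.2, x.2⟩, fun x => ⟨⟨x.1, x.2.1⟩, x.2.2⟩,
        fun _ => rfl, fun _ => rfl⟩
    rw [Subgroup.card_eq_card_quotient_mul_card_subgroup (restrHom M24 E).ker, h4,
      Nat.card_congr (QuotientGroup.quotientKerEquivOfSurjective _ hs).toEquiv, Nat.card_perm,
      Nat.card_eq_fintype_card, Fintype.card_coe, hE]
    rfl

end Cfsg.Agent.S5600
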