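import Cfsg.Statements.S5601
import Cfsg.Agent.Spor.M24Elts

set_option autoImplicit false
open scoped Pointwise
open Cfsg

namespace Cfsg.Agent.S5601

open Cfsg.Lib.Spor Cfsg.Lib.Spor.MP

/-- The group of the length-24 code has exactly two conjugacy classes of subgroups of order 3: a subgroup of order 3 fixes either exactly 6 of the 24 points or none of them, both cases occur, and two subgroups of order 3 with the same number of fixed points are conjugate. -/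
theorem result : (∀ X : Subgroup ↥Cfsg.M24, Nat.card X = 3 → {p : Cfsg.GolayPt | ∀ x ∈ X, ((x : ↥Cfsg.M24) : Equiv.Perm Cfsg.GolayPt) p = p}.ncard = 6 ∨ {p : Cfsg.GolayPt | ∀ x ∈ X, ((x : ↥Cfsg.M24) : Equiv.Perm Cfsg.GolayPt) p = p}.ncard = 0) ∧ (∃ X : Subgroup ↥Cfsg.M24, Nat.card X = 3 ∧ {p : Cfsg.GolayPt | ∀ x ∈ X, ((x : ↥Cfsg.M24) : Equiv.Perm Cfsg.GolayPt) p = p}.ncard = 6) ∧ (∃ X : Subgroup ↥Cfsg.M24, Nat.card X = 3 ∧ {p : Cfsg.GolayPt | ∀ x ∈ X, ((x : ↥Cfsg.M24) : Equiv.Perm Cfsg.GolayPt) p = p}.ncard = 0) ∧ ∀ X Y : Subgroup ↥Cfsg.M24, Nat.card X = 3 → Nat.card Y = 3 → {p : Cfsg.GolayPt | ∀ x ∈ X, ((x : ↥Cfsg.M24) : Equiv.Perm Cfsg.GolayPt) p = p}.ncard = {p : Cfsg.GolayPt | ∀ x ∈ Y, ((x : ↥Cfsg.M24) : Equiv.Perm Cfsg.GolayPt) p = p}.ncard → ∃ k : ↥Cfsg.M24, MulAut.conj k • X = Y := by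
  have key : ∀ x : M24, {p : Cfsg.GolayPt | ∀ y ∈ Subgroup.zpowers x,
      ((y : ↥Cfsg.M24) : Equiv.Perm Cfsg.GolayPt) p = p}.ncard =
      (Finset.univ.filter fun p => x.1 p = p).card := by
    intro x
    rw [← Set.ncard_coe_finset]
    congr 1
    ext p
    simp only [Set.mem_ofPred_eq, Finset.coe_filter, Finset.mem_univ, true_and]
    refine ⟨fun h => h x (Subgroup.mem_zpowers x), fun h y hy => ?_⟩
    have : Subgroup.zpowers x ≤ MulAction.stabilizer M24 p := Subgroup.zpowers_le.2 h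
    exact this hy
  have gen : ∀ X : Subgroup M24, Nat.card X = 3 → ∃ x : M24, orderOf x.1 = 3 ∧
      Subgroup.zpowers x = X := by
    intro X hX
    have : Fact (Nat.Prime 3) := ⟨by norm_num⟩
    obtain ⟨x, hx⟩ := (Subgroup.isCyclic_iff_exists_zpowers_eq_top X).1 (isCyclic_of_prime_card hX)
    exact ⟨x, by rw [Subgroup.orderOf_coe, ← Nat.card_zpowers, hx, hX], hx⟩
  have cases : ∀ x : M24, orderOf x.1 = 3 →
      ((Finset.univ.filter fun p => x.1 p = p).card = 6 ∧ ∃ k ∈ M24, k * toPerm r3A * k⁻¹ = x) ∨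
      ((Finset.univ.filter fun p => x.1 p = p).card = 0 ∧ ∃ k ∈ M24, k * toPerm r3B * k⁻¹ = x) := by
    intro x hx
    obtain ⟨k, hk, e | e⟩ := M24_order_three x.2 hx
    · exact Or.inl ⟨by rw [← e, card_filter_fixed_conj, card_fixed_r3A], k, hk, e⟩
    · exact Or.inr ⟨by rw [← e, card_filter_fixed_conj, card_fixed_r3B], k, hk, e⟩
  have conj : ∀ (x y : M24) (r : Equiv.Perm GolayPt), (∃ k ∈ M24, k * r * k⁻¹ = x) →
      (∃ k ∈ M24, k * r * k⁻¹ = y) →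
      ∃ k : M24, MulAut.conj k • Subgroup.zpowers x = Subgroup.zpowers y := by
    rintro x y r ⟨k, hk, e⟩ ⟨l, hl, e'⟩
    refine ⟨⟨l * k⁻¹, M24.mul_mem hl (M24.inv_mem hk)⟩, ?_⟩
    refine (MonoidHom.map_zpowers (MulAut.conj _ : MulAut M24).toMonoidHom x).trans ?_
    congr 1
    apply Subtype.ext
    change l * k⁻¹ * x.1 * (l * k⁻¹)⁻¹ = y.1
    rw [← e, ← e']; group
  refine ⟨fun X hX => ?_, ⟨Subgroup.zpowers ⟨_, inSub_r3A.2⟩, ?_, ?_⟩,
    ⟨Subgroup.zpowers ⟨_, inSub_r3B.2⟩, ?_, ?_⟩, fun X Y hX hY e => ?_⟩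
  · obtain ⟨x, hx, rfl⟩ := gen X hX
    rw [key]
    exact (cases x hx).imp And.left And.left
  · rw [Nat.card_zpowers, ← Subgroup.orderOf_coe]; exact orderOf_r3A
  · rw [key]; exact card_fixed_r3A
  · rw [Nat.card_zpowers, ← Subgroup.orderOf_coe]; exact orderOf_r3B
  · rw [key]; exact card_fixed_r3B
  · obtain ⟨x, hx, rfl⟩ := gen X hX
    obtain ⟨y, hy, rfl⟩ := gen Y hY
    rw [key, key] at e
    rcases cases x hx with ⟨a, b⟩ | ⟨a, b⟩ <;> rcases cases y hy with ⟨c, d⟩ | ⟨c, d⟩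
    · exact conj x y _ b d
    · omega
    · omega
    · exact conj x y _ b d

end Cfsg.Agent.S5601
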