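import Cfsg.Statements.S5606
import Cfsg.Agent.Spor.GeoFixed

set_option autoImplicit false
open scoped Pointwise
open Cfsg

namespace Cfsg.Agent.S5606

open Cfsg.Lib.Spor Cfsg.Lib.Spor.Orb MulAction

/-- A fixed-point-free involution of the group of the length-24 code maps to themselves exactly 15 octads, exactly 75 trios and exactly 51 sextets. -/
theorem result (g : Equiv.Perm Cfsg.GolayPt) (hg : g ∈ Cfsg.M24) (h₂ : orderOf g = 2) (h₀ : ∀ p, g p ≠ p) : {o : Finset Cfsg.GolayPt | o ∈ Cfsg.octads ∧ g • o = o}.ncard = 15 ∧ {T : Finset (Finset Cfsg.GolayPt) | T ∈ Cfsg.trios ∧ g • T = T}.ncard = 75 ∧ {S : Finset (Finset Cfsg.GolayPt) | S ∈ Cfsg.sextets ∧ g • S = S}.ncard = 51 := by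
  have h0 : (Finset.univ.filter fun p => g p = p).card = 0 := by
    rw [Finset.card_eq_zero, Finset.filter_eq_empty_iff]; exact fun p _ => h₀ p
  have h := conj_rep_of_filter hg h₂ h0 (c := rep2B) (by decide +kernel)
  exact ⟨(ncard_fix_of_conj (fun u _ h => smul_mem_octads' u h) h).trans fix_oct_2B,
    (ncard_fix_of_conj (fun u _ h => smul_mem_trios' u h) h).trans fix_trio_2B,
    (ncard_fix_of_conj (fun u _ h => smul_mem_sextets' u h) h).trans fix_sext_2B⟩

end Cfsg.Agent.S5606
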