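import Cfsg.Statements.S5607
import Cfsg.Agent.Spor.M24Tools

set_option autoImplicit false
open scoped Pointwise
open Cfsg

namespace Cfsg.Agent.S5607

open Cfsg.Lib.Spor Cfsg.Lib.Spor.MP Cfsg.Lib.Spor.Orb

/-- For a fixed-point-free involution t of the group of the length-24 code: its centraliser in that group has order 7680, is transitive on the 24 points, and is contained, together with t, in the stabiliser of some sextet. -/
theorem result (t : Equiv.Perm Cfsg.GolayPt) (ht : t ∈ Cfsg.M24) (h₂ : orderOf t = 2) (h₀ : ∀ p, t p ≠ p) : Nat.card {c : Equiv.Perm Cfsg.GolayPt // c ∈ Cfsg.M24 ∧ c * t = t * c} = 7680 ∧ (∀ p q : Cfsg.GolayPt, ∃ c ∈ Cfsg.M24, c * t = t * c ∧ c p = q) ∧ ∃ S ∈ Cfsg.sextets, t • S = S ∧ ∀ c ∈ Cfsg.M24, c * t = t * c → c • S = S := by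
  obtain ⟨k, hk, rfl⟩ := M24_conj_2B ht h₂ h₀
  have key : ∀ c, c * (k * toPerm r2B * k⁻¹) = k * toPerm r2B * k⁻¹ * c ↔
      k⁻¹ * c * k ∈ Subgroup.centralizer {toPerm r2B} := fun c => by
    rw [Subgroup.mem_centralizer_singleton_iff]
    constructor
    · intro h
      calc k⁻¹ * c * k * toPerm r2B = k⁻¹ * (c * (k * toPerm r2B * k⁻¹)) * k := by group
        _ = _ := by rw [h]; group
    · intro h
      calc c * (k * toPerm r2B * k⁻¹) = k * (k⁻¹ * c * k * toPerm r2B) * k⁻¹ := by group
        _ = _ := by rw [h]; group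
  have hS : ∀ c ∈ M24, c * (k * toPerm r2B * k⁻¹) = k * toPerm r2B * k⁻¹ * c →
      c • k • fam 6 11238847842398891435193255983378563845865860 =
        k • fam 6 11238847842398891435193255983378563845865860 := fun c hc h => by
    have h1 : k⁻¹ * c * k ∈ pclosure cg2B :=
      cent2B.1 ▸ ⟨M24.mul_mem (M24.mul_mem (M24.inv_mem hk) hc) hk, (key c).1 h⟩
    have h2 := pclosure_le_stabilizer_fam (k := 6)
      (s := 11238847842398891435193255983378563845865860) (by decide +kernel) h1
    rwa [MulAction.mem_stabilizer_iff, mul_smul, mul_smul, inv_smul_eq_iff] at h2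
  refine ⟨?_, fun p q => ?_, _, smul_mem_sextets hk (mem_sextets_of (by decide +kernel)),
    hS _ ht rfl, hS⟩
  · refine Eq.trans ?_
      (isClassList_M24.card_cent_conj (r := (r2B, 2, 7680)) (by simp [reps24_eq]) hk rfl)
    exact Nat.card_congr (Equiv.subtypeEquivRight fun c => by
      rw [Subgroup.mem_inf, Subgroup.mem_centralizer_singleton_iff])
  · obtain ⟨c, hc, e⟩ := pk_trans cent2B.2 (S := 16777215) (by decide +kernel) (x := k⁻¹ p)
      (y := k⁻¹ q) (by simp [maskSet_full]) (by simp [maskSet_full])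
    exact ⟨k * c * k⁻¹, conj_mem_M24 hk ⟨c, hc.1⟩, (key _).2 (by simpa [mul_assoc] using hc.2),
      by rw [Equiv.Perm.mul_apply, Equiv.Perm.mul_apply, e]; simp⟩

end Cfsg.Agent.S5607
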