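import Cfsg.Statements.S5608
import Cfsg.Agent.Spor.M24Elts

set_option autoImplicit false
open scoped Pointwise
open Cfsg

namespace Cfsg.Agent.S5608

open Cfsg.Lib.Spor Cfsg.Lib.Spor.MP
open scoped Pointwise

/-- If an element of order 3 and an involution of the group of the length-24 code commute, then either the element of order 3 has exactly 6 fixed points and the involution exactly 8, or both are fixed-point-free. -/
theorem result (x s : Equiv.Perm Cfsg.GolayPt) (hx : x ∈ Cfsg.M24) (hs : s ∈ Cfsg.M24) (h₃ : orderOf x = 3) (h₂ : orderOf s = 2) (hc : Commute x s) : ((Finset.univ.filter fun p => x p = p).card = 6 ∧ (Finset.univ.filter fun p => s p = p).card = 8) ∨ ((Finset.univ.filter fun p => x p = p).card = 0 ∧ (Finset.univ.filter fun p => s p = p).card = 0) := by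
  have h6 : orderOf (x * s) = 6 := by
    rw [hc.orderOf_mul_eq_mul_orderOf_of_coprime (by rw [h₃, h₂]; norm_num), h₃, h₂]
  have x3 : x ^ 3 = 1 := h₃ ▸ pow_orderOf_eq_one x
  have s2 : s ^ 2 = 1 := h₂ ▸ pow_orderOf_eq_one s
  have e3 : (x * s) ^ 3 = s := by rw [hc.mul_pow, x3, one_mul, pow_succ, s2, one_mul]
  have e4 : (x * s) ^ 4 = x := by
    rw [hc.mul_pow, show 4 = 2 * 2 from rfl, pow_mul s, s2, one_pow, mul_one, pow_succ, x3, one_mul]
  have a : InSub M24 r6A := inSub_rep24 (r := (r6A, 6, 24)) (by simp [reps24_eq])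
  have b : InSub M24 r6B := inSub_rep24 (r := (r6B, 6, 24)) (by simp [reps24_eq])
  obtain ⟨k, -, e | e⟩ := M24_order_six (M24.mul_mem hx hs) h6
  · left
    rw [← e, conj_pow] at e3 e4
    rw [← e3, ← e4, card_filter_fixed_conj, card_filter_fixed_conj, (a.rep.pow 3).card_fixed,
      (a.rep.pow 4).card_fixed]
    decide +kernel
  · right
    rw [← e, conj_pow] at e3 e4
    rw [← e3, ← e4, card_filter_fixed_conj, card_filter_fixed_conj, (b.rep.pow 3).card_fixed,
      (b.rep.pow 4).card_fixed]
    decide +kernel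

end Cfsg.Agent.S5608
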