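import Cfsg.Statements.S5609
import Cfsg.Agent.Spor.GolayOrbit

set_option autoImplicit false
set_option linter.unusedVariables false
set_option maxRecDepth 100000
open scoped Pointwise
open Cfsg

namespace Cfsg.Agent.S5609

open Cfsg.Lib.Spor
open scoped Pointwise

/-- the octads disjoint from the base octad -/
def nb : List ℕ := [1613974, 2654580, 3154402, 3678776, 2130606, 1090380, 525274, 1573998, 42232, 3179802,
  2631052, 2106966, 3704512, 567074, 1050548, 2664522, 3147996, 10558, 1608104, 1084018, 535268, 3672838,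
  2141072, 3189796, 2624690, 1584464, 36294, 560668, 1060490, 2101096]

theorem tr {P : Finset GolayPt → Finset GolayPt → Prop}
    (h : ∀ σ ∈ M24, ∀ o o', P o o' → P (σ • o) (σ • o')) (h0 : ∀ o' ∈ golaySets, P (maskSet 13062145) o')
    {o o' : Finset GolayPt} (ho : o ∈ octads) (ho' : o' ∈ golaySets) : P o o' := by
  obtain ⟨σ, h1, rfl⟩ := exists_smul_base_octad ho
  simpa using h σ h1 _ _ (h0 _ (smul_mem_golaySets (inv_mem h1) ho'))

theorem mid (i j : ℕ) (hc : allLT 4096 (fun k => forceN (enc k) fun m => !(Nat.beq (popc m) 8 &&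
      Nat.beq (popc (Nat.land 13062145 m)) i) || nb.any fun x => Nat.beq (popc (Nat.land x m)) j) = true)
    {o o' : Finset GolayPt} (ho : o ∈ octads) (ho' : o' ∈ octads) (h : (o ∩ o').card = i) :
    ∃ x ∈ octads, (o ∩ x).card = 0 ∧ (x ∩ o').card = j := by
  refine tr (P := fun o o' => o'.card = 8 → (o ∩ o').card = i → ∃ x ∈ octads, (o ∩ x).card = 0 ∧
    (x ∩ o').card = j) (fun σ h1 o o' h2 h3 h4 => ?_) (forall_golaySets _ (fun m => forceN m fun m =>
      !(Nat.beq (popc m) 8 && Nat.beq (popc (Nat.land 13062145 m)) i) ||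
        nb.any fun x => Nat.beq (popc (Nat.land x m)) j) (fun m _ h1 h2 h3 => ?_) hc) ho ho'.1 ho'.2 h
  · rw [← perm_smul_finset_inter, card_perm_smul_finset] at h4
    obtain ⟨x, a, b, c⟩ := h2 (card_perm_smul_finset σ o' ▸ h3) h4
    exact ⟨σ • x, smul_mem_octads h1 a, by rwa [← perm_smul_finset_inter, card_perm_smul_finset],
      by rwa [← perm_smul_finset_inter, card_perm_smul_finset]⟩
  · rw [← maskSet_and, card_maskSet] at h3
    rw [card_maskSet] at h2
    simp only [forceN_eq, h2, Nat.land_eq, h3, Nat.beq_refl, Bool.and_self, Bool.not_true, Bool.false_or,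
      List.any_eq_true, Nat.beq_eq] at h1
    obtain ⟨x, a, b⟩ := h1
    have : isGolay x = true ∧ popc x = 8 ∧ popc (13062145 &&& x) = 0 := by
      clear b; revert x; decide +kernel
    exact ⟨maskSet x, mem_octads_iff.2 ⟨x, this.1, this.2.1, rfl⟩, by rw [← maskSet_and, card_maskSet, this.2.2],
      by rw [← maskSet_and, card_maskSet, b]⟩

theorem adj {a b : octads} : (blockGraph octads).Adj a b ↔ (a.1 ∩ b.1).card = 0 := by
  rw [blockGraph, SimpleGraph.fromRel_adj, disjoint_comm (a := b.1), or_self, Finset.card_eq_zero,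
    Finset.disjoint_iff_inter_eq_empty, and_iff_right_iff_imp]
  rintro h rfl
  have := a.2.2
  rw [Finset.inter_self] at h
  simp [h] at this

theorem no_mid {o o' x : Finset GolayPt} (ho : o ∈ octads) (ho' : o' ∈ octads) (hx : x ∈ octads)
    (h : (o ∩ o').card = 2) (h1 : (o ∩ x).card = 0) : (x ∩ o').card ≠ 0 := fun h2 => by
  have a := card_symmDiff_add o o'
  have b := card_symmDiff_add (symmDiff o o') x
  have c := card_of_mem_golaySets (symmDiff_mem_golaySets (symmDiff_mem_golaySets ho.1 ho'.1) hx.1)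
  have d : symmDiff o o' ∩ x = ∅ := by
    rw [Finset.card_eq_zero] at h1 h2
    refine Finset.eq_empty_of_forall_notMem fun p hp => ?_
    rw [Finset.mem_inter, Finset.mem_symmDiff] at hp
    rcases hp.1 with h | h
    · exact Finset.notMem_empty p (h1 ▸ Finset.mem_inter.2 ⟨h.1, hp.2⟩)
    · exact Finset.notMem_empty p (h2 ▸ Finset.mem_inter.2 ⟨hp.2, h.1⟩)
  rw [d, hx.2, Finset.card_empty] at b
  rw [ho.2, ho'.2] at a
  omega

theorem walk2 {a b : octads} (h : (a.1 ∩ b.1).card = 4) : ∃ p : (blockGraph octads).Walk a b, p.length = 2 := by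
  obtain ⟨x, h1, h2, h3⟩ := mid 4 0 (by decide +kernel) a.2 b.2 h
  exact ⟨.cons ((adj (b := ⟨x, h1⟩)).2 h2) (.cons (adj.2 h3) .nil), rfl⟩

theorem walk3 {a b : octads} (h : (a.1 ∩ b.1).card = 2) : ∃ p : (blockGraph octads).Walk a b, p.length = 3 := by
  obtain ⟨x, h1, h2, h3⟩ := mid 2 4 (by decide +kernel) a.2 b.2 h
  obtain ⟨p, hp⟩ := walk2 (a := ⟨x, h1⟩) h3
  exact ⟨.cons (adj.2 h2) p, congrArg (· + 1) hp⟩

/-- In the graph on the 759 octads of the length-24 code in which two octads are adjacent when they are disjoint, the graph is connected (of diameter 3) and two distinct octads are at distance 1, 2 or 3 exactly when they meet in 0, 4 or 2 points respectively. -/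
theorem result (o o' : Finset Cfsg.GolayPt) (ho : o ∈ Cfsg.octads) (ho' : o' ∈ Cfsg.octads) (hne : o ≠ o') : (Cfsg.blockGraph Cfsg.octads).Connected ∧ ((Cfsg.blockGraph Cfsg.octads).dist ⟨o, ho⟩ ⟨o', ho'⟩ = 1 ↔ (o ∩ o').card = 0) ∧ ((Cfsg.blockGraph Cfsg.octads).dist ⟨o, ho⟩ ⟨o', ho'⟩ = 2 ↔ (o ∩ o').card = 4) ∧ ((Cfsg.blockGraph Cfsg.octads).dist ⟨o, ho⟩ ⟨o', ho'⟩ = 3 ↔ (o ∩ o').card = 2) := by
  have hc : (blockGraph octads).Connected := (SimpleGraph.connected_iff _).2 ⟨fun a b => by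
    by_cases e : a = b
    · exact e ▸ .refl a
    rcases card_inter_octads a.2 b.2 (Subtype.coe_ne_coe.2 e) with h | h | h
    exacts [(adj.2 h).reachable, ⟨(walk3 h).choose⟩, ⟨(walk2 h).choose⟩], ⟨⟨o, ho⟩⟩⟩
  have h0 := hc.pos_dist_of_ne (u := ⟨o, ho⟩) (v := ⟨o', ho'⟩) (Subtype.coe_ne_coe.1 hne)
  have h1 : (blockGraph octads).dist ⟨o, ho⟩ ⟨o', ho'⟩ = 1 ↔ (o ∩ o').card = 0 :=
    SimpleGraph.dist_eq_one_iff_adj.trans adj
  have h2 : (o ∩ o').card = 4 → (blockGraph octads).dist ⟨o, ho⟩ ⟨o', ho'⟩ ≤ 2 := fun h =>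
    let ⟨p, hp⟩ := walk2 (a := ⟨o, ho⟩) (b := ⟨o', ho'⟩) h
    hp ▸ SimpleGraph.dist_le p
  have h3 : (o ∩ o').card = 2 → (blockGraph octads).dist ⟨o, ho⟩ ⟨o', ho'⟩ ≤ 3 ∧
      (blockGraph octads).dist ⟨o, ho⟩ ⟨o', ho'⟩ ≠ 2 := fun h => by
    obtain ⟨p, hp⟩ := walk3 (a := ⟨o, ho⟩) (b := ⟨o', ho'⟩) h
    refine ⟨hp ▸ SimpleGraph.dist_le p, fun e => ?_⟩
    obtain ⟨q, hq⟩ := hc.exists_walk_length_eq_dist ⟨o, ho⟩ ⟨o', ho'⟩
    rw [e] at hq
    have a := q.adj_getVert_succ (i := 0) (by omega)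
    have b : (blockGraph octads).Adj _ (q.getVert 2) := q.adj_getVert_succ (i := 1) (by omega)
    rw [q.getVert_zero] at a
    rw [show q.getVert 2 = _ from hq ▸ q.getVert_length] at b
    exact no_mid ho ho' (q.getVert 1).2 h (adj.1 a) (adj.1 b)
  have := card_inter_octads ho ho' hne
  refine ⟨hc, h1, ?_, ?_⟩ <;> omega

end Cfsg.Agent.S5609
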