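import Cfsg.Statements.S5614
import Cfsg.Agent.Spor.M24Graph
import Cfsg.Agent.Spor.GeoTrio

set_option autoImplicit false
open scoped Pointwise
open Cfsg

namespace Cfsg.Agent.S5614

open Cfsg.Lib.Spor Cfsg.Lib.Spor.Orb MulAction
open scoped Pointwise Matrix

def aP : List (ℕ × List ℕ) :=
  [(971108598345142154580673188456381632, [0, 3, 5, 4, 2, 1]),
   (735566462829157880342691717072374956, [1, 2, 4, 3, 0, 5])]

def aC : List Cfsg.Lib.Spor.PK.Cert :=
  [⟨1, [704, 641, 512, 833, 385, 320, 449, 576, 256], [[0, 0, 1, 1, 0, 1, 0], [0, 1, 0, 1, 0, 1]]⟩,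
   ⟨0, [1152, 768, 1024, 1409, 896], [[0, 0, 1, 0, 1, 0], [0, 0, 1, 0, 0]]⟩,
   ⟨2, [1345, 960, 1217, 1280, 193], [[0]]⟩,
   ⟨4, [704], []⟩]

def aD : List Cfsg.Lib.Spor.PK.Cert :=
  [⟨1, [320, 1, 128, 257, 192], [[1, 1, 0, 1, 0], [0, 0, 1]]⟩,
   ⟨0, [256, 128, 192, 321], [[0, 0, 0, 1, 1, 0, 0], [0, 0, 1, 0]]⟩,
   ⟨2, [192, 320, 257], [[0, 0, 1, 1, 0], [1]]⟩,
   ⟨3, [320, 257], [[0, 1]]⟩,
   ⟨4, [320], []⟩]

theorem a_chk : homChk 10 7 6 aP aC aD = true := by decide +kernel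

theorem base : Nonempty (↥(stabilizer Cfsg.M24 (maskSet 13062145) ⊓ stabilizer Cfsg.M24 (maskSet 12222476)) ≃*
    Equiv.Perm (Fin 6)) := by
  have h1 := (rank_oct_oct oct0_mem).card_mul (y := maskSet 12222476) (i := 3)
    (mem_octads_of (by decide +kernel)) (by rw [card_inter_maskSet]; decide +kernel)
  rw [card_stab_octad oct0_mem] at h1
  have h2 : Nat.card ↥(stabilizer Cfsg.M24 (maskSet 13062145) ⊓ stabilizer Cfsg.M24 (maskSet 12222476)) = 720 := by
    simp only [Matrix.cons_val] at h1; omega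
  have h3 : ∀ p ∈ aP, fixSet p.1 13062145 = true ∧ fixSet p.1 12222476 = true := by decide +kernel
  obtain ⟨φ, h4, -⟩ := exists_hom_of_gens (PK.ptsOk_fin 6)
    (fun p hp => exists_actL_fin (by revert p; decide +kernel)) a_chk
    (H := stabilizer Cfsg.M24 (maskSet 13062145) ⊓ stabilizer Cfsg.M24 (maskSet 12222476))
    (fun p hp h => ⟨smul_of_fixSet h (h3 p hp).1, smul_of_fixSet h (h3 p hp).2⟩) h2.le
  have h5 : Nat.card (Equiv.Perm (Fin 6)) = 720 := by rw [Nat.card_perm, Nat.card_fin]; rfl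
  exact ⟨MulEquiv.ofBijective φ ((Nat.bijective_iff_surjective_and_card φ).2
    ⟨surjective_of_card_le φ (h5 ▸ h4), h2.trans h5.symm⟩)⟩


/-- In the group of the length-24 code, the joint stabiliser of two octads meeting in exactly two points is isomorphic to the symmetric group of degree 6. -/
theorem result (o o' : Finset Cfsg.GolayPt) (ho : o ∈ Cfsg.octads) (ho' : o' ∈ Cfsg.octads) (h₂ : (o ∩ o').card = 2) : Nonempty (↥(MulAction.stabilizer Cfsg.M24 o ⊓ MulAction.stabilizer Cfsg.M24 o') ≃* Equiv.Perm (Fin 6)) := by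
  obtain ⟨g, hg⟩ := trans_oct_pair oct0_mem (mem_octads_of (m := 12222476) (by decide +kernel)) ho ho'
    (by rw [h₂, card_inter_maskSet]; decide +kernel)
  obtain ⟨e⟩ := nonempty_stab_equiv (a := (maskSet 13062145, maskSet 12222476)) (b := (o, o'))
    ⟨g, Prod.ext hg.1 hg.2⟩
    (H := stabilizer Cfsg.M24 (maskSet 13062145) ⊓ stabilizer Cfsg.M24 (maskSet 12222476))
    (K := stabilizer Cfsg.M24 o ⊓ stabilizer Cfsg.M24 o')
    (fun _ => by rw [Prod.ext_iff]; rfl) (fun _ => by rw [Prod.ext_iff]; rfl)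
  obtain ⟨e'⟩ := base
  exact ⟨e.trans e'⟩

end Cfsg.Agent.S5614
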