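import Cfsg.Statements.S5615
import Cfsg.Agent.Spor.OctadStab
import Cfsg.Agent.Spor.GeoTrio

set_option autoImplicit false
open scoped Pointwise
open Cfsg

namespace Cfsg.Agent.S5615

open Cfsg.Lib.Spor Cfsg.Lib.Spor.Orb MulAction
open scoped Pointwise

theorem smul_flag (g : Cfsg.M24) {o : Finset Cfsg.GolayPt} {T : Finset (Finset Cfsg.GolayPt)}
    (h : T ∈ Cfsg.trios ∧ o ∈ T) : g • T ∈ Cfsg.trios ∧ g • o ∈ g • T :=
  ⟨smul_mem_trios' g h.1, Finset.smul_mem_smul_finset h.2⟩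

theorem o0_mem : maskSet 13062145 ∈ fam 3 trio0 := mem_fam.2 ⟨2, by norm_num, by decide +kernel⟩

theorem trans_flag {o : Finset Cfsg.GolayPt} (ho : o ∈ Cfsg.octads)
    {T : Finset (Finset Cfsg.GolayPt)} (h : T ∈ Cfsg.trios ∧ o ∈ T) :
    ∃ g : Cfsg.M24, g • (maskSet 13062145, fam 3 trio0) = (o, T) := by
  obtain ⟨u, rfl⟩ := trans_octads oct0_mem ho
  have h1 := smul_flag u⁻¹ h
  rw [inv_smul_smul] at h1
  obtain ⟨g, hg, e⟩ := trans_of_lower (H := stabilizer Cfsg.M24 (maskSet 13062145))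
    (A := {T | T ∈ Cfsg.trios ∧ maskSet 13062145 ∈ T}) (Set.toFinite _)
    (fun g hg y hy => by
      have := smul_flag g hy
      rwa [mem_stabilizer_iff.1 hg] at this) ⟨trio0_mem, o0_mem⟩
    (by
      rw [ncard_trios_mem oct0_mem]
      exact le_trans (by decide +kernel) (le_orbit_fam gOct_spec (dOctTrio 0).2.1 (dOctTrio 0).2.2.1
        (dOctTrio 0).2.2.2 (famOk_of_isTrio isTrio_trio0))) h1
  exact ⟨u * g, Prod.ext (by rw [Prod.smul_fst, mul_smul, mem_stabilizer_iff.1 hg])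
    (by rw [Prod.smul_snd, mul_smul, e, smul_inv_smul])⟩

def gF : List ℕ :=
  [605524539977205811230380093011537335, 973769082555452048145885098984053056, 736144058358701140271552359811980782, 611703953542800999277400281494620588, 520013926544863959694496750434814382, 581840475045937254212441819560708374, 688234426841285578138673248779414956, 664711945814518283841873085949517490]

def dF : ℕ × ℕ × ℕ × ℕ := (3676667021385831321030, 85, 0x26771df48d8, 14)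

def trioS : ℕ := 2402701777519073634240

theorem gF_spec : ∀ g ∈ gF, pkM24 g = true ∧
    m24 g ∈ stabilizer Cfsg.M24 (maskSet 13062145, fam 3 trio0) :=
  gens_mem (chk := fun g => fixSet g 13062145 && fixFam g 3 trio0) (by decide +kernel)
    fun g h h1 => by
      rw [Bool.and_eq_true] at h1
      exact Prod.ext (smul_of_fixSet h h1.1) (smul_of_fixFam h h1.2)

theorem trio1_mem : fam 3 dF.1 ∈ Cfsg.trios := mem_trios_of (by decide +kernel)

theorem o0_mem1 : maskSet 13062145 ∈ fam 3 dF.1 := mem_fam.2 ⟨2, by norm_num, by decide +kernel⟩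

theorem trio1_ne : fam 3 dF.1 ≠ fam 3 trio0 := fun h => by
  have h1 := congrArg (hist (fam 3 trio0)) h
  rw [hist_eq (by decide +kernel) (by decide +kernel),
    hist_eq (by decide +kernel) (by decide +kernel)] at h1
  revert h1
  decide +kernel

theorem trans_flag2 {o : Finset Cfsg.GolayPt} (ho : o ∈ Cfsg.octads)
    {T T' : Finset (Finset Cfsg.GolayPt)} (h : T ∈ Cfsg.trios ∧ o ∈ T)
    (h' : T' ∈ Cfsg.trios ∧ o ∈ T') (hne : T ≠ T') :
    ∃ g : Cfsg.M24, g • ((maskSet 13062145, fam 3 trio0), fam 3 dF.1) = ((o, T), T') := by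
  obtain ⟨u, hu⟩ := trans_flag ho h
  have hu1 : u • maskSet 13062145 = o := congrArg Prod.fst hu
  have hu2 : u • fam 3 trio0 = T := congrArg Prod.snd hu
  have h1 := smul_flag u⁻¹ h'
  rw [← hu1, inv_smul_smul] at h1
  obtain ⟨g, hg, e⟩ := trans_of_lower (H := stabilizer Cfsg.M24 (maskSet 13062145, fam 3 trio0))
    (A := {T | T ∈ Cfsg.trios ∧ maskSet 13062145 ∈ T} \ {fam 3 trio0}) (Set.toFinite _)
    (fun g hg y hy => by
      have a1 : g • maskSet 13062145 = maskSet 13062145 := congrArg Prod.fst hg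
      have a2 : g • fam 3 trio0 = fam 3 trio0 := congrArg Prod.snd hg
      have := smul_flag g hy.1
      rw [a1] at this
      exact ⟨this, fun e => hy.2 (MulAction.injective g (e.trans a2.symm))⟩)
    ⟨⟨trio1_mem, o0_mem1⟩, trio1_ne⟩
    (by
      rw [Set.ncard_sdiff_singleton_of_mem (by exact ⟨trio0_mem, o0_mem⟩), ncard_trios_mem oct0_mem]
      exact le_trans (by decide +kernel) (le_orbit_fam gF_spec dF.2.1 dF.2.2.1 dF.2.2.2
        (by decide +kernel)))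
    ⟨h1, fun e => hne (by rw [← hu2, ← (Set.mem_singleton_iff.1 e), smul_inv_smul])⟩
  exact ⟨u * g, Prod.ext (by rw [Prod.smul_fst, mul_smul, mem_stabilizer_iff.1 hg, hu])
    (by rw [Prod.smul_snd, mul_smul, e, smul_inv_smul])⟩

theorem fix_of_ptStab {o : Finset Cfsg.GolayPt} (ho : o ∈ Cfsg.octads)
    {T : Finset (Finset Cfsg.GolayPt)} (h : T ∈ Cfsg.trios ∧ o ∈ T) {g : Cfsg.M24}
    (hg : g ∈ ptStab o) : g • T = T := by
  have h0 : fam 3 trioS ∈ Cfsg.trios ∧ maskSet 8536111 ∈ fam 3 trioS :=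
    ⟨mem_trios_of (by decide +kernel), mem_fam.2 ⟨2, by norm_num, by decide +kernel⟩⟩
  obtain ⟨u, hu⟩ := trans_flag ho h
  obtain ⟨v, hv⟩ := trans_flag MP.stdOctad_mem h0
  have e : (v * u⁻¹) • (o, T) = (maskSet 8536111, fam 3 trioS) := by
    rw [mul_smul, ← hu, inv_smul_smul, hv]
  have e1 : (v * u⁻¹) • o = maskSet 8536111 := congrArg Prod.fst e
  have e2 : (v * u⁻¹) • T = fam 3 trioS := congrArg Prod.snd e
  rw [← conj_smul_iff (v * u⁻¹), e2]
  rw [conj_mem_ptStab (v * u⁻¹), e1] at hg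
  exact forall_of_chain chain_cE (P := fun g => g • fam 3 trioS = fam 3 trioS)
    (leaf := fun c => fixFam c 3 trioS) (fun c hc h => smul_of_fixFam hc h)
    (by decide +kernel) _ hg

theorem two_trans {o : Finset Cfsg.GolayPt} (ho : o ∈ Cfsg.octads)
    {T₁ T₂ T₁' T₂' : Finset (Finset Cfsg.GolayPt)} (h₁ : T₁ ∈ Cfsg.trios ∧ o ∈ T₁)
    (h₂ : T₂ ∈ Cfsg.trios ∧ o ∈ T₂) (h₁' : T₁' ∈ Cfsg.trios ∧ o ∈ T₁')
    (h₂' : T₂' ∈ Cfsg.trios ∧ o ∈ T₂') (hne : T₁ ≠ T₂) (hne' : T₁' ≠ T₂') :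
    ∃ g : Cfsg.M24, g • o = o ∧ g • T₁ = T₁' ∧ g • T₂ = T₂' := by
  obtain ⟨u, hu⟩ := trans_flag2 ho h₁ h₂ hne
  obtain ⟨v, hv⟩ := trans_flag2 ho h₁' h₂' hne'
  have e : (v * u⁻¹) • ((o, T₁), T₂) = ((o, T₁'), T₂') := by
    rw [mul_smul, ← hu, inv_smul_smul, hv]
  exact ⟨v * u⁻¹, congrArg (·.1.1) e, congrArg (·.1.2) e, congrArg (·.2) e⟩

def ker (o : Finset Cfsg.GolayPt) : Subgroup (stabilizer Cfsg.M24 o) where
  carrier := {g | ∀ T ∈ Cfsg.trios, o ∈ T → g.1 • T = T}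
  one_mem' _ _ _ := one_smul _ _
  mul_mem' ha hb T h1 h2 := by rw [Subgroup.coe_mul, mul_smul, hb T h1 h2, ha T h1 h2]
  inv_mem' ha T h1 h2 := by rw [Subgroup.coe_inv, inv_smul_eq_iff, ha T h1 h2]

theorem ker_normal (o : Finset Cfsg.GolayPt) : (ker o).Normal := ⟨fun n hn g T h1 h2 => by
  have := smul_flag (g⁻¹).1 ⟨h1, h2⟩
  rw [mem_stabilizer_iff.1 (g⁻¹).2] at this
  rw [Subgroup.coe_mul, Subgroup.coe_mul, mul_smul, mul_smul, hn _ this.1 this.2, ← mul_smul,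
    ← Subgroup.coe_mul, mul_inv_cancel, Subgroup.coe_one, one_smul]⟩

/-- An octad of the length-24 code lies in exactly 15 trios; the stabiliser of the octad in the code's group acts doubly transitively on these 15 trios, and the kernel of this action is the pointwise stabiliser of the octad. -/
theorem result (o : Finset Cfsg.GolayPt) (ho : o ∈ Cfsg.octads) : {T : Finset (Finset Cfsg.GolayPt) | T ∈ Cfsg.trios ∧ o ∈ T}.ncard = 15 ∧ (∀ T₁ T₂ T₁' T₂' : Finset (Finset Cfsg.GolayPt), T₁ ∈ Cfsg.trios → T₂ ∈ Cfsg.trios → T₁' ∈ Cfsg.trios → T₂' ∈ Cfsg.trios → o ∈ T₁ → o ∈ T₂ → o ∈ T₁' → o ∈ T₂' → T₁ ≠ T₂ → T₁' ≠ T₂' → ∃ g ∈ Cfsg.M24, g • o = o ∧ g • T₁ = T₁' ∧ g • T₂ = T₂') ∧ ∀ g ∈ Cfsg.M24, g • o = o → ((∀ T ∈ Cfsg.trios, o ∈ T → g • T = T) ↔ ∀ p ∈ o, g p = p) := by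
  refine ⟨ncard_trios_mem ho, fun T₁ T₂ T₁' T₂' a b c d a' b' c' d' e e' => ?_,
    fun g hg hgo => ⟨fun h => ?_, fun h T h1 h2 =>
      fix_of_ptStab (g := ⟨g, hg⟩) ho ⟨h1, h2⟩ (mem_ptStab.2 h)⟩⟩
  · obtain ⟨g, hg⟩ := two_trans ho ⟨a, a'⟩ ⟨b, b'⟩ ⟨c, c'⟩ ⟨d, d'⟩ e e'
    exact ⟨g.1, g.2, hg⟩
  · have : IsSimpleGroup (setHom Cfsg.M24 o).range := by
      rw [range_setHom_octad ho]
      exact alternatingGroup.isSimpleGroup (by
        rw [Nat.card_eq_finsetCard, (mem_octads_iff'.1 ho).2]; norm_num)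
    have hs := (setHom Cfsg.M24 o).rangeRestrict_surjective
    rcases ((ker_normal o).map _ hs).eq_bot_or_eq_top with h1 | h1
    · have h2 : (⟨⟨g, hg⟩, hgo⟩ : stabilizer Cfsg.M24 o) ∈ ker o := h
      have h3 := (Subgroup.map_eq_bot_iff _).1 h1 h2
      rw [MonoidHom.ker_rangeRestrict] at h3
      exact mem_ker_setHom.1 h3
    · exfalso
      obtain ⟨T₁, T₂, a, b, c⟩ := (Set.one_lt_ncard_iff (Set.toFinite _)).1
        (show 1 < {T | T ∈ Cfsg.trios ∧ o ∈ T}.ncard by rw [ncard_trios_mem ho]; norm_num)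
      obtain ⟨x, x1, x2, -⟩ := two_trans ho a b b a c c.symm
      obtain ⟨k, hk, e⟩ := (Subgroup.eq_top_iff' _).1 h1
        ((setHom Cfsg.M24 o).rangeRestrict ⟨x, x1⟩)
      have h3 : k⁻¹ * ⟨x, x1⟩ ∈ (setHom Cfsg.M24 o).ker := by
        rw [← MonoidHom.ker_rangeRestrict, MonoidHom.mem_ker, map_mul, map_inv, e, inv_mul_cancel]
      have h4 := fix_of_ptStab ho a (mem_ptStab.2 (mem_ker_setHom.1 h3))
      rw [Subgroup.coe_mul, mul_smul, x2, (ker o).inv_mem hk _ b.1 b.2] at h4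
      exact c h4.symm

end Cfsg.Agent.S5615
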