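import Cfsg.Statements.S5618
import Cfsg.Agent.Spor.M24Dod

set_option autoImplicit false
open scoped Pointwise
open Cfsg

namespace Cfsg.Agent.S5618

open Cfsg.Lib.Spor Cfsg.Lib.Spor.MP

/-- For a dodecad d of the length-24 code and a hexad C on it (a 6-point intersection of d with an octad): the joint stabiliser of d and C in the code's group is isomorphic to the symmetric group of degree 6, and it acts faithfully both on the six points of C and on the six points of d outside C. -/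
theorem result (d : Finset Cfsg.GolayPt) (hd : d ∈ Cfsg.dodecads) (C : Finset Cfsg.GolayPt) (hC : C ∈ Cfsg.hexadsOn d) : Nonempty (↥(MulAction.stabilizer Cfsg.M24 d ⊓ MulAction.stabilizer Cfsg.M24 C) ≃* Equiv.Perm (Fin 6)) ∧ (∀ g ∈ MulAction.stabilizer Cfsg.M24 d ⊓ MulAction.stabilizer Cfsg.M24 C, (∀ p ∈ C, ((g : ↥Cfsg.M24) : Equiv.Perm Cfsg.GolayPt) p = p) → g = 1) ∧ ∀ g ∈ MulAction.stabilizer Cfsg.M24 d ⊓ MulAction.stabilizer Cfsg.M24 C, (∀ p ∈ d \ C, ((g : ↥Cfsg.M24) : Equiv.Perm Cfsg.GolayPt) p = p) → g = 1 := by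
  obtain ⟨h6, o, ho, hoC⟩ := hC
  have hCd : C ⊆ d := hoC ▸ Finset.inter_subset_right
  have hCo : C ⊆ o := hoC ▸ Finset.inter_subset_left
  have f1 : ∀ g ∈ MulAction.stabilizer Cfsg.M24 d ⊓ MulAction.stabilizer Cfsg.M24 C,
      (∀ p ∈ C, ((g : ↥Cfsg.M24) : Equiv.Perm Cfsg.GolayPt) p = p) → g = 1 := fun g hg h =>
    Subtype.ext (eq_one_of_fix_dodecad hd hCd (by omega) g.2 hg.1 h)
  refine ⟨?_, f1, fun g hg h => Subtype.ext (eq_one_of_fix_dodecad hd Finset.sdiff_subset
    (by rw [Finset.card_sdiff_of_subset hCd, hd.2, h6]; norm_num) g.2 hg.1 h)⟩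
  let φ := (restrHom M24 C).comp (Subgroup.inclusion
    (inf_le_right : MulAction.stabilizer Cfsg.M24 d ⊓ MulAction.stabilizer Cfsg.M24 C ≤ _))
  let u : Fin 6 ≃ C := (Finset.equivFinOfCardEq h6).symm
  have hφ : Function.Bijective φ := by
    refine ⟨(injective_iff_map_eq_one φ).2 fun g hg => Subtype.ext (f1 g g.2
      ((mem_ker_restrHom C _).1 hg)), fun σ => ?_⟩
    obtain ⟨g, hg, e1, e2⟩ := M24_trans_dodecad_emb (n := 5) le_rfl hd hd
      (Fin.castSuccEmb.trans (u.toEmbedding.trans (.subtype _)))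
      (Fin.castSuccEmb.trans ((u.trans σ).toEmbedding.trans (.subtype _)))
      (fun i => hCd (u _).2) (fun i => hCd (σ (u _)).2)
    have e3 : ∀ i : Fin 5, g (u i.castSucc) = σ (u i.castSucc) := e2
    have e4 : g • o = o := octad_eq_of_five_le (smul_mem_octads hg ho) ho
      (s := Finset.univ.map (Fin.castSuccEmb.trans ((u.trans σ).toEmbedding.trans (.subtype _))))
      (by simp) (fun p hp => by
        obtain ⟨i, -, rfl⟩ := Finset.mem_map.1 hp
        exact (show (σ (u i.castSucc) : GolayPt) ∈ g • o from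
          e3 i ▸ apply_mem_perm_smul_finset.2 (hCo (u _).2))) (fun p hp => by
        obtain ⟨i, -, rfl⟩ := Finset.mem_map.1 hp
        exact hCo (σ (u _)).2)
    have e5 : g • C = C := by rw [← hoC, perm_smul_finset_inter, e1, e4]
    refine ⟨⟨⟨g, hg⟩, e1, e5⟩, ?_⟩
    generalize hτ : φ ⟨⟨g, hg⟩, e1, e5⟩ = τ
    have e6 : ∀ i : Fin 5, τ (u i.castSucc) = σ (u i.castSucc) := fun i =>
      Subtype.ext (hτ ▸ e3 i)
    ext1 p
    obtain ⟨i, rfl⟩ := u.surjective p
    refine Fin.lastCases ?_ e6 i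
    obtain ⟨j, hj⟩ := (u.trans σ).surjective (τ (u (Fin.last 5)))
    refine Fin.lastCases (motive := fun j => (u.trans σ) j = τ (u (Fin.last 5)) → _)
      (fun h => h.symm) (fun j h => ?_) j hj
    exact absurd (u.injective (τ.injective ((e6 j).trans h))) (Fin.castSucc_ne_last j)
  exact ⟨(MulEquiv.ofBijective φ hφ).trans u.symm.permCongrHom⟩

end Cfsg.Agent.S5618
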