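import Cfsg.Statements.S5619
import Cfsg.Agent.Spor.M24Iso

set_option autoImplicit false
open scoped Pointwise
open Cfsg

namespace Cfsg.Agent.S5619

open Cfsg.Lib.Spor Cfsg.Lib.Spor.MP

theorem aux {G : Type*} [Group G] (e : G ≃* M9) :
    (∀ Q : Sylow 3 G, (Q : Subgroup G).Normal ∧ Nat.card Q = 9 ∧ ∀ x ∈ (Q : Subgroup G), x ^ 3 = 1) ∧
      ∀ P : Sylow 2 G, Nonempty (P ≃* QuaternionGroup 2) := by
  have : Finite G := Finite.of_equiv _ e.toEquiv.symm
  have hG : Nat.card G = 72 := (Nat.card_congr e.toEquiv).trans card_M9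
  have : Fact (Nat.Prime 3) := ⟨by norm_num⟩
  have f3 : (72 : ℕ).factorization 3 = 2 := by
    rw [Nat.factorization_def _ (by norm_num)]; decide +kernel
  have f2 : (72 : ℕ).factorization 2 = 3 := by
    rw [Nat.factorization_def _ (by norm_num)]; decide +kernel
  have pw : ∀ (x : G) (n : ℕ), x ^ n = 1 ↔ ppow (pack (e x).1) n = pid := fun x n => by
    rw [← (rep_pack _).pow_eq_one_iff, ← e.map_eq_one_iff, map_pow, ← Subtype.coe_inj]; rfl
  refine ⟨fun Q => ?_, fun P => ?_⟩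
  · have h9 : Nat.card Q = 9 := by rw [Q.card_eq_multiplicity, hG, f3]; rfl
    have h3 : ∀ x ∈ (Q : Subgroup G), x ^ 3 = 1 := fun x hx => by
      have a : x ^ 9 = 1 := by
        have := pow_card_eq_one' (x := (⟨x, hx⟩ : (Q : Subgroup G)))
        rw [h9] at this
        exact congrArg Subtype.val this
      have b := chain_M9.forall (leaf := fun t => !Nat.beq (ppow t 9) pid || Nat.beq (ppow t 3) pid)
        (by decide +kernel) _ (e x).2
      rw [(pw x 9).1 a] at b
      exact (pw x 3).2 (by simpa using b)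
    have hc : {x : G | x ^ 3 = 1}.ncard = 9 := by
      have := chain_M9.srchCnt (P := fun g => g ^ 3 = 1) (prSound_false _ _)
        (leaf := fun t => Nat.beq (ppow t 3) pid)
        (fun g => by rw [Nat.beq_eq, (rep_pack g).pow_eq_one_iff])
      rw [show srchCnt (fun _ _ _ _ => false) (fun t => Nat.beq (ppow t 3) pid) (c12.drop 3) [] pid
        = 9 by decide +kernel] at this
      rw [← this]
      refine Set.ncard_congr (fun x _ => (e x).1) (fun x hx => ⟨(e x).2, ?_⟩)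
        (fun x y _ _ h => e.injective (Subtype.ext h)) fun y hy => ⟨e.symm ⟨y, hy.1⟩, ?_, by simp⟩
      · exact ((rep_pack _).pow_eq_one_iff 3).2 ((pw x 3).1 hx)
      · exact (pw _ 3).2 (((rep_pack _).pow_eq_one_iff 3).1 (by simpa using hy.2))
    have he : (Q : Set G) = {x : G | x ^ 3 = 1} :=
      Set.eq_of_subset_of_ncard_le h3 (by rw [hc, ← h9]; rfl)
    refine ⟨⟨fun x hx k => ?_⟩, h9, h3⟩
    have : k * x * k⁻¹ ∈ {x : G | x ^ 3 = 1} := by
      change (k * x * k⁻¹) ^ 3 = 1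
      rw [conj_pow, h3 x hx]; simp
    rwa [← he] at this
  · obtain ⟨f⟩ := M8_equiv
    let f' : ((M8.subgroupOf M9).map e.symm.toMonoidHom) ≃* M8 :=
      (e.symm.subgroupMap _).symm.trans (Subgroup.subgroupOfEquivOfLe inf_le_left)
    have h8 : Nat.card ((M8.subgroupOf M9).map e.symm.toMonoidHom) =
        2 ^ (Nat.card G).factorization 2 := by
      rw [Nat.card_congr f'.toEquiv, card_M8, hG, f2]; rfl
    exact ⟨((P.equiv (Sylow.ofCard _ h8)).trans f').trans f⟩

/-- In the group of the length-24 code, the subgroup fixing a dodecad setwise and three of its points individually (a group of order 72) has a normal Sylow 3-subgroup that is elementary abelian of order 9, and its Sylow 2-subgroups are quaternion of order 8. -/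
theorem result (d : Finset Cfsg.GolayPt) (hd : d ∈ Cfsg.dodecads) (p q r : Cfsg.GolayPt) (hp : p ∈ d) (hq : q ∈ d) (hr : r ∈ d) (hpq : p ≠ q) (hpr : p ≠ r) (hqr : q ≠ r) : (∀ Q : Sylow 3 ↥(MulAction.stabilizer Cfsg.M24 d ⊓ MulAction.stabilizer Cfsg.M24 p ⊓ MulAction.stabilizer Cfsg.M24 q ⊓ MulAction.stabilizer Cfsg.M24 r), (Q : Subgroup ↥(MulAction.stabilizer Cfsg.M24 d ⊓ MulAction.stabilizer Cfsg.M24 p ⊓ MulAction.stabilizer Cfsg.M24 q ⊓ MulAction.stabilizer Cfsg.M24 r)).Normal ∧ Nat.card ↥Q = 9 ∧ ∀ x ∈ (Q : Subgroup ↥(MulAction.stabilizer Cfsg.M24 d ⊓ MulAction.stabilizer Cfsg.M24 p ⊓ MulAction.stabilizer Cfsg.M24 q ⊓ MulAction.stabilizer Cfsg.M24 r)), x ^ 3 = 1) ∧ ∀ P : Sylow 2 ↥(MulAction.stabilizer Cfsg.M24 d ⊓ MulAction.stabilizer Cfsg.M24 p ⊓ MulAction.stabilizer Cfsg.M24 q ⊓ MulAction.stabilizer Cfsg.M24 r), Nonempty (↥P ≃* QuaternionGroup 2) := by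
  obtain ⟨g, hg, -, key⟩ := exists_conj_M9 hd hp hq hr hpq hpr hqr
  exact aux (equivOfConj _ _ M9_le hg key)

end Cfsg.Agent.S5619
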