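import Cfsg.Statements.S5620
import Cfsg.Agent.Spor.M24Dod

set_option autoImplicit false
open scoped Pointwise
open Cfsg

namespace Cfsg.Agent.S5620

open Cfsg.Lib.Spor Cfsg.Lib.Spor.MP

/-- Inside the stabiliser of the dodecad of squares (a Mathieu group of degree 12), the stabiliser of the residue 0 (a point of the dodecad) and the stabiliser of the extra point (a point outside the dodecad) are isomorphic but not conjugate; conjugation by a suitable element of the code's group that maps the dodecad of squares onto its complement carries the first onto the second. -/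
theorem result : Nonempty (↥(Cfsg.Spor.M12 ⊓ MulAction.stabilizer (Equiv.Perm Cfsg.GolayPt) (none : Cfsg.GolayPt)) ≃* ↥Cfsg.Spor.M11) ∧ (¬ ∃ k ∈ Cfsg.Spor.M12, MulAut.conj k • Cfsg.Spor.M11 = Cfsg.Spor.M12 ⊓ MulAction.stabilizer (Equiv.Perm Cfsg.GolayPt) (none : Cfsg.GolayPt)) ∧ ∃ g ∈ Cfsg.M24, g • Cfsg.Spor.squareDodecad = Finset.univ \ Cfsg.Spor.squareDodecad ∧ MulAut.conj g • Cfsg.Spor.M11 = Cfsg.Spor.M12 ⊓ MulAction.stabilizer (Equiv.Perm Cfsg.GolayPt) (none : Cfsg.GolayPt) := by
  obtain ⟨g, hg, h1, h2⟩ := M24_trans_dodecad_point squareDodecad_mem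
    (compl_mem_dodecads squareDodecad_mem) zero_mem_squareDodecad (p' := none)
    (by rw [squareDodecad_eq]; decide)
  have key : ∀ x, x ∈ Spor.M11 ↔ g * x * g⁻¹ ∈ Spor.M12 ⊓
      MulAction.stabilizer (Equiv.Perm GolayPt) (none : GolayPt) := by
    intro x
    rw [mem_M11, Subgroup.mem_inf, mem_M12, ← conj_apply_eq_iff g x h2, ← conj_smul_eq_iff g x h1,
      perm_smul_finset_compl, compl_inj_iff, M24.mul_mem_cancel_right (M24.inv_mem hg),
      M24.mul_mem_cancel_left hg, and_assoc]
    rfl
  refine ⟨⟨(equivOfConj' _ _ g key).symm⟩, ?_, g, hg, h1, ?_⟩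
  · rintro ⟨k, hk, e⟩
    have a : InSub Spor.M12 973987497407588051104753516077811080 := inSub_M12 (by decide +kernel)
    have b : toPerm 973987497407588051104753516077811080 ∈ MulAut.conj k • Spor.M11 :=
      e ▸ ⟨a.2, a.rep.apply_idxPt (i := 23) (by norm_num)⟩
    obtain ⟨x, hx, e'⟩ := b
    have c : toPerm 973987497407588051104753516077811080 (k (some 0)) = k (some 0) := by
      rw [← e']
      exact (conj_apply_eq_iff k x rfl).2 (mem_M11.1 hx).2.2
    have d : k (some 0) ∈ Spor.squareDodecad :=
      (mem_M12.1 hk).2 ▸ apply_mem_perm_smul_finset.2 zero_mem_squareDodecad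
    have f : k (some 0) ∈ maskSet 340831 ∩ maskSet (fixM 973987497407588051104753516077811080) := by
      rw [← a.rep.filter_fixed, ← squareDodecad_eq]
      simp [c, d]
    rw [← maskSet_and, show 340831 &&& fixM 973987497407588051104753516077811080 = 0 by
      decide +kernel, maskSet_zero] at f
    simp at f
  · ext x
    rw [Subgroup.mem_pointwise_smul_iff_inv_smul_mem, key]
    simp [mul_assoc]

end Cfsg.Agent.S5620
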