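import Cfsg.Statements.S5621
import Cfsg.Agent.Spor.AbstractGolay

set_option autoImplicit false
open Cfsg

namespace Cfsg.Agent.S5621

/-- Let C be a self-dual binary code of length 24 with minimum weight at least 8 (a 12-dimensional subspace of the 24-dimensional space over the field with two elements, any two of whose words have dot product zero, with no non-zero word of weight below 8 — an abstract extended binary Golay code). Then C is doubly even: every word of C has weight divisible by 4. -/
theorem result (C : Submodule (ZMod 2) (Fin 24 → ZMod 2)) (hdim : Module.finrank (ZMod 2) C = 12) (horth : ∀ v ∈ C, ∀ w ∈ C, ∑ i, v i * w i = 0) (hmin : ∀ w ∈ C, w ≠ 0 → 8 ≤ hammingNorm w) : ∀ w ∈ C, 4 ∣ hammingNorm w := by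
  obtain ⟨e, he⟩ := Cfsg.Lib.Spor.AbsGolay.IsAbs.exists_equiv ⟨hdim, horth, hmin⟩
  intro w hw
  have h1 := Cfsg.Lib.Spor.card_of_mem_golaySets (Cfsg.Lib.Spor.support_mem_golaySets_iff.2
    ((he (fun p => w (e.symm p))).2 (by simpa using hw)))
  rw [← Finset.card_image_of_injective _ e.symm.injective,
    Cfsg.Lib.Spor.AbsGolay.support_comp_equiv, ← Cfsg.Lib.Spor.hammingNorm_eq_card_support] at h1
  omega

end Cfsg.Agent.S5621
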