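import Cfsg.Statements.S5623
import Cfsg.Agent.Spor.AbstractGolay

set_option autoImplicit false
open Cfsg

namespace Cfsg.Agent.S5623

open Cfsg.Lib.Spor Cfsg.Lib.Spor.AbsGolay

/-- Let C be a self-dual binary code of length 24 with minimum weight at least 8 (a 12-dimensional subspace of the 24-dimensional space over the field with two elements, any two of whose words have dot product zero, with no non-zero word of weight below 8 — an abstract extended binary Golay code). Then every coset w + C of C in the ambient space contains either exactly one word of weight at most 4, which then has weight at most 3, or exactly six words of weight at most 4, all of weight exactly 4 and with pairwise disjoint supports (a sextet). -/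
theorem result (C : Submodule (ZMod 2) (Fin 24 → ZMod 2)) (hdim : Module.finrank (ZMod 2) C = 12) (horth : ∀ v ∈ C, ∀ w ∈ C, ∑ i, v i * w i = 0) (hmin : ∀ w ∈ C, w ≠ 0 → 8 ≤ hammingNorm w) (w : Fin 24 → ZMod 2) : (∃ u : Fin 24 → ZMod 2, {u : Fin 24 → ZMod 2 | u - w ∈ C ∧ hammingNorm u ≤ 4} = {u} ∧ hammingNorm u ≤ 3) ∨ ({u : Fin 24 → ZMod 2 | u - w ∈ C ∧ hammingNorm u ≤ 4}.ncard = 6 ∧ ∀ u ∈ {u : Fin 24 → ZMod 2 | u - w ∈ C ∧ hammingNorm u ≤ 4}, hammingNorm u = 4 ∧ ∀ u' ∈ {u : Fin 24 → ZMod 2 | u - w ∈ C ∧ hammingNorm u ≤ 4}, u ≠ u' → Disjoint (Finset.univ.filter fun i => u i ≠ 0) (Finset.univ.filter fun i => u' i ≠ 0)) := by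
  have h : IsAbs C := ⟨hdim, horth, hmin⟩
  have hsum : ∀ u u' : Fin 24 → ZMod 2, u - w ∈ C → u' - w ∈ C → u + u' ∈ C := by
    intro u u' h1 h2
    have := C.sub_mem h1 h2
    rwa [sub_sub_sub_cancel_right, sub_eq_add'] at this
  by_cases h3 : ∃ u, u - w ∈ C ∧ hammingNorm u ≤ 3
  · obtain ⟨u, h1, h2⟩ := h3
    refine Or.inl ⟨u, ?_, h2⟩
    ext u'
    simp only [Set.mem_ofPred_eq, Set.mem_singleton_iff]
    refine ⟨fun h4 => h.eq_of_lt (hsum _ _ h4.1 h1) ?_, fun h4 => h4 ▸ ⟨h1, by omega⟩⟩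
    have h5 := h4.2
    rw [hammingNorm_eq_card_support] at h2 h5
    omega
  push Not at h3
  have h4 : ∀ u ∈ {u : Fin 24 → ZMod 2 | u - w ∈ C ∧ hammingNorm u ≤ 4}, hammingNorm u = 4 :=
    fun u hu => le_antisymm hu.2 (h3 u hu.1)
  have h5 : ∀ u ∈ {u : Fin 24 → ZMod 2 | u - w ∈ C ∧ hammingNorm u ≤ 4},
      ∀ u' ∈ {u : Fin 24 → ZMod 2 | u - w ∈ C ∧ hammingNorm u ≤ 4}, u ≠ u' →
      Disjoint (support₂ u) (support₂ u') := by
    intro u hu u' hu' hne
    by_contra hd
    refine hne (h.eq_of_lt (hsum _ _ hu.1 hu'.1) ?_)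
    have h6 := Finset.card_pos.2 (Finset.not_disjoint_iff_nonempty_inter.1 hd)
    have h7 := hu.2
    have h8 := hu'.2
    rw [hammingNorm_eq_card_support] at h7 h8
    omega
  refine Or.inr ⟨?_, fun u hu => ⟨h4 u hu, h5 u hu⟩⟩
  set U := {u : Fin 24 → ZMod 2 | u - w ∈ C ∧ hammingNorm u ≤ 4} with hU
  have hfin : U.Finite := Set.toFinite _
  have h6 : hfin.toFinset.biUnion support₂ = Finset.univ := by
    refine Finset.eq_univ_of_forall fun p => ?_
    obtain ⟨u, h1, h2⟩ := h.exists_small p w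
    rw [← sub_eq_add'] at h1
    have h7 := h3 u h1
    rw [hammingNorm_eq_card_support] at h7
    rcases h2 with h2 | h2
    · omega
    · exact Finset.mem_biUnion.2 ⟨u, hfin.mem_toFinset.2
        ⟨h1, by rw [hammingNorm_eq_card_support]; omega⟩, h2.2⟩
  have h7 := congrArg Finset.card h6
  rw [Finset.card_biUnion (fun u hu u' hu' hne => h5 u (by simpa using hu) u' (by simpa using hu') hne),
    Finset.sum_const_nat (m := 4) (fun u hu => by
      rw [← hammingNorm_eq_card_support]; exact h4 u (hfin.mem_toFinset.1 hu)),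
    Finset.card_univ, Fintype.card_fin] at h7
  rw [Set.ncard_eq_toFinset_card U hfin]
  omega

end Cfsg.Agent.S5623
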