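import Cfsg.Statements.S5624
import Cfsg.Agent.Spor.AbstractGolay

set_option autoImplicit false
open Cfsg

namespace Cfsg.Agent.S5624

/-- Let C be a self-dual binary code of length 24 with minimum weight at least 8 (a 12-dimensional subspace of the 24-dimensional space over the field with two elements, any two of whose words have dot product zero, with no non-zero word of weight below 8 — an abstract extended binary Golay code). Then C is spanned, as a vector space over the field with two elements, by its words of weight 8. -/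
theorem result (C : Submodule (ZMod 2) (Fin 24 → ZMod 2)) (hdim : Module.finrank (ZMod 2) C = 12) (horth : ∀ v ∈ C, ∀ w ∈ C, ∑ i, v i * w i = 0) (hmin : ∀ w ∈ C, w ≠ 0 → 8 ≤ hammingNorm w) : Submodule.span (ZMod 2) {w : Fin 24 → ZMod 2 | w ∈ C ∧ hammingNorm w = 8} = C := by
  obtain ⟨e, he⟩ := Cfsg.Lib.Spor.AbsGolay.IsAbs.exists_equiv ⟨hdim, horth, hmin⟩
  refine le_antisymm (Submodule.span_le.2 fun w hw => hw.1) fun w hw => ?_
  let φ : (Cfsg.GolayPt → ZMod 2) ≃ₗ[ZMod 2] (Fin 24 → ZMod 2) := LinearEquiv.funCongrLeft _ _ e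
  have hle := Cfsg.Lib.Spor.AbsGolay.golayCode_le_of_octads
    ((Submodule.span (ZMod 2) {w : Fin 24 → ZMod 2 | w ∈ C ∧ hammingNorm w = 8}).comap
      φ.toLinearMap) (fun u hu => Submodule.subset_span
        ⟨(he u).1 (Cfsg.Lib.Spor.support_mem_golaySets_iff.1 hu.1), by
          rw [Cfsg.Lib.Spor.hammingNorm_eq_card_support, ← hu.2,
            ← Cfsg.Lib.Spor.AbsGolay.support_comp_equiv e u,
            Finset.card_image_of_injective _ e.injective]
          rfl⟩)
  have h1 := hle ((he (fun p => w (e.symm p))).2 (by simpa using hw))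
  have h2 : φ.toLinearMap (fun p => w (e.symm p)) = w := by
    funext i; simp [φ]
  rwa [Submodule.mem_comap, h2] at h1

end Cfsg.Agent.S5624
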