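import Cfsg.Statements.S5625
import Cfsg.Agent.Spor.SteinerCount

set_option autoImplicit false
open Cfsg

namespace Cfsg.Agent.S5625

open Cfsg.Lib.Spor

/-- In any Steiner system S(5, 8, 24) and for any set Y of three points, the blocks meeting Y in exactly 3, 2, 1 and 0 points number 21, 168, 360 and 210 respectively (so there are 759 blocks in all). -/
theorem result (α : Type*) [Fintype α] [DecidableEq α] (hα : Fintype.card α = 24) (B : Set (Finset α)) (hB : Cfsg.IsSteinerSystem 5 8 B) (Y : Finset α) (hY : Y.card = 3) : {b : Finset α | b ∈ B ∧ (b ∩ Y).card = 3}.ncard = 21 ∧ {b : Finset α | b ∈ B ∧ (b ∩ Y).card = 2}.ncard = 168 ∧ {b : Finset α | b ∈ B ∧ (b ∩ Y).card = 1}.ncard = 360 ∧ {b : Finset α | b ∈ B ∧ (b ∩ Y).card = 0}.ncard = 210 := by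
  have e : ∀ i lam : ℕ, i ≤ 5 → lam * (8 - i).choose (5 - i) = (24 - i).choose (5 - i) →
      ∑ j ∈ Finset.range 4, ((blocksF B).filter (fun c => (Y ∩ c).card = j)).card * j.choose i =
        (3 : ℕ).choose i * lam := by
    intro i lam hi h
    rw [← sum_by_inter_card (blocksF B) Y 4 (fun c _ =>
      lt_of_le_of_lt (Finset.card_le_card Finset.inter_subset_left) (by omega)) (fun j => j.choose i),
      sum_choose_inter_of_lambda (steiner_lambda_eq hB (by norm_num) hi (by rw [hα]; exact h)) Y, hY]
  have e0 := e 0 759 (by norm_num) (by decide)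
  have e1 := e 1 253 (by norm_num) (by decide)
  have e2 := e 2 77 (by norm_num) (by decide)
  have e3 := e 3 21 (by norm_num) (by decide)
  simp only [Finset.sum_range_succ, Finset.sum_range_zero, Nat.choose] at e0 e1 e2 e3
  simp only [ncard_sep_eq_card_filter, Finset.inter_comm _ Y]
  omega

end Cfsg.Agent.S5625
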