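import Cfsg.Statements.S5632
import Cfsg.Agent.Class.InvTranspose

set_option autoImplicit false
open Cfsg

namespace Cfsg.Agent.S5632

/-- For a finite field F and subspaces 0 < W < U of F^n with dim W + dim U = n, the elements of SL_n(F) stabilising both W and U form a subgroup that is not maximal in SL_n(F): some subgroup lies strictly between it and SL_n(F). -/
theorem result {F : Type*} [Field F] [Fintype F] (n : ℕ) (W U : Submodule F (Fin n → F)) (hW0 : W ≠ ⊥) (hWU : W < U) (hdim : Module.finrank F W + Module.finrank F U = n) : ∃ K : Subgroup (Matrix.GeneralLinearGroup (Fin n) F), Cfsg.Geo.subspaceStabilizer W ⊓ Cfsg.Geo.subspaceStabilizer U ⊓ Cfsg.Geo.specialLinear (Fin n) F < K ∧ K < Cfsg.Geo.specialLinear (Fin n) F := by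
  have hW1 : W ≠ ⊤ := hWU.ne_top
  have hU0 : U ≠ ⊥ := hWU.ne_bot
  have hW : 0 < Module.finrank F W := Nat.pos_of_ne_zero fun h => hW0 (Submodule.finrank_eq_zero.1 h)
  have hU1 : U ≠ ⊤ := Cfsg.Lib.Class.ne_top_of_finrank_lt (by simp only [Fintype.card_fin]; omega)
  refine ⟨_, lt_of_le_of_ne (inf_le_inf_right _ inf_le_left) fun e => ?_,
    (Cfsg.Lib.Class.isMaximalIn_SL_subspaceStabilizer hW0 hW1).1⟩
  exact hWU.ne' (Cfsg.Lib.Class.subspaceStabilizer_injOn hU0 hU1 hW0 hW1
    (e.ge.trans (inf_le_left.trans inf_le_right)))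

end Cfsg.Agent.S5632
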