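import Cfsg.Statements.S5635
import Cfsg.Agent.Class.DecWeight

set_option autoImplicit false
open Cfsg

namespace Cfsg.Agent.S5635

open Cfsg.Lib.Class

/-- For a finite field F with q elements and n ≥ 13, let D be a decomposition of F^n into t ≥ 2 independent subspaces of equal dimension m spanning F^n, where m = 1 and q ≤ 4, or m = 2 and q = 2. Then the elements of SL_n(F) permuting the members of D form a subgroup that is not maximal: some subgroup lies strictly between it and SL_n(F). -/
theorem result {F : Type*} [Field F] [Fintype F] (n : ℕ) (hn : 13 ≤ n) {t : ℕ} (m : ℕ) (D : Fin t → Submodule F (Fin n → F)) (hD : Cfsg.Geo.IsMDecomposition m D) (h : (m = 1 ∧ Fintype.card F ≤ 4) ∨ (m = 2 ∧ Fintype.card F = 2)) : ∃ K : Subgroup (Matrix.GeneralLinearGroup (Fin n) F), Cfsg.Geo.decompositionStabilizer D ⊓ Cfsg.Geo.specialLinear (Fin n) F < K ∧ K < Cfsg.Geo.specialLinear (Fin n) F := by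
  refine exists_between_of_mulEquiv (glLin (Fin n) F) mem_specialLinear_iff_glLin
    (H' := stabDec D ⊓ SLV F (Fin n → F)) (fun g => and_congr
      (mem_decompositionStabilizer_iff_glLin D g) (mem_specialLinear_iff_glLin g)) ?_
  obtain ⟨p, hp⟩ := exists_isDecProj hD.indep hD.iSup_eq_top
  have : Nontrivial (Fin t) := Fin.nontrivial_iff_two_le.2 hD.two_le
  have hdim := card_mul_eq_finrank_of_isDecProj hp hD.finrank_eq
  rw [Module.finrank_fin_fun, Fintype.card_fin] at hdim
  refine exists_between_inf hp.stabDec_le_QIsom ?_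
    (hp.exists_SLV_notMem_QIsom hD.pos hD.finrank_eq)
  rcases h with ⟨rfl, hq⟩ | ⟨rfl, hq⟩
  · exact hp.exists_SLV_weight_one hD.finrank_eq hq (by rw [Fintype.card_fin]; omega)
  · exact hp.exists_SLV_weight_two hD.finrank_eq hq (by rw [Fintype.card_fin]; omega)

end Cfsg.Agent.S5635
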