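import Cfsg.Statements.S5638
import Cfsg.Agent.Class.DecWeight
import Cfsg.Agent.Class.Asch.Tensor

set_option autoImplicit false
open Cfsg

namespace Cfsg.Agent.S5638

open Cfsg.Lib.Class
open Cfsg.Lib.Class.Asch
open scoped Kronecker MatrixGroups

/-- Over the field with 2 elements, for n = 2 n₂ ≥ 13, the stabiliser in SL_n of a tensor decomposition with factors of dimensions 2 and n₂ (the conjugate by any P of the Kronecker-product subgroup transported along any bijection Fin n ≃ Fin 2 × Fin n₂, intersected with SL_n) is not a maximal subgroup: some subgroup lies strictly between it and SL_n. -/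
theorem result {F : Type*} [Field F] [Fintype F] (n : ℕ) (hn : 13 ≤ n) (hq : Fintype.card F = 2) (n₂ : ℕ) (e : Fin n ≃ Fin 2 × Fin n₂) (P : Matrix.GeneralLinearGroup (Fin n) F) : ∃ K : Subgroup (Matrix.GeneralLinearGroup (Fin n) F), Cfsg.Geo.tensorProductSubgroup 2 n₂ e P ⊓ Cfsg.Geo.specialLinear (Fin n) F < K ∧ K < Cfsg.Geo.specialLinear (Fin n) F := by
  have hn2 : n = 2 * n₂ := by simpa using Fintype.card_congr e
  obtain ⟨k, rfl⟩ : ∃ k, n₂ = k + 2 := ⟨n₂ - 2, by omega⟩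
  have h01 := eq_zero_or_one_of_card_two hq
  have h2 := two_eq_zero_of_card_two hq
  have hSL : ∀ g, g ∈ Cfsg.Geo.specialLinear (Fin n) F := fun g =>
    Units.ext ((h01 _).resolve_left (Matrix.GeneralLinearGroup.det g).ne_zero)
  let ω : Matrix (Fin 2) (Fin 2) F := !![0, 1; 1, 1]
  let Ω : Matrix (Fin 2 × Fin (k + 2)) (Fin 2 × Fin (k + 2)) F :=
    ω ⊗ₖ (1 : Matrix (Fin (k + 2)) (Fin (k + 2)) F)
  let L : Subgroup (GL (Fin 2 × Fin (k + 2)) F) :=
    { carrier := {g | ∃ c : F, g.1 * Ω = (Ω + c • 1) * g.1}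
      mul_mem' := by
        rintro a b ⟨c, hc⟩ ⟨d, hd⟩
        refine ⟨c + d, ?_⟩
        rw [Units.val_mul, mul_assoc, hd, ← mul_assoc, mul_add, hc, ← mul_assoc]
        simp only [add_mul, add_smul, mul_smul_comm, smul_mul_assoc, mul_one, one_mul, add_assoc]
      one_mem' := ⟨0, by simp⟩
      inv_mem' := by
        rintro a ⟨c, hc⟩
        refine ⟨-c, ?_⟩
        have h1 : (a⁻¹).1 * (a.1 * Ω) * (a⁻¹).1 = (a⁻¹).1 * ((Ω + c • 1) * a.1) * (a⁻¹).1 := by
          rw [hc]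
        rw [← mul_assoc, Units.inv_mul, one_mul, mul_assoc, mul_assoc, Units.mul_inv, mul_one] at h1
        rw [add_mul, h1]
        simp [mul_add] }
  let E : Matrix (Fin (k + 2)) (Fin (k + 2)) F := Matrix.single 0 1 1
  have hE : E * E = 0 := by simp [E]
  let u : Matrix (Fin 2) (Fin 2) F → GL (Fin 2 × Fin (k + 2)) F := fun x =>
    ⟨1 + x ⊗ₖ E, 1 - x ⊗ₖ E, by simp [add_mul, mul_sub, ← Matrix.mul_kronecker_mul, hE],
      by simp [sub_mul, mul_add, ← Matrix.mul_kronecker_mul, hE]⟩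
  have hmem : ∀ g, trGL e P g ∈ Cfsg.Geo.tensorProductSubgroup 2 (k + 2) e P ↔
      ∃ (a : GL (Fin 2) F) (b : GL (Fin (k + 2)) F), g.1 = a.1 ⊗ₖ b.1 := fun g => by
    simp only [mem_tensorProductSubgroup, coe_trGL, EmbeddingLike.apply_eq_iff_eq]
  refine exists_between_inf (L := L.map (trGL e P).toMonoidHom) (fun g hg => ?_)
    ⟨trGL e P (u ω), hSL _, ⟨u ω, ⟨0, ?_⟩, rfl⟩, fun h => ?_⟩
    ⟨trGL e P (u (Matrix.single 0 0 1)), hSL _, fun h => ?_⟩
  · obtain ⟨g, rfl⟩ := (trGL e P).surjective g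
    obtain ⟨a, b, hab⟩ := (hmem g).1 hg
    obtain ⟨c, hc⟩ : ∃ c : F, a.1 * ω = (ω + c • 1) * a.1 := by
      have hd : a.1 0 0 * a.1 1 1 - a.1 0 1 * a.1 1 0 ≠ 0 := by
        rw [← Matrix.det_fin_two]
        exact (Matrix.GeneralLinearGroup.det a).ne_zero
      have h11 : (1 : F) + 1 = 0 := by linear_combination h2
      refine ⟨1 + a.1 0 0 + a.1 1 1 + (1 + a.1 0 1) * (1 + a.1 1 0), ?_⟩
      ext i j
      rcases h01 (a.1 0 0) with h1 | h1 <;> rcases h01 (a.1 0 1) with h3 | h3 <;>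
        rcases h01 (a.1 1 0) with h4 | h4 <;> rcases h01 (a.1 1 1) with h5 | h5 <;>
        simp only [h1, h3, h4, h5] at hd <;> fin_cases i <;> fin_cases j <;>
        first | (exfalso; apply hd; ring1) |
          simp [ω, Matrix.mul_apply, Fin.sum_univ_two, h1, h3, h4, h5, h11]
    refine ⟨g, ⟨c, ?_⟩, rfl⟩
    rw [hab, ← Matrix.mul_kronecker_mul, hc, add_mul, add_mul, ← Matrix.mul_kronecker_mul]
    simp [Matrix.add_kronecker, Matrix.smul_kronecker]
  · simp [u, Ω, add_mul, mul_add, ← Matrix.mul_kronecker_mul]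
  · obtain ⟨a, b, hab⟩ := (hmem _).1 h
    have h1 := congrFun (congrFun hab (0, 0)) (0, 0)
    have h3 := congrFun (congrFun hab (0, 0)) (0, 1)
    have h4 := congrFun (congrFun hab (1, 0)) (1, 1)
    simp [u, ω, E] at h1 h3 h4
    rcases h3 with h3 | h3
    · simp [h3] at h1
    · simp [h3] at h4
  · obtain ⟨g, ⟨c, hc⟩, hg⟩ := h
    obtain rfl := (trGL e P).injective hg
    have h3 := congrFun (congrFun hc (0, 0)) (1, 1)
    simp [u, Ω, add_mul, mul_add, ← Matrix.mul_kronecker_mul, ω, E, Matrix.vecMul,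
      dotProduct] at h3

end Cfsg.Agent.S5638
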