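import Cfsg.Statements.S5641
import Cfsg.Agent.Class.Wr.TPMat
import Cfsg.Agent.Class.Wr.LocSL

set_option autoImplicit false
open Cfsg
open Cfsg.Lib.Class Cfsg.Lib.Class.Wr

namespace Cfsg.Agent.S5641

/-- For a finite field F and n = m ^ t ≥ 13 with m ≥ 3 and t ≥ 2, the stabiliser in SL_n(F) of a tensor decomposition of F^n into t factors of dimension m (the conjugate by any P of the standard tensor-wreath subgroup transported along any bijection Fin n ≃ (Fin t → Fin m), intersected with SL_n(F)) is a maximal subgroup of SL_n(F). -/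
theorem result {F : Type*} [Field F] [Fintype F] (n : ℕ) (hn : 13 ≤ n) (m t : ℕ) (hm : 3 ≤ m) (ht : 2 ≤ t) (e : Fin n ≃ (Fin t → Fin m)) (P : Matrix.GeneralLinearGroup (Fin n) F) : Cfsg.Geo.IsMaximalIn (Cfsg.Geo.specialLinear (Fin n) F) (Cfsg.Geo.tensorWreathSubgroup m t e P ⊓ Cfsg.Geo.specialLinear (Fin n) F) := by
  obtain ⟨s, rfl⟩ : ∃ s, t = s + 1 := ⟨t - 1, by omega⟩
  have h1 : m ≤ m ^ s := Nat.le_self_pow (by omega) m
  have hU : Module.finrank F ((Fin s → Fin m) → F) = m ^ s := by simp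
  have : Nontrivial ((Fin s → Fin m) → F) := Module.nontrivial_of_finrank_pos (R := F) (by omega)
  have : Nontrivial (Fin m → F) := Module.nontrivial_of_finrank_pos (R := F) (by simp; omega)
  refine isMaximalIn_wreath e P (by omega) mem_specialLinear_iff_glLin
    (AL.not_SL_le_wreath ht (by omega) e P) fun X _ hX => TP.main_SL (h := tp_tw e P) (by simpa)
      (by omega) ?_ (fun j g hg => hX _ ?_ ((tp_tw e P).isWr_ug j g))
      (TP.alt_of_comm (K := ⊤) (fun σ => (exists_pm e P σ).imp fun n h => ⟨trivial, h.1⟩)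
        fun n _ n' _ => hX _ ?_)
  · rw [hU, Module.finrank_fin_fun]
    rcases hm.eq_or_lt with rfl | h
    · exact Or.inr (Odd.pow (by decide))
    · exact Or.inl h
  · have h2 : LinearMap.det (g : Module.End F (Fin m → F)) = 1 := by
      rw [← LinearEquiv.coe_det, MonoidHom.mem_ker.1 hg]; rfl
    refine MonoidHom.mem_ker.2 (Units.ext ?_)
    rw [LinearEquiv.coe_det, coe_ug, kap_eq, Tn.IsTens.det_mp, h2]
    simp
  · simp [MonoidHom.mem_ker]

end Cfsg.Agent.S5641
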