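import Cfsg.Statements.S5643
import Cfsg.Agent.Class.HSp
import Cfsg.Agent.Class.HermTransv

set_option autoImplicit false
open Cfsg

namespace Cfsg.Agent.S5643

open Cfsg.Lib.Class

/-- For a finite field F and n ≥ 13, let σ be a field automorphism of F of order two and f a non-degenerate unitary form on F^n with respect to σ. Then the elements of SL_n(F) that are similarities of f form a maximal subgroup of SL_n(F). -/
theorem result {F : Type*} [Field F] [Fintype F] (n : ℕ) (hn : 13 ≤ n) (σ : F ≃+* F) (f : (Fin n → F) → (Fin n → F) → F) (hf : Cfsg.Geo.IsUnitaryForm σ f) : Cfsg.Geo.IsMaximalIn (Cfsg.Geo.specialLinear (Fin n) F) (Cfsg.Geo.similarityGroup f ⊓ Cfsg.Geo.specialLinear (Fin n) F) := by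
  have hadd : ∀ u v w, f u (v + w) = f u v + f u w := fun u v w => by
    rw [hf.herm, hf.add_left, map_add, ← hf.herm, ← hf.herm]
  have hsmul : ∀ (c : F) u v, f u (c • v) = σ c * f u v := fun c u v => by
    rw [hf.herm, hf.smul_left, map_mul, ← hf.herm]
  let B : (Fin n → F) →ₛₗ[(σ : F →+* F)] (Fin n → F) →ₗ[F] F :=
    LinearMap.mk₂'ₛₗ (σ : F →+* F) (RingHom.id F) (fun u v => f v u) (fun a b c => hadd _ _ _)
      (fun c a b => hsmul _ _ _) (fun a b c => hf.add_left _ _ _) (fun c a b => hf.smul_left _ _ _)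
  have hB : ∀ u v, B u v = f v u := fun u v => rfl
  have hσ : (σ : F →+* F) ≠ RingHom.id F := fun h => hf.ne_refl (RingEquiv.ext fun a =>
    RingHom.congr_fun h a)
  have hsym : ∀ u v, (σ : F →+* F) (B u v) = B v u := fun u v => (hf.herm _ _).symm
  have hsep : ∀ u, (∀ v, B u v = 0) → u = 0 := fun u hu => by
    by_contra h0
    obtain ⟨x, hx⟩ := (hf.nondegenerate u h0).1
    exact hx (hu x)
  have hH := Form.herm_of_isSymm hσ hf.involutive ⟨hsym⟩ hsep
  have h : HSp B := ⟨hf.involutive, hsym, hsep, exists_add_map_eq_one hσ hf.involutive,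
    fun W hW => by
      by_cases hN : Form.NondegOn B W
      · exact hH.exists_isotropic_mem hN (by omega)
      · simp only [Form.NondegOn, not_forall] at hN
        obtain ⟨u, hu, h1, h0⟩ := hN
        exact ⟨u, hu, h0, h1 u hu⟩⟩
  refine isMaximalIn_specialLinear_of (fun g => ?_) (h.isMaximalIn_simG (by simp; omega))
  exact exists_congr fun c => ⟨fun hc u v => hc v u, fun hc u v => hc v u⟩
end Cfsg.Agent.S5643
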