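import Cfsg.Statements.S5644
import Cfsg.Agent.Class.HSp
import Cfsg.Agent.Class.GeoForms
import Cfsg.Agent.Known.QuadNormal

set_option autoImplicit false
open Cfsg

namespace Cfsg.Agent.S5644

open Cfsg.Lib.Class

/-- For a finite field F of odd order and n ≥ 13, let Q be a non-degenerate quadratic form on F^n (its polar form is non-degenerate). Then the elements of SL_n(F) that are similarities of Q (Q(gv) = c Q(v) for a non-zero scalar c depending on g) form a maximal subgroup of SL_n(F). -/
theorem result {F : Type*} [Field F] [Fintype F] (n : ℕ) (hn : 13 ≤ n) (hodd : Odd (Fintype.card F)) (Q : (Fin n → F) → F) (hQ : Cfsg.Geo.IsNondegenerateQuadraticForm Q) : Cfsg.Geo.IsMaximalIn (Cfsg.Geo.specialLinear (Fin n) F) (Cfsg.Geo.quadSimilarityGroup Q ⊓ Cfsg.Geo.specialLinear (Fin n) F) := by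
  have h2 := two_ne_zero_of_odd_card hodd
  let B : (Fin n → F) →ₛₗ[RingHom.id F] (Fin n → F) →ₗ[F] F := QuadraticMap.polarBilin (geoQuad hQ)
  have hB : ∀ u v, B u v = QuadraticMap.polar Q u v := fun u v => rfl
  have hBB : ∀ u, B u u = 2 * Q u := fun u => polar_self_eq (geoQuad hQ) u
  have h : HSp B := ⟨fun _ => rfl, fun u v => QuadraticMap.polar_comm _ _ _,
    (geoQuad_nondegenerate hQ).1, ⟨2⁻¹, by simp only [RingHom.id_apply]; field_simp; norm_num⟩,
    fun W hW => by
      obtain ⟨v, hv0, hv⟩ := Cfsg.Lib.Known.exists_isotropic_of_three_le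
        ((geoQuad hQ).comp W.subtype) hW
      exact ⟨v, v.2, by simpa using hv0, by rw [hBB, show Q v = 0 from hv, mul_zero]⟩⟩
  refine isMaximalIn_specialLinear_of (fun g => ?_) (h.isMaximalIn_simG (by simp; omega))
  refine exists_congr fun c => ⟨fun hc u v => ?_, fun hc v => ?_⟩
  · simp only [hB, QuadraticMap.polar, glLin_apply, ← Matrix.mulVec_add, hc]
    ring
  · have := hc v v
    rw [hBB, hBB, mul_left_comm] at this
    exact mul_left_cancel₀ h2 this
end Cfsg.Agent.S5644
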