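import Cfsg.Statements.S5647
import Cfsg.Agent.Class.SpImprim

set_option autoImplicit false
open Cfsg

namespace Cfsg.Agent.S5647

open Cfsg.Lib.Class

/-- For a finite field F with q elements and m ≥ 7, let D be a decomposition of F^(2m) into t ≥ 2 pairwise orthogonal subspaces of equal dimension k on each of which the standard alternating form is non-degenerate, spanning F^(2m). Unless k = 2 and q = 2, the elements of Sp_2m(F) permuting the members of D form a maximal subgroup of Sp_2m(F). -/
theorem result {F : Type*} [Field F] [Fintype F] (m : ℕ) (hm : 7 ≤ m) {t : ℕ} (k : ℕ) (D : Fin t → Submodule F (Fin m ⊕ Fin m → F)) (hD : Cfsg.Geo.IsNondegenerateMDecomposition (Cfsg.sympForm m F) k D) (hex : ¬ (k = 2 ∧ Fintype.card F = 2)) : Cfsg.Geo.IsMaximalIn (Cfsg.spGL m F) (Cfsg.Geo.decompositionStabilizer D ⊓ Cfsg.spGL m F) := by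
  classical
  refine isMaximalIn_spGL_of m (mem_decompositionStabilizer_iff_glLin D) ?_
  obtain ⟨p, hp⟩ := exists_isDecProj hD.decomp.indep hD.decomp.iSup_eq_top
  have : Nontrivial (Fin t) := Fin.nontrivial_iff_two_le.2 hD.decomp.two_le
  have hA := sympBilin_isAlt (F := F) m
  have hn : ∀ i, ∀ w ∈ D i, w ≠ 0 → ∃ x ∈ D i, sympBilin m F x w ≠ 0 :=
    fun i w hw h0 => by simpa using (hD.nondegenerate i w hw h0).1
  refine isMaximalIn_SpB_stabDec (sympBilin_nondegenerate m) hA hp hD.decomp.pos
    hD.decomp.finrank_eq hn (fun i j hij u hu v hv => by simpa using hD.orthogonal i j hij u hu v hv)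
    fun i x hx hx0 => ?_
  by_cases hq : Fintype.card F = 2
  · have hk2 : k ≠ 2 := fun h => hex ⟨h, hq⟩
    have hev := even_finrank_of_isAlt (restrict_nondegenerate_of_forall hA (hn i))
      (restrict_isAlt hA _)
    rw [hD.decomp.finrank_eq] at hev
    have hk0 := hD.decomp.pos
    have hk3 : 3 ≤ k := by
      obtain ⟨r, hr⟩ := hev
      omega
    have hx0' : (⟨x, hx⟩ : D i) ≠ 0 := fun h => hx0 (congrArg Subtype.val h)
    have hf := finrank_span_singleton (K := F) hx0'
    obtain ⟨y, hy, hxy⟩ := exists_orth_notMem (restrict_nondegenerate_of_forall hA (hn i))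
      (Submodule.span F {(⟨x, hx⟩ : D i)}) (Submodule.span F {(⟨x, hx⟩ : D i)})
      (by rw [hf, hD.decomp.finrank_eq]; omega)
    refine ⟨y, y.2, fun h => hy ?_, fun h => hy ?_,
      hxy _ (Submodule.mem_span_singleton_self _)⟩
    · rw [show y = 0 from Subtype.ext h]
      exact Submodule.zero_mem _
    · rw [show y = -⟨x, hx⟩ from Subtype.ext (eq_neg_of_add_eq_zero_right h)]
      exact Submodule.neg_mem _ (Submodule.mem_span_singleton_self _)
  · obtain ⟨c, hc0, hc1⟩ : ∃ c : F, c ≠ 0 ∧ c ≠ -1 := by
      by_contra! hcon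
      have h1 : (Finset.univ : Finset F) ⊆ {0, -1} := by
        intro a _
        by_cases ha : a = 0
        · simp [ha]
        · simp [hcon a ha]
      have h2 := (Finset.card_le_card h1).trans Finset.card_le_two
      have h3 := Fintype.one_lt_card (α := F)
      rw [Finset.card_univ] at h2
      omega
    refine ⟨c • x, (D i).smul_mem c hx, smul_ne_zero hc0 hx0, ?_, by simp [sympForm_self]⟩
    rw [show x + c • x = (1 + c) • x by rw [add_smul, one_smul]]
    exact smul_ne_zero (fun h => hc1 (eq_neg_of_add_eq_zero_right h)) hx0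

end Cfsg.Agent.S5647
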