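import Cfsg.Statements.S5648
import Cfsg.Agent.Class.DecWeight

set_option autoImplicit false
open Cfsg

namespace Cfsg.Agent.S5648

open Cfsg.Lib.Class

/-- Over the field with 2 elements and for m ≥ 7, let D be a decomposition of F^(2m) into t pairwise orthogonal non-degenerate 2-dimensional subspaces for the standard alternating form (t = m ≥ 2). Then the elements of Sp_2m(2) permuting the members of D form a subgroup that is not maximal: some subgroup lies strictly between it and Sp_2m(2). -/
theorem result {F : Type*} [Field F] [Fintype F] (m : ℕ) (hm : 7 ≤ m) (hq : Fintype.card F = 2) {t : ℕ} (D : Fin t → Submodule F (Fin m ⊕ Fin m → F)) (hD : Cfsg.Geo.IsNondegenerateMDecomposition (Cfsg.sympForm m F) 2 D) : ∃ K : Subgroup (Matrix.GeneralLinearGroup (Fin m ⊕ Fin m) F), Cfsg.Geo.decompositionStabilizer D ⊓ Cfsg.spGL m F < K ∧ K < Cfsg.spGL m F := by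
  refine exists_between_of_mulEquiv (glLin _ F) (fun g => (glLin_mem_SpB_iff m g).symm)
    (H' := stabDec D ⊓ SpB (sympBilin m F)) (fun g => and_congr
      (mem_decompositionStabilizer_iff_glLin D g) (glLin_mem_SpB_iff m g).symm) ?_
  obtain ⟨p, hp⟩ := exists_isDecProj hD.decomp.indep hD.decomp.iSup_eq_top
  have hdim := card_mul_eq_finrank_of_isDecProj hp hD.decomp.finrank_eq
  rw [finrank_symp_space, Fintype.card_fin] at hdim
  exact hp.exists_between_SpB hD.decomp.finrank_eq hq (sympBilin_isAlt m)
    (fun i w hw h0 => by simpa using (hD.nondegenerate i w hw h0).1)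
    (fun i j hij u hu v hv => by simpa using hD.orthogonal i j hij u hu v hv)
    (by rw [Fintype.card_fin]; omega)

end Cfsg.Agent.S5648
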