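import Cfsg.Statements.S5649
import Cfsg.Agent.Class.SpLevi

set_option autoImplicit false
open Cfsg

namespace Cfsg.Agent.S5649

open Cfsg.Lib.Class

/-- For a finite field F of odd order and m ≥ 7, let D be a decomposition of F^(2m) into two complementary subspaces of dimension m on each of which the standard alternating form vanishes identically. Then the elements of Sp_2m(F) preserving or interchanging the two subspaces form a maximal subgroup of Sp_2m(F). -/
theorem result {F : Type*} [Field F] [Fintype F] (m : ℕ) (hm : 7 ≤ m) (hodd : Odd (Fintype.card F)) (D : Fin 2 → Submodule F (Fin m ⊕ Fin m → F)) (hD : Cfsg.Geo.IsMDecomposition m D) (hts : ∀ i, Cfsg.Geo.IsTotallySingularFor (Cfsg.sympForm m F) (D i)) : Cfsg.Geo.IsMaximalIn (Cfsg.spGL m F) (Cfsg.Geo.decompositionStabilizer D ⊓ Cfsg.spGL m F) := by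
  classical
  refine isMaximalIn_spGL_of m (mem_decompositionStabilizer_iff_glLin D) ?_
  refine isMaximalIn_SpB_stabDec_lagPair (sympBilin_nondegenerate m) (sympBilin_isAlt m)
    (two_ne_zero_of_odd_card hodd) ⟨fun u hu v hv => by simpa using hts 0 u hu v hv,
      fun u hu v hv => by simpa using hts 1 u hu v hv, ?_, ?_⟩ (by rw [hD.finrank_eq]; omega)
  · exact hD.indep.pairwiseDisjoint (show (0 : Fin 2) ≠ 1 by decide)
  · rw [codisjoint_iff, eq_top_iff, ← hD.iSup_eq_top, iSup_le_iff]
    intro i
    fin_cases i
    · exact le_sup_left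
    · exact le_sup_right
end Cfsg.Agent.S5649
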