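import Cfsg.Statements.S5652
import Cfsg.Agent.Class.SpOrth
import Cfsg.Agent.Class.GeoForms

set_option autoImplicit false
open Cfsg

namespace Cfsg.Agent.S5652

open Cfsg.Lib.Class

/-- For a finite field F of characteristic two and m ≥ 7, let Q be a non-degenerate quadratic form on F^(2m) whose polar form is the standard alternating form. Then the elements of Sp_2m(F) that are similarities of Q (they are exactly the isometries of Q) form a maximal subgroup of Sp_2m(F). -/
theorem result {F : Type*} [Field F] [Fintype F] (m : ℕ) (hm : 7 ≤ m) (heven : ¬ Odd (Fintype.card F)) (Q : (Fin m ⊕ Fin m → F) → F) (hQ : Cfsg.Geo.IsNondegenerateQuadraticForm Q) (hpol : ∀ u v, QuadraticMap.polar Q u v = Cfsg.sympForm m F u v) : Cfsg.Geo.IsMaximalIn (Cfsg.spGL m F) (Cfsg.Geo.quadSimilarityGroup Q ⊓ Cfsg.spGL m F) := by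
  have hpol' : ∀ u v, QuadraticMap.polar (geoQuad hQ) u v = sympBilin m F u v := by
    intro u v
    rw [sympBilin_apply, coe_geoQuad, hpol]
  have hB := sympBilin_nondegenerate (F := F) m
  refine isMaximalIn_of_mulEquiv (glLin _ F) (fun g => (glLin_mem_SpB_iff m g).symm) (fun g => ?_)
    (isMaximalIn_SpB_QIsom hB (sympBilin_isAlt m) hpol' (exists_sq_eq_of_even_card heven)
      (by rw [finrank_symp_space]; omega))
  constructor
  · rintro ⟨⟨c, hc⟩, hg⟩
    have : Nonempty (Fin m ⊕ Fin m) := ⟨Sum.inl ⟨0, by omega⟩⟩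
    obtain ⟨x, hx⟩ := exists_ne (0 : Fin m ⊕ Fin m → F)
    obtain ⟨y, hy⟩ := exists_alt_eq_one hB hx
    rw [sympBilin_apply] at hy
    have h1 := (mem_spGL m g).1 hg x y
    rw [← hpol, QuadraticMap.polar, ← Matrix.mulVec_add, hc, hc, hc, ← mul_sub, ← mul_sub] at h1
    have h2 := hpol x y
    rw [QuadraticMap.polar] at h2
    rw [h2, hy, mul_one] at h1
    rw [mem_QIsom]
    intro u
    rw [glLin_apply, geoQuad_apply, geoQuad_apply, hc, h1, one_mul]
  · intro hg
    exact ⟨⟨1, fun v => by simpa using mem_QIsom.1 hg v⟩,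
      (glLin_mem_SpB_iff m g).1 (QIsom_le_SpB hpol' hg)⟩

end Cfsg.Agent.S5652
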