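import Cfsg.Statements.S5657
import Cfsg.Agent.Class.HermMaxND

set_option autoImplicit false
open Cfsg

namespace Cfsg.Agent.S5657

open Cfsg.Lib.Class Cfsg.Lib.Class.Form

/-- Let F be the field with q² elements and n = 2k ≥ 13. Let D be a decomposition of F^n into two complementary subspaces of dimension k on each of which the standard unitary form vanishes identically. Then the elements of SU_n(q) preserving or interchanging the two subspaces form a maximal subgroup of SU_n(q). -/
theorem result {F : Type*} [Field F] [Fintype F] (n q : ℕ) (hF : Fintype.card F = q ^ 2) (hn : 13 ≤ n) (k : ℕ) (hk : 2 * k = n) (D : Fin 2 → Submodule F (Fin n → F)) (hD : Cfsg.Geo.IsMDecomposition k D) (hts : ∀ i, Cfsg.Geo.IsTotallySingularFor (Cfsg.hermForm n F q) (D i)) : Cfsg.Geo.IsMaximalIn (Cfsg.GU n F q ⊓ Cfsg.Geo.specialLinear (Fin n) F) (Cfsg.Geo.decompositionStabilizer D ⊓ (Cfsg.GU n F q ⊓ Cfsg.Geo.specialLinear (Fin n) F)) := by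
  refine isMaximalIn_SU_of hF n (H' := stabFam (hermSesq hF n) D)
    (fun g => mem_decompositionStabilizer_iff_glLin D g)
    ((herm_hermSesq hF n).maxS_stabFam_hLag ⟨fun u hu v hv => hts 0 v hv u hu,
      fun u hu v hv => hts 1 v hv u hu, ?_, ?_⟩ (by rw [hD.finrank_eq]; omega))
  · exact hD.indep.pairwiseDisjoint (show (0 : Fin 2) ≠ 1 by decide)
  · rw [codisjoint_iff, eq_top_iff, ← hD.iSup_eq_top, iSup_le_iff]
    intro i
    fin_cases i
    · exact le_sup_left
    · exact le_sup_right

end Cfsg.Agent.S5657
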