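import Cfsg.Statements.S5658
import Cfsg.Agent.Class.SubfieldSU

set_option autoImplicit false
open Cfsg

namespace Cfsg.Agent.S5658

open Cfsg.Lib.Class Cfsg.Lib.Class.Form

/-- Let F be the field with q² elements, n ≥ 13, and F₀ a subfield with |F| = |F₀| ^ r for an odd prime r. Let P be an invertible matrix such that the standard unitary form takes values in F₀ on the F₀-span of the columns of P. Then the elements of SU_n(q) lying in the subfield group of P (the conjugate by P of the product of GL_n(F₀) with the scalars) form a maximal subgroup of SU_n(q). -/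
theorem result {F : Type*} [Field F] [Fintype F] (n q : ℕ) (hF : Fintype.card F = q ^ 2) (hn : 13 ≤ n) (F₀ : Subfield F) (r : ℕ) (hr : r.Prime) (hro : Odd r) (hcard : Fintype.card F = Nat.card F₀ ^ r) (P : Matrix.GeneralLinearGroup (Fin n) F) (hP : Cfsg.Geo.IsFormRationalStructure (Cfsg.hermForm n F q) F₀ 1 P) : Cfsg.Geo.IsMaximalIn (Cfsg.GU n F q ⊓ Cfsg.Geo.specialLinear (Fin n) F) (Cfsg.Geo.subfieldSubgroup F₀ P ⊓ (Cfsg.GU n F q ⊓ Cfsg.Geo.specialLinear (Fin n) F)) := by
  refine isMaximalIn_SU_of hF n (fun g => (mem_subfieldSubgroup_iff_glLin F₀ P g).trans ?_)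
    (maxS_ratG (e := (glLin (Fin n) F P).symm) (herm_hermSesq hF n) (fun u v hu hv => ?_)
      (by simp; omega) hr (by rintro rfl; exact absurd hro (by decide)) hcard)
  · rw [Subgroup.mem_comap, show glLin (Fin n) F g = (isomGroup (hermSesq hF n)).subtype
      (guEquivIsomGroup hF n g) from LinearEquiv.ext fun x => by simp [glLin_apply]]
  · have := hP _ _ hv hu
    rw [← glLin_apply, ← glLin_apply, LinearEquiv.apply_symm_apply,
      LinearEquiv.apply_symm_apply] at this
    simpa using this

end Cfsg.Agent.S5658
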