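import Cfsg.Statements.S5660
import Cfsg.Agent.Class.HermRatStd

set_option autoImplicit false
open Cfsg

namespace Cfsg.Agent.S5660

open Cfsg.Lib.Class Cfsg.Lib.Class.Form

/-- Let F be the field with q² elements, n ≥ 13 even, and F₀ the subfield with q elements. Let ζ be a non-zero element with ζ + ζ^q = 0 and P an invertible matrix such that ζ times the standard unitary form takes values in F₀ on the F₀-span of the columns of P and the form vanishes on every pair (u, u) of that span (so ζ times the form restricts to a non-degenerate alternating form there). Then the elements of SU_n(q) lying in the subfield group of P form a maximal subgroup of SU_n(q). -/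
theorem result {F : Type*} [Field F] [Fintype F] (n q : ℕ) (hF : Fintype.card F = q ^ 2) (hn : 13 ≤ n) (heven : Even n) (F₀ : Subfield F) (hcard : Fintype.card F = Nat.card F₀ ^ 2) (ζ : F) (hζ0 : ζ ≠ 0) (hζ : ζ + ζ ^ q = 0) (P : Matrix.GeneralLinearGroup (Fin n) F) (hP : Cfsg.Geo.IsFormRationalStructure (Cfsg.hermForm n F q) F₀ ζ P) (halt : ∀ u : Fin n → F, (∀ i, u i ∈ F₀) → Cfsg.hermForm n F q (Matrix.mulVec (P : Matrix (Fin n) (Fin n) F) u) (Matrix.mulVec (P : Matrix (Fin n) (Fin n) F) u) = 0) : Cfsg.Geo.IsMaximalIn (Cfsg.GU n F q ⊓ Cfsg.Geo.specialLinear (Fin n) F) (Cfsg.Geo.subfieldSubgroup F₀ P ⊓ (Cfsg.GU n F q ⊓ Cfsg.Geo.specialLinear (Fin n) F)) := by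
  refine isMaximalIn_SU_of hF n (mem_subfieldSubgroup_iff_ratGroup hF hcard P (by omega))
    ((conj_stdConj hF hcard hζ0 (ε := -1) (by linear_combination hζ) hP).maxS_symplectic
      (herm_hermSesq hF n) (by rw [Module.finrank_fin_fun]; omega) fun x hx => ?_)
  obtain ⟨u, hu, rfl⟩ := exists_of_stdConj_eq hF hcard P hx
  exact halt u hu

end Cfsg.Agent.S5660
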