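import Cfsg.Statements.S5662
import Cfsg.Agent.Class.Asch.Symp

set_option autoImplicit false
open Cfsg

namespace Cfsg.Agent.S5662

/-- Subgroup structure of the finite symplectic groups. Let F be a finite field and m ≥ 2 with (m, |F|) ≠ (2, 2), and let Sp_2m(F) be the group of invertible matrices preserving the standard alternating form on F^(2m). Let H be a subgroup of Sp_2m(F) whose product with the scalar matrices ±1 is not all of Sp_2m(F) (H does not cover PSp_2m(F)). Then either H is contained in a member of one of the eight geometric classes of subgroups of Sp_2m(F) (with the conditions built into InSymplecticClass), or H is in the residual class: modulo scalars it is almost simple, and the perfect preimage of its socle acts absolutely irreducibly, is realisable over no proper subfield, and fixes no non-degenerate quadratic form and no non-degenerate unitary form on F^(2m). -/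
theorem result {F : Type*} [Field F] [Fintype F] (m : ℕ) (hm : 2 ≤ m) (hex : ¬ (m = 2 ∧ Fintype.card F = 2)) (H : Subgroup (Matrix.GeneralLinearGroup (Fin m ⊕ Fin m) F)) (hH : H ≤ Cfsg.spGL m F) (hproper : H ⊔ (Cfsg.Geo.scalars (Fin m ⊕ Fin m) F ⊓ Cfsg.spGL m F) ≠ Cfsg.spGL m F) : (∃ M : Subgroup (Matrix.GeneralLinearGroup (Fin m ⊕ Fin m) F), Cfsg.Geo.InSymplecticClass m F M ∧ H ≤ M) ∨ Cfsg.Geo.InSymplecticResidualClass H := by
  have hc : Fintype.card (Fin m ⊕ Fin m) = 2 * m := by simp [two_mul]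
  rcases Cfsg.Lib.Class.Asch.spCase (Cfsg.Lib.Class.Asch.isSymplecticForm_sympForm m)
      (by omega) hH with
    ⟨W, h0, h1, h⟩ | ⟨W, h0, h1, h2, h⟩ | ⟨t, k, D, h0, h⟩ | ⟨k, D, h0, h1, h2, h⟩ |
    ⟨r, K, h0, h1, h2, h3, h⟩ | ⟨K, h0, h1, h2, h3, h⟩ | ⟨n₁, n₂, e, P, f₁, f₂, h0, h1, h2, h3, h4, h⟩ |
    ⟨F₀, r, P, ζ, h0, h1, h2, h3, h⟩ | ⟨R, k, h0, h1, h2, h3, h4, -, h5, h6, h7, h⟩ |
    ⟨k, t, e, P, f₁, h0, h1, h2, h3, h4, h5, h⟩ | ⟨Q, h0, h1, h2, h⟩ | h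
  · exact .inl ⟨_, .inl (.inl ⟨W, h0, h1, rfl⟩), le_inf h hH⟩
  · exact .inl ⟨_, .inl (.inr (.inl ⟨W, h0, h1, by omega, rfl⟩)), le_inf h hH⟩
  · exact .inl ⟨_, .inl (.inr (.inr (.inl ⟨t, k, D, h0, rfl⟩))), le_inf h hH⟩
  · obtain rfl : k = m := by
      have := Cfsg.Lib.Class.Asch.card_eq_of_isMDecomposition h1
      omega
    exact .inl ⟨_, .inl (.inr (.inr (.inr (.inl ⟨D, h0, h1, h2, rfl⟩)))), le_inf h hH⟩
  · exact .inl ⟨_, .inr (.inl ⟨r, K, h0, h1, h2, h3, rfl⟩), le_inf h hH⟩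
  · exact .inl ⟨_, .inr (.inr (.inl ⟨K, h0, h1, h2, h3, rfl⟩)), le_inf h hH⟩
  · exact .inl ⟨_, .inr (.inr (.inr (.inl ⟨n₁, n₂, e, P, f₁, f₂, h0, h1, h2, h3, h4, rfl⟩))),
      le_inf h hH⟩
  · exact .inl ⟨_, .inl (.inr (.inr (.inr (.inr (.inl ⟨F₀, r, P, ζ, h0, h1, h2, h3, rfl⟩))))),
      le_inf h hH⟩
  · exact .inl ⟨_, .inl (.inr (.inr (.inr (.inr (.inr (.inl ⟨R, _, k, h1,
      Cfsg.Lib.Class.Asch.absIrr_of_env_eq_top h0.env_top,
      h2.trans (Cfsg.Lib.Class.Asch.isoms_le_similarityGroup _), h3, h4, rfl, h5, h6, h7,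
      rfl⟩)))))), le_inf h hH⟩
  · exact .inl ⟨_, .inr (.inr (.inr (.inr ⟨k, t, e, P, f₁, h0, h1, h2, h3, h4, h5, rfl⟩))),
      le_inf h hH⟩
  · exact .inl ⟨_, .inl (.inr (.inr (.inr (.inr (.inr (.inr ⟨Q, h0, h1, h2, rfl⟩)))))),
      le_inf (h.trans (Cfsg.Lib.Class.Asch.isometryGroup_le_quadSimilarityGroup Q)) hH⟩
  · exact .inr h

end Cfsg.Agent.S5662
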