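import Cfsg.Statements.S5663
import Cfsg.Agent.Class.Asch.Unitary

set_option autoImplicit false
open Cfsg

namespace Cfsg.Agent.S5663

/-- Subgroup structure of the finite unitary groups. Let F be the field with q² elements and n ≥ 3 with (n, q) ≠ (3, 2), and let SU_n(q) be the group of matrices of determinant one preserving the standard unitary form Σ u_i v_i^q on F^n. Let H be a subgroup of SU_n(q) whose product with the scalar matrices in SU_n(q) is not all of SU_n(q) (H does not cover PSU_n(q)). Then either H is contained in a member of one of the geometric classes of subgroups of the unitary group GU_n(q) (with the conditions built into InUnitaryClass), or H is in the residual class: modulo scalars it is almost simple, and the perfect preimage of its socle acts absolutely irreducibly, is realisable over no proper subfield of F, and fixes no non-degenerate quadratic form and no non-degenerate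 symplectic form on F^n. -/
theorem result {F : Type*} [Field F] [Fintype F] (n q : ℕ) (hF : Fintype.card F = q ^ 2) (hn : 3 ≤ n) (hex : ¬ (n = 3 ∧ q = 2)) (H : Subgroup (Matrix.GeneralLinearGroup (Fin n) F)) (hH : H ≤ (Cfsg.GU n F q ⊓ Cfsg.Geo.specialLinear (Fin n) F)) (hproper : H ⊔ (Cfsg.Geo.scalars (Fin n) F ⊓ (Cfsg.GU n F q ⊓ Cfsg.Geo.specialLinear (Fin n) F)) ≠ (Cfsg.GU n F q ⊓ Cfsg.Geo.specialLinear (Fin n) F)) : (∃ M : Subgroup (Matrix.GeneralLinearGroup (Fin n) F), Cfsg.Geo.InUnitaryClass n F q M ∧ H ≤ M) ∨ Cfsg.Geo.InUnitaryResidualClass H := by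
  have hc : Fintype.card (Fin n) = n := Fintype.card_fin n
  have hU : H ≤ Cfsg.GU n F q := hH.trans inf_le_left
  rcases Cfsg.Lib.Class.Asch.uCase hF (Cfsg.Lib.Class.Asch.isUnitaryFormPow_hermForm hF n)
      (by omega) hU with
    ⟨W, h0, h1, h⟩ | ⟨W, h0, h1, h2, h⟩ | ⟨t, k, D, h0, h⟩ | ⟨k, D, h0, h1, h⟩ |
    ⟨r, K, h0, h1, h2, h3, h⟩ | ⟨n₁, n₂, e, P, f₁, f₂, h0, h1, h2, h3, h4, h⟩ |
    ⟨F₀, r, P, h0, h1, h2, h3, h⟩ | ⟨F₀, P, h0, h1, h2, h⟩ | ⟨F₀, P, ζ, h0, h1, h2, h3, h4, h5, h⟩ |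
    ⟨r, R, p, e, k, h0, h1, h2, -, h3, h4, h5, -, h6, h⟩ |
    ⟨k, t, e, P, f₁, h0, h1, h2, h3, h4, h⟩ | h
  · exact .inl ⟨_, .inl (.inl ⟨W, h0, h1, rfl⟩), le_inf h hU⟩
  · exact .inl ⟨_, .inl (.inr (.inl ⟨W, h0, h1, by omega, rfl⟩)), le_inf h hU⟩
  · exact .inl ⟨_, .inl (.inr (.inr (.inl ⟨t, k, D, h0, rfl⟩))), le_inf h hU⟩
  · exact .inl ⟨_, .inl (.inr (.inr (.inr (.inl ⟨k, D,
      (Cfsg.Lib.Class.Asch.card_eq_of_isMDecomposition h0).symm.trans hc, h0, h1, rfl⟩)))),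
      le_inf h hU⟩
  · exact .inl ⟨_, .inr (.inl ⟨r, K, h0, h1, h2, h3, rfl⟩), le_inf h hU⟩
  · exact .inl ⟨_, .inr (.inr (.inl ⟨n₁, n₂, e, P, f₁, f₂, h0, h1, h2, h3, h4, rfl⟩)), le_inf h hU⟩
  · exact .inl ⟨_, .inl (.inr (.inr (.inr (.inr (.inl ⟨F₀, r, P, h0, h1, h2, h3, rfl⟩))))),
      le_inf h hU⟩
  · exact .inl ⟨_, .inl (.inr (.inr (.inr (.inr (.inr (.inl ⟨F₀, P, h0, h1, h2, rfl⟩)))))),
      le_inf h hU⟩
  · exact .inl ⟨_, .inl (.inr (.inr (.inr (.inr (.inr (.inr (.inl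
      ⟨F₀, P, ζ, hc ▸ h0, h1, h2, h3, h4, h5, rfl⟩))))))), le_inf h hU⟩
  · exact .inl ⟨_, .inl (.inr (.inr (.inr (.inr (.inr (.inr (.inr ⟨r, R, p, e, k, h1,
      Cfsg.Lib.Class.Asch.absIrr_of_env_eq_top h0.env_top, h2, h3, h4,
      h6.imp_left fun h6 => ⟨h6.1, h6.2.1, h5, h6.2.2⟩, rfl⟩))))))), le_inf h hU⟩
  · exact .inl ⟨_, .inr (.inr (.inr ⟨k, t, e, P, f₁, h0, h1, h2, h3, h4, rfl⟩)), le_inf h hU⟩
  · exact .inr h

end Cfsg.Agent.S5663
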