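import Cfsg.Statements.S5664
import Cfsg.Agent.Class.FieldExtSp
import Cfsg.Agent.Class.FieldExtBridge
import Cfsg.Agent.Class.AL.SpProper

set_option autoImplicit false
open Cfsg

namespace Cfsg.Agent.S5664

open Cfsg.Lib.Class Cfsg.Lib.Class.Asch Cfsg.Geo Module


/-- For a finite field F and m ≥ 7, let K be a subfield of the algebra of 2m × 2m matrices over F containing the scalars, of prime degree r over F, whose elements k are self-adjoint for the standard alternating form f on F^(2m) (f(k u, v) = f(u, k v)) and satisfy f(k v, v) = 0 for all v. Then the elements of Sp_2m(F) normalising K form a maximal subgroup of Sp_2m(F). -/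
theorem result {F : Type*} [Field F] [Fintype F] (m : ℕ) (hm : 7 ≤ m) (r : ℕ) (hr : r.Prime) (K : Subalgebra F (Matrix (Fin m ⊕ Fin m) (Fin m ⊕ Fin m) F)) (hK : Cfsg.Geo.IsFieldSubalgebra r K) (hsa : Cfsg.Geo.IsSelfAdjointFor (Cfsg.sympForm m F) K) (halt : ∀ k ∈ K, ∀ v : (Fin m ⊕ Fin m → F), Cfsg.sympForm m F (Matrix.mulVec k v) v = 0) : Cfsg.Geo.IsMaximalIn (Cfsg.spGL m F) (Cfsg.Geo.subalgebraNormalizer K ⊓ Cfsg.spGL m F) := by
  have : Nonempty (Fin m ⊕ Fin m) := ⟨.inl ⟨0, by omega⟩⟩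
  refine ⟨lt_of_le_of_ne inf_le_right fun h ↦ AL.not_Sp_le_field (isSymplecticForm_sympForm m)
    (by simp; omega) hr.two_le hK (h.ge.trans inf_le_left), fun M h1 h2 ↦ ?_⟩
  by_cases hN : M ≤ subalgebraNormalizer K
  · exact Or.inl (le_antisymm (le_inf hN h2) h1)
  refine Or.inr (le_antisymm h2 fun g hg ↦ ?_)
  let _ := (isField_of_isFieldSubalgebra hK).toField
  have : FiniteDimensional K (Fin m ⊕ Fin m → F) := Module.Finite.of_restrictScalars_finite F K _
  obtain ⟨τ, hτ⟩ := exists_dual_ne_zero F K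
  obtain ⟨h, hh⟩ := FE.exists_kform hτ (sympBilin m F) fun k x y ↦ by
    rw [sympBilin_apply, sympBilin_apply]
    exact hsa k k.2 x y
  have hA : h.IsAlt := fun x ↦ FE.eq_of_forall_tau hτ fun k ↦ by
    rw [← smul_eq_mul, ← LinearMap.smul_apply, ← map_smul, ← hh, mul_zero, map_zero, sympBilin_apply]
    exact halt k k.2 x
  have hB : ∀ g ∈ SpB h, g.restrictScalars F ∈ SpB (sympBilin m F) := fun g hg x y ↦ by
    change sympBilin m F (g x) (g y) = sympBilin m F x y
    rw [hh, hh, mem_SpB.1 hg]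
  have H : FE.SpExt h τ (sympBilin m F) (M.map (glLin _ F).toMonoidHom) :=
    ⟨hA.isRefl.nondegenerate_iff_separatingLeft.2 fun x hx ↦ (sympBilin_nondegenerate m).1 x
      fun y ↦ by rw [hh, hx, map_zero], hA, hτ, hh,
      by rintro _ ⟨g, hg, rfl⟩; exact (glLin_mem_SpB_iff m g).2 (h2 hg),
      fun g hg ↦ ⟨(glLin _ F).symm (g.restrictScalars F), h1
        ⟨glLin_symm_mem_subalgebraNormalizer fun k x ↦ g.map_smul k x,
          (glLin_mem_SpB_iff m _).1 (by rw [MulEquiv.apply_symm_apply]; exact hB g hg)⟩,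
        MulEquiv.apply_symm_apply _ _⟩⟩
  have hd := Module.finrank_mul_finrank F K (Fin m ⊕ Fin m → F)
  rw [hK.finrank_eq, finrank_symp_space] at hd
  have hm2 : 2 ≤ finrank K (Fin m ⊕ Fin m → F) := by
    by_contra hlt
    have h3 : finrank K (Fin m ⊕ Fin m → F) = 1 := by
      rcases Nat.lt_succ_iff.1 (not_le.1 hlt) |>.eq_or_lt with e | e
      · exact e
      · rw [Nat.lt_one_iff.1 e] at hd; omega
    rw [h3, mul_one] at hd
    exact absurd ((hd ▸ hr).eq_one_or_self_of_dvd 2 (dvd_mul_right 2 m)) (by omega)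
  obtain ⟨g', hg', e⟩ := H.SpB_le (hK.finrank_eq ▸ hr) hm2 (by
    rw [hK.finrank_eq]
    by_contra! h3
    have : r * finrank K (Fin m ⊕ Fin m → F) ≤ 2 * 2 := Nat.mul_le_mul (by omega) (by omega)
    omega) (exists_not_semilinear hN) ((glLin_mem_SpB_iff m g).2 hg)
  exact (glLin _ F).injective e ▸ hg'

end Cfsg.Agent.S5664
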