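import Cfsg.Statements.S5665
import Cfsg.Agent.Class.SpUnit

set_option autoImplicit false
open Cfsg

namespace Cfsg.Agent.S5665

open Cfsg.Lib.Class
open Matrix

/-- For a finite field F of odd order and m ≥ 7, let K be a subfield of the algebra of 2m × 2m matrices over F containing the scalars, of degree 2 over F, that is closed under adjoints for the standard alternating form on F^(2m) but whose elements are not all self-adjoint (so the adjoint map induces the automorphism of order two of K). Then the elements of Sp_2m(F) normalising K form a maximal subgroup of Sp_2m(F). -/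
theorem result {F : Type*} [Field F] [Fintype F] (m : ℕ) (hm : 7 ≤ m) (hodd : Odd (Fintype.card F)) (K : Subalgebra F (Matrix (Fin m ⊕ Fin m) (Fin m ⊕ Fin m) F)) (hK : Cfsg.Geo.IsFieldSubalgebra 2 K) (hac : Cfsg.Geo.IsAdjointClosedFor (Cfsg.sympForm m F) K) (hnsa : ¬ Cfsg.Geo.IsSelfAdjointFor (Cfsg.sympForm m F) K) : Cfsg.Geo.IsMaximalIn (Cfsg.spGL m F) (Cfsg.Geo.subalgebraNormalizer K ⊓ Cfsg.spGL m F) := by
  have h2 := two_ne_zero_of_odd_card hodd
  have hB := sympBilin_nondegenerate (F := F) m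
  have hA := sympBilin_isAlt (F := F) m
  simp only [Cfsg.Geo.IsSelfAdjointFor, not_forall] at hnsa
  obtain ⟨k, hk, u₀, v₀, hne⟩ := hnsa
  obtain ⟨k', hk', hkk⟩ := hac k hk
  simp only [← sympBilin_apply] at hne hkk
  set B := sympBilin m F
  have hT : k - k' ∈ K := K.sub_mem hk hk'
  have hskew : ∀ u v, B ((k - k') *ᵥ u) v = -B u ((k - k') *ᵥ v) := fun u v => by
    simp only [Matrix.sub_mulVec, map_sub, LinearMap.sub_apply, hkk]
    rw [← hA.neg_eq v, ← hkk v u, hA.neg_eq]
    ring
  have hT0 : B ((k - k') *ᵥ v₀) u₀ ≠ 0 := by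
    rw [← hA.neg_eq, Matrix.sub_mulVec, map_sub, ← hkk, neg_sub, sub_ne_zero]
    exact hne
  set T := k - k'
  have hind : ∀ s t : F, s • (1 : Matrix _ _ F) + t • T = 0 → s = 0 ∧ t = 0 := by
    intro s t h
    have h1 : ∀ u, s • u + t • T *ᵥ u = 0 := fun u => by
      simpa [Matrix.add_mulVec, Matrix.smul_mulVec] using congrArg (· *ᵥ u) h
    have e1 := congrArg (B · u₀) (h1 (T *ᵥ v₀))
    have e2 := congrArg (B (T *ᵥ v₀)) (h1 u₀)
    have e3 := congrArg (B · u₀) (h1 v₀)
    simp only [map_add, map_smul, LinearMap.add_apply, LinearMap.smul_apply, smul_eq_mul, map_zero,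
      LinearMap.zero_apply, hskew (T *ᵥ v₀)] at e1 e2 e3
    have hs : s = 0 := by
      have : 2 * s * B (T *ᵥ v₀) u₀ = 0 := by linear_combination e1 + e2
      simpa [h2, hT0] using this
    exact ⟨hs, by simpa [hs, hT0] using e3⟩
  have hspan : ∀ x ∈ K, ∃ s t : F, s • (1 : Matrix _ _ F) + t • T = x := by
    intro x hx
    have hli : LinearIndependent F ![(1 : K), ⟨T, hT⟩] :=
      LinearIndependent.pair_iff.2 fun s t h => hind s t (congrArg Subtype.val h)
    have : FiniteDimensional F K := Module.finite_of_finrank_pos (by rw [hK.finrank_eq]; norm_num)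
    have h1 := (hli.span_eq_top_of_card_eq_finrank' (by simp [hK.finrank_eq])).ge
      (Submodule.mem_top (x := ⟨x, hx⟩))
    rw [Matrix.range_cons_cons_empty, Submodule.mem_span_pair] at h1
    obtain ⟨s, t, h⟩ := h1
    exact ⟨s, t, congrArg Subtype.val h⟩
  obtain ⟨δ, t, hδ⟩ := hspan _ (K.mul_mem hT hT)
  have ht : t = 0 := by
    have h1 : ∀ u, δ • u + t • T *ᵥ u = T *ᵥ (T *ᵥ u) := fun u => by
      simpa [Matrix.add_mulVec, Matrix.smul_mulVec] using congrArg (· *ᵥ u) hδ
    have e1 := congrArg (B · u₀) (h1 v₀)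
    have e2 := congrArg (B v₀) (h1 u₀)
    have e3 := hskew v₀ u₀
    have e4 := hskew v₀ (T *ᵥ u₀)
    simp only [map_add, map_smul, LinearMap.add_apply, LinearMap.smul_apply, smul_eq_mul,
      hskew (T *ᵥ v₀)] at e1 e2
    have : 2 * t * B (T *ᵥ v₀) u₀ = 0 := by linear_combination e1 - e2 + t * e3 - e4
    simpa [h2, hT0] using this
  rw [ht, zero_smul, add_zero] at hδ
  have h : SkewRoot B (Matrix.toLin' T) δ := by
    refine ⟨hB, h2, fun x => ?_, fun s hs => ?_, hskew⟩
    · simp [← hδ, Matrix.smul_mulVec]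
    · obtain ⟨y, -, hy⟩ := hK.inv (s • 1 + (1 : F) • T)
        (K.add_mem (K.smul_mem K.one_mem _) (K.smul_mem hT _)) fun h0 => by simpa using (hind _ _ h0).2
      have h0 : ((-s) • 1 + (1 : F) • T) * (s • 1 + (1 : F) • T) = 0 := by
        simp only [add_mul, mul_add, Matrix.smul_mul, Matrix.mul_smul, one_mul, mul_one, ← hδ, ← hs]
        module
      have h1 := congrArg (· * y) h0
      simp only [mul_assoc, hy, mul_one, zero_mul] at h1
      simpa using (hind _ _ h1).2
  refine isMaximalIn_spGL_of m (fun g => ⟨fun hg => ?_, fun hg => ?_⟩)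
    (h.isMaximalIn_normRoot hA (by simp; omega))
  · obtain ⟨s, t, e⟩ := hspan _ ((hg T).1 hT)
    have e' : s • g.1 + t • (T * g.1) = g.1 * T := by
      simpa [add_mul, mul_assoc] using congrArg (· * g.1) e
    refine ⟨s, t, ?_, fun x => ?_⟩
    · rintro rfl
      have h1 := congrArg ((g⁻¹).1 * ·) e'
      simp only [zero_smul, add_zero, Matrix.mul_smul, Units.inv_mul, Units.inv_mul_cancel_left]
        at h1
      simpa using (hind s (-1) (by simp [h1])).2
    · simp [← e', Matrix.add_mulVec, Matrix.smul_mulVec]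
  · have key : ∀ g : GL _ F, glLin _ F g ∈ normRoot (Matrix.toLin' T) → ∀ x ∈ K,
        g.1 * x * (g⁻¹).1 ∈ K := by
      rintro g ⟨s, t, -, hst⟩ x hx
      obtain ⟨a, b, rfl⟩ := hspan x hx
      have e : g.1 * T = s • g.1 + t • (T * g.1) :=
        matrix_ext_mulVec fun v => by simpa [Matrix.add_mulVec, Matrix.smul_mulVec] using hst v
      simp only [mul_add, add_mul, Matrix.mul_smul, Matrix.smul_mul, e, mul_one, Units.mul_inv,
        Units.mul_inv_cancel_right]
      exact K.add_mem (K.smul_mem K.one_mem _) (K.smul_mem (K.add_mem (K.smul_mem K.one_mem _)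
        (K.smul_mem hT _)) _)
    refine fun x => ⟨key g hg x, fun hx => ?_⟩
    simpa [mul_assoc] using key g⁻¹ (by rw [map_inv]; exact inv_mem hg) _ hx
end Cfsg.Agent.S5665
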