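import Cfsg.Statements.S5673
import Cfsg.Agent.Class.Asch.Orth

set_option autoImplicit false
open Cfsg

namespace Cfsg.Agent.S5673

open Cfsg.Lib.Class Cfsg.Lib.Class.Asch

/-- Subgroup structure of the odd-dimensional orthogonal groups. Let F be a finite field of odd order and m ≥ 3, let Q be the standard quadratic form x₀² + Σ x_i y_i on F^(2m+1), and let Ω be the commutator subgroup of its isometry group, viewed inside GL_(2m+1)(F). Let H be a subgroup of Ω whose product with the scalar matrices in Ω is not all of Ω. Then either H is contained in a member of one of the geometric classes of subgroups of the isometry group (with the conditions built into InOrthogonalOddClass), or H is in the residual class: modulo scalars it is almost simple, and the perfect preimage of its socle acts absolutely irreducibly, is realisable over no proper subfield, and fixes no non-degenerate unitary form. -/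
theorem result {F : Type*} [Field F] [Fintype F] (hodd : Odd (Fintype.card F)) (m : ℕ) (hm : 3 ≤ m) (H : Subgroup (Matrix.GeneralLinearGroup (Unit ⊕ (Fin m ⊕ Fin m)) F)) (hH : H ≤ Cfsg.Geo.omegaGL (Cfsg.quadFormOdd m F)) (hproper : H ⊔ (Cfsg.Geo.scalars (Unit ⊕ (Fin m ⊕ Fin m)) F ⊓ Cfsg.Geo.omegaGL (Cfsg.quadFormOdd m F)) ≠ Cfsg.Geo.omegaGL (Cfsg.quadFormOdd m F)) : (∃ M : Subgroup (Matrix.GeneralLinearGroup (Unit ⊕ (Fin m ⊕ Fin m)) F), Cfsg.Geo.InOrthogonalOddClass m F M ∧ H ≤ M) ∨ Cfsg.Geo.InOrthogonalResidualClass H := by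
  have hc : Fintype.card (Unit ⊕ (Fin m ⊕ Fin m)) = 2 * m + 1 := by simp [two_mul, add_comm]
  have ho : Odd (Fintype.card (Unit ⊕ (Fin m ⊕ Fin m))) := ⟨m, hc⟩
  have he : ∀ {k : ℕ}, Even k → ¬ k ∣ Fintype.card (Unit ⊕ (Fin m ⊕ Fin m)) := fun hk h =>
    Nat.not_even_iff_odd.2 (ho.of_dvd_nat h) hk
  have hs : ∀ {k : ℕ} {f : (Fin k → F) → (Fin k → F) → F}, Cfsg.Geo.IsSymplecticForm f → Even k :=
    fun h => by simpa using even_card_of_isSymplecticForm h
  have hQ := isNondegenerateQuadraticForm_quadFormOdd (two_ne_zero_of_odd_card hodd) m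
  have hI : H ≤ Cfsg.isometryGroup F (Cfsg.quadFormOdd m F) :=
    hH.trans (Subgroup.map_subtype_le _)
  rcases oCase hQ (by omega) hI with
    ⟨W, h0, h1, h⟩ | ⟨W, h0, h1, h2, h⟩ | ⟨v, h0, -⟩ | ⟨t, k, D, h0, h1, h⟩ | ⟨k, D, h0, -⟩ |
    ⟨r, K, h0, h1, h2, h3, -, h⟩ | ⟨K, h0, -⟩ | ⟨n₁, n₂, e, P, f₁, f₂, -, h0, -, h1, h2, h3, h4, h⟩ |
    ⟨n₁, n₂, e, P, f₁, f₂, -, -, h0, -⟩ | ⟨F₀, r, P, ζ, h0, h1, h2, h3, h⟩ | ⟨R, h0, -⟩ |
    ⟨k, t, e, P, f₁, -, h0, h1, h2, h3, h4, h⟩ | ⟨k, t, e, P, f₁, h0, -, h1, -⟩ | h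
  · exact .inl ⟨_, .inl ⟨W, h0, h1, rfl⟩, le_inf h hI⟩
  · exact .inl ⟨_, .inr (.inl ⟨W, h0, h1, h2, rfl⟩), le_inf h hI⟩
  · exact absurd hodd h0
  · rcases (Nat.succ_le_of_lt h1.decomp.decomp.pos).eq_or_lt with rfl | hk
    · exact .inl ⟨_, .inr (.inr (.inr (.inl ⟨t, D, h0 rfl, h1, rfl⟩))), le_inf h hI⟩
    · exact .inl ⟨_, .inr (.inr (.inl ⟨t, k, D, hk, h1, rfl⟩)), le_inf h hI⟩
  · exact absurd ⟨k, card_eq_of_isMDecomposition h0⟩ (he even_two)
  · exact .inl ⟨_, .inr (.inr (.inr (.inr (.inl ⟨r, K, h0, hc ▸ h1, h2, h3, rfl⟩)))), le_inf h hI⟩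
  · exact absurd (IsFieldSubalgebra.dvd_card h0) (he even_two)
  · exact .inl ⟨_, .inr (.inr (.inr (.inr (.inr (.inl ⟨n₁, n₂, e, P, f₁, f₂, h0,
      h1 (Nat.not_even_iff_odd.1 fun h5 => he h5 ⟨n₂, by simpa using Fintype.card_congr e⟩),
      h2, h3, h4, rfl⟩))))), le_inf h hI⟩
  · exact absurd ⟨n₂, by simpa using Fintype.card_congr e⟩ (he (hs h0))
  · obtain ⟨c, h4⟩ := exists_isQuadFormRationalStructure_of_odd hQ ho (fun u hu =>
      add_mem (pow_mem (hu _) 2) (sum_mem fun i _ => mul_mem (hu _) (hu _))) h2 h3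
    exact .inl ⟨_, .inr (.inr (.inr (.inr (.inr (.inr (.inl ⟨F₀, r, _, h0, h1, h4, rfl⟩)))))),
      le_inf (subfieldSubgroup_mul_scalarGL F₀ P c ▸ h) hI⟩
  · obtain ⟨k, h1, h2⟩ := h0.exists_card_eq_pow
    exact absurd (h2 ▸ dvd_pow_self 2 (by omega)) (he even_two)
  · exact .inl ⟨_, .inr (.inr (.inr (.inr (.inr (.inr (.inr
      ⟨k, t, e, P, f₁, h0, h1, h2, h3, h4, rfl⟩)))))), le_inf h hI⟩
  · refine absurd ?_ (he (hs h1))
    rw [Fintype.card_congr e, Fintype.card_fun, Fintype.card_fin, Fintype.card_fin]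
    exact dvd_pow_self k (by omega)
  · exact .inr h

end Cfsg.Agent.S5673
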