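import Cfsg.Statements.S5677
import Cfsg.Agent.Class.ODecMax
import Cfsg.Agent.Class.OFrameMax

set_option autoImplicit false
open Cfsg

namespace Cfsg.Agent.S5677

open Cfsg.Lib Cfsg.Lib.Class Cfsg.Lib.Class.OMax

/-- Let F be a finite field of odd order q, m ≥ 6, Q the standard quadratic form on F^(2m+1) and Ω the commutator subgroup of its isometry group. Let D be a decomposition of F^(2m+1) into t ≥ 2 pairwise orthogonal, pairwise Q-isometric subspaces of equal dimension k > 1 on which the polar form is non-degenerate. Unless q = 3 and k = 3, the elements of Ω permuting the members of D form a maximal subgroup of Ω. -/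
theorem result {F : Type*} [Field F] [Fintype F] (hodd : Odd (Fintype.card F)) (m : ℕ) (hm : 6 ≤ m) {t : ℕ} (k : ℕ) (hk : 1 < k) (D : Fin t → Submodule F (Unit ⊕ (Fin m ⊕ Fin m) → F)) (hD : Cfsg.Geo.IsOrthogonalMDecomposition (Cfsg.quadFormOdd m F) k D) (hex : ¬ (Fintype.card F = 3 ∧ k = 3)) : Cfsg.Geo.IsMaximalIn (Cfsg.Geo.omegaGL (Cfsg.quadFormOdd m F)) (Cfsg.Geo.decompositionStabilizer D ⊓ Cfsg.Geo.omegaGL (Cfsg.quadFormOdd m F)) := by
  have h2 := two_ne_zero_of_odd_card hodd
  have hQ := quadOdd_nondegenerate h2 m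
  rw [← coe_quadOdd] at hD ⊢
  have h := odec_of_geo hD
  have hc := h.card_mul
  have hn : Module.finrank F (Unit ⊕ (Fin m ⊕ Fin m) → F) = 2 * m + 1 := by simp; ring
  have ht := hD.decomp.decomp.two_le
  rw [Fintype.card_fin] at hc
  have h3 := Nat.mul_le_mul_right k ht
  have h4 : k ≠ 2 := by rintro rfl; omega
  have := Fintype.one_lt_card (α := F)
  rw [Nat.odd_iff] at hodd
  exact (maxOm_dec h hQ (by omega) (by omega) (fun h => by omega) fun _ h => by omega).isMaximalIn
    (mem_decompositionStabilizer_iff_glLin D)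

end Cfsg.Agent.S5677
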