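import Cfsg.Statements.S5680
import Cfsg.Agent.Class.OField

set_option autoImplicit false
open Cfsg

namespace Cfsg.Agent.S5680

open Cfsg.Lib Cfsg.Lib.Class Cfsg.Lib.Class.OMax

/-- Let F be a finite field of odd order, m ≥ 6, Q the standard quadratic form on F^(2m+1) and Ω the commutator subgroup of its isometry group. Let K be a subfield of the algebra of (2m+1) × (2m+1) matrices over F containing the scalars, of prime degree r over F with r ≠ 2m + 1, whose elements are self-adjoint for the polar form of Q. Then the elements of Ω normalising K form a maximal subgroup of Ω. -/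
theorem result {F : Type*} [Field F] [Fintype F] (hodd : Odd (Fintype.card F)) (m : ℕ) (hm : 6 ≤ m) (r : ℕ) (hr : r.Prime) (hrn : 2 * m + 1 ≠ r) (K : Subalgebra F (Matrix (Unit ⊕ (Fin m ⊕ Fin m)) (Unit ⊕ (Fin m ⊕ Fin m)) F)) (hK : Cfsg.Geo.IsFieldSubalgebra r K) (hsa : Cfsg.Geo.IsSelfAdjointFor (QuadraticMap.polar (Cfsg.quadFormOdd m F)) K) : Cfsg.Geo.IsMaximalIn (Cfsg.Geo.omegaGL (Cfsg.quadFormOdd m F)) (Cfsg.Geo.subalgebraNormalizer K ⊓ Cfsg.Geo.omegaGL (Cfsg.quadFormOdd m F)) := by
  rw [← coe_quadOdd] at hsa ⊢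
  have h2 := two_ne_zero_of_odd_card hodd
  have h1 := Asch.IsFieldSubalgebra.dvd_card hK
  simp only [Fintype.card_sum, Fintype.card_unit, Fintype.card_fin] at h1
  refine isMaximalIn_selfAdjoint (quadOdd_nondegenerate h2 m) h2 hr ?_ (Or.inl ?_) hK hsa
  · simp only [Fintype.card_sum, Fintype.card_unit, Fintype.card_fin]
    obtain ⟨k, hk⟩ := h1
    rw [hk, mul_comm]
    refine Nat.mul_le_mul_left _ ?_
    by_contra hc
    obtain rfl | rfl | rfl : k = 0 ∨ k = 1 ∨ k = 2 := by omega
    all_goals omega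
  · simp only [Fintype.card_sum, Fintype.card_unit, Fintype.card_fin]
    omega

end Cfsg.Agent.S5680
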