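import Cfsg.Statements.S5684
import Cfsg.Agent.Class.WrO.Mat
import Cfsg.Agent.Class.WrO.G3f

set_option autoImplicit false
open Cfsg
open Cfsg.Lib.Class Cfsg.Lib.Class.WrO

namespace Cfsg.Agent.S5684

/-- Let F be a finite field of odd order q, m ≥ 6, Q the standard quadratic form on F^(2m+1) and Ω the commutator subgroup of its isometry group. Suppose the polar form of Q is similar, through a change of basis P and a bijection of index sets e, to the t-fold tensor power (t ≥ 2) of a non-degenerate symmetric bilinear form f₁ on F^k with k ≥ 3 and (q, k) ≠ (3, 3). Then the elements of Ω in the stabiliser of this decomposition form a maximal subgroup of Ω. -/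
theorem result {F : Type*} [Field F] [Fintype F] (hodd : Odd (Fintype.card F)) (m : ℕ) (hm : 6 ≤ m) (k t : ℕ) (hk : 3 ≤ k) (ht : 2 ≤ t) (hex : ¬ (Fintype.card F = 3 ∧ k = 3)) (e : (Unit ⊕ (Fin m ⊕ Fin m)) ≃ (Fin t → Fin k)) (P : Matrix.GeneralLinearGroup (Unit ⊕ (Fin m ⊕ Fin m)) F) (f₁ : (Fin k → F) → (Fin k → F) → F) (hf₁ : Cfsg.Geo.IsSymmetricForm f₁) (hT : Cfsg.Geo.IsTensorPowerFormStructure id (QuadraticMap.polar (Cfsg.quadFormOdd m F)) f₁ e P) : Cfsg.Geo.IsMaximalIn (Cfsg.Geo.omegaGL (Cfsg.quadFormOdd m F)) (Cfsg.Geo.tensorWreathSubgroup k t e P ⊓ Cfsg.Geo.omegaGL (Cfsg.quadFormOdd m F)) := by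
  obtain ⟨s, rfl⟩ : ∃ s, t = s + 1 := ⟨t - 1, by omega⟩
  have h2 : (2 : F) ≠ 0 := two_ne_zero_of_odd_card hodd
  have h1 : 1 + (m + m) = k ^ (s + 1) := by simpa using Fintype.card_congr e
  have ho : Odd k := (Nat.odd_pow_iff (n := k) (e := s + 1) (by omega)).1 (h1 ▸ ⟨m, by omega⟩)
  rw [← coe_quadOdd] at hT ⊢
  have hQ := quadOdd_nondegenerate h2 m
  by_cases h5 : 5 ≤ k
  · exact isMaximalIn_orth_five hQ h2 (by omega) h5 hf₁ hT
  obtain rfl : k = 3 := by obtain ⟨r, hr⟩ := ho; omega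
  have hq : 4 ≤ Nat.card F := by
    rw [Nat.card_eq_fintype_card]
    obtain ⟨r, hr⟩ := hodd
    have := Fintype.one_lt_card (α := F)
    have : Fintype.card F ≠ 3 := fun h => hex ⟨h, rfl⟩
    omega
  have os : OS (geoBilin hf₁.bilinear) := ⟨Tn.hm_of_symm h2
    (geoBilin_nondegenerate _ hf₁.nondegenerate) hf₁.symm, h2, by simp,
    Or.inl (Tn.exists_sq_ne_one hq)⟩
  have hU : Odd (Module.finrank F ((Fin s → Fin 3) → F)) := by
    simpa using Odd.pow (by decide : Odd 3)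
  exact isMaximalIn_orth_of hQ (by omega) hf₁ os hT fun _ _ c hK hX hL _ hg =>
    c.isWr_three 0 (by simp) hq hU hL (allPerm c.tp c.tf h2 hK hX os hU) hg

end Cfsg.Agent.S5684
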