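import Cfsg.Statements.S5692
import Cfsg.Agent.Class.OPlaneMax
import Cfsg.Agent.Class.ODecMax

set_option autoImplicit false
open Cfsg

namespace Cfsg.Agent.S5692

open Cfsg.Lib Cfsg.Lib.Class Cfsg.Lib.Class.OMax

/-- Let F be a finite field with q elements, n ≥ 13 even, Q a non-degenerate quadratic form on F^n of plus type (some subspace of dimension n/2 is totally singular), and Ω the commutator subgroup of the isometry group of Q, viewed inside GL_n(F). Let D be a decomposition of F^n into t ≥ 2 pairwise orthogonal, pairwise Q-isometric subspaces of equal dimension k ≥ 2 on which the polar form is non-degenerate, such that: if k is even, either every member is of plus type or t is even; if k is odd, q is odd and the discriminant of Q is a square. Exclude the cases k = 2 with q = 3, k = 2 with plus-type members and q ∈ {2, 4, 5}, k = 3 with q = 3, and k = 4 with plus-type members and q = 2. Then the elements of Ω permuting the members of D form a maximal subgroup of Ω. -/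
theorem result {F : Type*} [Field F] [Fintype F] {n : ℕ} (hn : 13 ≤ n) (heven : Even n) (Q : (Fin n → F) → F) (hQ : Cfsg.Geo.IsNondegenerateQuadraticForm Q) (hplus : Cfsg.Geo.IsPlusTypeOn Q ⊤) {t : ℕ} (k : ℕ) (hk : 2 ≤ k) (D : Fin t → Submodule F (Fin n → F)) (hD : Cfsg.Geo.IsOrthogonalMDecomposition Q k D) (hke : Even k → ((∀ i, Cfsg.Geo.IsPlusTypeOn Q (D i)) ∨ Even t)) (hko : Odd k → (Odd (Fintype.card F) ∧ Cfsg.Geo.HasSquareDiscriminant Q)) (hex : ¬ ((k = 2 ∧ (Fintype.card F = 3 ∨ ((∀ i, Cfsg.Geo.IsPlusTypeOn Q (D i)) ∧ (Fintype.card F = 2 ∨ Fintype.card F = 4 ∨ Fintype.card F = 5)))) ∨ (k = 3 ∧ Fintype.card F = 3) ∨ (k = 4 ∧ Fintype.card F = 2 ∧ ∀ i, Cfsg.Geo.IsPlusTypeOn Q (D i)))) : Cfsg.Geo.IsMaximalIn (Cfsg.Geo.omegaGL Q) (Cfsg.Geo.decompositionStabilizer D ⊓ Cfsg.Geo.omegaGL Q) := by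
  have hq := geoQuad_nondegenerate hQ
  have h := odec_of_geo (Q := geoQuad hQ) hD
  have hc := h.card_mul
  have ht := hD.decomp.decomp.two_le
  rw [Fintype.card_fin, Module.finrank_fintype_fun_eq_card, Fintype.card_fin] at hc
  have h3 := Nat.mul_le_mul_right k ht
  have h1 := Fintype.one_lt_card (α := F)
  have hall : ∀ i, Known.IsPlus ((geoQuad hQ).restrict (D i)) → ∀ j, Cfsg.Geo.IsPlusTypeOn Q (D j) :=
    fun i hi j => (h.iso i j).elim fun e he =>
      (AO.isPlusTypeOn_iff (Q := geoQuad hQ)).2 (hi.of_equiv e (c := 1) fun w => (he w).trans (one_mul _).symm)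
  refine MaxOm.isMaximalIn (Q := geoQuad hQ) ?_ (mem_decompositionStabilizer_iff_glLin D)
  by_cases h2 : k = 2
  · subst h2
    refine maxOm_dec_two h hq (by rw [Fintype.card_fin]; omega)
      (fun h3 => hex (Or.inl ⟨rfl, Or.inl h3⟩)) fun i p hp hp0 hp1 => ?_
    have h4 := hall i ((AO.isPlusTypeOn_iff (Q := geoQuad hQ)).1
      (isPlusTypeOn_of_singular (h.rank i) hp hp0 hp1))
    have h6 : Fintype.card F ≠ 6 := fun h6 =>
      absurd (h6 ▸ Fintype.isPrimePow_card_of_field (α := F)) (by decide)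
    by_contra h7
    exact hex (Or.inl ⟨rfl, by
      by_cases h8 : Fintype.card F = 3
      exacts [Or.inl h8, Or.inr ⟨h4, by omega⟩]⟩)
  refine maxOm_dec h hq (by omega) (by simp; omega) (fun h4 => ?_)
    fun h4 h5 i hi => hex (Or.inr (Or.inr ⟨h4, h5, hall i hi⟩))
  have h5 := Nat.odd_iff.1 (hko (by rw [h4]; decide)).1
  have h6 : Fintype.card F ≠ 3 := fun h6 => hex (Or.inr (Or.inl ⟨h4, h6⟩))
  omega

end Cfsg.Agent.S5692
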