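import Cfsg.Statements.S5694
import Cfsg.Agent.Class.OPlaneMax
import Cfsg.Agent.Class.ODecMax

set_option autoImplicit false
open Cfsg

namespace Cfsg.Agent.S5694

open Cfsg.Lib Cfsg.Lib.Class Cfsg.Lib.Class.OMax

/-- Let F be a finite field with q elements, n ≥ 13 even, Q a non-degenerate quadratic form on F^n of minus type (no subspace of dimension n/2 is totally singular), and Ω the commutator subgroup of the isometry group of Q, viewed inside GL_n(F). Let D be a decomposition of F^n into t ≥ 2 pairwise orthogonal, pairwise Q-isometric subspaces of equal dimension k ≥ 2 on which the polar form is non-degenerate, such that: if k is odd, q is odd and the discriminant of Q is a square; if k is even, t is odd and no member is of plus type. Unless q = 3 and k ∈ {2, 3}, the elements of Ω permuting the members of D form a maximal subgroup of Ω. -/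
theorem result {F : Type*} [Field F] [Fintype F] {n : ℕ} (hn : 13 ≤ n) (heven : Even n) (Q : (Fin n → F) → F) (hQ : Cfsg.Geo.IsNondegenerateQuadraticForm Q) (hminus : ¬ Cfsg.Geo.IsPlusTypeOn Q ⊤) {t : ℕ} (k : ℕ) (hk : 2 ≤ k) (D : Fin t → Submodule F (Fin n → F)) (hD : Cfsg.Geo.IsOrthogonalMDecomposition Q k D) (hko : Odd k → (Odd (Fintype.card F) ∧ Cfsg.Geo.HasSquareDiscriminant Q)) (hke : Even k → (Odd t ∧ ∀ i, ¬ Cfsg.Geo.IsPlusTypeOn Q (D i))) (hex : ¬ (Fintype.card F = 3 ∧ (k = 2 ∨ k = 3))) : Cfsg.Geo.IsMaximalIn (Cfsg.Geo.omegaGL Q) (Cfsg.Geo.decompositionStabilizer D ⊓ Cfsg.Geo.omegaGL Q) := by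
  have hq := geoQuad_nondegenerate hQ
  have h := odec_of_geo (Q := geoQuad hQ) hD
  have hc := h.card_mul
  have ht := hD.decomp.decomp.two_le
  rw [Fintype.card_fin, Module.finrank_fintype_fun_eq_card, Fintype.card_fin] at hc
  have h3 := Nat.mul_le_mul_right k ht
  have h1 := Fintype.one_lt_card (α := F)
  refine MaxOm.isMaximalIn (Q := geoQuad hQ) ?_ (mem_decompositionStabilizer_iff_glLin D)
  by_cases h2 : k = 2
  · subst h2
    exact maxOm_dec_two h hq (by rw [Fintype.card_fin]; omega)
      (fun h3 => hex ⟨h3, Or.inl rfl⟩) fun i p hp hp0 hp1 =>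
        absurd (isPlusTypeOn_of_singular (h.rank i) hp hp0 hp1) ((hke even_two).2 i)
  refine maxOm_dec h hq (by omega) (by simp; omega) (fun h4 => ?_) fun h4 h5 i hi =>
    (hke (by rw [h4]; decide)).2 i ((AO.isPlusTypeOn_iff (Q := geoQuad hQ)).2 hi)
  have h5 := Nat.odd_iff.1 (hko (by rw [h4]; decide)).1
  have h6 : Fintype.card F ≠ 3 := fun h6 => hex ⟨h6, Or.inr h4⟩
  omega

end Cfsg.Agent.S5694
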