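import Cfsg.Statements.S5699
import Cfsg.Agent.Class.OMaxSub

set_option autoImplicit false
open Cfsg

namespace Cfsg.Agent.S5699

open Cfsg.Lib.Class Cfsg.Lib.Class.OMax Cfsg.Lib.Class.Orth

/-- Let F be a finite field with q elements, n ≥ 13 even, Q a non-degenerate quadratic form on F^n (of either type), and Ω the commutator subgroup of the isometry group of Q, viewed inside GL_n(F). Let D be a decomposition of F^n into two orthogonal subspaces of odd dimension n/2 on which the polar form is non-degenerate and which are not Q-isometric to each other. Then the elements of Ω permuting (necessarily fixing) the two subspaces form a maximal subgroup of Ω. -/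
theorem result {F : Type*} [Field F] [Fintype F] {n : ℕ} (hn : 13 ≤ n) (heven : Even n) (Q : (Fin n → F) → F) (hQ : Cfsg.Geo.IsNondegenerateQuadraticForm Q) (k : ℕ) (hk : 2 * k = n) (hko : Odd k) (D : Fin 2 → Submodule F (Fin n → F)) (hD : Cfsg.Geo.IsNondegenerateMDecomposition (QuadraticMap.polar Q) k D) (hni : ¬ Cfsg.Geo.AreIsometricFor Q (D 0) (D 1)) : Cfsg.Geo.IsMaximalIn (Cfsg.Geo.omegaGL Q) (Cfsg.Geo.decompositionStabilizer D ⊓ Cfsg.Geo.omegaGL Q) := by
  have hq := geoQuad_nondegenerate hQ
  have h0 := hD.decomp.finrank_eq 0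
  have h1 := hD.decomp.finrank_eq 1
  have hd := finrank_orth hq (D 0)
  have hnd := disjoint_orth_of_isNondegenerateOn (Q := geoQuad hQ) (hD.nondegenerate 0)
  simp only [Module.finrank_fintype_fun_eq_card, Fintype.card_fin] at hd
  have he : D 1 = orth (geoQuad hQ) (D 0) := Submodule.eq_of_le_of_finrank_eq
    (fun x hx y hy => hD.orthogonal 0 1 (by decide) y hy x hx) (by omega)
  obtain ⟨j, hj⟩ := hko
  refine ((maxOm_nondeg hq hnd (by rintro h; rw [h, finrank_bot] at h0; omega)
    (by rintro h; rw [h] at h0; simp at h0; omega) (by omega) (by omega)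
    (by simp; omega) (fun _ => he ▸ hni)).congr (N' := stabDec D) fun g _ => ?_).isMaximalIn
      (mem_decompositionStabilizer_iff_glLin D)
  constructor
  · intro h
    refine mem_stabDec_of_forall fun i v hv => ?_
    fin_cases i
    · exact (h v).1 hv
    · simp only [Fin.mk_one, he] at hv ⊢
      exact (mem_stab_orth h v).1 hv
  · rintro ⟨σ, hσ⟩
    have h2 := hσ 0
    by_cases h3 : σ 0 = 0
    · rw [h3] at h2
      exact mem_stab_iff_map.2 h2
    · rw [show σ 0 = 1 by omega] at h2
      exact absurd (exists_equiv_of_map_eq h2) hni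

end Cfsg.Agent.S5699
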