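import Cfsg.Statements.S5706
import Cfsg.Agent.Class.Wr.FormMat

set_option autoImplicit false
open Cfsg
open Cfsg.Lib.Class

namespace Cfsg.Agent.S5706

/-- Let F be a finite field with q elements, n ≥ 13 even, Q a non-degenerate quadratic form on F^n of plus type (some subspace of dimension n/2 is totally singular), and Ω the commutator subgroup of the isometry group of Q, viewed inside GL_n(F). Suppose that, through a change of basis P and a bijection of index sets e, the polar form of Q is similar to the t-fold tensor power (t ≥ 2) of a non-degenerate symplectic form f₁ on F^k, that Q vanishes on the images of all pure tensors, that t is even if q is odd, that (q, k) is neither (2, 2) nor (3, 2), and that k ≥ 6 if q is even. Then the elements of Ω in the stabiliser of this decomposition form a maximal subgroup of Ω. -/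
theorem result {F : Type*} [Field F] [Fintype F] {n : ℕ} (hn : 13 ≤ n) (heven : Even n) (Q : (Fin n → F) → F) (hQ : Cfsg.Geo.IsNondegenerateQuadraticForm Q) (hplus : Cfsg.Geo.IsPlusTypeOn Q ⊤) (k t : ℕ) (ht : 2 ≤ t) (hqt : Odd (Fintype.card F) → Even t) (hex1 : ¬ (Fintype.card F = 2 ∧ k = 2)) (hex2 : ¬ (Fintype.card F = 3 ∧ k = 2)) (hex3 : ¬ Odd (Fintype.card F) → 6 ≤ k) (e : (Fin n) ≃ (Fin t → Fin k)) (P : Matrix.GeneralLinearGroup (Fin n) F) (f₁ : (Fin k → F) → (Fin k → F) → F) (hf₁ : Cfsg.Geo.IsSymplecticForm f₁) (hT : Cfsg.Geo.IsTensorPowerFormStructure id (QuadraticMap.polar Q) f₁ e P) (hpure : (∀ xs : Fin t → (Fin k → F), Q (Matrix.mulVec (P : Matrix (Fin n) (Fin n) F) ((fun a : Fin t → Fin k => ∏ i, xs i (a i)) ∘ e)) = 0)) : Cfsg.Geo.IsMaximalIn (Cfsg.Geo.omegaGL Q) (Cfsg.Geo.tensorWreathSubgroup k t e P ⊓ Cfsg.Geo.omegaGL Q) := by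
  have h1 : n = k ^ t := by simpa using Fintype.card_congr e
  obtain ⟨r, hr⟩ := Asch.even_card_of_isSymplecticForm hf₁
  rw [Fintype.card_fin] at hr
  have h2 : k ≠ 0 := by rintro rfl; rw [zero_pow (by omega)] at h1; omega
  refine Wr.isMaximalIn_omega_wreath (Q := geoQuad hQ) (geoQuad_nondegenerate hQ) ht
    (by simp; omega) ((em _).symm.imp (fun h => by have := hex3 h; omega) fun h =>
      ⟨h, (em (k = 2)).symm.imp (by omega) fun h3 => ⟨h3, fun h4 => hex2 ⟨h4, h3⟩, ?_⟩⟩) hf₁ hT hpure
  refine ht.lt_of_ne ?_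
  rintro rfl
  subst h3
  omega

end Cfsg.Agent.S5706
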