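import Cfsg.Statements.S5707
import Cfsg.Agent.Class.Wr.FormMat

set_option autoImplicit false
set_option linter.unusedSimpArgs false
set_option linter.unusedSectionVars false
open Cfsg

namespace Cfsg.Agent.S5707

open Cfsg.Lib.Class Cfsg.Lib.Class.Asch Matrix Cfsg.Geo QuadraticMap
open scoped MatrixGroups commutatorElement

section Un

variable {F : Type*} [Field F] {κ : Type} [Fintype κ] [DecidableEq κ]

theorem add_self_m (h2 : (2 : F) = 0) (X : Matrix κ κ F) : X + X = 0 := by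
  rw [← two_smul F, h2, zero_smul]

/-- The involution `1 + N`. -/
def un (h2 : (2 : F) = 0) (N : Matrix κ κ F) (hN : N * N = 0) : GL κ F where
  val := 1 + N
  inv := 1 + N
  val_inv := by rw [mul_add, add_mul, add_mul, hN, one_mul, mul_one, one_mul, add_zero, add_assoc, add_self_m h2, add_zero]
  inv_val := by rw [mul_add, add_mul, add_mul, hN, one_mul, mul_one, one_mul, add_zero, add_assoc, add_self_m h2, add_zero]

theorem cj_un (h2 : (2 : F) = 0) {N : Matrix κ κ F} (hN : N * N = 0) (Z : Matrix κ κ F) :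
    cj (un h2 N hN) Z = Z + (N * Z + Z * N) + N * Z * N := by
  change (1 + N) * Z * (1 + N) = _
  noncomm_ring

/-- The rank one operator `w ↦ B(w, u) v`. -/
noncomputable def op (B : LinearMap.BilinForm F (κ → F)) (u v : κ → F) : Matrix κ κ F :=
  LinearMap.toMatrix' ((B.flip u).smulRight v)

@[simp] theorem op_mulVec (B : LinearMap.BilinForm F (κ → F)) (u v w : κ → F) : op B u v *ᵥ w = B w u • v := by
  simp [op]

theorem cj_op {B : LinearMap.BilinForm F (κ → F)} {a : GL κ F} {c : F} (hc : c ≠ 0)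
    (h : ∀ u v, B ((a : Matrix κ κ F) *ᵥ u) ((a : Matrix κ κ F) *ᵥ v) = c * B u v) (u v : κ → F) :
    cj a (op B u v) = c⁻¹ • op B ((a : Matrix κ κ F) *ᵥ u) ((a : Matrix κ κ F) *ᵥ v) := by
  refine matrix_ext_mulVec fun w => ?_
  rw [← mulVec_inv_mulVec a w, cj_mulVec, smul_mulVec, op_mulVec, op_mulVec, h, mulVec_smul, smul_smul,
    inv_mul_cancel_left₀ hc]

/-- The elements of the general linear group normalising a subspace of matrices. -/
def nrm [Finite F] (M : Submodule F (Matrix κ κ F)) : Subgroup (GL κ F) where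
  carrier := {g | ∀ X ∈ M, cj g X ∈ M}
  mul_mem' ha hb X hX := by rw [cj_mul]; exact ha _ (hb _ hX)
  one_mem' X hX := by rwa [cj_one]
  inv_mem' {g} hg X hX := by
    obtain ⟨⟨Y, hY⟩, h⟩ := Finite.injective_iff_surjective.1
      (show Function.Injective fun X : M => (⟨cj g X, hg _ X.2⟩ : M) from
        fun a b h => Subtype.ext ((cj g).injective (congrArg Subtype.val h))) ⟨X, hX⟩
    rw [← show cj g Y = X from congrArg Subtype.val h, cj_inv_cj]
    exact hY

end Un

section Main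

variable {F : Type*} [Field F] {ι : Type} [Fintype ι] [DecidableEq ι] {t k : ℕ}

/-- Pure tensors. -/
abbrev pv (e : ι ≃ (Fin t → Fin k)) (P : GL ι F) (x : Fin t → Fin k → F) : ι → F := vec e P (ptw x)

theorem tI_pv (e : ι ≃ (Fin t → Fin k)) (P : GL ι F) (i : Fin t) (S : Matrix (Fin k) (Fin k) F)
    (x : Fin t → Fin k → F) : tI e P i S *ᵥ pv e P x = pv e P (Function.update x i (S *ᵥ x i)) := by
  rw [AL.mulVec_vec, tI_apply, AlgEquiv.symm_apply_apply, kI_apply, pt_mulVec_ptw]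
  congr 2
  funext j
  by_cases h : j = i
  · subst h; simp
  · simp [h]

theorem eq_zero_of_tI_mul (e : ι ≃ (Fin t → Fin k)) (P : GL ι F) {i j : Fin t} (h : i ≠ j)
    {A C : Matrix (Fin k) (Fin k) F} (hAC : tI e P i A * tI e P j C = 0) : A = 0 ∨ C = 0 := by
  by_contra! hne
  obtain ⟨u, hu⟩ : ∃ u, A *ᵥ u ≠ 0 := by
    by_contra! h1
    exact hne.1 (matrix_ext_mulVec fun w => by rw [h1, zero_mulVec])
  obtain ⟨v, hv⟩ : ∃ u, C *ᵥ u ≠ 0 := by
    by_contra! h1
    exact hne.2 (matrix_ext_mulVec fun w => by rw [h1, zero_mulVec])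
  have hu0 : u ≠ 0 := by rintro rfl; exact hu (mulVec_zero _)
  have h1 := congrArg (· *ᵥ pv e P (Function.update (fun _ => u) j v)) hAC
  simp only [← mulVec_mulVec, tI_pv, zero_mulVec] at h1
  refine AL.vec_ne_zero e P (ptw_ne_zero fun l => ?_) h1
  by_cases hl : l = i
  · subst hl; simpa [h] using hu
  · by_cases hl' : l = j
    · subst hl'; simpa [hl] using hv
    · simpa [hl, hl'] using hu0

theorem tI_inj (e : ι ≃ (Fin t → Fin k)) (P : GL ι F) {i j : Fin t} (h : i ≠ j) (hk : 0 < k)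
    {A : Matrix (Fin k) (Fin k) F} (hA : tI e P i A = 0) : A = 0 := by
  have : Nonempty (Fin k) := ⟨⟨0, hk⟩⟩
  exact (eq_zero_of_tI_mul e P h (C := 1) (by rw [hA, zero_mul])).resolve_right one_ne_zero

/-- The hypotheses on the forms. -/
structure Ctx (Q : QuadraticForm F (ι → F)) (e : ι ≃ (Fin t → Fin k)) (P : GL ι F)
    (B : LinearMap.BilinForm F (Fin k → F)) (c : F) : Prop where
  two : (2 : F) = 0
  alt : ∀ u, B u u = 0
  sym : ∀ u v, B u v = B v u
  c_ne : c ≠ 0
  ex : ∃ p p', B p p' = 1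
  pol : ∀ x y, polarBilin Q (pv e P x) (pv e P y) = c * ∏ i, B (x i) (y i)
  pure : ∀ x, Q (pv e P x) = 0

variable {Q : QuadraticForm F (ι → F)} {e : ι ≃ (Fin t → Fin k)} {P : GL ι F}
  {B : LinearMap.BilinForm F (Fin k → F)} {c : F}

theorem bil_ext {β γ : LinearMap.BilinForm F (ι → F)} (e : ι ≃ (Fin t → Fin k)) (P : GL ι F)
    (h : ∀ x y, β (pv e P x) (pv e P y) = γ (pv e P x) (pv e P y)) : β = γ :=
  LinearMap.ext_on (Wr.span_vec_ptw e P) (by
    rintro _ ⟨x, rfl⟩
    exact LinearMap.ext_on (Wr.span_vec_ptw e P) (by rintro _ ⟨y, rfl⟩; exact h x y))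

theorem prod_update_left (x y : Fin t → Fin k → F) (i : Fin t) (u : Fin k → F) :
    ∏ j, B (Function.update x i u j) (y j) = B u (y i) * ∏ j ∈ Finset.univ.erase i, B (x j) (y j) := by
  rw [← Finset.mul_prod_erase _ _ (Finset.mem_univ i), Function.update_self]
  congr 1
  exact Finset.prod_congr rfl fun j hj => by rw [Function.update_of_ne (Finset.ne_of_mem_erase hj)]

theorem prod_update_right (x y : Fin t → Fin k → F) (i : Fin t) (u : Fin k → F) :
    ∏ j, B (x j) (Function.update y i u j) = B (x i) u * ∏ j ∈ Finset.univ.erase i, B (x j) (y j) := by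
  rw [← Finset.mul_prod_erase _ _ (Finset.mem_univ i), Function.update_self]
  congr 1
  exact Finset.prod_congr rfl fun j hj => by rw [Function.update_of_ne (Finset.ne_of_mem_erase hj)]

namespace Ctx

theorem adj (h : Ctx Q e P B c) (i : Fin t) {S S' : Matrix (Fin k) (Fin k) F}
    (hS : ∀ u w, B (S *ᵥ u) w = B u (S' *ᵥ w)) (u w : ι → F) :
    polarBilin Q (tI e P i S *ᵥ u) w = polarBilin Q u (tI e P i S' *ᵥ w) := by
  have := bil_ext (β := (polarBilin Q).compl₁₂ (tI e P i S).mulVecLin LinearMap.id)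
    (γ := (polarBilin Q).compl₁₂ LinearMap.id (tI e P i S').mulVecLin) e P fun x y => by
      simp only [LinearMap.compl₁₂_apply, mulVecLin_apply, LinearMap.id_apply, tI_pv, h.pol, prod_update_left,
        prod_update_right, hS]
  exact LinearMap.congr_fun₂ this u w

theorem adj' (h : Ctx Q e P B c) (i : Fin t) {S S' : Matrix (Fin k) (Fin k) F}
    (hS : ∀ u w, polarBilin Q (tI e P i S *ᵥ u) w = polarBilin Q u (tI e P i S' *ᵥ w)) (u w : Fin k → F) :
    B (S *ᵥ u) w = B u (S' *ᵥ w) := by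
  obtain ⟨p, p', hp⟩ := h.ex
  have h1 := hS (pv e P (Function.update (fun _ => p) i u)) (pv e P (Function.update (fun _ => p') i w))
  rw [tI_pv, tI_pv, h.pol, h.pol, prod_update_left, prod_update_right, Function.update_self,
    Function.update_self] at h1
  have h2 : ∏ j ∈ Finset.univ.erase i, B (Function.update (fun _ : Fin t => p) i u j)
      (Function.update (fun _ : Fin t => p') i w j) = 1 :=
    Finset.prod_eq_one fun j hj => by
      rw [Function.update_of_ne (Finset.ne_of_mem_erase hj), Function.update_of_ne (Finset.ne_of_mem_erase hj), hp]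
  rw [h2, mul_one, mul_one] at h1
  exact mul_left_cancel₀ h.c_ne h1

theorem un_mem (h : Ctx Q e P B c) {N : Matrix ι ι F} (hN : N * N = 0)
    (hs : ∀ u w, polarBilin Q (N *ᵥ u) w = polarBilin Q u (N *ᵥ w))
    (hp : ∀ x, ∃ y, N *ᵥ pv e P x = pv e P y ∧ ∃ m, B (x m) (y m) = 0) : un h.two N hN ∈ isometryGroup F Q := by
  intro v _
  change Q ((1 + N) *ᵥ v) = Q v
  have key : ∀ v, polarBilin Q v (N *ᵥ v) + Q (N *ᵥ v) = 0 := fun v => by
    refine Submodule.span_induction (p := fun v _ => polarBilin Q v (N *ᵥ v) + Q (N *ᵥ v) = 0) ?_ (by simp)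
      (fun x y _ _ a b => ?_) (fun a x _ hx => ?_) ((Wr.span_vec_ptw e P).ge trivial)
    · rintro _ ⟨x, rfl⟩
      obtain ⟨y, hy, m, hm⟩ := hp x
      rw [hy, h.pol, h.pure, Finset.prod_eq_zero (Finset.mem_univ m) hm, mul_zero, add_zero]
    · have h1 : polarBilin Q (N *ᵥ x) (N *ᵥ y) = 0 := by rw [hs, mulVec_mulVec, hN, zero_mulVec, map_zero]
      have h3 : polarBilin Q y (N *ᵥ x) = polarBilin Q x (N *ᵥ y) := by
        rw [← hs x y, polarBilin_apply_apply, polarBilin_apply_apply, polar_comm]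
      rw [mulVec_add, Orth.Q_add, ← polarBilin_apply_apply, h1, map_add, map_add, LinearMap.add_apply,
        LinearMap.add_apply, h3]
      linear_combination a + b + polarBilin Q x (N *ᵥ y) * h.two
    · rw [mulVec_smul, Orth.Q_smul, map_smul, map_smul, LinearMap.smul_apply, smul_eq_mul, smul_eq_mul]
      linear_combination a ^ 2 * hx
  rw [add_mulVec, one_mulVec, Orth.Q_add, ← polarBilin_apply_apply]
  linear_combination key v

theorem tI_mem (h : Ctx Q e P B c) (i : Fin t) {g : GL (Fin k) F}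
    (hg : ∀ u w, B ((g : Matrix _ _ F) *ᵥ u) ((g : Matrix _ _ F) *ᵥ w) = B u w) :
    Units.map (tI e P i : Matrix (Fin k) (Fin k) F →* Matrix ι ι F) g ∈ isometryGroup F Q := by
  intro v _
  change Q (tI e P i g *ᵥ v) = Q v
  refine Submodule.span_induction (p := fun v _ => Q (tI e P i g *ᵥ v) = Q v) ?_ (by simp)
      (fun x y _ _ a b => ?_) (fun a x _ hx => ?_) ((Wr.span_vec_ptw e P).ge trivial)
  · rintro _ ⟨x, rfl⟩
    rw [tI_pv, h.pure, h.pure]
  · rw [mulVec_add, Orth.Q_add, Orth.Q_add, a, b, ← polarBilin_apply_apply, ← polarBilin_apply_apply,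
      h.adj i (S' := (g⁻¹ : GL (Fin k) F)) fun u w => by rw [← hg u, mulVec_inv_mulVec], mulVec_mulVec, ← map_mul,
      Units.inv_mul, map_one, one_mulVec]
  · rw [mulVec_smul, Orth.Q_smul, Orth.Q_smul, hx]

theorem un_mem_omega (h : Ctx Q e P B c) (i : Fin t) {g : GL (Fin k) F}
    (hg : ∀ u w, B ((g : Matrix _ _ F) *ᵥ u) ((g : Matrix _ _ F) *ᵥ w) = B u w) {S : Matrix (Fin k) (Fin k) F}
    (hS : ∀ u w, B (S *ᵥ u) w = B u (S *ᵥ w)) {Y : Matrix ι ι F} (hY : Y * Y = 0)
    (hc : ∀ U, Commute (tI e P i U) Y) (hs : ∀ u w, polarBilin Q (Y *ᵥ u) w = polarBilin Q u (Y *ᵥ w))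
    {m : Fin t} (hm : m ≠ i) (hp : ∀ x, ∃ y, Y *ᵥ pv e P x = pv e P y ∧ B (x m) (y m) = 0)
    (hN : tI e P i (cj g S + S) * Y * (tI e P i (cj g S + S) * Y) = 0) :
    un h.two _ hN ∈ omegaGL Q := by
  have h0 : ∀ U U', tI e P i U * Y * (tI e P i U' * Y) = 0 := fun U U' => by
    rw [mul_assoc, ← mul_assoc Y, ← (hc U').eq, mul_assoc, hY, mul_zero, mul_zero]
  have h1 := h.un_mem (h0 S S) (fun u w => by
    rw [← mulVec_mulVec, h.adj i hS, hs, mulVec_mulVec, (hc S).eq]) fun x => by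
      obtain ⟨y, hy, hy'⟩ := hp x
      exact ⟨_, by rw [← mulVec_mulVec, hy, tI_pv], m, by rwa [Function.update_of_ne hm]⟩
  refine ⟨⁅(⟨_, h.tI_mem i hg⟩ : isometryGroup F Q), ⟨_, h1⟩⁆, Subgroup.commutator_mem_commutator trivial trivial,
    Units.ext ?_⟩
  change tI e P i g * (1 + tI e P i S * Y) * tI e P i (g⁻¹ : GL (Fin k) F) * (1 + tI e P i S * Y) =
    1 + tI e P i (cj g S + S) * Y
  have h3 : tI e P i g * (1 + tI e P i S * Y) * tI e P i (g⁻¹ : GL (Fin k) F) = 1 + tI e P i (cj g S) * Y := by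
    rw [mul_add, add_mul, mul_one, ← map_mul, Units.mul_inv, map_one, cj_apply, map_mul, map_mul, mul_assoc,
      mul_assoc, ← (hc _).eq, mul_assoc, mul_assoc]
  rw [h3, mul_add, mul_one, add_mul, one_mul, h0, map_add, add_mul, add_zero, add_assoc]

theorem sim (h : Ctx Q e P B c) {g : GL ι F} (hg : g ∈ isometryGroup F Q) {i j : Fin t} {a : GL (Fin k) F}
    (ha : ∀ x, cj g (tI e P i x) = tI e P j (cj a x)) : ∃ d : F, d ≠ 0 ∧
      ∀ u v, B ((a : Matrix _ _ F) *ᵥ u) ((a : Matrix _ _ F) *ᵥ v) = d * B u v := by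
  have hpol : ∀ u w, polarBilin Q ((g : Matrix ι ι F) *ᵥ u) ((g : Matrix ι ι F) *ᵥ w) = polarBilin Q u w := fun u w => by
    have hq : ∀ v, Q ((g : Matrix ι ι F) *ᵥ v) = Q v := fun v => hg v v
    simp only [polarBilin_apply_apply, polar, ← mulVec_add, hq]
  have h1 : ∀ u v w z, B (cj a (op B u v) *ᵥ w) z = B w (cj a (op B v u) *ᵥ z) := fun u v =>
    h.adj' j fun w z => by
      rw [← ha, ← ha, ← mulVec_inv_mulVec g w, ← mulVec_inv_mulVec g z, cj_mulVec, cj_mulVec, hpol, hpol]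
      exact h.adj i (fun w z => by simp [h.sym v z, mul_comm]) _ _
  obtain ⟨p, p', hp⟩ := h.ex
  have h3 : ∀ u v, B ((a : Matrix _ _ F) *ᵥ u) ((a : Matrix _ _ F) *ᵥ v) =
      B ((a : Matrix _ _ F) *ᵥ p) ((a : Matrix _ _ F) *ᵥ p') * B u v := fun u v => by
    have := h1 p' u ((a : Matrix _ _ F) *ᵥ p) ((a : Matrix _ _ F) *ᵥ v)
    rw [cj_mulVec, cj_mulVec, op_mulVec, op_mulVec, hp, one_smul, mulVec_smul, map_smul, smul_eq_mul,
      h.sym v u] at this
    rw [this, mul_comm]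
  refine ⟨_, fun h0 => ?_, h3⟩
  have := h3 (((a⁻¹ : GL (Fin k) F) : Matrix _ _ F) *ᵥ p) (((a⁻¹ : GL (Fin k) F) : Matrix _ _ F) *ᵥ p')
  rw [mulVec_inv_mulVec, mulVec_inv_mulVec, hp, h0, zero_mul] at this
  exact one_ne_zero this

end Ctx

/-- The span of `1` and the operators of `T` in all positions. -/
def MM (e : ι ≃ (Fin t → Fin k)) (P : GL ι F) (M : Submodule F (Matrix (Fin k) (Fin k) F)) :
    Submodule F (Matrix ι ι F) := ⨆ i, M.map (tI e P i).toLinearMap

theorem tI_mem_MM (e : ι ≃ (Fin t → Fin k)) (P : GL ι F) {M : Submodule F (Matrix (Fin k) (Fin k) F)} (i : Fin t)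
    {X : Matrix (Fin k) (Fin k) F} (hX : X ∈ M) : tI e P i X ∈ MM e P M :=
  Submodule.mem_iSup_of_mem i ⟨X, hX, rfl⟩

theorem mem_nrm [Finite F] {M : Submodule F (Matrix (Fin k) (Fin k) F)} {g : GL ι F}
    (h : ∀ i, ∀ X ∈ M, cj g (tI e P i X) ∈ MM e P M) : g ∈ nrm (MM e P M) := fun X hX =>
  Submodule.iSup_induction _ (motive := fun X => cj g X ∈ MM e P M) hX (by rintro i _ ⟨X, hX, rfl⟩; exact h i X hX)
    (by simp) fun x y a b => by rw [map_add]; exact add_mem a b

theorem dc_MM {M : Submodule F (Matrix (Fin k) (Fin k) F)} {i j : Fin t} (hij : i ≠ j)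
    (U U' : Matrix (Fin k) (Fin k) F) {X : Matrix ι ι F} (hX : X ∈ MM e P M) :
    ⁅tI e P i U, ⁅tI e P j U', X⁆⁆ = 0 := by
  refine Submodule.iSup_induction _ (motive := fun X => ⁅tI e P i U, ⁅tI e P j U', X⁆⁆ = 0) hX ?_
    (by simp [Ring.lie_def]) fun x y a b => by
      have h := congrArg₂ (· + ·) a b
      simp only [Ring.lie_def, add_zero] at h ⊢
      rw [← h]
      noncomm_ring
  rintro l _ ⟨X, -, rfl⟩
  change ⁅tI e P i U, ⁅tI e P j U', tI e P l X⁆⁆ = 0
  by_cases hl : j = l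
  · subst hl
    rw [Ring.lie_def (tI e P j U'), ← map_mul, ← map_mul, ← map_sub, Ring.lie_def, tI_comm e P hij, sub_self]
  · rw [Ring.lie_def (tI e P j U'), tI_comm e P hl, sub_self, Ring.lie_def, mul_zero, zero_mul, sub_self]

theorem dc_prod {i j : Fin t} (hij : i ≠ j) (U U' A C : Matrix (Fin k) (Fin k) F) :
    ⁅tI e P i U, ⁅tI e P j U', tI e P i A * tI e P j C⁆⁆ = tI e P i ⁅U, A⁆ * tI e P j ⁅U', C⁆ := by
  have h1 : ⁅tI e P j U', tI e P i A * tI e P j C⁆ = tI e P i A * tI e P j ⁅U', C⁆ := by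
    rw [Ring.lie_def, Ring.lie_def, ← mul_assoc, ← tI_comm e P hij, map_sub, map_mul, map_mul, mul_sub, mul_assoc,
      mul_assoc]
  rw [h1, Ring.lie_def, Ring.lie_def U, mul_assoc, ← tI_comm e P hij, map_sub, map_mul, map_mul, sub_mul,
    ← mul_assoc, ← mul_assoc]

theorem main [Finite F] (h : Ctx Q e P B c) (hk : 0 < k) (M : Submodule F (Matrix (Fin k) (Fin k) F))
    (hinv : ∀ (a : GL (Fin k) F) (d : F), d ≠ 0 →
      (∀ u v, B ((a : Matrix _ _ F) *ᵥ u) ((a : Matrix _ _ F) *ᵥ v) = d * B u v) → ∀ X ∈ M, cj a X ∈ M)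
    (hanti : ∀ X ∈ M, ∀ X' ∈ M, ∃ β : F, X * X' + X' * X = β • 1) (hsq : ∀ X ∈ M, ∃ ν : F, X * X = ν • 1)
    (hsa : ∀ X ∈ M, ∀ u w, B (X *ᵥ u) w = B u (X *ᵥ w)) {E W X W' : Matrix (Fin k) (Fin k) F}
    (hE : E ∈ M) (hE2 : E * E = 0) (hW : W ∈ M) (hEW : E * W ≠ W * E) {g : GL (Fin k) F}
    (hg : ∀ u w, B ((g : Matrix _ _ F) *ᵥ u) ((g : Matrix _ _ F) *ᵥ w) = B u w) (hX : X ∈ M)
    (hY : (cj g X + X) * W' ≠ W' * (cj g X + X)) {i j m : Fin t} (hij : i ≠ j) (hm : m ≠ i)
    (hmj : m = j → ∀ u, B u (E *ᵥ u) = 0) (hz : ∃ z ∈ omegaGL Q, z ∉ nrm (MM e P M)) :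
    ∃ K : Subgroup (GL ι F), tensorWreathSubgroup k t e P ⊓ omegaGL Q < K ∧ K < omegaGL Q := by
  have hY' : cj g X + X ∈ M := add_mem (hinv g 1 one_ne_zero (fun u v => by rw [hg, one_mul]) X hX) hX
  have hE' : tI e P j E * tI e P j E = 0 := by rw [← map_mul, hE2, map_zero]
  have hc : ∀ U U', Commute (tI e P i U) (tI e P j U') := tI_comm e P hij
  have hN : tI e P i (cj g X + X) * tI e P j E * (tI e P i (cj g X + X) * tI e P j E) = 0 := by
    rw [mul_assoc, ← mul_assoc (tI e P j E), ← (hc _ _).eq, mul_assoc, hE', mul_zero, mul_zero]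
  have hx := h.un_mem_omega i hg (hsa X hX) hE' (fun U => hc U E) (h.adj j (hsa E hE)) hm (fun x => ⟨_, tI_pv e P j E x, by
    by_cases hmj' : m = j
    · rw [hmj', Function.update_self, hmj hmj']
    · rw [Function.update_of_ne hmj', h.alt]⟩) hN
  generalize cj g X + X = Y at hY hY' hN hx
  obtain ⟨ν, hν⟩ := hsq Y hY'
  have hj : ∀ Z β, E * Z + Z * E = β • 1 → cj (un h.two _ hN) (tI e P j Z) =
      tI e P j Z + β • tI e P i Y + (ν * β) • tI e P j E := fun Z β hβ => by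
    have h1 : E * Z * E = β • E := by
      rw [eq_sub_of_add_eq hβ, sub_mul, mul_assoc, hE2, mul_zero, sub_zero, smul_mul_assoc, one_mul]
    rw [cj_un]
    congr 2
    · rw [← mul_assoc, ← (hc Y Z).eq, mul_assoc, mul_assoc, ← mul_add, ← map_mul, ← map_mul, ← map_add, hβ, map_smul,
        map_one, mul_smul_comm, mul_one]
    · rw [mul_assoc (tI e P i Y), ← map_mul, mul_assoc, ← mul_assoc (tI e P j _), ← (hc _ _).eq, mul_assoc,
        ← mul_assoc, ← map_mul, ← map_mul, hν, h1, map_smul, map_smul, map_one, smul_mul_assoc, one_mul, smul_smul]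
  refine ⟨nrm (MM e P M) ⊓ omegaGL Q, lt_of_le_of_ne (fun y hy => ⟨mem_nrm fun l Z hZ => ?_, hy.2⟩) fun heq => ?_,
    lt_of_le_of_ne inf_le_right fun heq => ?_⟩
  · obtain ⟨s, a, ha⟩ := exists_perm_of_mem_tensorWreathSubgroup hy.1
    obtain ⟨d, hd, hd'⟩ := h.sim (Subgroup.map_subtype_le _ hy.2) (ha l)
    rw [ha]
    exact tI_mem_MM e P _ (hinv _ d hd hd' Z hZ)
  · have hx' : un h.two _ hN ∈ nrm (MM e P M) := mem_nrm fun l Z hZ => by
      by_cases hl : l = j
      · obtain ⟨β, hβ⟩ := hanti E hE Z hZ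
        rw [hl, hj Z β hβ]
        exact add_mem (add_mem (tI_mem_MM e P j hZ) (Submodule.smul_mem _ _ (tI_mem_MM e P i hY')))
          (Submodule.smul_mem _ _ (tI_mem_MM e P j hE))
      · have h1 : Commute (tI e P j E) (tI e P l Z) := tI_comm e P (Ne.symm hl) _ _
        have h3 : tI e P i Y * tI e P j E * tI e P l Z * (tI e P i Y * tI e P j E) = 0 := by
          rw [mul_assoc (tI e P i Y), h1.eq, mul_assoc, mul_assoc, ← mul_assoc (tI e P j E), ← (hc _ _).eq, mul_assoc,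
            hE', mul_zero, mul_zero, mul_zero]
        rw [cj_un, h3, add_zero]
        refine add_mem (tI_mem_MM e P l hZ) ?_
        by_cases hl' : l = i
        · obtain ⟨β, hβ⟩ := hanti Y hY' Z hZ
          rw [mul_assoc, h1.eq, hl', ← mul_assoc, ← mul_assoc, ← add_mul, ← map_mul, ← map_mul, ← map_add, hβ, map_smul,
            map_one, smul_mul_assoc, one_mul]
          exact Submodule.smul_mem _ _ (tI_mem_MM e P j hE)
        · rw [mul_assoc, h1.eq, ← mul_assoc, tI_comm e P (Ne.symm hl'), mul_assoc, add_self_m h.two]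
          exact zero_mem _
    obtain ⟨s, a, ha⟩ := exists_perm_of_mem_tensorWreathSubgroup (heq.ge ⟨hx', hx⟩).1
    obtain ⟨β, hβ⟩ := hanti E hE W hW
    have hβ0 : β ≠ 0 := by
      rintro rfl
      rw [zero_smul] at hβ
      exact hEW (by rw [eq_neg_of_add_eq_zero_left hβ, neg_eq_of_add_eq_zero_left (add_self_m h.two _)])
    have h1 := (ha j W).symm.trans (hj W β hβ)
    by_cases hs : s j = i
    · have h3 := (hc (cj (a j) W) E).eq
      rw [hs] at h1
      rw [h1, add_mul, add_mul, mul_add, mul_add, smul_mul_assoc, smul_mul_assoc, mul_smul_comm,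
        mul_smul_comm, (hc Y E).eq, add_left_inj, add_left_inj, ← map_mul, ← map_mul, ← sub_eq_zero, ← map_sub] at h3
      exact hEW (sub_eq_zero.1 (tI_inj e P hij.symm hk h3)).symm
    · have h3 := tI_comm e P hs (cj (a j) W) W'
      rw [h1, add_mul, add_mul, mul_add, mul_add, smul_mul_assoc, smul_mul_assoc, mul_smul_comm,
        mul_smul_comm, (hc W' E).eq, (hc W' W).eq, add_left_inj, add_right_inj, ← map_mul, ← map_mul, ← sub_eq_zero,
        ← smul_sub, ← map_sub, smul_eq_zero] at h3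
      exact hY (sub_eq_zero.1 (tI_inj e P hij hk (h3.resolve_left hβ0)))
  · obtain ⟨z, hz, hz'⟩ := hz
    exact hz' (heq.ge hz).1

theorem not_mem_nrm [Finite F] (h2 : (2 : F) = 0) {M : Submodule F (Matrix (Fin k) (Fin k) F)} {i : Fin t}
    {S Z : Matrix (Fin k) (Fin k) F} (hZ : Z ∈ M) {Y : Matrix ι ι F} (hY : Y * Y = 0)
    (hc : ∀ U, Commute (tI e P i U) Y) (hN : tI e P i S * Y * (tI e P i S * Y) = 0)
    (h : tI e P i (S * Z + Z * S) * Y ∉ MM e P M) : un h2 _ hN ∉ nrm (MM e P M) := fun hz => h (by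
  have h1 := hz _ (tI_mem_MM e P i hZ)
  have h3 : tI e P i S * Y * tI e P i Z * (tI e P i S * Y) = 0 := by
    rw [mul_assoc (tI e P i S), ← (hc Z).eq, mul_assoc, mul_assoc, ← mul_assoc Y, ← (hc S).eq, mul_assoc, hY,
      mul_zero, mul_zero, mul_zero]
  rw [cj_un, h3, add_zero, mul_assoc, ← (hc Z).eq, ← mul_assoc, ← mul_assoc, ← add_mul, ← map_mul, ← map_mul,
    ← map_add] at h1
  exact (Submodule.add_mem_iff_right _ (tI_mem_MM e P i hZ)).1 h1)

theorem prod_not_mem {M : Submodule F (Matrix (Fin k) (Fin k) F)} {i j : Fin t} (hij : i ≠ j)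
    {U U' A C : Matrix (Fin k) (Fin k) F} (h : U * A ≠ A * U) (h' : U' * C ≠ C * U') :
    tI e P i A * tI e P j C ∉ MM e P M := fun hm => by
  have h1 := dc_MM hij U U' hm
  rw [dc_prod hij] at h1
  exact (eq_zero_of_tI_mul e P hij h1).elim (fun h1 => h (sub_eq_zero.1 h1)) fun h1 => h' (sub_eq_zero.1 h1)

end Main

section Span

variable {F : Type*} [Field F] {k : ℕ} {B : LinearMap.BilinForm F (Fin k → F)}

theorem span_props (h2 : (2 : F) = 0) (T : Set (Matrix (Fin k) (Fin k) F))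
    (hinv : ∀ (a : GL (Fin k) F) (d : F), d ≠ 0 →
      (∀ u v, B ((a : Matrix _ _ F) *ᵥ u) ((a : Matrix _ _ F) *ᵥ v) = d * B u v) →
        ∀ X ∈ T, ∃ c : F, ∃ Y ∈ T, cj a X = c • Y)
    (hanti : ∀ X ∈ T, ∀ X' ∈ T, ∃ β : F, X * X' + X' * X = β • 1) (hsq : ∀ X ∈ T, X * X = 0)
    (hsa : ∀ X ∈ T, ∀ u w, B (X *ᵥ u) w = B u (X *ᵥ w)) :
    (∀ (a : GL (Fin k) F) (d : F), d ≠ 0 →
      (∀ u v, B ((a : Matrix _ _ F) *ᵥ u) ((a : Matrix _ _ F) *ᵥ v) = d * B u v) →
        ∀ X ∈ Submodule.span F (insert 1 T), cj a X ∈ Submodule.span F (insert 1 T)) ∧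
    (∀ X ∈ Submodule.span F (insert 1 T), ∀ X' ∈ Submodule.span F (insert 1 T), ∃ β : F, X * X' + X' * X = β • 1) ∧
    (∀ X ∈ Submodule.span F (insert 1 T), ∃ ν : F, X * X = ν • 1) ∧
    ∀ X ∈ Submodule.span F (insert 1 T), ∀ u w, B (X *ᵥ u) w = B u (X *ᵥ w) := by
  have ha : ∀ X ∈ Submodule.span F (insert 1 T), ∀ X' ∈ Submodule.span F (insert 1 T),
      ∃ β : F, X * X' + X' * X = β • 1 := fun X hX X' hX' => by
    refine Submodule.span_induction₂ (p := fun X X' _ _ => ∃ β : F, X * X' + X' * X = β • 1) ?_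
      (fun _ _ => ⟨0, by simp⟩) (fun _ _ => ⟨0, by simp⟩) ?_ ?_ ?_ ?_ hX hX'
    · rintro X X' (rfl | hX) (rfl | hX')
      · exact ⟨0, by rw [add_self_m h2, zero_smul]⟩
      · exact ⟨0, by rw [one_mul, mul_one, add_self_m h2, zero_smul]⟩
      · exact ⟨0, by rw [one_mul, mul_one, add_self_m h2, zero_smul]⟩
      · exact hanti X hX X' hX'
    · rintro x y z - - - ⟨a, ha⟩ ⟨b, hb⟩
      exact ⟨a + b, by rw [add_smul, ← ha, ← hb]; noncomm_ring⟩
    · rintro x y z - - - ⟨a, ha⟩ ⟨b, hb⟩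
      exact ⟨a + b, by rw [add_smul, ← ha, ← hb]; noncomm_ring⟩
    · rintro r x y - - ⟨a, ha⟩
      exact ⟨r * a, by rw [mul_smul, ← ha, smul_mul_assoc, mul_smul_comm, smul_add]⟩
    · rintro r x y - - ⟨a, ha⟩
      exact ⟨r * a, by rw [mul_smul, ← ha, smul_mul_assoc, mul_smul_comm, smul_add]⟩
  refine ⟨fun a d hd h X hX => ?_, ha, fun X hX => ?_, fun X hX u w => ?_⟩
  · refine Submodule.span_induction (p := fun X _ => cj a X ∈ Submodule.span F (insert 1 T)) ?_ (by simp)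
      (fun x y _ _ a b => by rw [map_add]; exact add_mem a b)
      (fun c x _ a => by rw [map_smul]; exact Submodule.smul_mem _ _ a) hX
    rintro X (rfl | hX)
    · rw [map_one]; exact Submodule.subset_span (Or.inl rfl)
    · obtain ⟨c, Y, hY, h1⟩ := hinv a d hd h X hX
      rw [h1]; exact Submodule.smul_mem _ _ (Submodule.subset_span (Or.inr hY))
  · refine Submodule.span_induction (p := fun X _ => ∃ ν : F, X * X = ν • 1) ?_ ⟨0, by simp⟩ ?_ ?_ hX
    · rintro X (rfl | hX)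
      · exact ⟨1, by simp⟩
      · exact ⟨0, by rw [hsq X hX, zero_smul]⟩
    · rintro x y hx hy ⟨a, h1⟩ ⟨b, h3⟩
      obtain ⟨β, hβ⟩ := ha x hx y hy
      exact ⟨a + b + β, by rw [add_smul, add_smul, ← h1, ← h3, ← hβ]; noncomm_ring⟩
    · rintro c x - ⟨a, h1⟩
      exact ⟨c * c * a, by rw [smul_mul_assoc, mul_smul_comm, h1, smul_smul, smul_smul]⟩
  · refine Submodule.span_induction (p := fun X _ => B (X *ᵥ u) w = B u (X *ᵥ w)) ?_ (by simp)
      (fun x y _ _ a b => by simp [add_mulVec, a, b]) (fun c x _ a => by simp [smul_mulVec, a]) hX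
    rintro X (rfl | hX)
    · simp
    · exact hsa X hX u w

theorem B_coord (B : LinearMap.BilinForm F (Fin k → F)) (u v : Fin k → F) :
    B u v = ∑ i, ∑ j, u i * v j * B (Pi.single i 1) (Pi.single j 1) := by
  conv_lhs => rw [pi_eq_sum_univ' u, pi_eq_sum_univ' v]
  simp only [map_sum, LinearMap.sum_apply, map_smul, LinearMap.smul_apply, smul_eq_mul, Finset.mul_sum]
  rw [Finset.sum_comm]
  exact Finset.sum_congr rfl fun i _ => Finset.sum_congr rfl fun j _ => by ring

theorem skew (alt : ∀ u, B u u = 0) (u v : Fin k → F) : B u v = -B v u := by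
  have := alt (u + v)
  simp only [map_add, LinearMap.add_apply, alt] at this
  linear_combination this

theorem ident2 {B : LinearMap.BilinForm F (Fin 2 → F)} (alt : ∀ u, B u u = 0) (u v w : Fin 2 → F) :
    B u v • w = B w v • u - B w u • v := by
  funext i
  simp only [B_coord B u, B_coord B w, Fin.sum_univ_two, alt, skew alt (Pi.single 1 1) (Pi.single 0 1),
    Pi.smul_apply, Pi.sub_apply, smul_eq_mul]
  fin_cases i <;> simp only [Fin.zero_eta, Fin.mk_one] <;> ring

theorem ident4 {B : LinearMap.BilinForm F (Fin 4 → F)} (alt : ∀ u, B u u = 0) (u v x y w : Fin 4 → F) :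
    (B u v * B x y - B u x * B v y + B u y * B v x) • w =
      (B w v * B x y - B w x * B v y + B w y * B v x) • u - (B w u * B x y - B w x * B u y + B w y * B u x) • v +
      (B w u * B v y - B w v * B u y + B w y * B u v) • x - (B w u * B v x - B w v * B u x + B w x * B u v) • y := by
  funext i
  simp only [B_coord B u, B_coord B w, B_coord B v, B_coord B x, Fin.sum_univ_four, alt,
    skew alt (Pi.single 1 1) (Pi.single 0 1), skew alt (Pi.single 2 1) (Pi.single 0 1),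
    skew alt (Pi.single 3 1) (Pi.single 0 1), skew alt (Pi.single 2 1) (Pi.single 1 1),
    skew alt (Pi.single 3 1) (Pi.single 1 1), skew alt (Pi.single 3 1) (Pi.single 2 1),
    Pi.smul_apply, Pi.sub_apply, Pi.add_apply, smul_eq_mul]
  generalize B (Pi.single 0 1) (Pi.single 1 1) = a, B (Pi.single 0 1) (Pi.single 2 1) = b,
    B (Pi.single 0 1) (Pi.single 3 1) = c, B (Pi.single 1 1) (Pi.single 2 1) = d,
    B (Pi.single 1 1) (Pi.single 3 1) = e, B (Pi.single 2 1) (Pi.single 3 1) = f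
  fin_cases i <;> simp only [Fin.zero_eta, Fin.mk_one, Fin.reduceFinMk] <;> ring

theorem op_sq (alt : ∀ u, B u u = 0) (u : Fin k → F) : op B u u * op B u u = 0 :=
  matrix_ext_mulVec fun w => by simp [← mulVec_mulVec, mulVec_smul, alt]

theorem un_iso (h2 : (2 : F) = 0) (alt : ∀ u, B u u = 0) (sym : ∀ u v, B u v = B v u) (p u w : Fin k → F) :
    B ((un h2 _ (op_sq alt p) : Matrix _ _ F) *ᵥ u) ((un h2 _ (op_sq alt p) : Matrix _ _ F) *ᵥ w) = B u w := by
  change B ((1 + op B p p) *ᵥ u) ((1 + op B p p) *ᵥ w) = B u w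
  simp only [add_mulVec, one_mulVec, op_mulVec, map_add, map_smul, LinearMap.add_apply, LinearMap.smul_apply,
    smul_eq_mul, alt, sym p w]
  linear_combination B u p * B w p * h2

theorem ne_of_B {X Y : Matrix (Fin k) (Fin k) F} (u w : Fin k → F) (h : B (X *ᵥ u) w ≠ B (Y *ᵥ u) w) : X ≠ Y := by
  rintro rfl
  exact h rfl

end Span

section Cases

variable {F : Type*} [Field F] [Finite F] {ι : Type} [Fintype ι] [DecidableEq ι] {t : ℕ}
  {Q : QuadraticForm F (ι → F)} {P : GL ι F} {c : F}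

theorem case_two {e : ι ≃ (Fin t → Fin 2)} {B : LinearMap.BilinForm F (Fin 2 → F)} (h : Ctx Q e P B c) (ht : 4 ≤ t) :
    ∃ K : Subgroup (GL ι F), tensorWreathSubgroup 2 t e P ⊓ omegaGL Q < K ∧ K < omegaGL Q := by
  obtain ⟨p, p', hp⟩ := h.ex
  have hp' : B p' p = 1 := by rw [h.sym, hp]
  have h2 := h.two
  obtain ⟨H1, H2, H3, H4⟩ := span_props (B := B) h2 {X | ∃ u, X = op B u u}
    (by rintro a d hd ha _ ⟨u, rfl⟩; exact ⟨_, _, ⟨_, rfl⟩, cj_op hd ha u u⟩)
    (by
      rintro _ ⟨u, rfl⟩ _ ⟨v, rfl⟩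
      refine ⟨B u v ^ 2, matrix_ext_mulVec fun w => ?_⟩
      rw [smul_mulVec, one_mulVec, pow_two, mul_smul, ident2 h.alt u v w, add_mulVec, ← mulVec_mulVec, ← mulVec_mulVec]
      simp only [op_mulVec, map_smul, LinearMap.smul_apply, smul_eq_mul, h.sym v u]
      funext i
      simp only [Pi.add_apply, Pi.smul_apply, Pi.sub_apply, smul_eq_mul]
      linear_combination B u v * B w u * v i * h2)
    (by rintro _ ⟨u, rfl⟩; exact op_sq h.alt u)
    (by rintro _ ⟨u, rfl⟩ v w; simp [h.sym u w, mul_comm])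
  have hmem : ∀ u, op B u u ∈ Submodule.span F (insert 1 {X | ∃ u, X = op B u u}) := fun u =>
    Submodule.subset_span (Or.inr ⟨u, rfl⟩)
  have hg := un_iso h2 h.alt h.sym p'
  have hcj : cj (un h2 _ (op_sq h.alt p')) (op B p p) = op B (p + p') (p + p') := by
    rw [cj_op one_ne_zero (fun u v => by rw [hg, one_mul]), inv_one, one_smul]
    change op B ((1 + op B p' p') *ᵥ p) ((1 + op B p' p') *ᵥ p) = _
    rw [add_mulVec, one_mulVec, op_mulVec, hp, one_smul]
  have hEW : op B p p * op B p' p' ≠ op B p' p' * op B p p :=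
    ne_of_B (B := B) p p' (by simp [← mulVec_mulVec, hp, hp', h.alt])
  have hY : (cj (un h2 _ (op_sq h.alt p')) (op B p p) + op B p p) * op B p p ≠
      op B p p * (cj (un h2 _ (op_sq h.alt p')) (op B p p) + op B p p) :=
    ne_of_B (B := B) p' p (by simp [hcj, add_mulVec, mulVec_add, ← mulVec_mulVec, hp, hp', h.alt])
  have h01 : (⟨0, by omega⟩ : Fin t) ≠ ⟨1, by omega⟩ := by simp
  have h02 : (⟨0, by omega⟩ : Fin t) ≠ ⟨2, by omega⟩ := by simp
  have h12 : (⟨1, by omega⟩ : Fin t) ≠ ⟨2, by omega⟩ := by simp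
  refine main h two_pos _ H1 H2 H3 H4 (hmem p) (op_sq h.alt p) (hmem p') hEW hg (hmem p) hY h01 h02.symm
    (fun h => absurd h h12.symm) ?_
  have hc : ∀ U, Commute (tI e P ⟨0, by omega⟩ U) (tI e P ⟨1, by omega⟩ (op B p p) * tI e P ⟨2, by omega⟩ (op B p p)) :=
    fun U => Commute.mul_right (tI_comm e P h01 _ _) (tI_comm e P h02 _ _)
  have hYY : tI e P ⟨1, by omega⟩ (op B p p) * tI e P ⟨2, by omega⟩ (op B p p) *
      (tI e P ⟨1, by omega⟩ (op B p p) * tI e P ⟨2, by omega⟩ (op B p p)) = 0 := by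
    rw [mul_assoc, tI_comm e P h12, ← mul_assoc (tI e P ⟨2, _⟩ _), ← map_mul, op_sq h.alt, map_zero, zero_mul, mul_zero]
  have h0 : ∀ U, tI e P ⟨0, by omega⟩ U * (tI e P ⟨1, by omega⟩ (op B p p) * tI e P ⟨2, by omega⟩ (op B p p)) *
      (tI e P ⟨0, by omega⟩ U * (tI e P ⟨1, by omega⟩ (op B p p) * tI e P ⟨2, by omega⟩ (op B p p))) = 0 := fun U => by
    rw [mul_assoc, ← mul_assoc (_ * _), ← (hc U).eq, mul_assoc, hYY, mul_zero, mul_zero]
  refine ⟨_, h.un_mem_omega _ hg (H4 _ (hmem p)) hYY hc (fun u w => by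
    rw [← mulVec_mulVec, h.adj _ (H4 _ (hmem p)), h.adj _ (H4 _ (hmem p)), mulVec_mulVec, tI_comm e P h12])
    (m := ⟨3, by omega⟩) (by simp) (fun x => ⟨_, by rw [← mulVec_mulVec, tI_pv, tI_pv], by
      rw [Function.update_of_ne (by simp), Function.update_of_ne (by simp), h.alt]⟩) (h0 _),
    not_mem_nrm h2 (hmem p) hYY hc _ ?_⟩
  obtain ⟨β, hβ⟩ := H2 _ (add_mem (H1 _ 1 one_ne_zero (fun u v => by rw [hg, one_mul]) _ (hmem p)) (hmem p)) _ (hmem p)
  have hβ0 : β ≠ 0 := by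
    rintro rfl
    rw [zero_smul] at hβ
    exact hY (by rw [eq_neg_of_add_eq_zero_left hβ, neg_eq_of_add_eq_zero_left (add_self_m h2 _)])
  rw [hβ, map_smul, map_one, smul_mul_assoc, one_mul]
  exact fun hm => prod_not_mem h12 hEW.symm hEW.symm ((Submodule.smul_mem_iff _ hβ0).1 hm)

theorem case_four {e : ι ≃ (Fin t → Fin 4)} {B : LinearMap.BilinForm F (Fin 4 → F)} (h : Ctx Q e P B c) (ht : 2 ≤ t)
    (hB : ∀ u, u ≠ 0 → ∃ v, B u v ≠ 0) :
    ∃ K : Subgroup (GL ι F), tensorWreathSubgroup 4 t e P ⊓ omegaGL Q < K ∧ K < omegaGL Q := by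
  obtain ⟨p, p', hp⟩ := h.ex
  have hp' : B p' p = 1 := by rw [h.sym, hp]
  have h2 := h.two
  obtain ⟨r, r', hr, h1, h3, h4, h5⟩ : ∃ r r', B r r' = 1 ∧ B p r = 0 ∧ B p' r = 0 ∧ B p r' = 0 ∧ B p' r' = 0 := by
    obtain ⟨r, hr, hr0⟩ := Submodule.exists_mem_ne_zero_of_ne_bot
      (LinearMap.ker_ne_bot_of_finrank_lt (f := (B p).prod (B p')) (by simp))
    have h1 : B p r = 0 := congrArg Prod.fst hr
    have h3 : B p' r = 0 := congrArg Prod.snd hr
    obtain ⟨v, hv⟩ := hB r hr0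
    refine ⟨r, (B r v)⁻¹ • (v - B p' v • p - B p v • p'), ?_, h1, h3, ?_, ?_⟩ <;>
      simp [h.sym r p, h.sym r p', h1, h3, hv, hp, hp', h.alt]
  have hr' : B r' r = 1 := by rw [h.sym, hr]
  have h1' : B r p = 0 := by rw [h.sym, h1]
  have h3' : B r p' = 0 := by rw [h.sym, h3]
  have h4' : B r' p = 0 := by rw [h.sym, h4]
  have h5' : B r' p' = 0 := by rw [h.sym, h5]
  obtain ⟨H1, H2, H3, H4⟩ := span_props (B := B) h2 {X | ∃ u v, B u v = 0 ∧ X = op B u v + op B v u}
    (by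
      rintro a d hd ha _ ⟨u, v, huv, rfl⟩
      exact ⟨_, _, ⟨_, _, by rw [ha, huv, mul_zero], rfl⟩, by rw [map_add, cj_op hd ha, cj_op hd ha, smul_add]⟩)
    (by
      rintro _ ⟨u, v, huv, rfl⟩ _ ⟨x, y, hxy, rfl⟩
      refine ⟨B u v * B x y - B u x * B v y + B u y * B v x, matrix_ext_mulVec fun w => ?_⟩
      rw [smul_mulVec, one_mulVec, ident4 h.alt u v x y w, add_mulVec, ← mulVec_mulVec, ← mulVec_mulVec]
      simp only [add_mulVec, mulVec_add, op_mulVec, map_smul, LinearMap.smul_apply, smul_eq_mul, h.sym x u, h.sym x v,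
        h.sym y u, h.sym y v, huv, hxy]
      funext i
      simp only [Pi.add_apply, Pi.smul_apply, Pi.sub_apply, smul_eq_mul]
      linear_combination (B w x * B v y * u i + B w y * B u x * v i + B w v * B u y * x i +
        B w u * B v x * y i) * h2)
    (by
      rintro _ ⟨u, v, huv, rfl⟩
      exact matrix_ext_mulVec fun w => by
        simp [← mulVec_mulVec, add_mulVec, mulVec_add, mulVec_smul, h.alt, huv, h.sym v u])
    (by rintro _ ⟨u, v, -, rfl⟩ w z; simp [add_mulVec, h.sym u z, h.sym v z, mul_comm, add_comm])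
  have hmem : ∀ {u v}, B u v = 0 → op B u v + op B v u ∈
      Submodule.span F (insert 1 {X | ∃ u v, B u v = 0 ∧ X = op B u v + op B v u}) := fun {u v} huv =>
    Submodule.subset_span (Or.inr ⟨u, v, huv, rfl⟩)
  have hE2 : (op B p r + op B r p) * (op B p r + op B r p) = 0 := matrix_ext_mulVec fun w => by
    simp [← mulVec_mulVec, add_mulVec, mulVec_add, mulVec_smul, h.alt, h1, h1']
  have hg := un_iso h2 h.alt h.sym p'
  have hcj : ∀ u v, cj (un h2 _ (op_sq h.alt p')) (op B u v) = op B (u + B u p' • p') (v + B v p' • p') := fun u v => by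
    rw [cj_op one_ne_zero (fun u v => by rw [hg, one_mul]), inv_one, one_smul]
    change op B ((1 + op B p' p') *ᵥ u) ((1 + op B p' p') *ᵥ v) = _
    rw [add_mulVec, add_mulVec, one_mulVec, one_mulVec, op_mulVec, op_mulVec]
  have hEW : (op B p r + op B r p) * (op B p' r' + op B r' p') ≠ (op B p' r' + op B r' p') * (op B p r + op B r p) :=
    ne_of_B (B := B) p p' (by
      simp [← mulVec_mulVec, add_mulVec, mulVec_add, hp, hp', h.alt, hr, hr', h1, h3, h4, h5, h1', h3', h4', h5'])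
  have hY : (cj (un h2 _ (op_sq h.alt p')) (op B p r + op B r p) + (op B p r + op B r p)) * (op B p r' + op B r' p) ≠
      (op B p r' + op B r' p) * (cj (un h2 _ (op_sq h.alt p')) (op B p r + op B r p) + (op B p r + op B r p)) :=
    ne_of_B (B := B) p' p (by
      simp [hcj, ← mulVec_mulVec, add_mulVec, mulVec_add, hp, hp', h.alt, hr, hr', h1, h3, h4, h5, h1', h3', h4', h5'])
  have h01 : (⟨0, by omega⟩ : Fin t) ≠ ⟨1, by omega⟩ := by simp
  have halt : ∀ u, B u ((op B p r + op B r p) *ᵥ u) = 0 := fun u => by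
    simp only [add_mulVec, op_mulVec, map_add, map_smul, smul_eq_mul]
    linear_combination B u p * B u r * h2
  refine main h four_pos _ H1 H2 H3 H4 (hmem h1) hE2 (hmem h5) hEW hg (hmem h1) hY h01 h01.symm (fun _ => halt) ?_
  have hc : ∀ U, Commute (tI e P ⟨0, by omega⟩ U) (tI e P ⟨1, by omega⟩ (op B p r + op B r p)) :=
    fun U => tI_comm e P h01 _ _
  have hYY : tI e P ⟨1, by omega⟩ (op B p r + op B r p) * tI e P ⟨1, by omega⟩ (op B p r + op B r p) = 0 := by
    rw [← map_mul, hE2, map_zero]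
  have h0 : ∀ U, tI e P ⟨0, by omega⟩ U * tI e P ⟨1, by omega⟩ (op B p r + op B r p) *
      (tI e P ⟨0, by omega⟩ U * tI e P ⟨1, by omega⟩ (op B p r + op B r p)) = 0 := fun U => by
    rw [mul_assoc, ← mul_assoc (tI e P ⟨1, _⟩ _), ← (hc U).eq, mul_assoc, hYY, mul_zero, mul_zero]
  refine ⟨_, h.un_mem_omega _ hg (S := op B p p) (fun v w => by simp [h.sym p w, mul_comm]) hYY hc
    (h.adj _ (H4 _ (hmem h1))) h01.symm (fun x => ⟨_, tI_pv e P _ _ x, by rw [Function.update_self, halt]⟩) (h0 _),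
    not_mem_nrm h2 (hmem h1) hYY hc _ (prod_not_mem h01 (U := op B p' p) ?_ hEW.symm)⟩
  exact ne_of_B (B := B) p r' (by
    simp [hcj, ← mulVec_mulVec, add_mulVec, mulVec_add, hp, hp', h.alt, hr, hr', h1, h3, h4, h5, h1', h3', h4', h5'])

end Cases

/-- Let F be a finite field with q elements, n ≥ 13 even, Q a non-degenerate quadratic form on F^n of plus type (some subspace of dimension n/2 is totally singular), and Ω the commutator subgroup of the isometry group of Q, viewed inside GL_n(F). Suppose q is even and that, through P and e, the polar form of Q is similar to the t-fold tensor power (t ≥ 2) of a non-degenerate symplectic form f₁ on F^k with k ≤ 4 and (q, k) ≠ (2, 2), Q vanishing on the images of all pure tensors. Then the elements of Ω in the stabiliser of this decomposition form a subgroup that is not maximal: some subgroup lies strictly between it and Ω. -/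
theorem result {F : Type*} [Field F] [Fintype F] {n : ℕ} (hn : 13 ≤ n) (heven : Even n) (Q : (Fin n → F) → F) (hQ : Cfsg.Geo.IsNondegenerateQuadraticForm Q) (hplus : Cfsg.Geo.IsPlusTypeOn Q ⊤) (hchar : ¬ Odd (Fintype.card F)) (k t : ℕ) (ht : 2 ≤ t) (hk : k ≤ 4) (hex1 : ¬ (Fintype.card F = 2 ∧ k = 2)) (e : (Fin n) ≃ (Fin t → Fin k)) (P : Matrix.GeneralLinearGroup (Fin n) F) (f₁ : (Fin k → F) → (Fin k → F) → F) (hf₁ : Cfsg.Geo.IsSymplecticForm f₁) (hT : Cfsg.Geo.IsTensorPowerFormStructure id (QuadraticMap.polar Q) f₁ e P) (hpure : (∀ xs : Fin t → (Fin k → F), Q (Matrix.mulVec (P : Matrix (Fin n) (Fin n) F) ((fun a : Fin t → Fin k => ∏ i, xs i (a i)) ∘ e)) = 0)) : ∃ K : Subgroup (Matrix.GeneralLinearGroup (Fin n) F), Cfsg.Geo.tensorWreathSubgroup k t e P ⊓ Cfsg.Geo.omegaGL Q < K ∧ K < Cfsg.Geo.omegaGL Q := by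
  have h1 : n = k ^ t := by simpa using Fintype.card_congr e
  obtain ⟨r, hr⟩ := Asch.even_card_of_isSymplecticForm hf₁
  rw [Fintype.card_fin] at hr
  have hk0 : k ≠ 0 := by rintro rfl; rw [zero_pow (by omega)] at h1; omega
  have h2 : (2 : F) = 0 := by
    have := (FiniteField.even_card_iff_char_two (F := F)).2 (Nat.odd_iff.not.1 hchar |> Nat.mod_two_ne_one.1)
    have h3 := (ringChar.spec F 2).2 (this ▸ dvd_rfl)
    exact_mod_cast h3
  obtain ⟨c, hc, H⟩ := IsTensorPowerFormStructure.ptw (σ := RingEquiv.refl F)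
    (preSesq_of_isBilinearForm hf₁.bilinear) hT
  have hB : ∀ u, u ≠ 0 → ∃ v, geoBilin hf₁.bilinear u v ≠ 0 := fun u hu => by
    by_contra! h
    exact hu ((geoBilin_nondegenerate hf₁.bilinear hf₁.nondegenerate).1 u h)
  have h : Ctx (geoQuad hQ) e P (geoBilin hf₁.bilinear) c :=
    ⟨h2, hf₁.alternating, fun u v => by
      rw [geoBilin_apply, geoBilin_apply, hf₁.skew]; linear_combination (-f₁ v u) * h2, hc, by
      obtain ⟨v, hv⟩ := hB (Pi.single ⟨0, by omega⟩ 1) (by simp)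
      exact ⟨_, (geoBilin hf₁.bilinear (Pi.single ⟨0, by omega⟩ 1) v)⁻¹ • v, by
        rw [map_smul, smul_eq_mul, inv_mul_cancel₀ hv]⟩, H, hpure⟩
  obtain rfl | rfl : k = 2 ∨ k = 4 := by omega
  · have h4 : 4 ≤ t := by
      by_contra h3
      have : 2 ^ t ≤ 2 ^ 3 := Nat.pow_le_pow_right two_pos (by omega)
      omega
    have := case_two h h4
    rwa [coe_geoQuad] at this
  · have := case_four h ht hB
    rwa [coe_geoQuad] at this

end Cfsg.Agent.S5707
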