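import Cfsg.Statements.S5783
import Cfsg.Agent.Class.SU.OrthFour
import Cfsg.Agent.Class.SU.FrameFour
import Cfsg.Agent.Class.C6.Final

set_option autoImplicit false
open Cfsg

namespace Cfsg.Agent.S5783

open Cfsg.Lib.Class Cfsg.Lib.Class.Form

/-- Maximal subgroups of SU_4(q) of geometric type (any prime power q). Let F be the field with q² elements, f the standard unitary form Σ u_i v_i^q on F^4 and SU_4(q) its determinant-one isometry group inside GL_4(F). Each of the following, intersected with SU_4(q), is a maximal subgroup of SU_4(q): (1) the stabiliser of any non-zero subspace on which f vanishes identically (totally isotropic 1-spaces and 2-spaces); (2) the stabiliser of any non-degenerate 1-space; (3) for q ≠ 3, the stabiliser of any decomposition of F^4 into four mutually orthogonal non-degenerate 1-spaces; (4) for q ≥ 3, the stabiliser of any decomposition into two mutually orthogonal non-degenerate 2-spaces; (5)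 for q ≥ 4, the stabiliser of any decomposition into two totally isotropic 2-spaces; (6) every subfield group for a subfield F₀ of odd prime index in F whose F₀-structure carries f; (7) every subfield group for the subfield F₀ of index 2 whose F₀-structure carries ζ f for a non-zero ζ with ζ + ζ^q = 0, vanishing on pairs (u, u) (the symplectic type); (8) for q odd with q ≥ 5, every subfield group for the subfield F₀ of index 2 whose F₀-structure carries f (the orthogonal types, either sign); (9) for q = p prime with p ≡ 3 mod 4, the normaliser of any absolutely irreducible 2-group R of symplectic type and exponent 4 with |R| = 64 and centre of order 4, consisting of isometries of f. -/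
theorem result {F : Type*} [Field F] [Fintype F] (q : ℕ) (hF : Fintype.card F = q ^ 2) :
    (∀ W : Submodule F (Fin 4 → F), W ≠ ⊥ → Cfsg.Geo.IsTotallySingularFor (Cfsg.hermForm 4 F q) W → Cfsg.Geo.IsMaximalIn (Cfsg.GU 4 F q ⊓ Cfsg.Geo.specialLinear (Fin 4) F) (Cfsg.Geo.subspaceStabilizer W ⊓ (Cfsg.GU 4 F q ⊓ Cfsg.Geo.specialLinear (Fin 4) F))) ∧
    (∀ W : Submodule F (Fin 4 → F), W ≠ ⊥ → Cfsg.Geo.IsNondegenerateOn (Cfsg.hermForm 4 F q) W → 2 * Module.finrank F W < 4 → Cfsg.Geo.IsMaximalIn (Cfsg.GU 4 F q ⊓ Cfsg.Geo.specialLinear (Fin 4) F) (Cfsg.Geo.subspaceStabilizer W ⊓ (Cfsg.GU 4 F q ⊓ Cfsg.Geo.specialLinear (Fin 4) F))) ∧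
    (q ≠ 3 → ∀ D : Fin 4 → Submodule F (Fin 4 → F), Cfsg.Geo.IsNondegenerateMDecomposition (Cfsg.hermForm 4 F q) 1 D → Cfsg.Geo.IsMaximalIn (Cfsg.GU 4 F q ⊓ Cfsg.Geo.specialLinear (Fin 4) F) (Cfsg.Geo.decompositionStabilizer D ⊓ (Cfsg.GU 4 F q ⊓ Cfsg.Geo.specialLinear (Fin 4) F))) ∧
    (3 ≤ q → ∀ D : Fin 2 → Submodule F (Fin 4 → F), Cfsg.Geo.IsNondegenerateMDecomposition (Cfsg.hermForm 4 F q) 2 D → Cfsg.Geo.IsMaximalIn (Cfsg.GU 4 F q ⊓ Cfsg.Geo.specialLinear (Fin 4) F) (Cfsg.Geo.decompositionStabilizer D ⊓ (Cfsg.GU 4 F q ⊓ Cfsg.Geo.specialLinear (Fin 4) F))) ∧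
    (4 ≤ q → ∀ D : Fin 2 → Submodule F (Fin 4 → F), Cfsg.Geo.IsMDecomposition 2 D → (∀ i, Cfsg.Geo.IsTotallySingularFor (Cfsg.hermForm 4 F q) (D i)) → Cfsg.Geo.IsMaximalIn (Cfsg.GU 4 F q ⊓ Cfsg.Geo.specialLinear (Fin 4) F) (Cfsg.Geo.decompositionStabilizer D ⊓ (Cfsg.GU 4 F q ⊓ Cfsg.Geo.specialLinear (Fin 4) F))) ∧
    (∀ (F₀ : Subfield F) (r : ℕ) (P : Matrix.GeneralLinearGroup (Fin 4) F), r.Prime → Odd r → Fintype.card F = Nat.card F₀ ^ r → Cfsg.Geo.IsFormRationalStructure (Cfsg.hermForm 4 F q) F₀ 1 P → Cfsg.Geo.IsMaximalIn (Cfsg.GU 4 F q ⊓ Cfsg.Geo.specialLinear (Fin 4) F) (Cfsg.Geo.subfieldSubgroup F₀ P ⊓ (Cfsg.GU 4 F q ⊓ Cfsg.Geo.specialLinear (Fin 4) F))) ∧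
    (∀ (F₀ : Subfield F) (P : Matrix.GeneralLinearGroup (Fin 4) F) (ζ : F), Fintype.card F = Nat.card F₀ ^ 2 → ζ ≠ 0 → ζ + ζ ^ q = 0 → Cfsg.Geo.IsFormRationalStructure (Cfsg.hermForm 4 F q) F₀ ζ P → (∀ u : Fin 4 → F, (∀ i, u i ∈ F₀) → (Cfsg.hermForm 4 F q) (Matrix.mulVec (P : Matrix (Fin 4) (Fin 4) F) u) (Matrix.mulVec (P : Matrix (Fin 4) (Fin 4) F) u) = 0) → Cfsg.Geo.IsMaximalIn (Cfsg.GU 4 F q ⊓ Cfsg.Geo.specialLinear (Fin 4) F) (Cfsg.Geo.subfieldSubgroup F₀ P ⊓ (Cfsg.GU 4 F q ⊓ Cfsg.Geo.specialLinear (Fin 4) F))) ∧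
    (Odd q → 5 ≤ q → ∀ (F₀ : Subfield F) (P : Matrix.GeneralLinearGroup (Fin 4) F), Fintype.card F = Nat.card F₀ ^ 2 → Cfsg.Geo.IsFormRationalStructure (Cfsg.hermForm 4 F q) F₀ 1 P → Cfsg.Geo.IsMaximalIn (Cfsg.GU 4 F q ⊓ Cfsg.Geo.specialLinear (Fin 4) F) (Cfsg.Geo.subfieldSubgroup F₀ P ⊓ (Cfsg.GU 4 F q ⊓ Cfsg.Geo.specialLinear (Fin 4) F))) ∧
    (∀ (p : ℕ) (R : Subgroup (Matrix.GeneralLinearGroup (Fin 4) F)), p.Prime → q = p → p % 4 = 3 → Cfsg.Geo.IsSymplecticTypeGroup 2 R → Cfsg.Geo.ActsAbsolutelyIrreducibly (Cfsg.Geo.matrixSet R) → R ≤ Cfsg.GU 4 F q → Nat.card R = 64 → Nat.card (Subgroup.center R) = 4 → Cfsg.Geo.IsMaximalIn (Cfsg.GU 4 F q ⊓ Cfsg.Geo.specialLinear (Fin 4) F) (Cfsg.Geo.subgroupNormalizer R ⊓ (Cfsg.GU 4 F q ⊓ Cfsg.Geo.specialLinear (Fin 4) F))) := by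
  classical
  refine ⟨SUT.totIso hF (by norm_num), SUT.nondeg hF (by norm_num),
    fun hq D hD => SUT.frame_of hF hD fun _ _ he => he.maxS_four (by simp) ?_,
    fun hq D hD => SUT.decomp hF hD le_rfl (.inr (by omega)),
    fun hq D hD hts => SUT.lag hF hD hts le_rfl (.inr ?_),
    SUT.subOdd hF le_rfl, SUT.subSymp hF le_rfl,
    fun ho hq F₀ P hc hP => SUT.subOrth_of hF (by norm_num) F₀ P hc hP fun _ =>
      Klein.maxS_orth hF ho hq hc,
    fun p R hp hq h4 hR hirr hRU _ hZ => C6.isMaximalIn_SU_two hF (hq ▸ hp) (hq ▸ h4) hR hirr hRU hZ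
      (m := 2) (by norm_num) (by norm_num)⟩
  · refine or_iff_not_imp_left.2 fun h2 => ?_
    have h1 : ¬ Even (q ^ 2) := fun h => h2 (by
      have := FiniteField.even_card_iff_char_two.2 (hF ▸ Nat.even_iff.1 h)
      simpa [this] using ringChar.Nat.cast_ringChar (R := F))
    have h3 := two_le_of_card_sq hF
    rw [Nat.even_pow, Nat.even_iff] at h1
    by_contra! hc
    have h4 := (card_normOne hF).ge.trans <| Finset.card_le_card
      (t := (Polynomial.nthRoots 4 (1 : F)).toFinset) fun x hx => by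
        simpa using hc x (Finset.mem_filter.1 hx).2
    have h5 := (Multiset.toFinset_card_le _).trans (Polynomial.card_nthRoots 4 (1 : F))
    omega
  · by_contra! hc
    have h4 := Nat.card_le_card_of_injective (α := {x : F // x ^ q = x})
      (β := ({0, 1, -1} : Finset F)) (fun x => ⟨x.1, by
        by_cases h : x.1 = 0
        · simp [h]
        · simp [mul_self_eq_one_iff.1 (hc x.1 x.2 h)]⟩) fun a b h => Subtype.ext (Subtype.mk.inj h)
    rw [card_pow_eq_self hF, Nat.card_eq_finsetCard] at h4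
    have := Finset.card_le_three (a := (0 : F)) (b := 1) (c := -1)
    omega


end Cfsg.Agent.S5783
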