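import Cfsg.Statements.S5786
import Cfsg.Agent.Class.Tens.SpO2
import Cfsg.Agent.Class.C6.SpSmall

set_option autoImplicit false
open Cfsg

namespace Cfsg.Agent.S5786

open Cfsg.Lib.Class

/-- Maximal subgroups of Sp_4(q) of geometric type, q odd. Let F be a finite field of odd order q, f the standard alternating form on F^4 (coordinates Fin 2 ⊕ Fin 2) and Sp_4(F) its isometry group inside GL_4(F). Each of the following, intersected with Sp_4(F), is a maximal subgroup of Sp_4(F): (1) the stabiliser of any non-zero totally isotropic subspace (totally isotropic 1-spaces and 2-spaces); (2) the stabiliser of any decomposition of F^4 into two mutually orthogonal non-degenerate 2-spaces; (3) for q ≥ 5, the stabiliser of any decomposition of F^4 into two totally isotropic 2-spaces; (4) the normaliser of any degree-2 subfield K of the matrix algebra whose elements are self-adjoint for f with f(k v, v) = 0 for all k in K and all v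 (f is the trace of an alternating form over K); (5) for q ≥ 5, the normaliser of any degree-2 subfield of the matrix algebra that is closed under adjoints but not self-adjoint (f is the trace of a multiple of a unitary form over K); (6) every subfield group for a subfield F₀ with |F| = |F₀|^r, r prime, whose F₀-structure carries a non-zero scalar multiple of f; (7) for q = p prime, the normaliser of any absolutely irreducible 2-group R of symplectic type and exponent 4, of order 32 with centre of order 2 and of minus type, consisting of isometries of f. -/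
theorem result {F : Type*} [Field F] [Fintype F] (hodd : Odd (Fintype.card F)) :
    (∀ W : Submodule F (Fin 2 ⊕ Fin 2 → F), W ≠ ⊥ → Cfsg.Geo.IsTotallySingularFor (Cfsg.sympForm 2 F) W → Cfsg.Geo.IsMaximalIn (Cfsg.spGL 2 F) (Cfsg.Geo.subspaceStabilizer W ⊓ Cfsg.spGL 2 F)) ∧
    (∀ D : Fin 2 → Submodule F (Fin 2 ⊕ Fin 2 → F), Cfsg.Geo.IsNondegenerateMDecomposition (Cfsg.sympForm 2 F) 2 D → Cfsg.Geo.IsMaximalIn (Cfsg.spGL 2 F) (Cfsg.Geo.decompositionStabilizer D ⊓ Cfsg.spGL 2 F)) ∧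
    (5 ≤ Fintype.card F → ∀ D : Fin 2 → Submodule F (Fin 2 ⊕ Fin 2 → F), Cfsg.Geo.IsMDecomposition 2 D → (∀ i, Cfsg.Geo.IsTotallySingularFor (Cfsg.sympForm 2 F) (D i)) → Cfsg.Geo.IsMaximalIn (Cfsg.spGL 2 F) (Cfsg.Geo.decompositionStabilizer D ⊓ Cfsg.spGL 2 F)) ∧
    (∀ K : Subalgebra F (Matrix (Fin 2 ⊕ Fin 2) (Fin 2 ⊕ Fin 2) F), Cfsg.Geo.IsFieldSubalgebra 2 K → Cfsg.Geo.IsSelfAdjointFor (Cfsg.sympForm 2 F) K → (∀ k ∈ K, ∀ v : (Fin 2 ⊕ Fin 2 → F), (Cfsg.sympForm 2 F) (Matrix.mulVec k v) v = 0) → Cfsg.Geo.IsMaximalIn (Cfsg.spGL 2 F) (Cfsg.Geo.subalgebraNormalizer K ⊓ Cfsg.spGL 2 F)) ∧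
    (5 ≤ Fintype.card F → ∀ K : Subalgebra F (Matrix (Fin 2 ⊕ Fin 2) (Fin 2 ⊕ Fin 2) F), Cfsg.Geo.IsFieldSubalgebra 2 K → Cfsg.Geo.IsAdjointClosedFor (Cfsg.sympForm 2 F) K → ¬ Cfsg.Geo.IsSelfAdjointFor (Cfsg.sympForm 2 F) K → Cfsg.Geo.IsMaximalIn (Cfsg.spGL 2 F) (Cfsg.Geo.subalgebraNormalizer K ⊓ Cfsg.spGL 2 F)) ∧
    (∀ (F₀ : Subfield F) (r : ℕ) (P : Matrix.GeneralLinearGroup (Fin 2 ⊕ Fin 2) F) (ζ : F), r.Prime → Fintype.card F = Nat.card F₀ ^ r → ζ ≠ 0 → Cfsg.Geo.IsFormRationalStructure (Cfsg.sympForm 2 F) F₀ ζ P → Cfsg.Geo.IsMaximalIn (Cfsg.spGL 2 F) (Cfsg.Geo.subfieldSubgroup F₀ P ⊓ Cfsg.spGL 2 F)) ∧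
    (∀ (p : ℕ) (R : Subgroup (Matrix.GeneralLinearGroup (Fin 2 ⊕ Fin 2) F)), p.Prime → Fintype.card F = p → Cfsg.Geo.IsSymplecticTypeGroup 2 R → Cfsg.Geo.ActsAbsolutelyIrreducibly (Cfsg.Geo.matrixSet R) → R ≤ Cfsg.spGL 2 F → Nat.card R = 32 → Nat.card (Subgroup.center R) = 2 → Cfsg.Geo.IsOfMinusType 2 R → Cfsg.Geo.IsMaximalIn (Cfsg.spGL 2 F) (Cfsg.Geo.subgroupNormalizer R ⊓ Cfsg.spGL 2 F)) := by
  have h3 : 2 < Fintype.card F := by
    have := Fintype.one_lt_card (α := F)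
    obtain ⟨r, hr⟩ := hodd
    omega
  exact ⟨SpGeo.singular 2, fun D hD => SpGeo.dec 2 2 D hD (by omega),
    SpGeo.lagPair_two 2 rfl hodd, SpGeo.field 2 le_rfl (fun _ => h3) 2 Nat.prime_two,
    SpGeo.unitary_two 2 rfl hodd,
    fun F₀ r P ζ hr hc => isMaximalIn_spGL_subfield 2 le_rfl F₀ r hr hc P ζ,
    fun p R hp hF hR hirr hRD _ _ _ => C6.isMaximalIn_sp_two hp hF hR hirr hRD⟩

end Cfsg.Agent.S5786
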