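import Cfsg.Statements.S5790
import Cfsg.Agent.Class.AL.SpMain

set_option autoImplicit false
open Cfsg

namespace Cfsg.Agent.S5790

open Cfsg.Lib.Class.AL

/-- Every maximal subgroup of Sp_4(q), q ≥ 4 even, is of one of the listed geometric types or lies in the residual class. Let F be a finite field of even order q ≥ 4, f the standard alternating form on F^4 (coordinates Fin 2 ⊕ Fin 2), and H a maximal subgroup of Sp_4(F) (inside GL_4(F)). Then H is the intersection with Sp_4(F) of one of: the stabiliser of a non-zero totally isotropic subspace; the stabiliser of a decomposition into two orthogonal non-degenerate 2-spaces; the normaliser of a degree-2 subfield K of the matrix algebra, self-adjoint with f(k v, v) = 0; a subfield group whose F₀-structure carries a non-zero multiple of f, |F| = |F₀|^r with r prime; the similarity group of a non-degenerate quadratic form whose polar form is f — or else H lies in the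 residual class of the symplectic case. -/
theorem result {F : Type*} [Field F] [Fintype F] (heven : ¬ Odd (Fintype.card F)) (h4 : 4 ≤ Fintype.card F) (H : Subgroup (Matrix.GeneralLinearGroup (Fin 2 ⊕ Fin 2) F)) (hH : Cfsg.Geo.IsMaximalIn (Cfsg.spGL 2 F) H) :
    (∃ W : Submodule F (Fin 2 ⊕ Fin 2 → F), W ≠ ⊥ ∧ Cfsg.Geo.IsTotallySingularFor (Cfsg.sympForm 2 F) W ∧ H = Cfsg.Geo.subspaceStabilizer W ⊓ Cfsg.spGL 2 F) ∨
    (∃ D : Fin 2 → Submodule F (Fin 2 ⊕ Fin 2 → F), Cfsg.Geo.IsNondegenerateMDecomposition (Cfsg.sympForm 2 F) 2 D ∧ H = Cfsg.Geo.decompositionStabilizer D ⊓ Cfsg.spGL 2 F) ∨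
    (∃ K : Subalgebra F (Matrix (Fin 2 ⊕ Fin 2) (Fin 2 ⊕ Fin 2) F), Cfsg.Geo.IsFieldSubalgebra 2 K ∧ Cfsg.Geo.IsSelfAdjointFor (Cfsg.sympForm 2 F) K ∧ (∀ k ∈ K, ∀ v : (Fin 2 ⊕ Fin 2 → F), (Cfsg.sympForm 2 F) (Matrix.mulVec k v) v = 0) ∧ H = Cfsg.Geo.subalgebraNormalizer K ⊓ Cfsg.spGL 2 F) ∨
    (∃ (F₀ : Subfield F) (r : ℕ) (P : Matrix.GeneralLinearGroup (Fin 2 ⊕ Fin 2) F) (ζ : F), r.Prime ∧ Fintype.card F = Nat.card F₀ ^ r ∧ ζ ≠ 0 ∧ Cfsg.Geo.IsFormRationalStructure (Cfsg.sympForm 2 F) F₀ ζ P ∧ H = Cfsg.Geo.subfieldSubgroup F₀ P ⊓ Cfsg.spGL 2 F) ∨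
    (∃ Q : (Fin 2 ⊕ Fin 2 → F) → F, Cfsg.Geo.IsNondegenerateQuadraticForm Q ∧ (∀ u v : (Fin 2 ⊕ Fin 2 → F), QuadraticMap.polar Q u v = (Cfsg.sympForm 2 F) u v) ∧ H = Cfsg.Geo.quadSimilarityGroup Q ⊓ Cfsg.spGL 2 F) ∨
    Cfsg.Geo.InSymplecticResidualClass H := by
  have hc : Fintype.card (Fin 2 ⊕ Fin 2) = 4 := by simp
  rcases spMax (Cfsg.Lib.Class.Asch.isSymplecticForm_sympForm 2) (by omega) hH with h |
    ⟨W, h0, h1, h2, h3, h⟩ | ⟨t, k, D, hD, hn, he, a1, h⟩ | ⟨k, D, ho, hn, a1, hD, hs, h⟩ |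
    ⟨r, K, hr, hn, h⟩ | ⟨ho, a1, h⟩ | ⟨n₁, n₂, e, P, f₁, f₂, ho, h1, h2, he, hn, a1, a2, h₁, h₂, h⟩ |
    h | ⟨R, k, hp, ho, hn, h⟩ | ⟨k, t, e, P, f₁, ho, ht, hk, hn, a1, h⟩ | h | h
  · exact Or.inl h
  · omega
  · rw [hc] at hn
    have := hD.decomp.two_le
    have hk : k ≤ 4 := by nlinarith
    have : (t = 2 ∧ k = 2) := by
      interval_cases k <;> omega
    rcases this with ⟨rfl, rfl⟩
    exact Or.inr <| Or.inl ⟨D, hD, h⟩
  · exact absurd ho heven
  · rw [hc] at hn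
    have := Nat.le_of_dvd (by norm_num) hn
    have hr' : r ≤ 2 := by omega
    have : r = 2 := by
      interval_cases r <;> first | omega | (norm_num at hr)
    rcases this with rfl
    exact Or.inr <| Or.inr <| Or.inl ⟨K, h⟩
  · exact absurd ho heven
  · rw [hc] at hn
    have : n₁ ≤ 4 := by nlinarith
    exfalso
    interval_cases n₁ <;> omega
  · exact Or.inr <| Or.inr <| Or.inr <| Or.inl h
  · exact absurd ho heven
  · rw [hc] at hn
    exact absurd (pow_eq_eight_of_le hk ht hn (by norm_num)).1 (by norm_num)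
  · exact Or.inr <| Or.inr <| Or.inr <| Or.inr <| Or.inl h.2
  · exact Or.inr <| Or.inr <| Or.inr <| Or.inr <| Or.inr <| h

end Cfsg.Agent.S5790
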