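import Cfsg.Statements.S5796
import Cfsg.Agent.Inst.AschU
import Cfsg.Agent.Class.USinger

set_option autoImplicit false
open Cfsg

namespace Cfsg.Agent.S5796

open Cfsg.Lib.Class Cfsg.Lib.Class.TvP Cfsg.Lib.Class.Asch

/-- Every maximal subgroup of SU_5(q) is of one of the listed geometric types or lies in the residual class. Let F be the field with q² elements (characteristic p), f the standard unitary form Σ u_i v_i^q on F^5, and H a maximal subgroup of SU_5(q) (inside GL_5(F)). Then H is the intersection with SU_5(q) of one of: the stabiliser of a non-zero totally isotropic subspace; the stabiliser of a non-degenerate 1-space or 2-space; the stabiliser of a decomposition into five mutually orthogonal non-degenerate 1-spaces; for q ≥ 3, the normaliser of an adjoint-closed degree-5 subfield of the matrix algebra; a subfield group of odd prime index whose F₀-structure carries f; for q odd,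 a subfield group of index 2 whose F₀-structure carries f; for q = p ≡ 4 mod 5 or q = p² with p ≡ 2, 3 mod 5, the normaliser of an absolutely irreducible 5-group of exponent 5, order 125 and centre of order 5 with all characteristic abelian subgroups cyclic inside the similarity group of f — or else H lies in the residual class of the unitary case. -/
theorem result {F : Type*} [Field F] [Fintype F] (q : ℕ) (hF : Fintype.card F = q ^ 2) (H : Subgroup (Matrix.GeneralLinearGroup (Fin 5) F)) (hH : Cfsg.Geo.IsMaximalIn (Cfsg.GU 5 F q ⊓ Cfsg.Geo.specialLinear (Fin 5) F) H) :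
    (∃ W : Submodule F (Fin 5 → F), W ≠ ⊥ ∧ Cfsg.Geo.IsTotallySingularFor (Cfsg.hermForm 5 F q) W ∧ H = Cfsg.Geo.subspaceStabilizer W ⊓ (Cfsg.GU 5 F q ⊓ Cfsg.Geo.specialLinear (Fin 5) F)) ∨
    (∃ W : Submodule F (Fin 5 → F), W ≠ ⊥ ∧ Cfsg.Geo.IsNondegenerateOn (Cfsg.hermForm 5 F q) W ∧ 2 * Module.finrank F W < 5 ∧ H = Cfsg.Geo.subspaceStabilizer W ⊓ (Cfsg.GU 5 F q ⊓ Cfsg.Geo.specialLinear (Fin 5) F)) ∨
    (∃ D : Fin 5 → Submodule F (Fin 5 → F), Cfsg.Geo.IsNondegenerateMDecomposition (Cfsg.hermForm 5 F q) 1 D ∧ H = Cfsg.Geo.decompositionStabilizer D ⊓ (Cfsg.GU 5 F q ⊓ Cfsg.Geo.specialLinear (Fin 5) F)) ∨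
    (3 ≤ q ∧ ∃ K : Subalgebra F (Matrix (Fin 5) (Fin 5) F), Cfsg.Geo.IsFieldSubalgebra 5 K ∧ Cfsg.Geo.IsAdjointClosedFor (Cfsg.hermForm 5 F q) K ∧ H = Cfsg.Geo.subalgebraNormalizer K ⊓ (Cfsg.GU 5 F q ⊓ Cfsg.Geo.specialLinear (Fin 5) F)) ∨
    (∃ (F₀ : Subfield F) (r : ℕ) (P : Matrix.GeneralLinearGroup (Fin 5) F), r.Prime ∧ Odd r ∧ Fintype.card F = Nat.card F₀ ^ r ∧ Cfsg.Geo.IsFormRationalStructure (Cfsg.hermForm 5 F q) F₀ 1 P ∧ H = Cfsg.Geo.subfieldSubgroup F₀ P ⊓ (Cfsg.GU 5 F q ⊓ Cfsg.Geo.specialLinear (Fin 5) F)) ∨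
    (Odd q ∧ ∃ (F₀ : Subfield F) (P : Matrix.GeneralLinearGroup (Fin 5) F), Fintype.card F = Nat.card F₀ ^ 2 ∧ Cfsg.Geo.IsFormRationalStructure (Cfsg.hermForm 5 F q) F₀ 1 P ∧ H = Cfsg.Geo.subfieldSubgroup F₀ P ⊓ (Cfsg.GU 5 F q ⊓ Cfsg.Geo.specialLinear (Fin 5) F)) ∨
    (∃ (p : ℕ) (R : Subgroup (Matrix.GeneralLinearGroup (Fin 5) F)), p.Prime ∧ CharP F p ∧ ((q = p ∧ p % 5 = 4) ∨ (q = p ^ 2 ∧ (p % 5 = 2 ∨ p % 5 = 3))) ∧ Cfsg.Geo.IsSymplecticTypeGroup 5 R ∧ Cfsg.Geo.ActsAbsolutelyIrreducibly (Cfsg.Geo.matrixSet R) ∧ R ≤ Cfsg.Geo.similarityGroup (Cfsg.hermForm 5 F q) ∧ Nat.card R = 125 ∧ Nat.card (Subgroup.center R) = 5 ∧ H = Cfsg.Geo.subgroupNormalizer R ⊓ (Cfsg.GU 5 F q ⊓ Cfsg.Geo.specialLinear (Fin 5) F)) ∨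
    Cfsg.Geo.InUnitaryResidualClass H := by
  have hq2 := two_le_of_card_sq hF
  rcases uMax_of_gate hF (by omega) (by omega) hH with h | h | ⟨t, k, D, h1, h2, hD, h⟩ |
    ⟨k, D, h1, -⟩ | ⟨r, K, hr, -, h1, hK, hK', h⟩ | ⟨n₁, n₂, e, P, f₁, f₂, h1, h2, h3, -⟩ | h |
    ⟨F₀, P, hq, h⟩ | ⟨F₀, P, ζ, h1, -⟩ | ⟨r, R, p, e, k, hR, hR', hRf, -, -, hq, hm, -, h1, h2, h⟩ |
    ⟨k, t, e, P, f₁, h1, h2, h3, -⟩ | h
  · exact Or.inl h
  · exact Or.inr (Or.inl h)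
  · obtain rfl : t = 5 := by
      rcases (Nat.dvd_prime (by norm_num)).1 (Dvd.intro _ h1.symm) with h | h <;> omega
    obtain rfl : k = 1 := by omega
    exact Or.inr (Or.inr (Or.inl ⟨D, hD, h⟩))
  · omega
  · obtain rfl : r = 5 := (Nat.prime_dvd_prime_iff_eq hr (by norm_num)).1 h1
    refine Or.inr (Or.inr (Or.inr (Or.inl ⟨?_, K, hK, hK', h⟩)))
    by_contra hq
    obtain rfl : q = 2 := by omega
    exact singer_u52 hF hK hK' (h ▸ hH)
  · rcases (Nat.dvd_prime (by norm_num)).1 (Dvd.intro _ h1.symm) with rfl | rfl <;> omega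
  · exact Or.inr (Or.inr (Or.inr (Or.inr (Or.inl h))))
  · exact Or.inr (Or.inr (Or.inr (Or.inr (Or.inr (Or.inl ⟨hq, F₀, P, h⟩)))))
  · exact absurd h1 (by decide)
  · obtain ⟨rfl, rfl⟩ := eq_of_prime_eq_pow (by norm_num) h1
    obtain ⟨-, hz, hc⟩ := h2.resolve_right (by omega)
    refine Or.inr (Or.inr (Or.inr (Or.inr (Or.inr (Or.inr (Or.inl ⟨p, R, hm.1, hm.2.1, ?_, hR',
      absIrr_of_env_eq_top hR.env_top, hRf, hc, hz, h⟩))))))
    rw [hz] at hm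
    obtain ⟨a1, a2, a3, a4⟩ := minField_mod hm (by norm_num)
    have key : ∀ a < 5, ∀ e < 3, 0 < 2 * e → a ^ (2 * e) % 5 = 1 →
        (∀ d < 2 * e, 0 < d → a ^ d % 5 ≠ 1) → (e = 1 ∧ a = 4) ∨ (e = 2 ∧ (a = 2 ∨ a = 3)) := by
      intro a ha e he
      interval_cases a <;> interval_cases e <;> decide
    rcases key _ (Nat.mod_lt _ (by norm_num)) e (by omega) a1 a3 a4 with ⟨rfl, h⟩ | ⟨rfl, h⟩
    · exact Or.inl ⟨by rw [hq, pow_one], h⟩
    · exact Or.inr ⟨hq, h⟩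
  · obtain ⟨rfl, rfl⟩ := eq_of_prime_eq_pow (by norm_num) h1
    omega
  · exact Or.inr (Or.inr (Or.inr (Or.inr (Or.inr (Or.inr (Or.inr h))))))

end Cfsg.Agent.S5796
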