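import Cfsg.Statements.S5826
import Cfsg.Agent.Class.AO.Cases

set_option autoImplicit false
open Cfsg

namespace Cfsg.Agent.S5826

open Cfsg.Lib Cfsg.Lib.Class Cfsg.Lib.Class.AO

/-- Every maximal subgroup of Ω_8^-(q) is of one of the listed geometric types or lies in the residual class. Let F be a finite field with q elements, Q a non-degenerate quadratic form on F^8 of minus type (no totally singular 4-space), Ω the commutator subgroup of its isometry group, and H a maximal subgroup of Ω (inside GL_8(F)). Then H is the intersection with Ω of one of: the stabiliser of a non-zero totally singular subspace; for q odd, the stabiliser of a non-degenerate subspace of odd dimension; the stabiliser of a non-degenerate 2-space of minus type; for q ≥ 4, the stabiliser of a non-degenerate 2-space of plus type; the stabiliser of a non-degenerate 4-space; for q even, the stabiliser of the span of a non-singular vector; the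 normaliser of a degree-2 subfield of the matrix algebra; a subfield group of odd prime index whose F₀-structure carries a non-zero multiple of Q — or else H lies in the residual class of the orthogonal case (modulo scalars H is almost simple, with absolutely irreducible perfect socle preimage realisable over no proper subfield and fixing no non-degenerate unitary form). -/
theorem result {F : Type*} [Field F] [Fintype F] (Q : (Fin 8 → F) → F) (hQ : Cfsg.Geo.IsNondegenerateQuadraticForm Q) (hminus : ¬ Cfsg.Geo.IsPlusTypeOn Q ⊤) (H : Subgroup (Matrix.GeneralLinearGroup (Fin 8) F)) (hH : Cfsg.Geo.IsMaximalIn (Cfsg.Geo.omegaGL Q) H) :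
    (∃ W : Submodule F (Fin 8 → F), W ≠ ⊥ ∧ Cfsg.Geo.IsTotallySingularQuad Q W ∧ H = Cfsg.Geo.subspaceStabilizer W ⊓ Cfsg.Geo.omegaGL Q) ∨
    (Odd (Fintype.card F) ∧ ∃ W : Submodule F (Fin 8 → F), W ≠ ⊥ ∧ W ≠ ⊤ ∧ Odd (Module.finrank F W) ∧ Cfsg.Geo.IsNondegenerateOn (QuadraticMap.polar Q) W ∧ H = Cfsg.Geo.subspaceStabilizer W ⊓ Cfsg.Geo.omegaGL Q) ∨
    (∃ W : Submodule F (Fin 8 → F), Module.finrank F W = 2 ∧ Cfsg.Geo.IsNondegenerateOn (QuadraticMap.polar Q) W ∧ ¬ Cfsg.Geo.IsPlusTypeOn Q W ∧ H = Cfsg.Geo.subspaceStabilizer W ⊓ Cfsg.Geo.omegaGL Q) ∨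
    (4 ≤ Fintype.card F ∧ ∃ W : Submodule F (Fin 8 → F), Module.finrank F W = 2 ∧ Cfsg.Geo.IsNondegenerateOn (QuadraticMap.polar Q) W ∧ Cfsg.Geo.IsPlusTypeOn Q W ∧ H = Cfsg.Geo.subspaceStabilizer W ⊓ Cfsg.Geo.omegaGL Q) ∨
    (∃ W : Submodule F (Fin 8 → F), Module.finrank F W = 4 ∧ Cfsg.Geo.IsNondegenerateOn (QuadraticMap.polar Q) W ∧ H = Cfsg.Geo.subspaceStabilizer W ⊓ Cfsg.Geo.omegaGL Q) ∨
    (¬ Odd (Fintype.card F) ∧ ∃ v : (Fin 8 → F), Q v ≠ 0 ∧ H = Cfsg.Geo.subspaceStabilizer (Submodule.span F {v}) ⊓ Cfsg.Geo.omegaGL Q) ∨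
    (∃ K : Subalgebra F (Matrix (Fin 8) (Fin 8) F), Cfsg.Geo.IsFieldSubalgebra 2 K ∧ H = Cfsg.Geo.subalgebraNormalizer K ⊓ Cfsg.Geo.omegaGL Q) ∨
    (∃ (F₀ : Subfield F) (r : ℕ) (P : Matrix.GeneralLinearGroup (Fin 8) F) (ζ : F), r.Prime ∧ Odd r ∧ Fintype.card F = Nat.card F₀ ^ r ∧ ζ ≠ 0 ∧ Cfsg.Geo.IsQuadFormRationalStructure (fun v : Fin 8 → F => ζ * Q v) F₀ P ∧ H = Cfsg.Geo.subfieldSubgroup F₀ P ⊓ Cfsg.Geo.omegaGL Q) ∨
    Cfsg.Geo.InOrthogonalResidualClass H := by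
  have hn := Fintype.card_fin 8
  rcases maxCase hQ (by omega) hH with ⟨W, h0, h1, -, h⟩ | ⟨W, W', hW, -, h0, h1, h2, -⟩ | h |
    ⟨t, k, D, h0, h1, -, hD, -⟩ | ⟨k, D, -, -, h0, -⟩ | ⟨r, K, h0, h1, -, -, -, hK, -, h⟩ |
    ⟨K, -, -, hK, -, -, -, h⟩ | ⟨d, k, e, P, f₁, f₂, h0, -, h1, h3, -⟩ |
    ⟨d, k, e, P, f₁, f₂, h0, -, -, h1, h2, -, -, -, h3, -⟩ |
    ⟨k, r, P, ζ, hr, h0, h1, h2, h3, h⟩ | ⟨k, -, h0⟩ | ⟨k, t, e, P, f, h0, -, h1, h3, -⟩ |
    ⟨k, t, e, P, f, h0, h1, h2, h3, h4, h5⟩ | h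
  · exact .inl ⟨W, h0, h1, h⟩
  · obtain ⟨a, b, c, d, e, f⟩ := hW
    obtain h | h | h : Odd (Module.finrank F W) ∨ Module.finrank F W = 2 ∨
        Module.finrank F W = 4 := by
      rw [Nat.odd_iff]; omega
    · exact .inr (.inl ⟨d h, W, a, b, h, c, f⟩)
    · by_cases hp : Geo.IsPlusTypeOn Q W
      · exact .inr (.inr (.inr (.inl ⟨e h hp, W, h, c, hp, f⟩)))
      · exact .inr (.inr (.inl ⟨W, h, c, hp, f⟩))
    · exact .inr (.inr (.inr (.inr (.inl ⟨W, h, c, f⟩))))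
  · exact .inr (.inr (.inr (.inr (.inr (.inl h)))))
  · refine (hminus ?_).elim
    obtain ⟨rfl, rfl⟩ | ⟨rfl, rfl⟩ | ⟨rfl, rfl⟩ :
        (t = 8 ∧ k = 1) ∨ (t = 4 ∧ k = 2) ∨ (t = 2 ∧ k = 4) := by
      have : t ≤ 8 := Nat.le_of_dvd (by omega) (Dvd.intro _ (h1.symm.trans hn))
      interval_cases t <;> omega
    · obtain ⟨h2, h3⟩ := dec_odd hQ hD odd_one (m := 4) hn
      exact h3.2 ((Known.pow_mod_four_eq_one_iff h2 4).2 (by rw [Nat.even_iff]; omega))
    · exact (dec_even hQ hD (by decide)).elim (·.2) (·.2.2 (by decide))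
    · exact (dec_even hQ hD (by decide)).elim (·.2) (·.2.2 (by decide))
  · exact absurd h0 hminus
  · obtain rfl : r = 2 := (Nat.prime_dvd_prime_iff_eq h0 Nat.prime_two).1
      (h0.dvd_of_dvd_pow (n := 3) (by simpa using h1))
    exact .inr (.inr (.inr (.inr (.inr (.inr (.inl ⟨K, hK, h⟩))))))
  · exact .inr (.inr (.inr (.inr (.inr (.inr (.inl ⟨K, hK, h⟩))))))
  · nlinarith
  · obtain rfl : d = 2 := by nlinarith
    exact absurd ((isPlusTypeOn_top hQ).2 (isPlus_of_pure h3)) hminus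
  · iterate 7 right
    exact .inl ⟨k, r, P, ζ, hr, h1 (by decide) hminus, h0, h2, h3, h⟩
  · exact absurd h0 hminus
  · have := pow_cases h0 h3 (by omega) (by omega)
    rcases this with ⟨rfl, rfl⟩ | ⟨rfl, rfl⟩ <;> omega
  · obtain ⟨rfl, rfl⟩ | ⟨rfl, rfl⟩ := pow_cases h0 h2 (by omega) (by omega)
    · exact absurd ((isPlusTypeOn_top hQ).2 (isPlus_of_pow h3 h4 h5)) hminus
    · omega
  · iterate 8 right
    exact h

end Cfsg.Agent.S5826
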