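import Cfsg.Statements.S5876


set_option autoImplicit false
open Cfsg

namespace Cfsg.Agent.S5876

open Subgroup Module
open scoped commutatorElement Pointwise

/-- `z` is a non-identity element of an abelian normal subgroup. -/
def InAb {H : Type*} [Group H] (z : H) : Prop :=
  z ≠ 1 ∧ ∃ A : Subgroup H, A.Normal ∧ (∀ a ∈ A, ∀ b ∈ A, a * b = b * a) ∧ z ∈ A

theorem group_lemma {H : Type*} [Group H] [Finite H] [Group.IsSolvable H] (g : H) (hg : g ≠ 1) :
    InAb g ∨ (∃ x : H, InAb ⁅g, x⁆) ∨ ∃ x w : H, InAb ⁅⁅g, x⁆, w⁆ := by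
  classical
  by_cases hz : g ∈ Subgroup.center H
  · left
    refine ⟨hg, Subgroup.center H, inferInstance, fun a _ b hb => ?_, hz⟩
    exact Subgroup.mem_center_iff.mp hb a
  right
  have hex : ∃ N : Subgroup H, N.Normal ∧ g ∉ centralizer (N : Set H) := by
    refine ⟨⊤, inferInstance, fun h => hz ?_⟩
    rw [Subgroup.mem_center_iff]
    intro x
    exact h x (Subgroup.mem_top x)
  obtain ⟨N, ⟨hNn, hgN⟩, hmin⟩ :=
    WellFounded.has_min (wellFounded_lt (α := Subgroup H))
      {N : Subgroup H | N.Normal ∧ g ∉ centralizer (N : Set H)} hex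
  -- every smaller normal subgroup is centralised by the normal closure of `g`
  set M := normalClosure ({g} : Set H) with hM
  have hgM : g ∈ M := subset_normalClosure rfl
  have hsmall : ∀ B : Subgroup H, B.Normal → B < N → M ≤ centralizer (B : Set H) := by
    intro B hB hlt
    have : g ∈ centralizer (B : Set H) := by
      by_contra h
      exact hmin B ⟨hB, h⟩ hlt
    exact normalClosure_le_normal (by simpa using this)
  obtain ⟨x, hxN, hx⟩ : ∃ x ∈ N, x * g ≠ g * x := by
    by_contra h
    push Not at h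
    exact hgN h
  have hy1 : ⁅g, x⁆ ≠ 1 := by
    intro h
    exact hx (commutatorElement_eq_one_iff_mul_comm.mp h).symm
  have hyMN : ⁅g, x⁆ ∈ ⁅M, N⁆ := commutator_mem_commutator hgM hxN
  have hle : ⁅M, N⁆ ≤ N := commutator_le_right M N
  rcases hle.lt_or_eq with hlt | heq
  · left
    refine ⟨x, hy1, ⁅M, N⁆, inferInstance, fun a ha b hb => ?_, hyMN⟩
    exact (hsmall _ inferInstance hlt (commutator_le_left M N hb)) a ha
  · have hNM : N ≤ M := heq ▸ commutator_le_left M N
    have hNbot : N ≠ ⊥ := by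
      rintro rfl
      rw [Subgroup.mem_bot] at hxN
      subst hxN
      simp at hx
    have hlt : ⁅N, N⁆ < N := Group.IsSolvable.commutator_lt_of_ne_bot hNbot
    have hc := hsmall _ inferInstance hlt
    have hyN : ⁅g, x⁆ ∈ N := hle hyMN
    by_cases hy : ⁅g, x⁆ ∈ centralizer (N : Set H)
    · left
      refine ⟨x, hy1, N ⊓ centralizer (N : Set H), inferInstance, fun a ha b hb => ?_, hyN, hy⟩
      exact hb.2 a ha.1
    · right
      obtain ⟨w, hwN, hw⟩ : ∃ w ∈ N, w * ⁅g, x⁆ ≠ ⁅g, x⁆ * w := by
        by_contra h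
        push Not at h
        exact hy h
      refine ⟨x, w, fun h => hw (commutatorElement_eq_one_iff_mul_comm.mp h).symm, ⁅N, N⁆,
        inferInstance, fun a ha b hb => ?_, commutator_mem_commutator hyN hwN⟩
      exact hc (hNM (hlt.le hb)) a ha

section Rep
variable {H : Type*} [Group H] {F : Type*} [Field F] {V : Type*} [AddCommGroup V] [Module F V]
  (ρ : H →* Module.End F V)

/-- Common fixed vectors of a subgroup. -/
def fixS (K : Subgroup H) : Submodule F V where
  carrier := {v | ∀ k ∈ K, ρ k v = v}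
  add_mem' ha hb k hk := by rw [map_add, ha k hk, hb k hk]
  zero_mem' k _ := map_zero _
  smul_mem' c v hv k hk := by rw [map_smul, hv k hk]

theorem mem_fixS {K : Subgroup H} {v : V} : v ∈ fixS ρ K ↔ ∀ k ∈ K, ρ k v = v := Iff.rfl

theorem rho_inv_apply (h : H) (v : V) : ρ h⁻¹ (ρ h v) = v := by
  rw [← Module.End.mul_apply, ← map_mul, inv_mul_cancel, map_one, Module.End.one_apply]

theorem rho_apply_inv (h : H) (v : V) : ρ h (ρ h⁻¹ v) = v := by
  rw [← Module.End.mul_apply, ← map_mul, mul_inv_cancel, map_one, Module.End.one_apply]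

theorem rho_injective (h : H) : Function.Injective (ρ h) :=
  Function.LeftInverse.injective (rho_inv_apply ρ h)

theorem map_fixS (K : Subgroup H) (h : H) :
    (fixS ρ K).map (ρ h) = fixS ρ (ConjAct.toConjAct h • K) := by
  ext v
  rw [Submodule.mem_map, mem_fixS]
  constructor
  · rintro ⟨w, hw, rfl⟩ k hk
    rw [mem_pointwise_smul_iff_inv_smul_mem] at hk
    have h1 := hw _ hk
    rw [← ConjAct.toConjAct_inv, ConjAct.toConjAct_smul, inv_inv, map_mul, map_mul,
      Module.End.mul_apply, Module.End.mul_apply] at h1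
    have h2 := congrArg (ρ h) h1
    rwa [rho_apply_inv] at h2
  · intro hv
    refine ⟨ρ h⁻¹ v, fun k hk => ?_, rho_apply_inv ρ h v⟩
    have h1 := hv (ConjAct.toConjAct h • k) (smul_mem_pointwise_smul _ _ _ hk)
    rw [ConjAct.toConjAct_smul, map_mul, map_mul, Module.End.mul_apply, Module.End.mul_apply] at h1
    have h2 := congrArg (ρ h⁻¹) h1
    rwa [rho_inv_apply] at h2

theorem fpf [Finite H] [FiniteDimensional F V] (hρ : Function.Injective ρ)
    (hirr : ∀ W : Submodule F V, (∀ h, W.map (ρ h) ≤ W) → W = ⊥ ∨ W = ⊤)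
    (hprim : ∀ (m t : ℕ) (D : Fin t → Submodule F V), 2 ≤ t → 0 < m →
      (∀ i, finrank F (D i) = m) → iSupIndep D → iSup D = ⊤ →
      (∀ h, ∃ σ : Equiv.Perm (Fin t), ∀ i, (D i).map (ρ h) = D (σ i)) → False)
    {z : H} (hz : InAb z) (v : V) (hv : ρ z v = v) : v = 0 := by
  classical
  obtain ⟨hz1, A, hAn, hAc, hzA⟩ := hz
  by_contra hv0
  have hzfix : fixS ρ (zpowers z) ≠ ⊥ := by
    rw [Submodule.ne_bot_iff]
    refine ⟨v, ?_, hv0⟩
    intro k hk
    have : zpowers z ≤ (MulAction.stabilizer (Module.End F V)ˣ v).comap ρ.toHomUnits := by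
      rw [zpowers_le]
      exact hv
    exact this hk
  obtain ⟨K, ⟨hKA, hKfix⟩, hKmax⟩ := Set.Finite.exists_maximalFor
    (fun K : Subgroup H => Nat.card K) {K : Subgroup H | K ≤ A ∧ fixS ρ K ≠ ⊥} (Set.toFinite _)
    ⟨zpowers z, zpowers_le.mpr hzA, hzfix⟩
  have hKmax' : ∀ L : Subgroup H, L ≤ A → fixS ρ L ≠ ⊥ → Nat.card L ≤ Nat.card K := by
    intro L hL hf
    by_contra h
    push Not at h
    exact absurd (hKmax (j := L) ⟨hL, hf⟩ h.le) (not_le.mpr h)
  have hKbot : K ≠ ⊥ := by
    rintro rfl
    have := hKmax' _ (zpowers_le.mpr hzA) hzfix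
    rw [Subgroup.card_bot, Nat.card_zpowers] at this
    have h1 : orderOf z = 1 := le_antisymm this (orderOf_pos z)
    exact hz1 (orderOf_eq_one_iff.mp h1)
  let T := MulAction.orbit (ConjAct H) K
  have hTA : ∀ L : T, L.1 ≤ A := by
    rintro ⟨L, c, rfl⟩ x hx
    change x ∈ c • K at hx
    rw [mem_pointwise_smul_iff_inv_smul_mem] at hx
    have := hAn.conj_mem _ (hKA hx) (ConjAct.ofConjAct c)
    simpa [ConjAct.smul_def, mul_assoc] using this
  have hTcard : ∀ L : T, Nat.card L.1 = Nat.card K := by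
    rintro ⟨L, c, rfl⟩
    exact Nat.card_congr (Subgroup.equivSMul c K).symm.toEquiv
  have hTrank : ∀ L : T, finrank F (fixS ρ L.1) = finrank F (fixS ρ K) := by
    rintro ⟨L, c, rfl⟩
    change finrank F (fixS ρ (c • K)) = _
    rw [← ConjAct.toConjAct_ofConjAct c, ← map_fixS]
    exact (Submodule.equivMapOfInjective _ (rho_injective ρ _) _).finrank_eq.symm
  -- `k - 1` is injective on the fixed space of `L` for `k ∈ A \ L`
  have hinj : ∀ (L : T) (k : H), k ∈ A → k ∉ L.1 → ∀ w ∈ fixS ρ L.1, ρ k w = w → w = 0 := by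
    intro L k hkA hkL w hw hkw
    by_contra hw0
    have hfix : fixS ρ (L.1 ⊔ zpowers k) ≠ ⊥ := by
      rw [Submodule.ne_bot_iff]
      refine ⟨w, ?_, hw0⟩
      intro x hx
      have : L.1 ⊔ zpowers k ≤ (MulAction.stabilizer (Module.End F V)ˣ w).comap ρ.toHomUnits := by
        rw [sup_le_iff, zpowers_le]
        exact ⟨fun y hy => hw y hy, hkw⟩
      exact this hx
    have h1 := hKmax' _ (sup_le (hTA L) (zpowers_le.mpr hkA)) hfix
    rw [← hTcard L] at h1
    have h2 : L.1 = L.1 ⊔ zpowers k := Subgroup.eq_of_le_of_card_ge le_sup_left h1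
    exact hkL (h2 ▸ mem_sup_right (mem_zpowers k))
  have hindep : iSupIndep (fun L : T => fixS ρ L.1) := by
    rw [iSupIndep_iff_finsetSum_eq_zero_imp_eq_zero]
    intro s
    induction s using Finset.strongInduction with
    | H s ih =>
      intro w hw hsum j hj
      by_cases hs : ∃ i ∈ s, i ≠ j
      · obtain ⟨i, hi, hij⟩ := hs
        obtain ⟨k, hki, hkj⟩ : ∃ k ∈ i.1, k ∉ j.1 := by
          by_contra h
          push Not at h
          apply hij
          apply Subtype.ext
          exact Subgroup.eq_of_le_of_card_ge h (by rw [hTcard, hTcard])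
        have hkA := hTA i hki
        have h1 : ρ k (w j) - w j = 0 := by
          refine ih (s.erase i) (Finset.erase_ssubset hi) (fun l => ρ k (w l) - w l) ?_ ?_ j
            (Finset.mem_erase.mpr ⟨hij.symm, hj⟩)
          · intro l hl
            have hwl := hw l (Finset.mem_of_mem_erase hl)
            refine Submodule.sub_mem _ ?_ hwl
            intro x hx
            rw [← Module.End.mul_apply, ← map_mul, hAc x (hTA l hx) k hkA, map_mul,
              Module.End.mul_apply, hwl x hx]
          · have h0 : ρ k (w i) - w i = 0 := by rw [hw i hi k hki, sub_self]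
            have h2 := Finset.add_sum_erase s (fun l => ρ k (w l) - w l) hi
            rw [h0, zero_add] at h2
            rw [h2, Finset.sum_sub_distrib, ← map_sum, hsum, map_zero, sub_self]
        exact hinj j k hkA hkj _ (hw j hj) (sub_eq_zero.mp h1)
      · push Not at hs
        have : s = {j} := Finset.eq_singleton_iff_unique_mem.mpr ⟨hj, hs⟩
        subst this
        simpa using hsum
  have hmap : ∀ (h : H) (L : T),
      (fixS ρ L.1).map (ρ h) = fixS ρ ((ConjAct.toConjAct h • L : T) : Subgroup H) :=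
    fun h L => map_fixS ρ L.1 h
  have htop : (⨆ L : T, fixS ρ L.1) = ⊤ := by
    refine (hirr _ fun h => ?_).resolve_left fun h0 => ?_
    · rw [Submodule.map_iSup]
      refine iSup_le fun L => ?_
      rw [hmap]
      exact le_iSup (fun L : T => fixS ρ L.1) _
    · apply hKfix
      rw [eq_bot_iff, ← h0]
      exact le_iSup (fun L : T => fixS ρ L.1) ⟨K, MulAction.mem_orbit_self K⟩
  have hfinT : Fintype T := Fintype.ofFinite T
  by_cases ht : 2 ≤ Fintype.card T
  · let e := (Fintype.equivFin T).symm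
    refine hprim (finrank F (fixS ρ K)) (Fintype.card T) (fun i => fixS ρ (e i).1) ht ?_
      (fun i => hTrank _) (hindep.comp e.injective) ?_ ?_
    · rw [Nat.pos_iff_ne_zero, Ne, Submodule.finrank_eq_zero]
      exact hKfix
    · rw [← htop]
      exact e.surjective.iSup_comp (fun L : T => fixS ρ L.1)
    · intro h
      refine ⟨e.symm.permCongr (MulAction.toPerm (ConjAct.toConjAct h)), fun i => ?_⟩
      rw [hmap]
      simp
  · have hsub : Subsingleton T := Fintype.card_le_one_iff_subsingleton.mp (by omega)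
    have hKtop : fixS ρ K = ⊤ := by
      rw [eq_top_iff, ← htop]
      refine iSup_le fun L => ?_
      rw [Subsingleton.elim L ⟨K, MulAction.mem_orbit_self K⟩]
    apply hKbot
    rw [eq_bot_iff]
    intro k hk
    rw [Subgroup.mem_bot]
    apply hρ
    rw [map_one]
    ext w
    exact (hKtop ▸ Submodule.mem_top : w ∈ fixS ρ K) k hk

theorem fix_commutator [FiniteDimensional F V] (x y : H) :
    2 * finrank F (End.eigenspace (ρ x) 1) ≤
      finrank F V + finrank F (End.eigenspace (ρ ⁅x, y⁆) 1) := by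
  set U := End.eigenspace (ρ x) 1 with hU
  have h1 := Submodule.finrank_sup_add_finrank_inf_eq U (U.map (ρ y))
  have h2 : finrank F (U.map (ρ y)) = finrank F U :=
    (Submodule.equivMapOfInjective _ (rho_injective ρ _) _).finrank_eq.symm
  have h3 : finrank F ↥(U ⊔ U.map (ρ y)) ≤ finrank F V := Submodule.finrank_le _
  have h4 : U ⊓ U.map (ρ y) ≤ End.eigenspace (ρ ⁅x, y⁆) 1 := by
    rintro v ⟨hv, w, hw, rfl⟩
    have hv' : ρ x (ρ y w) = ρ y w := by simpa [hU, End.mem_eigenspace_iff] using hv
    have hw' : ρ x w = w := by simpa [hU, End.mem_eigenspace_iff] using hw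
    have hw'' : ρ x⁻¹ w = w := by
      conv_lhs => rw [← hw']
      exact rho_inv_apply ρ x w
    rw [End.mem_eigenspace_iff, one_smul, commutatorElement_def, map_mul, map_mul, map_mul,
      Module.End.mul_apply, Module.End.mul_apply, Module.End.mul_apply, rho_inv_apply, hw'', hv']
  have h5 := Submodule.finrank_mono h4
  omega

theorem main [Finite H] [Group.IsSolvable H] [FiniteDimensional F V] (hρ : Function.Injective ρ)
    (hirr : ∀ W : Submodule F V, (∀ h, W.map (ρ h) ≤ W) → W = ⊥ ∨ W = ⊤)
    (hprim : ∀ (m t : ℕ) (D : Fin t → Submodule F V), 2 ≤ t → 0 < m →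
      (∀ i, finrank F (D i) = m) → iSupIndep D → iSup D = ⊤ →
      (∀ h, ∃ σ : Equiv.Perm (Fin t), ∀ i, (D i).map (ρ h) = D (σ i)) → False)
    (g : H) (hg : g ≠ 1) : 4 * finrank F (End.eigenspace (ρ g) 1) ≤ 3 * finrank F V := by
  have h0 : ∀ z : H, InAb z → finrank F (End.eigenspace (ρ z) 1) = 0 := by
    intro z hz
    rw [Submodule.finrank_eq_zero, eq_bot_iff]
    intro v hv
    rw [End.mem_eigenspace_iff, one_smul] at hv
    exact fpf ρ hρ hirr hprim hz v hv
  rcases group_lemma g hg with h | ⟨x, h⟩ | ⟨x, w, h⟩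
  · rw [h0 g h]; omega
  · have := fix_commutator ρ g x
    rw [h0 _ h] at this
    omega
  · have h1 := fix_commutator ρ g x
    have h2 := fix_commutator ρ ⁅g, x⁆ w
    rw [h0 _ h] at h2
    omega

end Rep

/-- Fixed-point spaces in primitive soluble linear groups. Let F be a finite field and G a soluble subgroup of GL_n(F) that acts irreducibly on F^n and primitively (G preserves no decomposition of F^n into two or more independent subspaces of equal dimension). Then every non-identity element g of G has fixed-point space {v : g v = v} of dimension at most 3n/4. -/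
theorem result {F : Type*} [Field F] [Fintype F] {n : ℕ} (G : Subgroup (Matrix.GeneralLinearGroup (Fin n) F)) (hsol : IsSolvable G) (hirr : Cfsg.Geo.ActsIrreducibly (Cfsg.Geo.matrixSet G)) (hprim : ∀ (m t : ℕ) (D : Fin t → Submodule F (Fin n → F)), 2 ≤ t → Cfsg.Geo.IsMDecomposition m D → ¬ G ≤ Cfsg.Geo.decompositionStabilizer D) (g : Matrix.GeneralLinearGroup (Fin n) F) (hg : g ∈ G) (hg1 : g ≠ 1) :
    4 * Module.finrank F (Module.End.eigenspace (Matrix.toLin' (g : Matrix (Fin n) (Fin n) F)) 1) ≤ 3 * n := by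
  classical
  have : Group.IsSolvable G := hsol
  let ρ : G →* Module.End F (Fin n → F) :=
    { toFun := fun h => Matrix.toLin' ((h : Matrix.GeneralLinearGroup (Fin n) F) : Matrix (Fin n) (Fin n) F)
      map_one' := by simp [Module.End.one_eq_id]
      map_mul' := fun a b => by simp [Matrix.toLin'_mul, Module.End.mul_eq_comp] }
  have hρ : Function.Injective ρ := by
    intro a b hab
    apply Subtype.ext
    apply Units.ext
    exact Matrix.toLin'.injective hab
  have := main ρ hρ (fun W hW => hirr W (by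
      rintro s ⟨h, hh, rfl⟩
      exact hW ⟨h, hh⟩))
    (fun m t D ht hm hD hi hs hσ => hprim m t D ht ⟨ht, hm, hD, hi, hs⟩ fun h hh => hσ ⟨h, hh⟩)
    ⟨g, hg⟩ (fun h => hg1 (congrArg Subtype.val h))
  have hn : finrank F (Fin n → F) = n := by simp
  rw [hn] at this
  exact this

end Cfsg.Agent.S5876
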