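import Cfsg.Statements.S5877
import Cfsg.Agent.Mit.Defs
import Cfsg.Agent.Class.Asch.Extra
import Mathlib

set_option autoImplicit false
set_option linter.unusedSimpArgs false
set_option linter.unusedSectionVars false
open Cfsg

namespace Cfsg.Agent.S5877

open Cfsg.Lib.Class Cfsg.Lib.Class.Asch Matrix Cfsg.Geo Module Polynomial
open scoped MatrixGroups Kronecker commutatorElement

section Lower

universe u

variable {K : Type*} [Field K]

/-- The centraliser of an endomorphism. -/
def cen {V : Type u} [AddCommGroup V] [Module K V] (A : End K V) : Submodule K (End K V) where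
  carrier := {X | X * A = A * X}
  add_mem' {X Y} (hX : X * A = A * X) (hY : Y * A = A * Y) := by
    change (X + Y) * A = A * (X + Y)
    rw [add_mul, mul_add, hX, hY]
  zero_mem' := by simp
  smul_mem' c X (hX : X * A = A * X) := by
    change (c • X) * A = A * (c • X)
    rw [smul_mul_assoc, mul_smul_comm, hX]

theorem step {V : Type u} [AddCommGroup V] [Module K V] [FiniteDimensional K V] (A : End K V) (c : K)
    (h : ∀ x ∈ LinearMap.range (A - c • 1), A x ∈ LinearMap.range (A - c • 1)) :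
    finrank K (LinearMap.ker (A - c • 1)) ^ 2 + finrank K (cen (A.restrict h)) ≤ finrank K (cen A) := by
  set N := A - c • 1 with hN
  obtain ⟨s, hs⟩ := N.rangeRestrict.exists_rightInverse_of_surjective N.range_rangeRestrict
  obtain ⟨p, hp⟩ := (LinearMap.range N).subtype.exists_leftInverse_of_injective (Submodule.ker_subtype _)
  have hs' : ∀ u : LinearMap.range N, N (s u) = u := fun u => congrArg Subtype.val (LinearMap.congr_fun hs u)
  have hp' : ∀ u : LinearMap.range N, p u = u := fun u => LinearMap.congr_fun hp u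
  have hc : ∀ (Y : cen (A.restrict h)) (u : LinearMap.range N), N (Y.1 u) = Y.1 (N.rangeRestrict u) := fun Y u => by
    have h1 : N.rangeRestrict u = A.restrict h u - c • u := Subtype.ext (by simp [hN])
    have h2 : Y.1 (A.restrict h u) = A.restrict h (Y.1 u) := LinearMap.congr_fun Y.2 u
    rw [h1, map_sub, h2, map_smul]
    simp [hN]
  let Φ : ((V ⧸ LinearMap.range N) →ₗ[K] LinearMap.ker N) × cen (A.restrict h) →ₗ[K] End K V :=
    { toFun := fun z => (LinearMap.ker N).subtype ∘ₗ z.1 ∘ₗ (LinearMap.range N).mkQ +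
        ((LinearMap.range N).subtype ∘ₗ z.2.1 ∘ₗ p +
          s ∘ₗ z.2.1 ∘ₗ N.rangeRestrict ∘ₗ (1 - (LinearMap.range N).subtype ∘ₗ p))
      map_add' := fun a b => by ext v; simp; abel
      map_smul' := fun a b => by ext v; simp [smul_sub] }
  have hΦu : ∀ z (u : LinearMap.range N), Φ z u = z.2.1 u := fun z u => by
    have : (LinearMap.range N).mkQ u = 0 := (Submodule.Quotient.mk_eq_zero _).2 u.2
    simp only [Φ, LinearMap.coe_mk, AddHom.coe_mk, LinearMap.add_apply, LinearMap.comp_apply, this, map_zero,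
      LinearMap.sub_apply, End.one_apply, hp', Submodule.subtype_apply, sub_self, zero_add, add_zero]
  have hΦ : ∀ z, Φ z ∈ cen A := fun z => by
    have h1 : Φ z * N = N * Φ z := by
      ext v
      have h2 := hΦu z (N.rangeRestrict v)
      have h3 : N (z.1 ((LinearMap.range N).mkQ v)) = 0 := (z.1 _).2
      change Φ z (N.rangeRestrict v) = _
      rw [h2]
      simp only [Φ, LinearMap.coe_mk, AddHom.coe_mk, LinearMap.add_apply, LinearMap.comp_apply, End.mul_apply,
        LinearMap.sub_apply, End.one_apply, Submodule.subtype_apply, map_add, h3, hs', hc, map_sub,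
        Submodule.coe_sub]
      abel
    change Φ z * A = A * Φ z
    generalize Φ z = X at h1
    rw [hN, mul_sub, sub_mul, mul_smul_comm, smul_mul_assoc, mul_one, one_mul, sub_left_inj] at h1
    exact h1
  have hinj : Function.Injective (Φ.codRestrict _ hΦ) := by
    rw [injective_iff_map_eq_zero]
    rintro ⟨a, b⟩ hz
    have hz' : Φ (a, b) = 0 := congrArg Subtype.val hz
    have hb : b = 0 := Subtype.ext (LinearMap.ext fun u => Subtype.ext (by rw [← hΦu (a, b) u, hz']; rfl))
    subst hb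
    refine Prod.ext (Submodule.linearMap_qext _ (LinearMap.ext fun v => Subtype.ext ?_)) rfl
    simpa [Φ] using LinearMap.congr_fun hz' v
  have h1 := LinearMap.finrank_le_finrank_of_injective hinj
  have : Module.Free K (cen (A.restrict h)) := Module.Free.of_divisionRing K (cen (A.restrict h))
  have h2 := (LinearMap.range N).finrank_quotient_add_finrank
  have h3 := N.finrank_range_add_finrank_ker
  rw [finrank_prod, finrank_linearMap, show finrank K (V ⧸ LinearMap.range N) = finrank K (LinearMap.ker N) by omega,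
    ← sq] at h1
  exact h1

theorem range_inv {V : Type u} [AddCommGroup V] [Module K V] (A : End K V) (c : K) :
    ∀ x ∈ LinearMap.range (A - c • 1), A x ∈ LinearMap.range (A - c • 1) := by
  rintro _ ⟨v, rfl⟩
  exact ⟨A v, by simp⟩

theorem aeval_restr {V : Type u} [AddCommGroup V] [Module K V] (A : End K V) {c : K} {q : K[X]}
    (hq : aeval A ((X - C c) * q) = 0) : aeval (A.restrict (range_inv A c)) q = 0 := by
  have key : ∀ (q : K[X]) (u : LinearMap.range (A - c • 1)),
      (aeval (A.restrict (range_inv A c)) q u : V) = aeval A q u := fun q u => by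
    induction q using Polynomial.induction_on' with
    | add p q hp hq => simp [hp, hq]
    | monomial n a =>
      have := LinearMap.congr_fun (Module.End.commute_pow_left_of_commute (f := (LinearMap.range (A - c • 1)).subtype)
        (g := A.restrict (range_inv A c)) (g₂ := A) rfl n) u
      simpa [aeval_monomial] using congrArg (a • ·) this.symm
  ext ⟨_, v, rfl⟩
  rw [key]
  rw [mul_comm, map_mul] at hq
  simpa [Algebra.algebraMap_eq_smul_one] using LinearMap.congr_fun hq v

theorem lower [IsAlgClosed K] (s : ℕ) : ∀ (V : Type u) [AddCommGroup V] [Module K V] [FiniteDimensional K V]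
    (A : End K V) (p : K[X]), p ≠ 0 → p.natDegree = s → aeval A p = 0 → finrank K V ^ 2 ≤ s * finrank K (cen A) := by
  induction s with
  | zero =>
    intro V _ _ _ A p hp hs hA
    rw [natDegree_eq_zero] at hs
    obtain ⟨a, rfl⟩ := hs
    have ha : a ≠ 0 := by rintro rfl; exact hp (map_zero _)
    have : Subsingleton V := subsingleton_of_forall_eq 0 fun v => by
      simpa [ha] using LinearMap.congr_fun hA v
    simp [finrank_zero_of_subsingleton]
  | succ s ih =>
    intro V _ _ _ A p hp hs hA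
    obtain ⟨c, hc⟩ := IsAlgClosed.exists_root p (degree_ne_of_natDegree_ne (by simp [hs]))
    obtain ⟨q, rfl⟩ := dvd_iff_isRoot.2 hc
    have hq : q ≠ 0 := right_ne_zero_of_mul hp
    rw [natDegree_mul (X_sub_C_ne_zero c) hq, natDegree_X_sub_C] at hs
    have h1 := ih _ _ q hq (by omega) (aeval_restr A hA)
    have h2 := step A c (range_inv A c)
    have h3 := (A - c • 1).finrank_range_add_finrank_ker
    rw [← h3]
    generalize finrank K (LinearMap.range (A - c • 1)) = m at h1
    generalize finrank K (LinearMap.ker (A - c • 1)) = d at h2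
    generalize finrank K (cen (A.restrict (range_inv A c))) = D' at h1 h2
    generalize finrank K (cen A) = D at h2
    rcases Nat.eq_zero_or_pos s with rfl | hs0
    · have : m = 0 := by simpa using h1
      subst this
      simpa using (Nat.le_add_right _ _).trans h2
    · refine Nat.le_of_mul_le_mul_left ?_ hs0
      zify at h1 h2 hs0 ⊢
      nlinarith [sq_nonneg ((s : ℤ) * d - m), mul_le_mul_of_nonneg_left h2 (show (0 : ℤ) ≤ s * (s + 1) by positivity),
        mul_le_mul_of_nonneg_left h1 (show (0 : ℤ) ≤ s + 1 by positivity)]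

theorem lower' [IsAlgClosed K] {V : Type u} [AddCommGroup V] [Module K V] [FiniteDimensional K V]
    (A : End K V) {s : ℕ} (hA : A ^ (s + 1) = 1) (c : K) (hc : c ^ (s + 1) = 1) :
    s * finrank K (LinearMap.ker (A - c • 1)) ^ 2 + finrank K (LinearMap.range (A - c • 1)) ^ 2 ≤
      s * finrank K (cen A) := by
  have hp : (X ^ (s + 1) - C 1 : K[X]) ≠ 0 := X_pow_sub_C_ne_zero s.succ_pos 1
  obtain ⟨q, hq⟩ := (dvd_iff_isRoot (p := (X ^ (s + 1) - C 1 : K[X])) (a := c)).2 (by simp [hc])
  have hq0 : q ≠ 0 := right_ne_zero_of_mul (hq ▸ hp)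
  have hd := congrArg natDegree hq
  rw [natDegree_X_pow_sub_C, natDegree_mul (X_sub_C_ne_zero c) hq0, natDegree_X_sub_C] at hd
  have h1 := lower s _ _ q hq0 (by omega) (aeval_restr A (by rw [← hq]; simp [hA]))
  have h2 := Nat.mul_le_mul_left s (step A c (range_inv A c))
  rw [mul_add] at h2
  omega

end Lower

section Base

variable {ι : Type} [Fintype ι] [DecidableEq ι]

theorem rank_map {F K : Type*} [Field F] [Field K] (f : F →+* K) (A : Matrix ι ι F) : (A.map f).rank = A.rank := by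
  classical
  obtain ⟨L, L', D, hA⟩ := Matrix.Pivot.exists_list_transvec_mul_diagonal_mul_list_transvec A
  have hU := Matrix.TransvectionStruct.det_toMatrix_prod L
  have hV := Matrix.TransvectionStruct.det_toMatrix_prod L'
  set U := (L.map Matrix.TransvectionStruct.toMatrix).prod
  set V := (L'.map Matrix.TransvectionStruct.toMatrix).prod
  have hU' : (U.map f).det = 1 := by
    rw [← RingHom.mapMatrix_apply, ← RingHom.map_det, hU, map_one]
  have hV' : (V.map f).det = 1 := by
    rw [← RingHom.mapMatrix_apply, ← RingHom.map_det, hV, map_one]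
  rw [hA, Matrix.map_mul, Matrix.map_mul,
    Matrix.rank_mul_eq_left_of_isUnit_det (V.map f) _ (hV' ▸ isUnit_one),
    Matrix.rank_mul_eq_left_of_isUnit_det V _ (hV ▸ isUnit_one),
    Matrix.rank_mul_eq_right_of_isUnit_det (U.map f) _ (hU' ▸ isUnit_one),
    Matrix.rank_mul_eq_right_of_isUnit_det U _ (hU ▸ isUnit_one),
    Matrix.diagonal_map (map_zero f), Matrix.rank_diagonal, Matrix.rank_diagonal]
  exact Fintype.card_congr (Equiv.subtypeEquivRight fun i => by simp)

theorem rank_add_ker {F : Type*} [Field F] (A : Matrix ι ι F) :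
    A.rank + finrank F (LinearMap.ker (toLin' A)) = Fintype.card ι := by
  have := (toLin' A).finrank_range_add_finrank_ker
  rwa [finrank_fintype_fun_eq_card] at this

/-- The matrix of the commutator map. -/
def adM {F : Type*} [Field F] (A : Matrix ι ι F) : Matrix (ι × ι) (ι × ι) F := Aᵀ ⊗ₖ 1 - 1 ⊗ₖ A

theorem finrank_cen {F : Type*} [Field F] (A : Matrix ι ι F) :
    finrank F (cen (toLin' A)) = finrank F (LinearMap.ker (toLin' (adM A))) := by
  let e : (ι × ι → F) ≃ₗ[F] End F (ι → F) :=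
    (LinearEquiv.ofBijective
      ({ toFun := Matrix.vec, map_add' := Matrix.vec_add, map_smul' := Matrix.vec_smul } :
        Matrix ι ι F →ₗ[F] ι × ι → F) Matrix.vec_bijective).symm.trans toLin'
  have he : ∀ X : Matrix ι ι F, e X.vec = toLin' X := fun X =>
    congrArg toLin' (LinearEquiv.symm_apply_apply (LinearEquiv.ofBijective _ Matrix.vec_bijective) X)
  rw [← e.finrank_map_eq]
  refine congrArg (fun S : Submodule F (End F (ι → F)) => finrank F S) (Submodule.ext fun Y => ?_)
  obtain ⟨y, rfl⟩ := e.surjective Y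
  obtain ⟨X, rfl⟩ := Matrix.vec_bijective.2 y
  rw [Submodule.mem_map_equiv, e.symm_apply_apply, LinearMap.mem_ker, toLin'_apply, adM, sub_mulVec,
    kronecker_mulVec_vec, kronecker_mulVec_vec, he, sub_eq_zero, Matrix.vec_inj]
  change toLin' X * toLin' A = toLin' A * toLin' X ↔ _
  simp [End.mul_eq_comp, ← toLin'_mul]

theorem lower_mat {F : Type*} [Field F] (A : Matrix ι ι F) {s : ℕ} (hA : A ^ (s + 1) = 1) (c : F)
    (hc : c ^ (s + 1) = 1) : s * finrank F (LinearMap.ker (toLin' (A - c • 1))) ^ 2 + (A - c • 1).rank ^ 2 ≤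
      s * finrank F (cen (toLin' A)) := by
  let φ := algebraMap F (AlgebraicClosure F)
  have h1 := lower' (toLin' (A.map φ)) (s := s) (by
    rw [← toLin'_pow, ← RingHom.mapMatrix_apply, ← map_pow, hA, map_one, toLin'_one]; rfl) (φ c)
    (by rw [← map_pow, hc, map_one])
  have h2 : toLin' (A.map φ) - φ c • 1 = toLin' ((A - c • 1).map φ) := by
    rw [show (A - c • 1).map φ = A.map φ - φ c • 1 by
      ext i j; by_cases h : i = j <;> simp [h, one_apply], map_sub, map_smul, toLin'_one]; rfl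
  have h3 : adM (A.map φ) = (adM A).map φ := by
    ext ⟨i, j⟩ ⟨k, l⟩
    simp [adM, one_apply, apply_ite φ]
  have h4 := rank_add_ker (A - c • 1)
  have h5 := rank_add_ker ((A - c • 1).map φ)
  have h6 := rank_add_ker (adM A)
  have h7 := rank_add_ker ((adM A).map φ)
  rw [rank_map] at h5 h7
  rw [h2, finrank_cen, h3, show finrank (AlgebraicClosure F) (LinearMap.range (toLin' ((A - c • 1).map φ))) =
    (A - c • 1).rank from rank_map φ _, Nat.add_left_cancel (h5.trans h4.symm),
    Nat.add_left_cancel (h7.trans h6.symm), ← finrank_cen] at h1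
  exact h1

end Base

theorem arith {n d D s f ι j k : ℕ} (hn : 0 < n) (hd : d ≤ n) (h1 : s * d ^ 2 + (n - d) ^ 2 ≤ s * D)
    (h2 : (s + 1) * D ≤ n ^ 2 + s * f) (h3 : f ≤ j) (h4 : j * ι = n ^ 2) (h5 : d * n = j * k) :
    d * ι = k * n ∧ (((s : ℤ) + 1) * k - ι) ^ 2 ≤ s ^ 2 * ι := by
  have h6 : d * ι = k * n := Nat.eq_of_mul_eq_mul_right hn (by
    rw [mul_right_comm, h5, mul_right_comm, h4]; ring)
  refine ⟨h6, ?_⟩
  zify [hd] at h1 h2 h3 h4 h6 hn
  have h7 : (((s : ℤ) + 1) * d - n) ^ 2 ≤ s ^ 2 * j := by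
    nlinarith [mul_le_mul_of_nonneg_left h1 (show (0 : ℤ) ≤ s + 1 by positivity),
      mul_le_mul_of_nonneg_left h2 (show (0 : ℤ) ≤ s by positivity),
      mul_le_mul_of_nonneg_left h3 (show (0 : ℤ) ≤ s ^ 2 by positivity)]
  have h8 := mul_le_mul_of_nonneg_right h7 (show (0 : ℤ) ≤ ι ^ 2 by positivity)
  refine le_of_mul_le_mul_left ?_ (show (0 : ℤ) < n ^ 2 by positivity)
  have h9 : (n : ℤ) ^ 2 * ((s + 1) * k - ι) ^ 2 = ((s + 1) * d - n) ^ 2 * ι ^ 2 := by
    linear_combination (-(s + 1 : ℤ) * ((s + 1) * (k * n + d * ι) - 2 * n * ι)) * h6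
  have h10 : (n : ℤ) ^ 2 * (s ^ 2 * ι) = s ^ 2 * j * ι ^ 2 := by linear_combination (-(s : ℤ) ^ 2 * ι) * h4
  rw [h9, h10]
  exact h8

theorem arith2 {s ι k : ℕ} (hk : k < ι) (h : (((s : ℤ) + 1) * k - ι) ^ 2 ≤ s ^ 2 * ι) :
    (s = 1 → 4 * k ≤ 3 * ι) ∧ (s = 2 → 3 * k ≤ 2 * ι) ∧ (4 ≤ s → 2 * k ≤ ι) ∧
      (s = 2 → ¬ 3 ∣ ι → ι ≠ 5 → ι ≠ 7 → 2 * k ≤ ι) := by
  refine ⟨?_, ?_, fun hs => ?_, ?_⟩
  · rintro rfl
    by_contra! h1
    have h2 : 4 ≤ ι := by omega
    zify at h1 h2
    push_cast at h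
    nlinarith
  · rintro rfl
    by_contra! h1
    have h2 : 2 ≤ ι := by omega
    have h3 : (2 * ι + 1 : ℤ) ≤ 3 * k := by exact_mod_cast h1
    zify at h2
    push_cast at h
    nlinarith
  · by_contra! h1
    have h2 : 3 ≤ ι := by omega
    have h3 : (ι + 1 : ℤ) ≤ 2 * k := by exact_mod_cast h1
    zify at h2 hs
    have h4 : ((s : ℤ) + 1) * (ι + 1) - 2 * ι ≤ 2 * ((s + 1) * k - ι) := by nlinarith
    have h5 : (0 : ℤ) ≤ (s + 1) * (ι + 1) - 2 * ι := by nlinarith
    have h6 := pow_le_pow_left₀ h5 h4 2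
    obtain ⟨a, ha⟩ : ∃ a : ℤ, (s : ℤ) = a + 4 := ⟨s - 4, by ring⟩
    obtain ⟨b, hb⟩ : ∃ b : ℤ, (ι : ℤ) = b + 3 := ⟨ι - 3, by ring⟩
    have ha0 : 0 ≤ a := by omega
    have hb0 : 0 ≤ b := by omega
    have h7 : ((s : ℤ) + 1) * (ι + 1) - 2 * ι = (a + 3) * b + 4 * a + 14 := by rw [ha, hb]; ring
    rw [h7] at h6
    rw [ha, hb] at h
    rw [ha, hb] at h6
    nlinarith [mul_nonneg ha0 hb0, mul_nonneg (mul_nonneg ha0 hb0) ha0, mul_nonneg (mul_nonneg ha0 hb0) hb0,
      mul_nonneg (mul_nonneg ha0 hb0) (mul_nonneg ha0 hb0), mul_nonneg ha0 ha0, mul_nonneg hb0 hb0]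
  · rintro rfl h3 h5 h7
    by_contra! h1
    push_cast at h
    have h2 : ι < 10 := by
      by_contra! h2
      have h4 : (ι + 1 : ℤ) ≤ 2 * k := by exact_mod_cast h1
      zify at h2
      nlinarith
    interval_cases ι <;> interval_cases k <;> simp_all

section Upper

variable {F M W : Type*} [Field F] [AddCommGroup M] [Module F M] [Fintype W] [DecidableEq W]

theorem repr_perm (b : Basis W F M) {T : M →ₗ[F] M} {π : Equiv.Perm W} {l : W → F} (hT : ∀ u, T (b u) = l u • b (π u))
    (X : M) (u : W) : b.repr (T X) (π u) = l u * b.repr X u := by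
  have : b.coord (π u) ∘ₗ T = l u • b.coord u := b.ext fun v => by
    by_cases h : v = u
    · subst h; simp [hT]
    · simp [hT, Finsupp.single_apply, h]
  exact LinearMap.congr_fun this X

theorem upper (b : Basis W F M) {T : M →ₗ[F] M} {π : Equiv.Perm W} {l : W → F} (hT : ∀ u, T (b u) = l u • b (π u))
    {s : ℕ} (hs : (s + 1).Prime) (hπ : π ^ (s + 1) = 1) (S : Submodule F M) (hS : ∀ X ∈ S, T X = X) :
    (s + 1) * finrank F S ≤ Fintype.card W + s * Nat.card {u // T (b u) = b u} := by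
  classical
  have := Fact.mk hs
  choose rep hrep using fun c : π.cycleFactorsFinset =>
    (Equiv.Perm.mem_cycleFactorsFinset_iff.1 c.2).1.nonempty_support
  let Ψ : S →ₗ[F] (π.cycleFactorsFinset ⊕ {u // T (b u) = b u} → F) :=
    LinearMap.pi fun i => b.coord (Sum.elim rep Subtype.val i) ∘ₗ S.subtype
  have hΨ : Function.Injective Ψ := by
    rw [injective_iff_map_eq_zero]
    rintro ⟨X, hX⟩ h0
    have h1 : ∀ u, b.repr X (π u) = l u * b.repr X u := fun u => by rw [← repr_perm b hT, hS X hX]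
    have h2 : ∀ k u, b.repr X u = 0 → b.repr X ((π ^ k) u) = 0 := fun k u hu => by
      induction k with
      | zero => exact hu
      | succ k ih => rw [pow_succ', Equiv.Perm.mul_apply, h1, ih, mul_zero]
    refine Subtype.ext (b.repr.injective (Finsupp.ext fun u => ?_))
    rw [ZeroMemClass.coe_zero, map_zero, Finsupp.zero_apply]
    by_cases hu : π u = u
    · by_cases hl : l u = 1
      · exact congrFun h0 (Sum.inr ⟨u, by rw [hT, hl, hu, one_smul]⟩)
      · have := h1 u
        rw [hu] at this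
        exact (mul_eq_zero.1 (show (l u - 1) * b.repr X u = 0 by linear_combination -this)).resolve_left
          (sub_ne_zero.2 hl)
    · have hu' := Equiv.Perm.mem_support.2 hu
      have h3 := hrep ⟨_, Equiv.Perm.cycleOf_mem_cycleFactorsFinset_iff.2 hu'⟩
      obtain ⟨k, -, hk⟩ := (Equiv.Perm.mem_support_cycleOf_iff.1 h3).1.symm.exists_pow_eq'
      rw [← hk]
      exact h2 k _ (congrFun h0 (Sum.inl _))
  have h1 := LinearMap.finrank_le_finrank_of_injective hΨ
  rw [finrank_fintype_fun_eq_card, Fintype.card_sum, Fintype.card_coe] at h1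
  have h2 := π.sum_cycleType
  rw [Equiv.Perm.cycleType_of_pow_prime_eq_one hπ, Multiset.sum_replicate, Equiv.Perm.cycleType_def,
    Multiset.card_map, Finset.card_val, smul_eq_mul] at h2
  have h3 : π.support.card + Fintype.card {u // T (b u) = b u} ≤ Fintype.card W := by
    rw [Fintype.card_subtype, ← Finset.card_union_of_disjoint]
    · exact Finset.card_le_univ _
    · rw [Finset.disjoint_right]
      intro u hu hu'
      have h4 := congrArg (fun X => b.repr X u) ((hT u).symm.trans (Finset.mem_filter.1 hu).2)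
      simp [Finsupp.single_apply, Equiv.Perm.mem_support.1 hu'] at h4
  rw [Nat.card_eq_fintype_card]
  nlinarith

end Upper

section Grp

variable {F : Type*} [Field F] {ι : Type} [Fintype ι] [DecidableEq ι] {r : ℕ} {R : Subgroup (GL ι F)}

/-- The image of `R` in the projective group. -/
abbrev WW (R : Subgroup (GL ι F)) : Subgroup (GL ι F ⧸ scalars ι F) := R.map (QuotientGroup.mk' _)

/-- A lift to `R`. -/
noncomputable def ρ (u : WW R) : GL ι F := u.2.choose

theorem ρ_mem (u : WW R) : ρ u ∈ R := u.2.choose_spec.1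

theorem mk_ρ (u : WW R) : (ρ u : GL ι F ⧸ scalars ι F) = u := u.2.choose_spec.2

theorem rel {x : GL ι F} {u : WW R} (h : (x : GL ι F ⧸ scalars ι F) = u) :
    ∃ c : F, c ≠ 0 ∧ (x : Matrix ι ι F) = c • (ρ u : Matrix ι ι F) := by
  obtain ⟨c, hc⟩ := (mem_scalars_iff _).1 (QuotientGroup.eq.1 ((mk_ρ u).trans h.symm))
  refine ⟨c, c.ne_zero, ?_⟩
  rw [← mul_one (ρ u : Matrix ι ι F), ← mul_smul_comm, ← hc, ← Units.val_mul, mul_inv_cancel_left]

theorem ρ_mul (u v : WW R) : ∃ c : F, c ≠ 0 ∧ (ρ u : Matrix ι ι F) * ρ v = c • (ρ (u * v) : Matrix ι ι F) :=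
  rel (x := ρ u * ρ v) (by rw [QuotientGroup.mk_mul, mk_ρ, mk_ρ]; rfl)

theorem eq_of_smul {x y : GL ι F} {c : F} (h : (x : Matrix ι ι F) = c • (y : Matrix ι ι F)) [Nonempty ι] :
    (x : GL ι F ⧸ scalars ι F) = y := by
  have hc : c ≠ 0 := by rintro rfl; exact x.ne_zero (by rw [h, zero_smul])
  refine (QuotientGroup.eq.2 ((mem_scalars_iff _).2 ⟨Units.mk0 c hc, ?_⟩)).symm
  rw [Units.val_mul, h, mul_smul_comm, Units.inv_mul]; rfl

/-- The lifts form a basis of the matrix algebra. -/
noncomputable def bas (h : Cl2 r R) : Basis (WW R) F (Matrix ι ι F) :=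
  Basis.mk (h.linearIndependent ρ ρ_mem fun a b hab => Subtype.ext (by
    rw [← mk_ρ, ← mk_ρ]; exact QuotientGroup.eq.2 hab)) (by
    rw [← Algebra.top_toSubmodule, ← h.env_top, env_toSubmodule, Submodule.span_le]
    rintro _ ⟨x, hx, rfl⟩
    obtain ⟨c, -, hc⟩ := rel (x := x) (u := ⟨_, x, hx, rfl⟩) rfl
    change (x : Matrix ι ι F) ∈ _
    rw [hc]
    exact Submodule.smul_mem _ _ (Submodule.subset_span ⟨_, rfl⟩))

theorem bas_apply (h : Cl2 r R) (u : WW R) : bas h u = ρ u := Basis.mk_apply _ _ _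

theorem card_WW (h : Cl2 r R) : Nat.card (WW R) = Fintype.card ι ^ 2 := by
  rw [← finrank_eq_nat_card_basis (bas h), finrank_matrix, finrank_self, mul_one, sq]

theorem exists_β (h : Cl2 r R) (u v : WW R) : ∃ c : F, c ^ r = 1 ∧
    (ρ u : Matrix ι ι F) * ρ v = c • ((ρ v : Matrix ι ι F) * ρ u) := by
  obtain ⟨c, hc, h1⟩ := h.comm _ (ρ_mem u) _ (ρ_mem v)
  exact ⟨c, by rw [← Units.val_pow_eq_pow_val, hc, Units.val_one], by
    simpa [coe_scalarGL] using congrArg Units.val h1⟩

/-- The commutator pairing. -/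
noncomputable def β (h : Cl2 r R) (u v : WW R) : F := (exists_β h u v).choose

theorem β_spec (h : Cl2 r R) (u v : WW R) :
    (ρ u : Matrix ι ι F) * ρ v = β h u v • ((ρ v : Matrix ι ι F) * ρ u) := (exists_β h u v).choose_spec.2

theorem β_eq (h : Cl2 r R) {u v : WW R} {x y : GL ι F} (hx : (x : GL ι F ⧸ scalars ι F) = u)
    (hy : (y : GL ι F ⧸ scalars ι F) = v) {c : F} :
    β h u v = c ↔ (x : Matrix ι ι F) * y = c • ((y : Matrix ι ι F) * x) := by
  have := h.nonempty
  obtain ⟨a, -, ha⟩ := rel hx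
  obtain ⟨b, -, hb⟩ := rel hy
  have h1 : (x : Matrix ι ι F) * y = β h u v • ((y : Matrix ι ι F) * x) := by
    rw [ha, hb, smul_mul_smul_comm, smul_mul_smul_comm, β_spec, smul_comm, mul_comm]
  rw [h1]
  exact ⟨fun h => by rw [h], fun h => smul_left_injective F (y * x).ne_zero h⟩

theorem β_eq_one (h : Cl2 r R) {u v : WW R} : β h u v = 1 ↔ Commute (ρ u) (ρ v) := by
  rw [β_eq h (mk_ρ u) (mk_ρ v), one_smul]
  exact ⟨fun h => Units.ext h, fun h => congrArg Units.val h⟩

theorem β_mul (h : Cl2 r R) (u u' v : WW R) : β h (u * u') v = β h u v * β h u' v := by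
  rw [β_eq h (x := ρ u * ρ u') (by rw [QuotientGroup.mk_mul, mk_ρ, mk_ρ]; rfl) (mk_ρ v), Units.val_mul, mul_assoc,
    β_spec h u', mul_smul_comm, ← mul_assoc, β_spec h u, smul_mul_assoc, smul_smul, mul_assoc, mul_comm]

/-- The commutator pairing as a character. -/
noncomputable def θ (h : Cl2 r R) (v : WW R) : WW R →* F where
  toFun u := β h u v
  map_one' := (β_eq h (x := 1) rfl (mk_ρ v)).2 (by simp)
  map_mul' u u' := β_mul h u u' v

theorem eq_of_β (h : Cl2 r R) {v v' : WW R} (hv : ∀ u, β h u v = β h u v') : v = v' := by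
  refine Subtype.ext ?_
  rw [← mk_ρ, ← mk_ρ, QuotientGroup.eq]
  refine h.mem_scalars_of_comm fun y hy => Units.ext ?_
  have h1 := (β_eq h (u := ⟨_, y, hy, rfl⟩) (x := y) rfl (mk_ρ v)).1 rfl
  have h2 := (β_eq h (u := ⟨_, y, hy, rfl⟩) (x := y) rfl (mk_ρ v')).1 (hv _).symm
  have := h.nonempty
  generalize β h ⟨_, y, hy, rfl⟩ v = c at h1 h2
  have hc : c ≠ 0 := by rintro rfl; exact (y * ρ v).ne_zero (by rw [Units.val_mul, h1, zero_smul])
  rw [← mul_inv_cancel_left (ρ v) (ρ v'), Units.val_mul, ← mul_assoc, h1, smul_mul_assoc, mul_assoc, mul_assoc] at h2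
  exact ((Units.mul_right_inj (ρ v)).1 (smul_right_injective _ hc h2)).symm

theorem WW_comm (h : Cl2 r R) (u v : WW R) : u * v = v * u := by
  have := h.nonempty
  refine Subtype.ext ?_
  rw [Subgroup.coe_mul, Subgroup.coe_mul, ← mk_ρ, ← mk_ρ, ← QuotientGroup.mk_mul, ← QuotientGroup.mk_mul]
  exact eq_of_smul (β_spec h u v)

/-- The annihilator of the elements commuting with `g`. -/
def ann (h : Cl2 r R) (g : GL ι F) : Subgroup (WW R) where
  carrier := {u | ∀ v, Commute g (ρ v) → β h u v = 1}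
  mul_mem' ha hb v hv := by rw [β_mul, ha v hv, hb v hv, one_mul]
  one_mem' v _ := (θ h v).map_one
  inv_mem' {u} ha v hv := by
    have := β_mul h u⁻¹ u v
    rw [inv_mul_cancel, ha v hv, mul_one] at this
    exact this.symm.trans (θ h v).map_one

theorem card_le_index [Finite F] (h : Cl2 r R) (g : GL ι F) :
    Nat.card {v : WW R // Commute g (ρ v)} ≤ (ann h g).index := by
  classical
  have := Fintype.ofFinite (WW R ⧸ ann h g)
  have := Fintype.ofFinite {v : WW R // Commute g (ρ v)}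
  have h1 : LinearIndependent F fun v : {v : WW R // Commute g (ρ v)} => (θ h v.1 : WW R → F) :=
    (linearIndependent_monoidHom (WW R) F).comp (fun v : {v : WW R // Commute g (ρ v)} => θ h v.1)
      fun v v' hv => Subtype.ext (eq_of_β h fun u => DFunLike.congr_fun hv u)
  have h2 : LinearIndependent F fun (v : {v : WW R // Commute g (ρ v)}) (t : WW R ⧸ ann h g) => β h t.out v.1 := by
    refine LinearIndependent.of_comp (LinearMap.funLeft F F (QuotientGroup.mk : WW R → WW R ⧸ ann h g)) ?_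
    convert h1 using 1
    funext v u
    obtain ⟨c, hc⟩ := QuotientGroup.mk_out_eq_mul (ann h g) u
    change β h (Quotient.out (u : WW R ⧸ ann h g)) v.1 = β h u v.1
    rw [hc, β_mul, c.2 v.1 v.2, mul_one]
  have h3 := h2.fintype_card_le_finrank
  rwa [finrank_fintype_fun_eq_card, ← Nat.card_eq_fintype_card, ← Nat.card_eq_fintype_card] at h3

/-- The span of the lifts of a subgroup. -/
def alg (C : Subgroup (WW R)) : Submodule F (Matrix ι ι F) :=
  Submodule.span F (Set.range fun c : C => (ρ c.1 : Matrix ι ι F))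

theorem ρ_mem_alg {C : Subgroup (WW R)} {u : WW R} (hu : u ∈ C) : (ρ u : Matrix ι ι F) ∈ alg C :=
  Submodule.subset_span ⟨⟨u, hu⟩, rfl⟩

theorem mul_mem_alg {C : Subgroup (WW R)} {X Y : Matrix ι ι F} (hX : X ∈ alg C) (hY : Y ∈ alg C) : X * Y ∈ alg C := by
  refine Submodule.span_induction₂ (p := fun X Y _ _ => X * Y ∈ alg C) ?_ (fun _ _ => by simp) (fun _ _ => by simp)
    (fun _ _ _ _ _ _ a b => by rw [add_mul]; exact add_mem a b) (fun _ _ _ _ _ _ a b => by rw [mul_add]; exact add_mem a b)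
    (fun _ _ _ _ _ a => by rw [smul_mul_assoc]; exact Submodule.smul_mem _ _ a)
    (fun _ _ _ _ _ a => by rw [mul_smul_comm]; exact Submodule.smul_mem _ _ a) hX hY
  rintro _ _ ⟨u, rfl⟩ ⟨v, rfl⟩
  obtain ⟨c, -, hc⟩ := ρ_mul u.1 v.1
  rw [hc]
  exact Submodule.smul_mem _ _ (ρ_mem_alg (mul_mem u.2 v.2))

theorem one_mem_alg (C : Subgroup (WW R)) : (1 : Matrix ι ι F) ∈ alg C := by
  obtain ⟨c, -, hc⟩ := rel (R := R) (x := 1) (u := 1) rfl
  rw [← Units.val_one, hc]
  exact Submodule.smul_mem _ _ (ρ_mem_alg C.one_mem)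

theorem mem_alg_ann [Finite F] (h : Cl2 r R) (g : GL ι F) : (g : Matrix ι ι F) ∈ alg (ann h g) := by
  classical
  have := Fintype.ofFinite (WW R)
  rw [← (bas h).sum_repr g]
  refine Submodule.sum_mem _ fun u _ => ?_
  by_cases hu : u ∈ ann h g
  · rw [bas_apply]; exact Submodule.smul_mem _ _ (ρ_mem_alg hu)
  · obtain ⟨v, hv, hv'⟩ : ∃ v, Commute g (ρ v) ∧ β h u v ≠ 1 := by
      by_contra! h1
      exact hu h1
    have h1 := repr_perm (bas h) (T := (cj (ρ v)⁻¹).toLinearMap) (π := 1) (l := fun u => β h u v) (fun w => by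
      change cj (ρ v)⁻¹ (bas h w) = β h w v • bas h w
      rw [bas_apply, cj_apply, inv_inv, mul_assoc, β_spec, mul_smul_comm, Units.inv_mul_cancel_left]) g u
    rw [AlgEquiv.toLinearMap_apply, (cj_eq_self_iff _ _).2 (congrArg Units.val hv.inv_right.symm.eq),
      Equiv.Perm.one_apply] at h1
    rw [(mul_eq_zero.1 (show (β h u v - 1) * (bas h).repr g u = 0 by linear_combination -h1)).resolve_left
      (sub_ne_zero.2 hv'), zero_smul]
    exact zero_mem _

theorem dim_eq [Finite F] (h : Cl2 r R) (C : Subgroup (WW R)) {N : Matrix ι ι F} (hN : N ∈ alg C) (hN0 : N ≠ 0) :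
    ∃ k < Nat.card C, finrank F (LinearMap.ker (toLin' N)) * Fintype.card ι = C.index * k := by
  classical
  have := Fintype.ofFinite (WW R ⧸ C)
  have := Fintype.ofFinite C
  have := Fintype.ofFinite F
  let L : alg C →ₗ[F] alg C := (LinearMap.mulLeft F N).restrict fun X hX => mul_mem_alg hN hX
  have hd : finrank F (alg C) ≤ Nat.card C := by
    rw [Nat.card_eq_fintype_card]; exact finrank_range_le_card _
  refine ⟨finrank F (LinearMap.ker L), (Submodule.finrank_lt fun ht => hN0 ?_).trans_le hd, ?_⟩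
  · have h1 : L ⟨1, one_mem_alg C⟩ = 0 := ht.ge Submodule.mem_top
    exact (mul_one N).symm.trans (congrArg Subtype.val h1)
  let Φ : (WW R ⧸ C → alg C) →ₗ[F] Matrix ι ι F :=
    ∑ t, LinearMap.mulRight F (ρ t.out : Matrix ι ι F) ∘ₗ (alg C).subtype ∘ₗ LinearMap.proj t
  have hΦ : ∀ a, Φ a = ∑ t, (a t : Matrix ι ι F) * ρ t.out := fun a => by simp [Φ]
  have hs : Function.Surjective Φ := by
    rw [← LinearMap.range_eq_top, eq_top_iff, ← (bas h).span_eq, Submodule.span_le]
    rintro _ ⟨u, rfl⟩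
    obtain ⟨c, hc⟩ := QuotientGroup.mk_out_eq_mul C u
    obtain ⟨a, ha, ha'⟩ := ρ_mul c⁻¹.1 (Quotient.out (u : WW R ⧸ C))
    rw [hc, WW_comm h u, Subgroup.coe_inv, inv_mul_cancel_left, ← WW_comm h u, ← hc] at ha'
    refine ⟨Pi.single u (a⁻¹ • ⟨_, ρ_mem_alg c⁻¹.2⟩), ?_⟩
    rw [hΦ, Finset.sum_eq_single (u : WW R ⧸ C) (fun t _ ht => by simp [ht]) (by simp), Pi.single_eq_same,
      Submodule.coe_smul, smul_mul_assoc, bas_apply]
    exact (congrArg (a⁻¹ • ·) ha').trans (inv_smul_smul₀ ha _)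
  have hb : Function.Bijective Φ := by
    refine ⟨(LinearMap.injective_iff_surjective_of_finrank_eq_finrank (le_antisymm ?_
      (LinearMap.finrank_le_finrank_of_surjective hs))).2 hs, hs⟩
    rw [finrank_pi_fintype, Finset.sum_const, Finset.card_univ, smul_eq_mul, finrank_eq_nat_card_basis (bas h),
      ← C.index_mul_card, ← Nat.card_eq_fintype_card]
    exact Nat.mul_le_mul_left _ hd
  have e1 : {X : Matrix ι ι F // N * X = 0} ≃ (ι → LinearMap.ker (toLin' N)) :=
    { toFun := fun X j => ⟨fun i => X.1 i j, funext fun i => congrFun (congrFun X.2 i) j⟩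
      invFun := fun f => ⟨of fun i j => (f j).1 i, Matrix.ext fun i j => congrFun (f j).2 i⟩
      left_inv := fun _ => rfl
      right_inv := fun _ => rfl }
  have e2 : (WW R ⧸ C → LinearMap.ker L) ≃ {X : Matrix ι ι F // N * X = 0} :=
    Equiv.subtypePiEquivPi.symm.trans ((Equiv.ofBijective Φ hb).subtypeEquiv fun a => by
      have h1 : N * Φ a = Φ fun t => L (a t) := by
        simp only [hΦ, Finset.mul_sum, ← mul_assoc]; rfl
      rw [Equiv.ofBijective_apply, h1, map_eq_zero_iff _ hb.1, funext_iff]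
      rfl)
  have h1 := Nat.card_congr (e2.trans e1)
  rw [Nat.card_fun, Nat.card_fun, natCard_eq_pow_finrank (K := F), natCard_eq_pow_finrank (K := F) (V := LinearMap.ker _),
    ← pow_mul, ← pow_mul] at h1
  have h2 := Nat.pow_right_injective (Finite.one_lt_card (α := F)) h1
  rw [← Nat.card_eq_fintype_card, ← h2, mul_comm]
  rfl

theorem exists_perm {g : GL ι F} (hg : g ∈ subgroupNormalizer (R ⊔ scalars ι F)) : ∃ π : MulAut (WW R),
    (∀ u, (π u : GL ι F ⧸ scalars ι F) = (g * ρ u * g⁻¹ : GL ι F)) ∧ ∀ m, g ^ m = 1 → π ^ m = 1 := by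
  have h1 : (R ⊔ scalars ι F).map (QuotientGroup.mk' (scalars ι F)) = WW R := by
    rw [Subgroup.map_sup, QuotientGroup.map_mk'_self, sup_bot_eq]
  have h2 : (g : GL ι F ⧸ scalars ι F) ∈ Subgroup.normalizer (WW R : Set (GL ι F ⧸ scalars ι F)) := by
    rw [← h1]
    exact Subgroup.le_normalizer_map _ ⟨g, hg, rfl⟩
  refine ⟨(WW R).normalizerMonoidHom ⟨_, h2⟩, fun u => ?_, fun m hm => ?_⟩
  · rw [QuotientGroup.mk_mul, QuotientGroup.mk_mul, mk_ρ]; rfl
  · rw [← map_pow, ← map_one (WW R).normalizerMonoidHom]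
    congr 1
    exact Subtype.ext (by rw [SubmonoidClass.coe_pow, ← QuotientGroup.mk_pow, hm]; rfl)

theorem special [Finite F] (h : Cl2 r R) {g : GL ι F} {π : MulAut (WW R)}
    (hπ : ∀ u, (π u : GL ι F ⧸ scalars ι F) = (g * ρ u * g⁻¹ : GL ι F)) (hπ3 : π ^ 3 = 1) (hg : g ^ 3 = 1)
    (hr : r ≠ 3) (hp : (Nat.card (ann h g)).Prime) (h3 : Nat.card (ann h g) ≠ 3) : g ∈ scalars ι F := by
  have := h.nonempty
  have := Fact.mk hp
  have hc : IsCyclic (ann h g) := isCyclic_of_prime_card rfl
  have h1 : ∀ z ∈ ann h g, Commute g (ρ z) := fun z hz => Units.ext (by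
    refine Submodule.span_induction (p := fun X _ => X * (ρ z : Matrix ι ι F) = ρ z * X) ?_ (by simp)
      (fun x y _ _ a b => by rw [add_mul, mul_add, a, b]) (fun c x _ a => by rw [smul_mul_assoc, mul_smul_comm, a])
      (mem_alg_ann h g)
    rintro _ ⟨w, rfl⟩
    obtain ⟨a, ha⟩ := hc.exists_monoid_generator
    obtain ⟨i, rfl⟩ := ha w
    obtain ⟨j, hj⟩ := ha ⟨z, hz⟩
    have h4 := (β_eq h (u := (a ^ i).1) (v := z) (x := ρ a.1 ^ i) (y := ρ a.1 ^ j)
      (by rw [QuotientGroup.mk_pow, mk_ρ]; rfl) (by rw [QuotientGroup.mk_pow, mk_ρ]; exact congrArg (·.1.1) hj)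
      (c := 1)).2 (by rw [one_smul]; exact congrArg Units.val (Commute.pow_pow_self _ _ _).eq)
    exact congrArg Units.val ((β_eq_one h).1 h4).eq)
  have h2 : ∀ z, Commute g (ρ z) → π z = z := fun z hz => Subtype.ext (by rw [hπ, hz.eq, mul_inv_cancel_right, mk_ρ])
  have h4 : ∀ u, π u * u⁻¹ ∈ ann h g := fun u v hv => by
    have h5 : β h (π u) v = β h u v := (β_eq h (hπ u).symm (mk_ρ v)).2 (by
      have h6 := congrArg (cj g) (β_spec h u v)
      rwa [map_smul, map_mul, map_mul, (cj_eq_self_iff _ _).2 (congrArg Units.val hv.eq), cj_coe] at h6)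
    rw [β_mul, h5, ← β_mul, mul_inv_cancel]
    exact (θ h v).map_one
  have h5 : ∀ u, π u = u := fun u => by
    have h6 := h2 _ (h1 _ (h4 u))
    obtain ⟨z, hz⟩ : ∃ z, z = π u * u⁻¹ := ⟨_, rfl⟩
    have h7 : π u = z * u := by rw [hz, inv_mul_cancel_right]
    rw [← hz] at h6
    have h8 : z ^ 3 = 1 := by
      have := DFunLike.congr_fun hπ3 u
      simp only [pow_succ, pow_zero, one_mul, MulAut.mul_apply, h7, map_mul, h6, MulAut.one_apply] at this
      rw [← mul_left_inj u, one_mul, pow_three, mul_assoc, mul_assoc, this]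
    have h9 : z ^ Nat.card (ann h g) = 1 :=
      congrArg Subtype.val (pow_card_eq_one' (x := (⟨z, hz ▸ h4 u⟩ : ann h g)))
    rw [h7, (pow_eq_one_iff_of_coprime ((Nat.coprime_primes Nat.prime_three hp).2 h3.symm)).1 ⟨h8, h9⟩, one_mul]
  refine h.mem_scalars_of_comm fun y hy => Units.ext ?_
  obtain ⟨c, hc0, hc⟩ := rel (x := g * ρ ⟨_, y, hy, rfl⟩ * g⁻¹) ((hπ _).symm.trans (congrArg Subtype.val (h5 _)))
  obtain ⟨a, -, ha⟩ := rel (x := y) (u := ⟨_, y, hy, rfl⟩) rfl
  generalize (⟨_, y, hy, rfl⟩ : WW R) = u at hc ha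
  rw [← cj_coe] at hc
  have h6 : ∀ m, cj (g ^ m) (ρ u : Matrix ι ι F) = c ^ m • (ρ u : Matrix ι ι F) := fun m => by
    induction m with
    | zero => simp
    | succ m ih => rw [pow_succ', cj_mul, ih, map_smul, hc, smul_smul, pow_succ]
  have h7 : c ^ 3 = 1 := smul_left_injective F (ρ u).ne_zero (by simpa [hg] using (h6 3).symm)
  have h8 : c ^ r = 1 := by
    have h9 := congrArg (· ^ r) hc
    obtain ⟨b, hb⟩ := (mem_scalars_iff _).1 (h.pow_mem_scalars (ρ_mem u))
    simp only [← map_pow, _root_.smul_pow, ← Units.val_pow_eq_pow_val, hb, map_smul, map_one] at h9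
    exact smul_left_injective F (smul_ne_zero b.ne_zero one_ne_zero) (h9.symm.trans (one_smul _ _).symm)
  rw [(pow_eq_one_iff_of_coprime ((Nat.coprime_primes Nat.prime_three h.prime).2 hr.symm)).1 ⟨h7, h8⟩, one_smul,
    cj_eq_self_iff] at hc
  rw [Units.val_mul, Units.val_mul, ha, mul_smul_comm, smul_mul_assoc, hc]

end Grp

/-- Eigenspaces of elements normalising an absolutely irreducible extraspecial group. Let F be a finite field, r a prime, and R ≤ GL_n(F) an absolutely irreducible extraspecial r-group (an r-group whose centre equals its derived subgroup and has order r) of exponent r or 4. Let g ∈ GL_n(F) normalise the product of R with the scalar matrices, have prime order ϖ and not be scalar, and let W be the eigenspace of g for any c ∈ F (W may be the zero subspace). Then dim W ≤ 3n/4 if ϖ = 2, dim W ≤ 2n/3 if ϖ = 3, and dim W ≤ n/2 if ϖ > 3; moreover if ϖ = 3 and 3 does not divide n then dim W ≤ n/2. -/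
theorem result {F : Type*} [Field F] [Fintype F] {n r ϖ : ℕ} (R : Subgroup (Matrix.GeneralLinearGroup (Fin n) F)) (hr : r.Prime) (hR : IsPGroup r R) (hZ : Nat.card (Subgroup.center R) = r) (hext : commutator R = Subgroup.center R) (hexp : Monoid.exponent R = r ∨ Monoid.exponent R = 4) (hirr : Cfsg.Geo.ActsAbsolutelyIrreducibly (Cfsg.Geo.matrixSet R)) (g : Matrix.GeneralLinearGroup (Fin n) F) (hg : g ∈ Cfsg.Geo.subgroupNormalizer (R ⊔ Cfsg.Geo.scalars (Fin n) F)) (hϖ : ϖ.Prime) (hord : orderOf g = ϖ) (hns : g ∉ Cfsg.Geo.scalars (Fin n) F) (c : F) :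
    (ϖ = 2 → 4 * Module.finrank F (Module.End.eigenspace (Matrix.toLin' (g : Matrix (Fin n) (Fin n) F)) c) ≤ 3 * n) ∧
    (ϖ = 3 → 3 * Module.finrank F (Module.End.eigenspace (Matrix.toLin' (g : Matrix (Fin n) (Fin n) F)) c) ≤ 2 * n) ∧
    (3 < ϖ → 2 * Module.finrank F (Module.End.eigenspace (Matrix.toLin' (g : Matrix (Fin n) (Fin n) F)) c) ≤ n) ∧
    (ϖ = 3 → ¬ 3 ∣ n → 2 * Module.finrank F (Module.End.eigenspace (Matrix.toLin' (g : Matrix (Fin n) (Fin n) F)) c) ≤ n) := by
  classical
  have hn : 2 ≤ n := by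
    by_contra h
    have : Subsingleton (Fin n) := Fin.subsingleton_iff_le_one.2 (by omega)
    obtain ⟨c, hc⟩ := eq_smul_one_of_forall_comm (x := (g : Matrix (Fin n) (Fin n) F)) fun y => by
      ext i j
      rw [mul_apply, mul_apply, Fintype.sum_subsingleton _ i, Fintype.sum_subsingleton _ i, Subsingleton.elim j i,
        mul_comm]
    by_cases hc0 : c = 0
    · refine hns ((mem_scalars_iff g).2 ⟨1, ?_⟩)
      rw [Units.val_one, one_smul, ← g.mul_inv, hc, hc0, zero_smul, zero_mul]
    · exact hns ((mem_scalars_iff g).2 ⟨Units.mk0 c hc0, hc⟩)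
  have : Nonempty (Fin n) := ⟨⟨0, by omega⟩⟩
  have he := Cfsg.Lib.Mit.env_eq_top_of_absIrr hirr
  have h : Cl2 r R := by
    refine ⟨hr, by simpa using hn, he, fun x hx y hy => ?_, fun x hx => ?_⟩
    · have h1 : ⁅(⟨x, hx⟩ : R), (⟨y, hy⟩ : R)⁆ ∈ Subgroup.center R :=
        hext ▸ Subgroup.commutator_mem_commutator trivial trivial
      have h2 : ⁅x, y⁆ ^ r = 1 := by
        have := pow_card_eq_one' (x := (⟨_, h1⟩ : Subgroup.center R))
        rw [hZ] at this
        exact congrArg (·.1.1) this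
      obtain ⟨c, hc⟩ := hirr.2 (⁅x, y⁆ : GL (Fin n) F) (by
        rintro _ ⟨z, hz, rfl⟩
        exact congrArg (·.1.1) (Subgroup.mem_center_iff.1 h1 ⟨z, hz⟩).symm)
      have hc0 : c ≠ 0 := by rintro rfl; exact Units.ne_zero _ (hc.trans (zero_smul _ _))
      have h3 : ⁅x, y⁆ = scalarGL (Fin n) (Units.mk0 c hc0) := Units.ext (by rw [coe_scalarGL]; exact hc)
      refine ⟨Units.mk0 c hc0, Units.ext (smul_left_injective F (one_ne_zero (α := Matrix (Fin n) (Fin n) F)) ?_), by
        rw [← h3, commutatorElement_def]; group⟩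
      rw [h3, ← map_pow] at h2
      simpa [_root_.smul_pow] using congrArg Units.val h2
    · have h1 : Monoid.exponent R ∣ r * Nat.gcd 2 r := by
        rcases hexp with h1 | h1
        · exact h1 ▸ dvd_mul_right _ _
        · have := Fact.mk hr
          obtain ⟨k, hk⟩ := IsPGroup.iff_card.1 hR
          have h2 : 2 ∣ r ^ k := hk ▸ (Dvd.dvd.trans (by rw [h1]; norm_num) Group.exponent_dvd_nat_card)
          obtain rfl := (Nat.prime_dvd_prime_iff_eq Nat.prime_two hr).1 (Nat.prime_two.dvd_of_dvd_pow h2)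
          exact h1 ▸ dvd_rfl
      exact congrArg Subtype.val (Monoid.exponent_dvd_iff_forall_pow_eq_one.1 h1 ⟨x, hx⟩)
  obtain ⟨s, rfl⟩ : ∃ s, ϖ = s + 1 := ⟨ϖ - 1, by have := hϖ.pos; omega⟩
  have hg1 : g ^ (s + 1) = 1 := hord ▸ pow_orderOf_eq_one g
  have hE : Module.End.eigenspace (toLin' (g : Matrix (Fin n) (Fin n) F)) c =
      LinearMap.ker (toLin' ((g : Matrix (Fin n) (Fin n) F) - c • 1)) := by
    rw [Module.End.eigenspace_def, map_sub, map_smul, toLin'_one]; rfl
  by_cases hc : c ^ (s + 1) = 1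
  swap
  · have h0 : Module.End.eigenspace (toLin' (g : Matrix (Fin n) (Fin n) F)) c = ⊥ := by
      by_contra h0
      obtain ⟨v, hv⟩ := Module.End.HasEigenvalue.exists_hasEigenvector h0
      have h1 := hv.pow_apply (s + 1)
      rw [← toLin'_pow, ← Units.val_pow_eq_pow_val, hg1, Units.val_one, toLin'_one, LinearMap.id_apply] at h1
      exact hc (smul_left_injective F hv.2 (h1.symm.trans (one_smul _ _).symm))
    rw [h0]
    simp
  rw [hE]
  have h1 := lower_mat (g : Matrix (Fin n) (Fin n) F) (by rw [← Units.val_pow_eq_pow_val, hg1, Units.val_one]) c hc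
  have h2 := rank_add_ker ((g : Matrix (Fin n) (Fin n) F) - c • 1)
  obtain ⟨π, hπ, hπ'⟩ := exists_perm hg
  choose l _ hl using fun u => rel (hπ u).symm
  have := Fintype.ofFinite (WW R)
  have h3 := upper (bas h) (T := (cj g).toLinearMap) (π := MulAut.toPerm _ π) (l := l) (fun u => by
    rw [bas_apply, bas_apply, AlgEquiv.toLinearMap_apply, cj_coe]; exact hl u) hϖ (by rw [← map_pow, hπ' _ hg1, map_one])
    ((cen (toLin' (g : Matrix (Fin n) (Fin n) F))).map LinearMap.toMatrix'.toLinearMap) (by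
      rintro _ ⟨X, hX, rfl⟩
      refine (cj_eq_self_iff _ _).2 (toLin'.injective ?_)
      simpa [toLin'_mul, Module.End.mul_eq_comp] using (show X * _ = _ * X from hX).symm)
  have h4 : Nat.card {u // (cj g).toLinearMap (bas h u) = bas h u} = Nat.card {v : WW R // Commute g (ρ v)} :=
    Nat.card_congr (Equiv.subtypeEquivRight fun u => by
      rw [bas_apply, AlgEquiv.toLinearMap_apply, cj_eq_self_iff]
      exact ⟨fun h => Units.ext h, fun h => congrArg Units.val h⟩)
  rw [LinearEquiv.finrank_map_eq, h4, ← Nat.card_eq_fintype_card, card_WW h] at h3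
  obtain ⟨k, hk, h5⟩ := dim_eq h (ann h g) (N := (g : Matrix (Fin n) (Fin n) F) - c • 1)
    (sub_mem (mem_alg_ann h g) (Submodule.smul_mem _ _ (one_mem_alg _))) fun h0 => by
      have h6 := sub_eq_zero.1 h0
      have hc0 : c ≠ 0 := by rintro rfl; exact g.ne_zero (h6.trans (zero_smul _ _))
      exact hns ((mem_scalars_iff g).2 ⟨Units.mk0 c hc0, h6⟩)
  have h6 := (ann h g).index_mul_card
  rw [card_WW h] at h6
  rw [Fintype.card_fin] at h2 h3 h5 h6
  generalize finrank F (LinearMap.ker (toLin' ((g : Matrix (Fin n) (Fin n) F) - c • 1))) = d at *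
  obtain ⟨h7, h8⟩ := arith (n := n) (d := d) (by omega) (by omega) (by rwa [(Nat.eq_sub_of_add_eq h2).symm]) h3
    (card_le_index h g) h6 h5
  obtain ⟨a1, a2, a3, a4⟩ := arith2 hk h8
  have key : ∀ a b : ℕ, a * k ≤ b * Nat.card (ann h g) → a * d ≤ b * n := fun a b hab =>
    Nat.le_of_mul_le_mul_right (c := Nat.card (ann h g)) (by
      rw [mul_assoc, h7, ← mul_assoc, mul_right_comm b]; exact Nat.mul_le_mul_right _ hab) (by omega)
  refine ⟨fun e => key 4 3 (a1 (by omega)), fun e => key 3 2 (a2 (by omega)), fun e => ?_, fun e hn3 => ?_⟩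
  · have : s ≠ 3 := by rintro rfl; exact absurd hϖ (by norm_num)
    simpa using key 2 1 (by simpa using a3 (by omega))
  · obtain rfl : s = 2 := by omega
    have hr3 : r ≠ 3 := by
      rintro rfl
      obtain ⟨m, hm, hm'⟩ := h.exists_card_eq_pow
      rw [Fintype.card_fin] at hm'
      exact hn3 (hm' ▸ dvd_pow_self 3 (by omega))
    have hsp := fun hp h3 => hns (special h hπ (hπ' _ hg1) hg1 hr3 hp h3)
    simpa using key 2 1 (by
      simpa using a4 rfl (fun h9 => hn3 (Nat.prime_three.dvd_of_dvd_pow (h6 ▸ h9.mul_left _)))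
        (fun h9 => hsp (by rw [h9]; norm_num) (by omega)) fun h9 => hsp (by rw [h9]; norm_num) (by omega))

end Cfsg.Agent.S5877
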