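import Cfsg.Statements.S5941
import Cfsg.Agent.Class.PSL2Subfield

set_option autoImplicit false
open Cfsg

namespace Cfsg.Agent.S5941

open Cfsg.Lib.Class

/-- Let K and F be finite fields of odd characteristic with #F = (#K)². Then PSL_2(F) has a maximal subgroup isomorphic to PGL_2(K). -/
theorem result {F K : Type*} [Field F] [Fintype F] [Field K] [Fintype K] (q : ℕ) (hK : Fintype.card K = q) (hF : Fintype.card F = q ^ 2) (hq : Odd q) : ∃ H : Subgroup (Matrix.ProjectiveSpecialLinearGroup (Fin 2) F), IsCoatom H ∧ Nonempty (H ≃* Matrix.ProjGenLinGroup (Fin 2) K) := by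
  have hq' : Nat.card F = Nat.card K ^ 2 := by
    rw [Nat.card_eq_fintype_card, Nat.card_eq_fintype_card, hF, hK]
  have h2 : (2 : F) ≠ 0 := two_ne_zero_iff_odd.2 (by rw [Nat.card_eq_fintype_card, hF]; exact hq.pow)
  obtain ⟨F₀, ⟨φ⟩⟩ := exists_subfield_ringEquiv hq'
  exact exists_isCoatom_of_covBy
    (pglSub_conj_covBy_psl2 h2 (F₀ := F₀) (by rw [hq', Nat.card_congr φ.toEquiv]) 1)
    ⟨(conjEquiv _ 1).symm.trans ((pglSubEquiv F₀).symm.trans (pglEquiv (Fin 2) φ.symm))⟩

end Cfsg.Agent.S5941
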