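import Cfsg.Statements.S5942
import Cfsg.Agent.Class.PSL2Subfield

set_option autoImplicit false
open Cfsg

namespace Cfsg.Agent.S5942

open Cfsg.Lib.Class

/-- Let K and F be finite fields of odd characteristic with #F = (#K)^r for an odd prime r. Then PSL_2(F) has a maximal subgroup isomorphic to PSL_2(K). -/
theorem result {F K : Type*} [Field F] [Fintype F] [Field K] [Fintype K] (q r : ℕ) (hK : Fintype.card K = q) (hF : Fintype.card F = q ^ r) (hq : Odd q) (hr : r.Prime) (hr2 : r ≠ 2) : ∃ H : Subgroup (Matrix.ProjectiveSpecialLinearGroup (Fin 2) F), IsCoatom H ∧ Nonempty (H ≃* Matrix.ProjectiveSpecialLinearGroup (Fin 2) K) := by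
  have hq' : Nat.card F = Nat.card K ^ r := by
    rw [Nat.card_eq_fintype_card, Nat.card_eq_fintype_card, hF, hK]
  obtain ⟨F₀, ⟨φ⟩⟩ := exists_subfield_ringEquiv hq'
  have h3 : 3 ≤ Nat.card F₀ := by
    have h1 := two_le_card_field K
    rw [← Nat.card_congr φ.toEquiv]
    rw [Nat.card_eq_fintype_card, hK] at h1 ⊢
    have := Nat.odd_iff.1 hq
    omega
  exact exists_isCoatom_of_covBy
    (pslSub_conj_covBy_psl2 (F₀ := F₀) hr (by rw [hq', Nat.card_congr φ.toEquiv]) h3 (fun _ => hr2) 1)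
    ⟨(conjEquiv _ 1).symm.trans ((pslSubEquiv F₀).symm.trans (pslEquiv (Fin 2) φ.symm))⟩

end Cfsg.Agent.S5942
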