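import Cfsg.Statements.S5949
import Cfsg.Agent.Known.ElusSL
import Cfsg.Agent.Class.HermParab

set_option autoImplicit false
open scoped MatrixGroups
open Cfsg

namespace Cfsg.Agent.S5949

open Cfsg.Lib.Known Cfsg.Lib.Class Cfsg.Lib.Class.Orth QuadraticMap Module

/-- Elements of prime order of PSL_n(q) with no fixed `m`-space. Here `T = PSL_n(F)` for a field `F` with `q = p^f` elements (`n ≥ 2`, `(n, q) ≠ (2, 2), (2, 3)`); an element of `T` of prime order `r` is represented by a matrix `x` of determinant 1 with `x^r` scalar and `x` not scalar; `i` denotes the multiplicative order of `q` modulo `r` (when `r ≠ p`), and `(a)_r` the `r`-part of `a`. Let `1 ≤ m ≤ n/2` and let `r` be a prime dividing the number of `m`-dimensional subspaces of `F^n`. Then every element of `T` of order `r` fixes some `m`-dimensional subspace (the action on `m`-spaces is `r`-elusive) if and only if `r ≠ p` and either (i) `i = 1` and (`r ∣ m`, or `(q−1)_r ≥ (n)_r` where in addition `q ≡ 1 (mod 4)`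 is required when `r = 2` and `n` is even), or (ii) `2 ≤ i ≤ m` and `n mod i ≥ m mod i`. -/
theorem result {F : Type*} [Field F] [Fintype F] {p : ℕ} [Fact p.Prime] [CharP F p] {q : ℕ} (hq : Fintype.card F = q)
    (n m : ℕ) (hn : 2 ≤ n) (hT : (n, q) ≠ (2, 2) ∧ (n, q) ≠ (2, 3)) (hm : 1 ≤ m) (hmn : 2 * m ≤ n)
    (r : ℕ) [Fact r.Prime] (hrΩ : r ∣ Nat.card {W : Submodule F (Fin n → F) // Module.finrank F ↥W = m}) :
    (∀ x : Matrix.SpecialLinearGroup (Fin n) F,
      (∃ c : F, ((x ^ r : Matrix.SpecialLinearGroup (Fin n) F) : Matrix (Fin n) (Fin n) F) = c • (1 : Matrix (Fin n) (Fin n) F)) →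
      (∀ c : F, (x : Matrix (Fin n) (Fin n) F) ≠ c • (1 : Matrix (Fin n) (Fin n) F)) →
      ∃ W : Submodule F (Fin n → F), Module.finrank F ↥W = m ∧ W.map (Matrix.toLin' (x : Matrix (Fin n) (Fin n) F)) ≤ W) ↔
    (r ≠ p ∧
      ((orderOf (q : ZMod r) = 1 ∧ (r ∣ m ∨ (padicValNat r n ≤ padicValNat r (q - 1) ∧ (r = 2 → Even n → q % 4 = 1)))) ∨
       (2 ≤ orderOf (q : ZMod r) ∧ orderOf (q : ZMod r) ≤ m ∧ m % orderOf (q : ZMod r) ≤ n % orderOf (q : ZMod r)))) := by
  subst hq
  have hn' : finrank F (Fin n → F) = n := by simp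
  have key : r = p ∨ (m < orderOf (Fintype.card F : ZMod r) ∧
      m ≤ n % orderOf (Fintype.card F : ZMod r)) → False := by
    intro h
    refine not_dvd_card_submodule ⊤ (fun W : Submodule F (Fin n → F) => finrank F W = m)
      (fun g _ W h => by rw [LinearEquiv.finrank_map_eq, h]) (fun W W' h h' => ?_)
      (fun P _ hP => ?_) hrΩ
    · obtain ⟨g, hg, -⟩ := exists_map_eq_of_le (le_refl W) (le_refl W') (h.trans h'.symm)
        (h.trans h'.symm)
      exact ⟨g, trivial, hg⟩
    by_cases hrp : r = p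
    · subst hrp
      obtain ⟨W, -, h1, h2⟩ := exists_inv_pGroup r hP (U := ⊥) (by simp) m (by simp; omega)
      exact ⟨W, by simpa using h1, h2⟩
    obtain ⟨A, C, hAC⟩ := exists_fixDec p hrp hP
    have h1 := hAC.mod_le (hAC.orderOf_dvd hP)
    obtain ⟨U, hU, h2⟩ := Form.exists_le_finrank_eq A (k := m) (by
      rw [hn'] at h1; exact (h.resolve_left hrp).2.trans h1)
    exact ⟨U, h2, hAC.inv_of_le_left hU⟩
  have hrp : r ≠ p := fun h => key (Or.inl h)
  rw [forall_SL_iff r fun g => ∃ W : Submodule F (Fin n → F), finrank F W = m ∧ W.map g ≤ W]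
  rw [forall_congr' fun g => forall_congr' fun hd => forall_congr' fun h1 => forall_congr' fun _ =>
    exists_inv_iff_blk (by
      obtain ⟨c, hc⟩ := h1
      exact isSemisimple_of_pow_eq_smul (natCast_prime_ne_zero p hrp)
        (smul_ne_zero_of_det (by rw [hd]; exact one_ne_zero) hc (by omega)) hc) m,
    forall_blk_sum_iff p hrp (by omega) (by omega), hn']
  have h0 := orderOf_card_pos (K := F) p hrp
  have h1 : m % orderOf (Fintype.card F : ZMod r) ≤ n % orderOf (Fintype.card F : ZMod r) →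
      orderOf (Fintype.card F : ZMod r) ≤ m := fun h => by
    by_contra h2
    exact key (Or.inr ⟨by omega, by rwa [Nat.mod_eq_of_lt (by omega)] at h⟩)
  constructor
  · rintro ⟨h2, h3⟩
    refine ⟨hrp, ?_⟩
    by_cases hi : orderOf (Fintype.card F : ZMod r) = 1
    · exact Or.inl ⟨hi, h3 hi⟩
    · exact Or.inr ⟨by omega, h1 h2, h2⟩
  · rintro ⟨-, ⟨hi, h2⟩ | ⟨hi, -, h2⟩⟩
    · exact ⟨by rw [hi]; omega, fun _ => h2⟩
    · exact ⟨h2, fun h => by omega⟩

end Cfsg.Agent.S5949
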