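import Cfsg.Statements.S5950
import Cfsg.Agent.Known.ElusSL
import Cfsg.Agent.Class.HermParab

set_option autoImplicit false
open scoped MatrixGroups
open Cfsg

namespace Cfsg.Agent.S5950

open Cfsg.Lib.Known Cfsg.Lib.Class Cfsg.Lib.Class.Orth QuadraticMap Module

/-- Elements of prime order of PSL_n(q) fixing no decomposition `F^n = U ⊕ W` with `dim U = m`. Here `T = PSL_n(F)` for a field `F` with `q = p^f` elements (`n ≥ 2`, `(n, q) ≠ (2, 2), (2, 3)`); an element of `T` of prime order `r` is represented by a matrix `x` of determinant 1 with `x^r` scalar and `x` not scalar; `i` denotes the multiplicative order of `q` modulo `r` (when `r ≠ p`), and `(a)_r` the `r`-part of `a`. Let `n ≥ 3`, `1 ≤ m < n/2`, and let `r` be a prime dividing the number of such decompositions (unordered pairs `{U, W}` of complementary subspaces with `dim U = m`; since `m ≠ n − m` these are the ordered pairs with `dim U = m`). Then every element of `T` of order `r` fixes such a pair (fixes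 both `U` and `W` for some complementary `U, W` with `dim U = m`) if and only if one of: (i) `r = p > 2` and every partition of `n` into parts of size at most `p` contains, as a sub-multiset, a partition of `m`; (ii) `r = p = 2` and `n` is odd or `m` is even; (iii) `r ≠ p`, `i = 1`, and `r ∣ m` or `(q−1)_r ≥ (n)_r` (with `q ≡ 1 (mod 4)` required when `r = 2` and `n` is even); (iv) `r ≠ p`, `2 ≤ i ≤ m` and `n mod i ≥ m mod i`. -/
theorem result {F : Type*} [Field F] [Fintype F] {p : ℕ} [Fact p.Prime] [CharP F p] {q : ℕ} (hq : Fintype.card F = q)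
    (n m : ℕ) (hn : 3 ≤ n) (hm : 1 ≤ m) (hmn : 2 * m < n)
    (r : ℕ) [Fact r.Prime]
    (hrΩ : r ∣ Nat.card {P : Submodule F (Fin n → F) × Submodule F (Fin n → F) // IsCompl P.1 P.2 ∧ Module.finrank F ↥P.1 = m}) :
    (∀ x : Matrix.SpecialLinearGroup (Fin n) F,
      (∃ c : F, ((x ^ r : Matrix.SpecialLinearGroup (Fin n) F) : Matrix (Fin n) (Fin n) F) = c • (1 : Matrix (Fin n) (Fin n) F)) →
      (∀ c : F, (x : Matrix (Fin n) (Fin n) F) ≠ c • (1 : Matrix (Fin n) (Fin n) F)) →
      ∃ U W : Submodule F (Fin n → F), IsCompl U W ∧ Module.finrank F ↥U = m ∧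
        U.map (Matrix.toLin' (x : Matrix (Fin n) (Fin n) F)) ≤ U ∧ W.map (Matrix.toLin' (x : Matrix (Fin n) (Fin n) F)) ≤ W) ↔
    ((r = p ∧ 2 < p ∧ (∀ μ : Multiset ℕ, (∀ a ∈ μ, 0 < a ∧ a ≤ p) → μ.sum = n → ∃ ν : Multiset ℕ, ν ≤ μ ∧ ν.sum = m)) ∨
     (r = p ∧ p = 2 ∧ (Odd n ∨ Even m)) ∨
     (r ≠ p ∧
      ((orderOf (q : ZMod r) = 1 ∧ (r ∣ m ∨ (padicValNat r n ≤ padicValNat r (q - 1) ∧ (r = 2 → Even n → q % 4 = 1)))) ∨
       (2 ≤ orderOf (q : ZMod r) ∧ orderOf (q : ZMod r) ≤ m ∧ m % orderOf (q : ZMod r) ≤ n % orderOf (q : ZMod r))))) := by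
  subst hq
  have hn' : finrank F (Fin n → F) = n := by simp
  rw [forall_SL_iff r fun g => ∃ U W : Submodule F (Fin n → F), IsCompl U W ∧ finrank F U = m ∧
    U.map g ≤ U ∧ W.map g ≤ W]
  simp only [exists_isCompl_iff_blk]
  by_cases hrp : r = p
  · subst hrp
    rw [forall_blk_char_iff r (fun μ => ∃ ν ≤ μ, ν.sum = m)
      ⟨Multiset.replicate m 1, (Multiset.replicate_le_replicate _).mpr (by omega), by simp⟩, hn']
    by_cases h2 : r = 2
    · subst h2
      rw [forall_parts_two_iff (by omega)]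
      simp
    · have := (Fact.out : r.Prime).two_le
      simp [h2, show 2 < r by omega]
  have key : m < orderOf (Fintype.card F : ZMod r) →
      m ≤ n % orderOf (Fintype.card F : ZMod r) → False := by
    intro h h'
    refine not_dvd_card_submodule_pair ⊤
      (fun P : Submodule F (Fin n → F) × Submodule F (Fin n → F) =>
        IsCompl P.1 P.2 ∧ finrank F P.1 = m)
      (fun g _ U W h => ⟨(Submodule.orderIsoMapComap g).isCompl h.1,
        by rw [LinearEquiv.finrank_map_eq, h.2]⟩) (fun U W U' W' h h' => ?_)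
      (fun P _ hP => ?_) hrΩ
    · obtain ⟨g, hg⟩ := exists_map_eq_of_isCompl h.1 h'.1 (h.2.trans h'.2.symm)
      exact ⟨g, trivial, hg⟩
    obtain ⟨A, C, hAC⟩ := exists_fixDec p hrp hP
    have h1 := hAC.mod_le (hAC.orderOf_dvd hP)
    obtain ⟨U, hU, h2⟩ := Form.exists_le_finrank_eq A (k := m) (by
      rw [hn'] at h1; exact h'.trans h1)
    obtain ⟨W, h3, h4⟩ := (hAC.isCompl.disjoint.mono_left hU).symm.exists_isCompl
    exact ⟨U, W, ⟨h4.symm, h2⟩, hAC.inv_of_le_left hU, hAC.inv_of_right_le h3⟩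
  rw [forall_blk_sum_iff p hrp (by omega) (by omega), hn']
  have h0 := orderOf_card_pos (K := F) p hrp
  have h1 : m % orderOf (Fintype.card F : ZMod r) ≤ n % orderOf (Fintype.card F : ZMod r) →
      orderOf (Fintype.card F : ZMod r) ≤ m := fun h => by
    by_contra h2
    exact key (by omega) (by rwa [Nat.mod_eq_of_lt (by omega)] at h)
  constructor
  · rintro ⟨h2, h3⟩
    refine Or.inr (Or.inr ⟨hrp, ?_⟩)
    by_cases hi : orderOf (Fintype.card F : ZMod r) = 1
    · exact Or.inl ⟨hi, h3 hi⟩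
    · exact Or.inr ⟨by omega, h1 h2, h2⟩
  · rintro (h | h | ⟨-, ⟨hi, h2⟩ | ⟨hi, -, h2⟩⟩)
    · exact absurd h.1 hrp
    · exact absurd h.1 hrp
    · exact ⟨by rw [hi]; omega, fun _ => h2⟩
    · exact ⟨h2, fun h => by omega⟩

end Cfsg.Agent.S5950
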