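import Cfsg.Statements.S5951
import Cfsg.Agent.Known.ElusSL
import Cfsg.Agent.Class.HermParab

set_option autoImplicit false
open scoped MatrixGroups
open Cfsg

namespace Cfsg.Agent.S5951

open Cfsg.Lib.Known Cfsg.Lib.Class Cfsg.Lib.Class.Orth QuadraticMap Module

theorem flag_iff {i k j m m' : ℕ} :
    (∃ ν' ≤ Multiset.replicate k 1 + Multiset.replicate j i, ∃ ν ≤ ν', ν.sum = m ∧ ν'.sum = m') ↔
      ∃ k₂ ≤ k, ∃ j₂ ≤ j, ∃ k₁ ≤ k₂, ∃ j₁ ≤ j₂, k₁ + i * j₁ = m ∧ k₂ + i * j₂ = m' := by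
  constructor
  · rintro ⟨ν', h', ν, h, rfl, rfl⟩
    obtain ⟨k₂, hk₂, j₂, hj₂, rfl⟩ := le_replicate_add_replicate.mp h'
    obtain ⟨k₁, hk₁, j₁, hj₁, rfl⟩ := le_replicate_add_replicate.mp h
    exact ⟨k₂, hk₂, j₂, hj₂, k₁, hk₁, j₁, hj₁, by simp [mul_comm], by simp [mul_comm]⟩
  · rintro ⟨k₂, hk₂, j₂, hj₂, k₁, hk₁, j₁, hj₁, rfl, rfl⟩
    exact ⟨_, le_replicate_add_replicate.mpr ⟨k₂, hk₂, j₂, hj₂, rfl⟩, _,
      le_replicate_add_replicate.mpr ⟨k₁, hk₁, j₁, hj₁, rfl⟩, by simp [mul_comm],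
      by simp [mul_comm]⟩

theorem arith {i n m : ℕ} (hi : 0 < i) (hm : 2 * m ≤ n) :
    (∀ k j, k + i * j = n → ∃ k₂ ≤ k, ∃ j₂ ≤ j, ∃ k₁ ≤ k₂, ∃ j₁ ≤ j₂,
      k₁ + i * j₁ = m ∧ k₂ + i * j₂ = n - m) ↔ 2 * (m % i) ≤ n % i := by
  constructor
  · intro h
    have h0 := Nat.mod_add_div n i
    obtain ⟨k₂, hk₂, j₂, hj₂, k₁, hk₁, j₁, hj₁, h1, h2⟩ := h (n % i) (n / i) h0
    obtain ⟨j₃, h3⟩ := Nat.exists_eq_add_of_le hj₂
    rw [h3, mul_add] at h0
    have h4 : m % i ≤ k₁ := by rw [← h1, Nat.add_mul_mod_self_left]; exact Nat.mod_le _ _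
    have h5 : m % i ≤ n % i - k₂ := by
      rw [show m = n % i - k₂ + i * j₃ by omega, Nat.add_mul_mod_self_left]
      exact Nat.mod_le _ _
    omega
  · rintro h k j rfl
    rw [Nat.add_mul_mod_self_left] at h
    have h0 := Nat.mod_le k i
    have h1 := Nat.mod_add_div m i
    by_cases hj : 2 * (m / i) ≤ j
    · obtain ⟨j', rfl⟩ := Nat.exists_eq_add_of_le hj
      refine ⟨k - m % i, by omega, m / i + j', by omega, m % i, by omega, m / i, by omega, h1, ?_⟩
      simp only [mul_add, two_mul] at *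
      omega
    · obtain ⟨a, b, ha, hb, rfl⟩ : ∃ a b, a ≤ m / i ∧ b ≤ m / i ∧ j = a + b :=
        ⟨min j (m / i), j - min j (m / i), by omega, by omega, by omega⟩
      have h2 := Nat.mul_le_mul_left i ha
      have h3 := Nat.mul_le_mul_left i hb
      rw [mul_add] at *
      exact ⟨k - (m - i * b), by omega, a, by omega, m - i * a, by omega, a, le_rfl, by omega,
        by omega⟩


/-- Elements of prime order of PSL_n(q) fixing no pair of subspaces `U < W` with `dim U = m`, `dim W = n − m`. Here `T = PSL_n(F)` for a field `F` with `q = p^f` elements (`n ≥ 2`, `(n, q) ≠ (2, 2), (2, 3)`); an element of `T` of prime order `r` is represented by a matrix `x` of determinant 1 with `x^r` scalar and `x` not scalar; `i` denotes the multiplicative order of `q` modulo `r` (when `r ≠ p`), and `(a)_r` the `r`-part of `a`. Let `1 ≤ m < n/2` and let `r` be a prime dividing the number of such pairs. Then every element of `T` of order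 `r` fixes such a pair (both `U` and `W`) if and only if `r ≠ p` and either (i) `i = 1` and (`r ∣ m`, or `(q−1)_r ≥ (n)_r` with `q ≡ 1 (mod 4)` required when `r = 2` and `n` is even), or (ii) `2 ≤ i ≤ m` and `n mod i ≥ 2 (m mod i)`. -/
theorem result {F : Type*} [Field F] [Fintype F] {p : ℕ} [Fact p.Prime] [CharP F p] {q : ℕ} (hq : Fintype.card F = q)
    (n m : ℕ) (hn : 2 ≤ n) (hT : (n, q) ≠ (2, 2) ∧ (n, q) ≠ (2, 3)) (hm : 1 ≤ m) (hmn : 2 * m < n)
    (r : ℕ) [Fact r.Prime]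
    (hrΩ : r ∣ Nat.card {P : Submodule F (Fin n → F) × Submodule F (Fin n → F) //
        P.1 ≤ P.2 ∧ Module.finrank F ↥P.1 = m ∧ Module.finrank F ↥P.2 = n - m}) :
    (∀ x : Matrix.SpecialLinearGroup (Fin n) F,
      (∃ c : F, ((x ^ r : Matrix.SpecialLinearGroup (Fin n) F) : Matrix (Fin n) (Fin n) F) = c • (1 : Matrix (Fin n) (Fin n) F)) →
      (∀ c : F, (x : Matrix (Fin n) (Fin n) F) ≠ c • (1 : Matrix (Fin n) (Fin n) F)) →
      ∃ U W : Submodule F (Fin n → F), U ≤ W ∧ Module.finrank F ↥U = m ∧ Module.finrank F ↥W = n - m ∧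
        U.map (Matrix.toLin' (x : Matrix (Fin n) (Fin n) F)) ≤ U ∧ W.map (Matrix.toLin' (x : Matrix (Fin n) (Fin n) F)) ≤ W) ↔
    (r ≠ p ∧
      ((orderOf (q : ZMod r) = 1 ∧ (r ∣ m ∨ (padicValNat r n ≤ padicValNat r (q - 1) ∧ (r = 2 → Even n → q % 4 = 1)))) ∨
       (2 ≤ orderOf (q : ZMod r) ∧ orderOf (q : ZMod r) ≤ m ∧ 2 * (m % orderOf (q : ZMod r)) ≤ n % orderOf (q : ZMod r)))) := by
  subst hq
  have hn' : finrank F (Fin n → F) = n := by simp
  have key : r = p ∨ (m < orderOf (Fintype.card F : ZMod r) ∧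
      2 * m ≤ n % orderOf (Fintype.card F : ZMod r)) → False := by
    intro h
    refine not_dvd_card_submodule_pair ⊤
      (fun P : Submodule F (Fin n → F) × Submodule F (Fin n → F) =>
        P.1 ≤ P.2 ∧ finrank F P.1 = m ∧ finrank F P.2 = n - m)
      (fun g _ U W h => ⟨Submodule.map_mono h.1, by rw [LinearEquiv.finrank_map_eq, h.2.1],
        by rw [LinearEquiv.finrank_map_eq, h.2.2]⟩) (fun U W U' W' h h' => ?_)
      (fun P _ hP => ?_) hrΩ
    · obtain ⟨g, hg⟩ := exists_map_eq_of_le h.1 h'.1 (h.2.1.trans h'.2.1.symm)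
        (h.2.2.trans h'.2.2.symm)
      exact ⟨g, trivial, hg⟩
    by_cases hrp : r = p
    · subst hrp
      obtain ⟨U, -, h1, h2⟩ := exists_inv_pGroup r hP (U := ⊥) (by simp) m (by simp; omega)
      rw [finrank_bot, zero_add] at h1
      obtain ⟨W, h3, h4, h5⟩ := exists_inv_pGroup r hP h2 (n - 2 * m) (by omega)
      exact ⟨U, W, ⟨h3, h1, by simp only; omega⟩, h2, h5⟩
    obtain ⟨A, C, hAC⟩ := exists_fixDec p hrp hP
    have h1 := hAC.mod_le (hAC.orderOf_dvd hP)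
    have h1' := hAC.finrank_add
    have h1'' := (h.resolve_left hrp).2
    rw [hn'] at h1 h1'
    obtain ⟨A', hA', h2⟩ := Form.exists_le_finrank_eq A (k := finrank F A - m) (by omega)
    obtain ⟨U, hU, h3⟩ := Form.exists_le_finrank_eq A' (k := m) (by omega)
    have h4 := Submodule.finrank_sup_add_finrank_inf_eq A' C
    rw [(hAC.isCompl.disjoint.mono_left hA').eq_bot, finrank_bot] at h4
    exact ⟨U, A' ⊔ C, ⟨le_sup_of_le_left hU, h3, by simp only; omega⟩,
      hAC.inv_of_le_left (hU.trans hA'), hAC.inv_of_right_le le_sup_right⟩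
  have hrp : r ≠ p := fun h => key (Or.inl h)
  have hr : 0 < r := (Fact.out : r.Prime).pos
  rw [forall_SL_iff r fun g => ∃ U W : Submodule F (Fin n → F), U ≤ W ∧ finrank F U = m ∧
    finrank F W = n - m ∧ U.map g ≤ U ∧ W.map g ≤ W]
  rw [forall_congr' fun g => forall_congr' fun hd => forall_congr' fun h1 => forall_congr' fun _ =>
    exists_flag_iff_blk (by
      obtain ⟨c, hc⟩ := h1
      exact isSemisimple_of_pow_eq_smul (natCast_prime_ne_zero p hrp)
        (smul_ne_zero_of_det (by rw [hd]; exact one_ne_zero) hc (by omega)) hc) m (n - m),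
    forall_blk_iff p hrp (by omega)
      (fun μ => ∃ ν' ≤ μ, ∃ ν ≤ ν', ν.sum = m ∧ ν'.sum = n - m)
      (flag_iff.mpr ⟨n - m, by omega, 0, le_rfl, m, by omega, 0, le_rfl, rfl, rfl⟩), hn']
  have h0 := orderOf_card_pos (K := F) p hrp
  simp only [flag_iff]
  rw [arith h0 hmn.le]
  have h1 : 2 * (m % orderOf (Fintype.card F : ZMod r)) ≤ n % orderOf (Fintype.card F : ZMod r) →
      orderOf (Fintype.card F : ZMod r) ≤ m := fun h => by
    by_contra h2
    exact key (Or.inr ⟨by omega, by rwa [Nat.mod_eq_of_lt (by omega)] at h⟩)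
  constructor
  · rintro ⟨h2, h3⟩
    refine ⟨hrp, ?_⟩
    by_cases hi : orderOf (Fintype.card F : ZMod r) = 1
    · refine Or.inl ⟨hi, or_iff_not_imp_right.mpr fun h => ?_⟩
      obtain ⟨j, -, k₂, hk₂, j₂, -, k₁, hk₁, j₁, -, h4, -⟩ := h3 hi h
      exact ⟨j₁, by omega⟩
    · exact Or.inr ⟨by omega, h1 h2, h2⟩
  · rintro ⟨-, ⟨hi, h2⟩ | ⟨hi, -, h2⟩⟩
    · refine ⟨by rw [hi]; omega, fun _ hs => ?_⟩
      obtain ⟨c, j, h3, -⟩ := exists_not_pow_of_not_splitCond hi (by omega) hs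
      obtain ⟨a, rfl⟩ := h2.resolve_right hs
      have h4 : 2 * a ≤ j := Nat.le_of_mul_le_mul_left (by rw [← h3, mul_left_comm]; omega) hr
      obtain ⟨b, rfl⟩ := Nat.exists_eq_add_of_le h4
      refine ⟨_, h3.symm, 0, le_rfl, a + b, by omega, 0, le_rfl, a, by omega, by simp, ?_⟩
      simp only [mul_add, two_mul] at *
      omega
    · exact ⟨h2, fun h => by omega⟩

end Cfsg.Agent.S5951
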