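import Cfsg.Statements.S5952
import Mathlib.LinearAlgebra.Dimension.DivisionRing

set_option autoImplicit false
open Cfsg

namespace Cfsg.Agent.S5952

open Module

/-- Which dimensions of invariant subspaces a semisimple linear map has. Let `V` be a finite-dimensional vector space over a field `F` and `f` an invertible semisimple linear map of `V`. Suppose `V` is the internal direct sum of the fixed space `C_V(f)` (the eigenspace for 1) and subspaces `U_1, …, U_s`, each `f`-invariant of dimension `a ≥ 1` on which `f` acts irreducibly (no `f`-invariant subspaces other than 0 and `U_j`). Let `0 < m < dim V` and `ℓ = m mod a`. Then `f` leaves some `m`-dimensional subspace invariant if and only if `dim C_V(f) ≥ m`, or `a ≤ m` and `dim C_V(f) ≥ ℓ`. -/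
theorem result {F V : Type*} [Field F] [AddCommGroup V] [Module F V]
    [FiniteDimensional F V] (f : V →ₗ[F] V) (hf : Function.Bijective f) (hss : Module.End.IsSemisimple f)
    {s a : ℕ} (ha : 1 ≤ a) (U : Fin s → Submodule F V)
    (hUinv : ∀ j, (U j).map f ≤ U j) (hUdim : ∀ j, Module.finrank F ↥(U j) = a)
    (hUirr : ∀ j, ∀ W : Submodule F V, W ≤ U j → W.map f ≤ W → W = ⊥ ∨ W = U j)
    (hdec : DirectSum.IsInternal (fun o : Option (Fin s) => o.elim (Module.End.eigenspace f 1) U))
    (m : ℕ) (hm : 0 < m) (hmV : m < Module.finrank F V) :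
    (∃ W : Submodule F V, Module.finrank F ↥W = m ∧ W.map f ≤ W) ↔
    (m ≤ Module.finrank F ↥(Module.End.eigenspace f 1) ∨
      (a ≤ m ∧ m % a ≤ Module.finrank F ↥(Module.End.eigenspace f 1))) := by
  classical
  set C := Module.End.eigenspace f 1 with hC
  have hind := hdec.submodule_iSupIndep
  let X : Finset (Fin s) → Submodule F V := fun T => ⨆ j ∈ T, U j
  have hX : ∀ (T : Finset (Fin s)) (j), X (insert j T) = U j ⊔ X T := fun T j => by
    simp only [X, Finset.iSup_insert]
  have hX0 : X ∅ = ⊥ := by simp [X]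
  have hXinv : ∀ T, (X T).map f ≤ X T := fun T => by
    simp only [X, Submodule.map_iSup]
    exact iSup₂_mono fun j _ => hUinv j
  have hCinv : ∀ C' ≤ C, C'.map f ≤ C' := by
    rintro C' h _ ⟨x, hx, rfl⟩
    rw [Module.End.mem_eigenspace_iff.1 (h hx), one_smul]; exact hx
  have htop : C ⊔ X Finset.univ = ⊤ := by
    rw [← hdec.submodule_iSup_eq_top, iSup_option]; simp [X]
  have hdim : ∀ C' ≤ C, ∀ T : Finset (Fin s), finrank F ↥(C' ⊔ X T) = finrank F C' + T.card * a := by
    intro C' h T
    induction T using Finset.induction_on with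
    | empty => rw [hX0, sup_bot_eq]; simp
    | insert j T hj ih =>
      have h1 : Disjoint (U j) (C' ⊔ X T) := (hind (some j)).mono_right (sup_le
        (le_iSup₂_of_le none (by simp) h)
        (iSup₂_le fun i hi => le_iSup₂_of_le (some i) (by simp; rintro rfl; exact hj hi) le_rfl))
      have h2 := Submodule.finrank_sup_add_finrank_inf_eq (U j) (C' ⊔ X T)
      rw [h1.eq_bot, finrank_bot, hUdim, ih] at h2
      rw [hX, sup_left_comm, Finset.card_insert_of_notMem hj]
      linarith
  have hV := hdim C le_rfl Finset.univ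
  rw [htop, finrank_top, Finset.card_univ, Fintype.card_fin] at hV
  constructor
  · rintro ⟨W, hW, hWf⟩
    have h1 : ∀ T : Finset (Fin s), finrank F ↥(W ⊔ C ⊔ X T) ≡ finrank F ↥(W ⊔ C) [MOD a] := by
      intro T
      induction T using Finset.induction_on with
      | empty => rw [hX0, sup_bot_eq]
      | insert j T hj ih =>
        have h2 := Submodule.finrank_sup_add_finrank_inf_eq (U j) (W ⊔ C ⊔ X T)
        rw [hX, sup_left_comm]
        rcases hUirr j (U j ⊓ (W ⊔ C ⊔ X T)) inf_le_left ((Submodule.map_inf_le _).trans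
          (inf_le_inf (hUinv j) (by
            simp only [Submodule.map_sup]
            exact sup_le_sup (sup_le_sup hWf (hCinv C le_rfl)) (hXinv T)))) with h | h <;>
          rw [h] at h2
        · rw [finrank_bot, add_zero, hUdim] at h2
          rw [h2]
          simpa [Nat.ModEq] using ih
        · rwa [show finrank F ↥(U j ⊔ (W ⊔ C ⊔ X T)) = finrank F ↥(W ⊔ C ⊔ X T) by omega]
    have h2 := h1 Finset.univ
    rw [sup_assoc, htop, sup_top_eq, finrank_top, hV] at h2
    have h3 := Submodule.finrank_sup_add_finrank_inf_eq W C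
    have h4 : finrank F ↥(W ⊓ C) ≤ finrank F C := Submodule.finrank_mono inf_le_right
    have h5 : finrank F ↥(W ⊓ C) ≡ m [MOD a] := by
      apply Nat.ModEq.add_right_cancel' (finrank F C)
      rw [← hW, ← h3, add_comm]
      refine Nat.ModEq.add_right _ (Nat.ModEq.trans ?_ h2)
      simp [Nat.ModEq]
    have h6 : m % a ≤ finrank F C := h5 ▸ (Nat.mod_le _ _).trans h4
    by_cases h : a ≤ m
    · exact .inr ⟨h, h6⟩
    · exact .inl (Nat.mod_eq_of_lt (not_le.1 h) ▸ h6)
  · intro h
    obtain ⟨c, k, hc, hk, rfl⟩ : ∃ c k, c ≤ finrank F C ∧ k ≤ s ∧ m = c + k * a := by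
      rcases h with h | ⟨-, h⟩
      · exact ⟨m, 0, h, by omega, by simp⟩
      · by_cases h1 : m / a ≤ s
        · exact ⟨m % a, m / a, h, h1, (Nat.mod_add_div' m a).symm⟩
        · have : s * a ≤ m := (Nat.mul_le_mul_right a (not_le.1 h1).le).trans (Nat.div_mul_le_self m a)
          exact ⟨m - s * a, s, by omega, le_rfl, by omega⟩
    obtain ⟨T, -, hT⟩ := Finset.exists_subset_card_eq (s := (Finset.univ : Finset (Fin s))) (n := k)
      (by simpa using hk)
    obtain ⟨b, hb⟩ := exists_linearIndependent_of_le_finrank hc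
    have hb' := hb.map' _ C.ker_subtype
    have h1 : Submodule.span F (Set.range (C.subtype ∘ b)) ≤ C :=
      Submodule.span_le.2 (by rintro _ ⟨i, rfl⟩; exact (b i).2)
    refine ⟨Submodule.span F (Set.range (C.subtype ∘ b)) ⊔ X T, ?_, ?_⟩
    · rw [hdim _ h1, hT, finrank_span_eq_card hb', Fintype.card_fin]
    · rw [Submodule.map_sup]; exact sup_le_sup (hCinv _ h1) (hXinv T)

end Cfsg.Agent.S5952
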