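import Cfsg.Statements.S5953
import Cfsg.Agent.Known.ElusSU

set_option autoImplicit false
open scoped MatrixGroups
open Cfsg

namespace Cfsg.Agent.S5953

open Cfsg.Lib.Known Cfsg.Lib.Class Cfsg.Lib.Class.Orth QuadraticMap Module

/-- Elements of prime order of PSU_n(q) with no fixed totally isotropic `m`-space. Here `T = PSU_n(q)` (`n ≥ 3`, `(n, q) ≠ (3, 2)`), realised through the matrices of determinant 1 over the field `F` with `q²` elements preserving the Hermitian form `h(u, v) = Σ u_i v_i^q`; an element of `T` of prime order `r` is such a matrix `x` with `x^r` scalar and `x` not scalar. For `r ≠ p` let `i` be the multiplicative order of `q` modulo `r`, `b = i/2` for `i` even and `b = i` for `i` odd, `c = i, i/2, 2i` according as `i ≡ 0, 2 (mod 4)` or `i` odd, and write `k = n mod c`, `ℓ = m mod b`, `ℓ' = m mod c`, `n' = ⌊n/b⌋`, `m' = ⌊m/b⌋`, `s = (r−1)/b`; `(a)_r` is the `r`-part of `a`. Let `1 ≤ m ≤ n/2` and let `r` be a prime dividing the number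 of totally isotropic `m`-spaces. Then every element of `T` of order `r` fixes a totally isotropic `m`-space if and only if either (i) `r = 2`, `p ≠ 2`, and (`m < n/2` or `(q+1)_2 ≤ (n)_2`); or (ii) `r ≠ p`, `r > 2`, `b ≤ m`, `k ≥ 2ℓ`, and either `i ≢ 2 (mod 4)`, or `i ≡ 2 (mod 4)`, `n' − 2m' ≥ s` and (`i > 2`, or `i = 2` and (`r ∣ m` or `(q+1)_r ≥ (n)_r`)). -/
theorem result {F : Type*} [Field F] [Fintype F] {p : ℕ} [Fact p.Prime] [CharP F p] {q : ℕ} (hq : Fintype.card F = q ^ 2)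
    (n m : ℕ) (hn : 3 ≤ n) (hT : (n, q) ≠ (3, 2)) (hm : 1 ≤ m) (hmn : 2 * m ≤ n)
    (r : ℕ) [Fact r.Prime]
    (hrΩ : r ∣ Nat.card {W : Submodule F (Fin n → F) // Module.finrank F ↥W = m ∧ (∀ u ∈ W, ∀ v ∈ W, Cfsg.hermForm n F q u v = 0)})
    (i b c : ℕ) (hi : i = orderOf (q : ZMod r)) (hb : b = if Even i then i / 2 else i)
    (hc : c = if i % 4 = 0 then i else if i % 4 = 2 then i / 2 else 2 * i) :
    (∀ x : Matrix.SpecialLinearGroup (Fin n) F, x ∈ Cfsg.SU n F q →
      (∃ z : F, ((x ^ r : Matrix.SpecialLinearGroup (Fin n) F) : Matrix (Fin n) (Fin n) F) = z • (1 : Matrix (Fin n) (Fin n) F)) →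
      (∀ z : F, (x : Matrix (Fin n) (Fin n) F) ≠ z • (1 : Matrix (Fin n) (Fin n) F)) →
      ∃ W : Submodule F (Fin n → F), Module.finrank F ↥W = m ∧ (∀ u ∈ W, ∀ v ∈ W, Cfsg.hermForm n F q u v = 0) ∧
        W.map (Matrix.toLin' (x : Matrix (Fin n) (Fin n) F)) ≤ W) ↔
    ((r = 2 ∧ p ≠ 2 ∧ (2 * m < n ∨ padicValNat 2 (q + 1) ≤ padicValNat 2 n)) ∨
     (r ≠ p ∧ 2 < r ∧ b ≤ m ∧ 2 * (m % b) ≤ n % c ∧
       (i % 4 ≠ 2 ∨ (i % 4 = 2 ∧ (r - 1) / b + 2 * (m / b) ≤ n / b ∧
         (2 < i ∨ (i = 2 ∧ (r ∣ m ∨ padicValNat r n ≤ padicValNat r (q + 1)))))))) := by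
  have h := ha_of_herm (Form.herm_hermSesq hq n)
  have hn' : finrank F (Fin n → F) = n := by simp
  have : Nontrivial (Fin n → F) := Module.nontrivial_of_finrank_pos (R := F) (by omega)
  have e : ∀ W : Submodule F (Fin n → F), (∀ u ∈ W, ∀ v ∈ W, hermForm n F q u v = 0) ↔
      Form.TotIso (hermSesq hq n) W :=
    fun W => ⟨fun h u hu v hv => h v hv u hu, fun h u hu v hv => h v hv u hu⟩
  simp only [e] at hrΩ ⊢
  refine (forall_SU_iff hq r fun g => ∃ W : Submodule F (Fin n → F), finrank F W = m ∧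
    Form.TotIso (hermSesq hq n) W ∧ W.map g ≤ W).trans ?_
  have hrp : r ≠ p := by
    rintro rfl
    exact h.not_dvd_ts_char r (fun _ => ⟨q, hq⟩) (by omega) hrΩ
  have hr := (Fact.out : r.Prime).two_le
  by_cases hr2 : r = 2
  · subst hr2
    have h2 := two_ne_zero_of_ne (F := F) p hrp.symm
    rw [h.forall_su_iff p hrp (odd_of_card_sq hq h2).add_one.two_dvd _
      (fun z g hz h => by simpa only [map_smul_eq hz] using h) (Ψ := True)
      fun g j hg hj hN => iff_true_intro ((h.ts_iff (hN.1 rfl).1 m).mpr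
        ⟨0, m, by simp, by omega, by simp⟩)]
    simp only [hrp.symm, Ne, not_false_iff, true_and, lt_irrefl, false_and, and_false, or_false,
      or_true, and_true, hn']
    constructor
    · intro H
      by_contra h3
      push Not at h3
      obtain ⟨a, h4, h5⟩ := (exists_norm_pow_eq_neg_iff hq h2 (by omega)).mpr h3.2
      obtain ⟨g, A, C, hg, h6, hA, h7, h8⟩ := h.exists_invol (frobq_ne_id hq) h2 (k := 1)
        (j := n - 1) (by omega)
      obtain ⟨a, c, h9⟩ := (h.ts_iff_of_sq hA h6 m).mp (H g hg ⟨a, h4, by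
        rw [h5, hA.det_of_sq h6, h8, Odd.neg_one_pow ⟨m - 1, by omega⟩]; simp⟩ h6
        (hA.ne_smul (ne_bot_of_finrank h7 one_pos) (ne_bot_of_finrank h8 (by omega))))
      omega
    · rintro H g hg ⟨a, h3, h4⟩ h5 -
      obtain ⟨A, C, hA⟩ := exists_fixSp_of_sq h.toHForm h2 hg h5
      have h6 := hA.finrank_add
      have h7 : 2 * m < n ∨ finrank F C % 2 = 0 := H.imp_right fun H => by
        by_contra h7
        rw [hA.det_of_sq h5, Odd.neg_one_pow (n := finrank F C) (Nat.odd_iff.mpr (by omega)),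
          mul_neg_one, neg_eq_iff_eq_neg] at h4
        exact H.not_gt ((exists_norm_pow_eq_neg_iff hq h2 (by omega)).mp ⟨a, h3, h4⟩)
      exact (h.ts_iff_of_sq hA h5 m).mpr ⟨min m (finrank F A / 2), m - min m (finrank F A / 2),
        by omega, by omega, by omega⟩
  have hD := cycD_frob p hq hrp hr2 hi hb hc
  by_cases hi2 : r ∣ q + 1
  · obtain rfl : i = 2 := hi.trans ((orderOf_eq_two_iff_dvd hr2).mpr hi2)
    obtain rfl : b = 1 := hb
    obtain rfl : c = 1 := hc
    rw [h.forall_su_iff p hrp hi2 _ (fun z g hz h => by simpa only [map_smul_eq hz] using h)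
      (Ψ := r ∣ m) fun g j hg hj hN => (h.ts_iff (hN.2 hr2) m).trans
        ⟨fun ⟨k', j', h1, _, h2⟩ => ⟨j', by rw [finrank_bot] at h1; omega⟩, fun ⟨j', h1⟩ =>
          ⟨0, j', by simp, (Nat.le_div_iff_mul_le two_pos).mpr
            (Nat.le_of_mul_le_mul_left (by nlinarith) (show 0 < r by omega)), by omega⟩⟩]
    simp only [hr2, hrp, Ne, not_false_iff, true_and, false_and, false_or, hn', USplit,
      show 2 < r by omega, hm, Nat.mod_one, Nat.div_one, lt_irrefl, false_imp_iff, and_true, le_refl,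
      not_true, or_comm (a := r ∣ m)]
    refine and_congr_left fun _ => ⟨fun H => ?_, fun H g hg _ h1 h2 => (h.forall_ts_iff p hD hrp
      (by omega) (by omega)).mpr ⟨hm, by omega, fun _ => by simpa using H⟩ g hg h1
        fun h => h2 1 (by rw [h, one_smul])⟩
    by_contra h1
    obtain ⟨k, hk⟩ := (Fact.out : r.Prime).odd_of_ne_two hr2
    obtain ⟨g, A, C, hg, h2, h3, h4, hA, h5⟩ := h.exists_pairs p hrp hr2 hi2
      (s := n / 2 - m + 1) (k := n - 2 * (n / 2 - m + 1)) (by omega) (by omega) (by omega)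
    obtain ⟨k', j', h6⟩ := (h.ts_iff hA m).mp (H g hg ⟨1, by simp, by simp [h2]⟩ h3 h4)
    omega
  have hi3 : i ≠ 2 := fun h => hi2 ((orderOf_eq_two_iff_dvd hr2).mp (hi ▸ h))
  rw [h.forall_su_iff_of_not_dvd hi2 _ fun z g hz h => by simpa only [map_smul_eq hz] using h,
    h.forall_ts_iff p hD hrp (by omega) fun h1 =>
      h.not_dvd_ts p hrp (h.fixDec_dvd_frob p hrp hr2 hi hc) h1 hrΩ, hn']
  simp only [hr2, hrp, hi3, Ne, not_false_iff, true_and, false_and, false_or, or_false,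
    show 2 < r by omega]
  refine and_congr_right fun _ => and_congr_right fun _ => ?_
  by_cases h1 : i % 4 = 2
  · simp [h1, show 2 < i by omega]
  · simp [h1]

end Cfsg.Agent.S5953
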