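import Cfsg.Statements.S5954
import Cfsg.Agent.Known.ElusSU

set_option autoImplicit false
open scoped MatrixGroups
open Cfsg

namespace Cfsg.Agent.S5954

open Cfsg.Lib.Known Cfsg.Lib.Class Cfsg.Lib.Class.Orth QuadraticMap Module

/-- Elements of prime order of PSU_n(q) with no fixed nondegenerate `m`-space. Here `T = PSU_n(q)` (`n ≥ 3`, `(n, q) ≠ (3, 2)`), realised through the matrices of determinant 1 over the field `F` with `q²` elements preserving the Hermitian form `h(u, v) = Σ u_i v_i^q`; an element of `T` of prime order `r` is such a matrix `x` with `x^r` scalar and `x` not scalar. For `r ≠ p` let `i` be the multiplicative order of `q` modulo `r`, `b = i/2` for `i` even and `b = i` for `i` odd, `c = i, i/2, 2i` according as `i ≡ 0, 2 (mod 4)` or `i` odd, and write `k = n mod c`, `ℓ = m mod b`, `ℓ' = m mod c`, `n' = ⌊n/b⌋`, `m' = ⌊m/b⌋`, `s = (r−1)/b`; `(a)_r` is the `r`-part of `a`. Let `1 ≤ m < n/2` and let `r` be a prime dividing the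 number of nondegenerate `m`-spaces. Then every element of `T` of order `r` fixes a nondegenerate `m`-space if and only if one of: (i) `r = p > 2` and every partition of `n` into parts of size at most `p` contains (as a sub-multiset) a partition of `m`; (ii) `r = p = 2` and (`n` is odd or `m` is even); (iii) `r = 2 ≠ p` and (`n` is odd, or `m` is even, or `(q+1)_2 ≥ (n)_2` and `q ≡ 3 (mod 4)`); (iv) `r ≠ p`, `r > 2`, and either `i ≠ 2`, `c ≤ m` and `k ≥ ℓ'`, or `i = 2` and (`r ∣ m` or `(q+1)_r ≥ (n)_r`). -/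
theorem result {F : Type*} [Field F] [Fintype F] {p : ℕ} [Fact p.Prime] [CharP F p] {q : ℕ} (hq : Fintype.card F = q ^ 2)
    (n m : ℕ) (hn : 3 ≤ n) (hT : (n, q) ≠ (3, 2)) (hm : 1 ≤ m) (hmn : 2 * m < n)
    (r : ℕ) [Fact r.Prime]
    (hrΩ : r ∣ Nat.card {W : Submodule F (Fin n → F) // Module.finrank F ↥W = m ∧ (∀ u ∈ W, u ≠ 0 → ∃ v ∈ W, Cfsg.hermForm n F q u v ≠ 0)})
    (i b c : ℕ) (hi : i = orderOf (q : ZMod r)) (hb : b = if Even i then i / 2 else i)
    (hc : c = if i % 4 = 0 then i else if i % 4 = 2 then i / 2 else 2 * i) :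
    (∀ x : Matrix.SpecialLinearGroup (Fin n) F, x ∈ Cfsg.SU n F q →
      (∃ z : F, ((x ^ r : Matrix.SpecialLinearGroup (Fin n) F) : Matrix (Fin n) (Fin n) F) = z • (1 : Matrix (Fin n) (Fin n) F)) →
      (∀ z : F, (x : Matrix (Fin n) (Fin n) F) ≠ z • (1 : Matrix (Fin n) (Fin n) F)) →
      ∃ W : Submodule F (Fin n → F), Module.finrank F ↥W = m ∧ (∀ u ∈ W, u ≠ 0 → ∃ v ∈ W, Cfsg.hermForm n F q u v ≠ 0) ∧
        W.map (Matrix.toLin' (x : Matrix (Fin n) (Fin n) F)) ≤ W) ↔
    ((r = p ∧ 2 < p ∧ (∀ μ : Multiset ℕ, (∀ a ∈ μ, 0 < a ∧ a ≤ p) → μ.sum = n → ∃ ν : Multiset ℕ, ν ≤ μ ∧ ν.sum = m)) ∨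
     (r = p ∧ p = 2 ∧ (Odd n ∨ Even m)) ∨
     (r = 2 ∧ p ≠ 2 ∧ (Odd n ∨ Even m ∨ (padicValNat 2 n ≤ padicValNat 2 (q + 1) ∧ q % 4 = 3))) ∨
     (r ≠ p ∧ 2 < r ∧ ((i ≠ 2 ∧ c ≤ m ∧ m % c ≤ n % c) ∨ (i = 2 ∧ (r ∣ m ∨ padicValNat r n ≤ padicValNat r (q + 1)))))) := by
  have h := ha_of_herm (Form.herm_hermSesq hq n)
  have hn' : finrank F (Fin n → F) = n := by simp
  have : Nontrivial (Fin n → F) := Module.nontrivial_of_finrank_pos (R := F) (by omega)
  have e : ∀ W : Submodule F (Fin n → F), (∀ u ∈ W, u ≠ 0 → ∃ v ∈ W, hermForm n F q u v ≠ 0) ↔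
      Form.NondegOn (hermSesq hq n) W := fun W => by
    simp only [nondegOn_iff_ne, ← hermSesq_apply hq, Ne, h.eq_zero_comm (u := _)]
  simp only [e] at hrΩ ⊢
  refine (forall_SU_iff hq r fun g => ∃ W : Submodule F (Fin n → F), finrank F W = m ∧
    Form.NondegOn (hermSesq hq n) W ∧ W.map g ≤ W).trans ?_
  have hr := (Fact.out : r.Prime).two_le
  have hσ := frobq_ne_id hq
  by_cases hrp : r = p
  · subst hrp
    have hi2 : ¬ r ∣ q + 1 := fun h => by
      obtain ⟨f, -, hf⟩ := FiniteField.card F r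
      exact (Fact.out : r.Prime).not_dvd_one ((Nat.dvd_add_right ((Fact.out : r.Prime).dvd_of_dvd_pow
        (hq ▸ hf ▸ dvd_pow_self r f.ne_zero : r ∣ q ^ 2))).mp h)
    rw [h.forall_su_iff_of_not_dvd hi2 _ fun z g hz h => by simpa only [map_smul_eq hz] using h]
    trans ∀ μ : Multiset ℕ, (∀ a ∈ μ, 0 < a ∧ a ≤ r) → μ.sum = n → ∃ ν ≤ μ, ν.sum = m
    swap
    · by_cases hr2 : r = 2
      · subst hr2
        simp [forall_parts_two_iff (show m ≤ n by omega)]
      · simp [hr2, show 2 < r by omega]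
    constructor
    · intro H μ h1 h3
      by_cases h4 : ∀ a ∈ μ, a = 1
      · refine ⟨Multiset.replicate m 1, ?_, by simp⟩
        rw [Multiset.eq_replicate_card.mpr h4] at h3 ⊢
        rw [Multiset.replicate_le_replicate]
        simp at h3
        omega
      obtain ⟨g, hg, h5⟩ := h.exists_unip (fun e he => (h1 e he).1) (h3.trans hn'.symm)
        fun h => absurd h hσ
      obtain ⟨W, h9, h10, h11⟩ := H g hg (pow_char_of_elDiv_unip r (fun e he => (h1 e he).2) h5)
        (by simpa using ne_smul_of_elDiv_unip h5 h4 1)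
      obtain ⟨ν, h13, h14, -⟩ := exists_le_of_restrict_unip h.toHForm hg h5
        (map_le_iff_forall.mp h11) h10
      exact ⟨ν, h13, h14.trans h9⟩
    · intro H g hg h1 _
      obtain ⟨μ, h2, h3, h4⟩ := elDiv_of_pow_char_one r h1
      obtain ⟨ν, h5, h6⟩ := H μ h2 (h3.trans hn')
      obtain ⟨U, hU, h8, h9⟩ := Rig.exists_nondeg (Or.inl ⟨hσ, rfl⟩) h.toHForm hg
        (h4 ▸ Multiset.map_le_map h5) (map_eq_self_of_forall fun x hx => by
          obtain ⟨e, -, rfl⟩ := Multiset.mem_map.mp hx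
          exact Prod.ext dualPoly_X_sub_one rfl)
      exact ⟨U, (finrank_of_elDiv_unip h9).trans h6, h8, map_le_iff_forall.mpr hU⟩
  by_cases hr2 : r = 2
  · subst hr2
    have h2 := two_ne_zero_of_ne (F := F) p (Ne.symm hrp)
    rw [h.forall_su_iff p hrp (odd_of_card_sq hq h2).add_one.two_dvd _
      (fun z g hz h => by simpa only [map_smul_eq hz] using h) (Ψ := Even m)
      fun g j hg hj hN => (h.nd_iff (hN.1 rfl).1 m).trans
        ⟨fun ⟨k', h1, j', _, h2, _⟩ => ⟨j', by rw [finrank_bot] at h1; omega⟩, fun ⟨j', h1⟩ =>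
          ⟨0, zero_le, j', by omega, by omega, fun _ => Even.zero⟩⟩, and_iff_right]
    · simp only [hrp, Ne.symm hrp, Ne, not_false_iff, true_and, lt_irrefl, false_and, and_false,
        or_false, false_or, hn', USplit, true_imp_iff]
      rcases Nat.even_or_odd n with h3 | h3
      · simp [h3, Nat.not_odd_iff_even.mpr h3, or_comm]
      · simp [h3, Nat.not_even_iff_odd.mpr h3, padicValNat.eq_zero_of_not_dvd h3.not_two_dvd_nat]
    rintro g hg - h5 -
    obtain ⟨A, C, hA⟩ := exists_fixSp_of_sq h.toHForm h2 hg h5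
    have h6 := hA.finrank_add
    obtain ⟨U, h7, h8⟩ := h.exists_nd_of_sq hA h5 (a := min m (finrank F A))
      (c := m - min m (finrank F A)) (by omega) (by omega) fun h => absurd h hσ
    exact ⟨U, by omega, h8⟩
  have hD := cycD_frob p hq hrp hr2 hi hb hc
  by_cases hi2 : r ∣ q + 1
  · obtain rfl : i = 2 := hi.trans ((orderOf_eq_two_iff_dvd hr2).mpr hi2)
    obtain rfl : c = 1 := hc
    rw [h.forall_su_iff p hrp hi2 _ (fun z g hz h => by simpa only [map_smul_eq hz] using h)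
      (Ψ := r ∣ m) fun g j hg hj hN => (h.nd_iff (hN.2 hr2) m).trans
        ⟨fun ⟨k', h1, j', _, h2, _⟩ => ⟨j', by rw [finrank_bot] at h1; omega⟩, fun ⟨j', h1⟩ =>
          ⟨0, zero_le, j', Nat.le_of_mul_le_mul_left (by nlinarith) (show 0 < r by omega),
            by omega, fun _ => Even.zero⟩⟩, and_iff_right fun g hg _ h1 h2 =>
      (h.forall_nd_iff p hD hrp (by omega) (by omega) fun h => absurd h hσ).mpr ⟨hm, by omega⟩ g hg
        h1 fun h => h2 1 (by rw [h, one_smul])]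
    simp [hr2, hrp, USplit, show 2 < r by omega, or_comm]
  have hi3 : i ≠ 2 := fun h => hi2 ((orderOf_eq_two_iff_dvd hr2).mp (hi ▸ h))
  rw [h.forall_su_iff_of_not_dvd hi2 _ fun z g hz h => by simpa only [map_smul_eq hz] using h,
    h.forall_nd_iff p hD hrp (by omega) (fun h1 => h.not_dvd_nd p hrp
      (h.fixDec_dvd_frob p hrp hr2 hi hc) h1 (fun h => absurd h hσ) hrΩ) fun h => absurd h hσ, hn']
  simp [hr2, hrp, hi3, show 2 < r by omega]

end Cfsg.Agent.S5954
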