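import Cfsg.Statements.S5955
import Cfsg.Agent.Known.ElusAr

set_option autoImplicit false
open scoped MatrixGroups
open Cfsg

namespace Cfsg.Agent.S5955

open Cfsg.Lib.Known Cfsg.Lib.Class Cfsg.Lib.Class.Orth QuadraticMap Module

/-- Elements of prime order of PSp_n(q) with no fixed totally isotropic `m`-space. Here `T = PSp_n(q)` with `n = 2d ≥ 4`, `(n, q) ≠ (4, 2)`, realised through the symplectic matrices over the field `F` with `q` elements (preserving the standard alternating form); an element of `T` of prime order `r` is such a matrix `x` with `x^r` scalar and `x` not scalar. For `r ≠ p` let `i` be the multiplicative order of `q` modulo `r`, `c = i` for `i` even and `c = 2i` for `i` odd, and write `k = n mod c`, `ℓ = m mod i`, `ℓ' = m mod c`, `n' = ⌊n/i⌋`, `m' = ⌊m/i⌋`, `t = (r−1)/i`. Let `1 ≤ m ≤ n/2` and let `r` be a prime dividing the number of totally isotropic `m`-spaces. Then every element of `T` of order `r` fixes a totally isotropic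 `m`-space if and only if either (i) `r = 2 ≠ p` and (`m` is even or `q ≡ 1 (mod 4)`); or (ii) `r ≠ p`, `r > 2`, `i ≤ m`, `k ≥ 2ℓ`, and (`i` is odd or `n' − 2m' ≥ t`). -/
theorem result {F : Type*} [Field F] [Fintype F] {p : ℕ} [Fact p.Prime] [CharP F p] {q : ℕ} (hq : Fintype.card F = q)
    (d m : ℕ) (hd : 2 ≤ d) (hT : (d, q) ≠ (2, 2)) (hm : 1 ≤ m) (hmd : m ≤ d)
    (r : ℕ) [Fact r.Prime]
    (hrΩ : r ∣ Nat.card {W : Submodule F (Fin d ⊕ Fin d → F) // Module.finrank F ↥W = m ∧ (∀ u ∈ W, ∀ v ∈ W, Cfsg.sympForm d F u v = 0)})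
    (i c : ℕ) (hi : i = orderOf (q : ZMod r)) (hc : c = if Even i then i else 2 * i) :
    (∀ x : ↥(Matrix.symplecticGroup (Fin d) F),
      (∃ z : F, ((x ^ r : ↥(Matrix.symplecticGroup (Fin d) F)) : Matrix (Fin d ⊕ Fin d) (Fin d ⊕ Fin d) F) = z • (1 : Matrix (Fin d ⊕ Fin d) (Fin d ⊕ Fin d) F)) →
      (∀ z : F, (x : Matrix (Fin d ⊕ Fin d) (Fin d ⊕ Fin d) F) ≠ z • (1 : Matrix (Fin d ⊕ Fin d) (Fin d ⊕ Fin d) F)) →
      ∃ W : Submodule F (Fin d ⊕ Fin d → F), Module.finrank F ↥W = m ∧ (∀ u ∈ W, ∀ v ∈ W, Cfsg.sympForm d F u v = 0) ∧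
        W.map (Matrix.toLin' (x : Matrix (Fin d ⊕ Fin d) (Fin d ⊕ Fin d) F)) ≤ W) ↔
    ((r = 2 ∧ p ≠ 2 ∧ (Even m ∨ q % 4 = 1)) ∨
     (r ≠ p ∧ 2 < r ∧ i ≤ m ∧ 2 * (m % i) ≤ (2 * d) % c ∧ (Odd i ∨ (r - 1) / i + 2 * (m / i) ≤ (2 * d) / i))) := by
  subst hq
  have h := ha_symp (F := F) d
  have hn : finrank F (Fin d ⊕ Fin d → F) = 2 * d := by simp [two_mul]
  have : Nontrivial (Fin d ⊕ Fin d → F) := Module.nontrivial_of_finrank_pos (R := F) (by omega)
  simp only [← sympBilin_apply] at hrΩ ⊢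
  refine (forall_Sp_iff r fun g => ∃ W : Submodule F (Fin d ⊕ Fin d → F), finrank F W = m ∧
    Form.TotIso (σ := RingHom.id F) (sympBilin d F) W ∧ W.map g ≤ W).trans ?_
  have hrp : r ≠ p := by
    rintro rfl
    exact h.not_dvd_ts_char r (fun h => absurd rfl h) (by omega) hrΩ
  by_cases hr2 : r = 2
  · subst hr2
    have h2 := two_ne_zero_of_ne (F := F) p hrp.symm
    have h3 := isSquare_neg_one_iff_mod h2
    simp only [hrp.symm, Ne, not_false_iff, true_and, lt_irrefl, false_and, and_false, or_false]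
    constructor
    · intro H
      obtain ⟨g, hg, h4, -⟩ := h.exists_sq_neg
      obtain ⟨j, -, -, h5⟩ := ordR_of_sq_neg h.toHForm h2 (by simp) hg h4
      refine or_iff_not_imp_right.mpr fun h6 => ?_
      have h7 := mt h3.1.mp h6
      obtain ⟨k', j', h8, -, h9⟩ := (h.ts_iff (h5 h7) m).mp (H g hg ⟨_, h4⟩ fun z hz => h7 ⟨z, by
        rw [hz, smul_pow, one_pow, pow_two] at h4
        exact (smul_left_injective F one_ne_zero h4).symm⟩)
      rw [finrank_bot] at h8
      exact ⟨j', by omega⟩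
    · rintro H g hg ⟨z, hz⟩ -
      rcases h.sq_cases hg hz with h4 | h4
      · obtain ⟨A, C, hA⟩ := exists_fixSp_of_sq h.toHForm h2 hg h4
        obtain ⟨a, ha⟩ := (h.restrict (hA.nondegOn h.toHForm).1).even rfl
        have h5 := hA.finrank_add
        rw [show m = min m a + (m - a) by omega]
        exact h.exists_ts_of_sq hA h4 (by omega) (by omega)
      obtain ⟨j, h5, h6, h7⟩ := ordR_of_sq_neg h.toHForm h2 (by simp) hg h4
      by_cases h8 : IsSquare (-1 : F)
      · exact (h.ts_iff (h6 h8) m).mpr ⟨0, m, by simp, by omega, by omega⟩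
      · obtain ⟨k, hk⟩ := H.resolve_right (mt h3.1.mpr h8)
        exact (h.ts_iff (h7 h8) m).mpr ⟨0, k, by simp, by omega, by omega⟩
  have hD := cycD_id (F := F) p hrp hr2 (ε := -1) (by simp) hi hc
  have hr := (Fact.out : r.Prime).two_le
  rw [forall_isom_odd_iff h.toHForm ((Fact.out : r.Prime).odd_of_ne_two hr2) _
    fun z g hz h => by simpa only [map_smul_eq hz] using h,
    h.forall_ts_iff p hD hrp (by omega) fun h1 =>
      h.not_dvd_ts p hrp (h.fixDec_dvd_id hi hc) h1 hrΩ, hn]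
  simp [hr2, hrp, show 2 < r by omega, or_iff_not_imp_left]

end Cfsg.Agent.S5955
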