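import Cfsg.Statements.S5956
import Cfsg.Agent.Known.ElusAr
import Cfsg.Agent.Known.ElusSp

set_option autoImplicit false
open scoped MatrixGroups
open Cfsg

namespace Cfsg.Agent.S5956

open Cfsg.Lib.Known Cfsg.Lib.Class Cfsg.Lib.Class.Orth QuadraticMap Module

/-- Elements of prime order of PSp_n(q) with no fixed nondegenerate `m`-space. Here `T = PSp_n(q)` with `n = 2d ≥ 4`, `(n, q) ≠ (4, 2)`, realised through the symplectic matrices over the field `F` with `q` elements (preserving the standard alternating form); an element of `T` of prime order `r` is such a matrix `x` with `x^r` scalar and `x` not scalar. For `r ≠ p` let `i` be the multiplicative order of `q` modulo `r`, `c = i` for `i` even and `c = 2i` for `i` odd, and write `k = n mod c`, `ℓ = m mod i`, `ℓ' = m mod c`, `n' = ⌊n/i⌋`, `m' = ⌊m/i⌋`, `t = (r−1)/i`. Let `m` be even with `2 ≤ m < n/2` and let `r` be a prime dividing the number of nondegenerate `m`-spaces. Then every element of `T` of order `r` fixes a nondegenerate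 `m`-space if and only if one of: (i) `r = p > 2` and every partition of `n` into parts of size at most `p` in which every odd part has even multiplicity contains (as a sub-multiset) a partition of `m` in which every odd part has even multiplicity; (ii) `r = p = 2` and (`n ≡ 2 (mod 4)` or `m ≡ 0 (mod 4)`); (iii) `r = 2 ≠ p`; (iv) `r ≠ p`, `r > 2`, `c ≤ m` and `k ≥ ℓ'`. -/
theorem result {F : Type*} [Field F] [Fintype F] {p : ℕ} [Fact p.Prime] [CharP F p] {q : ℕ} (hq : Fintype.card F = q)
    (d m : ℕ) (hd : 2 ≤ d) (hT : (d, q) ≠ (2, 2)) (hm : 2 ≤ m) (hme : Even m) (hmd : m < d)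
    (r : ℕ) [Fact r.Prime]
    (hrΩ : r ∣ Nat.card {W : Submodule F (Fin d ⊕ Fin d → F) // Module.finrank F ↥W = m ∧ (∀ u ∈ W, u ≠ 0 → ∃ v ∈ W, Cfsg.sympForm d F u v ≠ 0)})
    (i c : ℕ) (hi : i = orderOf (q : ZMod r)) (hc : c = if Even i then i else 2 * i) :
    (∀ x : ↥(Matrix.symplecticGroup (Fin d) F),
      (∃ z : F, ((x ^ r : ↥(Matrix.symplecticGroup (Fin d) F)) : Matrix (Fin d ⊕ Fin d) (Fin d ⊕ Fin d) F) = z • (1 : Matrix (Fin d ⊕ Fin d) (Fin d ⊕ Fin d) F)) →
      (∀ z : F, (x : Matrix (Fin d ⊕ Fin d) (Fin d ⊕ Fin d) F) ≠ z • (1 : Matrix (Fin d ⊕ Fin d) (Fin d ⊕ Fin d) F)) →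
      ∃ W : Submodule F (Fin d ⊕ Fin d → F), Module.finrank F ↥W = m ∧ (∀ u ∈ W, u ≠ 0 → ∃ v ∈ W, Cfsg.sympForm d F u v ≠ 0) ∧
        W.map (Matrix.toLin' (x : Matrix (Fin d ⊕ Fin d) (Fin d ⊕ Fin d) F)) ≤ W) ↔
    ((r = p ∧ 2 < p ∧ (∀ μ : Multiset ℕ, (∀ a ∈ μ, 0 < a ∧ a ≤ p) → (∀ a : ℕ, Odd a → Even (μ.count a)) → μ.sum = 2 * d →
        ∃ ν : Multiset ℕ, ν ≤ μ ∧ ν.sum = m ∧ ∀ a : ℕ, Odd a → Even (ν.count a))) ∨
     (r = p ∧ p = 2 ∧ ((2 * d) % 4 = 2 ∨ m % 4 = 0)) ∨
     (r = 2 ∧ p ≠ 2) ∨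
     (r ≠ p ∧ 2 < r ∧ c ≤ m ∧ m % c ≤ (2 * d) % c)) := by
  subst hq
  have h := ha_symp (F := F) d
  have hn : finrank F (Fin d ⊕ Fin d → F) = 2 * d := by simp [two_mul]
  have : Nontrivial (Fin d ⊕ Fin d → F) := Module.nontrivial_of_finrank_pos (R := F) (by omega)
  simp only [← sympBilin_apply, ← nondegOn_iff_ne (σ := RingHom.id F)] at hrΩ ⊢
  refine (forall_Sp_iff r fun g => ∃ W : Submodule F (Fin d ⊕ Fin d → F), finrank F W = m ∧
    Form.NondegOn (σ := RingHom.id F) (sympBilin d F) W ∧ W.map g ≤ W).trans ?_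
  have hr := (Fact.out : r.Prime).two_le
  by_cases hr2 : r = 2
  · subst hr2
    by_cases hp : p = 2
    swap
    · simp only [hp, Ne, not_false_iff, true_and, true_or, or_true, iff_true]
      rintro g hg ⟨z, hz⟩ -
      exact h.exists_nd_of_sq_smul (two_ne_zero_of_ne p hp) hg (h.sq_cases hg hz) (by omega) hme
    subst hp
    simp only [lt_irrefl, false_and, and_false, true_and, Ne, not_true, or_false, false_or]
    constructor
    · intro H
      by_contra h1
      obtain ⟨t, ht, h2⟩ := exists_SpB_inr h.nondegenerate (sympBilin_isAlt d) hn (k := d)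
        (Nat.even_iff.mpr (by omega)) (by omega) le_rfl
      obtain ⟨h3, h4⟩ := invType_eq_inr_iff.mp h2
      have h5 : (t.1.toLinearMap) ^ 2 = 1 := by
        refine LinearMap.ext fun v => ?_
        exact congrArg (fun x : SpB (sympBilin d F) => x.1 v) (mul_self_of_orderOf ht)
      obtain ⟨k₁, k₂, h6, h7, h8⟩ := elDiv_of_invol h5
      obtain rfl : k₂ = d := h7.symm.trans h3
      obtain rfl : k₁ = 0 := by omega
      obtain ⟨W, h9, h10, h11⟩ := H _ t.2 ⟨1, by rw [h5, one_smul]⟩
        (ne_smul_of_elDiv_unip h8 fun h => by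
          simpa using h 2 (by simp [Multiset.mem_replicate, show k₂ ≠ 0 by omega]))
      have h12 := map_le_iff_forall.mp h11
      obtain ⟨ν, h13, h14, h15⟩ := exists_le_of_restrict_unip h.toHForm t.2 h8 h12 h10
      obtain ⟨a, ha, b, -, rfl⟩ := le_replicate_add_replicate.mp h13
      have h16 := (h.toHForm.restrict h10).even_count_of_layer (l := 1) (g := (t.1.toLinearMap).restrict h12)
        (fun _ _ => t.2 _ _) (one_mul 1) 1 fun x _ => by
          have h16 := h4 x
          simp only [Form.restr_apply, pow_one, one_smul, LinearMap.sub_apply, End.one_apply,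
            Submodule.coe_sub, map_sub, sympBilin_isAlt k₂ x.1, sub_zero]
          exact h16
      rw [h15, count_map_X_sub_C] at h16
      simp [Multiset.count_replicate, Nat.even_iff] at h14 h16
      omega
    · rintro H g hg ⟨z, hz⟩ -
      have h1 : g ^ 2 = 1 := (h.sq_cases hg hz).elim id fun h => by
        rw [h, CharTwo.neg_eq, one_smul]
      obtain ⟨k₁, k₂, h6, -, h8⟩ := elDiv_of_invol h1
      have key : ∀ m, m % 4 = 0 → m ≤ 2 * d → ∃ (U : Submodule F (Fin d ⊕ Fin d → F))
          (_ : ∀ v ∈ U, g v ∈ U), Form.NondegOn (σ := RingHom.id F) (sympBilin d F) U ∧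
          finrank F U = m := fun m h2 h3 => by
        by_cases h4 : m / 2 ≤ k₂
        · obtain ⟨U, hU, h5, h7, -⟩ := exists_nd_of_invol h.toHForm hg h8 zero_le h4
            (Or.inl Even.zero) (Or.inl (Nat.even_iff.mpr (by omega)))
          exact ⟨U, hU, h5, by omega⟩
        · obtain ⟨U, hU, h5, h7, -⟩ := exists_nd_of_invol h.toHForm hg h8 (a := m - 2 * k₂)
            (by omega) le_rfl (Or.inl (Nat.even_iff.mpr (by omega))) (Or.inr rfl)
          exact ⟨U, hU, h5, by omega⟩
      rw [Nat.even_iff] at hme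
      by_cases h2 : m % 4 = 0
      · obtain ⟨U, hU, h3, h4⟩ := key m h2 (by omega)
        exact ⟨U, h4, h3, map_le_iff_forall.mpr hU⟩
      · obtain ⟨U, hU, h3, h4⟩ := key (2 * d - m) (by omega) (by omega)
        have := h.toHForm.finrank_orth U
        exact ⟨_, by omega, h.toHForm.nondegOn_orth h3,
          map_le_iff_forall.mpr (h.toHForm.mem_orth_of_isometry hg hU)⟩
  rw [forall_isom_odd_iff h.toHForm ((Fact.out : r.Prime).odd_of_ne_two hr2) _
    fun z g hz h => by simpa only [map_smul_eq hz] using h]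
  by_cases hrp : r = p
  · subst hrp
    simp only [hr2, show 2 < r by omega, Ne, not_true, false_and, true_and, or_false]
    constructor
    · intro H μ h1 h2 h3
      by_cases h4 : ∀ a ∈ μ, a = 1
      · refine ⟨Multiset.replicate m 1, ?_, by simp, fun a _ => ?_⟩
        · rw [Multiset.eq_replicate_card.mpr h4] at h3 ⊢
          rw [Multiset.replicate_le_replicate]
          simp at h3
          omega
        · rw [Multiset.count_replicate]
          split_ifs <;> simp [hme]
      obtain ⟨g, hg, h5⟩ := h.exists_unip (fun e he => (h1 e he).1) (h3.trans hn.symm) fun _ => h2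
      obtain ⟨W, h9, h10, h11⟩ := H g hg (pow_char_of_elDiv_unip r (fun e he => (h1 e he).2) h5)
        (by simpa using ne_smul_of_elDiv_unip h5 h4 1)
      have h12 := map_le_iff_forall.mp h11
      obtain ⟨ν, h13, h14, h15⟩ := exists_le_of_restrict_unip h.toHForm hg h5 h12 h10
      exact ⟨ν, h13, h14.trans h9, spParity_unip_iff.mp (h15 ▸ spParity_elDiv
        (h.toHForm.restrict h10).nondegenerate (fun v => sympBilin_isAlt d v.1) fun _ _ => hg _ _)⟩
    · intro H g hg h1 _
      obtain ⟨μ, h2, h3, h4⟩ := elDiv_of_pow_char_one r h1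
      obtain ⟨ν, h5, h6, h7⟩ := H μ h2 (spParity_unip_iff.mp (h4 ▸ spParity_elDiv
        h.nondegenerate (sympBilin_isAlt d) hg)) (h3.trans hn)
      obtain ⟨U, hU, h8, h9⟩ := WallData.exists_nondeg (l := 1) ⟨h.toHForm, hg, one_mul 1, rfl⟩
        (h4 ▸ Multiset.map_le_map h5) fun j => (Nat.even_or_odd j).elim
          (fun hj => Or.inl (h7 _ hj.add_one)) fun hj =>
            Or.inr (Or.inr ⟨two_ne_zero_of_ne r hr2, by simp [hj.neg_one_pow]⟩)
      exact ⟨U, (finrank_of_elDiv_unip h9).trans h6, h8, map_le_iff_forall.mpr hU⟩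
  have hD := cycD_id (F := F) p hrp hr2 (ε := -1) (by simp) hi hc
  rw [h.forall_nd_iff p hD hrp (by omega) (fun h1 =>
      h.not_dvd_nd p hrp (h.fixDec_dvd_id hi hc) h1 (fun _ => hme) hrΩ)
      fun _ => ⟨hme, by rw [hc]; split_ifs with h; exacts [h, even_two_mul i]⟩, hn]
  simp [hr2, hrp, show 2 < r by omega]

end Cfsg.Agent.S5956
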