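import Cfsg.Statements.S5958
import Cfsg.Agent.Known.ElusDecSL

set_option autoImplicit false
open scoped MatrixGroups
open Cfsg

namespace Cfsg.Agent.S5958

open Cfsg.Lib.Known Cfsg.Lib.Class Cfsg.Lib.Class.Orth QuadraticMap Module

/-- Elements of odd prime order of PSL_n(q) and imprimitive subgroups. Here `T = PSL_n(F)` for a field `F` with `q = p^f` elements (`n ≥ 2`, `(n, q) ≠ (2, 2), (2, 3)`), `n = a·t` with `t ≥ 2`, and Ω is the set of direct-sum decompositions of `F^n` into `t` subspaces of dimension `a` (unordered; their number is the number of ordered ones divided by `t!`), whose stabilizers are the imprimitive subgroups of type GL_a(q) ≀ S_t (maximal except in some small cases; maximality is not assumed); an element of `T` of prime order `r` (a matrix `x` of determinant 1 with `x^r` scalar, `x` not scalar) fixes a point of Ω when it permutes the summands of some such decomposition. Let `r ≠ p` be an odd prime dividing the number of such decompositions, let `c` be the multiplicative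 order of `q` modulo `r`, and write `k = n mod c`, `ℓ = a mod c`. Then every element of `T` of order `r` stabilizes such a decomposition if and only if either `a = 1`, `c = r − 1 > 1` and `n ≤ k·r`, or `c ≤ a` and `k = t·ℓ`. -/
theorem result {F : Type*} [Field F] [Fintype F] {p : ℕ} [Fact p.Prime] [CharP F p] {q : ℕ} (hq : Fintype.card F = q)
    (n a t : ℕ) (hn : 2 ≤ n) (hT : (n, q) ≠ (2, 2) ∧ (n, q) ≠ (2, 3)) (hat : n = a * t) (ha : 1 ≤ a) (ht : 2 ≤ t)
    (r : ℕ) [Fact r.Prime] (hr2 : r ≠ 2) (hrp : r ≠ p) (hΩ : r ∣ Nat.card {D : Fin t → Submodule F (Fin n → F) // Cfsg.Geo.IsMDecomposition a D} / Nat.factorial t)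
    (c : ℕ) (hc : c = orderOf (q : ZMod r)) :
    (∀ x : Matrix.SpecialLinearGroup (Fin n) F,
      (∃ z : F, ((x ^ r : Matrix.SpecialLinearGroup (Fin n) F) : Matrix (Fin n) (Fin n) F) = z • (1 : Matrix (Fin n) (Fin n) F)) →
      (∀ z : F, (x : Matrix (Fin n) (Fin n) F) ≠ z • (1 : Matrix (Fin n) (Fin n) F)) →
      ∃ D : Fin t → Submodule F (Fin n → F), Cfsg.Geo.IsMDecomposition a D ∧
        ∃ σ : Equiv.Perm (Fin t), ∀ j, (D j).map (Matrix.toLin' (x : Matrix (Fin n) (Fin n) F)) = D (σ j)) ↔
    ((a = 1 ∧ 1 < c ∧ c = r - 1 ∧ n ≤ (n % c) * r) ∨ (c ≤ a ∧ n % c = t * (a % c))) := by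
  subst hq
  have hn' : finrank F (Fin n → F) = n := by simp
  have hr := (Fact.out : r.Prime)
  have hc0 : 0 < c := hc ▸ orderOf_card_pos p hrp
  rw [forall_SL_iff r fun g => ∃ D : Fin t → Submodule F (Fin n → F),
    Geo.IsMDecomposition a D ∧ ∃ σ : Equiv.Perm (Fin t), ∀ j, (D j).map g = D (σ j)]
  constructor
  swap
  · rintro H g hd ⟨z, hz⟩ -
    have hz0 := smul_ne_zero_of_det (by simp [hd]) hz (by omega)
    obtain ⟨D, h1, h2, h3, -, h4⟩ := (PDT.of_pow p hrp hz0 (isElDivs_elDiv g)
      (forall_dvd_of_pow_eq_smul hz) (by rw [← finrank_eq_elDeg, hn', hat]) hc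
      (by rw [← hat]; exact H.imp id And.right) _ g rfl).exists_fin
      (injective_of_pow_eq_smul hr.ne_zero hz0 hz)
    exact ⟨D, ⟨ht, ha, h1, h2, h3⟩, h4⟩
  intro H
  by_cases hc1 : c = 1
  · subst hc1
    exact Or.inr ⟨ha, by simp [Nat.mod_one]⟩
  have hcn : c ≤ n := by
    by_contra hcn
    refine not_dvd_card_submodule_fam (V := Fin n → F) (ι := Fin t) ⊤
      (fun D => Geo.IsMDecomposition a D) ?_ ?_ ?_
      (dvd_of_dvd_div (factorial_dvd_card_fam (fun D => Geo.IsMDecomposition a D) ?_ ?_) hΩ)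
    · exact fun g _ D hD => ⟨ht, ha, fun j => (g.finrank_map_eq _).trans (hD.finrank_eq j),
        LinearMap.iSupIndep_map _ g.injective hD.indep, by
          rw [← Submodule.map_iSup, hD.iSup_eq_top, Submodule.map_top, LinearEquiv.range]⟩
    · intro D D' hD hD'
      obtain ⟨g, hg⟩ := exists_map_eq_of_iSupIndep hD.indep hD.iSup_eq_top hD'.indep
        hD'.iSup_eq_top fun j => LinearEquiv.ofFinrankEq _ _
          ((hD.finrank_eq j).trans (hD'.finrank_eq j).symm)
      exact ⟨g, trivial, fun j => map_eq_of_forall_coe _ (hg j)⟩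
    · intro P _ hP
      obtain ⟨A, C, hA⟩ := exists_fixDec p hrp hP
      have h1 := hA.orderOf_dvd hP
      have h2 := hA.finrank_add
      rw [← hc] at h1
      have h3 := Nat.eq_zero_of_dvd_of_lt h1 (by omega)
      obtain rfl := Submodule.eq_top_of_finrank_eq (S := A) (by omega)
      obtain ⟨D, h4, h5, h6, -⟩ := (PDT.of_sq one_ne_zero (isElDivs_elDiv 1)
        (forall_dvd_of_pow_eq_smul (by simp)) (by rw [← finrank_eq_elDeg, hn', hat])
        _ (1 : End F (Fin n → F)) rfl).exists_fin Function.injective_id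
      exact ⟨D, ⟨ht, ha, h4, h5, h6⟩, fun g hg j => hA.inv_of_le_left le_top g hg⟩
    · exact fun σ D hD => ⟨ht, ha, fun j => hD.finrank_eq _, hD.indep.comp σ.injective,
        (σ.iSup_comp (g := D)).trans hD.iSup_eq_top⟩
    · exact fun D hD => hD.indep.injective fun j => ne_bot_of_finrank (hD.finrank_eq j) ha
  obtain ⟨f, hf⟩ := cycFactors_nonempty (F := F) p hrp
  have hne := cycFactors_ne p hrp hf
  have hdeg : ∀ x ∈ cycFactors F r, x.1.Monic ∧ Irreducible x.1 ∧ x.2 = 1 ∧ x.1.natDegree = c ∧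
      x.1 ∣ Polynomial.X ^ r - Polynomial.C 1 := fun x hx => by
    have h1 := natDegree_of_mem_cycFactors p hrp hx
    have h2 := dvd_of_mem_cycFactors hx
    obtain ⟨h3, h4, -, h5⟩ := mem_cycFactors.mp hx
    rw [h5] at h1 h2
    exact ⟨h3, h4, h5, by omega, by simpa using h2⟩
  obtain ⟨hf1, hf2, hf3, hf4, hf5⟩ := hdeg f hf
  have hne' : ∀ x ∈ cycFactors F r, x.1 ≠ Polynomial.X - 1 := fun x hx h =>
    cycFactors_ne p hrp hx (Prod.ext h (hdeg x hx).2.2.1)
  have key : ∀ k j, j ≠ 0 → k + c * j = n → (c ≤ a ∧ (k < c → n % c = t * (a % c))) ∨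
      (a ≤ k ∧ a ≤ j ∧ c = r - 1 ∧ (a = 1 → n ≤ r * k)) := by
    intro k j hj hk
    obtain ⟨g, hg1, hg⟩ := exists_End_cyc (V := Fin n → F) p hrp (k := k)
      (m := Multiset.replicate j f) (fun x hx => Multiset.eq_of_mem_replicate hx ▸ hf)
      (by rw [Multiset.card_replicate, ← hc, hk, hn'])
    have hg2 : g ^ r = (1 : F) • 1 := by rw [hg1, one_smul]
    have hfm : f ∈ elDiv g := by simp [hg, Multiset.mem_replicate, hj]
    obtain ⟨D, hD, σ, hσ⟩ := H g (det_eq_one_of_pow_eq_one (hc ▸ hc1) hg1) ⟨1, hg2⟩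
      (ne_smul_of_mem_blk (Multiset.mem_map_of_mem _ hfm) (by simp only [hf3, hf4]; omega))
    have h5 : ∀ j, ∀ v ∈ D j, g v ∈ D (σ j) := fun j v hv => hσ j ▸ ⟨v, hv, rfl⟩
    have h0 := fun j => ne_bot_of_finrank (hD.finrank_eq j) ha
    by_cases hs : ∀ l, σ l = l
    · simp only [hs] at h5
      have h6 := elDiv_eq_sum_of_iSupIndep hD.indep hD.iSup_eq_top h5
      have h7 := fun l => (hD.finrank_eq l).symm.trans (finrank_eq_elDeg_restrict (h5 l))
      refine Or.inl ⟨?_, fun hk' => ?_⟩
      · obtain ⟨l, -, hl⟩ := Multiset.mem_sum.mp (h6 ▸ hfm)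
        have := IsElDivs.mul_le_elDeg hl
        rwa [← h7, hf3, hf4, mul_one] at this
      · choose κ _ μ _ h8 using fun l => le_replicate_add_replicate.mp
          ((Finset.single_le_sum (f := fun l => elDiv (g.restrict (h5 l)))
            (fun _ _ => zero_le) (Finset.mem_univ l)).trans_eq (h6.symm.trans hg))
        refine mod_eq_of_sum (κ := κ) (μ := μ) (fun l => ?_) ?_ hat hk'
        · rw [h7 l, h8 l]
          exact (elDeg_of_map_eq (by simp [hf3, hf4, natDegree_X_sub_one])).symm
        · classical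
          have := congrArg (Multiset.count (Polynomial.X - 1, 1)) (h6.symm.trans hg)
          simpa [Multiset.count_sum', h8, Multiset.count_replicate, hne] using this
    push Not at hs
    obtain ⟨l, hl⟩ := hs
    have h6 := fun R hR => mul_le_finrank_ker_aeval hD.indep h0 h5 one_ne_zero hg2 hl (f := R) hR
    rw [hD.finrank_eq] at h6
    have h7 := finrank_ker_of_two hg monic_X_sub_one irreducible_X_sub_one
    simp only [if_true, if_neg (hne' f hf), natDegree_X_sub_one, add_zero, mul_one] at h7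
    refine Or.inr ⟨?_, ?_, ?_, fun ha1 => ?_⟩
    · have := h6 (Polynomial.X - 1) (by simpa using sub_one_dvd_pow_sub_one _ _)
      rwa [h7, natDegree_X_sub_one, mul_one] at this
    · have := h6 f.1 hf5
      rw [finrank_ker_of_two hg hf1 hf2, if_neg (hne' f hf).symm, if_pos rfl, zero_add, hf4] at this
      exact Nat.le_of_mul_le_mul_right this hc0
    · rw [← card_cycFactors (K := F) p hrp, ← hc, Finset.card_eq_one.mpr ⟨f,
        Finset.eq_singleton_iff_unique_mem.mpr ⟨hf, fun x hx => ?_⟩⟩, mul_one]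
      obtain ⟨h1, h2, h3, h4, h8⟩ := hdeg x hx
      by_contra h9
      have := h6 x.1 h8
      rw [finrank_ker_of_two hg h1 h2, if_neg (hne' x hx).symm,
        if_neg fun h => h9 (Prod.ext h.symm (h3.trans hf3.symm)), h4] at this
      nlinarith
    · have := finrank_le_mul_finrank_ker hD.iSup_eq_top hD.finrank_eq (hn'.trans hat) h5
        (perm_pow_eq_one hD.indep h0 h5 one_ne_zero hg2) hg1 fun l hl v hv => by
          by_cases hv0 : v = 0
          · simp [hv0]
          obtain ⟨z, hz⟩ := (finrank_eq_one_iff_of_nonzero' (⟨v, hv⟩ : D l)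
            (by simpa using hv0)).mp (ha1 ▸ hD.finrank_eq l) ⟨g v, hl ▸ h5 l v hv⟩
          have h8 : g v = z • v := (congrArg Subtype.val hz).symm
          have h9 := pow_apply_of_eq_smul h8 r
          rw [hg1, End.one_apply] at h9
          rw [h8, eq_one_of_pow_eq_one (hc ▸ hc1) (smul_left_injective F hv0
            (h9.symm.trans (one_smul F v).symm)), one_smul]
      rwa [hn', show g - 1 = Polynomial.aeval g (Polynomial.X - 1 : Polynomial F) by simp, h7] at this
  have h1 := Nat.mod_lt n hc0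
  rcases key (n % c) (n / c) (Nat.div_pos hcn hc0).ne' (Nat.mod_add_div n c) with h | h
  · exact Or.inr ⟨h.1, h.2 h1⟩
  rcases key (n - c) 1 one_ne_zero (by omega) with h' | h'
  · omega
  exact Or.inl ⟨by omega, by omega, h.2.2.1, mul_comm r _ ▸ h.2.2.2 (by omega)⟩

end Cfsg.Agent.S5958
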