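import Cfsg.Statements.S5959
import Cfsg.Agent.Known.ElusDecSL

set_option autoImplicit false
open scoped MatrixGroups
open Cfsg

namespace Cfsg.Agent.S5959

open Cfsg.Lib.Known Cfsg.Lib.Class Cfsg.Lib.Class.Orth QuadraticMap Module

theorem kerDim_unip {F : Type*} [Field F] {k : ℕ} (μ : Multiset ℕ) (h : ∀ b ∈ μ, b ≤ k + 1) :
    kerDim (μ.map fun a => ((Polynomial.X - 1 : Polynomial F), a)) (Polynomial.X - 1) k +
      μ.count (k + 1) = μ.sum := by
  induction μ using Multiset.induction_on with
  | empty => simp [kerDim]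
  | cons b μ ih =>
    have h1 := ih fun c hc => h c (Multiset.mem_cons_of_mem hc)
    have h2 := h b (Multiset.mem_cons_self _ _)
    simp only [kerDim, Multiset.map_cons, Multiset.sum_cons, Multiset.count_cons, if_true,
      natDegree_X_sub_one] at h1 ⊢
    split_ifs <;> omega

/-- Elements of order `p` of PSL_n(q) and imprimitive subgroups: a necessary condition. Here `T = PSL_n(F)` for a field `F` with `q = p^f` elements (`n ≥ 2`, `(n, q) ≠ (2, 2), (2, 3)`), `n = a·t` with `t ≥ 2`, and Ω is the set of direct-sum decompositions of `F^n` into `t` subspaces of dimension `a` (unordered; their number is the number of ordered ones divided by `t!`), whose stabilizers are the imprimitive subgroups of type GL_a(q) ≀ S_t (maximal except in some small cases; maximality is not assumed); an element of `T` of prime order `r` (a matrix `x` of determinant 1 with `x^r` scalar, `x` not scalar) fixes a point of Ω when it permutes the summands of some such decomposition. Suppose `p > 2` divides the number of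 such decompositions. If every element of `T` of order `p` stabilizes such a decomposition, then every partition of `n` into parts of size at most `p` in which the part `p` occurs fewer than `a` times contains (as a sub-multiset) a partition of `a`. -/
theorem result {F : Type*} [Field F] [Fintype F] {p : ℕ} [Fact p.Prime] [CharP F p] {q : ℕ} (hq : Fintype.card F = q)
    (n a t : ℕ) (hn : 2 ≤ n) (hT : (n, q) ≠ (2, 2) ∧ (n, q) ≠ (2, 3)) (hat : n = a * t) (ha : 1 ≤ a) (ht : 2 ≤ t)
    (hp : 2 < p) (hΩ : p ∣ Nat.card {D : Fin t → Submodule F (Fin n → F) // Cfsg.Geo.IsMDecomposition a D} / Nat.factorial t)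
    (h : ∀ x : Matrix.SpecialLinearGroup (Fin n) F,
      (∃ z : F, ((x ^ p : Matrix.SpecialLinearGroup (Fin n) F) : Matrix (Fin n) (Fin n) F) = z • (1 : Matrix (Fin n) (Fin n) F)) →
      (∀ z : F, (x : Matrix (Fin n) (Fin n) F) ≠ z • (1 : Matrix (Fin n) (Fin n) F)) →
      ∃ D : Fin t → Submodule F (Fin n → F), Cfsg.Geo.IsMDecomposition a D ∧
        ∃ σ : Equiv.Perm (Fin t), ∀ j, (D j).map (Matrix.toLin' (x : Matrix (Fin n) (Fin n) F)) = D (σ j)) :
    (∀ μ : Multiset ℕ, (∀ b ∈ μ, 0 < b ∧ b ≤ p) → μ.sum = n → μ.count p < a → ∃ ν : Multiset ℕ, ν ≤ μ ∧ ν.sum = a) := by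
  have hn' : finrank F (Fin n → F) = n := by simp
  intro μ h1 h2 h3
  by_cases h4 : ∀ b ∈ μ, b = 1
  · refine ⟨Multiset.replicate a 1, ?_, by simp⟩
    rw [Multiset.eq_replicate_card.mpr h4] at h2 ⊢
    rw [Multiset.replicate_le_replicate]
    simp only [Multiset.sum_replicate, smul_eq_mul, mul_one] at h2
    nlinarith
  obtain ⟨g, hg⟩ := exists_elDiv_eq (K := F) (V := Fin n → F) (isElDivs_map_unip fun b hb => (h1 b hb).1)
    (by rw [elDeg_map_unip (F := F), h2, hn'])
  have hp1 := pow_char_of_elDiv_unip p (fun b hb => (h1 b hb).2) hg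
  obtain ⟨D, hD, σ, hσ⟩ := (forall_SL_iff p fun g => ∃ D : Fin t → Submodule F (Fin n → F),
    Geo.IsMDecomposition a D ∧ ∃ σ : Equiv.Perm (Fin t), ∀ j, (D j).map g = D (σ j)).mp h g
    (det_of_elDiv_unip hg) ⟨1, by rw [hp1, one_smul]⟩ (ne_smul_of_elDiv_unip hg h4)
  have h5 : ∀ j, ∀ v ∈ D j, g v ∈ D (σ j) := fun j v hv => hσ j ▸ ⟨v, hv, rfl⟩
  have h0 : ∀ j, D j ≠ ⊥ := fun j hj => by
    have := hD.finrank_eq j
    rw [hj, finrank_bot] at this
    omega
  let j : Fin t := ⟨0, by omega⟩
  by_cases hj : σ j = j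
  · rw [← blk_of_elDiv_unip hg]
    refine (exists_isCompl_iff_blk g a).mp ⟨D j, ⨆ (i) (_ : i ≠ j), D i, ⟨hD.indep j, ?_⟩,
      hD.finrank_eq j, by rw [hσ, hj], ?_⟩
    · rw [codisjoint_iff, ← hD.iSup_eq_top, iSup_split_single D j]
    · simp only [Submodule.map_iSup, hσ]
      exact iSup₂_le fun i hi => le_iSup₂_of_le (f := fun i (_ : i ≠ j) => D i) (σ i)
        (fun h => hi (σ.injective (h.trans hj.symm))) le_rfl
  exfalso
  obtain ⟨k, rfl⟩ : ∃ k, p = k + 1 := ⟨p - 1, by omega⟩
  have h6 := mul_le_finrank_range_aeval hD.indep h5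
    (injective_of_pow_eq_smul (Nat.succ_ne_zero k) one_ne_zero (by rw [hp1, one_smul]))
    (perm_pow_injective (perm_pow_eq_one hD.indep h0 h5 one_ne_zero (by rw [hp1, one_smul])) hj)
    ((monic_X_sub_one.pow k).ne_zero) (d := 1) (by
      rw [monic_X_sub_one.natDegree_pow, natDegree_X_sub_one]; omega)
  have h7 := LinearMap.finrank_range_add_finrank_ker
    (Polynomial.aeval g ((Polynomial.X - 1 : Polynomial F) ^ k))
  rw [finrank_ker_eq_kerDim g monic_X_sub_one irreducible_X_sub_one, hg, hn'] at h7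
  have h8 := kerDim_unip (F := F) μ fun b hb => (h1 b hb).2
  rw [hD.finrank_eq] at h6
  omega

end Cfsg.Agent.S5959
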