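import Cfsg.Statements.S5961
import Cfsg.Agent.Known.ElusSp2

set_option autoImplicit false
open scoped MatrixGroups
open Cfsg

namespace Cfsg.Agent.S5961

open Cfsg.Lib.Known Cfsg.Lib.Class Cfsg.Lib.Class.Orth QuadraticMap Module

/-- Elements of odd prime order of PSp_n(q) and imprimitive subgroups. Here `T = PSp_n(q)`, `n = 2d ≥ 4`, `(n, q) ≠ (4, 2)`, realised through the symplectic matrices over the field `F` with `q` elements and the standard alternating form; `n = a·t` with `a` even and `t ≥ 2`, and Ω is the (nonempty) set of orthogonal decompositions of `F^n` into `t` nondegenerate subspaces of dimension `a` (unordered; counted as ordered ones divided by `t!`), whose stabilizers are the imprimitive subgroups of type Sp_a(q) ≀ S_t (maximality is not assumed); an element of `T` of prime order `r` (a symplectic matrix `x` with `x^r` scalar, `x` not scalar) fixes a point of Ω when it permutes the summands of some such decomposition. Let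 `r ≠ p` be an odd prime dividing the number of such decompositions, let `i` be the multiplicative order of `q` modulo `r`, `c = i` if `i` is even and `c = 2i` if `i` is odd, and write `k = n mod c`, `ℓ = a mod c`. Then every element of `T` of order `r` stabilizes such a decomposition if and only if `c ≤ a` and `k = t·ℓ`. -/
theorem result {F : Type*} [Field F] [Fintype F] {p : ℕ} [Fact p.Prime] [CharP F p] {q : ℕ} (hq : Fintype.card F = q)
    (d : ℕ) (hd : 2 ≤ d) (hT : (d, q) ≠ (2, 2))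
    (a t : ℕ) (hat : 2 * d = a * t) (ha : 2 ≤ a) (hae : Even a) (ht : 2 ≤ t)
    (r : ℕ) [Fact r.Prime] (hr2 : r ≠ 2) (hrp : r ≠ p) (hΩ : r ∣ Nat.card {D : Fin t → Submodule F (Fin d ⊕ Fin d → F) // (Cfsg.Geo.IsMDecomposition a D ∧ (∀ j, ∀ u ∈ D j, u ≠ 0 → ∃ v ∈ D j, Cfsg.sympForm d F u v ≠ 0) ∧
          (∀ j j', j ≠ j' → ∀ u ∈ D j, ∀ v ∈ D j', Cfsg.sympForm d F u v = 0))} / Nat.factorial t)
    (i c : ℕ) (hi : i = orderOf (q : ZMod r)) (hc : c = if Even i then i else 2 * i) :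
    (∀ x : ↥(Matrix.symplecticGroup (Fin d) F),
      (∃ z : F, ((x ^ r : ↥(Matrix.symplecticGroup (Fin d) F)) : Matrix (Fin d ⊕ Fin d) (Fin d ⊕ Fin d) F) = z • (1 : Matrix (Fin d ⊕ Fin d) (Fin d ⊕ Fin d) F)) →
      (∀ z : F, (x : Matrix (Fin d ⊕ Fin d) (Fin d ⊕ Fin d) F) ≠ z • (1 : Matrix (Fin d ⊕ Fin d) (Fin d ⊕ Fin d) F)) →
      ∃ D : Fin t → Submodule F (Fin d ⊕ Fin d → F), (Cfsg.Geo.IsMDecomposition a D ∧ (∀ j, ∀ u ∈ D j, u ≠ 0 → ∃ v ∈ D j, Cfsg.sympForm d F u v ≠ 0) ∧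
          (∀ j j', j ≠ j' → ∀ u ∈ D j, ∀ v ∈ D j', Cfsg.sympForm d F u v = 0)) ∧
        ∃ σ : Equiv.Perm (Fin t), ∀ j, (D j).map (Matrix.toLin' (x : Matrix (Fin d ⊕ Fin d) (Fin d ⊕ Fin d) F)) = D (σ j)) ↔
    (c ≤ a ∧ (2 * d) % c = t * (a % c)) := by
  subst hq
  have h := ha_symp (F := F) d
  have hn : finrank F (Fin d ⊕ Fin d → F) = 2 * d := by simp [two_mul]
  have : Nontrivial (Fin d ⊕ Fin d → F) := Module.nontrivial_of_finrank_pos (R := F) (by omega)
  have hr := (Fact.out : r.Prime)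
  simp only [← sympBilin_apply, ← nondegOn_iff_ne (σ := RingHom.id F)] at hΩ ⊢
  refine (forall_Sp_iff r fun g => ∃ D : Fin t → Submodule F (Fin d ⊕ Fin d → F),
    (Geo.IsMDecomposition a D ∧ (∀ j, Form.NondegOn (σ := RingHom.id F) (sympBilin d F) (D j)) ∧
      ∀ j j', j ≠ j' → ∀ u ∈ D j, ∀ v ∈ D j', sympBilin d F u v = 0) ∧
      ∃ σ : Equiv.Perm (Fin t), ∀ j, (D j).map g = D (σ j)).trans ?_
  rw [forall_isom_odd_iff h.toHForm (hr.odd_of_ne_two hr2) _
    fun z g hz h => by simpa only [map_smul_eq hz] using h]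
  have hD := cycD_id (F := F) p hrp hr2 (ε := -1) (by simp) hi hc
  have hc0 := (hD.pos' p hrp).2
  have hce : Even c := by rw [hc]; split_ifs with h; exacts [h, even_two_mul i]
  constructor
  swap
  · rintro ⟨-, H⟩ g hg h1 -
    obtain ⟨D, h1, h2, h3, h4, h5⟩ := (h.pdec_of_mod p hD hrp hg h1 (hn.trans hat) (hat ▸ H)
      fun _ => ⟨hae, hce⟩).exists_fin (h.toHForm.injective_of_isom hg)
    exact ⟨D, ⟨⟨ht, by omega, h1, h2, h3⟩, nondegOn_of_iSup h.toHForm h3 h4, h4⟩, h5⟩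
  intro H
  have hcn : c ≤ 2 * d := by
    by_contra hcn
    refine not_dvd_card_submodule_fam (V := Fin d ⊕ Fin d → F) (ι := Fin t)
      (Form.isomGroup (σ := RingHom.id F) (sympBilin d F))
      (fun D => Geo.IsMDecomposition a D ∧
        (∀ j, Form.NondegOn (σ := RingHom.id F) (sympBilin d F) (D j)) ∧
        ∀ j j', j ≠ j' → ∀ u ∈ D j, ∀ v ∈ D j', sympBilin d F u v = 0) ?_ ?_ ?_
      (dvd_of_dvd_div (factorial_dvd_card_fam (fun D => Geo.IsMDecomposition a D ∧
        (∀ j, Form.NondegOn (σ := RingHom.id F) (sympBilin d F) (D j)) ∧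
        ∀ j j', j ≠ j' → ∀ u ∈ D j, ∀ v ∈ D j', sympBilin d F u v = 0) ?_ ?_) hΩ)
    · rintro g hg D ⟨hD, h1, h2⟩
      refine ⟨⟨ht, hD.pos, fun j => (g.finrank_map_eq _).trans (hD.finrank_eq j),
        LinearMap.iSupIndep_map _ g.injective hD.indep, by
          rw [← Submodule.map_iSup, hD.iSup_eq_top, Submodule.map_top, LinearEquiv.range]⟩,
        fun j => isom_map_nondegOn hg (h1 j), ?_⟩
      rintro j j' hj _ ⟨u, hu, rfl⟩ _ ⟨v, hv, rfl⟩
      exact (hg u v).trans (h2 j j' hj u hu v hv)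
    · rintro D D' ⟨hD, -, h1⟩ ⟨hD', -, h2⟩
      exact h.exists_map_eq_fam hD.indep hD.iSup_eq_top hD'.indep hD'.iSup_eq_top h1 h2
        fun j => (hD.finrank_eq j).trans (hD'.finrank_eq j).symm
    · intro P hP hp
      obtain ⟨A, C, hA⟩ := exists_fixDec p hrp hp
      have h1 := h.fixDec_dvd_id hi hc P A C hP hp hA
      have h2 := hA.finrank_add
      have h3 := Nat.eq_zero_of_dvd_of_lt h1 (by omega)
      obtain rfl := Submodule.eq_top_of_finrank_eq (S := A) (by omega)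
      obtain ⟨D, h4, h5, h6, h7, -⟩ := (h.pdec_of_sq (g := 1) (fun _ _ => rfl)
        (Or.inl (one_pow 2)) (hn.trans hat) hae).exists_fin Function.injective_id
      exact ⟨D, ⟨⟨ht, by omega, h4, h5, h6⟩, nondegOn_of_iSup h.toHForm h6 h7, h7⟩,
        fun g hg j => hA.inv_of_le_left le_top g hg⟩
    · exact fun σ D ⟨hD, h1, h2⟩ => ⟨⟨ht, hD.pos, fun j => hD.finrank_eq _,
        hD.indep.comp σ.injective, (σ.iSup_comp (g := D)).trans hD.iSup_eq_top⟩,
        fun j => h1 _, fun j j' hj => h2 _ _ (σ.injective.ne hj)⟩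
    · exact fun D hD => hD.1.indep.injective fun j => ne_bot_of_finrank (hD.1.finrank_eq j) hD.1.pos
  have key : ∀ k j, j ≠ 0 → k + c * j = 2 * d → (a ≤ k ∧ a * (r - 1) ≤ c * j) ∨
      ∃ κ μ : Fin t → ℕ, (∀ i, κ i + c * μ i = a) ∧ ∑ i, κ i ≤ k := fun k j hj hk => by
    obtain ⟨l, hl⟩ := hD.exists_adm p hrp j
    obtain ⟨g, A, C, hg, h1, hA, rfl⟩ := h.exists_ordR p hD hrp (hk.trans hn.symm) hl
    obtain ⟨D, ⟨h2, h3, -⟩, τ, h4⟩ := H g hg h1 ((hA.ne_one_iff hc0.ne').mpr hj)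
    exact hA.perm_cases p hrp h1 h2.pos h2.indep h2.finrank_eq h3
      fun j v hv => h4 j ▸ Submodule.mem_map_of_mem hv
  have hca : c ≤ a := by
    rcases key (2 * d - c) 1 one_ne_zero (by omega) with ⟨-, h1⟩ | ⟨κ, μ, h1, h2⟩
    · have := Nat.le_of_dvd (by have := hr.two_le; omega) (lcm_two_dvd hc
        (hi ▸ ZMod.orderOf_dvd_card_sub_one (a := (Fintype.card F : ZMod r)) fun h =>
          (orderOf_card_pos (K := F) p hrp).ne' (by rw [h, orderOf_zero]))
        (hr.even_sub_one hr2))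
      nlinarith
    · by_contra h3
      have h4 : ∀ i, κ i = a := fun i => by
        have := h1 i
        rcases Nat.eq_zero_or_pos (μ i) with h | h
        · simpa [h] using this
        · nlinarith
      simp only [h4, Finset.sum_const, Finset.card_fin, smul_eq_mul, mul_comm t, ← hat] at h2
      omega
  have h1 := Nat.mod_lt (2 * d) hc0
  rcases key _ _ (Nat.div_pos hcn hc0).ne' (Nat.mod_add_div _ c) with h2 | ⟨κ, μ, h2, h3⟩
  · omega
  · exact ⟨hca, mod_eq_of_sum h2 rfl hat (h3.trans_lt h1)⟩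

end Cfsg.Agent.S5961
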