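import Cfsg.Statements.S5963
import Cfsg.Agent.Known.ElusSp2

set_option autoImplicit false
open scoped MatrixGroups
open Cfsg

namespace Cfsg.Agent.S5963

open Cfsg.Lib.Known Cfsg.Lib.Class Cfsg.Lib.Class.Orth QuadraticMap Module

/-- Derangements of odd prime order of PSp_n(q), q odd, on pairs of complementary totally isotropic subspaces. Here `T = PSp_n(q)`, `n = 2d ≥ 4`, `q` odd, realised through the symplectic matrices over the field `F` with `q` elements; Ω is the set of unordered pairs `{U, W}` of complementary totally isotropic `d`-spaces (`F^n = U ⊕ W`), whose stabilizers are the subgroups of type GL_d(q).2 (maximal except in some small cases; maximality is not assumed); an element of `T` of prime order `r` (a symplectic matrix `x` with `x^r` scalar, `x` not scalar) fixes such a pair when it fixes or interchanges `U` and `W`. For every odd prime `r ≠ p` dividing the number of such pairs, some element of `T` of order `r`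 fixes no such pair (the action is never `r`-elusive for odd `r ≠ p`). -/
theorem result {F : Type*} [Field F] [Fintype F] {p : ℕ} [Fact p.Prime] [CharP F p] {q : ℕ} (hq : Fintype.card F = q)
    (d : ℕ) (hd : 2 ≤ d) (hT : (d, q) ≠ (2, 2)) (hodd : Odd q)
    (r : ℕ) [Fact r.Prime] (hr2 : r ≠ 2) (hrp : r ≠ p) (hΩ : r ∣ Nat.card {P : Submodule F (Fin d ⊕ Fin d → F) × Submodule F (Fin d ⊕ Fin d → F) // IsCompl P.1 P.2 ∧ (∀ u ∈ P.1, ∀ v ∈ P.1, Cfsg.sympForm d F u v = 0) ∧ (∀ u ∈ P.2, ∀ v ∈ P.2, Cfsg.sympForm d F u v = 0)} / 2) :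
    ∃ x : ↥(Matrix.symplecticGroup (Fin d) F),
      (∃ z : F, ((x ^ r : ↥(Matrix.symplecticGroup (Fin d) F)) : Matrix (Fin d ⊕ Fin d) (Fin d ⊕ Fin d) F) = z • (1 : Matrix (Fin d ⊕ Fin d) (Fin d ⊕ Fin d) F)) ∧
      (∀ z : F, (x : Matrix (Fin d ⊕ Fin d) (Fin d ⊕ Fin d) F) ≠ z • (1 : Matrix (Fin d ⊕ Fin d) (Fin d ⊕ Fin d) F)) ∧
      ¬ (∃ U W : Submodule F (Fin d ⊕ Fin d → F), IsCompl U W ∧ (∀ u ∈ U, ∀ v ∈ U, Cfsg.sympForm d F u v = 0) ∧ (∀ u ∈ W, ∀ v ∈ W, Cfsg.sympForm d F u v = 0) ∧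
        ((U.map (Matrix.toLin' (x : Matrix (Fin d ⊕ Fin d) (Fin d ⊕ Fin d) F)) = U ∧ W.map (Matrix.toLin' (x : Matrix (Fin d ⊕ Fin d) (Fin d ⊕ Fin d) F)) = W) ∨
         (U.map (Matrix.toLin' (x : Matrix (Fin d ⊕ Fin d) (Fin d ⊕ Fin d) F)) = W ∧ W.map (Matrix.toLin' (x : Matrix (Fin d ⊕ Fin d) (Fin d ⊕ Fin d) F)) = U))) := by
  subst hq
  have h := ha_symp (F := F) d
  have hn : finrank F (Fin d ⊕ Fin d → F) = 2 * d := by simp [two_mul]
  have : Nontrivial (Fin d ⊕ Fin d → F) := Module.nontrivial_of_finrank_pos (R := F) (by omega)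
  have hr := (Fact.out : r.Prime)
  simp only [← sympBilin_apply] at hΩ ⊢
  have h1 := dvd_of_dvd_div (two_dvd_card_pair _ (fun a b h => ⟨h.1.symm, h.2.2, h.2.1⟩)
    fun a h => bot_ne_top (h.1.inf_eq_bot.symm.trans
      ((inf_idem a).trans ((sup_idem a).symm.trans h.1.sup_eq_top)))) hΩ
  rw [Nat.card_congr (Equiv.subtypeEquivRight (q := fun P => LagPair (sympBilin d F) P.1 P.2)
    fun P => ⟨fun h => ⟨h.2.1, h.2.2, h.1⟩, fun h => ⟨h.compl, h.left, h.right⟩⟩)] at h1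
  obtain ⟨k, h2, h3, h4⟩ := card_lagPair h.nondegenerate (sympBilin_isAlt d) hn hr
    (fun h => hrp ((Nat.prime_dvd_prime_iff_eq hr Fact.out).mp (by
      obtain ⟨n, -, hn⟩ := FiniteField.card F p
      exact hr.dvd_of_dvd_pow (hn ▸ h)))) h1
  obtain ⟨h5, h6⟩ := even_orderOf_of_dvd hr2 h2 h4
  have hD := cycD_id (F := F) p hrp hr2 (ε := -1) (by simp) rfl (if_pos h5).symm
  obtain ⟨N, hN⟩ := hD.exists_succ p hrp
  have h7 := (hD.pos' p hrp).1
  obtain ⟨g, A, C, hg, h8, hA, h9⟩ := h.exists_ordR p hD hrp (j := 1) (l := 0)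
    (k := 2 * d - orderOf (Fintype.card F : ZMod r)) (by omega)
    ⟨fun _ => by omega, fun h => absurd h5 h⟩
  by_contra H
  push Not at H
  obtain ⟨U, W, h10, h11, h12, h13⟩ := (forall_isom_odd_iff h.toHForm (hr.odd_of_ne_two hr2) _
    fun z g hz h => by simpa only [map_smul_eq hz] using h).mp ((forall_Sp_iff r fun g =>
    ∃ U W : Submodule F (Fin d ⊕ Fin d → F), IsCompl U W ∧
    Form.TotIso (σ := RingHom.id F) (sympBilin d F) U ∧
    Form.TotIso (σ := RingHom.id F) (sympBilin d F) W ∧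
      ((U.map g = U ∧ W.map g = W) ∨ (U.map g = W ∧ W.map g = U))).mp H) g hg h8
    ((hA.ne_one_iff h7.ne').mpr one_ne_zero)
  have h14 := ((LagPair.mk h11 h12 h10).finrank_eq h.nondegenerate).1
  obtain ⟨k', j', h15, h16, h17⟩ := (h.ts_iff hA d).mp ⟨U, by omega, h11,
    h13.elim (fun h => h.1.le) fun h => map_le_iff_forall.mpr (inv_of_sq_inv (hr.odd_of_ne_two hr2)
      h8 fun v hv => h.2 ▸ Submodule.mem_map_of_mem (h.1 ▸ Submodule.mem_map_of_mem hv))⟩
  obtain rfl : j' = 0 := by omega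
  omega

end Cfsg.Agent.S5963
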