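import Cfsg.Statements.S5972
import Cfsg.Agent.Known.ElusO3

set_option autoImplicit false
open scoped MatrixGroups
open Cfsg

namespace Cfsg.Agent.S5972

open Cfsg.Lib.Known Cfsg.Lib.Class Cfsg.Lib.Class.Orth QuadraticMap Module

/-- Elements of prime order of Ω_n(q), n = 2d+1 ≥ 7, q odd, with no fixed totally singular `m`-space. Here `T = Ω_n(q)` is realised as the commutator subgroup of the isometry group of the quadratic form `x₀² + Σ xᵢyᵢ` over the field `F` with `q` elements (it has trivial centre, so its elements of prime order `r` are used directly); let `1 ≤ m ≤ d` and let `r` be a prime dividing the number of totally singular `m`-spaces. For `r ≠ p` let `i` be the multiplicative order of `q` modulo `r`, `c = i` for `i` even and `c = 2i` for `i` odd, and write `k = n mod c`, `ℓ = m mod i`, `n' = ⌊n/i⌋`, `m' = ⌊m/i⌋`, `t = (r−1)/i`. Then every element of `T` of order `r` fixes some totally singular `m`-space if and only if either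 (i) `r = 2` and (`m < (n−1)/2` or `q ≡ 1 (mod 4)`); or (ii) `r ≠ p` is odd, `i ≤ m`, `k > 2ℓ`, and (`i` is odd or `n' − 2m' ≥ t`). -/
theorem result {F : Type*} [Field F] [Fintype F] {p : ℕ} [Fact p.Prime] [CharP F p] {q : ℕ} (hq : Fintype.card F = q) (hqodd : Odd q)
    (d m : ℕ) (hd : 3 ≤ d) (hm : 1 ≤ m) (hmd : m ≤ d)
    (r : ℕ) [Fact r.Prime]
    (hrΩ : r ∣ Nat.card {W : Submodule F (Unit ⊕ (Fin d ⊕ Fin d) → F) // Module.finrank F ↥W = m ∧ (∀ w ∈ W, Cfsg.quadFormOdd d F w = 0)})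
    (i c : ℕ) (hi : i = orderOf (q : ZMod r)) (hc : c = if Even i then i else 2 * i) :
    (∀ x : GL (Unit ⊕ (Fin d ⊕ Fin d)) F, x ∈ Cfsg.Geo.omegaGL (Cfsg.quadFormOdd d F) → orderOf x = r →
      ∃ W : Submodule F (Unit ⊕ (Fin d ⊕ Fin d) → F), Module.finrank F ↥W = m ∧ (∀ w ∈ W, Cfsg.quadFormOdd d F w = 0) ∧
        W.map (Matrix.toLin' (x : Matrix (Unit ⊕ (Fin d ⊕ Fin d)) (Unit ⊕ (Fin d ⊕ Fin d)) F)) ≤ W) ↔
    ((r = 2 ∧ (m < d ∨ q % 4 = 1)) ∨
     (r ≠ p ∧ 2 < r ∧ i ≤ m ∧ 2 * (m % i) < (2 * d + 1) % c ∧ (Odd i ∨ (r - 1) / i + 2 * (m / i) ≤ (2 * d + 1) / i))) := by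
  subst hq
  have h2 := two_ne_zero_of_odd_card hqodd
  have hQ := quadOdd_nondegenerate h2 d
  have hn : finrank F (Unit ⊕ (Fin d ⊕ Fin d) → F) = 2 * d + 1 := by simp; omega
  rw [← coe_quadOdd] at hrΩ ⊢
  simp only [← and_assoc (c := _ ≤ _)]
  refine (forall_Om_order_iff r fun g => ∃ W : Submodule F (Unit ⊕ (Fin d ⊕ Fin d) → F),
    (finrank F W = m ∧ ∀ w ∈ W, quadOdd d F w = 0) ∧ W.map g ≤ W).trans ?_
  have hrp : r ≠ p := by
    rintro rfl
    exact not_dvd_sing_char r hQ (by omega) hrΩ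
  by_cases hr2 : r = 2
  · subst hr2
    have h3 := forall_sing_sq_iff hQ h2 (m := m) hn (by omega) (by omega)
    rw [(isSquare_neg_one_iff_mod h2).1] at h3
    simp only [true_and, lt_irrefl, false_and, and_false, or_false]
    refine Iff.trans ⟨fun H g h4 h5 h6 => H g h4 h5 (by simpa using h6 1), fun H g h4 h5 h6 =>
      H g h4 h5 (ne_smul_of_odd hQ h2 (by simp [hn]) h4 h5 h6)⟩ (h3.trans ?_)
    simp only [show ¬ 2 * m + 2 = 2 * d + 1 by omega, false_and, or_false]
    omega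
  have hr := (Fact.out : r.Prime).two_le
  have h3 := mod_mod_two (even_c hc) (2 * d + 1)
  rw [forall_inOm_odd_iff hQ (not_exc_of_two_ne_zero h2) ((Fact.out : r.Prime).odd_of_ne_two hr2),
    forall_sing_closed p hrp hr2 hi hc hQ hn (by omega) hrΩ]
  simp only [show (2 * d + 1) % c ≠ 0 by omega, show 2 * (m % i) ≠ (2 * d + 1) % c by omega,
    le_iff_lt_or_eq (a := 2 * (m % i)) (b := _ % c), hr2, hrp, show 2 < r by omega,
    ← Nat.not_even_iff_odd]
  tauto

end Cfsg.Agent.S5972
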