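import Cfsg.Statements.S5974
import Cfsg.Agent.Known.ElusO4

set_option autoImplicit false
open scoped MatrixGroups
open Cfsg

namespace Cfsg.Agent.S5974

open Cfsg.Lib.Known Cfsg.Lib.Class Cfsg.Lib.Class.Orth QuadraticMap Module

/-- Elements of prime order of PΩ⁺_n(q), n = 2d ≥ 8, with no fixed nondegenerate hyperbolic `m`-space. Here `T = PΩ⁺_n(q)` is realised through `Ω⁺_n(q)`, the commutator subgroup of the isometry group of `Q = Σ xᵢyᵢ` over the field `F` with `q` elements; an element of `T` of prime order `r` is an element `x` of `Ω⁺_n(q)` with `x^r` scalar and `x` not scalar. A hyperbolic `m`-space is a subspace `W` of even dimension `m` on which the polar form of `Q` is nondegenerate and which contains a totally singular subspace of dimension `m/2`. Let `m` be even with `2 ≤ m < n/2`, and let `r` be a prime dividing the number of hyperbolic `m`-spaces, with `r = 2` or `r ≠ p`. For `r ≠ p` let `i` be the multiplicative order of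 `q` modulo `r`, `c = i` for `i` even and `c = 2i` for `i` odd, and write `k = n mod c`, `ℓ' = m mod c`. Then every element of `T` of order `r` fixes some hyperbolic `m`-space if and only if one of: (i) `r = 2` and (`n ≡ 2 (mod 4)`, or `m ≡ 0 (mod 4)`, or `q ≡ 1 (mod 4)`); (ii) `r ≠ p` odd, `i` odd, `c ≤ m` and `k ≥ ℓ'`; (iii) `r ≠ p` odd, `i` even, and either `k = 0` and (`n/i` odd, or `ℓ' = 0` and `m/i` even), or `i ≤ m` and (`k > ℓ' > 0`, or `k = ℓ' > 0` and `(n + m − 2k)/i` even, or `k > ℓ' = 0` and `m/i` even). -/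
theorem result {F : Type*} [Field F] [Fintype F] {p : ℕ} [Fact p.Prime] [CharP F p] {q : ℕ} (hq : Fintype.card F = q)
    (d m : ℕ) (hd : 4 ≤ d) (hm : 2 ≤ m) (hme : Even m) (hmd : m < d)
    (r : ℕ) [Fact r.Prime] (hr : r = 2 ∨ r ≠ p)
    (hrΩ : r ∣ Nat.card {W : Submodule F (Fin d ⊕ Fin d → F) // (Module.finrank F ↥W = m ∧ (∀ u ∈ W, u ≠ 0 → ∃ v ∈ W, QuadraticMap.polar (Cfsg.quadFormPlus d F) u v ≠ 0) ∧
          ∃ U : Submodule F (Fin d ⊕ Fin d → F), U ≤ W ∧ 2 * Module.finrank F ↥U = m ∧ ∀ u ∈ U, Cfsg.quadFormPlus d F u = 0)})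
    (i c : ℕ) (hi : i = orderOf (q : ZMod r)) (hc : c = if Even i then i else 2 * i) :
    (∀ x : GL (Fin d ⊕ Fin d) F, x ∈ Cfsg.Geo.omegaGL (Cfsg.quadFormPlus d F) →
      (∃ z : F, ((x ^ r : GL (Fin d ⊕ Fin d) F) : Matrix (Fin d ⊕ Fin d) (Fin d ⊕ Fin d) F) = z • (1 : Matrix (Fin d ⊕ Fin d) (Fin d ⊕ Fin d) F)) →
      (∀ z : F, (x : Matrix (Fin d ⊕ Fin d) (Fin d ⊕ Fin d) F) ≠ z • (1 : Matrix (Fin d ⊕ Fin d) (Fin d ⊕ Fin d) F)) →
      ∃ W : Submodule F (Fin d ⊕ Fin d → F), (Module.finrank F ↥W = m ∧ (∀ u ∈ W, u ≠ 0 → ∃ v ∈ W, QuadraticMap.polar (Cfsg.quadFormPlus d F) u v ≠ 0) ∧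
          ∃ U : Submodule F (Fin d ⊕ Fin d → F), U ≤ W ∧ 2 * Module.finrank F ↥U = m ∧ ∀ u ∈ U, Cfsg.quadFormPlus d F u = 0) ∧
        W.map (Matrix.toLin' (x : Matrix (Fin d ⊕ Fin d) (Fin d ⊕ Fin d) F)) ≤ W) ↔
    ((r = 2 ∧ ((2 * d) % 4 = 2 ∨ m % 4 = 0 ∨ q % 4 = 1)) ∨
     (r ≠ p ∧ 2 < r ∧ Odd i ∧ c ≤ m ∧ m % c ≤ (2 * d) % c) ∨
     (r ≠ p ∧ 2 < r ∧ Even i ∧
       (((2 * d) % c = 0 ∧ (Odd ((2 * d) / i) ∨ (m % c = 0 ∧ Even (m / i)))) ∨
        (i ≤ m ∧ ((m % c < (2 * d) % c ∧ 0 < m % c) ∨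
                  ((2 * d) % c = m % c ∧ 0 < m % c ∧ Even ((2 * d + m - 2 * ((2 * d) % c)) / i)) ∨
                  (0 < (2 * d) % c ∧ m % c = 0 ∧ Even (m / i))))))) := by
  subst hq
  have hQ := quadPlus_nondegenerate (F := F) d
  have hn : finrank F (Fin d ⊕ Fin d → F) = 2 * d := finrank_plusSpace
  have : Nontrivial (Fin d ⊕ Fin d → F) := Module.nontrivial_of_finrank_pos (R := F) (by omega)
  have hE : ¬ Exc (quadPlus d F) := not_exc_of_finrank (by omega)
  have hT := tp_quadPlus (F := F) d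
  rw [← coe_quadPlus] at hrΩ ⊢
  simp only [nt_plus_iff' hme] at hrΩ ⊢
  refine (forall_Om_iff r fun g => ∃ W, NT (quadPlus d F) m True W ∧ W.map g ≤ W).trans ?_
  by_cases hr2 : r = 2
  · subst hr2
    simp only [true_and, lt_irrefl, false_and, and_false, or_false]
    by_cases hp : p = 2
    · subst hp
      obtain ⟨k, rfl⟩ := hme.two_dvd
      have h2 := FiniteField.even_card_of_char_two (F := F) (ringChar.eq F 2)
      rw [forall_nt_char_two_iff hQ hE hn (by omega) (by omega)]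
      simp only [hT, imp_true_iff, true_and, and_true, true_imp_iff]
      refine ⟨fun H => ?_, fun H s _ _ => ⟨min s (k / 2), s - min s (k / 2), by omega⟩⟩
      obtain ⟨a, b, h⟩ := H (d / 2) (by omega) (by omega)
      omega
    have h2 := two_ne_zero_of_ne (F := F) p hp
    have h3 := isSquare_neg_one_iff_mod h2
    rw [forall_nt_two_iff hQ h2 hn (by omega) (by omega), isSquare_two_iff_mod h2]
    by_cases h4 : IsSquare (-1 : F)
    · simp [h4, h3.1.mp h4, hme]
    · have := h3.2.mp h4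
      simp only [h4, hT, Nat.even_iff, true_iff, false_or] at hme ⊢
      omega
  have hrp := hr.resolve_left hr2
  have hr := (Fact.out : r.Prime).two_le
  have h0 := (cycD_id (F := F) p hrp hr2 (ε := 1) (mul_one 1) hi hc).pos' p hrp
  have h5 := le_of_ng p hrp hr2 hi hc hQ hn (by omega) (fun _ => hme) hrΩ
  have h6 := add_sub_div (n := 2 * d) (m := m) h0.2
  have h7 := le_iff_div_ne_zero (m := m) h0.2
  have h8 := Nat.zero_le (m / c)
  have h9 := Nat.zero_le (2 * d / c)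
  rw [forall_inOm_odd_iff' hQ hE ((Fact.out : r.Prime).odd_of_ne_two hr2),
    forall_nt_iff p hrp hr2 hi hc hQ hn (by omega) (by omega) fun _ => hme]
  simp only [NGC, PT, hT, hr2, ne_eq, hrp, show 2 < r by omega] at h5 ⊢
  by_cases he : Even i
  · obtain rfl : c = i := by rw [hc, if_pos he]
    simp only [he, Nat.not_odd_iff_even.mpr he, false_or, true_iff, false_and, true_and, ne_eq,
      not_false_iff] at h5 ⊢
    simp only [Nat.even_iff, Nat.odd_iff] at h5 ⊢
    omega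
  · simpa [he, Nat.not_even_iff_odd.mp he] using h5

end Cfsg.Agent.S5974
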