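import Cfsg.Statements.S5983
import Cfsg.Agent.Known.ElusG
import Cfsg.Agent.Class.GeoForms
import Cfsg.Agent.Known.F4Prime

set_option autoImplicit false
open scoped MatrixGroups
open Cfsg

namespace Cfsg.Agent.S5983

open Cfsg.Lib.Known Cfsg.Lib.Class Cfsg.Lib.Class.Orth QuadraticMap Module

/-- Elements of prime order of PSp_n(q), q even, and the subgroups of orthogonal type. Here `T = Sp_{2d}(F)` for a field `F` of characteristic 2 with `q` elements (`d ≥ 2`, `(d, q) ≠ (2, 2)`), realised as the invertible matrices preserving the standard alternating form; `Q` is a non-degenerate quadratic form on `F^{2d}` whose polar form is that alternating form, and `H` is the subgroup of `T` preserving `Q` up to a scalar (equivalently preserving `Q`) — a subgroup of type O^±_{2d}(q) (maximality is not assumed); `Q` is of plus type when `F^{2d}` contains a `d`-dimensional subspace on which `Q` vanishes, of minus type otherwise. Ω is the set of cosets of `H` in `T`, so an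 element of `T` of prime order `r` (`x ∈ T` with `x^r` scalar, `x` not scalar) fixes a point of Ω exactly when some `T`-conjugate of `x` preserves `Q`. Let `r` be a prime dividing the index of `H`. Then every element of `T` of order `r` fixes a point of Ω if and only if `r = 2` and either `Q` is of plus type or `d` is odd. -/
theorem result {F : Type*} [Field F] [Fintype F] {p : ℕ} [Fact p.Prime] [CharP F p] {q : ℕ} (hq : Fintype.card F = q)
    (hp : p = 2) (d : ℕ) (hd : 2 ≤ d) (hT : (d, q) ≠ (2, 2)) (Q : (Fin d ⊕ Fin d → F) → F) (hQ : Cfsg.Geo.IsNondegenerateQuadraticForm Q)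
    (hQf : ∀ u v, QuadraticMap.polar Q u v = Cfsg.sympForm d F u v)
    (r : ℕ) [Fact r.Prime]
    (hΩ : r ∣ (Cfsg.Geo.quadSimilarityGroup Q).relIndex (Cfsg.spGL d F)) :
    (∀ x ∈ Cfsg.spGL d F, (∃ z : F, ((x ^ r : GL (Fin d ⊕ Fin d) F) : Matrix (Fin d ⊕ Fin d) (Fin d ⊕ Fin d) F) = z • (1 : Matrix (Fin d ⊕ Fin d) (Fin d ⊕ Fin d) F)) →
      (∀ z : F, (x : Matrix (Fin d ⊕ Fin d) (Fin d ⊕ Fin d) F) ≠ z • (1 : Matrix (Fin d ⊕ Fin d) (Fin d ⊕ Fin d) F)) →
      ∃ g ∈ Cfsg.spGL d F, g⁻¹ * x * g ∈ Cfsg.Geo.quadSimilarityGroup Q) ↔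
    (r = 2 ∧ (Cfsg.Geo.IsPlusTypeOn Q ⊤ ∨ Odd d)) := by
  subst hp hq
  obtain ⟨Q, rfl⟩ : ∃ Q' : QuadraticForm F _, ⇑Q' = Q := ⟨_, coe_geoQuad hQ⟩
  have hB : polarBilin Q = sympBilin d F := LinearMap.ext₂ fun u v => by simpa using hQf u v
  have hn := sympBilin_nondegenerate (F := F) d
  have hV := finrank_symp_space (F := F) d
  have hS := mem_spGL_iff_glLin (F := F) d
  have h := ha_symp (F := F) d
  rw [← hB] at hn hS h
  have hT : ∀ g ∈ spGL d F, g ∈ Geo.quadSimilarityGroup Q ↔ glLin _ F g ∈ O Q := fun g hg => by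
    refine ⟨fun ⟨c, hc⟩ => mem_O.mpr fun v => ?_, fun h => ⟨1, by simpa using mem_O.mp h⟩⟩
    have : Nontrivial (Fin d ⊕ Fin d → F) := Module.nontrivial_of_finrank_pos (R := F) (by omega)
    obtain ⟨u, hu⟩ := exists_ne (0 : Fin d ⊕ Fin d → F)
    obtain ⟨w, hw⟩ := exists_polar_eq_one' hn hu
    have h1 := (hS g).mp hg u w
    simp only [polarBilin_apply_apply, polar, ← Matrix.mulVec_add, glLin_apply, hc] at h1 hw
    rw [glLin_apply, hc, show (c : F) = 1 by linear_combination h1 + (1 - c) * hw, one_mul]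
  rw [elusIn_iff hS hT, show Geo.IsPlusTypeOn Q ⊤ ↔ IsPlus Q by
    simp [Geo.IsPlusTypeOn, IsPlus, Geo.IsTotallySingularQuad]]
  rw [relIndex_glLin hS hT] at hΩ
  have hA := polarBilin_isAlt_two Q
  have hp := isPlus_iff_tp hn ⟨d, by omega⟩
  by_cases hr2 : r = 2
  · subst hr2
    refine Iff.trans ⟨fun H => ?_, fun H x hx ⟨z, h1⟩ h2 => ?_⟩ (and_iff_right rfl).symm
    · by_contra! h1
      obtain ⟨t, h2, h3⟩ := exists_SpB_inr hn hA hV (Nat.not_odd_iff_even.mp h1.2) (by omega) le_rfl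
      have h4 := mul_self_of_orderOf h2
      obtain ⟨g, hg, h5⟩ := H t.1 t.2 ⟨1, LinearMap.ext fun v => by
        simpa [pow_two] using ((witt2_SpB hn hA).isInv h4).invol v⟩ fun z hz => by
          have h5 : z * z = 1 := by
            have : Nontrivial (Fin d ⊕ Fin d → F) :=
              Module.nontrivial_of_finrank_pos (R := F) (by omega)
            exact h.norm_of_pow_eq t.2 (k := 1) (by rw [pow_one, hz])
          rw [(mul_self_eq_one_iff.mp h5).elim id fun h => h.trans (CharTwo.neg_eq 1),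
            one_smul] at hz
          rw [show t = 1 from Subtype.ext (LinearEquiv.toLinearMap_injective hz)] at h2
          simp at h2
      rw [← invType_eq_of_conj (t := g⁻¹ * t.1 * g) hg (by simp), invType_eq_inr_iff] at h3
      refine h1.1 (hp.mpr (((exists_O_inr_iff hn).mp ⟨⟨_, h5⟩, Subtype.ext ?_, h3⟩).2.2 hV.symm))
      have := congrArg Subtype.val h4
      simp only [Subgroup.coe_mul, mul_assoc, mul_inv_cancel_left] at this ⊢
      rw [← mul_assoc t.1, this]
      simp
    · have : Nontrivial (Fin d ⊕ Fin d → F) := Module.nontrivial_of_finrank_pos (R := F) (by omega)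
      have h3 : z * z = 1 := h.norm_of_pow_eq hx h1
      rw [(mul_self_eq_one_iff.mp h3).elim id fun h => h.trans (CharTwo.neg_eq 1), one_smul] at h1
      have h4 : (⟨x, hx⟩ : SpB (polarBilin Q)) * ⟨x, hx⟩ = 1 :=
        Subtype.ext (LinearEquiv.toLinearMap_injective ((pow_two _).symm.trans h1))
      have h5 : IsInv _ x := (witt2_SpB hn hA).isInv h4
      have h6 := h5.two_mul_finrank_le (witt2_SpB hn hA).sym
      obtain ⟨t, h7, h8⟩ : ∃ t : O Q, t * t = 1 ∧
          invType (polarBilin Q) t.1 = invType (polarBilin Q) x := by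
        simp only [invType_eq_iff]
        by_cases h7 : ∀ v, polarBilin Q v (x v) = 0
        · have h8 := h5.even_of_alt (witt2_SpB hn hA).sym hA h7
          obtain ⟨t, h9, h10, h11⟩ := (exists_O_inr_iff hn).mpr ⟨h8, h6, fun h =>
            hp.mp (H.resolve_right (Nat.not_odd_iff_even.mpr
              ((by omega : finrank F (resSp x) = d) ▸ h8)))⟩
          exact ⟨t, h9, h10, iff_of_true h11 h7⟩
        · obtain ⟨t, h9, h10, h11⟩ := exists_O_inl' hn
            (fun h => h7 fun v => by rw [finrank_resSp_eq_zero_iff.mp h]; exact hA v) h6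
          exact ⟨t, h9, h10, iff_of_false h11 h7⟩
      obtain ⟨g, hg⟩ := isConj_iff.mp (((witt2_SpB hn hA).isConj_iff (t := ⟨t.1, O_le_SpB t.2⟩)
        (Subtype.ext (congrArg Subtype.val h7 :)) h4).mpr h8)
      exact ⟨g.1, g.2, conj_eq_of_apply (conj_eq_iff_linear.mp hg) ▸ t.2⟩
  refine iff_of_false (fun H => ?_) fun h => hr2 h.1
  have hr := (Fact.out : r.Prime)
  have hq := WE.not_dvd_card (F := F) 2 hr2
  have h1 := relIndex_mul_card_of_le (O_le_SpB (Q := Q))
  have hq1 : 1 < Fintype.card F := Fintype.one_lt_card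
  obtain ⟨m, rfl⟩ : ∃ m, d = m + 1 := ⟨d - 1, by omega⟩
  have h2 : ∏ i ∈ Finset.range m, (Fintype.card F ^ (2 * (i + 1)) - 1) ≠ 0 :=
    Finset.prod_ne_zero_iff.mpr fun i _ => Nat.sub_ne_zero_of_lt (Nat.one_lt_pow (by omega) hq1)
  have h3 : Fintype.card F ^ (2 * (m + 1)) - 1 =
      (Fintype.card F ^ (m + 1) + 1) * (Fintype.card F ^ (m + 1) - 1) := by
    rw [← Nat.sq_sub_sq, ← pow_mul, mul_comm, one_pow]
  have h4 := Nat.sub_ne_zero_of_lt (Nat.one_lt_pow m.add_one_ne_zero hq1)
  rw [card_SpB hn hA hV, spOrd, Finset.prod_range_succ, h3] at h1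
  have h5 : (IsPlus Q → r ∣ Fintype.card F ^ (m + 1) + 1) ∧
      (¬ IsPlus Q → r ∣ Fintype.card F ^ (m + 1) - 1) := ⟨fun h5 => by
    rw [card_O_plus hn hV h5, Nat.card_eq_fintype_card] at h1
    exact dvd_of_mul_eq_pow_mul (a := (m + 1) ^ 2) (b := (m + 1) * m) hr hq (mul_ne_zero h4 h2)
      (by linear_combination h1) (hΩ.mul_right 2), fun h5 => by
    rw [card_O_minus hn hV h5, Nat.card_eq_fintype_card] at h1
    exact dvd_of_mul_eq_pow_mul (a := (m + 1) ^ 2) (b := (m + 1) * m) hr hq (mul_ne_zero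
      (Fintype.card F ^ (m + 1)).add_one_ne_zero h2) (by linear_combination h1) (hΩ.mul_right 2)⟩
  obtain ⟨j, hj⟩ := lcm_two_dvd rfl ((dvd_pow_sub_one_iff (by omega) r _).mp (h3 ▸ (em _).elim
    (fun h => (h5.1 h).mul_right _) fun h => (h5.2 h).mul_left _)) (even_two_mul _)
  obtain ⟨y, hy, -, h6, h7⟩ := H.sp_odd 2 h hr2 hr2 rfl rfl (j := j)
    (by rintro rfl; omega) (by omega)
  have h8 := isPlus_iff_of_free 2 hr2 hr2 hn m.succ_ne_zero hV (mem_O.mp hy) h6 fun v hv =>
    (Submodule.eq_bot_iff _).mp (Submodule.finrank_eq_zero.mp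
      (Nat.add_eq_right.mp (h7.trans (hV.trans hj)))) v (sub_eq_zero.mpr hv)
  rw [← dvd_pow_sub_one_iff (by omega)] at h8
  by_cases h9 : IsPlus Q
  · have := Nat.dvd_sub (h5.1 h9) (h8.mp h9)
    rw [show Fintype.card F ^ (m + 1) + 1 - (Fintype.card F ^ (m + 1) - 1) = 2 by omega] at this
    exact hr2 ((Nat.prime_dvd_prime_iff_eq hr Nat.prime_two).mp this)
  · exact h9 (h8.mpr (h5.2 h9))

end Cfsg.Agent.S5983
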