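import Cfsg.Statements.S5984
import Cfsg.Agent.Known.ElusPair

set_option autoImplicit false
open scoped MatrixGroups
open Cfsg

namespace Cfsg.Agent.S5984

open Cfsg.Lib.Known Cfsg.Lib.Class Cfsg.Lib.Class.Orth QuadraticMap Module

/-- Elements of prime order of PSU_n(q) and the stabilizers of pairs of complementary totally singular subspaces. Here `T = PSU_n(q)` is realised through `SU_n(q)`, the matrices of determinant 1 over the field `F` with `q²` elements preserving the hermitian form `Σ uᵢ vᵢ^q`, with `n ≥ 4` even; `D` is a pair of complementary subspaces of dimension `n/2` on each of which the form vanishes identically, and `H` is the subgroup of `SU_n(q)` fixing or interchanging the two members — a subgroup of type GL_{n/2}(q²).2 (maximality is not assumed). Ω is the set of cosets of `H`, so an element of `T` of prime order `r` (`x ∈ SU_n(q)` with `x^r` scalar, `x` not scalar) fixes a point of Ω exactly when some `SU_n(q)`-conjugate of `x` lies in `H`.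 Let `r` be a prime dividing the index of `H`. Then every element of `T` of order `r` fixes a point of Ω if and only if `r = 2`, `q` is odd and `(q + 1)_2 ≤ (n)_2` (2-parts). -/
theorem result {F : Type*} [Field F] [Fintype F] {p : ℕ} [Fact p.Prime] [CharP F p] {q : ℕ} (hq : Fintype.card F = q ^ 2)
    (n : ℕ) (hn : 4 ≤ n) (he : Even n) (D : Fin 2 → Submodule F (Fin n → F)) (hD : Cfsg.Geo.IsMDecomposition (n / 2) D)
    (hDs : ∀ i, Cfsg.Geo.IsTotallySingularFor (Cfsg.hermForm n F q) (D i))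
    (r : ℕ) [Fact r.Prime]
    (hΩ : r ∣ (Cfsg.Geo.decompositionStabilizer D).relIndex (Cfsg.GU n F q ⊓ Cfsg.Geo.specialLinear (Fin n) F)) :
    (∀ x ∈ Cfsg.GU n F q ⊓ Cfsg.Geo.specialLinear (Fin n) F, (∃ z : F, ((x ^ r : GL (Fin n) F) : Matrix (Fin n) (Fin n) F) = z • (1 : Matrix (Fin n) (Fin n) F)) →
      (∀ z : F, (x : Matrix (Fin n) (Fin n) F) ≠ z • (1 : Matrix (Fin n) (Fin n) F)) →
      ∃ g ∈ Cfsg.GU n F q ⊓ Cfsg.Geo.specialLinear (Fin n) F, g⁻¹ * x * g ∈ Cfsg.Geo.decompositionStabilizer D) ↔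
    (r = 2 ∧ Odd q ∧ padicValNat 2 (q + 1) ≤ padicValNat 2 n) := by
  have hh := Form.herm_hermSesq hq n
  have h := ha_of_herm hh
  have hn' : finrank F (Fin n → F) = n := by simp
  have : Nontrivial (Fin n → F) := Module.nontrivial_of_finrank_pos (R := F) (by omega)
  have hσ := frobq_ne_id hq
  obtain ⟨d, rfl⟩ := he
  have hd : ∀ i, finrank F (D i) = d := fun i => (hD.finrank_eq i).trans (by omega)
  have hP : TPair (hermSesq hq (d + d)) (D 0) (D 1) :=
    ⟨h.isCompl_of_sup (eq_top_iff.mpr (hD.iSup_eq_top ▸ iSup_le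
      (Fin.forall_fin_two.mpr ⟨le_sup_left, le_sup_right⟩)))
      (fun u hu v hv => hDs 0 v hv u hu) (fun u hu v hv => hDs 1 v hv u hu),
      fun u hu v hv => hDs 0 v hv u hu, fun u hu v hv => hDs 1 v hv u hu⟩
  refine (forall_GL_iff _ (fun g => (∀ u v, hermSesq hq (d + d) (g u) (g v) =
    hermSesq hq (d + d) u v) ∧ LinearMap.det g = 1)
    (fun x => and_congr (mem_GU_iff hq x) (mem_specialLinear_iff x)) (fun g hg => by simp [hg.2]) r _
    (fun g => ∃ U W, TPair (hermSesq hq (d + d)) U W ∧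
      ((U.map g = U ∧ W.map g = W) ∨ (U.map g = W ∧ W.map g = U))) fun x hx => ⟨?_, ?_⟩).trans ?_
  · rintro ⟨g, hg, τ, hτ⟩
    simp only [map_conj_eq_iff] at hτ
    refine ⟨_, _, hP.map (g := glLin _ F g) ((mem_GU_iff hq g).mp hg.1), ?_⟩
    rw [hτ, hτ]
    exact ((by decide : ∀ τ : Equiv.Perm (Fin 2), (τ 0 = 0 ∧ τ 1 = 1) ∨ (τ 0 = 1 ∧ τ 1 = 0))
      τ).imp (fun h => by rw [h.1, h.2]; exact ⟨rfl, rfl⟩) fun h => by rw [h.1, h.2]; exact ⟨rfl, rfl⟩
  · rintro ⟨U, W, h1, h2⟩
    obtain ⟨g, hg, h3, rfl, rfl⟩ := hP.exists_map_eq_det h.toHForm hσ h1 (ne_bot_of_finrank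
      (a := d) (by have := h1.finrank_eq h.toHForm; omega) (by omega))
    obtain ⟨g, rfl⟩ := (glLin _ F).surjective g
    refine ⟨g, ⟨(mem_GU_iff hq g).mpr hg, (mem_specialLinear_iff g).mpr h3⟩, ?_⟩
    rcases h2 with h2 | h2
    · exact ⟨1, Fin.forall_fin_two.mpr ⟨(map_conj_eq_iff ..).mpr h2.1, (map_conj_eq_iff ..).mpr h2.2⟩⟩
    · exact ⟨Equiv.swap 0 1,
        Fin.forall_fin_two.mpr ⟨(map_conj_eq_iff ..).mpr h2.1, (map_conj_eq_iff ..).mpr h2.2⟩⟩
  simp only [and_imp]
  have hr := (Fact.out : r.Prime)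
  have hpq : p ∣ q := by
    obtain ⟨f, -, hf⟩ := FiniteField.card F p
    exact (Fact.out : p.Prime).dvd_of_dvd_pow (hq ▸ hf ▸ dvd_pow_self p f.ne_zero : p ∣ q ^ 2)
  have hmem : ∀ {g : End F (Fin (d + d) → F)} {U W : Submodule F (Fin (d + d) → F)},
      U.map g = W → ∀ v ∈ U, g v ∈ W := fun h v hv => h ▸ Submodule.mem_map_of_mem hv
  by_cases hrp : r = p
  · subst hrp
    refine iff_of_false (fun H => ?_) fun ⟨h1, h2, _⟩ => h2.not_two_dvd_nat (h1 ▸ hpq)
    classical
    obtain ⟨g, hg, h1⟩ := h.exists_unip (μ := Multiset.replicate (d + d - 2) 1 +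
      Multiset.replicate 1 2) (by simp +contextual [or_imp, Multiset.mem_replicate]) (by simp; omega)
      fun h => absurd h hσ
    obtain ⟨U, W, h2, h3 | h3⟩ := H g hg (det_of_elDiv_unip h1) ⟨1, (pow_char_of_elDiv_unip r
      (by simp +contextual [or_imp, Multiset.mem_replicate, hr.two_le, hr.one_le]) h1).trans (one_smul _ _).symm⟩
      (ne_smul_of_elDiv_unip h1 fun h => by simpa using h 2 (by simp))
    · have := h2.count_even h.toHForm hg (hmem h3.1) (hmem h3.2) (x := (Polynomial.X - Polynomial.C 1, 2))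
        (Prod.ext dualPoly_X_sub_one rfl)
      rw [h1, count_map_X_sub_C] at this
      simp [Multiset.count_replicate] at this
    · have h4 := h2.le_finrank_range (hmem h3.1)
      have h5 := LinearMap.finrank_range_add_finrank_ker (g - 1)
      have h6 := h2.finrank_eq h.toHForm
      rw [Multiset.map_add, Multiset.map_replicate, Multiset.map_replicate] at h1
      have h7 := finrank_ker_of_two h1 (Polynomial.monic_X_sub_C 1) (Polynomial.irreducible_X_sub_C 1)
      rw [show Polynomial.aeval g (Polynomial.X - Polynomial.C 1 : Polynomial F) = g - 1 by simp,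
        if_pos rfl, if_pos rfl, Polynomial.natDegree_X_sub_C] at h7
      omega
  by_cases hr2 : r = 2
  · subst hr2
    have h2 := two_ne_zero_of_ne (F := F) p (Ne.symm hrp)
    rw [h.forall_su_iff p hrp (odd_of_card_sq hq h2).add_one.two_dvd _
      (fun z g hz h => by simpa only [map_smul_eq hz] using h) (Ψ := True)
      fun g j hg hj hN => iff_true_intro (by
        obtain ⟨u, hu⟩ := (hN.1 rfl).2
        obtain ⟨U, W, h3, h4, h5, h6, h7, -⟩ :=
          Rig.exists_isCompl_totIso (Or.inl ⟨hσ, rfl⟩) h.toHForm hg hu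
        exact ⟨U, W, ⟨h3, h4, h5⟩, Or.inl ⟨map_eq_of_inv (h.injective_of_isom hg) h6,
          map_eq_of_inv (h.injective_of_isom hg) h7⟩⟩)]
    simp only [odd_of_card_sq hq h2, true_and, or_true, and_true, hn']
    constructor
    · intro H
      by_contra h3
      obtain ⟨a, h4, h5⟩ := (exists_norm_pow_eq_neg_iff hq h2 (by omega)).mpr (not_le.mp h3)
      obtain ⟨g, A, C, hg, h6, hA, h7, h8⟩ := h.exists_invol hσ h2 (k := d + d - 1)
        (j := 1) (by omega)
      obtain ⟨U, W, h9, h10⟩ := H g hg ⟨a, h4, by rw [h5, hA.det_of_sq h6, h8]; simp⟩ h6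
        (hA.ne_smul (ne_bot_of_finrank h7 (by omega)) (ne_bot_of_finrank h8 one_pos))
      have h11 := h9.finrank_eq h.toHForm
      rcases h10 with h10 | h10
      · obtain ⟨a, c, h12⟩ := (h.ts_iff_of_sq hA h6 _).mp ⟨U, rfl, h9.left, h10.1.le⟩
        omega
      · have := (h9.le_finrank_range (hmem h10.1)).trans (Submodule.finrank_mono
          (show _ ≤ C by rintro _ ⟨v, rfl⟩; exact hA.sub_mem v))
        omega
    · rintro H g hg ⟨a, h3, h4⟩ h5 -
      obtain ⟨A, C, hA⟩ := exists_fixSp_of_sq h.toHForm h2 hg h5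
      have h6 := hA.finrank_add
      have h7 : finrank F C % 2 = 0 := by
        by_contra h7
        rw [hA.det_of_sq h5, Odd.neg_one_pow (n := finrank F C) (Nat.odd_iff.mpr (by omega)),
          mul_neg_one, neg_eq_iff_eq_neg] at h4
        exact H.not_gt ((exists_norm_pow_eq_neg_iff hq h2 (by omega)).mp ⟨a, h3, h4⟩)
      obtain ⟨U, W, h8, h9, h10⟩ := hA.exists_tPair h h5 (Nat.even_iff.mpr (by omega))
        (Nat.even_iff.mpr h7)
      exact ⟨U, W, h8, Or.inl ⟨map_eq_of_inv (h.injective_of_isom hg) h9,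
        map_eq_of_inv (h.injective_of_isom hg) h10⟩⟩
  refine iff_of_false (fun H => ?_) fun h => hr2 h.1
  obtain ⟨k, h1, h2⟩ := hP.exists_dvd hq hh hr
    (fun h => hrp ((Nat.prime_dvd_prime_iff_eq hr Fact.out).mp (by
      obtain ⟨f, -, hf⟩ := FiniteField.card F p
      exact hr.dvd_of_dvd_pow (hf ▸ hq ▸ h.pow two_ne_zero)))) (by
    have : (Geo.specialLinear (Fin (d + d)) F).Normal := MonoidHom.normal_ker _
    refine (hΩ.trans (relIndex_inf_dvd _ _ _)).trans ((Subgroup.relIndex_dvd_of_le_left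
      (H := (stabSub (D 0) ⊓ stabSub (D 1)).comap (glLin _ F).toMonoidHom)
      (K := Geo.decompositionStabilizer D) _ fun g hg =>
        ⟨1, Fin.forall_fin_two.mpr ⟨mem_stabSub_iff_map.mp hg.1,
          mem_stabSub_iff_map.mp hg.2⟩⟩).trans (dvd_of_eq ?_))
    rw [Subgroup.relIndex_comap]
    congr 1
    ext g
    obtain ⟨g, rfl⟩ := (glLin _ F).surjective g
    exact (Subgroup.mem_map_iff_mem (glLin _ F).injective).trans (mem_GU_iff hq g))
  have key : ∀ {g A C b c j}, OrdR (hermSesq hq (d + d)) g b c A C j 0 → finrank F A < d + d →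
      g ^ r = 1 → ¬ ∃ U W, TPair (hermSesq hq (d + d)) U W ∧
      ((U.map g = U ∧ W.map g = W) ∨ (U.map g = W ∧ W.map g = U)) := by
    rintro g A C b c j hA h3 h4 ⟨U, W, h5, h6⟩
    have h7 := h5.finrank_eq h.toHForm
    obtain ⟨k', j', h8, h9, h10⟩ := (h.ts_iff hA _).mp ⟨U, rfl, h5.left,
      h6.elim (fun h => h.1.le) fun h => map_le_iff_forall.mpr (inv_of_sq_inv
        (hr.odd_of_ne_two hr2) h4 fun v hv => hmem h.2 _ (hmem h.1 v hv))⟩
    obtain rfl : j' = 0 := by omega
    omega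
  by_cases hi2 : r ∣ q + 1
  · obtain ⟨g, A, C, hg, h3, h4, h5, hA, h6⟩ := h.exists_pairs p hrp hr2 hi2 (s := 1)
      (k := d + d - 2) (by have := hr.two_le; omega) one_ne_zero (by omega)
    exact key hA (by omega) h4 (H g hg h3 ⟨1, h4.trans (one_smul _ _).symm⟩ h5)
  have hD' := cycD_frob p hq hrp hr2 rfl rfl rfl
  have h3 := (exists_dvd_sq_pow_mul_add_one_iff hr2 (orderOf_ne_zero_of_card_sq p hq hrp)).mp
    ⟨k, by rwa [← pow_mul, ← pow_succ]⟩
  have h4 := Nat.le_of_dvd (by omega) (dvd_of_neg_pow_eq_one (e := 2 * k + 1) hr2 rfl rfl (by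
    have := (ZMod.natCast_eq_zero_iff _ _).mpr h2
    push_cast at this
    rw [(odd_two_mul_add_one k).neg_one_pow, eq_neg_of_add_eq_zero_left this]))
  obtain ⟨N, hN⟩ := hD'.exists_succ p hrp
  have h5 := (hD'.pos' p hrp).2
  rw [hd] at h1
  obtain ⟨g, A, C, hg, h6, hA, h7⟩ := h.exists_ordR p hD' hrp (j := 1) (l := 0)
    (k := d + d - _) (by rw [mul_one, Nat.sub_add_cancel (by omega), hn'])
    ⟨fun _ => by omega, fun h => absurd h3 h⟩
  exact key hA (by omega) h6 ((h.forall_su_iff_of_not_dvd hi2 _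
    fun z g hz h => by simpa only [map_smul_eq hz] using h).mp H g hg h6
      ((hA.ne_one_iff h5.ne').mpr one_ne_zero))

end Cfsg.Agent.S5984
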