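import Cfsg.Statements.S5988
import Cfsg.Agent.Known.ElusO5

set_option autoImplicit false
open scoped MatrixGroups
open Cfsg

namespace Cfsg.Agent.S5988

open Cfsg.Lib.Known Cfsg.Lib.Class Cfsg.Lib.Class.Orth QuadraticMap Module

/-- Elements of prime order of PΩ⁺_n(q) with no fixed elliptic `m`-space. Here `T = PΩ⁺_n(F)`, `n = 2d ≥ 8`, realised through `Ω⁺_n(q)`, the commutator subgroup of the isometry group of `Q = Σ xᵢyᵢ` over the field `F` with `q` elements; an element of `T` of prime order `r` is an element `x` of `Ω⁺_n(q)` with `x^r` scalar and `x` not scalar; a nondegenerate `m`-space (even `m`) is a subspace on which the polar form of `Q` is nondegenerate; it is hyperbolic if it contains an `m/2`-dimensional subspace on which `Q` vanishes, elliptic otherwise. Let `m` be even with `2 ≤ m < n/2` and let `r` be a prime dividing the number of elliptic `m`-spaces; for `r ≠ p` let `i` be the multiplicative order of `q` modulo `r`, `c = i` for `i` even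 and `c = 2i` for `i` odd, and write `k = n mod c`, `ℓ = m mod i`, `ℓ' = m mod c`, `n' = ⌊n/i⌋`, `m' = ⌊m/i⌋`, `t = (r−1)/i`. Then every element of `T` of order `r` fixes some elliptic `m`-space if and only if one of: (i) `r = 2 ≠ p` and either `n ≡ 0 (mod 4)`, `q ≡ 3 (mod 4)` and `m ≡ 2 (mod 4)`, or `n ≡ 2 (mod 4)` and `q ≢ 1 (mod 8)`; (ii) `r ≠ p` odd, `i` odd, `c ≤ m` and `k > ℓ' > 0`; (iii) `r ≠ p` odd, `i` even, and either `k = 0` and (`n/i` odd, or `ℓ' = 0` and `m/i` odd), or `i ≤ m` and (`k > ℓ' > 0`, or `k = ℓ' > 0` and `(n + m − 2k)/i` odd, or `k > ℓ' = 0` and `m/i` odd). (For `r = p` there is always an element of order `p` fixing no elliptic `m`-space.) -/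
theorem result {F : Type*} [Field F] [Fintype F] {p : ℕ} [Fact p.Prime] [CharP F p] {q : ℕ} (hq : Fintype.card F = q)
    (d m : ℕ) (hd : 4 ≤ d) (hm : 2 ≤ m) (hme : Even m) (hmd : m < d)
    (r : ℕ) [Fact r.Prime]
    (hrΩ : r ∣ Nat.card {W : Submodule F (Fin d ⊕ Fin d → F) // Module.finrank F ↥W = m ∧ Cfsg.Geo.IsNondegenerateOn (QuadraticMap.polar (Cfsg.quadFormPlus d F)) W ∧ ¬ Cfsg.Geo.IsPlusTypeOn (Cfsg.quadFormPlus d F) W})
    (i c : ℕ) (hi : i = orderOf (q : ZMod r)) (hc : c = if Even i then i else 2 * i) :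
    (∀ x : GL (Fin d ⊕ Fin d) F, x ∈ Cfsg.Geo.omegaGL (Cfsg.quadFormPlus d F) →
      (∃ z : F, ((x ^ r : GL (Fin d ⊕ Fin d) F) : Matrix (Fin d ⊕ Fin d) (Fin d ⊕ Fin d) F) = z • (1 : Matrix (Fin d ⊕ Fin d) (Fin d ⊕ Fin d) F)) →
      (∀ z : F, (x : Matrix (Fin d ⊕ Fin d) (Fin d ⊕ Fin d) F) ≠ z • (1 : Matrix (Fin d ⊕ Fin d) (Fin d ⊕ Fin d) F)) →
      ∃ W : Submodule F (Fin d ⊕ Fin d → F), (Module.finrank F ↥W = m ∧ Cfsg.Geo.IsNondegenerateOn (QuadraticMap.polar (Cfsg.quadFormPlus d F)) W ∧ ¬ Cfsg.Geo.IsPlusTypeOn (Cfsg.quadFormPlus d F) W) ∧ W.map (Matrix.toLin' (x : Matrix (Fin d ⊕ Fin d) (Fin d ⊕ Fin d) F)) ≤ W) ↔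
    ((r = 2 ∧ p ≠ 2 ∧ ((Even d ∧ q % 4 = 3 ∧ m % 4 = 2) ∨ (Odd d ∧ q % 8 ≠ 1))) ∨
     (r ≠ p ∧ 2 < r ∧ Odd i ∧ c ≤ m ∧ 0 < m % c ∧ m % c < (2 * d) % c) ∨
     (r ≠ p ∧ 2 < r ∧ Even i ∧
       (((2 * d) % c = 0 ∧ (Odd ((2 * d) / i) ∨ (m % c = 0 ∧ Odd (m / i)))) ∨
        (i ≤ m ∧ ((0 < m % c ∧ m % c < (2 * d) % c) ∨
                  (0 < m % c ∧ m % c = (2 * d) % c ∧ Odd ((2 * d + m - 2 * ((2 * d) % c)) / i)) ∨
                  (m % c = 0 ∧ 0 < (2 * d) % c ∧ Odd (m / i))))))) := by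
  subst hq
  have hQ := quadPlus_nondegenerate (F := F) d
  have hn : finrank F (Fin d ⊕ Fin d → F) = 2 * d := finrank_plusSpace
  have : Nontrivial (Fin d ⊕ Fin d → F) := Module.nontrivial_of_finrank_pos (R := F) (by omega)
  have hE : ¬ Exc (quadPlus d F) := not_exc_of_finrank (by omega)
  have hT := tp_quadPlus (F := F) d
  rw [← coe_quadPlus] at hrΩ ⊢
  simp only [nt_minus_iff hme] at hrΩ ⊢
  refine (forall_Om_iff r fun g => ∃ W, NT (quadPlus d F) m False W ∧ W.map g ≤ W).trans ?_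
  by_cases hr2 : r = 2
  · subst hr2
    simp only [true_and, lt_irrefl, false_and, and_false, or_false]
    by_cases hp : p = 2
    · subst hp
      obtain ⟨k, rfl⟩ := hme.two_dvd
      rw [forall_nt_char_two_iff hQ hE hn (by omega) (by omega)]
      simp only [hT, iff_false, not_true, imp_false, true_imp_iff, ne_eq, false_and, imp_true_iff]
      intro H
      obtain ⟨a, b, h⟩ := H (d / 2) (by omega) (by omega)
      omega
    have h2 := two_ne_zero_of_ne (F := F) p hp
    have h3 := isSquare_neg_one_iff_mod h2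
    rw [forall_nt_two_iff hQ h2 hn (by omega) (by omega), isSquare_two_iff_mod h2]
    by_cases h4 : IsSquare (-1 : F)
    · have := h3.1.mp h4
      simp only [h4, hT, hp, Nat.even_iff, Nat.odd_iff, true_or, true_imp_iff, iff_true, and_false,
        imp_false, ne_eq, not_false_iff, true_and]
      omega
    · have := h3.2.mp h4
      simp only [h4, hT, hp, Nat.even_iff, Nat.odd_iff, true_iff, false_iff, false_or, ne_eq,
        not_false_iff, true_and] at hme ⊢
      omega
  have hr := (Fact.out : r.Prime).two_le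
  rw [forall_inOm_odd_iff' hQ hE ((Fact.out : r.Prime).odd_of_ne_two hr2)]
  by_cases hrp : r = p
  · subst hrp
    refine iff_of_false (fun H => ?_) (by simp [hr2])
    obtain ⟨a, b, h4, h5, h6, h7⟩ := exists_two_of_forall r hQ (two_ne_zero_of_ne r hr2) H
      (a := d / 2) (b := 2 * (d % 2)) (by omega) (Or.inl rfl) (by omega) (Or.inr hT)
    rw [Nat.even_iff] at hme
    by_cases h : b = 0
    · exact h6 h
    · exact (h7 (by omega)).mp hT
  have h0 := (cycD_id (F := F) p hrp hr2 (ε := 1) (mul_one 1) hi hc).pos' p hrp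
  have h5 := le_of_ng p hrp hr2 hi hc hQ hn (by omega) (fun _ => hme) hrΩ
  have h6 := add_sub_div (n := 2 * d) (m := m) h0.2
  have h7 := le_iff_div_ne_zero (m := m) h0.2
  have h8 := Nat.zero_le (m / c)
  have h9 := Nat.zero_le (2 * d / c)
  rw [forall_nt_iff p hrp hr2 hi hc hQ hn (by omega) (by omega) fun _ => hme]
  simp only [NGC, PT, hT, hr2, ne_eq, hrp, show 2 < r by omega] at h5 ⊢
  by_cases he : Even i
  · obtain rfl : c = i := by rw [hc, if_pos he]
    simp only [he, Nat.not_odd_iff_even.mpr he, false_or, true_iff, false_iff, false_and, true_and,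
      not_false_iff] at h5 ⊢
    simp only [Nat.even_iff, Nat.odd_iff] at h5 ⊢
    omega
  · simp only [he, Nat.not_even_iff_odd.mp he, true_or, iff_true, imp_false, imp_true_iff,
      true_imp_iff, false_and, true_and, false_or, or_false, not_false_iff] at h5 ⊢
    omega

end Cfsg.Agent.S5988
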