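import Cfsg.Statements.S5989
import Cfsg.Agent.Known.ElusO5

set_option autoImplicit false
open scoped MatrixGroups
open Cfsg

namespace Cfsg.Agent.S5989

open Cfsg.Lib.Known Cfsg.Lib.Class Cfsg.Lib.Class.Orth QuadraticMap Module

/-- Elements of prime order of PΩ⁺_n(q), q odd, with no fixed nondegenerate `m`-space of odd dimension. Here `T = PΩ⁺_n(F)`, `n = 2d ≥ 8`, realised through `Ω⁺_n(q)`, the commutator subgroup of the isometry group of `Q = Σ xᵢyᵢ` over the field `F` with `q` elements; an element of `T` of prime order `r` is an element `x` of `Ω⁺_n(q)` with `x^r` scalar and `x` not scalar; `q` and `m` are odd, `1 ≤ m < n/2`. The nondegenerate `m`-spaces (subspaces on which the polar form is nondegenerate) fall into two isometry classes, each an orbit of `T`, and the two actions are equivalent; fix one such space `W₀` and let Ω be the set of nondegenerate `m`-spaces isometric to `W₀` (some linear isomorphism preserves `Q`). Let `r` be a prime dividing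 the size of Ω; for `r ≠ p` let `i` be the multiplicative order of `q` modulo `r`, `c = i` for `i` even and `c = 2i` for `i` odd, and write `k = n mod c`, `ℓ = m mod i`, `ℓ' = m mod c`, `n' = ⌊n/i⌋`, `m' = ⌊m/i⌋`, `t = (r−1)/i`. Then every element of `T` of order `r` fixes a member of Ω if and only if one of: (i) `r = 2`, `n ≡ 2 (mod 4)` and `q ≢ 1 (mod 8)`; (ii) `r ≠ p` odd, `i` odd, `c ≤ m` and `k > ℓ' > 0`; (iii) `r ≠ p` odd, `i` even, and either `k = 0` and `n/i` odd, or `i ≤ m` and `k > ℓ' > 0`. (For `r = p` there is always an element of order `p` fixing no member of Ω.) -/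
theorem result {F : Type*} [Field F] [Fintype F] {p : ℕ} [Fact p.Prime] [CharP F p] {q : ℕ} (hq : Fintype.card F = q)
    (hodd : Odd q) (d m : ℕ) (hd : 4 ≤ d) (hm : Odd m) (hmd : m < d)
    (W₀ : Submodule F (Fin d ⊕ Fin d → F)) (hW₀ : Module.finrank F ↥W₀ = m ∧ Cfsg.Geo.IsNondegenerateOn (QuadraticMap.polar (Cfsg.quadFormPlus d F)) W₀)
    (r : ℕ) [Fact r.Prime]
    (hrΩ : r ∣ Nat.card {W : Submodule F (Fin d ⊕ Fin d → F) // Module.finrank F ↥W = m ∧ Cfsg.Geo.IsNondegenerateOn (QuadraticMap.polar (Cfsg.quadFormPlus d F)) W ∧ Cfsg.Geo.AreIsometricFor (Cfsg.quadFormPlus d F) W W₀})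
    (i c : ℕ) (hi : i = orderOf (q : ZMod r)) (hc : c = if Even i then i else 2 * i) :
    (∀ x : GL (Fin d ⊕ Fin d) F, x ∈ Cfsg.Geo.omegaGL (Cfsg.quadFormPlus d F) →
      (∃ z : F, ((x ^ r : GL (Fin d ⊕ Fin d) F) : Matrix (Fin d ⊕ Fin d) (Fin d ⊕ Fin d) F) = z • (1 : Matrix (Fin d ⊕ Fin d) (Fin d ⊕ Fin d) F)) →
      (∀ z : F, (x : Matrix (Fin d ⊕ Fin d) (Fin d ⊕ Fin d) F) ≠ z • (1 : Matrix (Fin d ⊕ Fin d) (Fin d ⊕ Fin d) F)) →
      ∃ W : Submodule F (Fin d ⊕ Fin d → F), (Module.finrank F ↥W = m ∧ Cfsg.Geo.IsNondegenerateOn (QuadraticMap.polar (Cfsg.quadFormPlus d F)) W ∧ Cfsg.Geo.AreIsometricFor (Cfsg.quadFormPlus d F) W W₀) ∧ W.map (Matrix.toLin' (x : Matrix (Fin d ⊕ Fin d) (Fin d ⊕ Fin d) F)) ≤ W) ↔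
    ((r = 2 ∧ Odd d ∧ q % 8 ≠ 1) ∨
     (r ≠ p ∧ 2 < r ∧ Odd i ∧ c ≤ m ∧ 0 < m % c ∧ m % c < (2 * d) % c) ∨
     (r ≠ p ∧ 2 < r ∧ Even i ∧ (((2 * d) % c = 0 ∧ Odd ((2 * d) / i)) ∨ (i ≤ m ∧ 0 < m % c ∧ m % c < (2 * d) % c)))) := by
  subst hq
  have h2 := two_ne_zero_of_odd_card hodd
  have hQ := quadPlus_nondegenerate (F := F) d
  have hn : finrank F (Fin d ⊕ Fin d → F) = 2 * d := finrank_plusSpace
  have : Nontrivial (Fin d ⊕ Fin d → F) := Module.nontrivial_of_finrank_pos (R := F) (by omega)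
  have hT := tp_quadPlus (F := F) d
  have hm' := Nat.odd_iff.mp hm
  rw [← coe_quadPlus] at hrΩ hW₀ ⊢
  simp only [nt_isom_iff hW₀] at hrΩ ⊢
  generalize Tp ((quadPlus d F).restrict W₀) = τ at *
  refine (forall_Om_iff r fun g => ∃ W, NT (quadPlus d F) m τ W ∧ W.map g ≤ W).trans ?_
  by_cases hr2 : r = 2
  · subst hr2
    have h3 := isSquare_neg_one_iff_mod h2
    rw [forall_nt_two_iff hQ h2 hn (by omega) (by omega), isSquare_two_iff_mod h2]
    simp only [true_and, lt_irrefl, false_and, and_false, or_false, Nat.not_even_iff_odd.mpr hm,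
      imp_false, hT, true_iff]
    by_cases h4 : IsSquare (-1 : F)
    · have := h3.1.mp h4
      simp only [h4, Nat.even_iff, Nat.odd_iff, true_or, true_imp_iff]
      omega
    · have := h3.2.mp h4
      simp only [h4, Nat.even_iff, Nat.odd_iff, false_or]
      omega
  have hr := (Fact.out : r.Prime).two_le
  rw [forall_inOm_odd_iff' hQ (not_exc_of_two_ne_zero h2) ((Fact.out : r.Prime).odd_of_ne_two hr2)]
  by_cases hrp : r = p
  · subst hrp
    exact iff_of_false (not_forall_nt_of_odd r hQ h2 hn hd hm τ) (by simp [hr2])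
  have h3 := mod_mod_two (even_c hc) (2 * d)
  have h4 := mod_mod_two (even_c hc) m
  have h5 := le_of_ng p hrp hr2 hi hc hQ hn (by omega) (fun h => absurd h h2) hrΩ
  rw [forall_nt_iff p hrp hr2 hi hc hQ hn (by omega) (by omega) fun h => absurd h h2]
  simp only [NGC, PT, hT, hr2, ne_eq, hrp, show 2 < r by omega, show m % c ≠ 0 by omega,
    show m % c ≠ 2 * d % c by omega] at h5 ⊢
  by_cases he : Even i
  · obtain rfl : c = i := by rw [hc, if_pos he]
    simp only [he, Nat.not_odd_iff_even.mpr he, false_or, true_iff, false_and, true_and,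
      not_false_iff, false_imp_iff, and_true] at h5 ⊢
    simp only [Nat.even_iff, Nat.odd_iff] at h5 ⊢
    omega
  · simp only [he, Nat.not_even_iff_odd.mp he, true_or, iff_true, imp_true_iff, false_imp_iff,
      true_imp_iff, false_and, true_and, and_true, false_or, or_false, not_false_iff] at h5 ⊢
    omega

end Cfsg.Agent.S5989
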