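import Cfsg.Statements.S5990
import Cfsg.Agent.Known.ElusO4

set_option autoImplicit false
open scoped MatrixGroups
open Cfsg

namespace Cfsg.Agent.S5990

open Cfsg.Lib.Known Cfsg.Lib.Class Cfsg.Lib.Class.Orth QuadraticMap Module

/-- Elements of prime order of PΩ⁻_n(q) with no fixed elliptic `m`-space. Here `T = PΩ⁻_n(F)`, `n = 2d ≥ 8`, realised through `Ω⁻_n(q)`, the commutator subgroup of the isometry group of `Q = Σ_{i<d−1} xᵢyᵢ + z₁² + a z₁z₂ + b z₂²` with `z₁² + a z₁z₂ + b z₂²` anisotropic, over the field `F` with `q` elements; an element of `T` of prime order `r` is an element `x` of `Ω⁻_n(q)` with `x^r` scalar and `x` not scalar; a nondegenerate `m`-space (even `m`) is a subspace on which the polar form of `Q` is nondegenerate; it is hyperbolic if it contains an `m/2`-dimensional subspace on which `Q` vanishes, elliptic otherwise. Let `m` be even with `2 ≤ m ≤ n − 2` (no restriction `m < n/2`: fixing an elliptic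 `m`-space is the same as fixing its hyperbolic orthogonal complement) and let `r` be a prime dividing the number of elliptic `m`-spaces, with `r = 2` or `r ≠ p`; for `r ≠ p` let `i` be the multiplicative order of `q` modulo `r`, `c = i` for `i` even and `c = 2i` for `i` odd, and write `k = n mod c`, `ℓ = m mod i`, `ℓ' = m mod c`, `n' = ⌊n/i⌋`, `m' = ⌊m/i⌋`, `t = (r−1)/i`. Then every element of `T` of order `r` fixes some elliptic `m`-space if and only if one of: (i) `r = p = 2` and (`n ≡ 0 (mod 4)` or `m ≡ 2 (mod 4)`); (ii) `r = 2 ≠ p` and (`n ≡ 0 (mod 4)`, or `q ≢ 7 (mod 8)`, or `m ≡ 2 (mod 4)`); (iii) `r ≠ p` odd, `i` odd, and `k = 0` or (`c ≤ m` and `k ≥ ℓ' > 0`); (iv) `r ≠ p` odd, `i` even, and either `k = 0` and (`n/i` even, or `ℓ' = 0` and `m/i` odd), or `k > 0`, `i ≤ m` and (`k > ℓ' > 0`, or `ℓ' = 0` and `m/i` odd, or `k = ℓ'` and `(n + m − 2k)/i` even). (Odd `r = p` is not covered by this statement.) -/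
theorem result {F : Type*} [Field F] [Fintype F] {p : ℕ} [Fact p.Prime] [CharP F p] {q : ℕ} (hq : Fintype.card F = q)
    (d m : ℕ) (hd : 4 ≤ d) (hm : 2 ≤ m) (hme : Even m) (hmn : m + 2 ≤ 2 * d) (a b : F) (hab : ∀ x y : F, x ^ 2 + a * x * y + b * y ^ 2 = 0 → x = 0 ∧ y = 0)
    (r : ℕ) [Fact r.Prime] (hr : r = 2 ∨ r ≠ p)
    (hrΩ : r ∣ Nat.card {W : Submodule F ((Fin (d - 1) ⊕ Fin (d - 1)) ⊕ Fin 2 → F) // Module.finrank F ↥W = m ∧ Cfsg.Geo.IsNondegenerateOn (QuadraticMap.polar (Cfsg.quadFormMinus (d - 1) F a b)) W ∧ ¬ Cfsg.Geo.IsPlusTypeOn (Cfsg.quadFormMinus (d - 1) F a b) W})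
    (i c : ℕ) (hi : i = orderOf (q : ZMod r)) (hc : c = if Even i then i else 2 * i) :
    (∀ x : GL ((Fin (d - 1) ⊕ Fin (d - 1)) ⊕ Fin 2) F, x ∈ Cfsg.Geo.omegaGL (Cfsg.quadFormMinus (d - 1) F a b) →
      (∃ z : F, ((x ^ r : GL ((Fin (d - 1) ⊕ Fin (d - 1)) ⊕ Fin 2) F) : Matrix ((Fin (d - 1) ⊕ Fin (d - 1)) ⊕ Fin 2) ((Fin (d - 1) ⊕ Fin (d - 1)) ⊕ Fin 2) F) = z • (1 : Matrix ((Fin (d - 1) ⊕ Fin (d - 1)) ⊕ Fin 2) ((Fin (d - 1) ⊕ Fin (d - 1)) ⊕ Fin 2) F)) →
      (∀ z : F, (x : Matrix ((Fin (d - 1) ⊕ Fin (d - 1)) ⊕ Fin 2) ((Fin (d - 1) ⊕ Fin (d - 1)) ⊕ Fin 2) F) ≠ z • (1 : Matrix ((Fin (d - 1) ⊕ Fin (d - 1)) ⊕ Fin 2) ((Fin (d - 1) ⊕ Fin (d - 1)) ⊕ Fin 2) F)) →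
      ∃ W : Submodule F ((Fin (d - 1) ⊕ Fin (d - 1)) ⊕ Fin 2 → F), (Module.finrank F ↥W = m ∧ Cfsg.Geo.IsNondegenerateOn (QuadraticMap.polar (Cfsg.quadFormMinus (d - 1) F a b)) W ∧ ¬ Cfsg.Geo.IsPlusTypeOn (Cfsg.quadFormMinus (d - 1) F a b) W) ∧ W.map (Matrix.toLin' (x : Matrix ((Fin (d - 1) ⊕ Fin (d - 1)) ⊕ Fin 2) ((Fin (d - 1) ⊕ Fin (d - 1)) ⊕ Fin 2) F)) ≤ W) ↔
    ((r = 2 ∧ p = 2 ∧ (Even d ∨ m % 4 = 2)) ∨
     (r = 2 ∧ p ≠ 2 ∧ (Even d ∨ q % 8 ≠ 7 ∨ m % 4 = 2)) ∨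
     (r ≠ p ∧ 2 < r ∧ Odd i ∧ ((2 * d) % c = 0 ∨ (c ≤ m ∧ 0 < m % c ∧ m % c ≤ (2 * d) % c))) ∨
     (r ≠ p ∧ 2 < r ∧ Even i ∧
       (((2 * d) % c = 0 ∧ (Even ((2 * d) / i) ∨ (m % c = 0 ∧ Odd (m / i)))) ∨
        (0 < (2 * d) % c ∧ i ≤ m ∧ ((0 < m % c ∧ m % c < (2 * d) % c) ∨ (m % c = 0 ∧ Odd (m / i)) ∨
                                    (m % c = (2 * d) % c ∧ Even ((2 * d + m - 2 * ((2 * d) % c)) / i))))))) := by
  subst hq
  have hQ := quadMinus_nondegenerate (d - 1) hab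
  have hn := finrank_minusSp (F := F) (d := d) (by omega)
  have : Nontrivial ((Fin (d - 1) ⊕ Fin (d - 1)) ⊕ Fin 2 → F) :=
    Module.nontrivial_of_finrank_pos (R := F) (by omega)
  have hE : ¬ Exc (quadMinus (d - 1) F a b) := not_exc_of_finrank (by omega)
  have hT := not_tp_quadMinus (d - 1) hab
  rw [← coe_quadMinus] at hrΩ ⊢
  simp only [nt_minus_iff hme] at hrΩ ⊢
  refine (forall_Om_iff r fun g => ∃ W, NT (quadMinus (d - 1) F a b) m False W ∧ W.map g ≤ W).trans ?_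
  by_cases hr2 : r = 2
  · subst hr2
    simp only [true_and, lt_irrefl, false_and, and_false, or_false]
    by_cases hp : p = 2
    · subst hp
      obtain ⟨k, rfl⟩ := hme.two_dvd
      rw [forall_nt_char_two_iff hQ hE hn (by omega) (by omega)]
      simp only [hT, imp_true_iff, true_and, and_true, imp_false, ne_eq, not_true, false_and,
        or_false, Nat.even_iff]
      refine ⟨fun H => ?_, fun H s _ _ _ =>
        ⟨min s ((k - 1) / 2), s - min s ((k - 1) / 2), by omega⟩⟩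
      obtain ⟨a, b, h⟩ := H ((d - 1) / 2) (by omega) (by omega) (by omega)
      omega
    have h2 := two_ne_zero_of_ne (F := F) p hp
    have h3 := isSquare_neg_one_iff_mod h2
    rw [forall_nt_two_iff hQ h2 hn (by omega) (by omega), isSquare_two_iff_mod h2]
    by_cases h4 : IsSquare (-1 : F)
    · have := h3.1.mp h4
      simp only [h4, hT, hp, true_or, iff_true, false_imp_iff, false_and, false_or, ne_eq,
        not_false_iff, true_and, true_iff]
      omega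
    · have := h3.2.mp h4
      simp only [h4, hT, hp, Nat.even_iff, false_iff, false_or, false_and, ne_eq, not_false_iff,
        true_and] at hme ⊢
      omega
  have hrp := hr.resolve_left hr2
  have hr := (Fact.out : r.Prime).two_le
  have h0 := (cycD_id (F := F) p hrp hr2 (ε := 1) (mul_one 1) hi hc).pos' p hrp
  have h5 := le_of_ng p hrp hr2 hi hc hQ hn (by omega) (fun _ => hme) hrΩ
  have h6 := add_sub_div (n := 2 * d) (m := m) h0.2
  have h7 := le_iff_div_ne_zero (m := m) h0.2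
  have h8 := Nat.zero_le (m / c)
  have h9 := Nat.zero_le (2 * d / c)
  rw [forall_inOm_odd_iff' hQ hE ((Fact.out : r.Prime).odd_of_ne_two hr2),
    forall_nt_iff p hrp hr2 hi hc hQ hn (by omega) (by omega) fun _ => hme]
  simp only [NGC, PT, hT, hr2, ne_eq, hrp, show 2 < r by omega] at h5 ⊢
  by_cases he : Even i
  · obtain rfl : c = i := by rw [hc, if_pos he]
    simp only [he, Nat.not_odd_iff_even.mpr he, false_or, false_iff, false_and, true_and, ne_eq,
      not_false_iff] at h5 ⊢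
    simp only [Nat.even_iff, Nat.odd_iff] at h5 ⊢
    omega
  · simp only [he, Nat.not_even_iff_odd.mp he, true_or, iff_true, imp_false, imp_true_iff,
      false_and, true_and, and_true, false_or, or_false, ne_eq, not_false_iff] at h5 ⊢
    omega

end Cfsg.Agent.S5990
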