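import Cfsg.Statements.S5992
import Cfsg.Agent.Known.ElusO3

set_option autoImplicit false
open scoped MatrixGroups
open Cfsg

namespace Cfsg.Agent.S5992

open Cfsg.Lib.Known Cfsg.Lib.Class Cfsg.Lib.Class.Orth QuadraticMap Module

/-- Elements of prime order r ≠ p of Ω_n(q), nq odd, with no fixed hyperbolic `m`-space. Here `T = Ω_n(F)`, `n = 2d+1 ≥ 7`, `q` odd, realised as the commutator subgroup of the isometry group of `Q = x₀² + Σ xᵢyᵢ` over the field `F` with `q` elements (trivial centre, so its elements of prime order `r` are used directly); a nondegenerate `m`-space (even `m`) is a subspace on which the polar form of `Q` is nondegenerate; it is hyperbolic if it contains an `m/2`-dimensional subspace on which `Q` vanishes, elliptic otherwise. Let `m` be even with `2 ≤ m ≤ n − 1` (no restriction `m < n/2`) and let `r ≠ p` be a prime dividing the number of hyperbolic `m`-spaces; for `r ≠ p` let `i` be the multiplicative order of `q` modulo `r`, `c = i`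 for `i` even and `c = 2i` for `i` odd, and write `k = n mod c`, `ℓ' = m mod c`. Then every element of `T` of order `r` fixes some hyperbolic `m`-space if and only if `r = 2`, or `r` is odd and one of: (i) `i` odd, `c ≤ m` and either `k > ℓ' > 0` or `ℓ' = 0`; (ii) `i` even, `i ≤ m`, `k > ℓ'`, and `m/i` even whenever `ℓ' = 0`. (`r = p` is not covered by this statement.) -/
theorem result {F : Type*} [Field F] [Fintype F] {p : ℕ} [Fact p.Prime] [CharP F p] {q : ℕ} (hq : Fintype.card F = q) (hqodd : Odd q)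
    (d m : ℕ) (hd : 3 ≤ d) (hm : 2 ≤ m) (hme : Even m) (hmn : m ≤ 2 * d)
    (r : ℕ) [Fact r.Prime] (hrp : r ≠ p)
    (hrΩ : r ∣ Nat.card {W : Submodule F (Unit ⊕ (Fin d ⊕ Fin d) → F) // Module.finrank F ↥W = m ∧ Cfsg.Geo.IsNondegenerateOn (QuadraticMap.polar (Cfsg.quadFormOdd d F)) W ∧ Cfsg.Geo.IsPlusTypeOn (Cfsg.quadFormOdd d F) W})
    (i c : ℕ) (hi : i = orderOf (q : ZMod r)) (hc : c = if Even i then i else 2 * i) :
    (∀ x : GL (Unit ⊕ (Fin d ⊕ Fin d)) F, x ∈ Cfsg.Geo.omegaGL (Cfsg.quadFormOdd d F) → orderOf x = r →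
      ∃ W : Submodule F (Unit ⊕ (Fin d ⊕ Fin d) → F), (Module.finrank F ↥W = m ∧ Cfsg.Geo.IsNondegenerateOn (QuadraticMap.polar (Cfsg.quadFormOdd d F)) W ∧ Cfsg.Geo.IsPlusTypeOn (Cfsg.quadFormOdd d F) W) ∧ W.map (Matrix.toLin' (x : Matrix (Unit ⊕ (Fin d ⊕ Fin d)) (Unit ⊕ (Fin d ⊕ Fin d)) F)) ≤ W) ↔
    (r = 2 ∨
     (2 < r ∧ Odd i ∧ c ≤ m ∧ (m % c = 0 ∨ (0 < m % c ∧ m % c < (2 * d + 1) % c))) ∨
     (2 < r ∧ Even i ∧ i ≤ m ∧ m % c < (2 * d + 1) % c ∧ (0 < m % c ∨ Even (m / i)))) := by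
  subst hq
  have h2 := two_ne_zero_of_odd_card hqodd
  have hQ := quadOdd_nondegenerate h2 d
  have hn : finrank F (Unit ⊕ (Fin d ⊕ Fin d) → F) = 2 * d + 1 := by simp; omega
  rw [← coe_quadOdd] at hrΩ ⊢
  simp only [nt_plus_iff hme] at hrΩ ⊢
  refine (forall_Om_order_iff r fun g => ∃ W, NT (quadOdd d F) m True W ∧ W.map g ≤ W).trans ?_
  by_cases hr2 : r = 2
  · subst hr2
    exact iff_of_true (exists_nt_of_odd hQ h2 (by simp [hn]) (by omega) (by omega) _) (Or.inl rfl)
  have hr := (Fact.out : r.Prime).two_le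
  have h3 := mod_mod_two (even_c hc) (2 * d + 1)
  have h4 := mod_mod_two (even_c hc) m
  have h5 := le_of_ng p hrp hr2 hi hc hQ hn (by omega) (fun _ => hme) hrΩ
  rw [forall_inOm_odd_iff hQ (not_exc_of_two_ne_zero h2) ((Fact.out : r.Prime).odd_of_ne_two hr2),
    forall_nt_iff p hrp hr2 hi hc hQ hn (by omega) (by omega) fun _ => hme, ← and_iff_right_of_imp h5]
  rw [Nat.even_iff] at hme
  simp only [NGC, PT, show (2 * d + 1) % c ≠ 0 by omega, show m % c ≠ (2 * d + 1) % c by omega,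
    le_iff_lt_or_eq (a := m % c), hr2, show 2 < r by omega]
  by_cases he : Even i
  · obtain rfl : c = i := by rw [hc, if_pos he]
    simp [he, Nat.not_odd_iff_even.mpr he, Nat.even_iff]
    omega
  · simp [he, Nat.not_even_iff_odd.mp he]
    omega

end Cfsg.Agent.S5992
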