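import Cfsg.Statements.S5994
import Cfsg.Agent.Known.ElusO5

set_option autoImplicit false
open scoped MatrixGroups
open Cfsg

namespace Cfsg.Agent.S5994

open Cfsg.Lib.Known Cfsg.Lib.Class Cfsg.Lib.Class.Orth QuadraticMap Module

/-- A necessary condition for every element of order p of PΩ⁻_n(q), q odd, to fix an elliptic `m`-space. Here `T = PΩ⁻_n(F)`, `n = 2d ≥ 8`, realised through `Ω⁻_n(q)`, the commutator subgroup of the isometry group of `Q = Σ_{i<d−1} xᵢyᵢ + z₁² + a z₁z₂ + b z₂²` with `z₁² + a z₁z₂ + b z₂²` anisotropic, over the field `F` with `q` elements; an element of `T` of prime order `r` is an element `x` of `Ω⁻_n(q)` with `x^r` scalar and `x` not scalar; `q` is odd; a nondegenerate `m`-space (even `m`) is a subspace on which the polar form of `Q` is nondegenerate; it is hyperbolic if it contains an `m/2`-dimensional subspace on which `Q` vanishes, elliptic otherwise. Let `m` be even with `2 ≤ m ≤ n − 2` and suppose `p` divides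 the number of elliptic `m`-spaces. If every element of `T` of order `p` fixes some elliptic `m`-space, then `n ≡ m (mod 4)` and every partition of `n` into parts of size at most `p` in which every even part has even multiplicity contains (as a sub-multiset) a partition of `m` in which every even part has even multiplicity. -/
theorem result {F : Type*} [Field F] [Fintype F] {p : ℕ} [Fact p.Prime] [CharP F p] {q : ℕ} (hq : Fintype.card F = q) (hqodd : Odd q)
    (d m : ℕ) (hd : 4 ≤ d) (hm : 2 ≤ m) (hme : Even m) (hmn : m + 2 ≤ 2 * d) (a b : F) (hab : ∀ x y : F, x ^ 2 + a * x * y + b * y ^ 2 = 0 → x = 0 ∧ y = 0)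
    (hpΩ : p ∣ Nat.card {W : Submodule F ((Fin (d - 1) ⊕ Fin (d - 1)) ⊕ Fin 2 → F) // Module.finrank F ↥W = m ∧ Cfsg.Geo.IsNondegenerateOn (QuadraticMap.polar (Cfsg.quadFormMinus (d - 1) F a b)) W ∧ ¬ Cfsg.Geo.IsPlusTypeOn (Cfsg.quadFormMinus (d - 1) F a b) W}) :
    (∀ x : GL ((Fin (d - 1) ⊕ Fin (d - 1)) ⊕ Fin 2) F, x ∈ Cfsg.Geo.omegaGL (Cfsg.quadFormMinus (d - 1) F a b) →
      (∃ z : F, ((x ^ p : GL ((Fin (d - 1) ⊕ Fin (d - 1)) ⊕ Fin 2) F) : Matrix ((Fin (d - 1) ⊕ Fin (d - 1)) ⊕ Fin 2) ((Fin (d - 1) ⊕ Fin (d - 1)) ⊕ Fin 2) F) = z • (1 : Matrix ((Fin (d - 1) ⊕ Fin (d - 1)) ⊕ Fin 2) ((Fin (d - 1) ⊕ Fin (d - 1)) ⊕ Fin 2) F)) →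
      (∀ z : F, (x : Matrix ((Fin (d - 1) ⊕ Fin (d - 1)) ⊕ Fin 2) ((Fin (d - 1) ⊕ Fin (d - 1)) ⊕ Fin 2) F) ≠ z • (1 : Matrix ((Fin (d - 1) ⊕ Fin (d - 1)) ⊕ Fin 2) ((Fin (d - 1) ⊕ Fin (d - 1)) ⊕ Fin 2) F)) →
      ∃ W : Submodule F ((Fin (d - 1) ⊕ Fin (d - 1)) ⊕ Fin 2 → F), (Module.finrank F ↥W = m ∧ Cfsg.Geo.IsNondegenerateOn (QuadraticMap.polar (Cfsg.quadFormMinus (d - 1) F a b)) W ∧ ¬ Cfsg.Geo.IsPlusTypeOn (Cfsg.quadFormMinus (d - 1) F a b) W) ∧ W.map (Matrix.toLin' (x : Matrix ((Fin (d - 1) ⊕ Fin (d - 1)) ⊕ Fin 2) ((Fin (d - 1) ⊕ Fin (d - 1)) ⊕ Fin 2) F)) ≤ W) →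
    ((2 * d) % 4 = m % 4 ∧ (∀ μ : Multiset ℕ, (∀ e ∈ μ, 0 < e ∧ e ≤ p) → (∀ e : ℕ, Even e → Even (μ.count e)) → μ.sum = 2 * d →
        ∃ ν : Multiset ℕ, ν ≤ μ ∧ ν.sum = m ∧ ∀ e : ℕ, Even e → Even (ν.count e))) := by
  subst hq
  have h2 := two_ne_zero_of_odd_card hqodd
  have hQ := quadMinus_nondegenerate (d - 1) hab
  have hn := finrank_minusSp (F := F) (d := d) (by omega)
  have : Nontrivial ((Fin (d - 1) ⊕ Fin (d - 1)) ⊕ Fin 2 → F) :=
    Module.nontrivial_of_finrank_pos (R := F) (by omega)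
  have h3 := three_le_char_elus (F := F) p h2
  have hp := (Fact.out : p.Prime).odd_of_ne_two (by omega)
  rw [← coe_quadMinus]
  simp only [nt_minus_iff hme]
  intro H
  replace H := (forall_inOm_odd_iff' hQ (not_exc_of_two_ne_zero h2) hp _).mp
    ((forall_Om_iff p fun g => ∃ W, NT (quadMinus (d - 1) F a b) m False W ∧ W.map g ≤ W).mp H)
  have key := fun μ h4 h5 h6 h7 => exists_le_of_forall p hQ h2 (μ := μ) (by omega) H h4 h5
    (Eq.trans h6 hn.symm) (Or.inl h7)
  rw [Nat.even_iff] at hme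
  have main : ∀ μ : Multiset ℕ, (∀ e ∈ μ, 0 < e ∧ e ≤ p) → (∀ e, Even e → Even (μ.count e)) →
      μ.sum = 2 * d → ∃ ν ≤ μ, ν.sum = m ∧ ∀ e, Even e → Even (ν.count e) := by
    intro μ h4 h5 h6
    by_cases h7 : ∃ e ∈ μ, Odd e
    · exact key μ h4 h5 h6 h7
    simp only [not_exists, not_and, Nat.not_odd_iff_even] at h7
    obtain ⟨e, he⟩ := Multiset.exists_mem_of_ne_zero (s := μ) (by rintro rfl; simp at h6; omega)
    obtain ⟨k, hk⟩ := h7 e he
    obtain ⟨μ', rfl⟩ := Multiset.le_iff_exists_add.mp (Multiset.le_count_iff_replicate_le.mp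
      (show 2 ≤ μ.count e by
        have := Multiset.count_pos.mpr he
        have := Nat.even_iff.mp (h5 e (h7 e he))
        omega))
    have h8 := h4 e he
    have h9 : ∀ a ∈ μ', a ∈ Multiset.replicate 2 e + μ' := fun a ha => Multiset.mem_add.mpr (.inr ha)
    have h10 : ∀ a, Even a → a ≠ e + 1 ∧ a ≠ e - 1 := fun a ha => by
      rw [Nat.even_iff] at ha; omega
    obtain ⟨ν, h11, h12, h13⟩ := key ((e + 1) ::ₘ (e - 1) ::ₘ μ') (by
      rw [Nat.odd_iff] at hp
      simp only [Multiset.mem_cons, forall_eq_or_imp]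
      exact ⟨by omega, by omega, fun a ha => h4 a (h9 a ha)⟩) (fun a ha => by
        have := h5 a ha
        rw [Multiset.count_add, Multiset.count_replicate] at this
        rw [Multiset.count_cons_of_ne (h10 a ha).1, Multiset.count_cons_of_ne (h10 a ha).2]
        split_ifs at this <;> simpa [Nat.even_add] using this)
      (by simp at h6 ⊢; omega) ⟨e + 1, by simp, by rw [Nat.odd_iff]; omega⟩
    obtain ⟨ν₁, ν₂, h14, h15, rfl⟩ : ∃ ν₁ ν₂, ν₁ ≤ {e + 1, e - 1} ∧ ν₂ ≤ μ' ∧ ν = ν₁ + ν₂ :=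
      ⟨ν ∩ {e + 1, e - 1}, ν - {e + 1, e - 1}, Multiset.inter_le_right,
        tsub_le_iff_left.mpr (by simpa using h11), by rw [add_comm, Multiset.sub_add_inter]⟩
    have h16 : 2 ∣ ν₂.sum := Multiset.dvd_sum fun a ha =>
      (h7 a (h9 a (Multiset.mem_of_le h15 ha))).two_dvd
    have h17 : ∀ a, Even a → Even (ν₂.count a) := fun a ha => by
      have := h13 a ha
      rwa [Multiset.count_add, Multiset.count_eq_zero.mpr fun h => by
        simpa [h10 a ha] using Multiset.mem_of_le h14 h, zero_add] at this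
    obtain ⟨x, hx, y, hy, rfl⟩ := le_replicate_add_replicate (k := 1) (j := 1).mp h14
    simp only [Multiset.sum_add, Multiset.sum_replicate, smul_eq_mul] at h12
    interval_cases x <;> interval_cases y
    · exact ⟨ν₂, h15.trans (Multiset.le_add_left _ _), by omega, h17⟩
    · omega
    · omega
    · refine ⟨_, add_le_add_right h15 _, by simp; omega, fun a ha => ?_⟩
      rw [Multiset.count_add, Multiset.count_replicate]
      split_ifs <;> simpa [Nat.even_add] using h17 a ha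
  refine ⟨?_, main⟩
  by_cases h4 : d % 2 = 0
  · obtain ⟨ν, h5, h6, h7⟩ := main (Multiset.replicate d 2)
      (by simp +contextual [Multiset.mem_replicate]; omega) (fun e _ => by
        rw [Multiset.count_replicate]
        split_ifs <;> simp [Nat.even_iff, h4]) (by simp [mul_comm])
    obtain ⟨k, -, rfl⟩ := Multiset.le_replicate_iff.mp h5
    have := Nat.even_iff.mp (h7 2 even_two)
    simp at h6 this
    omega
  · obtain ⟨x, y, h5, h6, h7, -⟩ := exists_two_of_forall p hQ h2 H (a := d / 2) (b := 2)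
      (by omega) (Or.inl rfl) (by omega) (by simp)
    have : y ≠ 0 := h7
    omega

end Cfsg.Agent.S5994
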